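import Cfsg.Statements.S1035
import Cfsg.Agent.Helper11.ChevTorusAll
import Mathlib

set_option autoImplicit false
open Cfsg

namespace Cfsg.Agent.S1035

open Cfsg.Lie Cfsg.Agent.Helper11


/-- `d · |H| = (q - 1)^rank` over a field with `q` elements, with `d = 1` (G₂, F₄, E₈), `gcd(3, q-1)` (E₆), `gcd(2, q-1)` (E₇, B₂), `gcd(2, q-1)²` (D₄). -/
theorem result {F : Type*} [Field F] [Fintype F] {q : ℕ} (hq : Fintype.card F = q)
    (p : Cfsg.Lie.ChevalleyDatum × ℕ)
    (hp : p ∈ [(Cfsg.Lie.chevG2, 1), (Cfsg.Lie.chevF4, 1), (Cfsg.Lie.chevE8, 1), (Cfsg.Lie.chevE6, Nat.gcd 3 (q - 1)),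
      (Cfsg.Lie.chevE7, Nat.gcd 2 (q - 1)), (Cfsg.Lie.chevB2, Nat.gcd 2 (q - 1)), (Cfsg.Lie.chevD4, Nat.gcd 2 (q - 1) ^ 2)]) :
    p.2 * Nat.card (p.1.diagonalSubgroup F) = (q - 1) ^ p.1.rank := by
  subst hq
  simp only [List.mem_cons, List.mem_nil_iff, or_false] at hp
  have key : ∀ k : ℕ, Nat.gcd k (Fintype.card F - 1) *
      ((Fintype.card F - 1) / Nat.gcd (Fintype.card F - 1) k) = Fintype.card F - 1 := by
    intro k
    rw [Nat.gcd_comm]
    exact Nat.mul_div_cancel' (Nat.gcd_dvd_left _ _)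
  rcases hp with rfl | rfl | rfl | rfl | rfl | rfl | rfl
  · show 1 * Nat.card ↥(chevG2.diagonalSubgroup F) = (Fintype.card F - 1) ^ 2
    rw [card_H (D := chevG2) (F := F) (by simp) _ _ _ _ _ _ smith_G2]
    simp only [List.map_cons, List.map_nil, List.prod_cons, List.prod_nil, Nat.gcd_one_right,
      Nat.div_one, mul_one]
    ring
  · show 1 * Nat.card ↥(chevF4.diagonalSubgroup F) = (Fintype.card F - 1) ^ 4
    rw [card_H (D := chevF4) (F := F) (by simp) _ _ _ _ _ _ smith_F4]
    simp only [List.map_cons, List.map_nil, List.prod_cons, List.prod_nil, Nat.gcd_one_right,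
      Nat.div_one, mul_one]
    ring
  · show 1 * Nat.card ↥(chevE8.diagonalSubgroup F) = (Fintype.card F - 1) ^ 8
    rw [card_H (D := chevE8) (F := F) (by simp) _ _ _ _ _ _ smith_E8]
    simp only [List.map_cons, List.map_nil, List.prod_cons, List.prod_nil, Nat.gcd_one_right,
      Nat.div_one, mul_one]
    ring
  · show Nat.gcd 3 (Fintype.card F - 1) * Nat.card ↥(chevE6.diagonalSubgroup F) =
      (Fintype.card F - 1) ^ 6
    rw [card_H (D := chevE6) (F := F) (by simp) _ _ _ _ _ _ smith_E6]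
    simp only [List.map_cons, List.map_nil, List.prod_cons, List.prod_nil, Nat.gcd_one_right,
      Nat.div_one, mul_one]
    have h := key 3
    generalize (Fintype.card F - 1) / Nat.gcd (Fintype.card F - 1) 3 = x at h ⊢
    generalize Nat.gcd 3 (Fintype.card F - 1) = g at h ⊢
    generalize Fintype.card F - 1 = m at h ⊢
    calc _ = (g * x) * m ^ 5 := by ring
      _ = _ := by rw [h]; ring
  · show Nat.gcd 2 (Fintype.card F - 1) * Nat.card ↥(chevE7.diagonalSubgroup F) =
      (Fintype.card F - 1) ^ 7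
    rw [card_H (D := chevE7) (F := F) (by simp) _ _ _ _ _ _ smith_E7]
    simp only [List.map_cons, List.map_nil, List.prod_cons, List.prod_nil, Nat.gcd_one_right,
      Nat.div_one, mul_one]
    have h := key 2
    generalize (Fintype.card F - 1) / Nat.gcd (Fintype.card F - 1) 2 = x at h ⊢
    generalize Nat.gcd 2 (Fintype.card F - 1) = g at h ⊢
    generalize Fintype.card F - 1 = m at h ⊢
    calc _ = (g * x) * m ^ 6 := by ring
      _ = _ := by rw [h]; ring
  · show Nat.gcd 2 (Fintype.card F - 1) * Nat.card ↥(chevB2.diagonalSubgroup F) =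
      (Fintype.card F - 1) ^ 2
    rw [card_H (D := chevB2) (F := F) (by simp) _ _ _ _ _ _ smith_B2]
    simp only [List.map_cons, List.map_nil, List.prod_cons, List.prod_nil, Nat.gcd_one_right,
      Nat.div_one, mul_one]
    have h := key 2
    generalize (Fintype.card F - 1) / Nat.gcd (Fintype.card F - 1) 2 = x at h ⊢
    generalize Nat.gcd 2 (Fintype.card F - 1) = g at h ⊢
    generalize Fintype.card F - 1 = m at h ⊢
    calc _ = (g * x) * m := by ring
      _ = _ := by rw [h]; ring
  · show Nat.gcd 2 (Fintype.card F - 1) ^ 2 * Nat.card ↥(chevD4.diagonalSubgroup F) =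
      (Fintype.card F - 1) ^ 4
    rw [card_H (D := chevD4) (F := F) (by simp) _ _ _ _ _ _ smith_D4]
    simp only [List.map_cons, List.map_nil, List.prod_cons, List.prod_nil, Nat.gcd_one_right,
      Nat.div_one, mul_one]
    have h := key 2
    generalize (Fintype.card F - 1) / Nat.gcd (Fintype.card F - 1) 2 = x at h ⊢
    generalize Nat.gcd 2 (Fintype.card F - 1) = g at h ⊢
    generalize Fintype.card F - 1 = m at h ⊢
    calc _ = (g * x) * (g * x) * m ^ 2 := by ring
      _ = _ := by rw [h]; ring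

end Cfsg.Agent.S1035
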