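import Cfsg.Statements.S1060
import Cfsg.Agent.Helper11.ChevOrdFinB2
import Cfsg.Agent.S1035
import Mathlib

set_option autoImplicit false
open Cfsg

namespace Cfsg.Agent.S1060

open Cfsg.Lie Cfsg.Agent.Helper11


/-- `gcd(2, q-1) · |B₂(q)| = q⁴ (q² - 1)(q⁴ - 1)`. -/
theorem result {F : Type*} [Field F] [Fintype F] {q : ℕ} (hq : Fintype.card F = q) : Nat.gcd 2 (q - 1) * Nat.card ↥(Cfsg.Lie.chevB2.group F) = q ^ 4 * (q ^ 2 - 1) * (q ^ 4 - 1) := by
  subst hq
  have hD : Seven chevB2 := by simp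
  haveI hNorm := HN_normal (F := F) hD
  letI : Fintype (↥(chevB2.monomialSubgroup F) ⧸ HN chevB2 F) := Fintype.ofFinite _
  have h1 := card_group_eq (F := F) hD
  rw [weyl_sum_B2 (F := F) hD (Fintype.card F)] at h1
  have h2 := Cfsg.Agent.S1035.result (F := F) (q := Fintype.card F) rfl (chevB2, Nat.gcd 2 (Fintype.card F - 1)) (by simp)
  have hq0 : 0 < Fintype.card F := Fintype.card_pos
  have key := order_core _ _ _ (chevB2.nroots / 2) chevB2.rank (Nat.gcd 2 (Fintype.card F - 1)) _ _ h1 h2 hq0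
    (ordPoly_B2 (Fintype.card F) hq0)
  rw [key]
  show Fintype.card F ^ 4 * ((Fintype.card F ^ 2 - 1) * (Fintype.card F ^ 4 - 1)) = _
  ring

end Cfsg.Agent.S1060
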