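import Cfsg.Statements.S0566
import Cfsg.Agent.S0540

set_option autoImplicit false
open Cfsg
open scoped Pointwise

namespace Cfsg.Agent.S0566

theorem conj_mem_smul {G : Type*} [Group G] (c b : G) (B : Subgroup G) (hb : b ∈ B) :
    c * b * c⁻¹ ∈ (MulAut.conj c • B : Subgroup G) := by
  rw [Subgroup.mem_smul_pointwise_iff_exists]
  exact ⟨b, hb, rfl⟩

theorem exists_of_mem_smul {G : Type*} [Group G] (c y : G) (B : Subgroup G)
    (hy : y ∈ (MulAut.conj c • B : Subgroup G)) : ∃ b ∈ B, y = c * b * c⁻¹ := by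
  obtain ⟨b, hb, rfl⟩ := (Subgroup.mem_smul_pointwise_iff_exists _ _ _).mp hy
  exact ⟨b, hb, rfl⟩

/-- if `X*C` and `Y*C` are subgroups then so is `(X ⊔ Y) * C` -/
theorem perm_sup {G : Type*} [Group G] (X Y C : Subgroup G)
    (hX : ∃ S : Subgroup G, (S : Set G) = (X : Set G) * (C : Set G))
    (hY : ∃ S : Subgroup G, (S : Set G) = (Y : Set G) * (C : Set G)) :
    ∃ S : Subgroup G, (S : Set G) = ((X ⊔ Y : Subgroup G) : Set G) * (C : Set G) := by
  have swap : ∀ Z : Subgroup G, (∃ S : Subgroup G, (S : Set G) = (Z : Set G) * (C : Set G)) →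
      ∀ z ∈ Z, ∀ c ∈ C, (∃ z' ∈ Z, ∃ c' ∈ C, c * z = z' * c') ∧
        (∃ z' ∈ Z, ∃ c' ∈ C, z * c = c' * z') := by
    rintro Z ⟨S, hS⟩ z hz c hc
    have hzS : z ∈ S := by
      have : z ∈ (S : Set G) := by
        rw [hS]; exact Set.mem_mul.mpr ⟨z, hz, 1, C.one_mem, mul_one z⟩
      exact this
    have hcS : c ∈ S := by
      have : c ∈ (S : Set G) := by
        rw [hS]; exact Set.mem_mul.mpr ⟨1, Z.one_mem, c, hc, one_mul c⟩
      exact this
    constructor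
    · have h1 : c * z ∈ (S : Set G) := S.mul_mem hcS hzS
      rw [hS] at h1
      obtain ⟨z', hz', c', hc', h⟩ := Set.mem_mul.mp h1
      exact ⟨z', hz', c', hc', h.symm⟩
    · have h1 : (z * c)⁻¹ ∈ (S : Set G) := S.inv_mem (S.mul_mem hzS hcS)
      rw [hS] at h1
      obtain ⟨z', hz', c', hc', h⟩ := Set.mem_mul.mp h1
      refine ⟨z'⁻¹, Z.inv_mem hz', c'⁻¹, C.inv_mem hc', ?_⟩
      have : z * c = (z' * c')⁻¹ := by rw [h, inv_inv]
      rw [this, mul_inv_rev]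
  let W : Subgroup G :=
    { carrier := {w | w ∈ X ⊔ Y ∧ (∀ c ∈ C, ∃ w' ∈ X ⊔ Y, ∃ c' ∈ C, c * w = w' * c') ∧
          (∀ c ∈ C, ∃ w' ∈ X ⊔ Y, ∃ c' ∈ C, w * c = c' * w')}
      one_mem' := ⟨one_mem _, fun c hc => ⟨1, one_mem _, c, hc, by simp⟩,
        fun c hc => ⟨1, one_mem _, c, hc, by simp⟩⟩
      mul_mem' := by
        rintro a b ⟨ha, ha1, ha2⟩ ⟨hb, hb1, hb2⟩
        refine ⟨mul_mem ha hb, fun c hc => ?_, fun c hc => ?_⟩
        · obtain ⟨a', ha', c', hc', h1⟩ := ha1 c hc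
          obtain ⟨b', hb', c'', hc'', h2⟩ := hb1 c' hc'
          refine ⟨a' * b', mul_mem ha' hb', c'', hc'', ?_⟩
          rw [← mul_assoc, h1, mul_assoc, h2]; simp only [mul_assoc]
        · obtain ⟨b', hb', c', hc', h1⟩ := hb2 c hc
          obtain ⟨a', ha', c'', hc'', h2⟩ := ha2 c' hc'
          refine ⟨a' * b', mul_mem ha' hb', c'', hc'', ?_⟩
          rw [mul_assoc, h1, ← mul_assoc, h2]; simp only [mul_assoc]
      inv_mem' := by
        rintro a ⟨ha, ha1, ha2⟩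
        refine ⟨inv_mem ha, fun c hc => ?_, fun c hc => ?_⟩
        · obtain ⟨a', ha', c', hc', h1⟩ := ha2 c⁻¹ (inv_mem hc)
          refine ⟨a'⁻¹, inv_mem ha', c'⁻¹, inv_mem hc', ?_⟩
          have : c * a⁻¹ = (a * c⁻¹)⁻¹ := by simp
          rw [this, h1, mul_inv_rev]
        · obtain ⟨a', ha', c', hc', h1⟩ := ha1 c⁻¹ (inv_mem hc)
          refine ⟨a'⁻¹, inv_mem ha', c'⁻¹, inv_mem hc', ?_⟩
          have : a⁻¹ * c = (c⁻¹ * a)⁻¹ := by simp
          rw [this, h1, mul_inv_rev] }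
  have hXW : X ≤ W := fun x hx => ⟨Subgroup.mem_sup_left hx,
      fun c hc => by
        obtain ⟨z', hz', c', hc', h⟩ := (swap X hX x hx c hc).1
        exact ⟨z', Subgroup.mem_sup_left hz', c', hc', h⟩,
      fun c hc => by
        obtain ⟨z', hz', c', hc', h⟩ := (swap X hX x hx c hc).2
        exact ⟨z', Subgroup.mem_sup_left hz', c', hc', h⟩⟩
  have hYW : Y ≤ W := fun x hx => ⟨Subgroup.mem_sup_right hx,
      fun c hc => by
        obtain ⟨z', hz', c', hc', h⟩ := (swap Y hY x hx c hc).1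
        exact ⟨z', Subgroup.mem_sup_right hz', c', hc', h⟩,
      fun c hc => by
        obtain ⟨z', hz', c', hc', h⟩ := (swap Y hY x hx c hc).2
        exact ⟨z', Subgroup.mem_sup_right hz', c', hc', h⟩⟩
  have hW : ∀ w ∈ X ⊔ Y, ∀ c ∈ C, ∃ w' ∈ X ⊔ Y, ∃ c' ∈ C, c * w = w' * c' :=
    fun w hw c hc => ((sup_le hXW hYW) hw).2.1 c hc
  refine ⟨{ carrier := ((X ⊔ Y : Subgroup G) : Set G) * (C : Set G)
            one_mem' := Set.mem_mul.mpr ⟨1, one_mem _, 1, one_mem _, mul_one 1⟩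
            mul_mem' := ?_
            inv_mem' := ?_ }, rfl⟩
  · intro a b ha hb
    obtain ⟨w₁, hw₁, c₁, hc₁, rfl⟩ := Set.mem_mul.mp ha
    obtain ⟨w₂, hw₂, c₂, hc₂, rfl⟩ := Set.mem_mul.mp hb
    have hw₁' : w₁ ∈ X ⊔ Y := hw₁
    have hc₂' : c₂ ∈ C := hc₂
    obtain ⟨w', hw', c', hc', h⟩ := hW w₂ hw₂ c₁ hc₁
    refine Set.mem_mul.mpr ⟨w₁ * w', (mul_mem hw₁' hw' : w₁ * w' ∈ X ⊔ Y), c' * c₂,
      (mul_mem hc' hc₂' : c' * c₂ ∈ C), ?_⟩
    calc w₁ * w' * (c' * c₂) = w₁ * (w' * c') * c₂ := by simp only [mul_assoc]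
      _ = w₁ * (c₁ * w₂) * c₂ := by rw [h]
      _ = w₁ * c₁ * (w₂ * c₂) := by simp only [mul_assoc]
  · intro a ha
    obtain ⟨w₁, hw₁, c₁, hc₁, rfl⟩ := Set.mem_mul.mp ha
    have hw₁' : w₁ ∈ X ⊔ Y := hw₁
    have hc₁' : c₁ ∈ C := hc₁
    obtain ⟨w', hw', c', hc', h⟩ := hW w₁⁻¹ (inv_mem hw₁') c₁⁻¹ (inv_mem hc₁')
    exact Set.mem_mul.mpr ⟨w', hw', c', hc', by rw [← h, mul_inv_rev]⟩

/-- conjugating a permutable pair -/
theorem conj_perm {G : Type*} [Group G] (A C S : Subgroup G) (b : G)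
    (hS : (S : Set G) = (A : Set G) * ((MulAut.conj b⁻¹ • C : Subgroup G) : Set G)) :
    ((MulAut.conj b • S : Subgroup G) : Set G) =
      ((MulAut.conj b • A : Subgroup G) : Set G) * (C : Set G) := by
  ext g
  constructor
  · intro hg
    obtain ⟨s, hs, rfl⟩ := exists_of_mem_smul b g S hg
    have hs' : s ∈ (S : Set G) := hs
    rw [hS] at hs'
    obtain ⟨a, ha, c, hc, rfl⟩ := Set.mem_mul.mp hs'
    obtain ⟨c₀, hc₀, rfl⟩ := exists_of_mem_smul b⁻¹ c C hc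
    refine Set.mem_mul.mpr ⟨b * a * b⁻¹, conj_mem_smul b a A ha, c₀, hc₀, ?_⟩
    group
  · intro hg
    obtain ⟨a', ha', c', hc', rfl⟩ := Set.mem_mul.mp hg
    obtain ⟨a, ha, rfl⟩ := exists_of_mem_smul b a' A ha'
    have hc'' : b⁻¹ * c' * b⁻¹⁻¹ ∈ (MulAut.conj b⁻¹ • C : Subgroup G) := conj_mem_smul b⁻¹ c' C hc'
    have hmem : a * (b⁻¹ * c' * b⁻¹⁻¹) ∈ (S : Set G) := by
      rw [hS]; exact Set.mem_mul.mpr ⟨a, ha, _, hc'', rfl⟩
    have h1 := conj_mem_smul b _ S hmem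
    have e : b * (a * (b⁻¹ * c' * b⁻¹⁻¹)) * b⁻¹ = b * a * b⁻¹ * c' := by group
    rw [e] at h1
    exact h1

theorem main {G : Type*} [Group G] [Finite G] : ∀ (n : ℕ) (A B : Subgroup G), A ≠ ⊥ → B ≠ ⊥ →
    (∀ x : G, ∃ S : Subgroup G, S ≠ ⊤ ∧
      (S : Set G) = (A : Set G) * ((MulAut.conj x • B : Subgroup G) : Set G)) →
    Nat.card G - Nat.card A = n →
    ∃ N : Subgroup G, N.Normal ∧ N ≠ ⊤ ∧ (A ≤ N ∨ B ≤ N) := by
  intro n
  induction n using Nat.strong_induction_on with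
  | _ n ih =>
  intro A B hA hB h hn
  by_cases hAc : Subgroup.normalClosure (A : Set G) = ⊤
  swap
  · exact ⟨_, Subgroup.normalClosure_normal, hAc, Or.inl Subgroup.le_normalClosure⟩
  by_cases hBc : Subgroup.normalClosure (B : Set G) = ⊤
  swap
  · exact ⟨_, Subgroup.normalClosure_normal, hBc, Or.inr Subgroup.le_normalClosure⟩
  have hAtop : A ≠ ⊤ := by
    obtain ⟨S, hS, hSe⟩ := h 1
    intro hA'
    apply hS
    rw [eq_top_iff]
    intro g _
    have : g ∈ (S : Set G) := by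
      rw [hSe]
      exact Set.mem_mul.mpr ⟨g, by rw [hA']; trivial, 1, one_mem _, mul_one g⟩
    exact this
  have hAnn : ¬ A.Normal := by
    intro hAn
    apply hAtop
    rw [← hAc]
    exact (Subgroup.normalClosure_eq_self A).symm
  have hex : ∃ x : G, ∃ b ∈ (MulAut.conj x • B : Subgroup G), ¬ (MulAut.conj b • A ≤ A) := by
    by_contra hcon
    push_neg at hcon
    apply hAnn
    have hle : Subgroup.normalClosure (B : Set G) ≤ Subgroup.normalizer (A : Set G) := by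
      show Subgroup.closure (Group.conjugatesOfSet (B : Set G)) ≤ _
      rw [Subgroup.closure_le]
      intro y hy
      obtain ⟨b, hb, hconj⟩ := Group.mem_conjugatesOfSet_iff.mp hy
      obtain ⟨c, rfl⟩ := isConj_iff.mp hconj
      exact Cfsg.Agent.S0540.mem_normalizer_of_smul_le A _ (hcon c _ (conj_mem_smul c b B hb))
    rw [hBc, top_le_iff] at hle
    exact Subgroup.normalizer_eq_top_iff.mp hle
  obtain ⟨x, b, hb, hbA⟩ := hex
  obtain ⟨B', hB'⟩ : ∃ B' : Subgroup G, B' = MulAut.conj x • B := ⟨_, rfl⟩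
  rw [← hB'] at hb
  have h' : ∀ z : G, ∃ S : Subgroup G, S ≠ ⊤ ∧
      (S : Set G) = (A : Set G) * ((MulAut.conj z • B' : Subgroup G) : Set G) := by
    intro z
    obtain ⟨S, hS, hSe⟩ := h (z * x)
    refine ⟨S, hS, ?_⟩
    rw [hSe, hB', smul_smul, ← map_mul]
  have hA₁ : ∀ z : G, ∃ S : Subgroup G,
      (S : Set G) = ((A ⊔ MulAut.conj b • A : Subgroup G) : Set G) *
        ((MulAut.conj z • B' : Subgroup G) : Set G) := by
    intro z
    apply perm_sup
    · obtain ⟨S, _, hSe⟩ := h' z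
      exact ⟨S, hSe⟩
    · obtain ⟨S, _, hSe⟩ := h' (b⁻¹ * z)
      refine ⟨MulAut.conj b • S, ?_⟩
      apply conj_perm
      rw [hSe, smul_smul, ← map_mul]
  have hlt : Nat.card A < Nat.card ↥(A ⊔ MulAut.conj b • A) := by
    apply lt_of_le_of_ne (Subgroup.card_le_of_le le_sup_left)
    intro heq
    apply hbA
    have h1 : A ⊔ MulAut.conj b • A ≤ A := (Subgroup.eq_of_le_of_card_ge le_sup_left heq.ge).ge
    exact le_sup_right.trans h1
  have hB'ne : B' ≠ ⊥ := by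
    intro h0
    apply hB
    rw [eq_bot_iff]
    intro y hy
    have h1 := conj_mem_smul x y B hy
    rw [← hB', h0, Subgroup.mem_bot] at h1
    rw [Subgroup.mem_bot]
    have : y = x⁻¹ * (x * y * x⁻¹) * x := by group
    rw [this, h1]; group
  have hA₁ne : A ⊔ MulAut.conj b • A ≠ ⊥ := by
    intro h0
    apply hA
    rw [eq_bot_iff, ← h0]
    exact le_sup_left
  by_cases hall : ∀ z : G, ∀ S : Subgroup G,
      (S : Set G) = ((A ⊔ MulAut.conj b • A : Subgroup G) : Set G) *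
        ((MulAut.conj z • B' : Subgroup G) : Set G) → S ≠ ⊤
  · have hcardle := Subgroup.card_le_card_group (A ⊔ MulAut.conj b • A)
    have hcardle' := Subgroup.card_le_card_group A
    obtain ⟨N, hN, hNtop, hor⟩ := ih (Nat.card G - Nat.card ↥(A ⊔ MulAut.conj b • A)) (by omega)
      (A ⊔ MulAut.conj b • A) B' hA₁ne hB'ne
      (fun z => by
        obtain ⟨S, hS⟩ := hA₁ z
        exact ⟨S, hall z S hS, hS⟩) rfl
    refine ⟨N, hN, hNtop, ?_⟩
    rcases hor with h1 | h1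
    · exact Or.inl (le_sup_left.trans h1)
    · right
      intro y hy
      have h2 : x * y * x⁻¹ ∈ N := h1 (hB' ▸ conj_mem_smul x y B hy)
      have h3 := hN.conj_mem _ h2 x⁻¹
      have : x⁻¹ * (x * y * x⁻¹) * x⁻¹⁻¹ = y := by group
      rwa [this] at h3
  · exfalso
    push_neg at hall
    obtain ⟨z, S, hSe, hStop⟩ := hall
    have huniv : ∀ g : G, ∃ a ∈ A ⊔ MulAut.conj b • A,
        ∃ c ∈ (MulAut.conj z • B' : Subgroup G), a * c = g := by
      intro g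
      have : g ∈ (S : Set G) := by rw [hStop]; trivial
      rw [hSe] at this
      exact Set.mem_mul.mp this
    obtain ⟨S₀, hS₀top, hS₀⟩ := h' 1
    rw [map_one, one_smul] at hS₀
    have hAS : A ≤ S₀ := fun a ha => by
      have : a ∈ (S₀ : Set G) := by
        rw [hS₀]; exact Set.mem_mul.mpr ⟨a, ha, 1, one_mem _, mul_one a⟩
      exact this
    have hBS : B' ≤ S₀ := fun c hc => by
      have : c ∈ (S₀ : Set G) := by
        rw [hS₀]; exact Set.mem_mul.mpr ⟨1, one_mem _, c, hc, one_mul c⟩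
      exact this
    have hbS : b ∈ S₀ := hBS hb
    have hA₁S : A ⊔ MulAut.conj b • A ≤ S₀ := by
      apply sup_le hAS
      intro y hy
      obtain ⟨a, ha, rfl⟩ := exists_of_mem_smul b y A hy
      exact mul_mem (mul_mem hbS (hAS ha)) (inv_mem hbS)
    apply hS₀top
    rw [eq_top_iff]
    intro g _
    obtain ⟨a, ha, c, hc, hac⟩ := huniv z⁻¹
    obtain ⟨b₂, hb₂, rfl⟩ := exists_of_mem_smul z c B' hc
    obtain ⟨a₁, ha₁, c₁, hc₁, h1⟩ := huniv (a⁻¹ * g * a)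
    obtain ⟨b₁, hb₁, rfl⟩ := exists_of_mem_smul z c₁ B' hc₁
    have haz : a * z * b₂ = 1 := by
      calc a * z * b₂ = a * (z * b₂ * z⁻¹) * z := by group
        _ = z⁻¹ * z := by rw [hac]
        _ = 1 := inv_mul_cancel z
    have hb₂' : b₂ = (a * z)⁻¹ := (eq_inv_of_mul_eq_one_right haz)
    have hg1 : g = a * (a₁ * (z * b₁ * z⁻¹)) * a⁻¹ := by rw [h1]; group
    have hg : g = (a * a₁ * a⁻¹) * (b₂⁻¹ * b₁ * b₂) := by
      rw [hg1, hb₂']; group
    rw [hg]
    exact mul_mem (hA₁S (mul_mem (mul_mem ha ha₁) (inv_mem ha)))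
      (hBS (mul_mem (mul_mem (inv_mem hb₂) hb₁) hb₂))

/-- Let A and B be nontrivial subgroups of a finite group G such that for every x the product set of A and xBx⁻¹ is a proper subgroup of G. Then there is a proper normal subgroup of G containing A or containing B. -/
theorem result {G : Type*} [Group G] [Finite G] (A B : Subgroup G) (hA : A ≠ ⊥) (hB : B ≠ ⊥) (h : ∀ x : G, ∃ S : Subgroup G, S ≠ ⊤ ∧ (S : Set G) = (A : Set G) * ((MulAut.conj x • B : Subgroup G) : Set G)) : ∃ N : Subgroup G, N.Normal ∧ N ≠ ⊤ ∧ (A ≤ N ∨ B ≤ N) := by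
  exact main _ A B hA hB h rfl

end Cfsg.Agent.S0566
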