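import Cfsg.Statements.S0560
import Cfsg.Agent.Helper15.CD
import Cfsg.Agent.Helper16.Card

set_option autoImplicit false
open Cfsg
open scoped Pointwise

namespace Cfsg.Agent.S0560

theorem card_prod_eq {G : Type*} [Group G] [Finite G] (H K : Subgroup G)
    (hHK : ∀ g : G, ∃ h ∈ H, ∃ k ∈ K, g = h * k) :
    Nat.card H * Nat.card K = Nat.card G * Nat.card ↥(H ⊓ K) := by
  apply le_antisymm _ (Cfsg.Agent.Helper16.card_mul_card_inf_le_of_prod H K hHK)
  have h1 := Cfsg.Agent.Helper15.card_mul_card_le H K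
  have h2 : Nat.card ↥(H ⊔ K) ≤ Nat.card G := Subgroup.card_le_card_group _
  exact h1.trans (Nat.mul_le_mul_right _ h2)

/-- Let the finite group G be the product HK of two subgroups and p a prime. Then there are Sylow p-subgroups P of H and Q of K and a Sylow p-subgroup R of G whose underlying set is the product set of P and Q. -/
theorem result {G : Type*} [Group G] [Finite G] (H K : Subgroup G) (hHK : ∀ g : G, ∃ h ∈ H, ∃ k ∈ K, g = h * k) (p : ℕ) [Fact p.Prime] : ∃ (P : Sylow p H) (Q : Sylow p K) (R : Sylow p G), ((R : Subgroup G) : Set G) = (((P : Subgroup H).map H.subtype : Subgroup G) : Set G) * (((Q : Subgroup K).map K.subtype : Subgroup G) : Set G) := by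
  have hp : p.Prime := Fact.out
  obtain ⟨P₀⟩ : Nonempty (Sylow p H) := inferInstance
  obtain ⟨Q₀⟩ : Nonempty (Sylow p K) := inferInstance
  have hP₀p : IsPGroup p ↥((P₀ : Subgroup H).map H.subtype) := P₀.isPGroup'.map H.subtype
  have hQ₀p : IsPGroup p ↥((Q₀ : Subgroup K).map K.subtype) := Q₀.isPGroup'.map K.subtype
  obtain ⟨R₁, hR₁⟩ := hP₀p.exists_le_sylow
  obtain ⟨R₂, hR₂⟩ := hQ₀p.exists_le_sylow
  obtain ⟨g, hg⟩ := MulAction.exists_smul_eq G R₁ R₂
  obtain ⟨h', hh', k', hk', hgk⟩ := hHK g⁻¹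
  have hkg : k' * g = h'⁻¹ := by
    have h1 : g = (h' * k')⁻¹ := by rw [← hgk, inv_inv]
    rw [h1, mul_inv_rev, mul_inv_cancel_left]
  have hRR : (MulAut.conj h'⁻¹ • (R₁ : Subgroup G) : Subgroup G) =
      MulAut.conj k' • (R₂ : Subgroup G) := by
    rw [← hg, Sylow.coe_subgroup_smul, smul_smul, ← map_mul, hkg]
  refine ⟨(⟨h'⁻¹, inv_mem hh'⟩ : H) • P₀, (⟨k', hk'⟩ : K) • Q₀, h'⁻¹ • R₁, ?_⟩
  have hPR : ((((⟨h'⁻¹, inv_mem hh'⟩ : H) • P₀ : Sylow p H) : Subgroup H).map H.subtype) ≤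
      ((h'⁻¹ • R₁ : Sylow p G) : Subgroup G) := by
    rintro y ⟨x, hx, rfl⟩
    have hx' : x ∈ (MulAut.conj (⟨h'⁻¹, inv_mem hh'⟩ : H) • (P₀ : Subgroup H) : Subgroup H) := hx
    obtain ⟨x₀, hx₀, rfl⟩ := (Subgroup.mem_smul_pointwise_iff_exists _ _ _).mp hx'
    show _ ∈ (MulAut.conj h'⁻¹ • (R₁ : Subgroup G) : Subgroup G)
    rw [Subgroup.mem_smul_pointwise_iff_exists]
    exact ⟨(x₀ : G), hR₁ (Subgroup.mem_map_of_mem _ hx₀), rfl⟩
  have hQR : ((((⟨k', hk'⟩ : K) • Q₀ : Sylow p K) : Subgroup K).map K.subtype) ≤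
      ((h'⁻¹ • R₁ : Sylow p G) : Subgroup G) := by
    rintro y ⟨x, hx, rfl⟩
    have hx' : x ∈ (MulAut.conj (⟨k', hk'⟩ : K) • (Q₀ : Subgroup K) : Subgroup K) := hx
    obtain ⟨x₀, hx₀, rfl⟩ := (Subgroup.mem_smul_pointwise_iff_exists _ _ _).mp hx'
    show _ ∈ (MulAut.conj h'⁻¹ • (R₁ : Subgroup G) : Subgroup G)
    rw [hRR, Subgroup.mem_smul_pointwise_iff_exists]
    exact ⟨(x₀ : G), hR₂ (Subgroup.mem_map_of_mem _ hx₀), rfl⟩
  obtain ⟨P', hP'⟩ : ∃ P' : Subgroup G,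
      P' = (((⟨h'⁻¹, inv_mem hh'⟩ : H) • P₀ : Sylow p H) : Subgroup H).map H.subtype := ⟨_, rfl⟩
  obtain ⟨Q', hQ'⟩ : ∃ Q' : Subgroup G,
      Q' = ((((⟨k', hk'⟩ : K) • Q₀ : Sylow p K) : Subgroup K).map K.subtype) := ⟨_, rfl⟩
  obtain ⟨R, hR⟩ : ∃ R : Sylow p G, R = h'⁻¹ • R₁ := ⟨_, rfl⟩
  rw [← hP', ← hQ', ← hR]
  rw [← hP', ← hR] at hPR
  rw [← hQ', ← hR] at hQR
  have cP : Nat.card P' = p ^ (Nat.card H).factorization p := by
    rw [hP', Subgroup.card_map_of_injective H.subtype_injective]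
    exact Sylow.card_eq_multiplicity _
  have cQ : Nat.card Q' = p ^ (Nat.card K).factorization p := by
    rw [hQ', Subgroup.card_map_of_injective K.subtype_injective]
    exact Sylow.card_eq_multiplicity _
  have cR : Nat.card (R : Subgroup G) = p ^ (Nat.card G).factorization p :=
    Sylow.card_eq_multiplicity R
  have hP'H : P' ≤ H := by rw [hP']; exact Subgroup.map_subtype_le _
  have hQ'K : Q' ≤ K := by rw [hQ']; exact Subgroup.map_subtype_le _
  have hIp : IsPGroup p ↥(P' ⊓ Q') := R.isPGroup'.to_le (inf_le_left.trans hPR)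
  obtain ⟨j, hj⟩ := IsPGroup.iff_card.mp hIp
  have hjd : p ^ j ∣ Nat.card ↥(H ⊓ K) := by
    rw [← hj]; exact Subgroup.card_dvd_of_le (inf_le_inf hP'H hQ'K)
  have hjle : j ≤ (Nat.card ↥(H ⊓ K)).factorization p :=
    (hp.pow_dvd_iff_le_factorization Nat.card_pos.ne').mp hjd
  have hfac : (Nat.card H).factorization p + (Nat.card K).factorization p =
      (Nat.card G).factorization p + (Nat.card ↥(H ⊓ K)).factorization p := by
    have h0 : (Nat.card H * Nat.card K).factorization p =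
        (Nat.card G * Nat.card ↥(H ⊓ K)).factorization p := by rw [card_prod_eq H K hHK]
    rw [Nat.factorization_mul Nat.card_pos.ne' Nat.card_pos.ne',
      Nat.factorization_mul Nat.card_pos.ne' Nat.card_pos.ne'] at h0
    simpa using h0
  have h1 : Nat.card (R : Subgroup G) * Nat.card ↥(P' ⊓ Q') ≤ Nat.card P' * Nat.card Q' := by
    rw [cR, hj, cP, cQ, ← pow_add, ← pow_add, hfac]
    exact Nat.pow_le_pow_right hp.pos (Nat.add_le_add_left hjle _)
  have h2 := Cfsg.Agent.Helper15.card_mul_card_le P' Q'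
  have h3 : Nat.card ↥(P' ⊔ Q') ≤ Nat.card (R : Subgroup G) :=
    Subgroup.card_le_of_le (sup_le hPR hQR)
  have hpos : 0 < Nat.card ↥(P' ⊓ Q') := Nat.card_pos
  have h4 : Nat.card (R : Subgroup G) ≤ Nat.card ↥(P' ⊔ Q') := by
    have : Nat.card (R : Subgroup G) * Nat.card ↥(P' ⊓ Q') ≤
        Nat.card ↥(P' ⊔ Q') * Nat.card ↥(P' ⊓ Q') := h1.trans h2
    exact Nat.le_of_mul_le_mul_right this hpos
  have hsup : P' ⊔ Q' = (R : Subgroup G) := Subgroup.eq_of_le_of_card_ge (sup_le hPR hQR) h4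
  have heq : Nat.card P' * Nat.card Q' = Nat.card ↥(P' ⊔ Q') * Nat.card ↥(P' ⊓ Q') := by
    apply le_antisymm h2
    rw [hsup]; exact h1
  rw [← hsup]
  exact Cfsg.Agent.Helper15.coe_sup_eq_mul_of_card_eq P' Q' heq

end Cfsg.Agent.S0560
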