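import Cfsg.Statements.S0581
import Mathlib
import Cfsg.Agent.Helper8.Schmidt2

set_option autoImplicit false
open Pointwise
open Cfsg
open Cfsg.Agent.Helper8

namespace Cfsg.Agent.S0581

theorem step {G : Type*} [Group G] [Finite G] (H : Subgroup G) (hH : Group.IsNilpotent H)
    (hHall : (Nat.card H).Coprime H.index) (p : ℕ) [Fact p.Prime] (hpH : p ∣ Nat.card H)
    (K P N : Subgroup G) (hP : IsPGroup p P) (hNcop : (Nat.card N).Coprime p) (hNH : N ≤ H)
    (hKN : ∀ k ∈ K, ∀ n ∈ N, k * n * k⁻¹ ∈ N) (hPK : P ≤ K)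
    (hdec : ∀ k ∈ K, ∃ a ∈ P, ∃ n ∈ N, k = a * n) :
    ∃ x : G, ∀ k ∈ K, x⁻¹ * k * x ∈ H := by
  have hp : p.Prime := Fact.out
  obtain ⟨T, hTH, hTp, hTall, hTrel⟩ := exists_sylow_of_nilpotent_relIndex H hH p
  have hTL : T ≤ Subgroup.normalizer (N : Set G) := by
    intro t ht
    have hcomm : ∀ n ∈ N, t * n = n * t := by
      intro n hn
      obtain ⟨j, hj⟩ := pelem_of_mem hTp ht
      exact comm_of_coprime_sub H hH (hTH ht) (hNH hn)
        (Nat.Coprime.coprime_dvd_left (orderOf_dvd_of_pow_eq_one hj)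
          (Nat.Coprime.coprime_dvd_right (Subgroup.orderOf_dvd_natCard N hn)
            (Nat.Coprime.pow_left j (Nat.Coprime.symm hNcop))))
    rw [Subgroup.mem_normalizer_iff]
    intro h
    constructor
    · intro hh
      have e : t * h * t⁻¹ = h := by rw [hcomm h hh]; group
      rw [e]; exact hh
    · intro hh
      have e := hcomm _ hh
      have e' : t * (t * h * t⁻¹) = t * h := by rw [e]; group
      have e'' : h = t * h * t⁻¹ := (mul_left_cancel e').symm
      rw [e'']; exact hh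
  have hPL : P ≤ Subgroup.normalizer (N : Set G) := by
    intro a ha
    rw [Subgroup.mem_normalizer_iff]
    intro h
    constructor
    · intro hh; exact hKN a (hPK ha) h hh
    · intro hh
      have h1 := hKN a⁻¹ (K.inv_mem (hPK ha)) _ hh
      have e : a⁻¹ * (a * h * a⁻¹) * a⁻¹⁻¹ = h := by group
      rwa [e] at h1
  have hTidx : ¬ p ∣ T.index := by
    rw [← Subgroup.relIndex_mul_index hTH]
    intro hd
    rcases (Nat.Prime.dvd_mul hp).mp hd with h | h
    · exact hTrel h
    · have h4 := Nat.dvd_gcd hpH h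
      rw [Nat.Coprime.gcd_eq_one hHall] at h4
      exact hp.one_lt.ne' (Nat.dvd_one.mp h4)
  have hidx : ¬ p ∣ (T.subgroupOf (Subgroup.normalizer (N : Set G))).index := by
    intro hd
    have h1 : T.relIndex (Subgroup.normalizer (N : Set G)) ∣ T.index :=
      Subgroup.relIndex_dvd_index_of_le hTL
    exact hTidx (dvd_trans hd h1)
  obtain ⟨x, hx⟩ := exists_conj_mem_of_not_dvd_index
    (P.subgroupOf (Subgroup.normalizer (N : Set G)))
    (T.subgroupOf (Subgroup.normalizer (N : Set G))) hP.comap_subtype hidx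
  refine ⟨(x : G), ?_⟩
  intro k hk
  obtain ⟨a, ha, n, hn, rfl⟩ := hdec k hk
  have h1 : (x : G)⁻¹ * a * (x : G) ∈ T := by
    have h0 := hx ⟨a, hPL ha⟩ (Subgroup.mem_subgroupOf.mpr ha)
    exact Subgroup.mem_subgroupOf.mp h0
  have h2 : (x : G)⁻¹ * n * (x : G) ∈ N := by
    have h0 := (Subgroup.mem_normalizer_iff.mp (Subgroup.inv_mem _ x.2) n).mp hn
    rwa [inv_inv] at h0
  have e : (x : G)⁻¹ * (a * n) * (x : G) =
      ((x : G)⁻¹ * a * (x : G)) * ((x : G)⁻¹ * n * (x : G)) := by group
  rw [e]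
  exact H.mul_mem (hTH h1) (hNH h2)

theorem wielandt_aux {G : Type*} [Group G] [Finite G] (H : Subgroup G) (hH : Group.IsNilpotent H)
    (hHall : (Nat.card H).Coprime H.index) :
    ∀ n : ℕ, ∀ K : Subgroup G, Nat.card K = n →
      (∀ p : ℕ, p.Prime → p ∣ Nat.card K → p ∣ Nat.card H) →
      ∃ x : G, ∀ k ∈ K, x⁻¹ * k * x ∈ H := by
  intro n
  induction n using Nat.strong_induction_on with
  | _ n ih =>
    intro K hn hK
    by_cases hKb : K = ⊥
    · refine ⟨1, fun k hk => ?_⟩
      rw [hKb, Subgroup.mem_bot] at hk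
      rw [hk]; simp
    have hprop : ∀ K₀ : Subgroup K, K₀ ≠ ⊤ → Group.IsNilpotent K₀ := by
      intro K₀ hK₀
      have hcard : Nat.card (K₀.map K.subtype) < n := by
        rw [Subgroup.card_map_of_injective K.subtype_injective, ← hn]
        by_contra hle
        exact hK₀ (Subgroup.eq_top_of_card_eq K₀
          (le_antisymm (Subgroup.card_le_card_group K₀) (not_lt.mp hle)))
      have hdiv : Nat.card (K₀.map K.subtype) ∣ Nat.card K :=
        Subgroup.card_dvd_of_le (Subgroup.map_subtype_le K₀)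
      obtain ⟨x, hx⟩ := ih _ hcard (K₀.map K.subtype) rfl
        (fun p hp hpd => hK p hp (dvd_trans hpd hdiv))
      have hnil1 : Group.IsNilpotent
          ((K₀.map K.subtype).map (MulAut.conj x⁻¹).toMonoidHom) := by
        apply isNilpotent_of_le hH
        rintro _ ⟨k, hk, rfl⟩
        have h0 := hx k hk
        simpa [MulAut.conj_apply] using h0
      have hnil2 : Group.IsNilpotent (K₀.map K.subtype) :=
        isNilpotent_of_map_injective (MulAut.conj x⁻¹).injective _ hnil1
      exact isNilpotent_of_map_injective K.subtype_injective _ hnil2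
    haveI : Nontrivial K := (Subgroup.nontrivial_iff_ne_bot K).mpr hKb
    obtain ⟨p, hp, P₁, N₁, hP₁, hP₁ne, hN₁n, hN₁cop, hsup⟩ := exists_pcomplement_decomp hprop
    haveI : Fact p.Prime := ⟨hp⟩
    have hpK : p ∣ Nat.card K := by
      obtain ⟨k, hk⟩ := IsPGroup.iff_card.mp hP₁
      have hk0 : k ≠ 0 := by
        rintro rfl
        rw [pow_zero] at hk
        exact hP₁ne (Subgroup.card_eq_one.mp hk)
      have h1 : p ∣ Nat.card P₁ := by rw [hk]; exact dvd_pow_self p hk0
      exact dvd_trans h1 (Subgroup.card_subgroup_dvd_card P₁)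
    have hpH : p ∣ Nat.card H := hK p hp hpK
    have hN₁top : N₁ ≠ ⊤ := by
      intro h
      have h1 : p ∣ Nat.card N₁ := by rw [h, Subgroup.card_top]; exact hpK
      have h4 := Nat.dvd_gcd h1 (dvd_refl p)
      rw [Nat.Coprime.gcd_eq_one hN₁cop] at h4
      exact hp.one_lt.ne' (Nat.dvd_one.mp h4)
    have hNcard : Nat.card (N₁.map K.subtype) = Nat.card N₁ :=
      Subgroup.card_map_of_injective K.subtype_injective
    have hNlt : Nat.card (N₁.map K.subtype) < n := by
      rw [hNcard, ← hn]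
      by_contra hle
      exact hN₁top (Subgroup.eq_top_of_card_eq N₁
        (le_antisymm (Subgroup.card_le_card_group N₁) (not_lt.mp hle)))
    have hNdiv : Nat.card (N₁.map K.subtype) ∣ Nat.card K :=
      Subgroup.card_dvd_of_le (Subgroup.map_subtype_le N₁)
    obtain ⟨g, hg⟩ := ih _ hNlt (N₁.map K.subtype) rfl
      (fun r hr hrd => hK r hr (dvd_trans hrd hNdiv))
    have hH₁nil : Group.IsNilpotent (H.map (MulAut.conj g).toMonoidHom) :=
      isNilpotent_map _ H hH
    have hH₁card : Nat.card (H.map (MulAut.conj g).toMonoidHom) = Nat.card H :=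
      Subgroup.card_map_of_injective (MulAut.conj g).injective
    have hH₁idx : (H.map (MulAut.conj g).toMonoidHom).index = H.index :=
      Subgroup.index_map_equiv H (MulAut.conj g)
    obtain ⟨x, hx⟩ := step (H.map (MulAut.conj g).toMonoidHom) hH₁nil
      (by rw [hH₁card, hH₁idx]; exact hHall) p (by rw [hH₁card]; exact hpH)
      K (P₁.map K.subtype) (N₁.map K.subtype) (hP₁.map K.subtype)
      (by rw [hNcard]; exact hN₁cop)
      (by
        rintro _ ⟨n₀, hn₀, rfl⟩
        refine Subgroup.mem_map.mpr ⟨g⁻¹ * (K.subtype n₀) * g,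
          hg _ (Subgroup.mem_map_of_mem _ hn₀), ?_⟩
        simp [MulAut.conj_apply, mul_assoc])
      (by
        rintro k hk _ ⟨n₀, hn₀, rfl⟩
        exact Subgroup.mem_map.mpr ⟨⟨k, hk⟩ * n₀ * ⟨k, hk⟩⁻¹,
          hN₁n.conj_mem n₀ hn₀ ⟨k, hk⟩, rfl⟩)
      (Subgroup.map_subtype_le P₁)
      (by
        intro k hk
        have hk' : (⟨k, hk⟩ : K) ∈ P₁ ⊔ N₁ := hsup ▸ Subgroup.mem_top _
        obtain ⟨a, ha, c, hc, hac⟩ := Subgroup.mem_sup_of_normal_right.mp hk'
        refine ⟨a, Subgroup.mem_map_of_mem _ ha, c, Subgroup.mem_map_of_mem _ hc, ?_⟩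
        have h0 := congrArg Subtype.val hac
        exact h0.symm)
    refine ⟨x * g, fun k hk => ?_⟩
    obtain ⟨h, hh, hheq⟩ := Subgroup.mem_map.mp (hx k hk)
    have e : (x * g)⁻¹ * k * (x * g) = g⁻¹ * (x⁻¹ * k * x) * g := by group
    rw [e, ← hheq]
    have e2 : g⁻¹ * (MulAut.conj g).toMonoidHom h * g = h := by
      simp [MulAut.conj_apply, mul_assoc]
    rw [e2]; exact hh

/-- Let H be a nilpotent subgroup of a finite group G whose order is coprime to its index, and K a subgroup every prime divisor of whose order divides the order of H. Then K lies in some conjugate of H. -/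
theorem result {G : Type*} [Group G] [Finite G] (H K : Subgroup G) (hH : Group.IsNilpotent H) (hHall : (Nat.card H).Coprime H.index) (hK : ∀ p : ℕ, p.Prime → p ∣ Nat.card K → p ∣ Nat.card H) : ∃ x : G, K ≤ MulAut.conj x • H := by
  obtain ⟨x, hx⟩ := wielandt_aux H hH hHall _ K rfl hK
  refine ⟨x, fun k hk => ?_⟩
  rw [Cfsg.Agent.Helper1.mem_conj_smul_iff]
  exact hx k hk

end Cfsg.Agent.S0581
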