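import Cfsg.Statements.S0558
import Cfsg.Agent.Helper3.Carter2
import Cfsg.Agent.Helper1.Frobenius
import Cfsg.Agent.S0581

set_option autoImplicit false
open Cfsg
open scoped Pointwise

namespace Cfsg.Agent.S0558

open Cfsg.Agent.Helper3

universe u

theorem fac_eq {G : Type u} [Group G] [Finite G] (H : Subgroup G) (p : ℕ) [Fact p.Prime]
    (P : Sylow p H)
    (hN : Subgroup.normalizer (((P : Subgroup H).map H.subtype : Subgroup G) : Set G) = H) :
    (Nat.card G).factorization p = (Nat.card H).factorization p := by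
  have hp : p.Prime := Fact.out
  have hPcard : Nat.card ((P : Subgroup H).map H.subtype) = p ^ (Nat.card H).factorization p := by
    rw [Subgroup.card_map_of_injective H.subtype_injective]; exact P.card_eq_multiplicity
  have hle : (Nat.card H).factorization p ≤ (Nat.card G).factorization p :=
    (Nat.factorization_le_iff_dvd Nat.card_pos.ne' Nat.card_pos.ne').mpr
      (Subgroup.card_subgroup_dvd_card H) p
  by_contra hne
  have hlt : (Nat.card H).factorization p + 1 ≤ (Nat.card G).factorization p :=
    lt_of_le_of_ne hle (Ne.symm hne)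
  have hdvd : p ^ ((Nat.card H).factorization p + 1) ∣ Nat.card G :=
    (pow_dvd_pow p hlt).trans (Nat.ordProj_dvd _ _)
  have h1 := Sylow.prime_dvd_card_quotient_normalizer hdvd hPcard
  have h1' : p ∣ ((P : Subgroup H).map H.subtype).relIndex
      (Subgroup.normalizer (((P : Subgroup H).map H.subtype : Subgroup G) : Set G)) := h1
  rw [hN] at h1'
  have h2 : ((P : Subgroup H).map H.subtype).relIndex H = (P : Subgroup H).index := by
    show (((P : Subgroup H).map H.subtype).comap H.subtype).index = _
    rw [Subgroup.comap_map_eq_self_of_injective H.subtype_injective]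
  rw [h2] at h1'
  exact P.not_dvd_index h1'

theorem fusion {G : Type u} [Group G] [Finite G] (H : Subgroup G) (hnilp : Group.IsNilpotent H)
    (hHall : (Nat.card H).Coprime H.index) (p : ℕ) [Fact p.Prime] (P : Sylow p H)
    (hP : Nat.card H ≠ Nat.card P)
    (hnorm : ∀ q : ℕ, q.Prime → q ∣ Nat.card H → ∀ R : Sylow q H,
      Subgroup.normalizer (((R : Subgroup H).map H.subtype : Subgroup G) : Set G) = H)
    (x : G) (hx : x ∈ (P : Subgroup H).map H.subtype) (g : G)
    (hgx : g * x * g⁻¹ ∈ (P : Subgroup H).map H.subtype) :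
    ∃ u ∈ (P : Subgroup H).map H.subtype, g * x * g⁻¹ = u * x * u⁻¹ := by
  have hp : p.Prime := Fact.out
  have hHne : Nat.card H ≠ 0 := Nat.card_pos.ne'
  have hPcard : Nat.card ((P : Subgroup H).map H.subtype) = p ^ (Nat.card H).factorization p := by
    rw [Subgroup.card_map_of_injective H.subtype_injective]; exact P.card_eq_multiplicity
  have hPH : (P : Subgroup H).map H.subtype ≤ H := Subgroup.map_subtype_le _
  by_cases hpH : p ∣ Nat.card H
  swap
  · have hbot : (P : Subgroup H).map H.subtype = ⊥ := by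
      apply Subgroup.eq_bot_of_card_eq
      rw [hPcard, Nat.factorization_eq_zero_of_not_dvd hpH, pow_zero]
    rw [hbot, Subgroup.mem_bot] at hx
    exact ⟨1, Subgroup.one_mem _, by rw [hx]; group⟩
  have hPN : H ≤ Subgroup.normalizer (((P : Subgroup H).map H.subtype : Subgroup G) : Set G) :=
    (hnorm p hp hpH P).ge
  obtain ⟨m, hm⟩ : ∃ m, m = Nat.card H / p ^ (Nat.card H).factorization p := ⟨_, rfl⟩
  obtain ⟨a, ha⟩ : ∃ a, a = (Nat.card H).factorization p := ⟨_, rfl⟩
  rw [← ha] at hPcard
  have hsplit : Nat.card H = m * p ^ a := by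
    rw [hm, ha]; exact (Nat.div_mul_cancel (Nat.ordProj_dvd _ _)).symm
  have hcopm : m.Coprime p := by
    rw [hm]; exact (Nat.coprime_ordCompl hp hHne).symm
  obtain ⟨Q, hQH, hQcard, hQN⟩ := exists_normal_hall_of_nilpotent H hnilp _ _ hsplit
    (Nat.Coprime.pow_right _ hcopm)
  have hm1 : m ≠ 1 := by
    intro h1
    apply hP
    rw [hsplit, h1, one_mul, ha]; exact P.card_eq_multiplicity.symm
  have hdisj : (P : Subgroup H).map H.subtype ⊓ Q = ⊥ := by
    apply disjoint_iff.mp
    apply Subgroup.disjoint_of_coprime_natCard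
    rw [hPcard, hQcard]
    exact (Nat.Coprime.pow_right _ hcopm).symm
  -- `Q` centralizes `P`
  have hcent : ∀ b ∈ Q, ∀ y ∈ (P : Subgroup H).map H.subtype, b * y = y * b := by
    intro b hb y hy
    have h1 : b * y * b⁻¹ * y⁻¹ ∈ (P : Subgroup H).map H.subtype :=
      Subgroup.mul_mem _ ((Subgroup.mem_normalizer_iff.mp (hPN (hQH hb)) y).mp hy)
        (Subgroup.inv_mem _ hy)
    have h2 : b * y * b⁻¹ * y⁻¹ ∈ Q := by
      have : b * y * b⁻¹ * y⁻¹ = b * (y * b⁻¹ * y⁻¹) := by group
      rw [this]
      exact Q.mul_mem hb ((Subgroup.mem_normalizer_iff.mp (hQN (hPH hy)) b⁻¹).mp (Q.inv_mem hb))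
    have h3 : b * y * b⁻¹ * y⁻¹ ∈ (P : Subgroup H).map H.subtype ⊓ Q := Subgroup.mem_inf.mpr ⟨h1, h2⟩
    rw [hdisj, Subgroup.mem_bot] at h3
    have h4 : b * y = (b * y * b⁻¹ * y⁻¹) * (y * b) := by group
    rw [h4, h3, one_mul]
  -- the normalizer of `Q` is `H`
  have hQrel : Q.relIndex H = p ^ a := by
    have := Subgroup.card_mul_index (Q.subgroupOf H)
    rw [Nat.card_congr (Subgroup.subgroupOfEquivOfLe hQH).toEquiv, hQcard, hsplit] at this
    have hmpos : 0 < m := by rw [← hQcard]; exact Nat.card_pos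
    exact Nat.eq_of_mul_eq_mul_left hmpos this
  have hNQ : Subgroup.normalizer (Q : Set G) ≤ H := by
    obtain ⟨q, hq, hqm⟩ := Nat.exists_prime_and_dvd hm1
    haveI : Fact q.Prime := ⟨hq⟩
    have hqH : q ∣ Nat.card H := by rw [hsplit]; exact Dvd.dvd.mul_right hqm _
    have hqp : q ≠ p := by
      rintro rfl
      have := Nat.dvd_gcd hqm (dvd_refl q)
      rw [Nat.Coprime.gcd_eq_one hcopm] at this
      exact hq.one_lt.ne' (Nat.dvd_one.mp this)
    obtain ⟨R⟩ : Nonempty (Sylow q H) := inferInstance
    have hRN := hnorm q hq hqH R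
    have hRcard : Nat.card ((R : Subgroup H).map H.subtype) = q ^ (Nat.card H).factorization q := by
      rw [Subgroup.card_map_of_injective H.subtype_injective]; exact R.card_eq_multiplicity
    have hRH : (R : Subgroup H).map H.subtype ≤ H := Subgroup.map_subtype_le _
    have hRQ : (R : Subgroup H).map H.subtype ≤ Q := by
      apply le_of_coprime_relIndex Q _ H hRH hQN
      rw [hRcard, hQrel]
      exact Nat.Coprime.pow _ _ ((Nat.coprime_primes hq hp).mpr hqp)
    have hRrel : ((R : Subgroup H).map H.subtype).relIndex H = (R : Subgroup H).index := by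
      show (((R : Subgroup H).map H.subtype).comap H.subtype).index = _
      rw [Subgroup.comap_map_eq_self_of_injective H.subtype_injective]
    intro y hy
    rw [← hRN]
    apply Cfsg.Agent.S0540.mem_normalizer_of_smul_le
    apply le_of_coprime_relIndex _ _ H
    · have h1 : MulAut.conj y • (R : Subgroup H).map H.subtype ≤ MulAut.conj y • Q :=
        Subgroup.pointwise_smul_le_pointwise_smul_iff.mpr hRQ
      rw [smul_eq_of_mem_normalizer hy] at h1
      exact h1.trans hQH
    · exact hRN.ge
    · rw [card_conj_smul, hRcard, hRrel]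
      apply Nat.Coprime.pow_left
      rw [Nat.Prime.coprime_iff_not_dvd hq]
      exact R.not_dvd_index
  -- the fusion argument
  have hQnil : Group.IsNilpotent Q := by
    haveI := hnilp
    exact Group.nilpotent_of_mulEquiv (Subgroup.subgroupOfEquivOfLe hQH)
  have hxH : ∀ b ∈ Q, b * x = x * b := fun b hb => hcent b hb x hx
  have hQC : Q ≤ Subgroup.centralizer ({g * x * g⁻¹} : Set G) := by
    intro b hb
    rw [Subgroup.mem_centralizer_iff]
    intro y hy
    rw [Set.mem_singleton_iff] at hy
    rw [hy]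
    exact (hcent b hb _ hgx).symm
  have hgQC : MulAut.conj g • Q ≤ Subgroup.centralizer ({g * x * g⁻¹} : Set G) := by
    intro z hz
    obtain ⟨b, hb, rfl⟩ := (Subgroup.mem_smul_pointwise_iff_exists _ _ _).mp hz
    rw [Subgroup.mem_centralizer_iff]
    intro y hy
    rw [Set.mem_singleton_iff] at hy
    rw [hy, MulAut.smul_def, MulAut.conj_apply]
    have := hxH b hb
    calc g * x * g⁻¹ * (g * b * g⁻¹) = g * (x * b) * g⁻¹ := by group
      _ = g * (b * x) * g⁻¹ := by rw [this]
      _ = g * b * g⁻¹ * (g * x * g⁻¹) := by group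
  have hQidx : Q.index = p ^ a * H.index := by
    rw [← Subgroup.relIndex_mul_index hQH, hQrel]
  have hcopQ : (Nat.card (Q.subgroupOf (Subgroup.centralizer ({g * x * g⁻¹} : Set G)))).Coprime
      (Q.subgroupOf (Subgroup.centralizer ({g * x * g⁻¹} : Set G))).index := by
    rw [Nat.card_congr (Subgroup.subgroupOfEquivOfLe hQC).toEquiv, hQcard]
    have h1 : (Q.subgroupOf (Subgroup.centralizer ({g * x * g⁻¹} : Set G))).index ∣ Q.index :=
      Subgroup.relIndex_dvd_index_of_le hQC
    apply Nat.Coprime.coprime_dvd_right h1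
    rw [hQidx]
    apply Nat.Coprime.mul_right (Nat.Coprime.pow_right _ hcopm)
    exact Nat.Coprime.coprime_dvd_left (by rw [hsplit]; exact Dvd.intro _ rfl) hHall
  haveI hQCnil : Group.IsNilpotent (Q.subgroupOf (Subgroup.centralizer ({g * x * g⁻¹} : Set G))) := by
    haveI := hQnil
    exact Group.nilpotent_of_mulEquiv (Subgroup.subgroupOfEquivOfLe hQC).symm
  obtain ⟨c, hc⟩ := Cfsg.Agent.S0581.result
    (Q.subgroupOf (Subgroup.centralizer ({g * x * g⁻¹} : Set G)))
    ((MulAut.conj g • Q).subgroupOf (Subgroup.centralizer ({g * x * g⁻¹} : Set G)))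
    hQCnil hcopQ (by
      intro q _ hqd
      rw [Nat.card_congr (Subgroup.subgroupOfEquivOfLe hgQC).toEquiv, card_conj_smul] at hqd
      rw [Nat.card_congr (Subgroup.subgroupOfEquivOfLe hQC).toEquiv]
      exact hqd)
  have hc' : MulAut.conj g • Q ≤ MulAut.conj (c : G) • Q := by
    have := Subgroup.map_mono (f := (Subgroup.centralizer ({g * x * g⁻¹} : Set G)).subtype) hc
    rwa [map_conj_smul, Subgroup.subgroupOf_map_subtype, Subgroup.subgroupOf_map_subtype,
      inf_of_le_left hgQC, inf_of_le_left hQC] at this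
  have hc'' : MulAut.conj g • Q = MulAut.conj (c : G) • Q :=
    Subgroup.eq_of_le_of_card_ge hc' (by rw [card_conj_smul, card_conj_smul])
  have hhH : (c : G)⁻¹ * g ∈ H := by
    apply hNQ
    apply Cfsg.Agent.S0540.mem_normalizer_of_smul_le
    rw [map_mul, mul_smul, hc'', smul_smul, ← map_mul, inv_mul_cancel, map_one, one_smul]
  have hcy : g * x * g⁻¹ * (c : G) = (c : G) * (g * x * g⁻¹) :=
    Subgroup.mem_centralizer_iff.mp c.2 _ (Set.mem_singleton _)
  have hsup : (P : Subgroup H).map H.subtype ⊔ Q = H := by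
    apply Subgroup.eq_of_le_of_card_ge (sup_le hPH hQH)
    have := card_mul_card_eq_of_le_normalizer ((P : Subgroup H).map H.subtype) Q (hPH.trans hQN)
    rw [hdisj, Subgroup.card_bot, mul_one, hPcard, hQcard] at this
    rw [← this, hsplit, mul_comm]
  have hh' : (c : G)⁻¹ * g ∈ ((((P : Subgroup H).map H.subtype) ⊔ Q : Subgroup G) : Set G) := by
    rw [hsup]; exact hhH
  rw [Subgroup.coe_mul_of_left_le_normalizer_right _ _ (hPH.trans hQN)] at hh'
  obtain ⟨u, hu, b, hb, hub⟩ := Set.mem_mul.mp hh'
  refine ⟨u, hu, ?_⟩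
  have hbx := hxH b hb
  have e1 : g * x * g⁻¹ = ((c : G)⁻¹ * g) * x * ((c : G)⁻¹ * g)⁻¹ := by
    have : ((c : G)⁻¹ * g) * x * ((c : G)⁻¹ * g)⁻¹ = (c : G)⁻¹ * (g * x * g⁻¹ * (c : G)) := by
      group
    rw [this, hcy]; group
  rw [e1, ← hub]
  calc u * b * x * (u * b)⁻¹ = u * (b * x) * b⁻¹ * u⁻¹ := by group
    _ = u * (x * b) * b⁻¹ * u⁻¹ := by rw [hbx]
    _ = u * x * u⁻¹ := by group

theorem index_biInf_le {G : Type u} [Group G] [Finite G] (T : ℕ → Subgroup G) (s : Finset ℕ) :
    (⨅ p ∈ s, T p).index ≤ ∏ p ∈ s, (T p).index := by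
  classical
  induction s using Finset.induction_on with
  | empty => simp
  | insert q s hq ih =>
    rw [Finset.iInf_insert, Finset.prod_insert hq]
    exact Subgroup.index_inf_le.trans (Nat.mul_le_mul_left _ ih)

/-- Let H be a subgroup of a finite group G that is not a Sylow subgroup of G for any prime, and suppose that for every prime p dividing the order of H and every Sylow p-subgroup P of H the normalizer of P in G is exactly H. Then some normal subgroup of G is a complement to H. -/
theorem result {G : Type*} [Group G] [Finite G] (H : Subgroup G) (hnot : ∀ p : ℕ, p.Prime → ∀ P : Sylow p G, (P : Subgroup G) ≠ H) (hnorm : ∀ p : ℕ, p.Prime → p ∣ Nat.card H → ∀ P : Sylow p H, Subgroup.normalizer (((P : Subgroup H).map H.subtype : Subgroup G) : Set G) = H) : ∃ N : Subgroup G, N.Normal ∧ Subgroup.IsComplement' N H := by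
  classical
  have hfac : ∀ p : ℕ, p.Prime → p ∣ Nat.card H →
      (Nat.card G).factorization p = (Nat.card H).factorization p := by
    intro p hp hpH
    haveI : Fact p.Prime := ⟨hp⟩
    obtain ⟨P⟩ : Nonempty (Sylow p H) := inferInstance
    exact fac_eq H p P (hnorm p hp hpH P)
  have hHall : (Nat.card H).Coprime H.index := by
    apply Nat.coprime_of_dvd
    intro p hp hpH hpi
    have h1 := hfac p hp hpH
    rw [← Subgroup.card_mul_index H, Nat.factorization_mul Nat.card_pos.ne'
      Subgroup.index_ne_zero_of_finite, Finsupp.add_apply] at h1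
    have : 0 < H.index.factorization p :=
      hp.factorization_pos_of_dvd Subgroup.index_ne_zero_of_finite hpi
    omega
  have hnilp : Group.IsNilpotent H := by
    apply ((Group.isNilpotent_of_finite_tfae (G := ↥H)).out 0 3).mpr
    intro p hp P
    by_cases hpH : p ∣ Nat.card H
    · have h1 := hnorm p hp.out hpH P
      have h2 := Subgroup.normal_subgroupOf_of_le_normalizer (H := H)
        (N := (P : Subgroup H).map H.subtype) h1.ge
      have h3 : ((P : Subgroup H).map H.subtype).subgroupOf H = (P : Subgroup H) :=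
        Subgroup.comap_map_eq_self_of_injective H.subtype_injective _
      rwa [h3] at h2
    · have : (P : Subgroup H) = ⊥ := by
        apply Subgroup.eq_bot_of_card_eq
        rw [P.card_eq_multiplicity, Nat.factorization_eq_zero_of_not_dvd hpH, pow_zero]
      rw [this]; infer_instance
  have hex : ∀ p : ℕ, ∃ M : Subgroup G, M.Normal ∧ (p.Prime → p ∣ Nat.card H →
      M.index = p ^ (Nat.card H).factorization p ∧ (Nat.card M).Coprime p) := by
    intro p
    by_cases hc : p.Prime ∧ p ∣ Nat.card H
    · obtain ⟨hp, hpH⟩ := hc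
      haveI : Fact p.Prime := ⟨hp⟩
      obtain ⟨P⟩ : Nonempty (Sylow p H) := inferInstance
      have hPcard : Nat.card ((P : Subgroup H).map H.subtype)
          = p ^ (Nat.card G).factorization p := by
        rw [Subgroup.card_map_of_injective H.subtype_injective, hfac p hp hpH]
        exact P.card_eq_multiplicity
      have hne : Nat.card H ≠ Nat.card P := by
        intro he
        apply hnot p hp (Sylow.ofCard _ hPcard)
        rw [Sylow.coe_ofCard]
        apply Subgroup.eq_of_le_of_card_ge (Subgroup.map_subtype_le _)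
        rw [Subgroup.card_map_of_injective H.subtype_injective, he]
      have hnpc : Cfsg.HasNormalPComplement p G := by
        apply Cfsg.Agent.Helper1.npc_of_fusion _ G rfl p (Sylow.ofCard _ hPcard)
        intro x hx g hgx
        exact fusion H hnilp hHall p P hne hnorm x hx g hgx
      obtain ⟨M, hMn, hMc, hMcop⟩ :=
        Cfsg.Agent.Helper1.compl_of_npc (Sylow.ofCard _ hPcard) hnpc
      refine ⟨M, hMn, fun _ _ => ⟨?_, hMcop⟩⟩
      have h1 := hMc.card_mul_card
      have h2 := Subgroup.card_mul_index M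
      rw [Sylow.coe_ofCard, hPcard, hfac p hp hpH] at h1
      exact Nat.eq_of_mul_eq_mul_left Nat.card_pos (h2.trans h1.symm)
    · exact ⟨⊤, inferInstance, fun hp hpH => absurd ⟨hp, hpH⟩ hc⟩
  choose T hTn hT using hex
  have hcop : (Nat.card ↥(⨅ p ∈ (Nat.card H).primeFactors, T p)).Coprime (Nat.card H) := by
    apply Nat.coprime_of_dvd
    intro k hk hkN hkH
    have hmem : k ∈ (Nat.card H).primeFactors :=
      Nat.mem_primeFactors.mpr ⟨hk, hkH, Nat.card_pos.ne'⟩
    have hle : (⨅ p ∈ (Nat.card H).primeFactors, T p) ≤ T k := iInf₂_le k hmem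
    have h1 : k ∣ Nat.card (T k) := hkN.trans (Subgroup.card_dvd_of_le hle)
    have h2 := (hT k hk hkH).2
    have h3 := Nat.dvd_gcd h1 (dvd_refl k)
    rw [Nat.Coprime.gcd_eq_one h2] at h3
    exact hk.one_lt.ne' (Nat.dvd_one.mp h3)
  haveI hNn : (⨅ p ∈ (Nat.card H).primeFactors, T p).Normal :=
    Subgroup.normal_iInf_normal fun p => Subgroup.normal_iInf_normal fun _ => hTn p
  refine ⟨⨅ p ∈ (Nat.card H).primeFactors, T p, hNn, ?_⟩
  apply Subgroup.isComplement'_of_coprime _ hcop
  apply le_antisymm
  · have h1 := card_mul_card_eq_of_le_normalizer H (⨅ p ∈ (Nat.card H).primeFactors, T p)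
      (by rw [Subgroup.normalizer_eq_top]; exact le_top)
    have h2 : H ⊓ (⨅ p ∈ (Nat.card H).primeFactors, T p) = ⊥ :=
      disjoint_iff.mp (Subgroup.disjoint_of_coprime_natCard hcop.symm)
    rw [h2, Subgroup.card_bot, mul_one] at h1
    rw [mul_comm, h1]
    exact Subgroup.card_le_card_group _
  · have h1 := Subgroup.card_mul_index (⨅ p ∈ (Nat.card H).primeFactors, T p)
    rw [← h1]
    apply Nat.mul_le_mul_left
    refine (index_biInf_le T _).trans ?_
    have h2 : ∏ p ∈ (Nat.card H).primeFactors, (T p).index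
        = ∏ p ∈ (Nat.card H).primeFactors, p ^ (Nat.card H).factorization p := by
      apply Finset.prod_congr rfl
      intro p hp
      exact (hT p (Nat.prime_of_mem_primeFactors hp) (Nat.dvd_of_mem_primeFactors hp)).1
    rw [h2, ← Nat.prod_primeFactors_pow_factorization Nat.card_pos.ne']

end Cfsg.Agent.S0558
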