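import Cfsg.Statements.S0559

set_option autoImplicit false
open Cfsg
open Pointwise

namespace Cfsg.Agent.S0559

/-- Let G = HK be a finite group (every element a product of an element of H and an element of K), and let A and B be conjugates of H and K. Then every element is a product of an element of A and one of B, and there is g with A = gHg⁻¹ and B = gKg⁻¹ simultaneously. -/
theorem result {G : Type*} [Group G] [Finite G] (H K A B : Subgroup G) (hHK : ∀ g : G, ∃ h ∈ H, ∃ k ∈ K, g = h * k) (hA : ∃ x : G, A = MulAut.conj x • H) (hB : ∃ y : G, B = MulAut.conj y • K) : (∀ g : G, ∃ a ∈ A, ∃ b ∈ B, g = a * b) ∧ ∃ g : G, A = MulAut.conj g • H ∧ B = MulAut.conj g • K := by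
  obtain ⟨x, rfl⟩ := hA
  obtain ⟨y, rfl⟩ := hB
  obtain ⟨h, hh, k, hk, hxy⟩ := hHK (x⁻¹ * y)
  have hg1 : MulAut.conj (x * h) • H = MulAut.conj x • H := by
    rw [map_mul, mul_smul, Subgroup.conj_smul_eq_self_of_mem hh]
  have hxy' : x * h = y * k⁻¹ := by
    have : y = x * (h * k) := by rw [← hxy, mul_inv_cancel_left]
    rw [this]; simp only [mul_assoc, mul_inv_cancel, mul_one]
  have hg2 : MulAut.conj (x * h) • K = MulAut.conj y • K := by
    rw [hxy', map_mul, mul_smul, Subgroup.conj_smul_eq_self_of_mem (inv_mem hk)]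
  refine ⟨?_, x * h, hg1.symm, hg2.symm⟩
  intro g'
  rw [← hg1, ← hg2]
  obtain ⟨h', hh', k', hk', he⟩ := hHK ((x * h)⁻¹ * g' * (x * h))
  refine ⟨MulAut.conj (x * h) • h', Subgroup.smul_mem_pointwise_smul _ _ _ hh',
    MulAut.conj (x * h) • k', Subgroup.smul_mem_pointwise_smul _ _ _ hk', ?_⟩
  rw [← smul_mul', ← he]
  simp only [MulAut.smul_def, MulAut.conj_apply]
  simp only [mul_assoc, mul_inv_cancel_left, mul_inv_cancel, mul_one]

end Cfsg.Agent.S0559
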