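import Cfsg.Statements.S0561
import Cfsg.Agent.Helper3.Carter2

set_option autoImplicit false
open Cfsg
open scoped Pointwise

namespace Cfsg.Agent.S0561

open Cfsg.Agent.Helper3

universe u

theorem nt_aux (n a a' b b' : ℕ) (ha : a * a' = n) (hb : b * b' = n) (hn : 0 < n)
    (hca : a.Coprime a') (hcb : b.Coprime b') :
    ∃ d s c e : ℕ, d ∣ a ∧ d ∣ b ∧ (∀ x, x ∣ a → x ∣ b → x ∣ d) ∧ n = d * e ∧ d.Coprime e ∧
      n = s * c ∧ s.Coprime c ∧ a ∣ s ∧ b ∣ s ∧ s * d = a * b := by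
  have ha0 : 0 < a := Nat.pos_of_ne_zero (by rintro rfl; rw [zero_mul] at ha; omega)
  have hb0 : 0 < b := Nat.pos_of_ne_zero (by rintro rfl; rw [zero_mul] at hb; omega)
  obtain ⟨d, hd⟩ : ∃ d, d = Nat.gcd a b := ⟨_, rfl⟩
  have hd0 : 0 < d := by rw [hd]; exact Nat.gcd_pos_of_pos_left b ha0
  obtain ⟨a₁, ha₁⟩ : d ∣ a := by rw [hd]; exact Nat.gcd_dvd_left a b
  obtain ⟨b₁, hb₁⟩ : d ∣ b := by rw [hd]; exact Nat.gcd_dvd_right a b
  have hcop1 : a₁.Coprime b₁ := by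
    have h := Nat.coprime_div_gcd_div_gcd (m := a) (n := b) (by rw [← hd]; exact hd0)
    rw [← hd, Nat.div_eq_of_eq_mul_right hd0 ha₁, Nat.div_eq_of_eq_mul_right hd0 hb₁] at h
    exact h
  have he : a₁ * a' = b₁ * b' := by
    apply Nat.eq_of_mul_eq_mul_left hd0
    rw [← mul_assoc, ← ha₁, ← mul_assoc, ← hb₁, ha, hb]
  have hb₁a' : b₁ ∣ a' := by
    have : b₁ ∣ a₁ * a' := by rw [he]; exact Dvd.intro _ rfl
    exact hcop1.symm.dvd_of_dvd_mul_left this
  obtain ⟨c, hc⟩ := hb₁a'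
  have hb1pos : 0 < b₁ := Nat.pos_of_ne_zero (by rintro rfl; rw [mul_zero] at hb₁; omega)
  have hb' : b' = a₁ * c := by
    apply Nat.eq_of_mul_eq_mul_left hb1pos
    rw [← he, hc]; ring
  refine ⟨d, d * a₁ * b₁, c, a₁ * a', ⟨a₁, ha₁⟩, ⟨b₁, hb₁⟩, ?_, ?_, ?_, ?_, ?_, ?_, ?_, ?_⟩
  · intro x hxa hxb
    rw [hd]; exact Nat.dvd_gcd hxa hxb
  · rw [← ha, ha₁]; ring
  · apply Nat.coprime_of_dvd
    intro p hp hpd hpe
    have hpa : p ∣ a := hpd.trans ⟨a₁, ha₁⟩
    have hpb : p ∣ b := hpd.trans ⟨b₁, hb₁⟩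
    have hpa' : ¬ p ∣ a' := by
      intro h
      have h3 := Nat.dvd_gcd hpa h
      rw [hca.gcd_eq_one] at h3
      exact hp.one_lt.ne' (Nat.dvd_one.mp h3)
    have hpb' : ¬ p ∣ b' := by
      intro h
      have h3 := Nat.dvd_gcd hpb h
      rw [hcb.gcd_eq_one] at h3
      exact hp.one_lt.ne' (Nat.dvd_one.mp h3)
    have h1 : p ∣ a₁ := ((Nat.Prime.dvd_mul hp).mp hpe).resolve_right hpa'
    have h2 : p ∣ b₁ := ((Nat.Prime.dvd_mul hp).mp (he ▸ hpe)).resolve_right hpb'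
    have h3 := Nat.dvd_gcd h1 h2
    rw [hcop1.gcd_eq_one] at h3
    exact hp.one_lt.ne' (Nat.dvd_one.mp h3)
  · rw [← ha, ha₁, hc]; ring
  · have h1 : (d * a₁).Coprime c := by
      rw [← ha₁]
      exact Nat.Coprime.coprime_dvd_right ⟨b₁, by rw [hc, mul_comm]⟩ hca
    have h2 : b₁.Coprime c := by
      have : b.Coprime c := Nat.Coprime.coprime_dvd_right ⟨a₁, by rw [hb', mul_comm]⟩ hcb
      exact Nat.Coprime.coprime_dvd_left ⟨d, by rw [hb₁, mul_comm]⟩ this
    exact Nat.Coprime.mul_left h1 h2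
  · exact ⟨b₁, by rw [ha₁]⟩
  · exact ⟨a₁, by rw [hb₁]; ring⟩
  · rw [ha₁, hb₁]; ring

theorem subconj_le {G : Type u} [Group G] (g : G) (K H : Subgroup G)
    (h : Cfsg.Agent.Helper1.SubConj g K H) : K ≤ MulAut.conj g • H := by
  intro x hx
  rw [Subgroup.mem_pointwise_smul_iff_inv_smul_mem]
  have := h x hx
  simpa [MulAut.smul_def, ← map_inv, MulAut.conj_apply] using this

theorem perm_hall {G : Type u} [Group G] [Finite G] [Group.IsSolvable G] (H K A B : Subgroup G)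
    (hHK : ∀ g : G, ∃ h ∈ H, ∃ k ∈ K, g = h * k)
    (hAN : H ≤ Subgroup.normalizer (A : Set G)) (hBN : K ≤ Subgroup.normalizer (B : Set G))
    (hAh : (Nat.card A).Coprime A.index) (hBh : (Nat.card B).Coprime B.index) :
    ((A ⊔ B : Subgroup G) : Set G) = (A : Set G) * (B : Set G) := by
  obtain ⟨d, s, c, e, hda, hdb, hdmax, hnde, hcde, hnsc, hcsc, has, hbs, hsd⟩ :=
    nt_aux (Nat.card G) (Nat.card A) A.index (Nat.card B) B.index (Subgroup.card_mul_index A)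
      (Subgroup.card_mul_index B) Nat.card_pos hAh hBh
  -- for any `u v`, some `h u = k v`
  have hU : ∀ u v : G, ∃ h ∈ H, ∃ k ∈ K, h * u = k * v := by
    intro u v
    obtain ⟨h, hh, k, hk, e⟩ := hHK (u * v⁻¹)
    refine ⟨h⁻¹, H.inv_mem hh, k, hk, ?_⟩
    have : u = h * k * v := by rw [← e]; group
    rw [this]; group
  -- a common Hall subgroup of order `d` inside `A ⊓ B`
  have hT : d ∣ Nat.card ↥(A ⊓ B) := by
    obtain ⟨⟨T₀, hT₀⟩, -⟩ := Cfsg.Agent.Helper1.hall_aux _ G rfl d e hnde hcde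
    obtain ⟨g₁, hg₁⟩ := (Cfsg.Agent.Helper1.hall_aux _ G rfl (Nat.card A) A.index
      (Subgroup.card_mul_index A).symm hAh).2 A T₀ rfl
      (by rw [hT₀]; exact Nat.Coprime.coprime_dvd_left hda hAh)
    obtain ⟨g₂, hg₂⟩ := (Cfsg.Agent.Helper1.hall_aux _ G rfl (Nat.card B) B.index
      (Subgroup.card_mul_index B).symm hBh).2 B T₀ rfl
      (by rw [hT₀]; exact Nat.Coprime.coprime_dvd_left hdb hBh)
    have h1 : MulAut.conj g₁⁻¹ • T₀ ≤ A := by
      have := Subgroup.pointwise_smul_le_pointwise_smul_iff (a := MulAut.conj g₁⁻¹) |>.mpr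
        (subconj_le g₁ T₀ A hg₁)
      rwa [smul_smul, ← map_mul, inv_mul_cancel, map_one, one_smul] at this
    have h2 : MulAut.conj g₂⁻¹ • T₀ ≤ B := by
      have := Subgroup.pointwise_smul_le_pointwise_smul_iff (a := MulAut.conj g₂⁻¹) |>.mpr
        (subconj_le g₂ T₀ B hg₂)
      rwa [smul_smul, ← map_mul, inv_mul_cancel, map_one, one_smul] at this
    obtain ⟨h, hh, k, hk, hhk⟩ := hU g₁⁻¹ g₂⁻¹
    have h3 : MulAut.conj (h * g₁⁻¹) • T₀ ≤ A := by
      rw [map_mul, mul_smul]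
      have := Subgroup.pointwise_smul_le_pointwise_smul_iff (a := MulAut.conj h) |>.mpr h1
      rwa [smul_eq_of_mem_normalizer (hAN hh)] at this
    have h4 : MulAut.conj (h * g₁⁻¹) • T₀ ≤ B := by
      rw [hhk, map_mul, mul_smul]
      have := Subgroup.pointwise_smul_le_pointwise_smul_iff (a := MulAut.conj k) |>.mpr h2
      rwa [smul_eq_of_mem_normalizer (hBN hk)] at this
    have h5 := Subgroup.card_dvd_of_le (le_inf h3 h4)
    rwa [card_conj_smul, hT₀] at h5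
  have hinf : Nat.card ↥(A ⊓ B) = d :=
    Nat.dvd_antisymm (hdmax _ (Subgroup.card_dvd_of_le inf_le_left)
      (Subgroup.card_dvd_of_le inf_le_right)) hT
  -- a common Hall subgroup of order `s` containing `A ⊔ B`
  have hS : Nat.card ↥(A ⊔ B) ≤ s := by
    obtain ⟨⟨S₀, hS₀⟩, hsub⟩ := Cfsg.Agent.Helper1.hall_aux _ G rfl s c hnsc hcsc
    obtain ⟨g₁, hg₁⟩ := hsub S₀ A hS₀ (Nat.Coprime.coprime_dvd_left has hcsc)
    obtain ⟨g₂, hg₂⟩ := hsub S₀ B hS₀ (Nat.Coprime.coprime_dvd_left hbs hcsc)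
    have h1 := subconj_le g₁ A S₀ hg₁
    have h2 := subconj_le g₂ B S₀ hg₂
    obtain ⟨h, hh, k, hk, hhk⟩ := hU g₁ g₂
    have h3 : A ≤ MulAut.conj (h * g₁) • S₀ := by
      rw [map_mul, mul_smul]
      have := Subgroup.pointwise_smul_le_pointwise_smul_iff (a := MulAut.conj h) |>.mpr h1
      rwa [smul_eq_of_mem_normalizer (hAN hh)] at this
    have h4 : B ≤ MulAut.conj (h * g₁) • S₀ := by
      rw [hhk, map_mul, mul_smul]
      have := Subgroup.pointwise_smul_le_pointwise_smul_iff (a := MulAut.conj k) |>.mpr h2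
      rwa [smul_eq_of_mem_normalizer (hBN hk)] at this
    have h5 := Subgroup.card_le_of_le (sup_le h3 h4)
    rwa [card_conj_smul, hS₀] at h5
  apply Cfsg.Agent.Helper15.coe_sup_eq_mul_of_card_eq
  apply le_antisymm (Cfsg.Agent.Helper15.card_mul_card_le A B)
  rw [hinf, ← hsd]
  exact Nat.mul_le_mul_right d hS

/-- Let the finite solvable group G be the product HK of subgroups, and let A be normal in H and B normal in K, where A and B are Hall subgroups of G (order coprime to index). Then for all x, y the product set of xAx⁻¹ and yBy⁻¹ is a subgroup of G. -/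
theorem result {G : Type*} [Group G] [Finite G] [Group.IsSolvable G] (H K A B : Subgroup G) (hHK : ∀ g : G, ∃ h ∈ H, ∃ k ∈ K, g = h * k) (hA : A ≤ H) (hAn : (A.subgroupOf H).Normal) (hB : B ≤ K) (hBn : (B.subgroupOf K).Normal) (hAh : (Nat.card A).Coprime A.index) (hBh : (Nat.card B).Coprime B.index) (x y : G) : ∃ S : Subgroup G, (S : Set G) = ((MulAut.conj x • A : Subgroup G) : Set G) * ((MulAut.conj y • B : Subgroup G) : Set G) := by
  have hAN : H ≤ Subgroup.normalizer (A : Set G) :=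
    (Subgroup.normal_subgroupOf_iff_le_normalizer hA).mp hAn
  have hBN : K ≤ Subgroup.normalizer (B : Set G) :=
    (Subgroup.normal_subgroupOf_iff_le_normalizer hB).mp hBn
  have key := perm_hall H K A B hHK hAN hBN hAh hBh
  obtain ⟨h, hh, k, hk, e⟩ := hHK (x⁻¹ * y)
  refine ⟨MulAut.conj (x * h) • (A ⊔ B), ?_⟩
  have e1 : MulAut.conj (x * h) • A = MulAut.conj x • A := by
    rw [map_mul, mul_smul, smul_eq_of_mem_normalizer (hAN hh)]
  have e2 : MulAut.conj (x * h) • B = MulAut.conj y • B := by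
    have h1 : x * h = y * k⁻¹ := by
      have : y = x * h * k := by rw [mul_assoc, ← e]; group
      rw [this]; group
    rw [h1, map_mul, mul_smul, smul_eq_of_mem_normalizer (hBN (K.inv_mem hk))]
  rw [← e1, ← e2]
  ext w
  constructor
  · intro hw
    obtain ⟨t, ht, rfl⟩ := (Subgroup.mem_smul_pointwise_iff_exists _ _ _).mp hw
    have ht' : t ∈ ((A ⊔ B : Subgroup G) : Set G) := ht
    rw [key] at ht'
    obtain ⟨a, ha, b, hb, rfl⟩ := Set.mem_mul.mp ht'
    refine Set.mem_mul.mpr ⟨MulAut.conj (x * h) • a, Subgroup.smul_mem_pointwise_smul _ _ _ ha,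
      MulAut.conj (x * h) • b, Subgroup.smul_mem_pointwise_smul _ _ _ hb, ?_⟩
    rw [smul_mul']
  · intro hw
    obtain ⟨w₁, hw₁, w₂, hw₂, rfl⟩ := Set.mem_mul.mp hw
    obtain ⟨a, ha, rfl⟩ := (Subgroup.mem_smul_pointwise_iff_exists _ _ _).mp hw₁
    obtain ⟨b, hb, rfl⟩ := (Subgroup.mem_smul_pointwise_iff_exists _ _ _).mp hw₂
    rw [← smul_mul']
    apply Subgroup.smul_mem_pointwise_smul
    exact Subgroup.mul_mem _ (Subgroup.mem_sup_left ha) (Subgroup.mem_sup_right hb)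

end Cfsg.Agent.S0561
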