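import Cfsg.Statements.S0562
import Mathlib

set_option autoImplicit false
open Cfsg

namespace Cfsg.Agent.S0562

/-- If `A ≤ X.map (conj g)`-type inclusions force equality for finite groups. -/
theorem map_conj_eq_of_le {G : Type*} [Group G] [Finite G] (X : Subgroup G) (k : G)
    (h : X ≤ X.map (MulAut.conj k).toMonoidHom) : X.map (MulAut.conj k).toMonoidHom = X := by
  symm
  apply Subgroup.eq_of_le_of_card_ge h
  rw [Subgroup.card_map_of_injective (MulAut.conj k).injective]

theorem map_conj_of_mem_normalizer {G : Type*} [Group G] (A : Subgroup G) (h : G)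
    (hh : h ∈ Subgroup.normalizer (A : Set G)) : A.map (MulAut.conj h).toMonoidHom = A :=
  Subgroup.mem_normalizer_iff_map_conj_eq.mp hh

/-- Let the finite group G be the product HK of subgroups, A normal in H, B normal in K, and L the normalizer of the subgroup generated by A and B. Then every element of L is a product of an element of L ∩ H and an element of L ∩ K. -/
theorem result {G : Type*} [Group G] [Finite G] (H K A B : Subgroup G) (hHK : ∀ g : G, ∃ h ∈ H, ∃ k ∈ K, g = h * k) (hA : A ≤ H) (hAn : (A.subgroupOf H).Normal) (hB : B ≤ K) (hBn : (B.subgroupOf K).Normal) : ∀ g ∈ Subgroup.normalizer ((A ⊔ B : Subgroup G) : Set G), ∃ h ∈ Subgroup.normalizer ((A ⊔ B : Subgroup G) : Set G) ⊓ H, ∃ k ∈ Subgroup.normalizer ((A ⊔ B : Subgroup G) : Set G) ⊓ K, g = h * k := by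
  intro g hg
  obtain ⟨h, hh, k, hk, rfl⟩ := hHK g
  have hHA : H ≤ Subgroup.normalizer (A : Set G) :=
    (Subgroup.normal_subgroupOf_iff_le_normalizer hA).mp hAn
  have hKB : K ≤ Subgroup.normalizer (B : Set G) :=
    (Subgroup.normal_subgroupOf_iff_le_normalizer hB).mp hBn
  have hg' : (A ⊔ B).map (MulAut.conj (h * k)).toMonoidHom = A ⊔ B :=
    Subgroup.mem_normalizer_iff_map_conj_eq.mp hg
  -- Y = X.map (conj k)
  have hY : ((A ⊔ B).map (MulAut.conj k).toMonoidHom).map (MulAut.conj h).toMonoidHom = A ⊔ B := by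
    rw [Subgroup.map_map, ← hg']
    congr 1
    ext x
    simp [mul_assoc]
  have hY' : (A ⊔ B).map (MulAut.conj k).toMonoidHom = (A ⊔ B).map (MulAut.conj h⁻¹).toMonoidHom := by
    have := congrArg (Subgroup.map (MulAut.conj h⁻¹).toMonoidHom) hY
    rw [Subgroup.map_map] at this
    have hid : (MulAut.conj h⁻¹).toMonoidHom.comp (MulAut.conj h).toMonoidHom = MonoidHom.id G := by
      ext x; simp [mul_assoc]
    rw [hid, Subgroup.map_id] at this
    exact this
  have hAY : A ≤ (A ⊔ B).map (MulAut.conj k).toMonoidHom := by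
    rw [hY']
    calc A = A.map (MulAut.conj h⁻¹).toMonoidHom :=
          (map_conj_of_mem_normalizer A h⁻¹ (hHA (inv_mem hh))).symm
      _ ≤ (A ⊔ B).map (MulAut.conj h⁻¹).toMonoidHom := Subgroup.map_mono le_sup_left
  have hBY : B ≤ (A ⊔ B).map (MulAut.conj k).toMonoidHom := by
    calc B = B.map (MulAut.conj k).toMonoidHom :=
          (map_conj_of_mem_normalizer B k (hKB hk)).symm
      _ ≤ (A ⊔ B).map (MulAut.conj k).toMonoidHom := Subgroup.map_mono le_sup_right
  have hXk : (A ⊔ B).map (MulAut.conj k).toMonoidHom = A ⊔ B :=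
    map_conj_eq_of_le _ k (sup_le hAY hBY)
  have hXh : (A ⊔ B).map (MulAut.conj h).toMonoidHom = A ⊔ B := by
    rw [hXk] at hY; exact hY
  refine ⟨h, ⟨Subgroup.mem_normalizer_iff_map_conj_eq.mpr hXh, hh⟩, k,
    ⟨Subgroup.mem_normalizer_iff_map_conj_eq.mpr hXk, hk⟩, rfl⟩

end Cfsg.Agent.S0562
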