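import Mathlib
import Cfsg.Statements.S0783

set_option autoImplicit false
open Cfsg

namespace Cfsg.Agent.S0783

open Matrix

variable {F : Type*} [Field F] {n : ℕ} {q : ℕ}

theorem mem_GU_iff (g : Matrix.GeneralLinearGroup (Fin n) F) :
    g ∈ Cfsg.GU n F q ↔ ∀ u v : Fin n → F,
      Cfsg.hermForm n F q ((g : Matrix (Fin n) (Fin n) F) *ᵥ u)
        ((g : Matrix (Fin n) (Fin n) F) *ᵥ v) = Cfsg.hermForm n F q u v := Iff.rfl

/-- diagonal unit -/
noncomputable def diagU (d : Fin n → Fˣ) : Matrix.GeneralLinearGroup (Fin n) F :=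
  ⟨Matrix.diagonal (fun i => (d i : F)), Matrix.diagonal (fun i => (((d i)⁻¹ : Fˣ) : F)),
    by rw [Matrix.diagonal_mul_diagonal]; simp,
    by rw [Matrix.diagonal_mul_diagonal]; simp⟩

theorem diagU_val (d : Fin n → Fˣ) :
    ((diagU d : Matrix.GeneralLinearGroup (Fin n) F) : Matrix (Fin n) (Fin n) F)
      = Matrix.diagonal (fun i => (d i : F)) := rfl

theorem diagU_mem (d : Fin n → Fˣ) (hd : ∀ i, d i ^ (q + 1) = 1) :
    diagU d ∈ Cfsg.GU n F q := by
  rw [mem_GU_iff]
  intro u v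
  unfold Cfsg.hermForm
  refine Finset.sum_congr rfl fun i _ => ?_
  rw [diagU_val, Matrix.mulVec_diagonal, Matrix.mulVec_diagonal, mul_pow]
  have h : (d i : F) ^ (q + 1) = 1 := by
    rw [← Units.val_pow_eq_pow_val, hd i, Units.val_one]
  calc (d i : F) * u i * ((d i : F) ^ q * v i ^ q)
      = (d i : F) ^ (q + 1) * (u i * v i ^ q) := by ring
    _ = u i * v i ^ q := by rw [h, one_mul]

theorem det_diagU (d : Fin n → Fˣ) :
    Matrix.GeneralLinearGroup.det (diagU d) = ∏ i, d i := by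
  apply Units.ext
  rw [Matrix.GeneralLinearGroup.val_det_apply, diagU_val, Matrix.det_diagonal, Units.coe_prod]

theorem prod_update_one (i₀ : Fin n) (x : Fˣ) :
    ∏ i, Function.update (fun _ : Fin n => (1 : Fˣ)) i₀ x i = x := by
  rw [Fintype.prod_eq_single i₀ (fun j hj => Function.update_of_ne hj _ _), Function.update_self]

theorem update_pow (i₀ : Fin n) (x : Fˣ) (hx : x ^ (q + 1) = 1) (k : Fin n) :
    Function.update (fun _ : Fin n => (1 : Fˣ)) i₀ x k ^ (q + 1) = 1 := by
  by_cases hk : k = i₀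
  · subst hk; rw [Function.update_self]; exact hx
  · rw [Function.update_of_ne hk]; exact one_pow _

/-- permutation unit -/
noncomputable def permU (σ : Equiv.Perm (Fin n)) : Matrix.GeneralLinearGroup (Fin n) F :=
  ⟨σ.permMatrix F, σ⁻¹.permMatrix F,
    by rw [← Matrix.permMatrix_mul, inv_mul_cancel, Matrix.permMatrix_one],
    by rw [← Matrix.permMatrix_mul, mul_inv_cancel, Matrix.permMatrix_one]⟩

theorem permU_mem (σ : Equiv.Perm (Fin n)) :
    (permU σ : Matrix.GeneralLinearGroup (Fin n) F) ∈ Cfsg.GU n F q := by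
  rw [mem_GU_iff]
  intro u v
  show Cfsg.hermForm n F q (σ.permMatrix F *ᵥ u) (σ.permMatrix F *ᵥ v) = _
  rw [Matrix.permMatrix_mulVec, Matrix.permMatrix_mulVec]
  unfold Cfsg.hermForm
  exact Equiv.sum_comp σ (fun i => u i * v i ^ q)

theorem gram (hq : 1 ≤ q) (A : Matrix (Fin n) (Fin n) F)
    (hA : ∀ u v : Fin n → F,
      Cfsg.hermForm n F q (A *ᵥ u) (A *ᵥ v) = Cfsg.hermForm n F q u v)
    (a b : Fin n) : ∑ i, A i a * A i b ^ q = if a = b then 1 else 0 := by
  have h := hA (Pi.single a 1) (Pi.single b 1)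
  unfold Cfsg.hermForm at h
  have hcol : ∀ c : Fin n, A *ᵥ Pi.single c 1 = fun i => A i c := by
    intro c; ext i; simp
  rw [hcol, hcol] at h
  have h' : ∑ i, A i a * A i b ^ q
      = ∑ i, (Pi.single a 1 : Fin n → F) i * (Pi.single b 1 : Fin n → F) i ^ q := h
  rw [h']
  by_cases hab : a = b
  · subst hab
    rw [if_pos rfl, Finset.sum_eq_single a]
    · simp
    · intro i _ hi; rw [Pi.single_eq_of_ne hi, zero_mul]
    · intro h; exact absurd (Finset.mem_univ a) h
  · rw [if_neg hab]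
    apply Finset.sum_eq_zero
    intro i _
    by_cases hi : i = a
    · subst hi; rw [Pi.single_eq_of_ne hab, zero_pow (by omega), mul_zero]
    · rw [Pi.single_eq_of_ne hi, zero_mul]

theorem exists_frob [Fintype F] (hF : Fintype.card F = q ^ 2) :
    ∃ f : F →+* F, ∀ x, f x = x ^ q := by
  obtain ⟨p, hchar⟩ := CharP.exists F
  haveI := hchar
  obtain ⟨k, hp, hk⟩ := FiniteField.card F p
  haveI : Fact p.Prime := ⟨hp⟩
  have hdvd : q ∣ p ^ (k : ℕ) := by
    rw [← hk, hF]; exact dvd_pow_self q two_ne_zero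
  obtain ⟨j, _, hj⟩ := (Nat.dvd_prime_pow hp).1 hdvd
  haveI : ExpChar F p := ExpChar.prime hp
  exact ⟨iterateFrobenius F p j, fun x => by rw [iterateFrobenius_def, hj]⟩

theorem det_pow_eq_one [Fintype F] (hF : Fintype.card F = q ^ 2) (hq : 1 ≤ q)
    (g : Matrix.GeneralLinearGroup (Fin n) F) (hg : g ∈ Cfsg.GU n F q) :
    Matrix.GeneralLinearGroup.det g ^ (q + 1) = 1 := by
  obtain ⟨f, hf⟩ := exists_frob hF
  obtain ⟨A, hA⟩ : ∃ A : Matrix (Fin n) (Fin n) F, A = (g : Matrix (Fin n) (Fin n) F) :=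
    ⟨_, rfl⟩
  have hgram := gram hq A (by rw [hA]; exact (mem_GU_iff g).1 hg)
  have h1 : Aᵀ * f.mapMatrix A = 1 := by
    ext a b
    rw [Matrix.mul_apply, Matrix.one_apply, ← hgram a b]
    refine Finset.sum_congr rfl fun i _ => ?_
    rw [Matrix.transpose_apply, RingHom.mapMatrix_apply, Matrix.map_apply, hf]
  have h2 : A.det * A.det ^ q = 1 := by
    have := congrArg Matrix.det h1
    rw [Matrix.det_mul, Matrix.det_transpose, Matrix.det_one, ← RingHom.map_det, hf] at this
    exact this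
  apply Units.ext
  rw [Units.val_pow_eq_pow_val, Matrix.GeneralLinearGroup.val_det_apply, Units.val_one, ← hA,
    pow_succ']
  exact h2

theorem sq_sub_one (hq : 1 ≤ q) : q ^ 2 - 1 = (q + 1) * (q - 1) := by
  obtain ⟨r, rfl⟩ : ∃ r, q = r + 1 := ⟨q - 1, by omega⟩
  rw [Nat.add_sub_cancel]
  have : (r + 1) ^ 2 = (r + 1 + 1) * r + 1 := by ring
  rw [this, Nat.add_sub_cancel]

theorem exists_gen [Fintype F] (hF : Fintype.card F = q ^ 2) (hq : 2 ≤ q) :
    ∃ g₀ : Fˣ, orderOf g₀ = (q + 1) * (q - 1) ∧ ∀ x : Fˣ, ∃ i : ℕ, x = g₀ ^ i := by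
  obtain ⟨g₀, hg₀⟩ := IsCyclic.exists_monoid_generator (α := Fˣ)
  refine ⟨g₀, ?_, fun x => ?_⟩
  · have h1 : orderOf g₀ = Nat.card Fˣ := orderOf_eq_card_of_forall_mem_zpowers (fun x => by
      obtain ⟨k, hk⟩ := (Submonoid.mem_powers_iff _ _).1 (hg₀ x)
      rw [← hk]; exact Subgroup.npow_mem_zpowers g₀ k)
    rw [h1, Nat.card_units, Nat.card_eq_fintype_card, hF]
    exact sq_sub_one (by omega)
  · obtain ⟨k, hk⟩ := (Submonoid.mem_powers_iff _ _).1 (hg₀ x)
    exact ⟨k, hk.symm⟩

theorem center_scalar (hq : 1 ≤ q) (x : Fˣ) (hx1 : x ^ (q + 1) = 1) (hx : x ≠ 1)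
    (z : ↥(Cfsg.GU n F q)) (hz : z ∈ Subgroup.center ↥(Cfsg.GU n F q)) (i₀ : Fin n) :
    ∃ c : Fˣ, c ^ (q + 1) = 1 ∧
      (z : Matrix.GeneralLinearGroup (Fin n) F) = diagU (fun _ => c) := by
  rw [Subgroup.mem_center_iff] at hz
  obtain ⟨Z, hZ⟩ : ∃ Z : Matrix (Fin n) (Fin n) F,
      Z = ((z : Matrix.GeneralLinearGroup (Fin n) F) : Matrix (Fin n) (Fin n) F) := ⟨_, rfl⟩
  have hcomm : ∀ w : Matrix.GeneralLinearGroup (Fin n) F, w ∈ Cfsg.GU n F q →
      (w : Matrix (Fin n) (Fin n) F) * Z = Z * (w : Matrix (Fin n) (Fin n) F) := by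
    intro w hw
    rw [hZ]
    exact congrArg (fun t : ↥(Cfsg.GU n F q) =>
      ((t : Matrix.GeneralLinearGroup (Fin n) F) : Matrix (Fin n) (Fin n) F)) (hz ⟨w, hw⟩)
  have hoff : ∀ a i : Fin n, a ≠ i → Z a i = 0 := by
    intro a i hai
    have h := hcomm (diagU (Function.update (fun _ => 1) i x))
      (diagU_mem _ (update_pow i x hx1))
    have h2 := congrFun (congrFun h a) i
    simp only [diagU_val, Matrix.diagonal_mul, Matrix.mul_diagonal, Function.update_self,
      Function.update_of_ne hai, Units.val_one, one_mul] at h2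
    have hx' : (x : F) - 1 ≠ 0 := by
      intro h0
      apply hx
      apply Units.ext
      rw [Units.val_one]; exact sub_eq_zero.mp h0
    have : Z a i * ((x : F) - 1) = 0 := by rw [mul_sub, mul_one, ← h2, sub_self]
    exact (mul_eq_zero.mp this).resolve_right hx'
  have hdiag : ∀ a b : Fin n, Z a a = Z b b := by
    intro a b
    have h := hcomm (permU (Equiv.swap a b)) (permU_mem _)
    have h' : (Equiv.swap a b).permMatrix F * Z = Z * (Equiv.swap a b).permMatrix F := h
    rw [PEquiv.toMatrix_toPEquiv_mul, PEquiv.mul_toMatrix_toPEquiv] at h'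
    have h2 := congrFun (congrFun h' a) b
    simp only [Matrix.submatrix_apply, id, Equiv.swap_apply_left, Equiv.symm_swap,
      Equiv.swap_apply_right] at h2
    exact h2.symm
  have hc : Z i₀ i₀ ^ (q + 1) = 1 := by
    have h := gram hq Z (by rw [hZ]; exact (mem_GU_iff _).1 z.2) i₀ i₀
    rw [if_pos rfl, Finset.sum_eq_single i₀
      (fun i _ hi => by rw [hoff i i₀ hi, zero_mul])
      (fun h => absurd (Finset.mem_univ _) h)] at h
    rw [pow_succ']; exact h
  refine ⟨Units.ofPowEqOne (Z i₀ i₀) (q + 1) hc (by omega), ?_, ?_⟩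
  · exact Units.pow_ofPowEqOne hc (by omega)
  · apply Units.ext
    rw [diagU_val, ← hZ]
    ext a b
    rw [Matrix.diagonal_apply]
    by_cases hab : a = b
    · subst hab; rw [if_pos rfl, Units.val_ofPowEqOne]; exact hdiag a i₀
    · rw [if_neg hab]; exact hoff a b hab

/-- PGU_n(q)/PSU_n(q) is cyclic of order (n, q+1): for n ≥ 2 and |F| = q² there is a surjective homomorphism from GU_n(q) onto the cyclic group of order gcd(n, q + 1) whose kernel is generated by the determinant-one elements together with the centre. -/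
theorem result {F : Type*} [Field F] [Fintype F] {q : ℕ} (hF : Fintype.card F = q ^ 2) (n : ℕ) (hn : 2 ≤ n) : ∃ φ : ↥(Cfsg.GU n F q) →* Multiplicative (ZMod (Nat.gcd n (q + 1))), Function.Surjective φ ∧ φ.ker = (Matrix.GeneralLinearGroup.det : Matrix.GeneralLinearGroup (Fin n) F →* Fˣ).ker.subgroupOf (Cfsg.GU n F q) ⊔ Subgroup.center ↥(Cfsg.GU n F q) := by
  classical
  have hq : 2 ≤ q := by
    have h1 : 1 < Fintype.card F := Fintype.one_lt_card
    rw [hF] at h1
    by_contra hlt
    have : q ≤ 1 := by omega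
    interval_cases q <;> simp at h1
  set d := Nat.gcd n (q + 1) with hd
  have hdpos : 0 < d := Nat.gcd_pos_of_pos_left _ (by omega)
  obtain ⟨m, hm⟩ : d ∣ q + 1 := Nat.gcd_dvd_right _ _
  obtain ⟨n', hn'⟩ : d ∣ n := Nat.gcd_dvd_left _ _
  have hmpos : 0 < m := by
    rcases Nat.eq_zero_or_pos m with h | h
    · rw [h] at hm; omega
    · exact h
  obtain ⟨g₀, hord, hgen⟩ := exists_gen hF hq
  set ζ : Fˣ := g₀ ^ (q - 1) with hζ
  have hζ1 : ζ ^ (q + 1) = 1 := by
    rw [hζ, ← pow_mul, mul_comm, ← hord]; exact pow_orderOf_eq_one g₀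
  have hζord : orderOf ζ = q + 1 := by
    rw [hζ, orderOf_pow_of_dvd (by omega) (by rw [hord]; exact Dvd.intro_left _ rfl), hord]
    exact Nat.mul_div_cancel _ (by omega)
  have hζne : ζ ≠ 1 := by
    intro h
    rw [h, orderOf_one] at hζord
    omega
  let i₀ : Fin n := ⟨0, by omega⟩
  let φ₀ : ↥(Cfsg.GU n F q) →* Fˣ :=
    (powMonoidHom m).comp (Matrix.GeneralLinearGroup.det.comp (Cfsg.GU n F q).subtype)
  have hφ₀ : ∀ g : ↥(Cfsg.GU n F q),
      φ₀ g = Matrix.GeneralLinearGroup.det (g : Matrix.GeneralLinearGroup (Fin n) F) ^ m :=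
    fun g => rfl
  have hrange : φ₀.range = Subgroup.zpowers (ζ ^ m) := by
    apply le_antisymm
    · rintro _ ⟨g, rfl⟩
      rw [hφ₀]
      obtain ⟨i, hi⟩ := hgen (Matrix.GeneralLinearGroup.det
        (g : Matrix.GeneralLinearGroup (Fin n) F))
      have h1 := det_pow_eq_one hF (by omega) g.1 g.2
      rw [hi, ← pow_mul] at h1
      have h2 : orderOf g₀ ∣ i * (q + 1) := orderOf_dvd_of_pow_eq_one h1
      rw [hord, mul_comm i] at h2
      have h3 : (q - 1) ∣ i := Nat.dvd_of_mul_dvd_mul_left (by omega) h2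
      obtain ⟨k, rfl⟩ := h3
      rw [hi, pow_mul, ← hζ, ← pow_mul ζ k m, mul_comm k m, pow_mul ζ m k]
      exact Subgroup.npow_mem_zpowers (ζ ^ m) k
    · rw [Subgroup.zpowers_le]
      refine ⟨⟨diagU (Function.update (fun _ => 1) i₀ ζ),
        diagU_mem _ (update_pow i₀ ζ hζ1)⟩, ?_⟩
      rw [hφ₀]
      show Matrix.GeneralLinearGroup.det (diagU (Function.update (fun _ => 1) i₀ ζ)) ^ m = ζ ^ m
      rw [det_diagU, prod_update_one]
  have hcard : Nat.card φ₀.range = d := by
    rw [hrange, Nat.card_zpowers, orderOf_pow_of_dvd (by omega)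
      (by rw [hζord, hm]; exact Dvd.intro_left _ rfl), hζord, hm]
    exact Nat.mul_div_cancel _ hmpos
  haveI : NeZero d := ⟨by omega⟩
  have hcard2 : Nat.card φ₀.range = Nat.card (Multiplicative (ZMod d)) := by
    rw [hcard]; exact (Nat.card_zmod d).symm
  let e : φ₀.range ≃* Multiplicative (ZMod d) := mulEquivOfCyclicCardEq hcard2
  refine ⟨e.toMonoidHom.comp φ₀.rangeRestrict, ?_, ?_⟩
  · exact e.surjective.comp φ₀.rangeRestrict_surjective
  · have hker : (e.toMonoidHom.comp φ₀.rangeRestrict).ker = φ₀.ker := by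
      ext g
      rw [MonoidHom.mem_ker, MonoidHom.mem_ker, MonoidHom.comp_apply]
      constructor
      · intro h
        have h1 : φ₀.rangeRestrict g = 1 := e.injective (h.trans (map_one e).symm)
        exact congrArg Subtype.val h1
      · intro h
        have h1 : φ₀.rangeRestrict g = 1 := Subtype.ext h
        rw [h1]; exact map_one _
    rw [hker]
    apply le_antisymm
    · intro g hg
      rw [MonoidHom.mem_ker, hφ₀] at hg
      obtain ⟨i, hi⟩ := hgen (Matrix.GeneralLinearGroup.det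
        (g : Matrix.GeneralLinearGroup (Fin n) F))
      rw [hi, ← pow_mul] at hg
      have h2 : orderOf g₀ ∣ i * m := orderOf_dvd_of_pow_eq_one hg
      rw [hord, hm] at h2
      have h3 : d * (q - 1) ∣ i := by
        apply Nat.dvd_of_mul_dvd_mul_left hmpos
        have : m * (d * (q - 1)) = d * m * (q - 1) := by ring
        rw [this, mul_comm m i]; exact h2
      obtain ⟨j, rfl⟩ := h3
      have hdet : Matrix.GeneralLinearGroup.det (g : Matrix.GeneralLinearGroup (Fin n) F)
          = ζ ^ (d * j) := by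
        rw [hi, hζ, ← pow_mul]; congr 1; ring
      have hbez : (d : ℤ) = n * Nat.gcdA n (q + 1) + ((q + 1 : ℕ) : ℤ) * Nat.gcdB n (q + 1) :=
        Nat.gcd_eq_gcd_ab n (q + 1)
      obtain ⟨lam, hlam⟩ : ∃ lam : Fˣ, lam = ζ ^ (Nat.gcdA n (q + 1) * (j : ℤ)) := ⟨_, rfl⟩
      have hlam1 : lam ^ (q + 1) = 1 := by
        rw [hlam, ← _root_.zpow_natCast, ← _root_.zpow_mul, mul_comm, _root_.zpow_mul,
          _root_.zpow_natCast, hζ1, _root_.one_zpow]
      have hlamn : lam ^ n
          = Matrix.GeneralLinearGroup.det (g : Matrix.GeneralLinearGroup (Fin n) F) := by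
        rw [hdet, hlam, ← _root_.zpow_natCast, ← _root_.zpow_mul, ← _root_.zpow_natCast ζ (d * j)]
        have : (Nat.gcdA n (q + 1) * (j : ℤ) * (n : ℤ))
            = ((d * j : ℕ) : ℤ) - ((q + 1 : ℕ) : ℤ) * (Nat.gcdB n (q + 1) * j) := by
          rw [Nat.cast_mul, hbez]; ring
        rw [this, _root_.zpow_sub, _root_.zpow_mul, _root_.zpow_natCast ζ (q + 1), hζ1,
          _root_.one_zpow, inv_one, mul_one]
      let s : ↥(Cfsg.GU n F q) := ⟨diagU (fun _ => lam), diagU_mem _ (fun _ => hlam1)⟩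
      have hs : s ∈ Subgroup.center ↥(Cfsg.GU n F q) := by
        rw [Subgroup.mem_center_iff]
        intro h
        apply Subtype.ext
        apply Units.ext
        show ((h : Matrix.GeneralLinearGroup (Fin n) F) : Matrix (Fin n) (Fin n) F)
            * Matrix.diagonal (fun _ => (lam : F))
          = Matrix.diagonal (fun _ => (lam : F))
            * ((h : Matrix.GeneralLinearGroup (Fin n) F) : Matrix (Fin n) (Fin n) F)
        ext a b
        rw [Matrix.mul_diagonal, Matrix.diagonal_mul, mul_comm]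
      have hdets : Matrix.GeneralLinearGroup.det (s : Matrix.GeneralLinearGroup (Fin n) F)
          = Matrix.GeneralLinearGroup.det (g : Matrix.GeneralLinearGroup (Fin n) F) := by
        show Matrix.GeneralLinearGroup.det (diagU fun _ => lam) = _
        rw [det_diagU, Finset.prod_const, Finset.card_univ, Fintype.card_fin, hlamn]
      have hg1 : g * s⁻¹ ∈ (Matrix.GeneralLinearGroup.det :
          Matrix.GeneralLinearGroup (Fin n) F →* Fˣ).ker.subgroupOf (Cfsg.GU n F q) := by
        rw [Subgroup.mem_subgroupOf, MonoidHom.mem_ker]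
        show Matrix.GeneralLinearGroup.det ((g : Matrix.GeneralLinearGroup (Fin n) F)
          * (s : Matrix.GeneralLinearGroup (Fin n) F)⁻¹) = 1
        rw [map_mul, map_inv, hdets, mul_inv_cancel]
      have hgs : g = g * s⁻¹ * s := (inv_mul_cancel_right g s).symm
      rw [hgs]
      exact Subgroup.mul_mem_sup hg1 hs
    · apply sup_le
      · intro g hg
        rw [Subgroup.mem_subgroupOf, MonoidHom.mem_ker] at hg
        rw [MonoidHom.mem_ker, hφ₀, hg, one_pow]
      · intro z hz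
        rw [MonoidHom.mem_ker, hφ₀]
        obtain ⟨c, hc1, hc⟩ := center_scalar (by omega : 1 ≤ q) ζ hζ1 hζne z hz i₀
        rw [hc, det_diagU, Finset.prod_const, Finset.card_univ, Fintype.card_fin, ← pow_mul]
        have : n * m = (q + 1) * n' := by
          calc n * m = d * n' * m := by rw [← hn']
            _ = d * m * n' := by ring
            _ = (q + 1) * n' := by rw [← hm]
        rw [this, pow_mul, hc1, one_pow]

end Cfsg.Agent.S0783
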