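import Cfsg.Statements.S2573
import Mathlib

set_option autoImplicit false
open Cfsg

namespace Cfsg.Agent.S2573

/-- the kernel of `N ^ k` has dimension at most `k` times the nullity of `N`. -/
theorem finrank_ker_pow_le {F V : Type*} [Field F] [AddCommGroup V] [Module F V]
    [FiniteDimensional F V] (N : V →ₗ[F] V) (k : ℕ) :
    Module.finrank F (LinearMap.ker (N ^ k)) ≤ k * Module.finrank F (LinearMap.ker N) := by
  induction k with
  | zero =>
    have : LinearMap.ker (N ^ 0) = ⊥ := by
      rw [pow_zero]
      exact LinearMap.ker_id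
    rw [this]
    simp
  | succ k ih =>
    let f : LinearMap.ker (N ^ (k + 1)) →ₗ[F] LinearMap.ker N :=
      LinearMap.codRestrict (LinearMap.ker N) ((N ^ k).comp (Submodule.subtype _)) (by
        intro x
        rw [LinearMap.mem_ker]
        have hx : (N ^ (k + 1)) (x : V) = 0 := LinearMap.mem_ker.mp x.2
        have hx' : (N * N ^ k) (x : V) = 0 := by rw [← pow_succ']; exact hx
        exact hx')
    have hrn := LinearMap.finrank_range_add_finrank_ker f
    have h1 : Module.finrank F (LinearMap.range f) ≤ Module.finrank F (LinearMap.ker N) :=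
      Submodule.finrank_le _
    have h2 : Module.finrank F (LinearMap.ker f) ≤ Module.finrank F (LinearMap.ker (N ^ k)) := by
      rw [← Submodule.finrank_map_subtype_eq (LinearMap.ker (N ^ (k + 1))) (LinearMap.ker f)]
      apply Submodule.finrank_mono
      rintro _ ⟨x, hx, rfl⟩
      have hx' : f x = 0 := LinearMap.mem_ker.mp hx
      rw [LinearMap.mem_ker]
      have := congrArg Subtype.val hx'
      simpa [f] using this
    have : (k + 1) * Module.finrank F (LinearMap.ker N)
        = k * Module.finrank F (LinearMap.ker N) + Module.finrank F (LinearMap.ker N) := by ring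
    omega

/-- a nilpotent endomorphism leaving `W` invariant is killed on `W` by its `dim W`-th power. -/
theorem pow_finrank_apply_eq_zero {F V : Type*} [Field F] [AddCommGroup V] [Module F V]
    [FiniteDimensional F V] (N : V →ₗ[F] V) (hN : IsNilpotent N) (W : Submodule F V)
    (hW : ∀ v ∈ W, N v ∈ W) (w : V) (hw : w ∈ W) : (N ^ Module.finrank F W) w = 0 := by
  have hnil : IsNilpotent (N.restrict hW) := by
    obtain ⟨m, hm⟩ := hN
    refine ⟨m, ?_⟩
    rw [Module.End.pow_restrict]
    ext x
    simp [hm]
  have h0 : (N.restrict hW) ^ Module.finrank F W = 0 := by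
    have h1 := LinearMap.aeval_self_charpoly (N.restrict hW)
    rw [hnil.charpoly_eq_X_pow_finrank] at h1
    simpa using h1
  rw [Module.End.pow_restrict] at h0
  have := congrArg (fun g : W →ₗ[F] W => ((g ⟨w, hw⟩ : W) : V)) h0
  simpa using this

theorem mulVecLin_pow {F : Type*} [Field F] {n : ℕ} (A : Matrix (Fin n) (Fin n) F) (k : ℕ) :
    Matrix.mulVecLin (A ^ k) = (Matrix.mulVecLin A) ^ k := by
  induction k with
  | zero => rw [pow_zero, pow_zero, Matrix.mulVecLin_one]; rfl
  | succ k ih => rw [pow_succ, Matrix.mulVecLin_mul, ih, pow_succ]; rfl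

/-- general form of the statement for an endomorphism with nullity at most one. -/
theorem eq_ker_pow {F V : Type*} [Field F] [AddCommGroup V] [Module F V]
    [FiniteDimensional F V] (N : V →ₗ[F] V) (hN : IsNilpotent N)
    (hker : Module.finrank F (LinearMap.ker N) ≤ 1) (W : Submodule F V)
    (hW : ∀ v ∈ W, N v ∈ W) : W = LinearMap.ker (N ^ Module.finrank F W) := by
  have hle : W ≤ LinearMap.ker (N ^ Module.finrank F W) := fun w hw =>
    LinearMap.mem_ker.mpr (pow_finrank_apply_eq_zero N hN W hW w hw)
  apply Submodule.eq_of_le_of_finrank_le hle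
  calc Module.finrank F (LinearMap.ker (N ^ Module.finrank F W))
      ≤ Module.finrank F W * Module.finrank F (LinearMap.ker N) := finrank_ker_pow_le N _
    _ ≤ Module.finrank F W * 1 := Nat.mul_le_mul_left _ hker
    _ = Module.finrank F W := mul_one _

/-- The invariant subspaces of a regular unipotent matrix form a chain: over a finite field, if u is an n × n matrix with (u − 1)^n = 0 and rank(u − 1) = n − 1, then every subspace W of F^n with u W ⊆ W is the kernel of (u − 1)^(dim W); so u has at most one invariant subspace of each dimension. -/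
theorem result {F : Type*} [Field F] [Finite F] {n : ℕ} (u : Matrix (Fin n) (Fin n) F) (hnil : (u - 1) ^ n = 0) (hreg : (u - 1).rank = n - 1) (W : Submodule F (Fin n → F)) (hW : ∀ v ∈ W, u.mulVec v ∈ W) : W = LinearMap.ker (Matrix.mulVecLin ((u - 1) ^ Module.finrank F W)) := by
  classical
  rw [mulVecLin_pow]
  have hNnil : IsNilpotent (Matrix.mulVecLin (u - 1)) := ⟨n, by rw [← mulVecLin_pow, hnil]; simp⟩
  have hWN : ∀ v ∈ W, Matrix.mulVecLin (u - 1) v ∈ W := by
    intro v hv
    have : Matrix.mulVecLin (u - 1) v = u.mulVec v - v := by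
      simp
    rw [this]
    exact W.sub_mem (hW v hv) hv
  have hker : Module.finrank F (LinearMap.ker (Matrix.mulVecLin (u - 1))) ≤ 1 := by
    have h1 := LinearMap.finrank_range_add_finrank_ker (Matrix.mulVecLin (u - 1))
    have h2 : Module.finrank F (LinearMap.range (Matrix.mulVecLin (u - 1))) = n - 1 := by
      rw [← hreg]; rfl
    have h3 : Module.finrank F (Fin n → F) = n := by simp
    omega
  exact eq_ker_pow _ hNnil hker W hWN

end Cfsg.Agent.S2573
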