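import Cfsg.Statements.S2571
import Mathlib
import Cfsg.Agent.S2573
-- import your own Cfsg.Agent.* helpers here

set_option autoImplicit false
open Cfsg

namespace Cfsg.Agent.S2571

open Matrix

theorem krylov_inj {F V : Type*} [Field F] [AddCommGroup V] [Module F V] (N : V →ₗ[F] V)
    (n : ℕ) (hN : N ^ n = 0) (e : V) (he : (N ^ (n - 1)) e ≠ 0) (a : Fin n → F)
    (h : ∑ i : Fin n, a i • (N ^ (i : ℕ)) e = 0) : a = 0 := by
  suffices H : ∀ k (hk : k < n), a ⟨k, hk⟩ = 0 by
    funext i; exact H i.1 i.2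
  intro k
  induction k using Nat.strong_induction_on with
  | _ k ih =>
    intro hk
    have h1 := congrArg (N ^ (n - 1 - k)) h
    simp only [map_sum, map_smul, map_zero] at h1
    rw [Finset.sum_eq_single (⟨k, hk⟩ : Fin n)] at h1
    · have h2 : (N ^ (n - 1 - k)) ((N ^ k) e) = (N ^ (n - 1)) e := by
        rw [← Module.End.mul_apply, ← pow_add]
        congr 2
        omega
      change a ⟨k, hk⟩ • (N ^ (n - 1 - k)) ((N ^ k) e) = 0 at h1
      rw [h2] at h1
      exact (smul_eq_zero.mp h1).resolve_right he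
    · intro j _ hj
      have hjk : (j : ℕ) ≠ k := fun h' => hj (Fin.ext h')
      rcases lt_or_gt_of_ne hjk with hlt | hgt
      · have h0 : a j = 0 := ih j.1 hlt j.2
        rw [h0]
        exact zero_smul _ _
      · have h3 : (N ^ (n - 1 - k)) ((N ^ (j : ℕ)) e) = 0 := by
          rw [← Module.End.mul_apply, ← pow_add, pow_eq_zero_of_le (by omega) hN]
          rfl
        rw [h3, smul_zero]
    · intro hnot; exact absurd (Finset.mem_univ _) hnot

theorem ker_invariant {F V : Type*} [Field F] [AddCommGroup V] [Module F V]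
    (L D : V →ₗ[F] V) (hD : D * L = L * D) : ∀ v ∈ LinearMap.ker D, L v ∈ LinearMap.ker D := by
  intro v hv
  rw [LinearMap.mem_ker] at hv ⊢
  have h1 : (D * L) v = (L * D) v := by rw [hD]
  rw [Module.End.mul_apply, Module.End.mul_apply, hv, map_zero] at h1
  exact h1

theorem eq_zero_of_comm {F V : Type*} [Field F] [AddCommGroup V] [Module F V]
    [FiniteDimensional F V] (L : V →ₗ[F] V) (n : ℕ) (hn : Module.finrank F V = n)
    (hL : L ^ n = 0) (D : V →ₗ[F] V) (hD : D * L = L * D)
    (x : V) (hx : D x = 0) (hx' : (L ^ (n - 1)) x ≠ 0) : D = 0 := by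
  have hW := ker_invariant L D hD
  have h1 := S2573.pow_finrank_apply_eq_zero L ⟨n, hL⟩ (LinearMap.ker D) hW x
    (LinearMap.mem_ker.mpr hx)
  have h2 : n ≤ Module.finrank F (LinearMap.ker D) := by
    by_contra hlt
    rw [not_le] at hlt
    apply hx'
    have h3 : n - 1 = (n - 1 - Module.finrank F (LinearMap.ker D))
        + Module.finrank F (LinearMap.ker D) := by omega
    rw [h3, pow_add, Module.End.mul_apply, h1, map_zero]
  have h3 : LinearMap.ker D = ⊤ :=
    Submodule.eq_top_of_finrank_eq (le_antisymm (Submodule.finrank_le _) (by rw [hn]; exact h2))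
  exact LinearMap.ker_eq_top.mp h3

theorem inj_of_comm {F V : Type*} [Field F] [AddCommGroup V] [Module F V]
    [FiniteDimensional F V] (L : V →ₗ[F] V) (n : ℕ) (hLn : L ^ n = 0)
    (hker : Module.finrank F (LinearMap.ker L) ≤ 1)
    (g : V →ₗ[F] V) (hg : g * L = L * g) (e : V) (he : (L ^ (n - 1)) (g e) ≠ 0) :
    Function.Injective g := by
  rw [← LinearMap.ker_eq_bot]
  have hW := ker_invariant L g hg
  have h1 := S2573.eq_ker_pow L ⟨n, hLn⟩ hker (LinearMap.ker g) hW
  by_contra hne
  have hd : Module.finrank F (LinearMap.ker g) ≠ 0 :=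
    fun h0 => hne (Submodule.finrank_eq_zero.mp h0)
  obtain ⟨d, hd'⟩ : ∃ d, Module.finrank F (LinearMap.ker g) = d + 1 :=
    ⟨_, (Nat.succ_pred_eq_of_ne_zero hd).symm⟩
  have h2 : (L ^ (n - 1)) e ∈ LinearMap.ker g := by
    rw [h1, LinearMap.mem_ker, hd', ← Module.End.mul_apply, ← pow_add,
      pow_eq_zero_of_le (by omega) hLn]
    rfl
  apply he
  have hc : Commute g L := hg
  have h3 : (g * L ^ (n - 1)) e = (L ^ (n - 1) * g) e := by rw [(hc.pow_right (n - 1)).eq]
  rw [Module.End.mul_apply, Module.End.mul_apply] at h3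
  rw [← h3]
  exact LinearMap.mem_ker.mp h2

/-- Centraliser of a regular unipotent element in GL_n(q): if u is an invertible n × n matrix over the field with q elements, n ≥ 1, with (u − 1)^n = 0 and rank(u − 1) = n − 1 (a single unipotent Jordan block), then its centraliser in GL_n(q) has order (q − 1) q^(n−1). -/
theorem result {F : Type*} [Field F] [Fintype F] {q n : ℕ} (hF : Fintype.card F = q) (hn : 1 ≤ n) (u : GL (Fin n) F) (hnil : ((u : Matrix (Fin n) (Fin n) F) - 1) ^ n = 0) (hreg : ((u : Matrix (Fin n) (Fin n) F) - 1).rank = n - 1) : Nat.card ↥(Subgroup.centralizer ({u} : Set (GL (Fin n) F))) = (q - 1) * q ^ (n - 1) := by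
  classical
  subst hF
  obtain ⟨N, hNdef⟩ : ∃ N : Matrix (Fin n) (Fin n) F,
      N = (u : Matrix (Fin n) (Fin n) F) - 1 := ⟨_, rfl⟩
  rw [← hNdef] at hnil hreg
  have hu : (u : Matrix (Fin n) (Fin n) F) = N + 1 := by rw [hNdef, sub_add_cancel]
  obtain ⟨L, hL⟩ : ∃ L : (Fin n → F) →ₗ[F] (Fin n → F), L = Matrix.mulVecLin N := ⟨_, rfl⟩
  have hLpow : ∀ k, L ^ k = Matrix.mulVecLin (N ^ k) := fun k => by
    rw [hL, S2573.mulVecLin_pow]
  have hLpow_app : ∀ k v, (L ^ k) v = (N ^ k) *ᵥ v := fun k v => by rw [hLpow]; rfl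
  have hLn : L ^ n = 0 := by rw [hLpow, hnil, Matrix.mulVecLin_zero]
  have hdimV : Module.finrank F (Fin n → F) = n := by simp
  have hker : Module.finrank F (LinearMap.ker L) = 1 := by
    have h1 : Module.finrank F (LinearMap.range L) + Module.finrank F (LinearMap.ker L)
        = Module.finrank F (Fin n → F) := LinearMap.finrank_range_add_finrank_ker L
    have h2 : Module.finrank F (LinearMap.range L) = n - 1 := by rw [hL]; exact hreg
    rw [h2, hdimV] at h1
    omega
  have hkerpow : Module.finrank F (LinearMap.ker (L ^ (n - 1))) = n - 1 := by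
    apply le_antisymm
    · have h0 := S2573.finrank_ker_pow_le L (n - 1)
      rw [hker, mul_one] at h0
      exact h0
    · have h1 : Module.finrank F (LinearMap.range (L ^ (n - 1)))
          + Module.finrank F (LinearMap.ker (L ^ (n - 1)))
          = Module.finrank F (Fin n → F) := LinearMap.finrank_range_add_finrank_ker (L ^ (n - 1))
      have h2 : LinearMap.range (L ^ (n - 1)) ≤ LinearMap.ker L := by
        rintro _ ⟨x, rfl⟩
        rw [LinearMap.mem_ker, ← Module.End.mul_apply, ← pow_succ',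
          show n - 1 + 1 = n by omega, hLn]
        rfl
      have h3 := Submodule.finrank_mono h2
      rw [hker] at h3
      rw [hdimV] at h1
      omega
  obtain ⟨e, he⟩ : ∃ e, (L ^ (n - 1)) e ≠ 0 := by
    by_contra hall
    push Not at hall
    have htop : LinearMap.ker (L ^ (n - 1)) = ⊤ := by
      rw [Submodule.eq_top_iff']; intro x; exact LinearMap.mem_ker.mpr (hall x)
    rw [htop, finrank_top, hdimV] at hkerpow
    omega
  have hC : ∀ g : GL (Fin n) F, g ∈ Subgroup.centralizer ({u} : Set (GL (Fin n) F)) ↔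
      (g : Matrix (Fin n) (Fin n) F) * N = N * (g : Matrix (Fin n) (Fin n) F) := by
    intro g
    rw [Subgroup.mem_centralizer_iff]
    constructor
    · intro h
      have h1 := congrArg (fun x : GL (Fin n) F => (x : Matrix (Fin n) (Fin n) F))
        (h u (Set.mem_singleton u))
      simp only [Units.val_mul] at h1
      rw [hu, Matrix.add_mul, Matrix.mul_add, Matrix.one_mul, Matrix.mul_one] at h1
      exact (add_right_cancel h1).symm
    · intro h x hx
      rw [Set.mem_singleton_iff] at hx
      rw [hx]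
      apply Units.ext
      rw [Units.val_mul, Units.val_mul, hu, Matrix.add_mul, Matrix.mul_add, Matrix.one_mul,
        Matrix.mul_one, h]
  have hcardT : Nat.card {v : Fin n → F // (L ^ (n - 1)) v ≠ 0}
      = (Fintype.card F - 1) * Fintype.card F ^ (n - 1) := by
    have e1 : {v : Fin n → F // (L ^ (n - 1)) v ≠ 0}
        ≃ {v : Fin n → F // ¬ (v ∈ LinearMap.ker (L ^ (n - 1)))} :=
      Equiv.subtypeEquivRight (fun v => by rw [LinearMap.mem_ker])
    rw [Nat.card_congr e1, Nat.card_eq_fintype_card, Fintype.card_subtype_compl]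
    have h1 : Fintype.card (Fin n → F) = Fintype.card F ^ n := by simp
    have h2 : Fintype.card {v : Fin n → F // v ∈ LinearMap.ker (L ^ (n - 1))}
        = Fintype.card F ^ (n - 1) := by
      have h0 := Module.card_eq_pow_finrank (K := F) (V := LinearMap.ker (L ^ (n - 1)))
      rw [hkerpow] at h0
      convert h0
    rw [h1, h2]
    have h3 : Fintype.card F ^ n = Fintype.card F ^ (n - 1) * Fintype.card F := by
      rw [← pow_succ]; congr 1; omega
    rw [h3, Nat.sub_mul, one_mul, mul_comm]
  have hθ : ∀ g : ↥(Subgroup.centralizer ({u} : Set (GL (Fin n) F))),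
      (L ^ (n - 1)) ((g.1 : Matrix (Fin n) (Fin n) F) *ᵥ e) ≠ 0 := by
    intro g h0
    have hc : Commute (g.1 : Matrix (Fin n) (Fin n) F) N := (hC g.1).mp g.2
    have h1 : (N ^ (n - 1)) *ᵥ ((g.1 : Matrix (Fin n) (Fin n) F) *ᵥ e)
        = (g.1 : Matrix (Fin n) (Fin n) F) *ᵥ ((N ^ (n - 1)) *ᵥ e) := by
      rw [Matrix.mulVec_mulVec, Matrix.mulVec_mulVec, (hc.pow_right (n - 1)).eq]
    rw [hLpow_app, h1] at h0
    have h2 := congrArg
      (fun w => ((g.1⁻¹ : GL (Fin n) F) : Matrix (Fin n) (Fin n) F) *ᵥ w) h0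
    simp only [Matrix.mulVec_mulVec, Units.inv_mul, Matrix.mulVec_zero,
      one_mul, ← mul_assoc] at h2
    exact he (by rw [hLpow_app]; exact h2)
  have hbij : Function.Bijective
      (fun g : ↥(Subgroup.centralizer ({u} : Set (GL (Fin n) F))) =>
        (⟨(g.1 : Matrix (Fin n) (Fin n) F) *ᵥ e, hθ g⟩ :
          {v : Fin n → F // (L ^ (n - 1)) v ≠ 0})) := by
    constructor
    · intro g g' hgg
      have h1 : (g.1 : Matrix (Fin n) (Fin n) F) *ᵥ e
          = (g'.1 : Matrix (Fin n) (Fin n) F) *ᵥ e := congrArg Subtype.val hgg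
      have hc : (g.1 : Matrix (Fin n) (Fin n) F) * N = N * (g.1 : Matrix (Fin n) (Fin n) F) :=
        (hC g.1).mp g.2
      have hc' : (g'.1 : Matrix (Fin n) (Fin n) F) * N
          = N * (g'.1 : Matrix (Fin n) (Fin n) F) := (hC g'.1).mp g'.2
      have hD : Matrix.mulVecLin ((g.1 : Matrix (Fin n) (Fin n) F) - (g'.1 : Matrix (Fin n) (Fin n) F)) * L
          = L * Matrix.mulVecLin ((g.1 : Matrix (Fin n) (Fin n) F) - (g'.1 : Matrix (Fin n) (Fin n) F)) := by
        rw [hL]
        show (Matrix.mulVecLin _).comp (Matrix.mulVecLin _)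
          = (Matrix.mulVecLin _).comp (Matrix.mulVecLin _)
        rw [← Matrix.mulVecLin_mul, ← Matrix.mulVecLin_mul, Matrix.sub_mul, Matrix.mul_sub,
          hc, hc']
      have hz := eq_zero_of_comm L n hdimV hLn _ hD e (by
        show ((g.1 : Matrix (Fin n) (Fin n) F) - (g'.1 : Matrix (Fin n) (Fin n) F)) *ᵥ e = 0
        rw [Matrix.sub_mulVec, h1, sub_self]) he
      have hz' : (g.1 : Matrix (Fin n) (Fin n) F) - (g'.1 : Matrix (Fin n) (Fin n) F) = 0 := by
        apply Matrix.mulVec_injective
        funext v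
        have h5 := congrArg (fun f => f v) hz
        rw [Matrix.zero_mulVec]
        exact h5
      exact Subtype.ext (Units.ext (sub_eq_zero.mp hz'))
    · rintro ⟨v, hv⟩
      have hPinj : Function.Injective
          (Fintype.linearCombination F (fun i : Fin n => (L ^ (i : ℕ)) e)) := by
        rw [← LinearMap.ker_eq_bot, LinearMap.ker_eq_bot']
        intro a ha
        rw [Fintype.linearCombination_apply] at ha
        exact krylov_inj L n hLn e he a ha
      obtain ⟨a, ha⟩ := (LinearMap.injective_iff_surjective.mp hPinj) v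
      rw [Fintype.linearCombination_apply] at ha
      obtain ⟨G, hG⟩ : ∃ G : Matrix (Fin n) (Fin n) F,
          G = ∑ i : Fin n, a i • N ^ (i : ℕ) := ⟨_, rfl⟩
      have hGe : G *ᵥ e = v := by
        rw [hG, Matrix.sum_mulVec, ← ha]
        refine Finset.sum_congr rfl (fun i _ => ?_)
        rw [Matrix.smul_mulVec, hLpow_app]
      have hGN : G * N = N * G := by
        rw [hG, Finset.sum_mul, Finset.mul_sum]
        refine Finset.sum_congr rfl (fun i _ => ?_)
        rw [Matrix.smul_mul, Matrix.mul_smul, ← pow_succ, ← pow_succ']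
      have hGinj : Function.Injective G.mulVec := by
        have hcomm : Matrix.mulVecLin G * L = L * Matrix.mulVecLin G := by
          rw [hL]
          show (Matrix.mulVecLin _).comp (Matrix.mulVecLin _)
            = (Matrix.mulVecLin _).comp (Matrix.mulVecLin _)
          rw [← Matrix.mulVecLin_mul, ← Matrix.mulVecLin_mul, hGN]
        exact inj_of_comm L n hLn hker.le (Matrix.mulVecLin G) hcomm e (by
          show (L ^ (n - 1)) (G *ᵥ e) ≠ 0
          rw [hGe]; exact hv)
      have hGu : IsUnit G := Matrix.mulVec_injective_iff_isUnit.mp hGinj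
      refine ⟨⟨hGu.unit, (hC _).mpr ?_⟩, ?_⟩
      · rw [IsUnit.unit_spec]; exact hGN
      · apply Subtype.ext
        show ((hGu.unit : GL (Fin n) F) : Matrix (Fin n) (Fin n) F) *ᵥ e = v
        rw [IsUnit.unit_spec]; exact hGe
  rw [Nat.card_congr (Equiv.ofBijective _ hbij), hcardT]

end Cfsg.Agent.S2571
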