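import Cfsg.Statements.S0270
import Mathlib
import Cfsg.Agent.S0768
import Cfsg.Agent.S0766
import Cfsg.Agent.S0765
import Cfsg.Agent.S0269
import Cfsg.Agent.S0245
-- import your own Cfsg.Agent.* helpers here

set_option autoImplicit false
open Cfsg

namespace Cfsg.Agent.S0270


open scoped LinearAlgebra.Projectivization Pointwise
open Matrix

variable {F : Type*} [Field F]

theorem sp_smul_mk (m : ℕ) (g : Matrix.symplecticGroup (Fin m) F) (v : Fin m ⊕ Fin m → F)
    (hv : v ≠ 0) (w : Fin m ⊕ Fin m → F) (hw : w ≠ 0) (c : F)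
    (h : (g : Matrix (Fin m ⊕ Fin m) (Fin m ⊕ Fin m) F) *ᵥ v = c • w) :
    g • Projectivization.mk F v hv = Projectivization.mk F w hw := by
  rw [Projectivization.smul_mk, Projectivization.mk_eq_mk_iff']
  exact ⟨c, h.symm⟩

theorem sp_preprim (m : ℕ) : MulAction.IsPreprimitive (Matrix.symplecticGroup (Fin m) F)
    (ℙ F (Fin m ⊕ Fin m → F)) := by
  apply S0768.preprim_abs (S0766.sB m F) (S0766.sB_nondeg m F) (S0766.sB_alt m F)
  · intro u v u' v' hu hv hu' hv' h h'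
    obtain ⟨A, hA1, c, hA2⟩ := S0768.sp_trans_N m u v u' v' h h'
    exact ⟨A, sp_smul_mk m A u hu u' hu' 1 (by rw [one_smul]; exact hA1),
      sp_smul_mk m A v hv v' hv' c hA2⟩
  · intro u v u' v' hu hv hu' hv' hli hli' h h'
    obtain ⟨A, hA1, hA2⟩ := S0768.sp_trans_O m u v u' v' hli hli' h h'
    exact ⟨A, sp_smul_mk m A u hu u' hu' 1 (by rw [one_smul]; exact hA1),
      sp_smul_mk m A v hv v' hv' 1 (by rw [one_smul]; exact hA2)⟩

/-- The root subgroup of symplectic transvections with centre `w`. -/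
def Tsub (m : ℕ) (w : Fin m ⊕ Fin m → F) : Subgroup (Matrix.symplecticGroup (Fin m) F) where
  carrier := Set.range (fun c : F => S0269.Tr m w c)
  mul_mem' := by
    rintro _ _ ⟨c, rfl⟩ ⟨d, rfl⟩
    exact ⟨c + d, (S0269.Tr_mul m w c d).symm⟩
  one_mem' := ⟨0, S0269.Tr_zero m w⟩
  inv_mem' := by
    rintro _ ⟨c, rfl⟩
    exact ⟨-c, (S0269.Tr_inv m w c).symm⟩

theorem mem_Tsub (m : ℕ) (w : Fin m ⊕ Fin m → F) (x : Matrix.symplecticGroup (Fin m) F) :
    x ∈ Tsub m w ↔ ∃ c : F, S0269.Tr m w c = x := Iff.rfl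

theorem Tsub_smul (m : ℕ) (w : Fin m ⊕ Fin m → F) (a : F) (ha : a ≠ 0) :
    Tsub m (a • w) = Tsub m w := by
  ext x
  rw [mem_Tsub, mem_Tsub]
  constructor
  · rintro ⟨c, rfl⟩
    exact ⟨a ^ 2 * c, (S0269.Tr_smul m w a c).symm⟩
  · rintro ⟨c, rfl⟩
    refine ⟨(a ^ 2)⁻¹ * c, ?_⟩
    rw [S0269.Tr_smul, ← mul_assoc, mul_inv_cancel₀ (pow_ne_zero 2 ha), one_mul]

theorem Tsub_conj (m : ℕ) (g : Matrix.symplecticGroup (Fin m) F) (w : Fin m ⊕ Fin m → F) :
    Tsub m ((g : Matrix (Fin m ⊕ Fin m) (Fin m ⊕ Fin m) F) *ᵥ w)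
      = MulAut.conj g • Tsub m w := by
  ext x
  rw [Subgroup.mem_smul_pointwise_iff_exists, mem_Tsub]
  constructor
  · rintro ⟨c, rfl⟩
    exact ⟨S0269.Tr m w c, ⟨c, rfl⟩, by rw [MulAut.smul_def, MulAut.conj_apply, S0269.Tr_conj]⟩
  · rintro ⟨_, ⟨c, rfl⟩, rfl⟩
    exact ⟨c, by rw [MulAut.smul_def, MulAut.conj_apply, S0269.Tr_conj]⟩

theorem Tsub_comm (m : ℕ) (w : Fin m ⊕ Fin m → F) : IsMulCommutative (Tsub m w) := by
  refine ⟨⟨?_⟩⟩
  rintro ⟨_, ⟨c, rfl⟩⟩ ⟨_, ⟨d, rfl⟩⟩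
  apply Subtype.ext
  show S0269.Tr m w c * S0269.Tr m w d = S0269.Tr m w d * S0269.Tr m w c
  rw [S0269.Tr_mul, S0269.Tr_mul, add_comm]

/-- The Iwasawa structure of the symplectic group acting on points. -/
noncomputable def iwasawa (m : ℕ) (F : Type*) [Field F] :
    MulAction.IwasawaStructure (Matrix.symplecticGroup (Fin m) F)
      (ℙ F (Fin m ⊕ Fin m → F)) where
  T := fun p => Tsub m p.rep
  is_comm := fun p => Tsub_comm m p.rep
  is_conj := by
    intro g p
    have hne : g • p.rep ≠ 0 := (smul_ne_zero_iff_ne g).mpr p.rep_nonzero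
    obtain ⟨a, ha⟩ := Projectivization.exists_smul_eq_mk_rep F (g • p.rep) hne
    have h1 : g • p = Projectivization.mk F (g • p.rep) hne := by
      conv_lhs => rw [← p.mk_rep]
      rw [Projectivization.smul_mk]
    show Tsub m (g • p).rep = MulAut.conj g • Tsub m p.rep
    rw [h1, ← ha, Units.smul_def, Tsub_smul m _ _ a.ne_zero]
    exact Tsub_conj m g p.rep
  is_generator := by
    rw [eq_top_iff, ← S0765.result m]
    apply (Subgroup.closure_le _).mpr
    rintro A ⟨w, c, hA⟩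
    have hAT : A = S0269.Tr m w c := Subtype.ext hA
    subst hAT
    show S0269.Tr m w c ∈ iSup fun p : ℙ F (Fin m ⊕ Fin m → F) => Tsub m p.rep
    by_cases hw : w = 0
    · rw [hw, S0269.Tr_zero_vec]
      exact Subgroup.one_mem _
    · obtain ⟨a, ha⟩ := Projectivization.exists_smul_eq_mk_rep F w hw
      apply Subgroup.mem_iSup_of_mem (Projectivization.mk F w hw)
      show S0269.Tr m w c ∈ Tsub m (Projectivization.mk F w hw).rep
      rw [← ha, Units.smul_def, Tsub_smul m _ _ a.ne_zero]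
      exact ⟨c, rfl⟩

theorem scalar_of_eigen (m : ℕ) (z : Matrix.symplecticGroup (Fin m) F)
    (h1 : ∀ w : Fin m ⊕ Fin m → F, ∃ μ : F,
      (z : Matrix (Fin m ⊕ Fin m) (Fin m ⊕ Fin m) F) *ᵥ w = μ • w) :
    ∃ μ : F, (z : Matrix (Fin m ⊕ Fin m) (Fin m ⊕ Fin m) F) = μ • 1 := by
  classical
  choose μ hμ using fun i : Fin m ⊕ Fin m => h1 (Pi.single i 1)
  have hall : ∀ i j, μ i = μ j := by
    intro i j
    by_cases hij : i = j
    · rw [hij]
    · obtain ⟨ν, hν⟩ := h1 (Pi.single i 1 + Pi.single j 1)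
      rw [Matrix.mulVec_add, hμ i, hμ j] at hν
      have hi := congrFun hν i
      have hj := congrFun hν j
      simp [Pi.single_apply, hij, Ne.symm hij] at hi hj
      rw [hi, hj]
  by_cases hne : Nonempty (Fin m ⊕ Fin m)
  · obtain ⟨i₀⟩ := hne
    refine ⟨μ i₀, ?_⟩
    ext i j
    have h2 := congrFun (hμ j) i
    rw [Matrix.mulVec_single_one] at h2
    rw [Matrix.smul_apply, Matrix.one_apply, ← hall j i₀]
    simp only [Matrix.col_apply, Pi.smul_apply, Pi.single_apply] at h2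
    exact h2
  · exact ⟨1, by ext i j; exact absurd ⟨i⟩ hne⟩

theorem central_of_fix (m : ℕ) (g : Matrix.symplecticGroup (Fin m) F)
    (h : ∀ P : ℙ F (Fin m ⊕ Fin m → F), g • P = P) :
    g ∈ Subgroup.center (Matrix.symplecticGroup (Fin m) F) := by
  have h1 : ∀ w : Fin m ⊕ Fin m → F, ∃ μ : F,
      (g : Matrix (Fin m ⊕ Fin m) (Fin m ⊕ Fin m) F) *ᵥ w = μ • w := by
    intro w
    by_cases hw : w = 0
    · exact ⟨0, by rw [hw, Matrix.mulVec_zero, smul_zero]⟩
    · have h2 := h (Projectivization.mk F w hw)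
      rw [Projectivization.smul_mk, Projectivization.mk_eq_mk_iff'] at h2
      obtain ⟨a, ha⟩ := h2
      exact ⟨a, ha.symm⟩
  obtain ⟨μ, hμ⟩ := scalar_of_eigen m g h1
  rw [Subgroup.mem_center_iff]
  intro x
  apply Subtype.ext
  show (x : Matrix (Fin m ⊕ Fin m) (Fin m ⊕ Fin m) F) * (g : Matrix (Fin m ⊕ Fin m) (Fin m ⊕ Fin m) F)
    = (g : Matrix (Fin m ⊕ Fin m) (Fin m ⊕ Fin m) F) * (x : Matrix (Fin m ⊕ Fin m) (Fin m ⊕ Fin m) F)
  rw [hμ, Matrix.mul_smul, Matrix.smul_mul, mul_one, one_mul]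

theorem center_ne_top (m : ℕ) (hm : 1 ≤ m)
    (hperf : commutator (Matrix.symplecticGroup (Fin m) F) = ⊤) :
    Subgroup.center (Matrix.symplecticGroup (Fin m) F) ≠ ⊤ := by
  intro hZ
  have h1 : commutator (Matrix.symplecticGroup (Fin m) F) = ⊥ :=
    (commutator_eq_bot_iff_center_eq_top _).mpr hZ
  rw [hperf] at h1
  have h2 : S0269.Tr m (S0245.f0 m F ⟨0, by omega⟩) 1
      ∈ (⊤ : Subgroup (Matrix.symplecticGroup (Fin m) F)) := Subgroup.mem_top _
  rw [h1, Subgroup.mem_bot] at h2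
  have h3 := congrArg (fun T : Matrix.symplecticGroup (Fin m) F =>
    (T : Matrix (Fin m ⊕ Fin m) (Fin m ⊕ Fin m) F) *ᵥ (S0245.e0 m F ⟨0, by omega⟩)) h2
  simp only [S0269.Tr_act, S0269.one_act] at h3
  rw [(S0245.std_hyp m F).1, if_pos rfl, mul_one, one_smul] at h3
  exact S0269.f0_ne_zero m _ (add_left_cancel (h3.trans (add_zero _).symm))



/-- PSp_{2m}(q) is simple for m at least 2 and (m, q) other than (2, 2). -/
theorem result {F : Type*} [Field F] [Fintype F] (m : ℕ) (hm : 2 ≤ m) (h : m = 2 → 3 ≤ Fintype.card F) : IsSimpleGroup (Cfsg.PSp m F) := by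
  classical
  have hperf : commutator (Matrix.symplecticGroup (Fin m) F) = ⊤ := by
    apply S0269.result m
    by_cases h2 : m = 2
    · exact Or.inr (Or.inl ⟨h2, h h2⟩)
    · exact Or.inl (by omega)
  haveI := sp_preprim (F := F) m
  have hZ : Subgroup.center (Matrix.symplecticGroup (Fin m) F) ≠ ⊤ :=
    center_ne_top m (by omega) hperf
  haveI : Nontrivial (Cfsg.PSp m F) := by
    obtain ⟨g, hg⟩ : ∃ g, g ∉ Subgroup.center (Matrix.symplecticGroup (Fin m) F) := by
      by_contra hcon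
      push Not at hcon
      exact hZ (eq_top_iff.mpr fun g _ => hcon g)
    exact nontrivial_of_ne (g : Cfsg.PSp m F) 1
      (fun h1 => hg ((QuotientGroup.eq_one_iff g).mp h1))
  apply IsSimpleGroup.mk
  intro Nbar hNbar
  obtain ⟨N, hN⟩ : ∃ N : Subgroup (Matrix.symplecticGroup (Fin m) F), N = Nbar.comap
      (QuotientGroup.mk' (Subgroup.center (Matrix.symplecticGroup (Fin m) F))) := ⟨_, rfl⟩
  haveI hNn : N.Normal := by
    rw [hN]
    exact hNbar.comap _
  have hmem : ∀ g : Matrix.symplecticGroup (Fin m) F, g ∈ N ↔ (g : Cfsg.PSp m F) ∈ Nbar := by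
    intro g
    rw [hN]
    exact Iff.rfl
  by_cases hfix : MulAction.fixedPoints N (ℙ F (Fin m ⊕ Fin m → F)) = Set.univ
  · left
    rw [Subgroup.eq_bot_iff_forall]
    intro x hx
    obtain ⟨g, rfl⟩ := QuotientGroup.mk_surjective x
    have hgN : g ∈ N := (hmem g).mpr hx
    rw [QuotientGroup.eq_one_iff]
    apply central_of_fix m g
    intro P
    have h1 := Set.eq_univ_iff_forall.mp hfix P
    rw [MulAction.mem_fixedPoints] at h1
    exact h1 ⟨g, hgN⟩
  · right
    have hle := (iwasawa m F).commutator_le N hfix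
    rw [hperf, top_le_iff] at hle
    rw [eq_top_iff]
    intro x _
    obtain ⟨g, rfl⟩ := QuotientGroup.mk_surjective x
    exact (hmem g).mp (by rw [hle]; exact Subgroup.mem_top g)


end Cfsg.Agent.S0270
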