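import Cfsg.Statements.S0208

set_option autoImplicit false
open Cfsg

namespace Cfsg.Agent.S0208

/-- If x, y are involutions and xy has odd order, then some element of the subgroup generated by x and y conjugates x to y. -/
theorem result {G : Type*} [Group G] [Finite G] (x y : G) (hx : orderOf x = 2) (hy : orderOf y = 2) (hodd : Odd (orderOf (x * y))) : ∃ d ∈ Subgroup.closure ({x, y} : Set G), d * x * d⁻¹ = y := by
  obtain ⟨k, hk⟩ := hodd
  have hx2 : x * x = 1 := by
    have := pow_orderOf_eq_one x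
    rw [hx, pow_two] at this; exact this
  have hy2 : y * y = 1 := by
    have := pow_orderOf_eq_one y
    rw [hy, pow_two] at this; exact this
  have hxinv : x⁻¹ = x := inv_eq_of_mul_eq_one_left hx2
  have hyinv : y⁻¹ = y := inv_eq_of_mul_eq_one_left hy2
  have hr : (x * y) ^ (2 * k + 1) = 1 := by rw [← hk]; exact pow_orderOf_eq_one _
  have hinv : (x * y)⁻¹ = y * x := by rw [mul_inv_rev, hxinv, hyinv]
  have hsc : SemiconjBy x (y * x) (x * y) := by
    unfold SemiconjBy; rw [mul_assoc]
  have h1 := hsc.pow_right k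
  have h2 : (y * x) ^ (2 * k + 1) = 1 := by rw [← hinv, inv_pow, hr, inv_one]
  refine ⟨(x * y) ^ k, ?_, ?_⟩
  · apply Subgroup.pow_mem
    apply Subgroup.mul_mem <;> apply Subgroup.subset_closure <;> simp
  · calc (x * y) ^ k * x * ((x * y) ^ k)⁻¹ = x * (y * x) ^ k * (y * x) ^ k := by
          rw [← inv_pow, hinv, h1.eq]
      _ = x * (y * x) ^ (2 * k) := by rw [mul_assoc, ← pow_add, two_mul]
      _ = x * ((y * x) ^ (2 * k) * (y * x) * (y * x)⁻¹) := by rw [mul_inv_cancel_right]
      _ = x * (y * x)⁻¹ := by rw [← pow_succ, h2, one_mul]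
      _ = y := by rw [mul_inv_rev, hxinv, hyinv, ← mul_assoc, hx2, one_mul]

end Cfsg.Agent.S0208
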