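import Cfsg.Statements.S0209

set_option autoImplicit false
open Cfsg

namespace Cfsg.Agent.S0209

/-- If x, y are involutions whose product has even order n, the element (xy)^(n/2) is an involution that commutes with x and with y. -/
theorem result {G : Type*} [Group G] [Finite G] (x y : G) (hx : orderOf x = 2) (hy : orderOf y = 2) (heven : Even (orderOf (x * y))) : orderOf ((x * y) ^ (orderOf (x * y) / 2)) = 2 ∧ Commute ((x * y) ^ (orderOf (x * y) / 2)) x ∧ Commute ((x * y) ^ (orderOf (x * y) / 2)) y := by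
  obtain ⟨k, hk⟩ := heven
  have hpos : 0 < orderOf (x * y) := orderOf_pos _
  have hk0 : k ≠ 0 := by omega
  have hdiv : orderOf (x * y) / 2 = k := by omega
  rw [hdiv]
  have hx2 : x * x = 1 := by
    have := pow_orderOf_eq_one x
    rw [hx, pow_two] at this; exact this
  have hy2 : y * y = 1 := by
    have := pow_orderOf_eq_one y
    rw [hy, pow_two] at this; exact this
  have hxinv : x⁻¹ = x := inv_eq_of_mul_eq_one_left hx2
  have hyinv : y⁻¹ = y := inv_eq_of_mul_eq_one_left hy2
  have hinv : (x * y)⁻¹ = y * x := by rw [mul_inv_rev, hxinv, hyinv]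
  have hz2 : (x * y) ^ k * (x * y) ^ k = 1 := by
    rw [← pow_add, ← hk]; exact pow_orderOf_eq_one _
  have hzinv : ((x * y) ^ k)⁻¹ = (x * y) ^ k := inv_eq_of_mul_eq_one_left hz2
  have hord : orderOf ((x * y) ^ k) = 2 := by
    rw [orderOf_pow_of_dvd hk0 ⟨2, by omega⟩, hk]
    have : (k + k) / k = 2 := by
      rw [← two_mul]; exact Nat.mul_div_cancel _ (Nat.pos_of_ne_zero hk0)
    exact this
  refine ⟨hord, ?_, ?_⟩
  · have hsc : SemiconjBy x (x * y) (x * y)⁻¹ := by
      unfold SemiconjBy; rw [hinv, ← mul_assoc, hx2, one_mul, mul_assoc, hx2, mul_one]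
    have h1 := (hsc.pow_right k).eq
    rw [inv_pow, hzinv] at h1
    exact h1.symm
  · have hsc : SemiconjBy y (x * y) (x * y)⁻¹ := by
      unfold SemiconjBy; rw [hinv, mul_assoc, ← mul_assoc y x y]
    have h1 := (hsc.pow_right k).eq
    rw [inv_pow, hzinv] at h1
    exact h1.symm

end Cfsg.Agent.S0209
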