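import Cfsg.Statements.S2579
import Mathlib
-- import your own Cfsg.Agent.* helpers here

set_option autoImplicit false
open Cfsg

namespace Cfsg.Agent.S2579

theorem adapted_basis {F V : Type*} [Field F] [AddCommGroup V] [Module F V]
    [FiniteDimensional F V] (k : ℕ) (hV : Module.finrank F V = k + 2) (N : V →ₗ[F] V)
    (hr : Module.finrank F (LinearMap.range N) = 1) (hN : N ∘ₗ N = 0) :
    ∃ b : Module.Basis (Fin (k + 2)) F V, N (b 0) = b 1 ∧ ∀ i, i ≠ 0 → N (b i) = 0 := by
  classical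
  obtain ⟨x, hx⟩ : ∃ x, N x ≠ 0 := by
    by_contra hall
    push Not at hall
    have h0 : LinearMap.range N = ⊥ := by
      rw [LinearMap.range_eq_bot]; exact LinearMap.ext hall
    rw [h0, finrank_bot] at hr
    exact zero_ne_one hr
  have hNN : ∀ v, N (N v) = 0 := fun v => by
    have h0 := congrArg (fun f => f v) hN
    simpa using h0
  have hspan : ∀ z, ∃ a : F, N z = a • N x := by
    intro z
    have h1 := (finrank_eq_one_iff_of_nonzero'
      (⟨N x, LinearMap.mem_range_self N x⟩ : LinearMap.range N) (by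
        intro h0; exact hx (congrArg Subtype.val h0))).mp hr ⟨N z, LinearMap.mem_range_self N z⟩
    obtain ⟨a, ha⟩ := h1
    exact ⟨a, (congrArg Subtype.val ha).symm⟩
  have hK : Module.finrank F (LinearMap.ker N) = k + 1 := by
    have h1 : Module.finrank F (LinearMap.range N) + Module.finrank F (LinearMap.ker N)
        = Module.finrank F V := LinearMap.finrank_range_add_finrank_ker N
    rw [hr, hV] at h1
    omega
  obtain ⟨uK, huK⟩ : ∃ uK : LinearMap.ker N, (uK : V) = N x :=
    ⟨⟨N x, LinearMap.mem_ker.mpr (hNN x)⟩, rfl⟩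
  have huK0 : uK ≠ 0 := by
    intro h0
    apply hx
    rw [← huK, h0]; rfl
  obtain ⟨φ, hφ⟩ := LinearMap.exists_leftInverse_of_injective
    (LinearMap.toSpanSingleton F (LinearMap.ker N) uK) (by
      rw [LinearMap.ker_eq_bot']
      intro c hc
      have hc' : c • uK = 0 := hc
      exact (smul_eq_zero.mp hc').resolve_right huK0)
  have hφu : φ uK = 1 := by
    have h0 := congrArg (fun f => f (1 : F)) hφ
    simpa using h0
  have hW : Module.finrank F (LinearMap.ker φ) = k := by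
    have h1 : Module.finrank F (LinearMap.range φ) + Module.finrank F (LinearMap.ker φ)
        = Module.finrank F (LinearMap.ker N) := LinearMap.finrank_range_add_finrank_ker φ
    have h2 : LinearMap.range φ = ⊤ := by
      rw [LinearMap.range_eq_top]
      intro c
      exact ⟨c • uK, by rw [map_smul, hφu, smul_eq_mul, mul_one]⟩
    rw [h2, finrank_top, Module.finrank_self, hK] at h1
    omega
  let bW : Module.Basis (Fin k) F (LinearMap.ker φ) := Module.finBasisOfFinrankEq F _ hW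
  let bK : Module.Basis (Fin (k + 1)) F (LinearMap.ker N) := Module.Basis.mkFinCons uK bW
    (by
      intro c z hz hc
      have h1 := congrArg φ hc
      have hz' : φ z = 0 := hz
      simpa [hφu, hz'] using h1)
    (by
      intro z
      refine ⟨-φ z, ?_⟩
      show φ (z + (-φ z) • uK) = 0
      simp [hφu])
  let b : Module.Basis (Fin (k + 1 + 1)) F V := Module.Basis.mkFinCons x bK
    (by
      intro c z hz hc
      have h1 := congrArg N hc
      have hz' : N z = 0 := hz
      simp only [map_add, map_smul, hz', add_zero, map_zero] at h1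
      exact (smul_eq_zero.mp h1).resolve_right hx)
    (by
      intro z
      obtain ⟨a, ha⟩ := hspan z
      refine ⟨-a, ?_⟩
      show N (z + (-a) • x) = 0
      rw [map_add, map_smul, ha, neg_smul, add_neg_cancel])
  have hb0 : b 0 = x := by
    show (Module.Basis.mkFinCons x bK _ _) 0 = x
    rw [Module.Basis.coe_mkFinCons]; rfl
  have hbs : ∀ j : Fin (k + 1), b j.succ = (bK j : V) := by
    intro j
    show (Module.Basis.mkFinCons x bK _ _) j.succ = _
    rw [Module.Basis.coe_mkFinCons]; rfl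
  have hbK0 : bK 0 = uK := by
    show (Module.Basis.mkFinCons uK bW _ _) 0 = uK
    rw [Module.Basis.coe_mkFinCons]; rfl
  refine ⟨b, ?_, ?_⟩
  · have h1 : b 1 = (bK 0 : V) := by
      rw [← Fin.succ_zero_eq_one']; exact hbs 0
    rw [hb0, h1, hbK0, huK]
  · intro i hi
    obtain ⟨j, rfl⟩ := Fin.exists_succ_eq_of_ne_zero hi
    rw [hbs j]
    exact (bK j).2

/-- In SL_n(F) with n ≥ 3, over a finite field F, any two transvections (matrices t with t − 1 of rank one and square zero) are conjugate by an element of SL_n(F). -/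
theorem result {F : Type*} [Field F] [Finite F] {n : ℕ} (hn : 3 ≤ n) (s t : Matrix.SpecialLinearGroup (Fin n) F) (hs : Cfsg.IsTransvection (s : Matrix (Fin n) (Fin n) F)) (ht : Cfsg.IsTransvection (t : Matrix (Fin n) (Fin n) F)) : IsConj s t := by
  classical
  obtain ⟨k, rfl⟩ : ∃ k, n = k + 2 := ⟨n - 2, by omega⟩
  have hk : 1 ≤ k := by omega
  have hV : Module.finrank F (Fin (k + 2) → F) = k + 2 := by simp
  have key : ∀ M : Matrix (Fin (k + 2)) (Fin (k + 2)) F, Cfsg.IsTransvection M →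
      ∃ b : Module.Basis (Fin (k + 2)) F (Fin (k + 2) → F),
        Matrix.mulVecLin (M - 1) (b 0) = b 1 ∧
        ∀ i, i ≠ 0 → Matrix.mulVecLin (M - 1) (b i) = 0 := by
    intro M hM
    refine adapted_basis k hV (Matrix.mulVecLin (M - 1)) hM.1 ?_
    rw [← Matrix.mulVecLin_mul, hM.2, Matrix.mulVecLin_zero]
  obtain ⟨b, hb0, hb⟩ := key _ hs
  obtain ⟨b', hb'0, hb'⟩ := key _ ht
  have hd : b.det ⇑b' ≠ 0 := (b.isUnit_det b').ne_zero
  obtain ⟨j₀, hj₀⟩ : ∃ j₀ : Fin (k + 2), (j₀ : ℕ) = 2 := ⟨⟨2, by omega⟩, rfl⟩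
  have hj0 : (0 : Fin (k + 2)) ≠ j₀ := by
    intro h
    have h' := congrArg Fin.val h
    rw [hj₀] at h'
    simp at h'
  have hj1 : (1 : Fin (k + 2)) ≠ j₀ := by
    intro h
    have h' := congrArg Fin.val h
    rw [hj₀] at h'
    simp at h'
  obtain ⟨w, hw⟩ : ∃ w : Fin (k + 2) → Fˣ,
      w = fun i => if i = j₀ then (Units.mk0 _ hd)⁻¹ else 1 := ⟨_, rfl⟩
  have hw0 : w 0 = 1 := by rw [hw]; simp [hj0]
  have hw1 : w 1 = 1 := by rw [hw]; simp [hj1]
  obtain ⟨b'', hb''⟩ : ∃ b'' : Module.Basis (Fin (k + 2)) F (Fin (k + 2) → F),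
      ∀ i, b'' i = (w i : F) • b' i :=
    ⟨b'.unitsSMul w, fun i => by rw [Module.Basis.unitsSMul_apply, Units.smul_def]⟩
  have hb''0 : b'' 0 = b' 0 := by rw [hb'', hw0, Units.val_one, one_smul]
  have hb''1 : b'' 1 = b' 1 := by rw [hb'', hw1, Units.val_one, one_smul]
  obtain ⟨g, hg⟩ : ∃ g : (Fin (k + 2) → F) ≃ₗ[F] (Fin (k + 2) → F), ∀ i, g (b i) = b'' i :=
    ⟨b.equiv b'' (Equiv.refl _), fun i => by simp⟩
  have hint : (g : (Fin (k + 2) → F) →ₗ[F] (Fin (k + 2) → F)) ∘ₗ
        Matrix.mulVecLin ((s : Matrix (Fin (k + 2)) (Fin (k + 2)) F) - 1)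
      = Matrix.mulVecLin ((t : Matrix (Fin (k + 2)) (Fin (k + 2)) F) - 1) ∘ₗ
        (g : (Fin (k + 2) → F) →ₗ[F] (Fin (k + 2) → F)) := by
    apply b.ext
    intro i
    simp only [LinearMap.comp_apply, LinearEquiv.coe_coe]
    by_cases hi : i = 0
    · subst hi
      rw [hb0, hg, hg, hb''0, hb''1, hb'0]
    · rw [hb i hi, map_zero, hg, hb'', map_smul, hb' i hi, smul_zero]
  have hdet : LinearMap.det (g : (Fin (k + 2) → F) →ₗ[F] (Fin (k + 2) → F)) = 1 := by
    have h1 := b.det_comp (g : (Fin (k + 2) → F) →ₗ[F] (Fin (k + 2) → F)) ⇑b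
    rw [Module.Basis.det_self, mul_one] at h1
    rw [← h1]
    have h2 : (⇑(g : (Fin (k + 2) → F) →ₗ[F] (Fin (k + 2) → F)) ∘ ⇑b)
        = fun i => (w i : F) • b' i := by
      funext i
      simp only [Function.comp_apply, LinearEquiv.coe_coe, hg, hb'']
    rw [h2, AlternatingMap.map_smul_univ]
    have h3 : ∏ i, (w i : F) = (b.det ⇑b')⁻¹ := by
      rw [Finset.prod_eq_single j₀]
      · rw [hw]; simp
      · intro i _ hi; rw [hw]; simp [hi]
      · intro h; exact absurd (Finset.mem_univ _) h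
    rw [h3, smul_eq_mul]
    exact inv_mul_cancel₀ hd
  obtain ⟨c, hc⟩ : ∃ c : Matrix.SpecialLinearGroup (Fin (k + 2)) F,
      (c : Matrix (Fin (k + 2)) (Fin (k + 2)) F)
        = LinearMap.toMatrix' (g : (Fin (k + 2) → F) →ₗ[F] (Fin (k + 2) → F)) :=
    ⟨⟨LinearMap.toMatrix' (g : (Fin (k + 2) → F) →ₗ[F] (Fin (k + 2) → F)), by
      rw [LinearMap.det_toMatrix']; exact hdet⟩, rfl⟩
  rw [isConj_iff]
  refine ⟨c, ?_⟩
  rw [mul_inv_eq_iff_eq_mul]
  apply Subtype.ext
  rw [Matrix.SpecialLinearGroup.coe_mul, Matrix.SpecialLinearGroup.coe_mul, hc]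
  have h1 := congrArg LinearMap.toMatrix' hint
  rw [LinearMap.toMatrix'_comp, LinearMap.toMatrix'_comp] at h1
  have h2 : ∀ M : Matrix (Fin (k + 2)) (Fin (k + 2)) F,
      LinearMap.toMatrix' (Matrix.mulVecLin M) = M := fun M => LinearMap.toMatrix'_toLin' M
  rw [h2, h2, Matrix.mul_sub, Matrix.sub_mul, Matrix.mul_one, Matrix.one_mul] at h1
  exact sub_left_injective h1

end Cfsg.Agent.S2579
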