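import Mathlib
import Cfsg.Statements.S0767

set_option autoImplicit false
open Cfsg

namespace Cfsg.Agent.S0767

open Matrix

lemma J_mulVec_J_mulVec {F : Type*} [Field F] (m : ℕ) (v : Fin m ⊕ Fin m → F) :
    Matrix.J (Fin m) F *ᵥ (Matrix.J (Fin m) F *ᵥ v) = -v := by
  rw [Matrix.mulVec_mulVec, Matrix.J_squared, Matrix.neg_mulVec, Matrix.one_mulVec]

lemma J_mulVec_vecMul_J {F : Type*} [Field F] (m : ℕ) (v : Fin m ⊕ Fin m → F) :
    (Matrix.J (Fin m) F *ᵥ v) ᵥ* Matrix.J (Fin m) F = v := by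
  rw [← Matrix.mulVec_transpose, Matrix.J_transpose, Matrix.neg_mulVec, J_mulVec_J_mulVec, neg_neg]

lemma vecMul_J {F : Type*} [Field F] (m : ℕ) (v : Fin m ⊕ Fin m → F) :
    v ᵥ* Matrix.J (Fin m) F = -(Matrix.J (Fin m) F *ᵥ v) := by
  rw [← Matrix.mulVec_transpose, Matrix.J_transpose, Matrix.neg_mulVec]

lemma dot_J_self {F : Type*} [Field F] (m : ℕ) (v : Fin m ⊕ Fin m → F) :
    v ⬝ᵥ (Matrix.J (Fin m) F *ᵥ v) = 0 := by
  simp only [Matrix.J, Matrix.fromBlocks_mulVec, dotProduct, Fintype.sum_sum_type, Sum.elim_inl,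
    Sum.elim_inr, Matrix.zero_mulVec, Matrix.neg_mulVec, Matrix.one_mulVec, zero_add, add_zero,
    Pi.neg_apply, Function.comp_apply, mul_neg, Finset.sum_neg_distrib]
  rw [neg_add_eq_zero]
  apply Finset.sum_congr rfl
  intro i _
  ring

/-- The root group of a point: T_v(c) T_v(d) = T_v(c + d), and for A in the symplectic group with A v = a v, the conjugate A T_v(c) A⁻¹ is again some T_v(d). -/
theorem result {F : Type*} [Field F] (m : ℕ) (v : Fin m ⊕ Fin m → F) : (∀ c d : F, Cfsg.sympTransvection m v c * Cfsg.sympTransvection m v d = Cfsg.sympTransvection m v (c + d)) ∧ ∀ (A : Matrix (Fin m ⊕ Fin m) (Fin m ⊕ Fin m) F) (a : F), A ∈ Matrix.symplecticGroup (Fin m) F → A.mulVec v = a • v → ∀ c : F, ∃ d : F, A * Cfsg.sympTransvection m v c * A⁻¹ = Cfsg.sympTransvection m v d := by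
  constructor
  · intro c d
    unfold Cfsg.sympTransvection
    have hN : Matrix.vecMulVec v (Matrix.J (Fin m) F *ᵥ v) * Matrix.vecMulVec v (Matrix.J (Fin m) F *ᵥ v) = 0 := by
      rw [Matrix.vecMulVec_mul_vecMulVec, dotProduct_comm, dot_J_self, zero_smul,
        Matrix.vecMulVec_zero]
    simp only [Matrix.add_mul, Matrix.mul_add, Matrix.one_mul, Matrix.mul_one, Matrix.smul_mul,
      Matrix.mul_smul, hN, smul_zero, add_zero, add_smul]
    abel
  · intro A a hA hAv c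
    refine ⟨c * a * a, ?_⟩
    unfold Cfsg.sympTransvection
    have hdet : IsUnit A.det := SymplecticGroup.symplectic_det hA
    have hinv : A⁻¹ = -Matrix.J (Fin m) F * Aᵀ * Matrix.J (Fin m) F :=
      SymplecticGroup.inv_eq_symplectic_inv A hA
    have h1 : (Matrix.J (Fin m) F *ᵥ v) ᵥ* A⁻¹ = a • (Matrix.J (Fin m) F *ᵥ v) := by
      rw [hinv, ← Matrix.vecMul_vecMul, ← Matrix.vecMul_vecMul, Matrix.vecMul_neg,
        J_mulVec_vecMul_J, Matrix.neg_vecMul, Matrix.vecMul_transpose, hAv, Matrix.neg_vecMul,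
        Matrix.smul_vecMul, vecMul_J, smul_neg, neg_neg]
    rw [Matrix.mul_add, Matrix.add_mul, Matrix.mul_one, Matrix.mul_nonsing_inv A hdet,
      Matrix.mul_smul, Matrix.smul_mul, Matrix.mul_vecMulVec, Matrix.vecMulVec_mul, hAv, h1,
      Matrix.smul_vecMulVec, Matrix.vecMulVec_smul, smul_smul, smul_smul]

end Cfsg.Agent.S0767
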