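import Cfsg.Statements.S2616
import Mathlib
import Cfsg.Agent.S2618
import Cfsg.Agent.S0752
-- import your own Cfsg.Agent.* helpers here

set_option autoImplicit false
open Cfsg

namespace Cfsg.Agent.S2616


variable {F V : Type*} [Field F] [AddCommGroup V] [Module F V]

/-- In an anisotropic plane over a finite field: a vector `x` with `q x = 1` and a partner
`y` outside the line of `x` with `B x y = 1`. -/
theorem exists_elliptic [Finite F] (B : LinearMap.BilinForm F V) (q : V → F)
    (hS : ∀ x y, B x y = B y x)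
    (hadd : ∀ x y, q (x + y) = q x + q y + B x y)
    (hsmul : ∀ (a : F) x, q (a • x) = a * a * q x)
    (W : Submodule F V) (haniso : ∀ w ∈ W, w ≠ 0 → q w ≠ 0)
    (hnd : ∀ x ∈ W, x ≠ 0 → ∃ y ∈ W, B x y = 1)
    (u : Fin 2 → W) (hu : LinearIndependent F u) :
    ∃ x ∈ W, ∃ y ∈ W, q x = 1 ∧ B x y = 1 ∧ (∀ s : F, y ≠ s • x) ∧ x ≠ 0 := by
  obtain ⟨a, b, c, hne, habc⟩ := S2618.cw3 (q (u 0)) (q (u 1)) (-1 : F) (B (u 0) (u 1)) 0 0
  obtain ⟨w0, hw0⟩ : ∃ w0 : V, w0 = a • (u 0 : V) + b • (u 1 : V) := ⟨_, rfl⟩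
  have hw0W : w0 ∈ W := by
    rw [hw0]
    exact W.add_mem (W.smul_mem _ (u 0).2) (W.smul_mem _ (u 1).2)
  have hQw0 : q w0 = c * c := by
    rw [hw0, hadd, hsmul, hsmul]
    simp only [map_smul, LinearMap.smul_apply, smul_eq_mul]
    linear_combination habc
  have hli := hu
  rw [Fintype.linearIndependent_iff] at hli
  have hc : c ≠ 0 := by
    intro hc0
    have hw00 : w0 ≠ 0 := by
      intro h0
      have h1 := hli ![a, b] (by
        rw [Fin.sum_univ_two]
        apply Subtype.ext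
        simpa [hw0] using h0)
      have ha := h1 0
      have hb := h1 1
      simp at ha hb
      rcases hne with h | h | h
      · exact h ha
      · exact h hb
      · exact h hc0
    apply haniso w0 hw0W hw00
    rw [hQw0, hc0, mul_zero]
  obtain ⟨x, hx⟩ : ∃ x : V, x = c⁻¹ • w0 := ⟨_, rfl⟩
  have hxW : x ∈ W := by
    rw [hx]
    exact W.smul_mem _ hw0W
  have hqx : q x = 1 := by
    rw [hx, hsmul, hQw0]
    field_simp
  have hq0 : q 0 = 0 := by
    have h1 := hsmul 0 0
    rw [zero_smul, zero_mul, zero_mul] at h1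
    exact h1
  have hx0 : x ≠ 0 := by
    intro h0
    rw [h0, hq0] at hqx
    exact zero_ne_one hqx
  obtain ⟨y0, hy0W, hy0⟩ := hnd x hxW hx0
  by_cases hcase : ∀ s : F, y0 ≠ s • x
  · exact ⟨x, hxW, y0, hy0W, hqx, hy0, hcase, hx0⟩
  · push Not at hcase
    obtain ⟨s, hs⟩ := hcase
    obtain ⟨i, hi⟩ : ∃ i, ∀ t : F, (u i : V) ≠ t • x := by
      by_contra hcon
      push Not at hcon
      obtain ⟨t0, ht0⟩ := hcon 0
      obtain ⟨t1, ht1⟩ := hcon 1
      have h1 := hli ![t1, -t0] (by
        rw [Fin.sum_univ_two]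
        apply Subtype.ext
        simp only [Matrix.cons_val_zero, Matrix.cons_val_one, Submodule.coe_add,
          Submodule.coe_smul, Submodule.coe_zero]
        rw [ht0, ht1]
        module)
      have ha := h1 0
      have hb := h1 1
      simp at ha hb
      have hu0 : (u 0 : V) = 0 := by rw [ht0, hb, zero_smul]
      exact hu.ne_zero 0 (Subtype.ext hu0)
    refine ⟨x, hxW, y0 + ((u i : V) - B x (u i) • y0),
      W.add_mem hy0W (W.sub_mem (u i).2 (W.smul_mem _ hy0W)), hqx, ?_, ?_, hx0⟩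
    · rw [map_add, map_sub, map_smul, hy0]
      simp
    · intro t ht
      obtain ⟨β, hβ⟩ : ∃ β : F, β = B x (u i) := ⟨_, rfl⟩
      rw [← hβ] at ht
      apply hi (t - s + β * s)
      have h2 : (u i : V) = t • x - y0 + β • y0 := by
        rw [← ht]
        abel
      rw [h2, hs]
      module



/-- Standard bases of a non-degenerate quadratic space of even dimension 2m over a finite field: either there is a hyperbolic basis e_i, f_i (Q(e_i) = Q(f_i) = 0, B(e_i, f_j) = δ_ij, the e's pairwise orthogonal and the f's pairwise orthogonal, B the polar form), or there is an elliptic basis: hyperbolic pairs e_i, f_i for i < m − 1 together with x, y orthogonal to them with Q(x) = 1, B(x, y) = 1, Q(y) = ζ where t² + t + ζ has no root in the field. -/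
theorem result {F V : Type*} [Field F] [Finite F] [AddCommGroup V] [Module F V] [FiniteDimensional F V] {m : ℕ} (hm : 1 ≤ m) (hV : Module.finrank F V = 2 * m) (Q : QuadraticForm F V) (hQ : (QuadraticMap.polarBilin Q).Nondegenerate) : (∃ b : Module.Basis (Fin m ⊕ Fin m) F V, (∀ i, Q (b (Sum.inl i)) = 0 ∧ Q (b (Sum.inr i)) = 0) ∧ (∀ i j, QuadraticMap.polar ⇑Q (b (Sum.inl i)) (b (Sum.inr j)) = if i = j then 1 else 0) ∧ (∀ i j, QuadraticMap.polar ⇑Q (b (Sum.inl i)) (b (Sum.inl j)) = 0 ∧ QuadraticMap.polar ⇑Q (b (Sum.inr i)) (b (Sum.inr j)) = 0)) ∨ (∃ (b : Module.Basis ((Fin (m - 1) ⊕ Fin (m - 1)) ⊕ Fin 2) F V) (ζ : F), (∀ t : F, t ^ 2 + t + ζ ≠ 0) ∧ (∀ i, Q (b (Sum.inl (Sum.inl i))) = 0 ∧ Q (b (Sum.inl (Sum.inr i))) = 0) ∧ (∀ i j, QuadraticMap.polar ⇑Q (b (Sum.inl (Sum.inl i))) (b (Sum.inl (Sum.inr j))) = if i = j then 1 else 0) ∧ (∀ i j, QuadraticMap.polar ⇑Q (b (Sum.inl (Sum.inl i))) (b (Sum.inl (Sum.inl j))) = 0 ∧ QuadraticMap.polar ⇑Q (b (Sum.inl (Sum.inr i))) (b (Sum.inl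 (Sum.inr j))) = 0) ∧ (∀ i (k : Fin 2), QuadraticMap.polar ⇑Q (b (Sum.inl (Sum.inl i))) (b (Sum.inr k)) = 0 ∧ QuadraticMap.polar ⇑Q (b (Sum.inl (Sum.inr i))) (b (Sum.inr k)) = 0) ∧ Q (b (Sum.inr 0)) = 1 ∧ QuadraticMap.polar ⇑Q (b (Sum.inr 0)) (b (Sum.inr 1)) = 1 ∧ Q (b (Sum.inr 1)) = ζ) := by
  classical
  obtain ⟨k, e, f, W, h, hqe, hqf, hli, hWmem, hcompl, haniso, hnd⟩ :=
    S2618.qstruct (QuadraticMap.polarBilin Q) (⇑Q) hQ (S2618.pB_symm Q) (S2618.Q_add Q)
      (S2618.Q_smul Q) (S2618.pB_self Q)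
  have hW2 := S2618.aniso_le_two (QuadraticMap.polarBilin Q) (⇑Q) (S2618.Q_add Q)
    (S2618.Q_smul Q) W haniso
  have hdim := Submodule.finrank_add_eq_of_isCompl hcompl
  rw [finrank_span_eq_card hli, Fintype.card_sum, Fintype.card_fin, hV] at hdim
  by_cases hk : k = m
  · left
    subst hk
    have hcard : Fintype.card (Fin k ⊕ Fin k) = Module.finrank F V := by
      rw [Fintype.card_sum, Fintype.card_fin, hV]
      omega
    refine ⟨basisOfLinearIndependentOfCardEqFinrank' _ hli hcard, ?_, ?_, ?_⟩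
    all_goals simp only [coe_basisOfLinearIndependentOfCardEqFinrank', Sum.elim_inl,
      Sum.elim_inr]
    · intro i
      exact ⟨hqe i, hqf i⟩
    · intro i j
      exact h.1 i j
    · intro i j
      exact ⟨h.2.1 i j, h.2.2 i j⟩
  · right
    have hk1 : k = m - 1 := by omega
    have hW2' : Module.finrank F W = 2 := by omega
    subst hk1
    obtain ⟨u, hu⟩ := exists_linearIndependent_of_le_finrank (R := F) (M := W) (n := 2)
      (by omega)
    obtain ⟨x, hxW, y, hyW, hqx, hxy, hys, hx0⟩ := exists_elliptic (QuadraticMap.polarBilin Q)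
      (⇑Q) (S2618.pB_symm Q) (S2618.Q_add Q) (S2618.Q_smul Q) W haniso hnd u hu
    have hirr : ∀ t : F, t ^ 2 + t + Q y ≠ 0 := by
      intro t ht
      have h1 : Q (t • x + y) = t ^ 2 + t + Q y := by
        rw [S2618.Q_add, S2618.Q_smul, hqx, map_smul, LinearMap.smul_apply, hxy]
        simp only [smul_eq_mul]
        ring
      apply haniso (t • x + y) (W.add_mem (W.smul_mem _ hxW) hyW)
      · intro h0
        apply hys (-t)
        rw [neg_smul]
        exact eq_neg_of_add_eq_zero_right h0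
      · rw [h1, ht]
    have hlixy : LinearIndependent F ![x, y] := by
      rw [LinearIndependent.pair_iff]
      intro s t hst
      have ht : t = 0 := by
        by_contra ht
        apply hys (-(t⁻¹ * s))
        have h1 : t • y = -(s • x) := eq_neg_of_add_eq_zero_right hst
        calc y = t⁻¹ • (t • y) := by rw [smul_smul, inv_mul_cancel₀ ht, one_smul]
          _ = -(t⁻¹ * s) • x := by rw [h1, smul_neg, smul_smul, neg_smul]
      rw [ht, zero_smul, add_zero] at hst
      exact ⟨(smul_eq_zero.mp hst).resolve_right hx0, ht⟩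
    have hli2 : LinearIndependent F (Sum.elim (Sum.elim e f) ![x, y]) := by
      apply LinearIndependent.sum_type hli hlixy
      refine Disjoint.mono_right ?_ hcompl.disjoint
      apply Submodule.span_le.mpr
      rintro _ ⟨i, rfl⟩
      fin_cases i
      · exact hxW
      · exact hyW
    have hcard : Fintype.card ((Fin (m - 1) ⊕ Fin (m - 1)) ⊕ Fin 2) = Module.finrank F V := by
      rw [Fintype.card_sum, Fintype.card_sum, Fintype.card_fin, Fintype.card_fin, hV]
      omega
    refine ⟨basisOfLinearIndependentOfCardEqFinrank' _ hli2 hcard, Q y, hirr, ?_, ?_, ?_, ?_,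
      ?_, ?_, ?_⟩
    all_goals simp only [coe_basisOfLinearIndependentOfCardEqFinrank', Sum.elim_inl,
      Sum.elim_inr]
    · intro i
      exact ⟨hqe i, hqf i⟩
    · intro i j
      exact h.1 i j
    · intro i j
      exact ⟨h.2.1 i j, h.2.2 i j⟩
    · intro i j
      fin_cases j
      · exact (hWmem x).mp hxW i
      · exact (hWmem y).mp hyW i
    · exact hqx
    · exact hxy
    · rfl


end Cfsg.Agent.S2616
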