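import Cfsg.Statements.S0634
import Cfsg.Agent.Helper23.PSolv

set_option autoImplicit false
open Cfsg

namespace Cfsg.Agent.S0634

open Cfsg.Agent.Helper23

/-- If `W` is the preimage of `O_{p'}(G/U)` then `O_{p'}(G/W) = 1`. -/
theorem pPrimeCore_quotient_comap {G : Type*} [Group G] [Finite G] (p : ℕ) (U : Subgroup G)
    [U.Normal] (W : Subgroup G) [W.Normal]
    (hW : W = (pPrimeCore p (G ⧸ U)).comap (QuotientGroup.mk' U)) :
    pPrimeCore p (G ⧸ W) = ⊥ := by
  apply pPrimeCore_quotient_eq_bot
  intro X hXn hWX hrel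
  have hπs : Function.Surjective (QuotientGroup.mk' U) := QuotientGroup.mk'_surjective U
  have hUW : U ≤ W := by
    intro x hx
    rw [hW, Subgroup.mem_comap]
    have : QuotientGroup.mk' U x = 1 := by
      rw [QuotientGroup.mk'_apply, QuotientGroup.eq_one_iff]; exact hx
    rw [this]; exact Subgroup.one_mem _
  have h1 : Nat.card (X.map (QuotientGroup.mk' U)) = U.relIndex X := by
    have := Subgroup.relIndex_ker (QuotientGroup.mk' U) (K := X)
    rw [QuotientGroup.ker_mk'] at this
    exact this.symm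
  have h2 : Nat.card (pPrimeCore p (G ⧸ U)) = U.relIndex W := by
    have := Subgroup.relIndex_ker (QuotientGroup.mk' U) (K := W)
    rw [QuotientGroup.ker_mk'] at this
    rw [this, hW, Subgroup.map_comap_eq_self_of_surjective hπs]
  have h3 : U.relIndex X = U.relIndex W * W.relIndex X :=
    (Subgroup.relIndex_mul_relIndex U W X hUW hWX).symm
  have h4 : (Nat.card (X.map (QuotientGroup.mk' U))).Coprime p := by
    rw [h1, h3, ← h2]
    exact Nat.Coprime.mul_left (pPrimeCore_coprime p) hrel
  have h5 : X.map (QuotientGroup.mk' U) ≤ pPrimeCore p (G ⧸ U) :=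
    le_pPrimeCore (hXn.map _ hπs) h4
  intro x hx
  rw [hW, Subgroup.mem_comap]
  exact h5 (Subgroup.mem_map_of_mem _ hx)

/-- In a p-soluble group each p-factor of the upper p-series contains its own centralizer in the corresponding quotient. -/
theorem result {G : Type*} [Group G] [Finite G] {p : ℕ} [Fact p.Prime] (hsol : Cfsg.IsPSolvable p G) (k : ℕ) : Subgroup.centralizer ((((Cfsg.upperPSeries p G (2 * k + 2)).1.map (QuotientGroup.mk' (Cfsg.upperPSeries p G (2 * k + 1)).1)) : Subgroup (G ⧸ (Cfsg.upperPSeries p G (2 * k + 1)).1)) : Set (G ⧸ (Cfsg.upperPSeries p G (2 * k + 1)).1)) ≤ (Cfsg.upperPSeries p G (2 * k + 2)).1.map (QuotientGroup.mk' (Cfsg.upperPSeries p G (2 * k + 1)).1) := by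
  have hW : (upperPSeries p G (2 * k + 1)).1 =
      (pPrimeCore p (G ⧸ (upperPSeries p G (2 * k)).1)).comap
        (QuotientGroup.mk' (upperPSeries p G (2 * k)).1) := by
    rw [upperPSeries]
    simp
  have hT : (upperPSeries p G (2 * k + 2)).1 =
      (pCore p (G ⧸ (upperPSeries p G (2 * k + 1)).1)).comap
        (QuotientGroup.mk' (upperPSeries p G (2 * k + 1)).1) := by
    show (upperPSeries p G ((2 * k + 1) + 1)).1 = _
    rw [upperPSeries]
    simp
  have hbot := pPrimeCore_quotient_comap p (upperPSeries p G (2 * k)).1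
    (upperPSeries p G (2 * k + 1)).1 hW
  rw [hT, Subgroup.map_comap_eq_self_of_surjective (QuotientGroup.mk'_surjective _)]
  exact hall_higman (isPSolvable_quotient hsol _) hbot

end Cfsg.Agent.S0634
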