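import Cfsg.Statements.S5028
import Cfsg.Agent.Helper25.RootSets

set_option autoImplicit false
open Cfsg

namespace Cfsg.Agent.S5028

open Cfsg.Agent.Helper25

/-- Let S be a set of abstract root subgroups of G and A a member of S having a rank one partner in S. Then A meets every other member of S trivially. -/
theorem result {G : Type*} [Group G] {S : Set (Subgroup G)} (hS : Cfsg.IsRootSubgroupSet S)
    {A : Subgroup G} (hA : ¬ Cfsg.IsIsolatedIn (Cfsg.FAdj S) S A) (hAS : A ∈ S) : ∀ B ∈ S, A ⊓ B = ⊥ ∨ A = B := by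
  intro C hC
  obtain ⟨B, hB, hAB⟩ := exists_partner_of_not_isolated hA hAS
  by_cases h : A ⊓ C = ⊥
  · exact Or.inl h
  · right
    rw [Subgroup.eq_bot_iff_forall] at h
    push Not at h
    obtain ⟨x, ⟨hxA, hxC⟩, hx1⟩ := h
    have h1 : (1 : G) * x ∈ C := by rw [one_mul]; exact hxC
    exact (root_key hS hAS hB hAB hC (Subgroup.one_mem _) hxA hx1 h1).symm

end Cfsg.Agent.S5028
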