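import Cfsg.Statements.S0065
import Mathlib

set_option autoImplicit false
open Cfsg

namespace Cfsg.Agent.S0065

/-- A nontrivial normal subgroup of a nilpotent group intersects the centre nontrivially. -/
theorem result {G : Type*} [Group G] [Finite G] [Group.IsNilpotent G]
    (N : Subgroup G) [N.Normal] (hN : N ≠ ⊥) : N ⊓ Subgroup.center G ≠ ⊥ := by
  obtain ⟨n, hn⟩ := Subgroup.nilpotent_iff_lowerCentralSeries.mp
    (inferInstance : Group.IsNilpotent G)
  let H : ℕ → Subgroup G := fun k => Nat.rec N (fun _ X => ⁅X, (⊤ : Subgroup G)⁆) k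
  have hH0 : H 0 = N := rfl
  have hHs : ∀ k, H (k+1) = ⁅H k, (⊤ : Subgroup G)⁆ := fun k => rfl
  have hle : ∀ k, H k ≤ (⊤ : Subgroup G).lowerCentralSeries k := by
    intro k
    induction k with
    | zero => exact le_top
    | succ k ih =>
      rw [hHs, Subgroup.lowerCentralSeries_succ]; exact Subgroup.commutator_mono ih le_rfl
  have hleN : ∀ k, H k ≤ N := by
    intro k
    induction k with
    | zero => exact le_rfl
    | succ k ih =>
      rw [hHs]
      exact (Subgroup.commutator_mono ih le_rfl).trans (Subgroup.commutator_le_left N ⊤)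
  have hbot : H n = ⊥ := by rw [eq_bot_iff, ← hn]; exact hle n
  have hfind : ∀ k, H k = ⊥ → ∃ j, H j ≠ ⊥ ∧ ⁅H j, (⊤ : Subgroup G)⁆ = ⊥ := by
    intro k
    induction k with
    | zero => intro h0; rw [hH0] at h0; exact absurd h0 hN
    | succ k ih =>
      intro hk
      rcases Classical.em (H k = ⊥) with hk' | hk'
      · exact ih hk'
      · exact ⟨k, hk', by rw [← hHs]; exact hk⟩
  obtain ⟨j, hjne, hjc⟩ := hfind n hbot
  have hjcenter : H j ≤ Subgroup.center G := by
    rw [Subgroup.commutator_eq_bot_iff_le_centralizer] at hjc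
    rw [← Subgroup.centralizer_univ, ← Subgroup.coe_top]
    exact hjc
  intro hbot'
  apply hjne
  rw [eq_bot_iff, ← hbot']
  exact le_inf (hleN j) hjcenter

end Cfsg.Agent.S0065
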