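import Cfsg.Statements.S5421

set_option autoImplicit false
open Cfsg

namespace Cfsg.Agent.S5421

open scoped commutatorElement

theorem pCore_isPGroup' (p : ℕ) (G : Type*) [Group G] : IsPGroup p (Cfsg.pCore p G) :=
  Sylow.sSup_of_normal _ (fun _ hH => hH.2) (fun _ hH => hH.1)

/-- An element lying in a `2`-subgroup and in a subgroup of odd order is trivial. -/
theorem eq_one_of_mem_two_group_of_mem_odd {G : Type*} [Group G] [Finite G] (P K : Subgroup G)
    (hP : IsPGroup 2 P) (hK : Odd (Nat.card K)) (x : G) (hxP : x ∈ P) (hxK : x ∈ K) : x = 1 := by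
  obtain ⟨n, hn⟩ := hP ⟨x, hxP⟩
  have h1 : x ^ (2 ^ n) = 1 := by
    have := congrArg (Subtype.val) hn
    simpa using this
  have h2 : x ^ (Nat.card K) = 1 := by
    have h := congrArg (fun y : K => (y : G)) (pow_card_eq_one' (G := K) (x := ⟨x, hxK⟩))
    simp only [SubmonoidClass.coe_pow, OneMemClass.coe_one] at h
    exact h
  have hd1 : orderOf x ∣ 2 ^ n := orderOf_dvd_of_pow_eq_one h1
  have hd2 : orderOf x ∣ Nat.card K := orderOf_dvd_of_pow_eq_one h2
  have hcop : Nat.Coprime (2 ^ n) (Nat.card K) :=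
    Nat.Coprime.pow_left n (Nat.coprime_two_left.mpr hK)
  have : orderOf x ∣ 1 := by
    have := Nat.dvd_gcd hd1 hd2
    rwa [hcop] at this
  exact orderOf_eq_one_iff.mp (Nat.dvd_one.mp this)

/-- An involution normalizing a finite subgroup `K` and centralizing no non-identity element of it
inverts every element of `K`. -/
theorem inverts_of_fixed_point_free {G : Type*} [Group G] [Finite G] (K : Subgroup G) (t : G)
    (ht : t * t = 1) (hn : ∀ k ∈ K, t * k * t⁻¹ ∈ K) (hfix : ∀ k ∈ K, t * k = k * t → k = 1) :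
    ∀ k ∈ K, t * k * t⁻¹ = k⁻¹ := by
  have htinv : t⁻¹ = t := inv_eq_of_mul_eq_one_left ht
  let f : K → K := fun k => ⟨(k : G)⁻¹ * (t * k * t⁻¹), K.mul_mem (K.inv_mem k.2) (hn k k.2)⟩
  have hinj : Function.Injective f := by
    intro k l hkl
    have h : (k : G)⁻¹ * (t * k * t⁻¹) = (l : G)⁻¹ * (t * l * t⁻¹) := congrArg Subtype.val hkl
    have hmem : (l : G) * (k : G)⁻¹ ∈ K := K.mul_mem l.2 (K.inv_mem k.2)
    have hcomm : t * ((l : G) * (k : G)⁻¹) = (l : G) * (k : G)⁻¹ * t := by
      have h' : (l : G) * ((k : G)⁻¹ * (t * k * t⁻¹)) * (t * (k : G)⁻¹) = (l : G) * ((l : G)⁻¹ * (t * l * t⁻¹)) * (t * (k : G)⁻¹) := by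
        rw [h]
      have e1 : (l : G) * ((k : G)⁻¹ * (t * k * t⁻¹)) * (t * (k : G)⁻¹) = (l : G) * (k : G)⁻¹ * t := by
        rw [htinv]
        calc (l : G) * ((k : G)⁻¹ * (t * k * t)) * (t * (k : G)⁻¹)
            = (l : G) * (k : G)⁻¹ * t * k * (t * t) * (k : G)⁻¹ := by group
          _ = (l : G) * (k : G)⁻¹ * t := by rw [ht]; group
      have e2 : (l : G) * ((l : G)⁻¹ * (t * l * t⁻¹)) * (t * (k : G)⁻¹) = t * ((l : G) * (k : G)⁻¹) := by
        rw [htinv]
        calc (l : G) * ((l : G)⁻¹ * (t * l * t)) * (t * (k : G)⁻¹)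
            = t * l * (t * t) * (k : G)⁻¹ := by group
          _ = t * ((l : G) * (k : G)⁻¹) := by rw [ht]; group
      rw [e1, e2] at h'
      exact h'.symm
    have := hfix _ hmem hcomm
    have hlk : (l : G) = k := by
      have := congrArg (fun x => x * (k : G)) this
      simpa using this
    exact Subtype.ext hlk.symm
  have hsurj : Function.Surjective f := Finite.injective_iff_surjective.mp hinj
  intro k hk
  obtain ⟨l, hl⟩ := hsurj ⟨k, hk⟩
  have hl' : (l : G)⁻¹ * (t * l * t⁻¹) = k := congrArg Subtype.val hl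
  rw [← hl', htinv]
  calc t * ((l : G)⁻¹ * (t * l * t)) * t = t * (l : G)⁻¹ * t * l * (t * t) := by group
    _ = t * (l : G)⁻¹ * t * l := by rw [ht, mul_one]
    _ = ((l : G)⁻¹ * (t⁻¹ * l * t⁻¹))⁻¹ := by group
    _ = ((l : G)⁻¹ * (t * l * t))⁻¹ := by rw [htinv]

/-- Let Q be an extraspecial 2-subgroup of the finite group G whose centralizer in G is its centre Z and which is normal in the centralizer of Z. If some involution b of Q outside Z has Z inside the largest normal 2-subgroup of the centralizer of b, then Q is a large extraspecial 2-subgroup of G. -/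
theorem result {G : Type*} [Group G] [Finite G] (Q : Subgroup G) (hL1 : Cfsg.IsExtraspecial 2 ↥Q) (hL2 : Subgroup.centralizer (Q : Set G) = ((Subgroup.center ↥Q).map Q.subtype)) (hL3 : Subgroup.centralizer (((Subgroup.center ↥Q).map Q.subtype) : Set G) ≤ Subgroup.normalizer (Q : Set G)) (b : G) (hbQ : b ∈ Q) (hbZ : b ∉ ((Subgroup.center ↥Q).map Q.subtype)) (hb : orderOf b = 2) (hZ : ((Subgroup.center ↥Q).map Q.subtype) ≤ (Cfsg.pCore 2 ↥(Subgroup.centralizer ({b} : Set G))).map (Subgroup.centralizer ({b} : Set G)).subtype) : Cfsg.IsLargeExtraspecial Q := by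
  refine ⟨hL1, hL2, hL3, ?_⟩
  intro K hKodd hQK
  have hQP : IsPGroup 2 (Q : Subgroup G) := hL1.1.1
  have hcomm : commutator Q = Subgroup.center Q := hL1.1.2.2
  have hcard : Nat.card (Subgroup.center Q) = 2 := hL1.2
  have hZQ : ((Subgroup.center ↥Q).map Q.subtype) ≤ Q := by
    rintro _ ⟨y, _, rfl⟩
    exact y.2
  -- the generator of the centre
  obtain ⟨z0, hz0, hz0u⟩ := (Nat.card_eq_two_iff' (1 : Subgroup.center Q)).mp hcard
  have hz0sq : z0 * z0 = 1 := by
    by_contra h
    have := hz0u (z0 * z0) h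
    apply hz0
    have h2 : z0 * z0 = z0 * 1 := by rw [mul_one]; exact this
    exact mul_left_cancel h2
  set z : G := ((z0 : Q) : G) with hz
  have hzQ : z ∈ Q := (z0 : Q).2
  have hzZ : z ∈ (Subgroup.center ↥Q).map Q.subtype := ⟨(z0 : Q), z0.2, rfl⟩
  have hz1 : z ≠ 1 := by
    intro h
    apply hz0
    apply Subtype.ext
    apply Subtype.ext
    simpa [hz] using h
  have hzz : z * z = 1 := by
    have := congrArg (fun y : Subgroup.center Q => ((y : Q) : G)) hz0sq
    simpa [hz] using this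
  have hZmem : ∀ x ∈ (Subgroup.center ↥Q).map Q.subtype, x = 1 ∨ x = z := by
    rintro _ ⟨y, hy, rfl⟩
    by_cases h : (⟨y, hy⟩ : Subgroup.center Q) = 1
    · left
      have := congrArg (fun y : Subgroup.center Q => ((y : Q) : G)) h
      simpa using this
    · right
      have := hz0u _ h
      have := congrArg (fun y : Subgroup.center Q => ((y : Q) : G)) this
      simpa [hz] using this
  have hzc : ∀ q ∈ Q, q * z = z * q := by
    intro q hq
    have h := (Subgroup.mem_center_iff.mp z0.2) ⟨q, hq⟩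
    have := congrArg (fun y : Q => (y : G)) h
    simpa [hz] using this
  -- normalization facts
  have hnorm : ∀ q ∈ Q, ∀ k ∈ K, q * k * q⁻¹ ∈ K := by
    intro q hq k hk
    have := hQK hq
    rw [Subgroup.mem_normalizer_iff] at this
    exact (this k).1 hk
  -- Step 1: C_K(z) = 1
  have step1 : ∀ k ∈ K, z * k = k * z → k = 1 := by
    intro k hk hkz
    have hkC : k ∈ Subgroup.centralizer (((Subgroup.center ↥Q).map Q.subtype) : Set G) := by
      rw [Subgroup.mem_centralizer_iff]
      intro x hx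
      rcases hZmem x hx with rfl | rfl
      · simp
      · exact hkz
    have hkN := hL3 hkC
    rw [Subgroup.mem_normalizer_iff] at hkN
    have hkCQ : k ∈ Subgroup.centralizer (Q : Set G) := by
      rw [Subgroup.mem_centralizer_iff]
      intro q hq
      have hqQ : q ∈ Q := hq
      have h1 : q * k * q⁻¹ * k⁻¹ ∈ K := K.mul_mem (hnorm q hqQ k hk) (K.inv_mem hk)
      have h2 : q * k * q⁻¹ * k⁻¹ ∈ Q := by
        have : k * q⁻¹ * k⁻¹ ∈ Q := (hkN q⁻¹).1 (Q.inv_mem hqQ)
        have := Q.mul_mem hqQ this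
        simpa [mul_assoc] using this
      have h3 := eq_one_of_mem_two_group_of_mem_odd Q K hQP hKodd _ h2 h1
      have := congrArg (fun t => t * k * q) h3
      simpa [mul_assoc] using this
    have hkQ : k ∈ Q := hZQ (hL2 ▸ hkCQ)
    exact eq_one_of_mem_two_group_of_mem_odd Q K hQP hKodd k hkQ hk
  -- Step 2: C_K(b) = 1
  have hbb : b * b = 1 := by
    have := pow_orderOf_eq_one b
    rw [hb, pow_two] at this
    exact this
  have hcoreP : IsPGroup 2 (Cfsg.pCore 2 ↥(Subgroup.centralizer ({b} : Set G))) := pCore_isPGroup' 2 _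
  have hcoreN : (Cfsg.pCore 2 ↥(Subgroup.centralizer ({b} : Set G))).Normal :=
    Subgroup.sSup_normal _ (fun _ hH => hH.1)
  have hcoreP' : IsPGroup 2 ((Cfsg.pCore 2 ↥(Subgroup.centralizer ({b} : Set G))).map (Subgroup.centralizer ({b} : Set G)).subtype) :=
    hcoreP.map _
  have step2 : ∀ k ∈ K, b * k = k * b → k = 1 := by
    intro k hk hkb
    apply step1 k hk
    have hkCb : k ∈ Subgroup.centralizer ({b} : Set G) := by
      rw [Subgroup.mem_centralizer_iff]
      intro x hx
      rw [Set.mem_singleton_iff] at hx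
      subst hx
      exact hkb
    obtain ⟨z', hz', hz'z⟩ := hZ hzZ
    have h1 : z * k * z⁻¹ * k⁻¹ ∈ K := K.mul_mem (hnorm z hzQ k hk) (K.inv_mem hk)
    have h2 : z * k * z⁻¹ * k⁻¹ ∈ (Cfsg.pCore 2 ↥(Subgroup.centralizer ({b} : Set G))).map (Subgroup.centralizer ({b} : Set G)).subtype := by
      refine ⟨z' * (⟨k, hkCb⟩ * z'⁻¹ * ⟨k, hkCb⟩⁻¹), ?_, ?_⟩
      · exact Subgroup.mul_mem _ hz' (hcoreN.conj_mem _ (Subgroup.inv_mem _ hz') _)
      · have hz'' : ((z' : Subgroup.centralizer ({b} : Set G)) : G) = z := hz'z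
        simp [hz'', mul_assoc]
    have h3 := eq_one_of_mem_two_group_of_mem_odd _ K hcoreP' hKodd _ h2 h1
    have := congrArg (fun t => t * k * z) h3
    simpa [mul_assoc] using this
  -- Step 3: C_K(b z) = 1
  have hbz_comm : b * z = z * b := hzc b hbQ
  -- there is q ∈ Q with q b q⁻¹ = b z
  have hq : ∃ q ∈ Q, q * b * q⁻¹ = b * z := by
    -- b is not central in Q
    have hbnc : (⟨b, hbQ⟩ : Q) ∉ Subgroup.center Q := by
      intro h
      exact hbZ ⟨⟨b, hbQ⟩, h, rfl⟩
    rw [Subgroup.mem_center_iff] at hbnc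
    push Not at hbnc
    obtain ⟨q, hqb⟩ := hbnc
    refine ⟨q, q.2, ?_⟩
    have hcm : ⁅q, (⟨b, hbQ⟩ : Q)⁆ ∈ commutator Q := by
      rw [commutator_def]
      exact Subgroup.commutator_mem_commutator (Subgroup.mem_top _) (Subgroup.mem_top _)
    rw [hcomm] at hcm
    have hcmZ : ((⁅q, (⟨b, hbQ⟩ : Q)⁆ : Q) : G) ∈ (Subgroup.center ↥Q).map Q.subtype := ⟨_, hcm, rfl⟩
    have hval : ((⁅q, (⟨b, hbQ⟩ : Q)⁆ : Q) : G) = (q : G) * b * (q : G)⁻¹ * b⁻¹ := by
      simp [commutatorElement_def]
    rw [hval] at hcmZ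
    rcases hZmem _ hcmZ with h | h
    · exfalso
      apply hqb
      apply Subtype.ext
      have := congrArg (fun t => t * b * (q : G)) h
      simpa [mul_assoc] using this
    · have := congrArg (fun t => t * b) h
      simp only [inv_mul_cancel_right] at this
      rw [this, hbz_comm]
  obtain ⟨q, hqQ, hqb⟩ := hq
  have step3 : ∀ k ∈ K, (b * z) * k = k * (b * z) → k = 1 := by
    intro k hk hkbz
    have hk' : q⁻¹ * k * q ∈ K := by
      have := hnorm q⁻¹ (Q.inv_mem hqQ) k hk
      simpa using this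
    have hcomm' : b * (q⁻¹ * k * q) = (q⁻¹ * k * q) * b := by
      have e : b = q⁻¹ * (b * z) * q := by rw [← hqb]; group
      calc b * (q⁻¹ * k * q) = q⁻¹ * (b * z) * q * (q⁻¹ * k * q) := by rw [← e]
        _ = q⁻¹ * ((b * z) * k) * q := by group
        _ = q⁻¹ * (k * (b * z)) * q := by rw [hkbz]
        _ = (q⁻¹ * k * q) * (q⁻¹ * (b * z) * q) := by group
        _ = (q⁻¹ * k * q) * b := by rw [← e]
    have := step2 _ hk' hcomm'
    have := congrArg (fun t => q * t * q⁻¹) this
    simpa [mul_assoc] using this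
  -- z and b invert K
  have hzinv := inverts_of_fixed_point_free K z hzz (hnorm z hzQ) step1
  have hbinv := inverts_of_fixed_point_free K b hbb (hnorm b hbQ) step2
  rw [eq_bot_iff]
  intro k hk
  rw [Subgroup.mem_bot]
  apply step3 k hk
  have h1 : z * k * z⁻¹ = k⁻¹ := hzinv k hk
  have h2 : b * k⁻¹ * b⁻¹ = k := by
    have := hbinv k⁻¹ (K.inv_mem hk)
    simpa using this
  calc b * z * k = b * (z * k * z⁻¹) * b⁻¹ * (b * z) := by group
    _ = b * k⁻¹ * b⁻¹ * (b * z) := by rw [h1]
    _ = k * (b * z) := by rw [h2]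

end Cfsg.Agent.S5421
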