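import Mathlib
import Cfsg.Statements.S5422
import Cfsg.Agent.Helper26.LargeXS
import Cfsg.Agent.S5421
-- import your own Cfsg.Agent.* helpers here

set_option autoImplicit false
open Cfsg

namespace Cfsg.Agent.S5422

/-- Let Q be an extraspecial 2-subgroup of the finite group G whose centralizer in G is its centre Z and which is normal in the centralizer of Z; suppose Q has width at least 2 (order 2^(2w+1) with w ≥ 2) and g is an element of G not normalizing Z with g Z g⁻¹ inside Q. Then Z lies inside g Q g⁻¹; writing V for the subgroup generated by Z and g Z g⁻¹ (a four-group), the normalizer of V induces on V its full automorphism group, that is, the centralizer of V has index 6 in the normalizer of V; and Q is a large extraspecial 2-subgroup of G. -/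
theorem result {G : Type*} [Group G] [Finite G] (Q : Subgroup G) (hL1 : Cfsg.IsExtraspecial 2 ↥Q) (hL2 : Subgroup.centralizer (Q : Set G) = ((Subgroup.center ↥Q).map Q.subtype)) (hL3 : Subgroup.centralizer (((Subgroup.center ↥Q).map Q.subtype) : Set G) ≤ Subgroup.normalizer (Q : Set G)) (w : ℕ) (hw : 2 ≤ w) (hcard : Nat.card ↥Q = 2 ^ (2 * w + 1)) (g : G) (hg : g ∉ Subgroup.normalizer (((Subgroup.center ↥Q).map Q.subtype) : Set G)) (hZg : (((Subgroup.center ↥Q).map Q.subtype)).map (MulAut.conj g).toMonoidHom ≤ Q) : ((Subgroup.center ↥Q).map Q.subtype) ≤ (Q).map (MulAut.conj g).toMonoidHom ∧ (Subgroup.centralizer ((((Subgroup.center ↥Q).map Q.subtype) ⊔ (((Subgroup.center ↥Q).map Q.subtype)).map (MulAut.conj g).toMonoidHom : Subgroup G) : Set G)).relIndex (Subgroup.normalizer ((((Subgroup.center ↥Q).map Q.subtype) ⊔ (((Subgroup.center ↥Q).map Q.subtype)).map (MulAut.conj g).toMonoidHom : Subgroup G) : Set G)) = 6 ∧ Cfsg.IsLargeExtraspecial Q := by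
  classical
  obtain ⟨z, d, hcenter⟩ := Cfsg.Agent.Helper14.XS.of_extraspecial Q hL1
  have d' := d
  obtain ⟨hzQ, hz1, hzz, hcen, hcomm, hsqr, hrad⟩ := d'
  have hZle : ((Subgroup.center ↥Q).map Q.subtype) ≤ Q := by
    intro v hv
    rcases (hcenter v).mp hv with h | h
    · rw [h]; exact Q.one_mem
    · rw [h]; exact hzQ
  have hCQ : ∀ c : G, (∀ b ∈ Q, c * b = b * c) → c ∈ Q := by
    intro c hc
    apply hZle
    rw [← hL2, Subgroup.mem_centralizer_iff]
    intro b hb
    exact (hc b hb).symm
  have hN : ∀ c : G, c * z = z * c → ∀ b ∈ Q, c * b * c⁻¹ ∈ Q := by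
    intro c hc b hb
    have hcN : c ∈ Subgroup.normalizer (Q : Set G) := by
      apply hL3
      rw [Subgroup.mem_centralizer_iff]
      intro v hv
      rcases (hcenter v).mp hv with h | h
      · rw [h, one_mul, mul_one]
      · rw [h]; exact hc.symm
    exact (Subgroup.mem_normalizer_iff.mp hcN b).mp hb
  have hzZ : z ∈ (Subgroup.center ↥Q).map Q.subtype := (hcenter z).mpr (Or.inr rfl)
  have hx : g * z * g⁻¹ ∈ Q := by
    apply hZg
    exact Subgroup.mem_map.mpr ⟨z, hzZ, rfl⟩
  have hxz : g * z * g⁻¹ ≠ z := by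
    intro h
    apply hg
    apply Cfsg.Agent.Helper26.LargeXS.mem_normalizer_of_conj
    intro v hv
    rcases (hcenter v).mp hv with h1 | h1
    · rw [h1, mul_one, mul_inv_cancel]; exact Subgroup.one_mem _
    · rw [h1, h]; exact hzZ
  have hkey := Cfsg.Agent.Helper26.LargeXS.key d hL1.1.1 hCQ hN g hx
  have hkeyp := Cfsg.Agent.Helper26.LargeXS.key_pCore d hL1.1.1 hCQ hN g hx
  obtain ⟨x, hxdef⟩ : ∃ x, x = g * z * g⁻¹ := ⟨_, rfl⟩
  rw [← hxdef] at hx hxz hkeyp
  have hgzx : SemiconjBy g z x := by rw [hxdef]; exact SemiconjBy.conj_mk g z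
  have hxx : x * x = 1 := by
    rw [hxdef]
    calc g * z * g⁻¹ * (g * z * g⁻¹) = g * (z * z) * g⁻¹ := by group
      _ = 1 := by rw [hzz, mul_one, mul_inv_cancel]
  have hx1 : x ≠ 1 := by
    intro h
    rw [h] at hgzx
    have h1 : g * z = 1 * g := hgzx.eq
    rw [one_mul] at h1
    exact hz1 (mul_left_cancel (h1.trans (mul_one g).symm))
  refine ⟨?_, ?_, ?_⟩
  · intro v hv
    rcases (hcenter v).mp hv with h | h
    · rw [h]; exact Subgroup.one_mem _
    · rw [h]
      refine Subgroup.mem_map.mpr ⟨g⁻¹ * z * g, hkey, ?_⟩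
      show g * (g⁻¹ * z * g) * g⁻¹ = z
      group
  · have hc : x * z = z * x := hcen x hx
    obtain ⟨q, hqQ, hq⟩ := Cfsg.Agent.Helper26.LargeXS.exists_moving d hx hx1 hxz
    have hgu : SemiconjBy g (g⁻¹ * z * g) z := by
      show g * (g⁻¹ * z * g) = z * g
      group
    have hu1 : g⁻¹ * z * g ≠ 1 := by
      intro h
      rw [h] at hgu
      have h1 : g * 1 = z * g := hgu.eq
      rw [mul_one] at h1
      exact hz1 (mul_right_cancel (h1.symm.trans (one_mul g).symm))
    have huz : g⁻¹ * z * g ≠ z := by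
      intro h
      rw [h] at hgu
      exact hxz (mul_right_cancel (hgzx.eq.symm.trans hgu.eq))
    obtain ⟨p, hpQ, hp⟩ := Cfsg.Agent.Helper26.LargeXS.exists_moving d hkey hu1 huz
    have hpz : SemiconjBy p z z := hcen p hpQ
    have hq1 : SemiconjBy q z z := hcen q hqQ
    have hq1' : SemiconjBy (g * p * g⁻¹) x x :=
      SemiconjBy.mul_left (SemiconjBy.mul_left hgzx hpz) hgzx.inv_symm_left
    have hq2' : SemiconjBy (g * p * g⁻¹) z (z * x) := by
      have h1 : SemiconjBy g (z * (g⁻¹ * z * g)) (x * z) := hgzx.mul_right hgu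
      have h2 : SemiconjBy (g * p * g⁻¹) z (x * z) :=
        SemiconjBy.mul_left (SemiconjBy.mul_left h1 hp) hgu.inv_symm_left
      rw [hc] at h2
      exact h2
    refine Cfsg.Agent.Helper26.LargeXS.index6 hzz hxx hc hz1 hx1 hxz _ ?_ ?_ ?_ hq1 hq hq1' hq2'
    · exact Subgroup.mem_sup_left hzZ
    · exact Subgroup.mem_sup_right (Subgroup.mem_map.mpr ⟨z, hzZ, hxdef.symm⟩)
    · intro A hzA hxA
      apply sup_le
      · intro v hv
        rcases (hcenter v).mp hv with h | h
        · rw [h]; exact A.one_mem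
        · rw [h]; exact hzA
      · intro v hv
        obtain ⟨w, hw, rfl⟩ := Subgroup.mem_map.mp hv
        rcases (hcenter w).mp hw with h | h
        · rw [h, map_one]; exact A.one_mem
        · rw [h]
          show g * z * g⁻¹ ∈ A
          rw [← hxdef]; exact hxA
  · apply Cfsg.Agent.S5421.result Q hL1 hL2 hL3 x hx
    · intro h
      rcases (hcenter x).mp h with h1 | h1
      · exact hx1 h1
      · exact hxz h1
    · exact orderOf_eq_prime (by rw [pow_two]; exact hxx) hx1
    · intro v hv
      rcases (hcenter v).mp hv with h | h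
      · rw [h]; exact Subgroup.one_mem _
      · rw [h]; exact hkeyp

end Cfsg.Agent.S5422
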