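import Cfsg.Statements.S0359
import Cfsg.Agent.Helper28.GolayPerm

set_option autoImplicit false
open Cfsg

namespace Cfsg.Agent.S0359

open Cfsg.Agent.Helper28.Golay

set_option maxRecDepth 100000 in
theorem wt_ok : ∀ m, m < 4096 → (wt (encode m) = 0 ∨ wt (encode m) = 8 ∨ wt (encode m) = 12 ∨
    wt (encode m) = 16 ∨ wt (encode m) = 24) := by decide +kernel

/-- The weight of every word of the length-24 code is one of 0, 8, 12, 16, 24. -/
theorem result (w : Cfsg.GolayPt → ZMod 2) (hw : w ∈ Cfsg.golayCode) : hammingNorm w = 0 ∨ hammingNorm w = 8 ∨ hammingNorm w = 12 ∨ hammingNorm w = 16 ∨ hammingNorm w = 24 := by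
  obtain ⟨m, hm, rfl⟩ := (mem_golayCode_iff w).1 hw
  have h1 : hammingNorm (wordOf (encode m)) = wt (encode m) := by
    rw [← card_toSet, ← support_wordOf]
    rfl
  rw [h1]
  exact wt_ok m hm

end Cfsg.Agent.S0359
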