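import Cfsg.Statements.S0401
import Cfsg.Agent.Helper27.Co0Trans
-- import your own Cfsg.Agent.* helpers here

set_option autoImplicit false
open Cfsg

namespace Cfsg.Agent.S0401

/-- Automorphisms of the lattice act transitively on vectors of sum of squares 48. -/
theorem result (v w : Cfsg.leechLattice) (hv : Cfsg.sqNorm (v : Cfsg.GolayPt → ℤ) = 48) (hw : Cfsg.sqNorm (w : Cfsg.GolayPt → ℤ) = 48) : ∃ g : Cfsg.Co0, g • v = w := by
  obtain ⟨g1, h1⟩ := Cfsg.Agent.Helper27.trans48 v hv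
  obtain ⟨g2, h2⟩ := Cfsg.Agent.Helper27.trans48 w hw
  refine ⟨g2⁻¹ * g1, ?_⟩
  have e : g1 • v = g2 • w := Subtype.ext (h1.trans h2.symm)
  rw [mul_smul, e, inv_smul_smul]

end Cfsg.Agent.S0401
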