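import Cfsg.Statements.S0432
import Mathlib

set_option autoImplicit false
open Cfsg
open scoped Pointwise

namespace Cfsg.Agent.S0432

theorem key (σ : Equiv.Perm Cfsg.GolayPt) (hσ : σ ∈ Cfsg.M24) (y : Cfsg.GolayPt → ℤ)
    (hy : y ∈ Cfsg.leechSet) : (fun i => y (σ i)) ∈ Cfsg.leechSet := by
  obtain ⟨m, h1, h2, h3⟩ := hy
  refine ⟨m, fun i => h1 (σ i), ?_, fun k => ?_⟩
  · rw [Equiv.sum_comp σ y]; exact h2
  · have hinv : σ⁻¹ ∈ Cfsg.M24 := inv_mem hσ
    have hstab : σ⁻¹ • Cfsg.supports (Cfsg.golayCode : Set (Cfsg.GolayPt → ZMod 2))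
        = Cfsg.supports (Cfsg.golayCode : Set (Cfsg.GolayPt → ZMod 2)) :=
      MulAction.mem_stabilizer_iff.mp hinv
    have hmem : σ⁻¹ • (Finset.univ.filter fun i => y i ≡ k [ZMOD 4]) ∈
        σ⁻¹ • Cfsg.supports (Cfsg.golayCode : Set (Cfsg.GolayPt → ZMod 2)) :=
      Set.smul_mem_smul_set (h3 k)
    rw [hstab] at hmem
    have heq : (Finset.univ.filter fun i => y (σ i) ≡ k [ZMOD 4]) =
        σ⁻¹ • (Finset.univ.filter fun i => y i ≡ k [ZMOD 4]) := by
      ext i
      rw [Finset.mem_inv_smul_finset_iff]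
      simp
    rw [heq]
    exact hmem

/-- Coordinate permutations from the code's group preserve the lattice. -/
theorem result (σ : Equiv.Perm Cfsg.GolayPt) (hσ : σ ∈ Cfsg.M24) (x : Cfsg.GolayPt → ℤ) (hx : x ∈ Cfsg.leechLattice) : (fun i => x (σ i)) ∈ Cfsg.leechLattice := by
  change x ∈ AddSubgroup.closure Cfsg.leechSet at hx
  change (fun i => x (σ i)) ∈ AddSubgroup.closure Cfsg.leechSet
  induction hx using AddSubgroup.closure_induction with
  | mem y hy => exact AddSubgroup.subset_closure (key σ hσ y hy)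
  | zero => exact zero_mem _
  | add a b _ _ iha ihb => exact add_mem iha ihb
  | neg a _ iha => exact neg_mem iha

end Cfsg.Agent.S0432
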