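import Cfsg.Statements.S0433
import Cfsg.Agent.S0359
import Cfsg.Agent.Helper27.LeechMin
-- import your own Cfsg.Agent.* helpers here

set_option autoImplicit false
open Cfsg

namespace Cfsg.Agent.S0433

open Cfsg.Agent.Helper27

lemma inter_even
    (hDE : ∀ S ∈ supports (golayCode : Set (GolayPt → ZMod 2)), 4 ∣ S.card)
    (S T : Finset GolayPt) (hS : S ∈ supports (golayCode : Set (GolayPt → ZMod 2)))
    (hT : T ∈ supports (golayCode : Set (GolayPt → ZMod 2))) : 2 ∣ (S ∩ T).card := by
  have h1 := Finset.card_sdiff_add_card_inter S T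
  have h2 := Finset.card_sdiff_add_card_inter T S
  rw [Finset.inter_comm T S] at h2
  have h3 : (symmDiff S T).card = (S \ T).card + (T \ S).card := by
    rw [symmDiff_def, Finset.sup_eq_union, Finset.card_union_of_disjoint]
    rw [Finset.disjoint_left]
    intro a ha hb
    rw [Finset.mem_sdiff] at ha hb
    exact ha.2 hb.1
  have d1 := hDE S hS
  have d2 := hDE T hT
  have d3 := hDE _ (supports_symmDiff S T hS hT)
  omega

lemma sum_flip (c : Finset GolayPt) (x : GolayPt → ℤ) :
    ∑ i, (if i ∈ c then -x i else x i) = ∑ i, x i - 2 * ∑ i ∈ c, x i := by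
  have e : ∀ i, (if i ∈ c then -x i else x i) = x i - 2 * (if i ∈ c then x i else 0) := by
    intro i; split_ifs <;> ring
  rw [Finset.sum_congr rfl (fun i _ => e i), Finset.sum_sub_distrib, ← Finset.mul_sum,
    Finset.sum_ite_mem, Finset.univ_inter]

lemma sum_even_mod (c : Finset GolayPt) (x : GolayPt → ℤ) (h2 : ∀ i, x i % 2 = 0) :
    (4 : ℤ) ∣ ∑ i ∈ c, x i - 2 * ((c ∩ Finset.univ.filter fun i => x i % 4 = 2).card : ℤ) := by
  have e : (c ∩ Finset.univ.filter fun i => x i % 4 = 2) = c.filter (fun i => x i % 4 = 2) := by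
    ext i; simp
  rw [e, Finset.card_filter]
  push_cast
  rw [Finset.mul_sum, ← Finset.sum_sub_distrib]
  apply Finset.dvd_sum
  intro i _
  have := h2 i
  split_ifs with h <;> omega

lemma sum_odd_mod (c : Finset GolayPt) (x : GolayPt → ℤ) (h2 : ∀ i, x i % 2 = 1) :
    (4 : ℤ) ∣ ∑ i ∈ c, x i - (c.card : ℤ) -
      2 * ((c ∩ Finset.univ.filter fun i => x i % 4 = 3).card : ℤ) := by
  have e : (c ∩ Finset.univ.filter fun i => x i % 4 = 3) = c.filter (fun i => x i % 4 = 3) := by
    ext i; simp
  rw [e, Finset.card_filter, Finset.card_eq_sum_ones]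
  push_cast
  rw [Finset.mul_sum, ← Finset.sum_sub_distrib, ← Finset.sum_sub_distrib]
  apply Finset.dvd_sum
  intro i _
  have := h2 i
  split_ifs with h <;> omega

/-- Sign changes on the support of a codeword preserve the lattice. -/
theorem result (c : Finset Cfsg.GolayPt) (hc : c ∈ Cfsg.supports (Cfsg.golayCode : Set (Cfsg.GolayPt → ZMod 2))) (x : Cfsg.GolayPt → ℤ) (hx : x ∈ Cfsg.leechLattice) : (fun i => if i ∈ c then -x i else x i) ∈ Cfsg.leechLattice := by
  obtain ⟨hDE, -⟩ := code_facts Cfsg.Agent.S0359.result
  rw [mem_leechLattice_iff] at hx ⊢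
  rcases leechSet_cases x hx with ⟨h2, h8, hA⟩ | ⟨h2, h8, hA⟩
  · apply mem_leechSet_of_even
    · intro i; have := h2 i; split_ifs <;> omega
    · rw [sum_flip]
      have h4 := sum_even_mod c x h2
      have h5 := inter_even hDE c _ hc hA
      omega
    · have e : (Finset.univ.filter fun i => (if i ∈ c then -x i else x i) % 4 = 2) =
          Finset.univ.filter fun i => x i % 4 = 2 := by
        ext i
        simp only [Finset.mem_filter, Finset.mem_univ, true_and]
        have := h2 i
        split_ifs <;> omega
      rw [e]; exact hA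
  · apply mem_leechSet_of_odd
    · intro i; have := h2 i; split_ifs <;> omega
    · rw [sum_flip]
      have h4 := sum_odd_mod c x h2
      have h5 := inter_even hDE c _ hc hA
      have h6 := hDE c hc
      omega
    · have e : (Finset.univ.filter fun i => (if i ∈ c then -x i else x i) % 4 = 3) =
          symmDiff (Finset.univ.filter fun i => x i % 4 = 3) c := by
        ext i
        simp only [Finset.mem_filter, Finset.mem_univ, true_and, Finset.mem_symmDiff]
        have := h2 i
        split_ifs with h
        · constructor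
          · intro h'; right; exact ⟨h, by omega⟩
          · rintro (⟨h', h''⟩ | ⟨-, h'⟩)
            · exact absurd h h''
            · omega
        · constructor
          · intro h'; left; exact ⟨h', h⟩
          · rintro (⟨h', -⟩ | ⟨h', -⟩)
            · exact h'
            · exact absurd h' h
      rw [e]; exact supports_symmDiff _ _ hA hc

end Cfsg.Agent.S0433
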