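import Cfsg.Statements.S0394
import Cfsg.Agent.Helper27.LeechVec
import Cfsg.Agent.Helper28.GolayFacts
-- import your own Cfsg.Agent.* helpers here

set_option autoImplicit false
open Cfsg

namespace Cfsg.Agent.S0394

open Cfsg.Agent.Helper27

/-- all codeword supports as a finset -/
def allCW : Finset (Finset GolayPt) := Cfsg.Agent.Helper28.Golay.cwFinset fun _ => true

lemma mem_allCW (s : Finset GolayPt) :
    s ∈ allCW ↔ s ∈ supports (golayCode : Set (GolayPt → ZMod 2)) := by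
  rw [allCW, Cfsg.Agent.Helper28.Golay.mem_cwFinset]
  simp

set_option maxRecDepth 100000 in
lemma card_allCW : allCW.card = 4096 := by
  rw [allCW, Cfsg.Agent.Helper28.Golay.card_cwFinset]
  decide +kernel

lemma mem_octFin (O : Finset GolayPt) :
    O ∈ Cfsg.Agent.Helper28.Golay.octFin ↔ O ∈ octads := by
  rw [← Cfsg.Agent.Helper28.Golay.coe_octFin, Finset.mem_coe]

lemma even_subsets {α : Type*} [DecidableEq α] (s : Finset α) (h : s.Nonempty) :
    2 * ((s.powerset).filter (fun m => Even m.card)).card = 2 ^ s.card := by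
  have h1 := Finset.sum_powerset_neg_one_pow_card_of_nonempty h
  have h2 := Finset.card_filter_add_card_filter_not (s := s.powerset) (fun m => Even m.card)
  rw [Finset.card_powerset] at h2
  rw [← Finset.sum_filter_add_sum_filter_not s.powerset (fun m => Even m.card)] at h1
  have e1 : ∑ m ∈ s.powerset.filter (fun m => Even m.card), (-1 : ℤ) ^ m.card =
      ((s.powerset.filter (fun m => Even m.card)).card : ℤ) := by
    rw [Finset.sum_congr rfl (fun m hm => Even.neg_one_pow (Finset.mem_filter.mp hm).2)]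
    simp
  have e2 : ∑ m ∈ s.powerset.filter (fun m => ¬ Even m.card), (-1 : ℤ) ^ m.card =
      -((s.powerset.filter (fun m => ¬ Even m.card)).card : ℤ) := by
    rw [Finset.sum_congr rfl (fun m hm => Odd.neg_one_pow
      (Nat.not_even_iff_odd.mp (Finset.mem_filter.mp hm).2))]
    simp
  rw [e1, e2] at h1
  generalize 2 ^ s.card = N at h2 ⊢
  omega

/-- parameters of the vectors of shape `(±4, ±4, 0, ...)` -/
def D1 : Finset (Σ _ : Finset GolayPt, Finset GolayPt) :=
  (Finset.powersetCard 2 Finset.univ).sigma fun T => T.powerset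

/-- parameters of the vectors of shape `(±2 on an octad)` -/
def D2 : Finset (Σ _ : Finset GolayPt, Finset GolayPt) :=
  Cfsg.Agent.Helper28.Golay.octFin.sigma fun O => O.powerset.filter fun ε => Even ε.card

/-- parameters of the odd vectors -/
def D3 : Finset (Finset GolayPt × GolayPt) := allCW ×ˢ Finset.univ

/-- the vectors of the first shape -/
def F1 : Finset (GolayPt → ℤ) := D1.image fun p => sv 4 p.1 p.2

/-- the vectors of the second shape -/
def F2 : Finset (GolayPt → ℤ) := D2.image fun p => sv 2 p.1 p.2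

/-- the vectors of the third shape -/
def F3 : Finset (GolayPt → ℤ) := D3.image fun p => uvec p.1 p.2

attribute [irreducible] D1 D2 D3 F1 F2 F3

lemma mem_D1 (T ε : Finset GolayPt) :
    (⟨T, ε⟩ : Σ _ : Finset GolayPt, Finset GolayPt) ∈ D1 ↔ T.card = 2 ∧ ε ⊆ T := by
  unfold D1
  rw [Finset.mem_sigma, Finset.mem_powersetCard, Finset.mem_powerset]
  simp

lemma mem_D2 (O ε : Finset GolayPt) :
    (⟨O, ε⟩ : Σ _ : Finset GolayPt, Finset GolayPt) ∈ D2 ↔
      O ∈ octads ∧ ε ⊆ O ∧ Even ε.card := by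
  unfold D2
  rw [Finset.mem_sigma, Finset.mem_filter, Finset.mem_powerset, mem_octFin]

lemma mem_D3 (c : Finset GolayPt) (i : GolayPt) :
    (c, i) ∈ D3 ↔ c ∈ supports (golayCode : Set (GolayPt → ZMod 2)) := by
  unfold D3
  rw [Finset.mem_product, mem_allCW]
  simp

lemma mem_F1 (x : GolayPt → ℤ) : x ∈ F1 ↔ ∃ T ε : Finset GolayPt, T.card = 2 ∧ ε ⊆ T ∧ x = sv 4 T ε := by
  unfold F1
  rw [Finset.mem_image]
  constructor
  · rintro ⟨⟨T, ε⟩, hp, rfl⟩
    exact ⟨T, ε, ((mem_D1 T ε).mp hp).1, ((mem_D1 T ε).mp hp).2, rfl⟩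
  · rintro ⟨T, ε, h1, h2, rfl⟩
    exact ⟨⟨T, ε⟩, (mem_D1 T ε).mpr ⟨h1, h2⟩, rfl⟩

lemma mem_F2 (x : GolayPt → ℤ) :
    x ∈ F2 ↔ ∃ O ε : Finset GolayPt, O ∈ octads ∧ ε ⊆ O ∧ Even ε.card ∧ x = sv 2 O ε := by
  unfold F2
  rw [Finset.mem_image]
  constructor
  · rintro ⟨⟨O, ε⟩, hp, rfl⟩
    obtain ⟨h1, h2, h3⟩ := (mem_D2 O ε).mp hp
    exact ⟨O, ε, h1, h2, h3, rfl⟩
  · rintro ⟨O, ε, h1, h2, h3, rfl⟩
    exact ⟨⟨O, ε⟩, (mem_D2 O ε).mpr ⟨h1, h2, h3⟩, rfl⟩

lemma mem_F3 (x : GolayPt → ℤ) :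
    x ∈ F3 ↔ ∃ c : Finset GolayPt, ∃ i : GolayPt,
      c ∈ supports (golayCode : Set (GolayPt → ZMod 2)) ∧ x = uvec c i := by
  unfold F3
  rw [Finset.mem_image]
  constructor
  · rintro ⟨⟨c, i⟩, hp, rfl⟩
    exact ⟨c, i, (mem_D3 c i).mp hp, rfl⟩
  · rintro ⟨c, i, h1, rfl⟩
    exact ⟨(c, i), (mem_D3 c i).mpr h1, rfl⟩

lemma card_D1 : D1.card = 1104 := by
  rw [D1, Finset.card_sigma]
  have h : ∀ T ∈ Finset.powersetCard 2 (Finset.univ : Finset GolayPt), T.powerset.card = 4 := by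
    intro T hT
    rw [Finset.card_powerset, (Finset.mem_powersetCard.mp hT).2]
    rfl
  rw [Finset.sum_congr rfl h, Finset.sum_const, Finset.card_powersetCard, card_golayPt]
  rfl

lemma card_D2 : D2.card = 97152 := by
  rw [D2, Finset.card_sigma]
  have h : ∀ O ∈ Cfsg.Agent.Helper28.Golay.octFin,
      (O.powerset.filter fun ε => Even ε.card).card = 128 := by
    intro O hO
    have hO' : O ∈ octads := (mem_octFin O).mp hO
    have hne : O.Nonempty := by
      rw [← Finset.card_pos, hO'.2]; norm_num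
    have h2 := even_subsets O hne
    rw [hO'.2] at h2
    omega
  rw [Finset.sum_congr rfl h, Finset.sum_const, Cfsg.Agent.Helper28.Golay.card_octFin]
  rfl

lemma card_D3 : D3.card = 98304 := by
  rw [D3, Finset.card_product, card_allCW, card_golayPt]

lemma sv_inj (a : ℤ) (ha : 0 < a) (T ε T' ε' : Finset GolayPt) (h : ε ⊆ T) (h' : ε' ⊆ T')
    (e : sv a T ε = sv a T' ε') : T = T' ∧ ε = ε' := by
  have hT : ∀ (T ε : Finset GolayPt) (k : GolayPt), k ∈ T ↔ sv a T ε k ≠ 0 := by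
    intro T ε k
    unfold sv
    by_cases hk : k ∈ T
    · by_cases hε : k ∈ ε
      · simp only [hk, hε, if_true, true_iff]; omega
      · simp only [hk, hε, if_true, if_false, true_iff]; omega
    · simp only [hk, if_false, false_iff]; omega
  have hE : ∀ (T ε : Finset GolayPt), ε ⊆ T → ∀ k : GolayPt, k ∈ ε ↔ sv a T ε k < 0 := by
    intro T ε hs k
    unfold sv
    by_cases hε : k ∈ ε
    · have hk := hs hε
      simp only [hk, hε, if_true, true_iff]; omega
    · by_cases hk : k ∈ T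
      · simp only [hk, hε, if_true, if_false, false_iff]; omega
      · simp only [hk, hε, if_false, false_iff]; omega
  constructor
  · ext k; rw [hT T ε k, hT T' ε' k, e]
  · ext k; rw [hE T ε h k, hE T' ε' h' k, e]

lemma uvec_inj (c c' : Finset GolayPt) (i i' : GolayPt) (e : uvec c i = uvec c' i') :
    c = c' ∧ i = i' := by
  constructor
  · ext k; rw [← uvec_mod c i k, ← uvec_mod c' i' k, e]
  · by_contra hne
    have h1 := uvec_sq c i i
    have h2 := uvec_sq c' i' i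
    rw [e] at h1
    rw [if_pos rfl] at h1
    rw [if_neg hne] at h2
    rw [h1] at h2
    norm_num at h2

lemma card_F1 : F1.card = 1104 := by
  rw [F1, Finset.card_image_of_injOn, card_D1]
  rintro ⟨T, ε⟩ hp ⟨T', ε'⟩ hp' e
  rw [Finset.mem_coe, mem_D1] at hp hp'
  obtain ⟨rfl, rfl⟩ := sv_inj 4 (by norm_num) T ε T' ε' hp.2 hp'.2 e
  rfl

lemma card_F2 : F2.card = 97152 := by
  rw [F2, Finset.card_image_of_injOn, card_D2]
  rintro ⟨T, ε⟩ hp ⟨T', ε'⟩ hp' e
  rw [Finset.mem_coe, mem_D2] at hp hp'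
  obtain ⟨rfl, rfl⟩ := sv_inj 2 (by norm_num) T ε T' ε' hp.2.1 hp'.2.1 e
  rfl

lemma card_F3 : F3.card = 98304 := by
  rw [F3, Finset.card_image_of_injOn, card_D3]
  rintro ⟨c, i⟩ hp ⟨c', i'⟩ hp' e
  obtain ⟨rfl, rfl⟩ := uvec_inj c c' i i' e
  rfl

lemma sv_even (a : ℤ) (ha : a % 2 = 0) (T ε : Finset GolayPt) (k : GolayPt) :
    sv a T ε k % 2 = 0 := by
  unfold sv; split_ifs <;> omega

lemma disj12 : Disjoint F1 F2 := by
  rw [Finset.disjoint_left]
  intro x h1 h2
  obtain ⟨T, ε, -, -, rfl⟩ := (mem_F1 x).mp h1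
  obtain ⟨O, ε', hO', -, -, e⟩ := (mem_F2 _).mp h2
  have hne : O.Nonempty := by rw [← Finset.card_pos, hO'.2]; norm_num
  obtain ⟨k, hk⟩ := hne
  have e1 : sv 4 T ε k = sv 2 O ε' k := congrFun e k
  have a1 : sv 4 T ε k % 4 = 0 := by unfold sv; split_ifs <;> rfl
  have a2 : sv 2 O ε' k % 4 = 2 := by unfold sv; rw [if_pos hk]; split_ifs <;> rfl
  omega

lemma disj3 : Disjoint (F1 ∪ F2) F3 := by
  rw [Finset.disjoint_left]
  intro x h1 h3
  obtain ⟨c, i, -, rfl⟩ := (mem_F3 x).mp h3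
  have hodd := uvec_odd c i none
  rcases Finset.mem_union.mp h1 with h | h
  · obtain ⟨T, ε, -, -, e⟩ := (mem_F1 _).mp h
    have h0 := sv_even 4 (by norm_num) T ε none
    have e1 : uvec c i none = sv 4 T ε none := congrFun e none
    omega
  · obtain ⟨T, ε, -, -, -, e⟩ := (mem_F2 _).mp h
    have h0 := sv_even 2 (by norm_num) T ε none
    have e1 : uvec c i none = sv 2 T ε none := congrFun e none
    omega

lemma V32_eq : {x : GolayPt → ℤ | x ∈ leechLattice ∧ sqNorm x = 32} = ↑(F1 ∪ F2 ∪ F3) := by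
  ext x
  rw [Finset.coe_union, Finset.coe_union, Set.mem_union, Set.mem_union, Finset.mem_coe,
    Finset.mem_coe, Finset.mem_coe, mem_F1, mem_F2, mem_F3]
  constructor
  · rintro ⟨hx, hn⟩
    rcases min_cases x ((mem_leechLattice_iff x).mp hx) hn with h | h | h
    · exact Or.inl (Or.inl h)
    · exact Or.inl (Or.inr h)
    · exact Or.inr h
  · rintro ((⟨T, ε, hT, hε, rfl⟩ | ⟨O, ε, hO, hε, he, rfl⟩) | ⟨c, i, hc, rfl⟩)
    · exact ⟨(mem_leechLattice_iff _).mpr (sv4_mem T ε hT hε), sv4_norm T ε hT⟩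
    · exact ⟨(mem_leechLattice_iff _).mpr (sv2_mem O ε hO hε he), sv2_norm O ε hO⟩
    · exact ⟨(mem_leechLattice_iff _).mpr (uvec_mem c i hc), uvec_norm c i⟩

/-- Exactly 196560 lattice vectors have sum of squares 32. -/
theorem result : {x : Cfsg.GolayPt → ℤ | x ∈ Cfsg.leechLattice ∧ Cfsg.sqNorm x = 32}.ncard = 196560 := by
  rw [V32_eq, Set.ncard_coe_finset, Finset.card_union_of_disjoint disj3,
    Finset.card_union_of_disjoint disj12, card_F1, card_F2, card_F3]

end Cfsg.Agent.S0394
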