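import Cfsg.Statements.S1640
import Cfsg.Agent.Helper27.CensusU16
-- import your own Cfsg.Agent.* helpers here

set_option autoImplicit false
open Cfsg

namespace Cfsg.Agent.S1640

open Cfsg.Agent.Helper27

/-- The stabiliser of a vector of customary norm 6 is transitive on the 11178 minimal vectors of customary inner product −2 with it. -/
theorem result (u : ↥Cfsg.leechLattice) (hu : Cfsg.sqNorm (u : Cfsg.GolayPt → ℤ) = 48) : {x : ↥Cfsg.leechLattice | Cfsg.sqNorm (x : Cfsg.GolayPt → ℤ) = 32 ∧ Cfsg.dotInt (u : Cfsg.GolayPt → ℤ) (x : Cfsg.GolayPt → ℤ) = -16}.ncard = 11178 ∧ ∀ x ∈ {x : ↥Cfsg.leechLattice | Cfsg.sqNorm (x : Cfsg.GolayPt → ℤ) = 32 ∧ Cfsg.dotInt (u : Cfsg.GolayPt → ℤ) (x : Cfsg.GolayPt → ℤ) = -16}, ∀ x' ∈ {x : ↥Cfsg.leechLattice | Cfsg.sqNorm (x : Cfsg.GolayPt → ℤ) = 32 ∧ Cfsg.dotInt (u : Cfsg.GolayPt → ℤ) (x : Cfsg.GolayPt → ℤ) = -16}, ∃ g : ↥Cfsg.Co0, g • u =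 u ∧ g • x = x' := by
  refine ⟨?_, ?_⟩
  · obtain ⟨g, hg⟩ := Cfsg.Agent.S0401.result u r5 hu r5_norm
    have h := census_one L5 L5_len L5_snd 0 16
    rw [cu16_1, cu16_2, cu16_3] at h
    have e : ((0 : ℕ) : ℤ) - ((16 : ℕ) : ℤ) = -16 := by norm_num
    rw [e] at h
    rw [census_transport g u r5 hg]
    exact h
  · intro x hx x' hx'
    exact stab48_trans u x x' hu hx.1 hx'.1 hx.2 hx'.2

end Cfsg.Agent.S1640
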