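import Cfsg.Statements.S5551
import Cfsg.Agent.S0391
-- import your own Cfsg.Agent.* helpers here

set_option autoImplicit false
open Cfsg

namespace Cfsg.Agent.S5551


/-- In the Leech lattice of the definitions (integer coordinates, minimal squared length 32), let v and w be non-zero lattice vectors of squared length at most 64 that are congruent modulo twice the lattice. Then they have the same squared length, and if that length is less than 64 then w = v or w = −v. (So a class that contains a non-zero vector of squared length at most 64 has a well-defined type 2, 3 or 4, and a class of type 2 or 3 contains no such vector other than v and −v.) -/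
theorem result (v w : Cfsg.GolayPt → ℤ) (hv : v ∈ Cfsg.leechLattice) (hw : w ∈ Cfsg.leechLattice) (hv0 : v ≠ 0) (hw0 : w ≠ 0) (hvn : Cfsg.sqNorm v ≤ 64) (hwn : Cfsg.sqNorm w ≤ 64) (hc : ∃ z ∈ Cfsg.leechLattice, v - w = 2 • z) : Cfsg.sqNorm v = Cfsg.sqNorm w ∧ (Cfsg.sqNorm v < 64 → w = v ∨ w = -v) := by
  have hmin : ∀ x : GolayPt → ℤ, x ∈ leechLattice → x ≠ 0 → 32 ≤ sqNorm x :=
    fun x hx h0 => Cfsg.Agent.S0391.result x hx h0
  obtain ⟨z, hz, hvw⟩ := hc
  have hz' : z + w ∈ leechLattice := leechLattice.add_mem hz hw
  have e1 : v + w = 2 • (z + w) := by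
    have : v = w + 2 • z := by rw [← hvw]; abel
    rw [this]; simp only [smul_add, two_smul]; abel
  have hpar : sqNorm (v - w) + sqNorm (v + w) = 2 * sqNorm v + 2 * sqNorm w := by
    unfold sqNorm
    rw [← Finset.sum_add_distrib, Finset.mul_sum, Finset.mul_sum, ← Finset.sum_add_distrib]
    apply Finset.sum_congr rfl
    intro i _
    simp only [Pi.add_apply, Pi.sub_apply]
    ring
  have hs : ∀ u : GolayPt → ℤ, sqNorm (2 • u) = 4 * sqNorm u := by
    intro u
    unfold sqNorm
    rw [Finset.mul_sum]
    apply Finset.sum_congr rfl
    intro i _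
    simp only [Pi.smul_apply, smul_eq_mul]
    ring
  by_cases hz0 : z = 0
  · have hvw' : v = w := by
      rw [hz0, smul_zero] at hvw
      exact sub_eq_zero.mp hvw
    subst hvw'
    exact ⟨rfl, fun _ => Or.inl rfl⟩
  · by_cases hz0' : z + w = 0
    · have hvw' : w = -v := by
        rw [hz0', smul_zero] at e1
        have : w = -v := by
          have h := e1
          rw [add_comm] at h
          exact eq_neg_of_add_eq_zero_left h
        exact this
      subst hvw'
      refine ⟨?_, fun _ => Or.inr rfl⟩
      unfold sqNorm
      apply Finset.sum_congr rfl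
      intro i _
      simp only [Pi.neg_apply]
      ring
    · have h1 := hmin z hz hz0
      have h2 := hmin (z + w) hz' hz0'
      rw [hvw, e1, hs, hs] at hpar
      constructor
      · omega
      · intro h; omega

end Cfsg.Agent.S5551
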