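import Cfsg.Statements.S5592
import Cfsg.Agent.S0391
-- import your own Cfsg.Agent.* helpers here

set_option autoImplicit false
open Cfsg

namespace Cfsg.Agent.S5592


/-- In the Leech lattice (integer coordinates, sum of squares equal to 8 times the customary norm, so the shortest non-zero vectors have sum of squares 32): if two distinct vectors of sum of squares at most 64 are congruent modulo twice the lattice, then either they are negatives of each other, or both have sum of squares 64 and they are orthogonal. -/
theorem result (x y : Cfsg.GolayPt → ℤ) (hx : x ∈ Cfsg.leechLattice) (hy : y ∈ Cfsg.leechLattice) (hxy : x ≠ y) (hxn : Cfsg.sqNorm x ≤ 64) (hyn : Cfsg.sqNorm y ≤ 64) (hc : (∃ z ∈ Cfsg.leechLattice, x - y = 2 • z)) :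
    x = -y ∨ (Cfsg.sqNorm x = 64 ∧ Cfsg.sqNorm y = 64 ∧ Cfsg.dotInt x y = 0) := by
  have hmin : ∀ x : GolayPt → ℤ, x ∈ leechLattice → x ≠ 0 → 32 ≤ sqNorm x :=
    fun x hx h0 => Cfsg.Agent.S0391.result x hx h0
  obtain ⟨z, hz, hvw⟩ := hc
  have hz' : z + y ∈ leechLattice := leechLattice.add_mem hz hy
  have e1 : x + y = 2 • (z + y) := by
    have : x = y + 2 • z := by rw [← hvw]; abel
    rw [this]; simp only [smul_add, two_smul]; abel
  have hm : sqNorm (x - y) = sqNorm x + sqNorm y - 2 * dotInt x y := by
    unfold sqNorm dotInt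
    rw [Finset.mul_sum, ← Finset.sum_add_distrib, ← Finset.sum_sub_distrib]
    apply Finset.sum_congr rfl
    intro i _
    simp only [Pi.sub_apply]
    ring
  have hp : sqNorm (x + y) = sqNorm x + sqNorm y + 2 * dotInt x y := by
    unfold sqNorm dotInt
    rw [Finset.mul_sum, ← Finset.sum_add_distrib, ← Finset.sum_add_distrib]
    apply Finset.sum_congr rfl
    intro i _
    simp only [Pi.add_apply]
    ring
  have hs : ∀ u : GolayPt → ℤ, sqNorm (2 • u) = 4 * sqNorm u := by
    intro u
    unfold sqNorm
    rw [Finset.mul_sum]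
    apply Finset.sum_congr rfl
    intro i _
    simp only [Pi.smul_apply, smul_eq_mul]
    ring
  have hz0 : z ≠ 0 := by
    intro h
    apply hxy
    rw [h, smul_zero] at hvw
    exact sub_eq_zero.mp hvw
  by_cases hz0' : z + y = 0
  · left
    rw [hz0', smul_zero] at e1
    exact eq_neg_of_add_eq_zero_left e1
  · right
    have h1 := hmin z hz hz0
    have h2 := hmin (z + y) hz' hz0'
    rw [hvw, hs] at hm
    rw [e1, hs] at hp
    refine ⟨by omega, by omega, by omega⟩

end Cfsg.Agent.S5592
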