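import Cfsg.Statements.S0358
import Cfsg.Agent.Helper28.GolayPerm

set_option autoImplicit false
open Cfsg

namespace Cfsg.Agent.S0358

open Cfsg.Agent.Helper28.Golay

theorem card_code : Nat.card golayCode = 4096 := by
  have e : Fin 4096 ≃ golayCode := by
    refine Equiv.ofBijective (fun m => ⟨wordOf (encode m.val), wordOf_encode_mem m.val⟩) ⟨?_, ?_⟩
    · intro a b hab
      have h1 : wordOf (encode a.val) = wordOf (encode b.val) := congrArg Subtype.val hab
      have h2 := wordOf_inj (enc_ok a.val a.isLt).2 (enc_ok b.val b.isLt).2 h1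
      apply Fin.ext
      rw [← (enc_ok a.val a.isLt).1, ← (enc_ok b.val b.isLt).1, h2]
    · rintro ⟨w, hw⟩
      obtain ⟨m, hm, rfl⟩ := (mem_golayCode_iff w).1 hw
      exact ⟨⟨m, hm⟩, rfl⟩
  rw [← Nat.card_congr e, Nat.card_eq_fintype_card, Fintype.card_fin]

/-- The length-24 code built from the squares modulo 23 has dimension 12 over the field with two elements. -/
theorem result : Module.finrank (ZMod 2) Cfsg.golayCode = 12 := by
  have h := Module.natCard_eq_pow_finrank (K := ZMod 2) (V := golayCode)
  rw [card_code, Nat.card_eq_fintype_card, ZMod.card] at h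
  have h2 : (2 : ℕ) ^ 12 = 2 ^ Module.finrank (ZMod 2) golayCode := by
    rw [← h]
    norm_num
  exact (Nat.pow_right_injective (le_refl 2) h2).symm

end Cfsg.Agent.S0358
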