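import Cfsg.Statements.S1579
import Cfsg.Agent.Helper27.Co2Neg
import Cfsg.Agent.S0400
-- import your own Cfsg.Agent.* helpers here

set_option autoImplicit false
open Cfsg

namespace Cfsg.Agent.S1579

open Cfsg.Agent.Helper27

lemma two_dot_sub (u v : GolayPt → ℤ) :
    2 * dotInt v (u - v) = sqNorm u - sqNorm v - sqNorm (u - v) := by
  unfold dotInt sqNorm
  rw [Finset.mul_sum, ← Finset.sum_sub_distrib, ← Finset.sum_sub_distrib]
  apply Finset.sum_congr rfl
  intro i _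
  simp only [Pi.sub_apply]
  ring

/-- The stabiliser of a vector of customary norm 6 is transitive on the 552 minimal vectors that complete it to a sum of two minimal vectors. -/
theorem result (u v v' : ↥Cfsg.leechLattice) (hu : Cfsg.sqNorm (u : Cfsg.GolayPt → ℤ) = 48) (hv : Cfsg.sqNorm (v : Cfsg.GolayPt → ℤ) = 32 ∧ Cfsg.sqNorm ((u - v) : Cfsg.GolayPt → ℤ) = 32) (hv' : Cfsg.sqNorm (v' : Cfsg.GolayPt → ℤ) = 32 ∧ Cfsg.sqNorm ((u - v') : Cfsg.GolayPt → ℤ) = 32) : ∃ g : ↥Cfsg.Co0, g • u = u ∧ g • v = v' := by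
  obtain ⟨g1, hg1⟩ := Cfsg.Agent.S0400.result v v' hv.1 hv'.1
  have hd : ∀ x : leechLattice, sqNorm (x : GolayPt → ℤ) = 32 →
      sqNorm ((u - x : leechLattice) : GolayPt → ℤ) = 32 →
      dotInt (x : GolayPt → ℤ) ((u - x : leechLattice) : GolayPt → ℤ) = -8 := by
    intro x hx hux
    have h := two_dot_sub (u : GolayPt → ℤ) (x : GolayPt → ℤ)
    have e : ((u - x : leechLattice) : GolayPt → ℤ) = (u : GolayPt → ℤ) - (x : GolayPt → ℤ) := rfl
    rw [e] at hux ⊢
    rw [hu, hx, hux] at h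
    omega
  have ha : sqNorm ((g1 • (u - v) : leechLattice) : GolayPt → ℤ) = 32 := by
    rw [co0_norm]
    exact hv.2
  have hda : dotInt (v' : GolayPt → ℤ) ((g1 • (u - v) : leechLattice) : GolayPt → ℤ) = -8 := by
    rw [← hg1, co0_dot]
    exact hd v hv.1 hv.2
  obtain ⟨h, hh, hab⟩ := m2_trans_gen v' (g1 • (u - v)) (u - v') hv'.1 ha hv'.2 hda
    (hd v' hv'.1 hv'.2)
  refine ⟨h * g1, ?_, ?_⟩
  · have e : u = v + (u - v) := by abel
    rw [mul_smul]
    conv_lhs => rw [e]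
    rw [co0_add, hg1, co0_add, hh, hab]
    abel
  · rw [mul_smul, hg1, hh]

end Cfsg.Agent.S1579
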