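import Cfsg.Statements.S0289
import Cfsg.Agent.Helper2.QCount

set_option autoImplicit false
open Cfsg

namespace Cfsg.Agent.S0289

/-- The hyperbolic quadratic form on F^(2m), m at least 1, has q^(2m-1) + q^m - q^(m-1) zeros (that is, (q^m - 1)(q^(m-1) + 1) non-zero isotropic vectors). -/
theorem result {F : Type*} [Field F] [Fintype F] {q : ℕ} (hF : Fintype.card F = q) (m : ℕ) (hm : 1 ≤ m) : Nat.card {v : Fin m ⊕ Fin m → F // Cfsg.quadFormPlus m F v = 0} = q ^ (2 * m - 1) + q ^ m - q ^ (m - 1) := by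
  classical
  have e1 : {v : Fin m ⊕ Fin m → F // Cfsg.quadFormPlus m F v = 0} ≃
      {p : (Fin m → F) × (Fin m → F) // ∑ i, p.1 i * p.2 i = 0} :=
    (Equiv.sumArrowEquivProdArrow (Fin m) (Fin m) F).subtypeEquiv (fun v => Iff.rfl)
  have e2 := Equiv.subtypeProdEquivSigmaSubtype
    (fun (x y : Fin m → F) => ∑ i, x i * y i = 0)
  rw [Nat.card_congr (e1.trans e2), Nat.card_sigma]
  have h0 : Nat.card {y : Fin m → F // ∑ i, (0 : Fin m → F) i * y i = 0}
      = Fintype.card F ^ m := by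
    have := Cfsg.Agent.Helper2.QCount.card_zero_pos (ι := Fin m) (fun s : F => s = 0) rfl
    rw [Fintype.card_fin] at this
    exact this
  have h1 : ∀ x : Fin m → F, x ≠ 0 →
      Nat.card {y : Fin m → F // ∑ i, x i * y i = 0} = Fintype.card F ^ (m - 1) := by
    intro x hx
    have := Cfsg.Agent.Helper2.QCount.card_ne x hx (fun s : F => s = 0) 0 (fun s => Iff.rfl)
    rw [Fintype.card_fin] at this
    exact this
  refine (Cfsg.Agent.Helper2.QCount.sum_split
    (fun x : Fin m → F => Nat.card {y : Fin m → F // ∑ i, x i * y i = 0}) _ _ h0 h1).trans ?_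
  rw [Fintype.card_fin, hF]
  have hq0 : 0 < q := by rw [← hF]; exact Fintype.card_pos
  have ha : 1 ≤ q ^ (m - 1) := Nat.one_le_pow _ _ hq0
  have hP : q ^ (2 * m - 1) = q ^ m * q ^ (m - 1) := by
    rw [← pow_add]; congr 1; omega
  rw [hP, Nat.sub_mul, one_mul]
  have : q ^ (m - 1) ≤ q ^ m * q ^ (m - 1) := Nat.le_mul_of_pos_left _ (pow_pos hq0 m)
  omega

end Cfsg.Agent.S0289
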