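import Cfsg.Statements.S0286
import Mathlib
import Cfsg.Agent.S0287
-- import your own Cfsg.Agent.* helpers here

set_option autoImplicit false
open Cfsg

namespace Cfsg.Agent.S0286


open Cfsg.Agent.S0287

universe u

section baseO

variable {F : Type*} [Field F]

/-- Value distribution of the one-dimensional form `z ↦ z²`. -/
noncomputable def n0O (F : Type*) [Field F] (x : F) : ℕ := Nat.card {z : F // z * z = x}

theorem n0O_zero : n0O F 0 = 1 := by
  unfold n0O
  rw [Nat.card_eq_one_iff_unique]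
  exact ⟨⟨fun a b => Subtype.ext (by rw [mul_self_eq_zero.1 a.2, mul_self_eq_zero.1 b.2])⟩,
    ⟨⟨0, mul_zero 0⟩⟩⟩

theorem n0O_one [Fintype F] (h2 : (2 : F) ≠ 0) : n0O F 1 = 2 := by
  classical
  unfold n0O
  rw [Nat.card_eq_fintype_card, Fintype.card_subtype]
  have h1 : (Finset.univ.filter (fun z : F => z * z = 1)) = {1, -1} := by
    ext z
    simp [mul_self_eq_one_iff]
  have hne : (1 : F) ≠ -1 := by
    intro h
    apply h2
    linear_combination h
  rw [h1, Finset.card_pair hne]

theorem baseO_vd [Fintype F] {W : Type u} [AddCommGroup W] [Module F W] [Finite W]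
    (B : LinearMap.BilinForm F W) (Q : W → F) (h : IsQS B Q)
    (hW : Nat.card W = Fintype.card F ^ 1)
    (hne : Nonempty (Frame B Q (fun _ : Fin 1 => (1 : F)) (fun _ _ => 2) 0)) (x : F) :
    Nat.card {w : W // Q w = x} = n0O F x := by
  obtain ⟨⟨⟨e, f, w⟩, hfr⟩⟩ := hne
  have hw : Q (w 0) = 1 := hfr.2.2.2.2.2.1 0
  have hw0 : w 0 ≠ 0 := by
    intro h0
    rw [h0, h.zero] at hw
    exact zero_ne_one hw
  have hinj : Function.Injective (fun a : F => a • w 0) := smul_left_injective F hw0
  have hbij : Function.Bijective (fun a : F => a • w 0) :=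
    hinj.bijective_of_nat_card_le (by rw [hW, pow_one, Nat.card_eq_fintype_card])
  have e1 : {a : F // a * a = x} ≃ {w' : W // Q w' = x} :=
    (Equiv.ofBijective _ hbij).subtypeEquiv (fun a => by
      show a * a = x ↔ Q (a • w 0) = x
      rw [h.smul, hw, mul_one])
  exact (Nat.card_congr e1).symm

theorem baseO_card {W : Type u} [AddCommGroup W] [Module F W]
    (B : LinearMap.BilinForm F W) (Q : W → F) (h : IsQS B Q) :
    Nat.card (Frame B Q (fun _ : Fin 1 => (1 : F)) (fun _ _ => 2) 0)
      = Nat.card {w : W // Q w = 1} := by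
  apply Nat.card_congr
  exact
    { toFun := fun t => ⟨t.1.2.2 0, t.2.2.2.2.2.2.1 0⟩
      invFun := fun w => ⟨(Fin.elim0, Fin.elim0, fun _ => w.1),
        ⟨fun i => i.elim0, fun i => i.elim0, fun i => i.elim0⟩, fun i => i.elim0,
        fun i => i.elim0, fun i => i.elim0, fun i => i.elim0, fun _ => w.2,
        fun _ _ => by rw [h.self, w.2, mul_one]⟩
      left_inv := fun t => Subtype.ext (Prod.ext (funext fun i => i.elim0)
        (Prod.ext (funext fun i => i.elim0) (funext fun j => by rw [Subsingleton.elim j 0])))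
      right_inv := fun w => rfl }

theorem NkO (F : Type*) [Field F] [Fintype F] (k : ℕ) :
    Nk F 1 (n0O F) k 0 = Fintype.card F ^ (2 * k) := by
  obtain ⟨a, ha⟩ : ∃ a, Fintype.card F = a + 1 :=
    ⟨Fintype.card F - 1, by have := Fintype.card_pos (α := F); omega⟩
  induction k with
  | zero => rw [Nk_zero, n0O_zero, mul_zero, pow_zero]
  | succ k ih =>
    rw [Nk_succ, ih, ha, Nat.add_sub_cancel]
    ring

theorem prodO (q m : ℕ) :
    ∏ i ∈ Finset.range m, ((q ^ (2 * (i + 1)) - 1) * q ^ (1 + 2 * i))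
      = q ^ (m ^ 2) * ∏ i ∈ Finset.range m, (q ^ (2 * (i + 1)) - 1) := by
  induction m with
  | zero => simp
  | succ m ih =>
    rw [Finset.prod_range_succ, ih, Finset.prod_range_succ (fun i => q ^ (2 * (i + 1)) - 1)]
    have h2 : q ^ ((m + 1) ^ 2) = q ^ (m ^ 2) * q ^ (1 + 2 * m) := by
      rw [← pow_add]
      congr 1
      ring
    rw [h2]
    ring

end baseO

section odd

variable (m : ℕ) (F : Type*) [Field F]

/-- Polar form of `quadFormOdd`. -/
def BsO : LinearMap.BilinForm F (Unit ⊕ (Fin m ⊕ Fin m) → F) :=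
  LinearMap.mk₂ F (fun x y => 2 * x (.inl ()) * y (.inl ()) + ∑ i : Fin m,
      (x (.inr (.inl i)) * y (.inr (.inr i)) + x (.inr (.inr i)) * y (.inr (.inl i))))
    (by
      intro x x' y
      simp only [Pi.add_apply]
      rw [add_add_add_comm, ← Finset.sum_add_distrib]
      congr 1
      · ring
      · exact Finset.sum_congr rfl (fun i _ => by ring))
    (by
      intro a x y
      simp only [Pi.smul_apply, smul_eq_mul, mul_add, Finset.mul_sum]
      congr 1
      · ring
      · exact Finset.sum_congr rfl (fun i _ => by ring))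
    (by
      intro x y y'
      simp only [Pi.add_apply]
      rw [add_add_add_comm, ← Finset.sum_add_distrib]
      congr 1
      · ring
      · exact Finset.sum_congr rfl (fun i _ => by ring))
    (by
      intro a x y
      simp only [Pi.smul_apply, smul_eq_mul, mul_add, Finset.mul_sum]
      congr 1
      · ring
      · exact Finset.sum_congr rfl (fun i _ => by ring))

theorem BsO_apply (x y : Unit ⊕ (Fin m ⊕ Fin m) → F) :
    BsO m F x y = 2 * x (.inl ()) * y (.inl ()) + ∑ i : Fin m,
      (x (.inr (.inl i)) * y (.inr (.inr i)) + x (.inr (.inr i)) * y (.inr (.inl i))) := rfl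

theorem BsO_single_zero (x : Unit ⊕ (Fin m ⊕ Fin m) → F) :
    BsO m F x (Pi.single (.inl ()) 1) = 2 * x (.inl ()) := by
  rw [BsO_apply, Finset.sum_eq_zero]
  · simp
  · intro i _
    simp

theorem BsO_single_inl (x : Unit ⊕ (Fin m ⊕ Fin m) → F) (j : Fin m) :
    BsO m F x (Pi.single (.inr (.inl j)) 1) = x (.inr (.inr j)) := by
  rw [BsO_apply, Finset.sum_eq_single j]
  · simp
  · intro i _ hij
    simp [hij]
  · intro h
    exact absurd (Finset.mem_univ j) h

theorem BsO_single_inr (x : Unit ⊕ (Fin m ⊕ Fin m) → F) (j : Fin m) :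
    BsO m F x (Pi.single (.inr (.inr j)) 1) = x (.inr (.inl j)) := by
  rw [BsO_apply, Finset.sum_eq_single j]
  · simp
  · intro i _ hij
    simp [hij]
  · intro h
    exact absurd (Finset.mem_univ j) h

theorem odd_add (x y : Unit ⊕ (Fin m ⊕ Fin m) → F) :
    quadFormOdd m F (x + y) = quadFormOdd m F x + quadFormOdd m F y + BsO m F x y := by
  rw [BsO_apply]
  unfold quadFormOdd
  simp only [Pi.add_apply]
  have h1 : ∑ i : Fin m, (x (.inr (.inl i)) + y (.inr (.inl i)))
        * (x (.inr (.inr i)) + y (.inr (.inr i)))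
      = ∑ i : Fin m, x (.inr (.inl i)) * x (.inr (.inr i))
        + ∑ i : Fin m, y (.inr (.inl i)) * y (.inr (.inr i))
        + ∑ i : Fin m, (x (.inr (.inl i)) * y (.inr (.inr i))
          + x (.inr (.inr i)) * y (.inr (.inl i))) := by
    rw [← Finset.sum_add_distrib, ← Finset.sum_add_distrib]
    exact Finset.sum_congr rfl (fun i _ => by ring)
  rw [h1]
  ring

theorem odd_smul (a : F) (x : Unit ⊕ (Fin m ⊕ Fin m) → F) :
    quadFormOdd m F (a • x) = a * a * quadFormOdd m F x := by
  unfold quadFormOdd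
  simp only [Pi.smul_apply, smul_eq_mul, mul_add, Finset.mul_sum]
  congr 1
  · ring
  · exact Finset.sum_congr rfl (fun i _ => by ring)

theorem odd_sep (h2 : (2 : F) ≠ 0) (x : Unit ⊕ (Fin m ⊕ Fin m) → F)
    (h : ∀ y, BsO m F x y = 0) : x = 0 := by
  funext a
  rcases a with u | i | i
  · have h1 := h (Pi.single (.inl ()) 1)
    rw [BsO_single_zero] at h1
    exact (mul_eq_zero.1 h1).resolve_left h2
  · have h1 := h (Pi.single (.inr (.inr i)) 1)
    rwa [BsO_single_inr] at h1
  · have h1 := h (Pi.single (.inr (.inl i)) 1)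
    rwa [BsO_single_inl] at h1

theorem odd_qs (h2 : (2 : F) ≠ 0) : IsQS (BsO m F) (quadFormOdd m F) :=
  ⟨odd_add m F, odd_smul m F, nd_of_sep _ (odd_sep m F h2)⟩

theorem odd_single_zero : quadFormOdd m F (Pi.single (.inl ()) 1) = 1 := by
  unfold quadFormOdd
  rw [Finset.sum_eq_zero]
  · simp
  · intro i _
    simp

theorem odd_single_inr (a : Fin m ⊕ Fin m) : quadFormOdd m F (Pi.single (.inr a) 1) = 0 := by
  unfold quadFormOdd
  rw [Finset.sum_eq_zero]
  · simp
  · intro i _
    rcases a with j | j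
    · simp
    · simp

/-- The index equivalence for the standard frame of the odd-dimensional form. -/
def σO : Fin m ⊕ (Fin m ⊕ Fin 1) ≃ Unit ⊕ (Fin m ⊕ Fin m) where
  toFun := Sum.elim (fun i => .inr (.inl i)) (Sum.elim (fun i => .inr (.inr i)) (fun _ => .inl ()))
  invFun := Sum.elim (fun _ => .inr (.inr 0)) (Sum.elim (fun i => .inl i) (fun i => .inr (.inl i)))
  left_inv := by
    rintro (i | i | j)
    · rfl
    · rfl
    · show Sum.inr (Sum.inr 0) = Sum.inr (Sum.inr j)
      rw [Subsingleton.elim j 0]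
  right_inv := by
    rintro (_ | i | i) <;> rfl

theorem odd_std : IsFrame (BsO m F) (quadFormOdd m F) (fun _ : Fin 1 => (1 : F))
    (fun _ _ => 2) m
    (fun i => Pi.single (σO m (.inl i)) 1) (fun i => Pi.single (σO m (.inr (.inl i))) 1)
    (fun j => Pi.single (σO m (.inr (.inr j))) 1) := by
  refine ⟨⟨fun i j => ?_, fun i j => ?_, fun i j => ?_⟩, fun i => odd_single_inr m F _,
    fun i => odd_single_inr m F _, fun i j => ?_, fun i j => ?_, fun j => odd_single_zero m F,
    fun j j' => ?_⟩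
  · show BsO m F (Pi.single (Sum.inr (Sum.inl i)) 1) (Pi.single (Sum.inr (Sum.inr j)) 1) = _
    rw [BsO_single_inr, Pi.single_apply]
    simp only [Sum.inr.injEq, Sum.inl.injEq]
    by_cases h : i = j
    · rw [if_pos h, if_pos h.symm]
    · rw [if_neg h, if_neg (Ne.symm h)]
  · show BsO m F (Pi.single (Sum.inr (Sum.inl i)) 1) (Pi.single (Sum.inr (Sum.inl j)) 1) = _
    rw [BsO_single_inl, Pi.single_apply]
    simp
  · show BsO m F (Pi.single (Sum.inr (Sum.inr i)) 1) (Pi.single (Sum.inr (Sum.inr j)) 1) = _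
    rw [BsO_single_inr, Pi.single_apply]
    simp
  · show BsO m F (Pi.single (Sum.inr (Sum.inl i)) 1) (Pi.single (Sum.inl ()) 1) = _
    rw [BsO_single_zero, Pi.single_apply]
    simp
  · show BsO m F (Pi.single (Sum.inr (Sum.inr i)) 1) (Pi.single (Sum.inl ()) 1) = _
    rw [BsO_single_zero, Pi.single_apply]
    simp
  · show BsO m F (Pi.single (Sum.inl ()) 1) (Pi.single (Sum.inl ()) 1) = _
    rw [BsO_single_zero, Pi.single_apply]
    simp

end odd


/-- |GO_{2m+1}(q)| = 2 q^(m^2) prod_{i=1}^{m} (q^(2i) - 1) for q odd. -/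
theorem result {F : Type*} [Field F] [Fintype F] {q : ℕ} (hF : Fintype.card F = q) (hodd : Odd q) (m : ℕ) : Nat.card (Cfsg.isometryGroup F (Cfsg.quadFormOdd m F)) = 2 * q ^ (m ^ 2) * ∏ i ∈ Finset.range m, (q ^ (2 * (i + 1)) - 1) := by
  classical
  subst hF
  have h2 : (2 : F) ≠ 0 := by
    intro h20
    have hch : ringChar F = 2 :=
      CharP.ringChar_of_prime_eq_zero Nat.prime_two (by exact_mod_cast h20)
    have hev := FiniteField.even_card_of_char_two hch
    rcases hodd with ⟨t, ht⟩
    omega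
  have hQS := odd_qs m F h2
  have hstd := odd_std m F
  have hV : Nat.card (Unit ⊕ (Fin m ⊕ Fin m) → F) = Fintype.card F ^ (1 + 2 * m) := by
    rw [Nat.card_eq_fintype_card, Fintype.card_fun, Fintype.card_sum, Fintype.card_sum,
      Fintype.card_fin, Fintype.card_unit]
    congr 1
    ring
  have hne : Nonempty (Frame (BsO m F) (quadFormOdd m F) (fun _ : Fin 1 => (1 : F))
      (fun _ _ => 2) m) := ⟨⟨(_, _, _), hstd⟩⟩
  have hN := vd_of_frame F (fun _ : Fin 1 => (1 : F)) (fun _ _ => 2) 1 (n0O F)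
    (fun B Q h hW hne x => baseO_vd B Q h hW hne x) m (BsO m F) (quadFormOdd m F) hQS hV hne
  have e1 := card_iso (quadFormOdd m F) (BsO m F) hQS.add hQS.smul (odd_sep m F h2)
  have e2 := card_gram_frame (quadFormOdd m F) (BsO m F) hQS.symm (fun _ : Fin 1 => (1 : F))
    (fun _ _ => 2) (σO m) hstd
  have e3 := count_frames F (fun _ : Fin 1 => (1 : F)) (fun _ _ => 2) 1 (n0O F) 2
    (fun B Q h _ hN => (baseO_card B Q h).trans ((hN 1).trans (n0O_one h2))) m (BsO m F)
    (quadFormOdd m F) hQS hV hN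
  have e4 : ∏ i ∈ Finset.range m,
      ((Nk F 1 (n0O F) (i + 1) 0 - 1) * Fintype.card F ^ (1 + 2 * i))
      = Fintype.card F ^ (m ^ 2) * ∏ i ∈ Finset.range m, (Fintype.card F ^ (2 * (i + 1)) - 1) := by
    rw [← prodO]
    exact Finset.prod_congr rfl (fun i _ => by rw [NkO])
  rw [e4] at e3
  rw [e1, e2, e3]
  ring


end Cfsg.Agent.S0286
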