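import Cfsg.Statements.S0283
import Mathlib
import Cfsg.Agent.Helper8.SUSimple

set_option autoImplicit false
open Cfsg

namespace Cfsg.Agent.S0283

/-- PSU_n(q) is simple for n at least 3 and (n, q) other than (3, 2). -/
theorem result {F : Type*} [Field F] [Fintype F] {q : ℕ} (hF : Fintype.card F = q ^ 2) (n : ℕ) (hn : 3 ≤ n) (h : ¬ (n = 3 ∧ q = 2)) : IsSimpleGroup (Cfsg.PSU n F q) := by
  classical
  haveI : Finite F := Finite.of_fintype F
  have hq := Helper8.SULag.qf_of_card hF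
  haveI : Nontrivial (Cfsg.PSU n F q) := by
    obtain ⟨g, hg⟩ := Helper8.SUNd.exists_not_central (n := n) hq (by omega)
    exact nontrivial_of_ne (g : Cfsg.PSU n F q) 1
      (fun h1 => hg ((QuotientGroup.eq_one_iff g).mp h1))
  apply IsSimpleGroup.mk
  intro Nbar hNbar
  obtain ⟨N, hN⟩ : ∃ N : Subgroup ↥(Cfsg.SU n F q), N = Nbar.comap
      (QuotientGroup.mk' (Subgroup.center ↥(Cfsg.SU n F q))) := ⟨_, rfl⟩
  haveI hNn : N.Normal := by
    rw [hN]
    exact hNbar.comap _
  have hmem : ∀ g : ↥(Cfsg.SU n F q), g ∈ N ↔ (g : Cfsg.PSU n F q) ∈ Nbar := by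
    intro g
    rw [hN]
    exact Iff.rfl
  by_cases hfix : ∀ M ∈ N, ∀ u : Fin n → F, Cfsg.hermForm n F q u u = 0 → ∃ c : F,
      ((Helper8.SUNd.suGL n F q M : Matrix.GeneralLinearGroup (Fin n) F) :
        Matrix (Fin n) (Fin n) F).mulVec u = c • u
  · left
    rw [Subgroup.eq_bot_iff_forall]
    intro x hx
    obtain ⟨g, rfl⟩ := QuotientGroup.mk_surjective x
    have hgN : g ∈ N := (hmem g).mpr hx
    rw [QuotientGroup.eq_one_iff]
    exact Helper8.SUNd.central_of_iso_scalar hq (by omega) g (hfix g hgN)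
  · right
    push Not at hfix
    obtain ⟨M₀, hM₀, u, huu, hnot⟩ := hfix
    have htop := Helper8.SUNd.normal_eq_top hF hn h N hM₀ huu hnot
    rw [eq_top_iff]
    intro x _
    obtain ⟨g, rfl⟩ := QuotientGroup.mk_surjective x
    exact (hmem g).mp (by rw [htop]; exact Subgroup.mem_top g)

end Cfsg.Agent.S0283
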