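import Cfsg.Statements.S0288
import Mathlib
import Cfsg.Agent.S0287
import Cfsg.Agent.S2618
-- import your own Cfsg.Agent.* helpers here

set_option autoImplicit false
open Cfsg

namespace Cfsg.Agent.S0288


open Cfsg.Agent.S0287

universe u


section binary

variable {F : Type*} [Field F] (a b : F)

/-- The binary form `z₁² + a z₁ z₂ + b z₂²`. -/
def nrm (p : F × F) : F := p.1 ^ 2 + a * p.1 * p.2 + b * p.2 ^ 2

/-- Multiplication of the quadratic algebra with norm `nrm`. -/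
def bmul (p r : F × F) : F × F :=
  (p.1 * r.1 - b * p.2 * r.2, p.1 * r.2 + p.2 * r.1 + a * p.2 * r.2)

theorem nrm_bmul (p r : F × F) : nrm a b (bmul a b p r) = nrm a b p * nrm a b r := by
  unfold nrm bmul
  ring

theorem bmul_sub (p r r' : F × F) : bmul a b p (r - r') = bmul a b p r - bmul a b p r' := by
  unfold bmul
  apply Prod.ext
  · simp only [Prod.fst_sub, Prod.snd_sub]
    ring
  · simp only [Prod.fst_sub, Prod.snd_sub]
    ring

theorem nrm_zero : nrm a b (0 : F × F) = 0 := by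
  unfold nrm
  simp

variable {a b}

theorem nrm_eq_zero (hab : ∀ z₁ z₂ : F, z₁ ^ 2 + a * z₁ * z₂ + b * z₂ ^ 2 = 0 → z₁ = 0 ∧ z₂ = 0)
    (p : F × F) (hp : nrm a b p = 0) : p = 0 :=
  Prod.ext (hab p.1 p.2 hp).1 (hab p.1 p.2 hp).2

/-- Value distribution of the binary form. -/
noncomputable def n0M (a b : F) (x : F) : ℕ := Nat.card {p : F × F // nrm a b p = x}

theorem n0M_zero (hab : ∀ z₁ z₂ : F, z₁ ^ 2 + a * z₁ * z₂ + b * z₂ ^ 2 = 0 → z₁ = 0 ∧ z₂ = 0) :
    n0M a b 0 = 1 := by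
  unfold n0M
  rw [Nat.card_eq_one_iff_unique]
  exact ⟨⟨fun p r => Subtype.ext (by rw [nrm_eq_zero hab p.1 p.2, nrm_eq_zero hab r.1 r.2])⟩,
    ⟨⟨0, nrm_zero a b⟩⟩⟩

theorem bmul_bij [Finite F]
    (hab : ∀ z₁ z₂ : F, z₁ ^ 2 + a * z₁ * z₂ + b * z₂ ^ 2 = 0 → z₁ = 0 ∧ z₂ = 0)
    (u : F × F) (hu : nrm a b u ≠ 0) : Function.Bijective (bmul a b u) := by
  apply Finite.injective_iff_bijective.1
  intro r r' h
  have h1 : bmul a b u (r - r') = 0 := by rw [bmul_sub, h, sub_self]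
  have h2 : nrm a b u * nrm a b (r - r') = 0 := by rw [← nrm_bmul, h1, nrm_zero]
  have h3 := nrm_eq_zero hab _ ((mul_eq_zero.1 h2).resolve_left hu)
  exact sub_eq_zero.1 h3

theorem n0M_scale [Finite F]
    (hab : ∀ z₁ z₂ : F, z₁ ^ 2 + a * z₁ * z₂ + b * z₂ ^ 2 = 0 → z₁ = 0 ∧ z₂ = 0)
    (u : F × F) (hu : nrm a b u ≠ 0) (x : F) : n0M a b (nrm a b u * x) = n0M a b x := by
  unfold n0M
  refine (Nat.card_congr ((Equiv.ofBijective _ (bmul_bij hab u hu)).subtypeEquiv
    (fun r => ?_))).symm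
  show nrm a b r = x ↔ nrm a b (bmul a b u r) = nrm a b u * x
  rw [nrm_bmul]
  exact (mul_right_inj' hu).symm

theorem nrm_repr [Finite F]
    (hab : ∀ z₁ z₂ : F, z₁ ^ 2 + a * z₁ * z₂ + b * z₂ ^ 2 = 0 → z₁ = 0 ∧ z₂ = 0)
    (c : F) : ∃ u : F × F, nrm a b u = c := by
  obtain ⟨x, y, z, hne, h⟩ := S2618.cw3 (1 : F) b (-c) a 0 0
  have hz : z ≠ 0 := by
    intro hz
    rw [hz] at h hne
    have h1 := hab x y (by linear_combination h)
    rcases hne with h2 | h2 | h2
    · exact h2 h1.1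
    · exact h2 h1.2
    · exact h2 rfl
  refine ⟨(x / z, y / z), ?_⟩
  unfold nrm
  field_simp
  linear_combination h

theorem n0M_one [Fintype F]
    (hab : ∀ z₁ z₂ : F, z₁ ^ 2 + a * z₁ * z₂ + b * z₂ ^ 2 = 0 → z₁ = 0 ∧ z₂ = 0) :
    n0M a b 1 = Fintype.card F + 1 := by
  classical
  have hconst : ∀ c : F, c ≠ 0 → n0M a b c = n0M a b 1 := by
    intro c hc
    obtain ⟨u, hu⟩ := nrm_repr hab c
    have h1 := n0M_scale hab u (by rw [hu]; exact hc) 1
    rw [hu, mul_one] at h1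
    exact h1
  have hsum : ∑ x : F, n0M a b x = Fintype.card F * Fintype.card F := by
    have h1 := Nat.card_congr (Equiv.sigmaFiberEquiv (nrm a b))
    rw [Nat.card_sigma, Nat.card_prod, Nat.card_eq_fintype_card] at h1
    exact h1
  rw [← Finset.add_sum_erase Finset.univ _ (Finset.mem_univ (0 : F)), n0M_zero hab,
    Finset.sum_congr rfl (fun x hx => hconst x (Finset.ne_of_mem_erase hx)), Finset.sum_const,
    Finset.card_erase_of_mem (Finset.mem_univ _), Finset.card_univ, smul_eq_mul] at hsum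
  have hq : 2 ≤ Fintype.card F := Fintype.one_lt_card
  obtain ⟨t, ht⟩ : ∃ t, Fintype.card F = t + 2 := ⟨Fintype.card F - 2, by omega⟩
  rw [ht] at hsum ⊢
  have h5 : t + 2 - 1 = t + 1 := rfl
  rw [h5] at hsum
  have h6 : (t + 1) * n0M a b 1 = (t + 1) * (t + 2 + 1) := by
    have h7 : (t + 2) * (t + 2) = 1 + (t + 1) * (t + 2 + 1) := by ring
    omega
  exact Nat.eq_of_mul_eq_mul_left (by omega) h6

end binary


section partner

variable {F : Type*} [Field F] [Fintype F]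

theorem a_ne_of_two (h2 : (2 : F) = 0) {a b : F}
    (hab : ∀ z₁ z₂ : F, z₁ ^ 2 + a * z₁ * z₂ + b * z₂ ^ 2 = 0 → z₁ = 0 ∧ z₂ = 0) : a ≠ 0 := by
  intro ha
  have hch : ringChar F = 2 :=
    CharP.ringChar_of_prime_eq_zero Nat.prime_two (by exact_mod_cast h2)
  obtain ⟨c, hc⟩ := FiniteField.isSquare_of_char_two hch b
  have h1 := hab c 1 (by rw [ha, hc]; linear_combination (c * c) * h2)
  exact one_ne_zero h1.2

theorem partner_odd (h2 : (2 : F) ≠ 0) (β γ a b : F)
    (h1 : ∀ z₁ z₂ : F, z₁ ^ 2 + β * z₁ * z₂ + γ * z₂ ^ 2 = 0 → z₁ = 0 ∧ z₂ = 0)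
    (hab : ∀ z₁ z₂ : F, z₁ ^ 2 + a * z₁ * z₂ + b * z₂ ^ 2 = 0 → z₁ = 0 ∧ z₂ = 0) :
    ∃ r : F, r ≠ 0 ∧ a ^ 2 - 4 * b = r ^ 2 * (β ^ 2 - 4 * γ) := by
  classical
  have hns : ∀ a b : F,
      (∀ z₁ z₂ : F, z₁ ^ 2 + a * z₁ * z₂ + b * z₂ ^ 2 = 0 → z₁ = 0 ∧ z₂ = 0) →
      ¬ IsSquare (a ^ 2 - 4 * b) := by
    rintro a b hab ⟨d, hd⟩
    obtain ⟨s, hs⟩ : ∃ s : F, 2 * s = -a + d := ⟨(-a + d) / 2, mul_div_cancel₀ _ h2⟩
    have h4 : (4 : F) ≠ 0 := by
      have h5 : (4 : F) = 2 * 2 := by norm_num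
      rw [h5]
      exact mul_ne_zero h2 h2
    have h3 := hab s 1 (mul_left_cancel₀ h4 (by
      linear_combination (2 * s + a + d) * hs - hd))
    exact one_ne_zero h3.2
  have hD1 := hns a b hab
  have hD2 := hns β γ h1
  have hD1' : a ^ 2 - 4 * b ≠ 0 := fun h => hD1 (by rw [h]; exact IsSquare.zero)
  have hD2' : β ^ 2 - 4 * γ ≠ 0 := fun h => hD2 (by rw [h]; exact IsSquare.zero)
  have hχ : quadraticChar F ((a ^ 2 - 4 * b) * (β ^ 2 - 4 * γ)) = 1 := by
    rw [map_mul, quadraticChar_neg_one_iff_not_isSquare.2 hD1,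
      quadraticChar_neg_one_iff_not_isSquare.2 hD2]
    norm_num
  obtain ⟨e, he⟩ := (quadraticChar_one_iff_isSquare (mul_ne_zero hD1' hD2')).1 hχ
  have he0 : e ≠ 0 := by
    intro h0
    rw [h0, mul_zero] at he
    exact mul_ne_zero hD1' hD2' he
  refine ⟨e / (β ^ 2 - 4 * γ), div_ne_zero he0 hD2', ?_⟩
  field_simp
  linear_combination he

/-- The Artin–Schreier map in characteristic two. -/
def wp (h2 : (2 : F) = 0) : F →+ F :=
  AddMonoidHom.mk' (fun x => x * x + x) (by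
    intro x y
    linear_combination (x * y) * h2)

theorem wp_apply (h2 : (2 : F) = 0) (x : F) : wp h2 x = x * x + x := rfl

theorem wp_index (h2 : (2 : F) = 0) : (wp h2).range.index = 2 := by
  classical
  rw [AddSubgroup.index_range]
  have e1 : ↥(wp h2).ker ≃ {x : F // x * x + x = 0} :=
    Equiv.subtypeEquivRight (fun x => AddMonoidHom.mem_ker)
  rw [Nat.card_congr e1, Nat.card_eq_fintype_card, Fintype.card_subtype]
  have h1 : (Finset.univ.filter (fun x : F => x * x + x = 0)) = {0, -1} := by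
    ext x
    simp only [Finset.mem_filter, Finset.mem_univ, true_and, Finset.mem_insert,
      Finset.mem_singleton]
    constructor
    · intro hx
      have h3 : x * (x + 1) = 0 := by linear_combination hx
      rcases mul_eq_zero.1 h3 with h | h
      · exact Or.inl h
      · exact Or.inr (eq_neg_of_add_eq_zero_left h)
    · rintro (h | h)
      · rw [h]
        ring
      · rw [h]
        ring
  rw [h1, Finset.card_pair]
  intro h
  have h3 : (1 : F) = 0 := by linear_combination h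
  exact one_ne_zero h3

theorem wp_not_mem (h2 : (2 : F) = 0) {a b : F}
    (hab : ∀ z₁ z₂ : F, z₁ ^ 2 + a * z₁ * z₂ + b * z₂ ^ 2 = 0 → z₁ = 0 ∧ z₂ = 0) :
    b / a ^ 2 ∉ (wp h2).range := by
  have ha := a_ne_of_two h2 hab
  rintro ⟨u, hu⟩
  rw [wp_apply] at hu
  have h3 : a ^ 2 * (u * u + u) = b := by
    rw [hu]
    field_simp
  have h4 := hab (a * u) 1 (by linear_combination h3 + b * h2)
  exact one_ne_zero h4.2

theorem partner_count (β γ a b : F)
    (h1 : ∀ z₁ z₂ : F, z₁ ^ 2 + β * z₁ * z₂ + γ * z₂ ^ 2 = 0 → z₁ = 0 ∧ z₂ = 0)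
    (hab : ∀ z₁ z₂ : F, z₁ ^ 2 + a * z₁ * z₂ + b * z₂ ^ 2 = 0 → z₁ = 0 ∧ z₂ = 0) :
    Nat.card {p : F × F // p.1 ^ 2 + β * p.1 * p.2 + γ * p.2 ^ 2 = b ∧ 2 * p.1 + β * p.2 = a}
      = 2 := by
  classical
  rw [Nat.card_eq_fintype_card, Fintype.card_subtype]
  by_cases h2 : (2 : F) = 0
  · have ha := a_ne_of_two h2 hab
    have hβ := a_ne_of_two h2 h1
    have hmem : γ / β ^ 2 + b / a ^ 2 ∈ (wp h2).range :=
      (AddSubgroup.add_mem_iff_of_index_two (wp_index h2)).2
        ⟨fun h => absurd h (wp_not_mem h2 h1), fun h => absurd h (wp_not_mem h2 hab)⟩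
    obtain ⟨u, hu⟩ := hmem
    rw [wp_apply] at hu
    obtain ⟨t0, ht0', ht0⟩ : ∃ t0 : F, t0 = a / β ∧ β * t0 = a :=
      ⟨a / β, rfl, mul_div_cancel₀ _ hβ⟩
    have hv : a ^ 2 * (u * u + u) = γ * t0 ^ 2 + b := by
      rw [hu, ht0']
      field_simp
    have hset : Finset.univ.filter (fun p : F × F =>
        p.1 ^ 2 + β * p.1 * p.2 + γ * p.2 ^ 2 = b ∧ 2 * p.1 + β * p.2 = a)
        = {(a * u, t0), (a * (u + 1), t0)} := by
      ext ⟨s, t⟩
      simp only [Finset.mem_filter, Finset.mem_univ, true_and, Finset.mem_insert,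
        Finset.mem_singleton, Prod.mk.injEq]
      constructor
      · rintro ⟨e1, e2⟩
        have ht : t = t0 := mul_left_cancel₀ hβ (by linear_combination e2 - ht0 - s * h2)
        subst ht
        have h5 : (s - a * u) * (s - a * (u + 1)) = 0 := by
          linear_combination e1 + hv - s * ht0 - (a * s + a * u * s - b) * h2
        rcases mul_eq_zero.1 h5 with h | h
        · exact Or.inl ⟨sub_eq_zero.1 h, rfl⟩
        · exact Or.inr ⟨sub_eq_zero.1 h, rfl⟩
      · rintro (⟨hs, ht⟩ | ⟨hs, ht⟩)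
        · subst hs
          subst ht
          exact ⟨by linear_combination hv + (a * u) * ht0 + (γ * t ^ 2) * h2,
            by linear_combination ht0 + (a * u) * h2⟩
        · subst hs
          subst ht
          exact ⟨by linear_combination hv + (a * (u + 1)) * ht0
              + (γ * t ^ 2 + a ^ 2 * (u + 1)) * h2,
            by linear_combination ht0 + (a * (u + 1)) * h2⟩
    rw [hset, Finset.card_pair]
    intro h
    have h3 := congrArg Prod.fst h
    have h4 : a = 0 := by linear_combination -h3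
    exact ha h4
  · obtain ⟨r, hr0, hr⟩ := partner_odd h2 β γ a b h1 hab
    obtain ⟨s1, hs1⟩ : ∃ s1 : F, 2 * s1 = a - β * r := ⟨(a - β * r) / 2, mul_div_cancel₀ _ h2⟩
    obtain ⟨s2, hs2⟩ : ∃ s2 : F, 2 * s2 = a + β * r := ⟨(a + β * r) / 2, mul_div_cancel₀ _ h2⟩
    have h4 : (4 : F) ≠ 0 := by
      have h5 : (4 : F) = 2 * 2 := by norm_num
      rw [h5]
      exact mul_ne_zero h2 h2
    have hD2 : β ^ 2 - 4 * γ ≠ 0 := by
      intro h0
      rw [h0, mul_zero] at hr
      have h6 := hab (-a) 2 (by linear_combination (-1 : F) * hr)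
      exact h2 h6.2
    have hset : Finset.univ.filter (fun p : F × F =>
        p.1 ^ 2 + β * p.1 * p.2 + γ * p.2 ^ 2 = b ∧ 2 * p.1 + β * p.2 = a)
        = {(s1, r), (s2, -r)} := by
      ext ⟨s, t⟩
      simp only [Finset.mem_filter, Finset.mem_univ, true_and, Finset.mem_insert,
        Finset.mem_singleton, Prod.mk.injEq]
      constructor
      · rintro ⟨e1, e2⟩
        have ht : (t - r) * (t + r) = 0 := by
          refine (mul_eq_zero.1 (?_ : (β ^ 2 - 4 * γ) * ((t - r) * (t + r)) = 0)).resolve_left hD2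
          linear_combination (2 * s + β * t + a) * e2 - 4 * e1 + hr
        rcases mul_eq_zero.1 ht with h | h
        · have htr : t = r := sub_eq_zero.1 h
          subst htr
          exact Or.inl ⟨mul_left_cancel₀ h2 (by linear_combination e2 - hs1), rfl⟩
        · have htr : t = -r := eq_neg_of_add_eq_zero_left h
          subst htr
          exact Or.inr ⟨mul_left_cancel₀ h2 (by linear_combination e2 - hs2), rfl⟩
      · rintro (⟨hs, ht⟩ | ⟨hs, ht⟩)
        · subst hs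
          subst ht
          exact ⟨mul_left_cancel₀ h4 (by linear_combination (2 * s + β * t + a) * hs1 + hr),
            by linear_combination hs1⟩
        · subst hs
          subst ht
          exact ⟨mul_left_cancel₀ h4 (by linear_combination (2 * s - β * r + a) * hs2 + hr),
            by linear_combination hs2⟩
    rw [hset, Finset.card_pair]
    intro h
    have h3 := congrArg Prod.snd h
    have h5 : (2 : F) * r = 0 := by linear_combination h3
    exact hr0 ((mul_eq_zero.1 h5).resolve_left h2)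

end partner

section baseM

variable {F : Type*} [Field F] [Fintype F] {a b : F}

theorem baseM_vd {W : Type u} [AddCommGroup W] [Module F W] [Finite W]
    (hab : ∀ z₁ z₂ : F, z₁ ^ 2 + a * z₁ * z₂ + b * z₂ ^ 2 = 0 → z₁ = 0 ∧ z₂ = 0)
    (B : LinearMap.BilinForm F W) (Q : W → F) (h : IsQS B Q)
    (hW : Nat.card W = Fintype.card F ^ 2)
    (hne : Nonempty (Frame B Q ![1, b] ![![2, a], ![a, 2 * b]] 0)) (x : F) :
    Nat.card {w : W // Q w = x} = n0M a b x := by
  obtain ⟨⟨⟨e, f, w⟩, hfr⟩⟩ := hne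
  have hw0 : Q (w 0) = 1 := hfr.2.2.2.2.2.1 0
  have hw1 : Q (w 1) = b := hfr.2.2.2.2.2.1 1
  have hw01 : B (w 0) (w 1) = a := hfr.2.2.2.2.2.2 0 1
  have hQ : ∀ p : F × F, Q (p.1 • w 0 + p.2 • w 1) = nrm a b p := by
    intro p
    rw [h.add, h.smul, h.smul, hw0, hw1]
    simp only [map_smul, LinearMap.smul_apply, smul_eq_mul, hw01]
    unfold nrm
    ring
  have hinj : Function.Injective (fun p : F × F => p.1 • w 0 + p.2 • w 1) := by
    intro p p' hpp
    have h4 : p.1 • w 0 + p.2 • w 1 = p'.1 • w 0 + p'.2 • w 1 := hpp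
    have h3 : (p - p').1 • w 0 + (p - p').2 • w 1 = 0 := by
      rw [Prod.fst_sub, Prod.snd_sub, sub_smul, sub_smul]
      rw [← sub_eq_zero] at h4
      rw [← h4]
      abel
    have h5 : nrm a b (p - p') = 0 := by rw [← hQ, h3, h.zero]
    exact sub_eq_zero.1 (nrm_eq_zero hab _ h5)
  have hbij : Function.Bijective (fun p : F × F => p.1 • w 0 + p.2 • w 1) :=
    hinj.bijective_of_nat_card_le (by
      rw [hW, Nat.card_prod, Nat.card_eq_fintype_card, sq])
  have e1 : {p : F × F // nrm a b p = x} ≃ {w' : W // Q w' = x} :=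
    (Equiv.ofBijective _ hbij).subtypeEquiv (fun p => by
      show nrm a b p = x ↔ Q (p.1 • w 0 + p.2 • w 1) = x
      rw [hQ])
  exact (Nat.card_congr e1).symm

theorem baseM_fiber {W : Type u} [AddCommGroup W] [Module F W] [Finite W]
    (hab : ∀ z₁ z₂ : F, z₁ ^ 2 + a * z₁ * z₂ + b * z₂ ^ 2 = 0 → z₁ = 0 ∧ z₂ = 0)
    (B : LinearMap.BilinForm F W) (Q : W → F) (h : IsQS B Q)
    (hW : Nat.card W = Fintype.card F ^ 2)
    (hN : ∀ x, Nat.card {w : W // Q w = x} = n0M a b x) (w1 : W) (hw1 : Q w1 = 1) :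
    Nat.card {w2 : W // Q w2 = b ∧ B w1 w2 = a} = 2 := by
  have haniso : ∀ w : W, Q w = 0 → w = 0 := by
    intro w hw
    have h1 := hN 0
    rw [n0M_zero hab, Nat.card_eq_one_iff_unique] at h1
    have h2 : (⟨w, hw⟩ : {w : W // Q w = 0}) = ⟨0, h.zero⟩ := h1.1.elim _ _
    exact congrArg Subtype.val h2
  have hw10 : w1 ≠ 0 := by
    intro h0
    rw [h0, h.zero] at hw1
    exact zero_ne_one hw1
  have hq : 2 ≤ Fintype.card F := Fintype.one_lt_card
  obtain ⟨y, hy⟩ : ∃ y : W, ∀ s : F, s • w1 ≠ y := by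
    by_contra hcon
    push Not at hcon
    have hsurj : Function.Surjective (fun s : F => s • w1) := hcon
    have h1 := Nat.card_le_card_of_surjective _ hsurj
    rw [hW, Nat.card_eq_fintype_card] at h1
    nlinarith
  have hker : ∀ s t : F, s • w1 + t • y = 0 → s = 0 ∧ t = 0 := by
    intro s t hst
    have ht : t = 0 := by
      by_contra ht
      apply hy (-(s / t))
      have h1 : t • y = -(s • w1) := eq_neg_of_add_eq_zero_right hst
      calc (-(s / t)) • w1 = t⁻¹ • (-(s • w1)) := by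
            rw [neg_smul, smul_neg, smul_smul, div_eq_inv_mul]
        _ = t⁻¹ • (t • y) := by rw [h1]
        _ = y := by rw [smul_smul, inv_mul_cancel₀ ht, one_smul]
    subst ht
    rw [zero_smul, add_zero] at hst
    exact ⟨(smul_eq_zero.1 hst).resolve_right hw10, rfl⟩
  have hQ : ∀ p : F × F,
      Q (p.1 • w1 + p.2 • y) = p.1 ^ 2 + B w1 y * p.1 * p.2 + Q y * p.2 ^ 2 := by
    intro p
    rw [h.add, h.smul, h.smul, hw1]
    simp only [map_smul, LinearMap.smul_apply, smul_eq_mul]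
    ring
  have hB : ∀ p : F × F, B w1 (p.1 • w1 + p.2 • y) = 2 * p.1 + B w1 y * p.2 := by
    intro p
    rw [map_add, map_smul, map_smul, h.self, hw1]
    simp only [smul_eq_mul]
    ring
  have h1 : ∀ z₁ z₂ : F, z₁ ^ 2 + B w1 y * z₁ * z₂ + Q y * z₂ ^ 2 = 0 → z₁ = 0 ∧ z₂ = 0 := by
    intro z₁ z₂ hz
    have h3 : Q (z₁ • w1 + z₂ • y) = 0 := (hQ (z₁, z₂)).trans hz
    exact hker z₁ z₂ (haniso _ h3)
  have hinj : Function.Injective (fun p : F × F => p.1 • w1 + p.2 • y) := by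
    intro p p' hpp
    have h4 : p.1 • w1 + p.2 • y = p'.1 • w1 + p'.2 • y := hpp
    have h3 : (p.1 - p'.1) • w1 + (p.2 - p'.2) • y = 0 := by
      rw [sub_smul, sub_smul]
      rw [← sub_eq_zero] at h4
      rw [← h4]
      abel
    have h5 := hker _ _ h3
    exact Prod.ext (sub_eq_zero.1 h5.1) (sub_eq_zero.1 h5.2)
  have hbij : Function.Bijective (fun p : F × F => p.1 • w1 + p.2 • y) :=
    hinj.bijective_of_nat_card_le (by
      rw [hW, Nat.card_prod, Nat.card_eq_fintype_card, sq])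
  have e3 : {p : F × F // p.1 ^ 2 + B w1 y * p.1 * p.2 + Q y * p.2 ^ 2 = b
        ∧ 2 * p.1 + B w1 y * p.2 = a} ≃ {w2 : W // Q w2 = b ∧ B w1 w2 = a} :=
    (Equiv.ofBijective _ hbij).subtypeEquiv (fun p => by
      show _ ↔ Q (p.1 • w1 + p.2 • y) = b ∧ B w1 (p.1 • w1 + p.2 • y) = a
      rw [hQ, hB])
  rw [← Nat.card_congr e3]
  exact partner_count _ _ a b h1 hab

theorem baseM_card {W : Type u} [AddCommGroup W] [Module F W] [Finite W]
    (hab : ∀ z₁ z₂ : F, z₁ ^ 2 + a * z₁ * z₂ + b * z₂ ^ 2 = 0 → z₁ = 0 ∧ z₂ = 0)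
    (B : LinearMap.BilinForm F W) (Q : W → F) (h : IsQS B Q)
    (hW : Nat.card W = Fintype.card F ^ 2)
    (hN : ∀ x, Nat.card {w : W // Q w = x} = n0M a b x) :
    Nat.card (Frame B Q ![1, b] ![![2, a], ![a, 2 * b]] 0) = 2 * (Fintype.card F + 1) := by
  classical
  have e1 : Frame B Q ![1, b] ![![2, a], ![a, 2 * b]] 0
      ≃ {p : W × W // Q p.1 = 1 ∧ Q p.2 = b ∧ B p.1 p.2 = a} :=
    { toFun := fun t => ⟨(t.1.2.2 0, t.1.2.2 1), t.2.2.2.2.2.2.1 0, t.2.2.2.2.2.2.1 1,
        t.2.2.2.2.2.2.2 0 1⟩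
      invFun := fun p => ⟨(Fin.elim0, Fin.elim0, ![p.1.1, p.1.2]),
        ⟨fun i => i.elim0, fun i => i.elim0, fun i => i.elim0⟩, fun i => i.elim0,
        fun i => i.elim0, fun i => i.elim0, fun i => i.elim0,
        Fin.forall_fin_two.2 ⟨p.2.1, p.2.2.1⟩,
        Fin.forall_fin_two.2 ⟨Fin.forall_fin_two.2 ⟨by
            show B p.1.1 p.1.1 = 2
            rw [h.self, p.2.1, mul_one], p.2.2.2⟩,
          Fin.forall_fin_two.2 ⟨by
            show B p.1.2 p.1.1 = a
            rw [h.symm, p.2.2.2], by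
            show B p.1.2 p.1.2 = 2 * b
            rw [h.self, p.2.2.1]⟩⟩⟩
      left_inv := fun t => Subtype.ext (Prod.ext (funext fun i => i.elim0)
        (Prod.ext (funext fun i => i.elim0) (funext (Fin.forall_fin_two.2 ⟨rfl, rfl⟩))))
      right_inv := fun p => rfl }
  have e2 : {p : W × W // Q p.1 = 1 ∧ Q p.2 = b ∧ B p.1 p.2 = a}
      ≃ Σ w1 : {w : W // Q w = 1}, {w2 : W // Q w2 = b ∧ B w1.1 w2 = a} :=
    { toFun := fun p => ⟨⟨p.1.1, p.2.1⟩, ⟨p.1.2, p.2.2.1, p.2.2.2⟩⟩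
      invFun := fun s => ⟨(s.1.1, s.2.1), s.1.2, s.2.2.1, s.2.2.2⟩
      left_inv := fun p => rfl
      right_inv := fun s => rfl }
  haveI : Fintype {w : W // Q w = 1} := Fintype.ofFinite _
  rw [Nat.card_congr (e1.trans e2), Nat.card_sigma,
    Finset.sum_congr rfl (fun w _ => baseM_fiber hab B Q h hW hN w.1 w.2), Finset.sum_const,
    Finset.card_univ, smul_eq_mul, ← Nat.card_eq_fintype_card, hN 1, n0M_one hab, mul_comm]

theorem NkM (F : Type*) [Field F] [Fintype F] (n₀ : F → ℕ) (h0 : n₀ 0 = 1) (j : ℕ) :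
    Nk F 2 n₀ (j + 1) 0
      = (Fintype.card F ^ (j + 2) + 1) * (Fintype.card F ^ (j + 1) - 1) + 1 := by
  have hq : 1 ≤ Fintype.card F := Fintype.card_pos
  induction j with
  | zero =>
    rw [Nk_succ, Nk_zero, h0]
    have h2 : 1 ≤ Fintype.card F ^ (0 + 1) := Nat.one_le_pow _ _ hq
    zify [hq, h2]
    ring
  | succ j ih =>
    rw [Nk_succ, ih]
    have h2 : 1 ≤ Fintype.card F ^ (j + 1) := Nat.one_le_pow _ _ hq
    have h3 : 1 ≤ Fintype.card F ^ (j + 1 + 1) := Nat.one_le_pow _ _ hq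
    zify [hq, h2, h3]
    ring

theorem prodM (q : ℕ) (hq : 1 ≤ q) (n : ℕ) :
    2 * (q + 1) * ∏ i ∈ Finset.range n,
        (((q ^ (i + 2) + 1) * (q ^ (i + 1) - 1) + 1 - 1) * q ^ (2 + 2 * i))
      = 2 * q ^ ((n + 1) * n) * (q ^ (n + 1) + 1)
        * ∏ i ∈ Finset.range n, (q ^ (2 * (i + 1)) - 1) := by
  induction n with
  | zero => simp
  | succ n ih =>
    rw [Finset.prod_range_succ, ← mul_assoc, ih,
      Finset.prod_range_succ (fun i => q ^ (2 * (i + 1)) - 1)]
    have h1 : (q ^ (n + 1) + 1) * (q ^ (n + 1) - 1) = q ^ (2 * (n + 1)) - 1 := by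
      obtain ⟨c, hc⟩ : ∃ c, q ^ (n + 1) = c + 1 :=
        ⟨q ^ (n + 1) - 1, by have := Nat.one_le_pow (n + 1) q hq; omega⟩
      rw [show q ^ (2 * (n + 1)) = q ^ (n + 1) * q ^ (n + 1) by ring, hc, Nat.add_sub_cancel]
      have h5 : (c + 1) * (c + 1) = (c + 1 + 1) * c + 1 := by ring
      rw [h5, Nat.add_sub_cancel]
    have h2 : q ^ ((n + 1) * n) * q ^ (2 + 2 * n) = q ^ ((n + 1 + 1) * (n + 1)) := by
      rw [← pow_add]
      congr 1
      ring
    rw [Nat.add_sub_cancel, ← h1, ← h2]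
    ring

end baseM

section minus

variable (m : ℕ) (F : Type*) [Field F] (a b : F)

/-- Polar form of `quadFormMinus`. -/
def BsM : LinearMap.BilinForm F ((Fin m ⊕ Fin m) ⊕ Fin 2 → F) :=
  LinearMap.mk₂ F (fun x y => ∑ i : Fin m,
      (x (.inl (.inl i)) * y (.inl (.inr i)) + x (.inl (.inr i)) * y (.inl (.inl i)))
      + (2 * x (.inr 0) * y (.inr 0) + a * (x (.inr 0) * y (.inr 1) + x (.inr 1) * y (.inr 0))
        + 2 * b * x (.inr 1) * y (.inr 1)))
    (by
      intro x x' y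
      simp only [Pi.add_apply]
      rw [add_add_add_comm, ← Finset.sum_add_distrib]
      congr 1
      · exact Finset.sum_congr rfl (fun i _ => by ring)
      · ring)
    (by
      intro c x y
      simp only [Pi.smul_apply, smul_eq_mul, mul_add, Finset.mul_sum]
      congr 1
      · exact Finset.sum_congr rfl (fun i _ => by ring)
      · ring)
    (by
      intro x y y'
      simp only [Pi.add_apply]
      rw [add_add_add_comm, ← Finset.sum_add_distrib]
      congr 1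
      · exact Finset.sum_congr rfl (fun i _ => by ring)
      · ring)
    (by
      intro c x y
      simp only [Pi.smul_apply, smul_eq_mul, mul_add, Finset.mul_sum]
      congr 1
      · exact Finset.sum_congr rfl (fun i _ => by ring)
      · ring)

theorem BsM_apply (x y : (Fin m ⊕ Fin m) ⊕ Fin 2 → F) :
    BsM m F a b x y = ∑ i : Fin m,
      (x (.inl (.inl i)) * y (.inl (.inr i)) + x (.inl (.inr i)) * y (.inl (.inl i)))
      + (2 * x (.inr 0) * y (.inr 0) + a * (x (.inr 0) * y (.inr 1) + x (.inr 1) * y (.inr 0))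
        + 2 * b * x (.inr 1) * y (.inr 1)) := rfl

theorem BsM_single_inl (x : (Fin m ⊕ Fin m) ⊕ Fin 2 → F) (j : Fin m) :
    BsM m F a b x (Pi.single (.inl (.inl j)) 1) = x (.inl (.inr j)) := by
  rw [BsM_apply, Finset.sum_eq_single j]
  · simp
  · intro i _ hij
    simp [hij]
  · intro h
    exact absurd (Finset.mem_univ j) h

theorem BsM_single_inr (x : (Fin m ⊕ Fin m) ⊕ Fin 2 → F) (j : Fin m) :
    BsM m F a b x (Pi.single (.inl (.inr j)) 1) = x (.inl (.inl j)) := by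
  rw [BsM_apply, Finset.sum_eq_single j]
  · simp
  · intro i _ hij
    simp [hij]
  · intro h
    exact absurd (Finset.mem_univ j) h

theorem BsM_single_zero (x : (Fin m ⊕ Fin m) ⊕ Fin 2 → F) :
    BsM m F a b x (Pi.single (.inr 0) 1) = 2 * x (.inr 0) + a * x (.inr 1) := by
  rw [BsM_apply, Finset.sum_eq_zero]
  · simp
  · intro i _
    simp

theorem BsM_single_one (x : (Fin m ⊕ Fin m) ⊕ Fin 2 → F) :
    BsM m F a b x (Pi.single (.inr 1) 1) = a * x (.inr 0) + 2 * b * x (.inr 1) := by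
  rw [BsM_apply, Finset.sum_eq_zero]
  · simp
  · intro i _
    simp

theorem minus_add (x y : (Fin m ⊕ Fin m) ⊕ Fin 2 → F) :
    quadFormMinus m F a b (x + y)
      = quadFormMinus m F a b x + quadFormMinus m F a b y + BsM m F a b x y := by
  rw [BsM_apply]
  unfold quadFormMinus
  simp only [Pi.add_apply]
  have h1 : ∑ i : Fin m, (x (.inl (.inl i)) + y (.inl (.inl i)))
        * (x (.inl (.inr i)) + y (.inl (.inr i)))
      = ∑ i : Fin m, x (.inl (.inl i)) * x (.inl (.inr i))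
        + ∑ i : Fin m, y (.inl (.inl i)) * y (.inl (.inr i))
        + ∑ i : Fin m, (x (.inl (.inl i)) * y (.inl (.inr i))
          + x (.inl (.inr i)) * y (.inl (.inl i))) := by
    rw [← Finset.sum_add_distrib, ← Finset.sum_add_distrib]
    exact Finset.sum_congr rfl (fun i _ => by ring)
  rw [h1]
  ring

theorem minus_smul (c : F) (x : (Fin m ⊕ Fin m) ⊕ Fin 2 → F) :
    quadFormMinus m F a b (c • x) = c * c * quadFormMinus m F a b x := by
  unfold quadFormMinus
  simp only [Pi.smul_apply, smul_eq_mul, mul_add, Finset.mul_sum]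
  congr 1
  · exact Finset.sum_congr rfl (fun i _ => by ring)
  · ring

theorem minus_sep [Fintype F]
    (hab : ∀ z₁ z₂ : F, z₁ ^ 2 + a * z₁ * z₂ + b * z₂ ^ 2 = 0 → z₁ = 0 ∧ z₂ = 0)
    (x : (Fin m ⊕ Fin m) ⊕ Fin 2 → F) (h : ∀ y, BsM m F a b x y = 0) : x = 0 := by
  have e0 := h (Pi.single (.inr 0) 1)
  have e1 := h (Pi.single (.inr 1) 1)
  rw [BsM_single_zero] at e0
  rw [BsM_single_one] at e1
  have hx : x (.inr 0) = 0 ∧ x (.inr 1) = 0 := by
    by_cases h2 : (2 : F) = 0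
    · have ha := a_ne_of_two h2 hab
      constructor
      · exact (mul_eq_zero.1 (by linear_combination e1 - (b * x (.inr 1)) * h2 :
          a * x (.inr 0) = 0)).resolve_left ha
      · exact (mul_eq_zero.1 (by linear_combination e0 - (x (.inr 0)) * h2 :
          a * x (.inr 1) = 0)).resolve_left ha
    · apply hab
      apply mul_left_cancel₀ h2
      linear_combination x (.inr 0) * e0 + x (.inr 1) * e1
  funext c
  rcases c with (i | i) | j
  · have h1 := h (Pi.single (.inl (.inr i)) 1)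
    rwa [BsM_single_inr] at h1
  · have h1 := h (Pi.single (.inl (.inl i)) 1)
    rwa [BsM_single_inl] at h1
  · revert j
    exact Fin.forall_fin_two.2 ⟨hx.1, hx.2⟩

theorem minus_qs [Fintype F]
    (hab : ∀ z₁ z₂ : F, z₁ ^ 2 + a * z₁ * z₂ + b * z₂ ^ 2 = 0 → z₁ = 0 ∧ z₂ = 0) :
    IsQS (BsM m F a b) (quadFormMinus m F a b) :=
  ⟨minus_add m F a b, minus_smul m F a b, nd_of_sep _ (minus_sep m F a b hab)⟩

theorem minus_single_inl (c : Fin m ⊕ Fin m) :
    quadFormMinus m F a b (Pi.single (.inl c) 1) = 0 := by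
  unfold quadFormMinus
  rw [Finset.sum_eq_zero]
  · simp
  · intro i _
    rcases c with j | j
    · simp
    · simp

theorem minus_single_zero : quadFormMinus m F a b (Pi.single (.inr 0) 1) = 1 := by
  unfold quadFormMinus
  rw [Finset.sum_eq_zero]
  · simp
  · intro i _
    simp

theorem minus_single_one : quadFormMinus m F a b (Pi.single (.inr 1) 1) = b := by
  unfold quadFormMinus
  rw [Finset.sum_eq_zero]
  · simp
  · intro i _
    simp

/-- The index equivalence for the standard frame of the minus-type form. -/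
def σM : Fin m ⊕ (Fin m ⊕ Fin 2) ≃ (Fin m ⊕ Fin m) ⊕ Fin 2 where
  toFun := Sum.elim (fun i => .inl (.inl i)) (Sum.elim (fun i => .inl (.inr i)) (fun j => .inr j))
  invFun := Sum.elim (Sum.elim (fun i => .inl i) (fun i => .inr (.inl i)))
    (fun j => .inr (.inr j))
  left_inv := by
    rintro (i | i | j) <;> rfl
  right_inv := by
    rintro ((i | i) | j) <;> rfl

theorem minus_std : IsFrame (BsM m F a b) (quadFormMinus m F a b) ![1, b]
    ![![2, a], ![a, 2 * b]] m
    (fun i => Pi.single (σM m (.inl i)) 1) (fun i => Pi.single (σM m (.inr (.inl i))) 1)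
    (fun j => Pi.single (σM m (.inr (.inr j))) 1) := by
  refine ⟨⟨fun i j => ?_, fun i j => ?_, fun i j => ?_⟩, fun i => minus_single_inl m F a b _,
    fun i => minus_single_inl m F a b _, fun i => Fin.forall_fin_two.2 ⟨?_, ?_⟩,
    fun i => Fin.forall_fin_two.2 ⟨?_, ?_⟩,
    Fin.forall_fin_two.2 ⟨minus_single_zero m F a b, minus_single_one m F a b⟩,
    Fin.forall_fin_two.2 ⟨Fin.forall_fin_two.2 ⟨?_, ?_⟩, Fin.forall_fin_two.2 ⟨?_, ?_⟩⟩⟩
  · show BsM m F a b (Pi.single (Sum.inl (Sum.inl i)) 1) (Pi.single (Sum.inl (Sum.inr j)) 1) = _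
    rw [BsM_single_inr, Pi.single_apply]
    simp only [Sum.inl.injEq]
    by_cases h : i = j
    · rw [if_pos h, if_pos h.symm]
    · rw [if_neg h, if_neg (Ne.symm h)]
  · show BsM m F a b (Pi.single (Sum.inl (Sum.inl i)) 1) (Pi.single (Sum.inl (Sum.inl j)) 1) = _
    rw [BsM_single_inl, Pi.single_apply]
    simp
  · show BsM m F a b (Pi.single (Sum.inl (Sum.inr i)) 1) (Pi.single (Sum.inl (Sum.inr j)) 1) = _
    rw [BsM_single_inr, Pi.single_apply]
    simp
  · show BsM m F a b (Pi.single (Sum.inl (Sum.inl i)) 1) (Pi.single (Sum.inr 0) 1) = 0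
    rw [BsM_single_zero]
    simp
  · show BsM m F a b (Pi.single (Sum.inl (Sum.inl i)) 1) (Pi.single (Sum.inr 1) 1) = 0
    rw [BsM_single_one]
    simp
  · show BsM m F a b (Pi.single (Sum.inl (Sum.inr i)) 1) (Pi.single (Sum.inr 0) 1) = 0
    rw [BsM_single_zero]
    simp
  · show BsM m F a b (Pi.single (Sum.inl (Sum.inr i)) 1) (Pi.single (Sum.inr 1) 1) = 0
    rw [BsM_single_one]
    simp
  · show BsM m F a b (Pi.single (Sum.inr 0) 1) (Pi.single (Sum.inr 0) 1) = 2
    rw [BsM_single_zero]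
    simp
  · show BsM m F a b (Pi.single (Sum.inr 0) 1) (Pi.single (Sum.inr 1) 1) = a
    rw [BsM_single_one]
    simp
  · show BsM m F a b (Pi.single (Sum.inr 1) 1) (Pi.single (Sum.inr 0) 1) = a
    rw [BsM_single_zero]
    simp
  · show BsM m F a b (Pi.single (Sum.inr 1) 1) (Pi.single (Sum.inr 1) 1) = 2 * b
    rw [BsM_single_one]
    simp

end minus

theorem main {F : Type*} [Field F] [Fintype F] (n : ℕ) (a b : F)
    (hab : ∀ z₁ z₂ : F, z₁ ^ 2 + a * z₁ * z₂ + b * z₂ ^ 2 = 0 → z₁ = 0 ∧ z₂ = 0) :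
    Nat.card (isometryGroup F (quadFormMinus n F a b))
      = 2 * Fintype.card F ^ ((n + 1) * n) * (Fintype.card F ^ (n + 1) + 1)
        * ∏ i ∈ Finset.range n, (Fintype.card F ^ (2 * (i + 1)) - 1) := by
  classical
  have hQS : IsQS (BsM n F a b) (quadFormMinus n F a b) := minus_qs n F a b hab
  have hstd := minus_std n F a b
  have hV : Nat.card ((Fin n ⊕ Fin n) ⊕ Fin 2 → F) = Fintype.card F ^ (2 + 2 * n) := by
    rw [Nat.card_eq_fintype_card, Fintype.card_fun, Fintype.card_sum, Fintype.card_sum,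
      Fintype.card_fin, Fintype.card_fin]
    congr 1
    ring
  have hne : Nonempty (Frame (BsM n F a b) (quadFormMinus n F a b) ![1, b]
      ![![2, a], ![a, 2 * b]] n) := ⟨⟨(_, _, _), hstd⟩⟩
  have hN := vd_of_frame F ![1, b] ![![2, a], ![a, 2 * b]] 2 (n0M a b)
    (fun B Q h hW hne x => baseM_vd hab B Q h hW hne x) n (BsM n F a b)
    (quadFormMinus n F a b) hQS hV hne
  have e1 := card_iso (quadFormMinus n F a b) (BsM n F a b) hQS.add hQS.smul
    (minus_sep n F a b hab)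
  have e2 := card_gram_frame (quadFormMinus n F a b) (BsM n F a b) hQS.symm ![1, b]
    ![![2, a], ![a, 2 * b]] (σM n) hstd
  have e3 := count_frames F ![1, b] ![![2, a], ![a, 2 * b]] 2 (n0M a b)
    (2 * (Fintype.card F + 1)) (fun B Q h hW hN => baseM_card hab B Q h hW hN) n
    (BsM n F a b) (quadFormMinus n F a b) hQS hV hN
  have e4 : 2 * (Fintype.card F + 1) * ∏ i ∈ Finset.range n,
      ((Nk F 2 (n0M a b) (i + 1) 0 - 1) * Fintype.card F ^ (2 + 2 * i))
      = 2 * Fintype.card F ^ ((n + 1) * n) * (Fintype.card F ^ (n + 1) + 1)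
        * ∏ i ∈ Finset.range n, (Fintype.card F ^ (2 * (i + 1)) - 1) := by
    rw [← prodM _ Fintype.card_pos n]
    congr 1
    exact Finset.prod_congr rfl (fun i _ => by rw [NkM F _ (n0M_zero hab)])
  rw [e1, e2, e3, e4]


/-- |GO^-_{2m}(q)| = 2 q^(m(m-1)) (q^m + 1) prod_{i=1}^{m-1} (q^(2i) - 1), m at least 1, all q; the form is quadFormMinus (m-1) with an anisotropic binary part. -/
theorem result {F : Type*} [Field F] [Fintype F] {q : ℕ} (hF : Fintype.card F = q) (m : ℕ) (hm : 1 ≤ m) (a b : F) (hab : ∀ z₁ z₂ : F, z₁ ^ 2 + a * z₁ * z₂ + b * z₂ ^ 2 = 0 → z₁ = 0 ∧ z₂ = 0) : Nat.card (Cfsg.isometryGroup F (Cfsg.quadFormMinus (m - 1) F a b)) = 2 * q ^ (m * (m - 1)) * (q ^ m + 1) * ∏ i ∈ Finset.range (m - 1), (q ^ (2 * (i + 1)) - 1) := by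
  obtain ⟨n, rfl⟩ : ∃ n, m = n + 1 := ⟨m - 1, by omega⟩
  subst hF
  exact main n a b hab


end Cfsg.Agent.S0288
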