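import Cfsg.Statements.S1013
import Mathlib

set_option autoImplicit false
open Cfsg

namespace Cfsg.Agent.S1013

/-- A group acting transitively on a set of prime size `p` has order divisible by `p`. -/
theorem dvd_card_of_trans {α : Type*} [Fintype α] {p : ℕ} (hα : Fintype.card α = p) (hp : p.Prime)
    (H : Type*) [Group H] [MulAction H α] [MulAction.IsPretransitive H α] : p ∣ Nat.card H := by
  have hpos : 0 < Fintype.card α := by rw [hα]; exact hp.pos
  obtain ⟨a⟩ : Nonempty α := Fintype.card_pos_iff.mp hpos
  have h1 := MulAction.index_stabilizer_of_transitive H a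
  rw [Nat.card_eq_fintype_card, hα] at h1
  rw [← h1]
  exact Subgroup.index_dvd_card _

/-- A nontrivial normal subgroup of a transitive group of prime degree `p` has order divisible
by `p`. -/
theorem dvd_card_of_normal {α : Type*} [Fintype α] [DecidableEq α] {p : ℕ} [Fact p.Prime]
    (hα : Fintype.card α = p) (G : Subgroup (Equiv.Perm α)) [MulAction.IsPretransitive ↥G α]
    (K : Subgroup ↥G) [K.Normal] (hK : K ≠ ⊥) : p ∣ Nat.card K := by
  have hp : Nat.Prime (Nat.card α) := by
    rw [Nat.card_eq_fintype_card, hα]; exact Fact.out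
  have : MulAction.IsPreprimitive ↥G α := MulAction.IsPreprimitive.of_prime_card hp
  obtain ⟨k, hk1⟩ := (Subgroup.ne_bot_iff_exists_ne_one (H := K)).mp hK
  have hfix : MulAction.fixedPoints K α ≠ Set.univ := by
    intro h
    apply hk1
    apply Subtype.ext
    apply Subtype.ext
    apply Equiv.ext
    intro a
    have ha : a ∈ MulAction.fixedPoints K α := by rw [h]; trivial
    exact ha k
  have : MulAction.IsPretransitive K α :=
    MulAction.IsQuasiPreprimitive.isPretransitive_of_normal hfix
  exact dvd_card_of_trans hα Fact.out K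

/-- Let G be a transitive permutation group of prime degree p having more than one Sylow p-subgroup, and suppose a Sylow p-subgroup P has prime index in its normalizer. Then G is simple. -/
theorem result {α : Type*} [Fintype α] [DecidableEq α] {p : ℕ} [Fact p.Prime] (hα : Fintype.card α = p) (G : Subgroup (Equiv.Perm α)) [MulAction.IsPretransitive ↥G α] (P : Sylow p ↥G) (hn : 1 < Nat.card (Sylow p ↥G)) (ht : (((P : Subgroup ↥G).subgroupOf (Subgroup.normalizer ((P : Subgroup ↥G) : Set ↥G))).index).Prime) : IsSimpleGroup ↥G := by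
  classical
  have hp : p.Prime := Fact.out
  have hGfact : Nat.card G ∣ p.factorial := by
    have h1 : Nat.card G ∣ Nat.card (Equiv.Perm α) := Subgroup.card_subgroup_dvd_card G
    rw [Nat.card_eq_fintype_card (α := Equiv.Perm α), Fintype.card_perm, hα] at h1
    exact h1
  have hpp : ¬ p * p ∣ Nat.card G := by
    intro h
    have h2 : p * p ∣ p.factorial := h.trans hGfact
    have h3 : p.factorial = p * (p - 1).factorial := by
      obtain ⟨m, rfl⟩ : ∃ m, p = m + 1 := ⟨p - 1, (Nat.succ_pred_eq_of_pos hp.pos).symm⟩
      rw [Nat.factorial_succ]; rfl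
    rw [h3] at h2
    have h4 : p ∣ (p - 1).factorial := Nat.dvd_of_mul_dvd_mul_left hp.pos h2
    have h5 := (hp.dvd_factorial).mp h4
    have := hp.pos
    omega
  have hpG : p ∣ Nat.card G := dvd_card_of_trans hα hp G
  have hPcard : Nat.card (P : Subgroup G) = p := by
    have h1 := P.card_eq_multiplicity
    have h2 : (Nat.card G).factorization p = 1 := by
      have hpos : 0 < (Nat.card G).factorization p :=
        hp.factorization_pos_of_dvd Nat.card_pos.ne' hpG
      have hlt : (Nat.card G).factorization p < 2 := by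
        by_contra hge
        push Not at hge
        apply hpp
        have : p ^ 2 ∣ Nat.card G := (pow_dvd_pow p hge).trans (Nat.ordProj_dvd _ _)
        rwa [pow_two] at this
      omega
    rw [h1, h2, pow_one]
  have hPcomm : ∀ x ∈ (P : Subgroup G), ∀ y ∈ (P : Subgroup G), x * y = y * x := by
    have : IsCyclic (P : Subgroup G) := isCyclic_of_prime_card hPcard
    intro x hx y hy
    have := IsCyclic.isMulCommutative (α := (P : Subgroup G))
    have h : (⟨x, hx⟩ : (P : Subgroup G)) * ⟨y, hy⟩ = ⟨y, hy⟩ * ⟨x, hx⟩ := mul_comm' _ _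
    exact congrArg Subtype.val h
  have : Nontrivial ↥G := by
    rw [← Finite.one_lt_card_iff_nontrivial]
    exact lt_of_lt_of_le hp.one_lt (Nat.le_of_dvd Nat.card_pos hpG)
  refine ⟨fun K hKn => ?_⟩
  by_cases hK : K = ⊥
  · exact Or.inl hK
  right
  have := hKn
  have hpK : p ∣ Nat.card K := dvd_card_of_normal hα G K hK
  have hidx : ¬ p ∣ K.index := by
    intro h
    apply hpp
    rw [← K.card_mul_index]
    exact Nat.mul_dvd_mul hpK h
  have hPK : (P : Subgroup G) ≤ K := by
    intro x hx
    have h1 : x ^ K.index ∈ K := K.pow_index_mem x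
    have h2 : orderOf x ∣ p := by
      have := orderOf_dvd_natCard (⟨x, hx⟩ : (P : Subgroup G))
      rw [hPcard] at this
      rwa [Subgroup.orderOf_mk] at this
    have h3 : Nat.Coprime K.index (orderOf x) := by
      rcases (Nat.dvd_prime hp).mp h2 with h | h
      · rw [h]; exact Nat.coprime_one_right _
      · rw [h]; exact (Nat.Coprime.symm ((Nat.Prime.coprime_iff_not_dvd hp).mpr hidx))
    obtain ⟨m, hm⟩ := exists_pow_eq_self_of_coprime h3
    rw [← hm]
    exact K.pow_mem h1 m
  have hfr : Subgroup.normalizer ((P : Subgroup G) : Set G) ⊔ K = ⊤ :=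
    Sylow.normalizer_sup_eq_top' P hPK
  set N : Subgroup G := Subgroup.normalizer ((P : Subgroup G) : Set G) with hN
  have hPN : (P : Subgroup G) ≤ N := Subgroup.le_normalizer
  have hmul : (P : Subgroup G).relIndex (N ⊓ K) * (N ⊓ K).relIndex N
      = (P : Subgroup G).relIndex N :=
    Subgroup.relIndex_mul_relIndex _ _ _ (le_inf hPN hPK) inf_le_left
  have ht' : ((P : Subgroup G).relIndex N).Prime := ht
  rw [← hmul] at ht'
  rcases (Nat.prime_mul_iff.mp ht') with ⟨_, h1⟩ | ⟨_, h1⟩
  · have h2 : N ≤ N ⊓ K := Subgroup.relIndex_eq_one.mp h1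
    have h3 : N ≤ K := h2.trans inf_le_right
    rw [← hfr]; exact (sup_eq_right.mpr h3).symm
  · exfalso
    have h2 : N ⊓ K ≤ (P : Subgroup G) := Subgroup.relIndex_eq_one.mp h1
    let PK : Sylow p ↥K := P.subtype hPK
    have hPKcoe : (PK : Subgroup K) = (P : Subgroup G).subgroupOf K := Sylow.coe_subtype P hPK
    have hPKmem : ∀ x : ↥K, x ∈ (PK : Subgroup K) ↔ (x : G) ∈ (P : Subgroup G) := by
      intro x
      rw [hPKcoe]
      exact Subgroup.mem_subgroupOf
    have hNC : Subgroup.normalizer ((PK : Subgroup K) : Set K)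
        ≤ Subgroup.centralizer ((PK : Subgroup K) : Set K) := by
      intro x hx
      have hxN : (x : G) ∈ N := by
        rw [hN, Subgroup.mem_normalizer_iff]
        intro h
        constructor
        · intro hh
          have := (Subgroup.mem_normalizer_iff.mp hx ⟨h, hPK hh⟩).mp ((hPKmem _).mpr hh)
          exact (hPKmem _).mp this
        · intro hh
          have hhK : h ∈ K := by
            have h1 : (x : G)⁻¹ * ((x : G) * h * (x : G)⁻¹) * (x : G) ∈ K :=
              K.mul_mem (K.mul_mem (K.inv_mem x.2) (hPK hh)) x.2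
            simpa [mul_assoc] using h1
          have := (Subgroup.mem_normalizer_iff.mp hx ⟨h, hhK⟩).mpr ((hPKmem _).mpr hh)
          exact (hPKmem _).mp this
      have hxP : (x : G) ∈ (P : Subgroup G) := h2 ⟨hxN, x.2⟩
      rw [Subgroup.mem_centralizer_iff]
      intro y hy
      have hyP := (hPKmem y).mp hy
      apply Subtype.ext
      exact hPcomm _ hyP _ hxP
    have hcomp : Subgroup.IsComplement' (MonoidHom.transferSylow PK hNC).ker (PK : Subgroup K) :=
      MonoidHom.ker_transferSylow_isComplement' PK hNC
    have hMp : ¬ p ∣ Nat.card (MonoidHom.transferSylow PK hNC).ker :=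
      MonoidHom.not_dvd_card_ker_transferSylow PK hNC
    set M : Subgroup ↥K := (MonoidHom.transferSylow PK hNC).ker with hM
    have hPKcard : Nat.card (PK : Subgroup K) = p := by
      rw [hPKcoe, Nat.card_congr (Subgroup.subgroupOfEquivOfLe hPK).toEquiv, hPcard]
    have hMidx : M.index = p := by rw [hcomp.symm.index_eq_card, hPKcard]
    have : M.Normal := MonoidHom.normal_ker _
    let M' : Subgroup ↥G := M.map K.subtype
    have hM'card : Nat.card M' = Nat.card M :=
      Subgroup.card_map_of_injective K.subtype_injective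
    have hM'n : M'.Normal := by
      constructor
      intro y hy g
      obtain ⟨m, hm, rfl⟩ := Subgroup.mem_map.mp hy
      let m' : ↥K := ⟨g * (m : G) * g⁻¹, hKn.conj_mem _ m.2 g⟩
      have hm'p : m' ^ p ∈ M := by
        have := M.pow_index_mem m'
        rwa [hMidx] at this
      have hmpow : (m : G) ^ Nat.card M = 1 := by
        have h := pow_card_eq_one' (G := M) (x := ⟨m, hm⟩)
        have h' : ((⟨m, hm⟩ : M) : K) ^ Nat.card M = 1 := by
          rw [← Subgroup.coe_pow, h]; rfl
        have h'' : ((m : K) : G) ^ Nat.card M = 1 := by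
          rw [← Subgroup.coe_pow, h']; rfl
        exact h''
      have hm'pow : m' ^ Nat.card M = 1 := by
        apply Subtype.ext
        show (g * (m : G) * g⁻¹) ^ Nat.card M = 1
        rw [conj_pow, hmpow]; group
      have hord : orderOf m' ∣ Nat.card M := orderOf_dvd_of_pow_eq_one hm'pow
      have hcop : Nat.Coprime p (orderOf m') := by
        have : Nat.Coprime p (Nat.card M) := (Nat.Prime.coprime_iff_not_dvd hp).mpr hMp
        exact Nat.Coprime.coprime_dvd_right hord this
      obtain ⟨j, hj⟩ := exists_pow_eq_self_of_coprime hcop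
      have hm'M : m' ∈ M := by rw [← hj]; exact M.pow_mem hm'p j
      exact Subgroup.mem_map.mpr ⟨m', hm'M, rfl⟩
    have hM'bot : M' = ⊥ := by
      by_contra hne
      have := dvd_card_of_normal hα G M' hne
      rw [hM'card] at this
      exact hMp this
    have hMbot : M = ⊥ :=
      (Subgroup.map_eq_bot_iff_of_injective M K.subtype_injective).mp hM'bot
    have hKcard : Nat.card K = p := by
      have h := hcomp.card_mul_card
      rw [hMbot, Subgroup.card_bot, one_mul, hPKcard] at h
      exact h.symm
    have hPeq : (P : Subgroup G) = K := by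
      apply Subgroup.eq_of_le_of_card_ge hPK
      rw [hKcard, hPcard]
    have hPnormal : (P : Subgroup G).Normal := by rw [hPeq]; exact hKn
    have : Unique (Sylow p G) := Sylow.unique_of_normal P hPnormal
    rw [Nat.card_unique] at hn
    exact lt_irrefl _ hn

end Cfsg.Agent.S1013
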