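import Cfsg.Statements.S0362
import Cfsg.Agent.Helper28.GolayPerm

set_option autoImplicit false
open Cfsg

namespace Cfsg.Agent.S0362

open Cfsg.Agent.Helper28.Golay

set_option maxRecDepth 100000 in
theorem qq : ∀ t t' : ZMod 23, ∑ i, qrWord t i * qrWord t' i = 0 := by decide +kernel

theorem q1 : ∀ t : ZMod 23, ∑ i, qrWord t i * (1 : GolayPt → ZMod 2) i = 0 := by decide +kernel

theorem oo : ∑ i, (1 : GolayPt → ZMod 2) i * (1 : GolayPt → ZMod 2) i = 0 := by decide +kernel

theorem gen_orth : ∀ g ∈ (Set.range qrWord ∪ {1} : Set (GolayPt → ZMod 2)),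
    ∀ g' ∈ (Set.range qrWord ∪ {1} : Set (GolayPt → ZMod 2)), ∑ i, g i * g' i = 0 := by
  rintro g (⟨t, rfl⟩ | hg) g' (⟨t', rfl⟩ | hg')
  · exact qq t t'
  · rw [Set.mem_singleton_iff] at hg'
    subst hg'
    exact q1 t
  · rw [Set.mem_singleton_iff] at hg
    subst hg
    rw [← q1 t']
    exact Finset.sum_congr rfl fun i _ => mul_comm _ _
  · rw [Set.mem_singleton_iff] at hg hg'
    subst hg hg'
    exact oo

theorem step (w : GolayPt → ZMod 2)
    (hw : ∀ g ∈ (Set.range qrWord ∪ {1} : Set (GolayPt → ZMod 2)), ∑ i, g i * w i = 0)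
    (v : GolayPt → ZMod 2) (hv : v ∈ golayCode) : ∑ i, v i * w i = 0 := by
  unfold golayCode at hv
  induction hv using Submodule.span_induction with
  | mem x hx => exact hw x hx
  | zero => simp
  | add x y _ _ hx hy =>
    simp only [Pi.add_apply, add_mul, Finset.sum_add_distrib, hx, hy, add_zero]
  | smul a x _ hx =>
    simp only [Pi.smul_apply, smul_eq_mul, mul_assoc, ← Finset.mul_sum, hx, mul_zero]

/-- The length-24 code is self-orthogonal: the dot product over ZMod 2 of any two of its words vanishes (with dimension 12 this makes it self-dual). -/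
theorem result (v w : Cfsg.GolayPt → ZMod 2) (hv : v ∈ Cfsg.golayCode) (hw : w ∈ Cfsg.golayCode) : ∑ i, v i * w i = 0 := by
  apply step w _ v hv
  intro g hg
  have h1 : ∑ i, w i * g i = 0 := step g (fun g' hg' => gen_orth g' hg' g hg) w hw
  rw [← h1]
  exact Finset.sum_congr rfl fun i _ => mul_comm _ _

end Cfsg.Agent.S0362
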