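import Cfsg.Statements.S5623
import Mathlib

set_option autoImplicit false
open Cfsg

namespace Cfsg.Agent.S5623

/-- binary words of length 24 -/
abbrev V : Type := Fin 24 → ZMod 2

theorem zmod2_eq_one : ∀ x : ZMod 2, x ≠ 0 → x = 1 := by decide

theorem wt_def (u : V) : hammingNorm u = (Finset.univ.filter (fun i => u i ≠ 0)).card := rfl

theorem wt_sub_le (u u' : V) : hammingNorm (u - u') ≤ hammingNorm u + hammingNorm u' := by
  rw [wt_def, wt_def, wt_def]
  refine le_trans (Finset.card_le_card ?_) (Finset.card_union_le _ _)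
  intro j hj
  simp only [Finset.mem_filter, Finset.mem_univ, true_and, Pi.sub_apply] at hj
  simp only [Finset.mem_union, Finset.mem_filter, Finset.mem_univ, true_and]
  by_contra hcon
  push Not at hcon
  apply hj
  rw [hcon.1, hcon.2, sub_self]

/-- two distinct words of weight at most 4 in the same coset -/
theorem F1 (C : Submodule (ZMod 2) V) (hmin : ∀ w ∈ C, w ≠ 0 → 8 ≤ hammingNorm w)
    (u u' : V) (hne : u ≠ u') (hC : u - u' ∈ C) (h4 : hammingNorm u ≤ 4)
    (h4' : hammingNorm u' ≤ 4) :
    hammingNorm u = 4 ∧ hammingNorm u' = 4 ∧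
      Disjoint (Finset.univ.filter (fun i => u i ≠ 0)) (Finset.univ.filter (fun i => u' i ≠ 0)) := by
  have h8 := hmin _ hC (sub_ne_zero.mpr hne)
  have hle := wt_sub_le u u'
  refine ⟨by omega, by omega, ?_⟩
  rw [Finset.disjoint_left]
  intro i hi hi'
  simp only [Finset.mem_filter, Finset.mem_univ, true_and] at hi hi'
  have hsub : Finset.univ.filter (fun j => (u - u') j ≠ 0) ⊆
      ((Finset.univ.filter (fun j => u j ≠ 0)) ∪ (Finset.univ.filter (fun j => u' j ≠ 0))).erase i := by
    intro j hj
    simp only [Finset.mem_filter, Finset.mem_univ, true_and, Pi.sub_apply] at hj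
    simp only [Finset.mem_erase, Finset.mem_union, Finset.mem_filter, Finset.mem_univ, true_and]
    constructor
    · rintro rfl
      apply hj
      rw [zmod2_eq_one _ hi, zmod2_eq_one _ hi', sub_self]
    · by_contra hcon
      push Not at hcon
      apply hj
      rw [hcon.1, hcon.2, sub_self]
  have hcard := Finset.card_le_card hsub
  have hmem : i ∈ (Finset.univ.filter (fun j => u j ≠ 0)) ∪ (Finset.univ.filter (fun j => u' j ≠ 0)) := by
    simp only [Finset.mem_union, Finset.mem_filter, Finset.mem_univ, true_and]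
    exact Or.inl hi
  rw [Finset.card_erase_of_mem hmem] at hcard
  have hun := Finset.card_union_le (Finset.univ.filter (fun j => u j ≠ 0))
    (Finset.univ.filter (fun j => u' j ≠ 0))
  rw [← wt_def, ← wt_def] at hun
  rw [← wt_def] at hcard
  have hpos : 0 < ((Finset.univ.filter (fun j => u j ≠ 0)) ∪
      (Finset.univ.filter (fun j => u' j ≠ 0))).card := Finset.card_pos.mpr ⟨i, hmem⟩
  omega

/-- words correspond to their supports -/
def suppEquiv : V ≃ Finset (Fin 24) where
  toFun u := Finset.univ.filter (fun i => u i ≠ 0)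
  invFun s := fun i => if i ∈ s then 1 else 0
  left_inv u := by
    funext i
    show (if i ∈ Finset.univ.filter (fun i => u i ≠ 0) then (1 : ZMod 2) else 0) = u i
    by_cases h : u i = 0
    · rw [if_neg (by simp [h]), h]
    · rw [if_pos (by simp [h])]
      exact (zmod2_eq_one _ h).symm
  right_inv s := by
    ext i
    simp only [Finset.mem_filter, Finset.mem_univ, true_and]
    by_cases h : i ∈ s
    · simp [h]
    · simp [h]

theorem card_wt_eq (j : ℕ) :
    (Finset.univ.filter (fun u : V => hammingNorm u = j)).card = Nat.choose 24 j := by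
  have h1 : (Finset.univ.filter (fun u : V => hammingNorm u = j)).card =
      (Finset.powersetCard j (Finset.univ : Finset (Fin 24))).card := by
    apply Finset.card_equiv suppEquiv
    intro u
    simp only [Finset.mem_filter, Finset.mem_univ, true_and, Finset.mem_powersetCard,
      Finset.subset_univ]
    rfl
  rw [h1, Finset.card_powersetCard, Finset.card_univ, Fintype.card_fin]

theorem card_wt_le3 : (Finset.univ.filter (fun u : V => hammingNorm u ≤ 3)).card = 2325 := by
  have hm : ((Finset.univ.filter (fun u : V => hammingNorm u ≤ 3) : Finset V) : Set V).MapsTo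
      (fun u : V => hammingNorm u) ((Finset.range 4 : Finset ℕ) : Set ℕ) := by
    intro u hu
    rw [Finset.mem_coe, Finset.mem_filter] at hu
    rw [Finset.mem_coe, Finset.mem_range]
    show hammingNorm u < 4
    omega
  rw [Finset.card_eq_sum_card_fiberwise hm]
  have h : ∀ b ∈ Finset.range 4,
      ((Finset.univ.filter (fun u : V => hammingNorm u ≤ 3)).filter
        (fun u => hammingNorm u = b)).card = Nat.choose 24 b := by
    intro b hb
    rw [← card_wt_eq b]
    refine congrArg Finset.card ?_
    ext u
    simp only [Finset.mem_filter, Finset.mem_univ, true_and]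
    simp only [Finset.mem_range] at hb
    constructor
    · exact fun h => h.2
    · exact fun h => ⟨by omega, h⟩
  rw [Finset.sum_congr rfl h]
  simp [Finset.sum_range_succ, Nat.choose]

theorem card_quot (C : Submodule (ZMod 2) V) (hdim : Module.finrank (ZMod 2) C = 12) :
    Nat.card (V ⧸ C) = 4096 := by
  have h1 := Submodule.card_eq_card_quotient_mul_card C
  have h2 : Nat.card V = 2 ^ 24 := by
    rw [Nat.card_eq_fintype_card]
    simp [V, ZMod.card]
  have h3 : Nat.card C = 2 ^ 12 := by
    have : Fintype C := Fintype.ofFinite C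
    rw [Nat.card_eq_fintype_card, Module.card_eq_pow_finrank (K := ZMod 2) (V := C), hdim]
    simp [ZMod.card]
  rw [h2, h3] at h1
  omega

theorem card_wt4 : (Finset.univ.filter (fun u : V => hammingNorm u = 4)).card = 10626 := by
  rw [card_wt_eq]
  simp [Nat.choose]

theorem main (C : Submodule (ZMod 2) V) (hdim : Module.finrank (ZMod 2) C = 12)
    (hmin : ∀ w ∈ C, w ≠ 0 → 8 ≤ hammingNorm w) (w : V) :
    (∃ u : V, (∀ u', (u' - w ∈ C ∧ hammingNorm u' ≤ 4) ↔ u' = u) ∧ hammingNorm u ≤ 3) ∨
    (∃ S : Finset V, S.card = 6 ∧ (∀ u, u ∈ S ↔ (u - w ∈ C ∧ hammingNorm u ≤ 4)) ∧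
      ∀ u ∈ S, hammingNorm u = 4 ∧ ∀ u' ∈ S, u ≠ u' →
        Disjoint (Finset.univ.filter (fun i => u i ≠ 0)) (Finset.univ.filter (fun i => u' i ≠ 0))) := by
  classical
  haveI : Fintype (V ⧸ C) := Fintype.ofFinite _
  set π : V → V ⧸ C := Submodule.Quotient.mk with hπdef
  have hπ : ∀ u u', π u = π u' ↔ u - u' ∈ C := fun u u' => Submodule.Quotient.eq C
  set A : Finset V := Finset.univ.filter (fun u => hammingNorm u ≤ 3) with hAdef
  set B : Finset V := Finset.univ.filter (fun u => hammingNorm u = 4) with hBdef
  have hA : A.card = 2325 := card_wt_le3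
  have hB : B.card = 10626 := card_wt4
  have memA : ∀ u, u ∈ A ↔ hammingNorm u ≤ 3 := fun u => by
    rw [hAdef, Finset.mem_filter]; simp
  have memB : ∀ u, u ∈ B ↔ hammingNorm u = 4 := fun u => by
    rw [hBdef, Finset.mem_filter]; simp
  have hinjA : Set.InjOn π (A : Set V) := by
    intro u hu u' hu' h
    rw [Finset.mem_coe, memA] at hu hu'
    by_contra hne
    have := F1 C hmin u u' hne ((hπ _ _).1 h) (by omega) (by omega)
    omega
  have hAimg : (A.image π).card = 2325 := by rw [Finset.card_image_of_injOn hinjA, hA]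
  have hdisj : Disjoint (A.image π) (B.image π) := by
    rw [Finset.disjoint_left]
    intro x hx hx'
    obtain ⟨u, hu, rfl⟩ := Finset.mem_image.1 hx
    obtain ⟨u', hu', h⟩ := Finset.mem_image.1 hx'
    rw [memA] at hu
    rw [memB] at hu'
    have hne : u ≠ u' := by
      rintro rfl
      omega
    have := F1 C hmin u u' hne ((hπ _ _).1 h.symm) (by omega) (by omega)
    omega
  have hfibdisj : ∀ x, ∀ u ∈ B.filter (fun u => π u = x), ∀ u' ∈ B.filter (fun u => π u = x),
      u ≠ u' → Disjoint (Finset.univ.filter (fun i => u i ≠ 0))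
        (Finset.univ.filter (fun i => u' i ≠ 0)) := by
    intro x u hu u' hu' hne
    rw [Finset.mem_filter, memB] at hu hu'
    exact (F1 C hmin u u' hne ((hπ _ _).1 (hu.2.trans hu'.2.symm)) (by omega) (by omega)).2.2
  have hfib : ∀ x ∈ B.image π, (B.filter (fun u => π u = x)).card ≤ 6 := by
    intro x _
    have h1 := Finset.card_biUnion (hfibdisj x)
    have h2 : ∀ u ∈ B.filter (fun u => π u = x),
        (Finset.univ.filter (fun i => u i ≠ 0)).card = 4 := by
      intro u hu
      rw [Finset.mem_filter, memB] at hu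
      rw [← wt_def]
      exact hu.1
    rw [Finset.sum_congr rfl h2, Finset.sum_const, smul_eq_mul] at h1
    have h3 := Finset.card_le_univ ((B.filter (fun u => π u = x)).biUnion
      (fun u => Finset.univ.filter (fun i => u i ≠ 0)))
    rw [Fintype.card_fin] at h3
    omega
  have hcardB : B.card ≤ 6 * (B.image π).card := Finset.card_le_mul_card_image B 6 hfib
  have htot : (A.image π ∪ B.image π).card ≤ 4096 := by
    calc (A.image π ∪ B.image π).card ≤ Fintype.card (V ⧸ C) := Finset.card_le_univ _
      _ = 4096 := by rw [← Nat.card_eq_fintype_card]; exact card_quot C hdim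
  have hcu := Finset.card_union_of_disjoint hdisj
  have hBimg : (B.image π).card = 1771 := by omega
  have huniv : A.image π ∪ B.image π = Finset.univ := by
    apply Finset.eq_univ_of_card
    rw [hcu, hAimg, hBimg, ← Nat.card_eq_fintype_card, card_quot C hdim]
  have hfib6 : ∀ x ∈ B.image π, (B.filter (fun u => π u = x)).card = 6 := by
    by_contra hcon
    push Not at hcon
    obtain ⟨x, hx, hne⟩ := hcon
    have hsum := Finset.card_eq_sum_card_image π B
    have hlt : ∑ x ∈ B.image π, (B.filter (fun u => π u = x)).card < ∑ x ∈ B.image π, 6 :=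
      Finset.sum_lt_sum hfib ⟨x, hx, lt_of_le_of_ne (hfib x hx) hne⟩
    rw [Finset.sum_const, smul_eq_mul] at hlt
    omega
  have hw : π w ∈ A.image π ∪ B.image π := by rw [huniv]; exact Finset.mem_univ _
  rcases Finset.mem_union.1 hw with h | h
  · left
    obtain ⟨u, hu, hu'⟩ := Finset.mem_image.1 h
    rw [memA] at hu
    refine ⟨u, ?_, hu⟩
    intro u'
    constructor
    · rintro ⟨h1, h2⟩
      by_contra hne
      have h3 : u' - u ∈ C := by
        rw [← hπ, hu', hπ]
        exact h1
      have := F1 C hmin u' u hne h3 h2 (by omega)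
      omega
    · rintro rfl
      exact ⟨(hπ _ _).1 hu', by omega⟩
  · right
    obtain ⟨u0, hu0, hu0'⟩ := Finset.mem_image.1 h
    rw [memB] at hu0
    have key : ∀ u, u ∈ B.filter (fun u => π u = π w) ↔ (u - w ∈ C ∧ hammingNorm u ≤ 4) := by
      intro u
      rw [Finset.mem_filter, memB, hπ]
      constructor
      · rintro ⟨h1, h2⟩
        exact ⟨h2, by omega⟩
      · rintro ⟨h1, h2⟩
        refine ⟨?_, h1⟩
        by_cases hne : u = u0
        · rw [hne]; exact hu0
        · have h3 : u - u0 ∈ C := by
            rw [← hπ, hu0', hπ]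
            exact h1
          exact (F1 C hmin u u0 hne h3 h2 (by omega)).1
    refine ⟨B.filter (fun u => π u = π w), hfib6 _ h, key, ?_⟩
    intro u hu
    refine ⟨?_, fun u' hu' hne => hfibdisj _ u hu u' hu' hne⟩
    rw [Finset.mem_filter, memB] at hu
    exact hu.1

/-- Let C be a self-dual binary code of length 24 with minimum weight at least 8 (a 12-dimensional subspace of the 24-dimensional space over the field with two elements, any two of whose words have dot product zero, with no non-zero word of weight below 8 — an abstract extended binary Golay code). Then every coset w + C of C in the ambient space contains either exactly one word of weight at most 4, which then has weight at most 3, or exactly six words of weight at most 4, all of weight exactly 4 and with pairwise disjoint supports (a sextet). -/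
theorem result (C : Submodule (ZMod 2) (Fin 24 → ZMod 2)) (hdim : Module.finrank (ZMod 2) C = 12) (horth : ∀ v ∈ C, ∀ w ∈ C, ∑ i, v i * w i = 0) (hmin : ∀ w ∈ C, w ≠ 0 → 8 ≤ hammingNorm w) (w : Fin 24 → ZMod 2) : (∃ u : Fin 24 → ZMod 2, {u : Fin 24 → ZMod 2 | u - w ∈ C ∧ hammingNorm u ≤ 4} = {u} ∧ hammingNorm u ≤ 3) ∨ ({u : Fin 24 → ZMod 2 | u - w ∈ C ∧ hammingNorm u ≤ 4}.ncard = 6 ∧ ∀ u ∈ {u : Fin 24 → ZMod 2 | u - w ∈ C ∧ hammingNorm u ≤ 4}, hammingNorm u = 4 ∧ ∀ u' ∈ {u : Fin 24 → ZMod 2 | u - w ∈ C ∧ hammingNorm u ≤ 4}, u ≠ u' → Disjoint (Finset.univ.filter fun i => u i ≠ 0) (Finset.univ.filter fun i => u' i ≠ 0)) := by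
  rcases main C hdim hmin w with ⟨u, h1, h2⟩ | ⟨S, hS, hmem, hprop⟩
  · left
    refine ⟨u, ?_, h2⟩
    ext u'
    rw [Set.mem_setOf_eq, Set.mem_singleton_iff]
    exact h1 u'
  · right
    have hset : {u : Fin 24 → ZMod 2 | u - w ∈ C ∧ hammingNorm u ≤ 4} = (S : Set V) := by
      ext u
      rw [Set.mem_setOf_eq, Finset.mem_coe]
      exact (hmem u).symm
    rw [hset, Set.ncard_coe_finset]
    refine ⟨hS, ?_⟩
    intro u hu
    rw [Finset.mem_coe] at hu
    refine ⟨(hprop u hu).1, ?_⟩
    intro u' hu' hne
    rw [Finset.mem_coe] at hu'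
    exact (hprop u hu).2 u' hu' hne

end Cfsg.Agent.S5623
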