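import Cfsg.Statements.S5622
import Mathlib
import Cfsg.Agent.S5623

set_option autoImplicit false
open Cfsg

namespace Cfsg.Agent.S5622

open Cfsg.Agent.S5623 (V)

/-- the support of a binary word -/
abbrev supp (u : V) : Finset (Fin 24) := Finset.univ.filter (fun i => u i ≠ 0)

theorem mem_supp (u : V) (i : Fin 24) : i ∈ supp u ↔ u i ≠ 0 := by
  simp [supp]

theorem supp_eq_support (u : V) : supp u = Cfsg.support₂ u := rfl

theorem wt_eq (u : V) : hammingNorm u = (supp u).card := rfl

theorem zmod2_sub_ne : ∀ a b : ZMod 2, a - b ≠ 0 ↔ ((a ≠ 0 ∧ ¬ b ≠ 0) ∨ (b ≠ 0 ∧ ¬ a ≠ 0)) := by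
  decide

theorem zmod2_mul_self : ∀ a : ZMod 2, a * a = a := by decide

theorem zmod2_mul : ∀ a b : ZMod 2, a * b = if (a ≠ 0 ∧ b ≠ 0) then 1 else 0 := by decide

theorem zmod2_neg : ∀ a : ZMod 2, -a = a := by decide

theorem supp_sub (u u' : V) : supp (u - u') = (supp u \ supp u') ∪ (supp u' \ supp u) := by
  ext i
  simp only [mem_supp, Finset.mem_union, Finset.mem_sdiff, Pi.sub_apply]
  exact zmod2_sub_ne _ _

theorem card_supp_sub (u u' : V) :
    (supp (u - u')).card + 2 * (supp u ∩ supp u').card = (supp u).card + (supp u').card := by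
  rw [supp_sub, Finset.card_union_of_disjoint]
  · have h1 := Finset.card_sdiff_add_card_inter (supp u) (supp u')
    have h2 := Finset.card_sdiff_add_card_inter (supp u') (supp u)
    rw [Finset.inter_comm] at h2
    omega
  · rw [Finset.disjoint_left]
    intro i hi hi'
    rw [Finset.mem_sdiff] at hi hi'
    exact hi.2 hi'.1

theorem dot_eq (v w : V) : ∑ i, v i * w i = ((supp v ∩ supp w).card : ZMod 2) := by
  have h : ∀ i, v i * w i = if i ∈ supp v ∩ supp w then 1 else 0 := by
    intro i
    rw [zmod2_mul]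
    simp only [Finset.mem_inter, mem_supp]
  rw [Finset.sum_congr rfl (fun i _ => h i), Finset.sum_ite_mem, Finset.univ_inter,
    Finset.sum_const, nsmul_one]

theorem even_inter (C : Submodule (ZMod 2) V) (horth : ∀ v ∈ C, ∀ w ∈ C, ∑ i, v i * w i = 0)
    (v w : V) (hv : v ∈ C) (hw : w ∈ C) : Even (supp v ∩ supp w).card := by
  have h := horth v hv w hw
  rw [dot_eq] at h
  exact ZMod.natCast_eq_zero_iff_even.1 h

theorem even_wt (C : Submodule (ZMod 2) V) (horth : ∀ v ∈ C, ∀ w ∈ C, ∑ i, v i * w i = 0)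
    (v : V) (hv : v ∈ C) : Even (supp v).card := by
  have h := even_inter C horth v v hv hv
  rwa [Finset.inter_self] at h

/-- the indicator word of a set -/
abbrev ind (s : Finset (Fin 24)) : V := fun i => if i ∈ s then 1 else 0

theorem supp_ind (s : Finset (Fin 24)) : supp (ind s) = s := by
  ext i
  rw [mem_supp]
  by_cases h : i ∈ s
  · simp [ind, h]
  · simp [ind, h]

/-- there is a word of weight at most 4 in every coset -/
theorem exists_leader (C : Submodule (ZMod 2) V) (hdim : Module.finrank (ZMod 2) C = 12)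
    (hmin : ∀ w ∈ C, w ≠ 0 → 8 ≤ hammingNorm w) (w : V) :
    ∃ u : V, u - w ∈ C ∧ hammingNorm u ≤ 4 := by
  rcases Cfsg.Agent.S5623.main C hdim hmin w with ⟨u, h1, _⟩ | ⟨S, hS, hmem, _⟩
  · exact ⟨u, (h1 u).2 rfl⟩
  · have hne : S.Nonempty := by
      rw [← Finset.card_pos]
      omega
    obtain ⟨u, hu⟩ := hne
    exact ⟨u, (hmem u).1 hu⟩

/-- every 5-set lies in an octad -/
theorem exists_octad (C : Submodule (ZMod 2) V) (hdim : Module.finrank (ZMod 2) C = 12)
    (horth : ∀ v ∈ C, ∀ w ∈ C, ∑ i, v i * w i = 0)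
    (hmin : ∀ w ∈ C, w ≠ 0 → 8 ≤ hammingNorm w) (T : Finset (Fin 24)) (hT : T.card = 5) :
    ∃ c ∈ C, (supp c).card = 8 ∧ T ⊆ supp c := by
  obtain ⟨u, huC, hu4⟩ := exists_leader C hdim hmin (ind T)
  rw [wt_eq] at hu4
  have hne : u - ind T ≠ 0 := by
    intro h
    rw [sub_eq_zero] at h
    rw [h, supp_ind] at hu4
    omega
  have h8 := hmin _ huC hne
  rw [wt_eq] at h8
  have hcard := card_supp_sub u (ind T)
  rw [supp_ind] at hcard
  have heven := even_wt C horth _ huC
  obtain ⟨k, hk⟩ := heven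
  have hinter : (supp u ∩ T).card = 0 := by omega
  refine ⟨u - ind T, huC, by omega, ?_⟩
  rw [supp_sub, supp_ind]
  intro i hi
  rw [Finset.mem_union, Finset.mem_sdiff, Finset.mem_sdiff]
  right
  refine ⟨hi, fun hiu => ?_⟩
  rw [Finset.card_eq_zero] at hinter
  have : i ∈ supp u ∩ T := Finset.mem_inter.2 ⟨hiu, hi⟩
  rw [hinter] at this
  exact absurd this (Finset.notMem_empty i)

/-- two octads sharing 5 points coincide -/
theorem octad_unique (C : Submodule (ZMod 2) V)
    (hmin : ∀ w ∈ C, w ≠ 0 → 8 ≤ hammingNorm w) (T : Finset (Fin 24)) (hT : T.card = 5)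
    (c c' : V) (hc : c ∈ C) (hc' : c' ∈ C) (h8 : (supp c).card = 8) (h8' : (supp c').card = 8)
    (hTc : T ⊆ supp c) (hTc' : T ⊆ supp c') : c = c' := by
  by_contra hne
  have h := hmin _ (C.sub_mem hc hc') (sub_ne_zero.mpr hne)
  rw [wt_eq] at h
  have hcard := card_supp_sub c c'
  have h5 : T.card ≤ (supp c ∩ supp c').card :=
    Finset.card_le_card (Finset.subset_inter hTc hTc')
  omega

theorem exists_five : ∃ T : Finset (Fin 24), T.card = 5 := by
  obtain ⟨T, _, hT⟩ := Finset.exists_subset_card_eq (s := (Finset.univ : Finset (Fin 24))) (n := 5)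
    (by rw [Finset.card_univ, Fintype.card_fin]; omega)
  exact ⟨T, hT⟩

/-- Let C be a self-dual binary code of length 24 with minimum weight at least 8 (a 12-dimensional subspace of the 24-dimensional space over the field with two elements, any two of whose words have dot product zero, with no non-zero word of weight below 8 — an abstract extended binary Golay code). Then the minimum weight of C is exactly 8, and the supports of the words of weight 8 (the octads) form a Steiner system S(5, 8, 24) on the 24 coordinates: every 5 coordinates lie in the support of exactly one word of weight 8. -/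
theorem result (C : Submodule (ZMod 2) (Fin 24 → ZMod 2)) (hdim : Module.finrank (ZMod 2) C = 12) (horth : ∀ v ∈ C, ∀ w ∈ C, ∑ i, v i * w i = 0) (hmin : ∀ w ∈ C, w ≠ 0 → 8 ≤ hammingNorm w) : (∃ w ∈ C, hammingNorm w = 8) ∧ Cfsg.IsSteinerSystem 5 8 (Cfsg.wordsOfWeight (C : Set (Fin 24 → ZMod 2)) 8) := by
  constructor
  · obtain ⟨T, hT⟩ := exists_five
    obtain ⟨c, hc, h8, _⟩ := exists_octad C hdim horth hmin T hT
    exact ⟨c, hc, h8⟩
  · constructor
    · intro b hb
      exact hb.2
    · intro T hT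
      obtain ⟨c, hc, h8, hTc⟩ := exists_octad C hdim horth hmin T hT
      refine ⟨supp c, ⟨⟨⟨c, hc, rfl⟩, h8⟩, hTc⟩, ?_⟩
      rintro b ⟨⟨⟨c', hc', rfl⟩, h8'⟩, hTc'⟩
      have := octad_unique C hmin T hT c' c hc' hc h8' h8 hTc' hTc
      rw [this]
      rfl

end Cfsg.Agent.S5622
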