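import Cfsg.Statements.S0352
import Cfsg.Agent.Helper2.Steiner

set_option autoImplicit false
open Cfsg

namespace Cfsg.Agent.S0352

/-- In a Steiner system S(5, 8, 24), two distinct blocks intersect in 0, 2 or 4 points. -/
theorem result {α : Type*} [Fintype α] [DecidableEq α] (hα : Fintype.card α = 24) {B : Set (Finset α)} (hB : Cfsg.IsSteinerSystem 5 8 B) {b c : Finset α} (hb : b ∈ B) (hc : c ∈ B) (hbc : b ≠ c) : (b ∩ c).card = 0 ∨ (b ∩ c).card = 2 ∨ (b ∩ c).card = 4 := by
  have h1 : ∑ c ∈ (Cfsg.Agent.Helper2.Steiner.blocks B).erase b, ((b ∩ c).card).choose 1 = 2016 :=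
    Cfsg.Agent.Helper2.Steiner.inter_sum_erase_val hB hb 1 (by norm_num) 2016
      (by rw [hα]; decide) (by decide)
  have h2 : ∑ c ∈ (Cfsg.Agent.Helper2.Steiner.blocks B).erase b, ((b ∩ c).card).choose 2 = 2128 :=
    Cfsg.Agent.Helper2.Steiner.inter_sum_erase_val hB hb 2 (by norm_num) 2128
      (by rw [hα]; decide) (by decide)
  have h3 : ∑ c ∈ (Cfsg.Agent.Helper2.Steiner.blocks B).erase b, ((b ∩ c).card).choose 3 = 1120 :=
    Cfsg.Agent.Helper2.Steiner.inter_sum_erase_val hB hb 3 (by norm_num) 1120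
      (by rw [hα]; decide) (by decide)
  have h4 : ∑ c ∈ (Cfsg.Agent.Helper2.Steiner.blocks B).erase b, ((b ∩ c).card).choose 4 = 280 :=
    Cfsg.Agent.Helper2.Steiner.inter_sum_erase_val hB hb 4 (by norm_num) 280
      (by rw [hα]; decide) (by decide)
  have hle : ∀ c ∈ (Cfsg.Agent.Helper2.Steiner.blocks B).erase b,
      6 * ((b ∩ c).card).choose 2 + 24 * ((b ∩ c).card).choose 4
        ≤ 3 * ((b ∩ c).card).choose 1 + 12 * ((b ∩ c).card).choose 3 := by
    intro c hc
    rw [Finset.mem_erase, Cfsg.Agent.Helper2.Steiner.mem_blocks] at hc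
    have hlt := Cfsg.Agent.Helper2.Steiner.inter_lt hB hb hc.2 (Ne.symm hc.1)
    generalize (b ∩ c).card = j at hlt ⊢
    interval_cases j <;> decide
  have hsum : ∑ c ∈ (Cfsg.Agent.Helper2.Steiner.blocks B).erase b,
        (6 * ((b ∩ c).card).choose 2 + 24 * ((b ∩ c).card).choose 4)
      = ∑ c ∈ (Cfsg.Agent.Helper2.Steiner.blocks B).erase b,
        (3 * ((b ∩ c).card).choose 1 + 12 * ((b ∩ c).card).choose 3) := by
    rw [Finset.sum_add_distrib, Finset.sum_add_distrib, ← Finset.mul_sum, ← Finset.mul_sum,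
      ← Finset.mul_sum, ← Finset.mul_sum]
    omega
  have heq := (Finset.sum_eq_sum_iff_of_le hle).1 hsum c
    (by rw [Finset.mem_erase, Cfsg.Agent.Helper2.Steiner.mem_blocks]; exact ⟨Ne.symm hbc, hc⟩)
  have hlt := Cfsg.Agent.Helper2.Steiner.inter_lt hB hb hc hbc
  generalize (b ∩ c).card = j at hlt heq ⊢
  interval_cases j <;> first | decide | exact absurd heq (by decide)

end Cfsg.Agent.S0352
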