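import Cfsg.Statements.S0355
import Cfsg.Agent.Helper2.Steiner

set_option autoImplicit false
open Cfsg

namespace Cfsg.Agent.S0355

/-- In a Steiner system S(4, 7, 23), two distinct blocks intersect in 1 or 3 points. -/
theorem result {α : Type*} [Fintype α] [DecidableEq α] (hα : Fintype.card α = 23) {B : Set (Finset α)} (hB : Cfsg.IsSteinerSystem 4 7 B) {b c : Finset α} (hb : b ∈ B) (hc : c ∈ B) (hbc : b ≠ c) : (b ∩ c).card = 1 ∨ (b ∩ c).card = 3 := by
  have h0 : ∑ c ∈ (Cfsg.Agent.Helper2.Steiner.blocks B).erase b, ((b ∩ c).card).choose 0 = 252 :=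
    Cfsg.Agent.Helper2.Steiner.inter_sum_erase_val hB hb 0 (by norm_num) 252
      (by rw [hα]; decide) (by decide)
  have h1 : ∑ c ∈ (Cfsg.Agent.Helper2.Steiner.blocks B).erase b, ((b ∩ c).card).choose 1 = 532 :=
    Cfsg.Agent.Helper2.Steiner.inter_sum_erase_val hB hb 1 (by norm_num) 532
      (by rw [hα]; decide) (by decide)
  have h2 : ∑ c ∈ (Cfsg.Agent.Helper2.Steiner.blocks B).erase b, ((b ∩ c).card).choose 2 = 420 :=
    Cfsg.Agent.Helper2.Steiner.inter_sum_erase_val hB hb 2 (by norm_num) 420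
      (by rw [hα]; decide) (by decide)
  have h3 : ∑ c ∈ (Cfsg.Agent.Helper2.Steiner.blocks B).erase b, ((b ∩ c).card).choose 3 = 140 :=
    Cfsg.Agent.Helper2.Steiner.inter_sum_erase_val hB hb 3 (by norm_num) 140
      (by rw [hα]; decide) (by decide)
  have hle : ∀ c ∈ (Cfsg.Agent.Helper2.Steiner.blocks B).erase b,
      3 * ((b ∩ c).card).choose 1 + 6 * ((b ∩ c).card).choose 3
        ≤ 3 * ((b ∩ c).card).choose 0 + 4 * ((b ∩ c).card).choose 2 := by
    intro c hc
    rw [Finset.mem_erase, Cfsg.Agent.Helper2.Steiner.mem_blocks] at hc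
    have hlt := Cfsg.Agent.Helper2.Steiner.inter_lt hB hb hc.2 (Ne.symm hc.1)
    generalize (b ∩ c).card = j at hlt ⊢
    interval_cases j <;> decide
  have hsum : ∑ c ∈ (Cfsg.Agent.Helper2.Steiner.blocks B).erase b,
        (3 * ((b ∩ c).card).choose 1 + 6 * ((b ∩ c).card).choose 3)
      = ∑ c ∈ (Cfsg.Agent.Helper2.Steiner.blocks B).erase b,
        (3 * ((b ∩ c).card).choose 0 + 4 * ((b ∩ c).card).choose 2) := by
    rw [Finset.sum_add_distrib, Finset.sum_add_distrib, ← Finset.mul_sum, ← Finset.mul_sum,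
      ← Finset.mul_sum, ← Finset.mul_sum]
    omega
  have heq := (Finset.sum_eq_sum_iff_of_le hle).1 hsum c
    (by rw [Finset.mem_erase, Cfsg.Agent.Helper2.Steiner.mem_blocks]; exact ⟨Ne.symm hbc, hc⟩)
  have hlt := Cfsg.Agent.Helper2.Steiner.inter_lt hB hb hc hbc
  generalize (b ∩ c).card = j at hlt heq ⊢
  interval_cases j <;> first | decide | exact absurd heq (by decide)

end Cfsg.Agent.S0355
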