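import Mathlib
import Cfsg.Statements.S5638

set_option autoImplicit false
open Cfsg

namespace Cfsg.Agent.S5638

open Matrix
open scoped Kronecker

variable {F : Type*} [Field F]

/-- An element of order 3 of `GL_2(F_2)`. -/
def om : Matrix (Fin 2) (Fin 2) F := !![0, 1; 1, 1]

/-- Its inverse. -/
def om2 : Matrix (Fin 2) (Fin 2) F := !![1, 1; 1, 0]

/-- An involution inverting `om`. -/
def tau : Matrix (Fin 2) (Fin 2) F := !![0, 1; 1, 0]

theorem om_om2 (h2 : (2 : F) = 0) : (om : Matrix (Fin 2) (Fin 2) F) * om2 = 1 := by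
  ext i j
  fin_cases i <;> fin_cases j <;>
    simp [om, om2, Matrix.mul_apply, Fin.sum_univ_two, h2, one_add_one_eq_two]

theorem om2_om (h2 : (2 : F) = 0) : (om2 : Matrix (Fin 2) (Fin 2) F) * om = 1 := by
  ext i j
  fin_cases i <;> fin_cases j <;>
    simp [om, om2, Matrix.mul_apply, Fin.sum_univ_two, h2, one_add_one_eq_two]

theorem tau_tau : (tau : Matrix (Fin 2) (Fin 2) F) * tau = 1 := by
  ext i j
  fin_cases i <;> fin_cases j <;> simp [tau, Matrix.mul_apply, Fin.sum_univ_two]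

theorem tau_om_tau : (tau : Matrix (Fin 2) (Fin 2) F) * om * tau = om2 := by
  ext i j
  fin_cases i <;> fin_cases j <;> simp [tau, om, om2, Matrix.mul_apply, Fin.sum_univ_two]

theorem conj_aux (h2 : (2 : F) = 0) (h01 : ∀ x : F, x = 0 ∨ x = 1) (x y z w : F)
    (hdet : x * w - y * z ≠ 0) :
    !![x, y; z, w] * om = om * !![x, y; z, w] ∨ !![x, y; z, w] * om = om2 * !![x, y; z, w] := by
  rcases h01 x with rfl | rfl <;> rcases h01 y with rfl | rfl <;> rcases h01 z with rfl | rfl <;>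
    rcases h01 w with rfl | rfl <;>
    first
      | (exfalso; apply hdet; ring1)
      | (left; ext i j; fin_cases i <;> fin_cases j <;>
          (simp [om, om2, Matrix.mul_apply, Fin.sum_univ_two, h2, one_add_one_eq_two]; done))
      | (right; ext i j; fin_cases i <;> fin_cases j <;>
          (simp [om, om2, Matrix.mul_apply, Fin.sum_univ_two, h2, one_add_one_eq_two]; done))

variable {n₂ : ℕ}

/-- Diagonal idempotent at `j0`. -/
def e0 (j0 : Fin n₂) : Matrix (Fin n₂) (Fin n₂) F :=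
  Matrix.diagonal (fun j => if j = j0 then 1 else 0)

/-- The complementary idempotent. -/
def e1 (j0 : Fin n₂) : Matrix (Fin n₂) (Fin n₂) F :=
  Matrix.diagonal (fun j => if j = j0 then 0 else 1)

theorem e0_add_e1 (j0 : Fin n₂) : (e0 j0 + e1 j0 : Matrix (Fin n₂) (Fin n₂) F) = 1 := by
  rw [e0, e1, Matrix.diagonal_add, ← Matrix.diagonal_one]
  congr 1
  funext j
  by_cases h : j = j0 <;> simp [h]

theorem e0_e0 (j0 : Fin n₂) : (e0 j0 * e0 j0 : Matrix (Fin n₂) (Fin n₂) F) = e0 j0 := by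
  rw [e0, Matrix.diagonal_mul_diagonal]
  congr 1
  funext j
  by_cases h : j = j0 <;> simp [h]

theorem e1_e1 (j0 : Fin n₂) : (e1 j0 * e1 j0 : Matrix (Fin n₂) (Fin n₂) F) = e1 j0 := by
  rw [e1, Matrix.diagonal_mul_diagonal]
  congr 1
  funext j
  by_cases h : j = j0 <;> simp [h]

theorem e0_e1 (j0 : Fin n₂) : (e0 j0 * e1 j0 : Matrix (Fin n₂) (Fin n₂) F) = 0 := by
  rw [e0, e1, Matrix.diagonal_mul_diagonal, ← Matrix.diagonal_zero]
  congr 1
  funext j
  by_cases h : j = j0 <;> simp [h]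

theorem e1_e0 (j0 : Fin n₂) : (e1 j0 * e0 j0 : Matrix (Fin n₂) (Fin n₂) F) = 0 := by
  rw [e0, e1, Matrix.diagonal_mul_diagonal, ← Matrix.diagonal_zero]
  congr 1
  funext j
  by_cases h : j = j0 <;> simp [h]

/-- Block matrix acting as `A` on the `j0`-slice and as `A'` on the other slices. -/
def blk (j0 : Fin n₂) (A A' : Matrix (Fin 2) (Fin 2) F) :
    Matrix (Fin 2 × Fin n₂) (Fin 2 × Fin n₂) F :=
  A ⊗ₖ e0 j0 + A' ⊗ₖ e1 j0

theorem blk_mul (j0 : Fin n₂) (A A' B B' : Matrix (Fin 2) (Fin 2) F) :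
    blk j0 A A' * blk j0 B B' = blk j0 (A * B) (A' * B') := by
  unfold blk
  rw [Matrix.add_mul, Matrix.mul_add, Matrix.mul_add, ← Matrix.mul_kronecker_mul,
    ← Matrix.mul_kronecker_mul, ← Matrix.mul_kronecker_mul, ← Matrix.mul_kronecker_mul, e0_e0,
    e1_e1, e0_e1, e1_e0, Matrix.kronecker_zero, Matrix.kronecker_zero, add_zero, zero_add]

theorem blk_same (j0 : Fin n₂) (A : Matrix (Fin 2) (Fin 2) F) :
    blk j0 A A = A ⊗ₖ (1 : Matrix (Fin n₂) (Fin n₂) F) := by
  unfold blk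
  rw [← Matrix.kronecker_add, e0_add_e1]

theorem blk_one (j0 : Fin n₂) : blk j0 (1 : Matrix (Fin 2) (Fin 2) F) 1 = 1 := by
  rw [blk_same, Matrix.one_kronecker_one]

theorem blk_apply0 (j0 : Fin n₂) (A A' : Matrix (Fin 2) (Fin 2) F) (i i' : Fin 2) :
    blk j0 A A' (i, j0) (i', j0) = A i i' := by
  unfold blk
  simp [e0, e1, Matrix.add_apply]

theorem blk_apply1 (j0 j1 : Fin n₂) (h : j1 ≠ j0) (A A' : Matrix (Fin 2) (Fin 2) F)
    (i i' : Fin 2) : blk j0 A A' (i, j1) (i', j1) = A' i i' := by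
  unfold blk
  simp [e0, e1, Matrix.add_apply, h]

/-- Invertible block matrix. -/
def mk (j0 : Fin n₂) (A A' B B' : Matrix (Fin 2) (Fin 2) F) (h1 : A * B = 1) (h2 : B * A = 1)
    (h3 : A' * B' = 1) (h4 : B' * A' = 1) : Matrix.GeneralLinearGroup (Fin 2 × Fin n₂) F :=
  ⟨blk j0 A A', blk j0 B B', by rw [blk_mul, h1, h3, blk_one], by rw [blk_mul, h2, h4, blk_one]⟩

/-- The elements conjugating `z` to `z` or to its inverse. -/
def nrm {G : Type*} [Group G] (z : G) : Subgroup G where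
  carrier := {g | g * z * g⁻¹ = z ∨ g * z * g⁻¹ = z⁻¹}
  one_mem' := Or.inl (by group)
  mul_mem' := by
    intro a b ha hb
    have e : a * b * z * (a * b)⁻¹ = a * (b * z * b⁻¹) * a⁻¹ := by group
    show a * b * z * (a * b)⁻¹ = z ∨ a * b * z * (a * b)⁻¹ = z⁻¹
    rcases hb with hb | hb
    · rw [e, hb]
      exact ha
    · rw [e, hb]
      have e2 : a * z⁻¹ * a⁻¹ = (a * z * a⁻¹)⁻¹ := by group
      rw [e2]
      rcases ha with ha | ha
      · right
        rw [ha]
      · left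
        rw [ha, inv_inv]
  inv_mem' := by
    intro a ha
    show a⁻¹ * z * a⁻¹⁻¹ = z ∨ a⁻¹ * z * a⁻¹⁻¹ = z⁻¹
    rcases ha with ha | ha
    · left
      have e : a⁻¹ * z * a⁻¹⁻¹ = a⁻¹ * (a * z * a⁻¹) * a := by rw [ha, inv_inv]
      rw [e]
      group
    · right
      have h2 : z = a⁻¹ * z⁻¹ * a := by
        rw [← ha]
        group
      calc a⁻¹ * z * a⁻¹⁻¹ = (a⁻¹ * z⁻¹ * a)⁻¹ := by group
        _ = z⁻¹ := by rw [← h2]

theorem mem_nrm_of_comm {G : Type*} [Group G] (z g : G) (h : g * z = z * g) : g ∈ nrm z :=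
  Or.inl (by rw [h, mul_inv_cancel_right])

theorem mem_nrm_of_inv {G : Type*} [Group G] (z g : G) (h : g * z = z⁻¹ * g) : g ∈ nrm z :=
  Or.inr (by rw [h, mul_inv_cancel_right])

/-- Over the field with 2 elements, for n = 2 n₂ ≥ 13, the stabiliser in SL_n of a tensor decomposition with factors of dimensions 2 and n₂ (the conjugate by any P of the Kronecker-product subgroup transported along any bijection Fin n ≃ Fin 2 × Fin n₂, intersected with SL_n) is not a maximal subgroup: some subgroup lies strictly between it and SL_n. -/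
theorem result {F : Type*} [Field F] [Fintype F] (n : ℕ) (hn : 13 ≤ n) (hq : Fintype.card F = 2) (n₂ : ℕ) (e : Fin n ≃ Fin 2 × Fin n₂) (P : Matrix.GeneralLinearGroup (Fin n) F) : ∃ K : Subgroup (Matrix.GeneralLinearGroup (Fin n) F), Cfsg.Geo.tensorProductSubgroup 2 n₂ e P ⊓ Cfsg.Geo.specialLinear (Fin n) F < K ∧ K < Cfsg.Geo.specialLinear (Fin n) F := by
  classical
  have h2 : (2 : F) = 0 := by
    have h := Nat.cast_card_eq_zero F
    rw [hq] at h
    exact_mod_cast h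
  have h01 : ∀ x : F, x = 0 ∨ x = 1 := by
    intro x
    by_contra hx
    push_neg at hx
    have h3 : 2 < Fintype.card F :=
      Fintype.two_lt_card_iff.mpr ⟨0, 1, x, zero_ne_one, hx.1.symm, hx.2.symm⟩
    omega
  have hn2 : n = 2 * n₂ := by
    have h := Fintype.card_congr e
    simpa [Fintype.card_prod] using h
  have hj : 2 ≤ n₂ := by omega
  obtain ⟨j0, j1, hj10⟩ : ∃ j0 j1 : Fin n₂, j1 ≠ j0 :=
    ⟨⟨0, by omega⟩, ⟨1, by omega⟩, fun h => absurd (congrArg Fin.val h) (by simp)⟩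
  obtain ⟨z, hzv, hziv⟩ : ∃ z : Matrix.GeneralLinearGroup (Fin 2 × Fin n₂) F,
      (z : Matrix (Fin 2 × Fin n₂) (Fin 2 × Fin n₂) F) = blk j0 om om ∧
      ((z⁻¹ : Matrix.GeneralLinearGroup (Fin 2 × Fin n₂) F) :
        Matrix (Fin 2 × Fin n₂) (Fin 2 × Fin n₂) F) = blk j0 om2 om2 :=
    ⟨mk j0 om om om2 om2 (om_om2 h2) (om2_om h2) (om_om2 h2) (om2_om h2), rfl, rfl⟩
  obtain ⟨d, hdv⟩ : ∃ d : Matrix.GeneralLinearGroup (Fin 2 × Fin n₂) F,
      (d : Matrix (Fin 2 × Fin n₂) (Fin 2 × Fin n₂) F) = blk j0 om 1 :=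
    ⟨mk j0 om 1 om2 1 (om_om2 h2) (om2_om h2) (mul_one 1) (mul_one 1), rfl⟩
  obtain ⟨t, htv, htiv⟩ : ∃ t : Matrix.GeneralLinearGroup (Fin 2 × Fin n₂) F,
      (t : Matrix (Fin 2 × Fin n₂) (Fin 2 × Fin n₂) F) = blk j0 tau 1 ∧
      ((t⁻¹ : Matrix.GeneralLinearGroup (Fin 2 × Fin n₂) F) :
        Matrix (Fin 2 × Fin n₂) (Fin 2 × Fin n₂) F) = blk j0 tau 1 :=
    ⟨mk j0 tau 1 tau 1 tau_tau tau_tau (mul_one 1) (mul_one 1), rfl, rfl⟩
  have hSL : Cfsg.Geo.specialLinear (Fin n) F = ⊤ := by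
    rw [eq_top_iff]
    intro g _
    haveI : Subsingleton Fˣ := by
      rw [← Fintype.card_le_one_iff_subsingleton, Fintype.card_units, hq]
    rw [Cfsg.Geo.specialLinear, MonoidHom.mem_ker]
    exact Subsingleton.elim _ _
  have hle : Cfsg.Geo.kroneckerSubgroup 2 n₂ F ≤ nrm z := by
    rintro g ⟨a, b, hg⟩
    have hz : (z : Matrix (Fin 2 × Fin n₂) (Fin 2 × Fin n₂) F)
        = om ⊗ₖ (1 : Matrix (Fin n₂) (Fin n₂) F) := by rw [hzv, blk_same]
    have hzi : ((z⁻¹ : Matrix.GeneralLinearGroup (Fin 2 × Fin n₂) F) :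
        Matrix (Fin 2 × Fin n₂) (Fin 2 × Fin n₂) F)
        = om2 ⊗ₖ (1 : Matrix (Fin n₂) (Fin n₂) F) := by rw [hziv, blk_same]
    have ha := conj_aux h2 h01 ((a : Matrix (Fin 2) (Fin 2) F) 0 0)
      ((a : Matrix (Fin 2) (Fin 2) F) 0 1) ((a : Matrix (Fin 2) (Fin 2) F) 1 0)
      ((a : Matrix (Fin 2) (Fin 2) F) 1 1) (by
        have h := ((Matrix.isUnit_iff_isUnit_det _).mp a.isUnit).ne_zero
        rw [Matrix.det_fin_two] at h
        exact h)
    rw [← Matrix.eta_fin_two (a : Matrix (Fin 2) (Fin 2) F)] at ha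
    rcases ha with ha | ha
    · apply mem_nrm_of_comm
      apply Units.ext
      rw [Units.val_mul, Units.val_mul, hg, hz, ← Matrix.mul_kronecker_mul,
        ← Matrix.mul_kronecker_mul, Matrix.mul_one, Matrix.one_mul, ha]
    · apply mem_nrm_of_inv
      apply Units.ext
      rw [Units.val_mul, Units.val_mul, hg, hz, hzi, ← Matrix.mul_kronecker_mul,
        ← Matrix.mul_kronecker_mul, Matrix.mul_one, Matrix.one_mul, ha]
  have hd1 : d ∈ nrm z := by
    apply mem_nrm_of_comm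
    apply Units.ext
    rw [Units.val_mul, Units.val_mul, hdv, hzv, blk_mul, blk_mul, Matrix.one_mul, Matrix.mul_one]
  have hd2 : d ∉ Cfsg.Geo.kroneckerSubgroup 2 n₂ F := by
    rintro ⟨a, b, hg⟩
    rw [hdv] at hg
    have e1 := congrFun (congrFun hg (0, j1)) (0, j1)
    have e2 := congrFun (congrFun hg (0, j1)) (1, j1)
    have e3 := congrFun (congrFun hg (0, j0)) (1, j0)
    simp only [blk_apply1 j0 j1 hj10, Matrix.kroneckerMap_apply] at e1 e2
    simp only [blk_apply0, Matrix.kroneckerMap_apply] at e3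
    have hb : (b : Matrix (Fin n₂) (Fin n₂) F) j1 j1 ≠ 0 := by
      intro h0
      rw [h0, mul_zero] at e1
      simp at e1
    have ha0 : (a : Matrix (Fin 2) (Fin 2) F) 0 1 = 0 := by
      have h5 : (a : Matrix (Fin 2) (Fin 2) F) 0 1 * (b : Matrix (Fin n₂) (Fin n₂) F) j1 j1 = 0 := by
        rw [← e2]
        simp
      rcases mul_eq_zero.mp h5 with h | h
      · exact h
      · exact absurd h hb
    rw [ha0, zero_mul] at e3
    simp [om] at e3
  have ht : t ∉ nrm z := by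
    intro h
    have hv : ((t * z * t⁻¹ : Matrix.GeneralLinearGroup (Fin 2 × Fin n₂) F) :
        Matrix (Fin 2 × Fin n₂) (Fin 2 × Fin n₂) F) = blk j0 om2 om := by
      rw [Units.val_mul, Units.val_mul, htv, htiv, hzv, blk_mul, blk_mul, tau_om_tau,
        Matrix.one_mul, Matrix.mul_one]
    rcases h with h | h
    · rw [h, hzv] at hv
      have e1 := congrFun (congrFun hv (0, j0)) (0, j0)
      rw [blk_apply0, blk_apply0] at e1
      simp [om, om2] at e1
    · rw [h, hziv] at hv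
      have e1 := congrFun (congrFun hv (0, j1)) (0, j1)
      rw [blk_apply1 j0 j1 hj10, blk_apply1 j0 j1 hj10] at e1
      simp [om, om2] at e1
  have hne : Cfsg.Geo.kroneckerSubgroup 2 n₂ F ≠ nrm z := fun h => hd2 (h ▸ hd1)
  have hne2 : nrm z ≠ ⊤ := fun h => ht (h ▸ Subgroup.mem_top t)
  have hφ : Function.Injective (Cfsg.Geo.glReindex (F := F) e.symm).toMonoidHom :=
    (Cfsg.Geo.glReindex (F := F) e.symm).injective
  have hψ : Function.Injective (MulAut.conj P).toMonoidHom := (MulAut.conj P).injective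
  have hφs : Function.Surjective (Cfsg.Geo.glReindex (F := F) e.symm).toMonoidHom :=
    (Cfsg.Geo.glReindex (F := F) e.symm).surjective
  have hψs : Function.Surjective (MulAut.conj P).toMonoidHom := (MulAut.conj P).surjective
  refine ⟨((nrm z).map (Cfsg.Geo.glReindex (F := F) e.symm).toMonoidHom).map
    (MulAut.conj P).toMonoidHom, ?_, ?_⟩
  · rw [hSL, inf_top_eq]
    show ((Cfsg.Geo.kroneckerSubgroup 2 n₂ F).map
      (Cfsg.Geo.glReindex (F := F) e.symm).toMonoidHom).map (MulAut.conj P).toMonoidHom < _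
    refine lt_of_le_of_ne (Subgroup.map_mono (Subgroup.map_mono hle)) ?_
    intro h
    exact hne (Subgroup.map_injective hφ (Subgroup.map_injective hψ h))
  · rw [hSL, lt_top_iff_ne_top]
    intro h
    apply hne2
    apply Subgroup.map_injective hφ
    apply Subgroup.map_injective hψ
    rw [h, Subgroup.map_top_of_surjective _ hφs, Subgroup.map_top_of_surjective _ hψs]

end Cfsg.Agent.S5638
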