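import Mathlib
import Cfsg.Statements.S5705
import Cfsg.Agent.Helper4.OrthPlane
import Cfsg.Agent.Helper4.TensorO3
import Cfsg.Agent.S5638

set_option autoImplicit false
open Cfsg

namespace Cfsg.Agent.S5705

open Matrix Cfsg.Agent.Helper4.OrthPlane Cfsg.Agent.Helper4.TensorO3
open scoped Kronecker

/-- In characteristic `2`, the commutator of the orthogonal transvections along `a` and `b`
(with `Q a = Q b = B(a,b) = 1`) is the rotation of order `3` of the plane `⟨a, b⟩`. -/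
theorem comm_formula {ι : Type} [Fintype ι] [DecidableEq ι] {F : Type*} [Field F]
    (Q : (ι → F) → F) (hQ : Cfsg.Geo.IsNondegenerateQuadraticForm Q) (hch : (2 : F) = 0)
    (a b : ι → F) (ha : Q a = 1) (hb : Q b = 1) (hab : Bf Q hQ a b = 1) :
    ∃ g : Matrix.GeneralLinearGroup ι F, g ∈ Cfsg.Geo.omegaGL Q ∧
      ∀ x, (g : Matrix ι ι F) *ᵥ x
        = x + Bf Q hQ a x • a + (Bf Q hQ a x + Bf Q hQ b x) • b := by
  have ha0 : Q a ≠ 0 := by
    rw [ha]
    exact one_ne_zero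
  have hb0 : Q b ≠ 0 := by
    rw [hb]
    exact one_ne_zero
  have hn : ∀ t : F, -t = t := by
    intro t
    linear_combination (-t) * hch
  have hRa : ∀ y, R Q hQ a *ᵥ y = y + Bf Q hQ a y • a := by
    intro y
    rw [R_mulVec, ha, inv_one, one_mul, sub_eq_add_neg, ← neg_smul, hn]
  have hRb : ∀ y, R Q hQ b *ᵥ y = y + Bf Q hQ b y • b := by
    intro y
    rw [R_mulVec, hb, inv_one, one_mul, sub_eq_add_neg, ← neg_smul, hn]
  have hba : Bf Q hQ b a = 1 := by rw [Bf_symm Q hQ b a, hab]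
  have haa : Bf Q hQ a a = 0 := by rw [Bf_self Q hQ, hch, zero_mul]
  have hbb : Bf Q hQ b b = 0 := by rw [Bf_self Q hQ, hch, zero_mul]
  refine ⟨rG Q hQ a ha0 * rG Q hQ b hb0 * (rG Q hQ a ha0)⁻¹ * (rG Q hQ b hb0)⁻¹,
    comm_mem_omega Q _ _ (rG_mem Q hQ _ ha0) (rG_mem Q hQ _ hb0), fun x => ?_⟩
  show (R Q hQ a * R Q hQ b * R Q hQ a * R Q hQ b) *ᵥ x = _
  simp only [← Matrix.mulVec_mulVec]
  obtain ⟨α, hα⟩ : ∃ α : F, α = Bf Q hQ a x := ⟨_, rfl⟩
  obtain ⟨β, hβ⟩ : ∃ β : F, β = Bf Q hQ b x := ⟨_, rfl⟩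
  have s1 : R Q hQ b *ᵥ x = x + β • b := by rw [hRb, hβ]
  have s2 : R Q hQ a *ᵥ (x + β • b) = x + β • b + (α + β) • a := by
    rw [hRa, map_add, map_smul, smul_eq_mul, hab, mul_one, hα]
  have s3 : R Q hQ b *ᵥ (x + β • b + (α + β) • a) = x + β • b + (α + β) • a + α • b := by
    rw [hRb, map_add, map_add, map_smul, map_smul, smul_eq_mul, smul_eq_mul, hbb, hba, ← hβ]
    have e3 : β + β * 0 + (α + β) * 1 = α := by linear_combination β * hch
    rw [e3]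
  have s4 : R Q hQ a *ᵥ (x + β • b + (α + β) • a + α • b)
      = x + β • b + (α + β) • a + α • b + β • a := by
    rw [hRa, map_add, map_add, map_add, map_smul, map_smul, map_smul, smul_eq_mul, smul_eq_mul,
      smul_eq_mul, hab, haa, ← hα]
    have e3 : α + β * 1 + (α + β) * 0 + α * 1 = β := by linear_combination α * hch
    rw [e3]
  rw [s1, s2, s3, s4, ← hα, ← hβ]
  have e4 : x + β • b + (α + β) • a + α • b + β • a
      = x + α • a + (α + β) • b + (2 * β) • a := by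
    module
  rw [e4, hch, zero_mul, zero_smul, add_zero]

/-- The action of a conjugated reindexed matrix on the coordinate embedding. -/
theorem conj_act {ι : Type} [Fintype ι] [DecidableEq ι] {F : Type*} [Field F] {n₁ n₂ : ℕ}
    (e : ι ≃ Fin n₁ × Fin n₂) (P : Matrix.GeneralLinearGroup ι F)
    (k : Matrix.GeneralLinearGroup (Fin n₁ × Fin n₂) F) (x : Fin n₁ × Fin n₂ → F) :
    ((P * (Cfsg.Geo.glReindex e.symm k) * P⁻¹ : Matrix.GeneralLinearGroup ι F) : Matrix ι ι F)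
        *ᵥ Phi e P x
      = Phi e P ((k : Matrix (Fin n₁ × Fin n₂) (Fin n₁ × Fin n₂) F) *ᵥ x) := by
  have h1 : ((P * (Cfsg.Geo.glReindex e.symm k) * P⁻¹ : Matrix.GeneralLinearGroup ι F) :
        Matrix ι ι F) * (P : Matrix ι ι F)
      = (P : Matrix ι ι F) *
        ((k : Matrix (Fin n₁ × Fin n₂) (Fin n₁ × Fin n₂) F).submatrix e e) := by
    rw [← Units.val_mul, inv_mul_cancel_right, Units.val_mul]
    rfl
  have h2 : (x ∘ e) ∘ e.symm = x := by
    funext a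
    simp
  unfold Phi
  rw [Matrix.mulVec_mulVec, h1, ← Matrix.mulVec_mulVec, Matrix.submatrix_mulVec_equiv, h2]

/-- Every vector is a sum of two pure tensors along the standard basis of the plane. -/
theorem tp_dec {ι : Type} [Fintype ι] [DecidableEq ι] {F : Type*} [Field F] {n₂ : ℕ}
    (e : ι ≃ Fin 2 × Fin n₂) (P : Matrix.GeneralLinearGroup ι F) (x : ι → F) :
    ∃ w₀ w₁ : Fin n₂ → F, x = TP e P ![1, 0] w₀ + TP e P ![0, 1] w₁ := by
  obtain ⟨X, hX⟩ : ∃ X : Fin 2 × Fin n₂ → F,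
      X = (((P⁻¹ : Matrix.GeneralLinearGroup ι F) : Matrix ι ι F) *ᵥ x) ∘ e.symm := ⟨_, rfl⟩
  have h1 : Phi e P X = x := by
    unfold Phi
    have h3 : X ∘ e = ((P⁻¹ : Matrix.GeneralLinearGroup ι F) : Matrix ι ι F) *ᵥ x := by
      rw [hX]
      funext i
      simp
    rw [h3, Matrix.mulVec_mulVec, ← Units.val_mul, mul_inv_cancel, Units.val_one,
      Matrix.one_mulVec]
  refine ⟨fun j => X (0, j), fun j => X (1, j), ?_⟩
  unfold TP
  rw [← Phi_add]
  have h4 : X = pt ![1, 0] (fun j => X (0, j)) + pt ![0, 1] (fun j => X (1, j)) := by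
    funext ⟨i, j⟩
    fin_cases i <;> simp [pt]
  rw [← h4, h1]

/-- Kronecker products with a `2 × 2` factor over `F₂` normalise `⟨ω ⊗ 1⟩`. -/
theorem kron_le_nrm {F : Type*} [Field F] (hch : (2 : F) = 0) (h01 : ∀ x : F, x = 0 ∨ x = 1)
    {n₂ : ℕ} (z : Matrix.GeneralLinearGroup (Fin 2 × Fin n₂) F)
    (hz : (z : Matrix (Fin 2 × Fin n₂) (Fin 2 × Fin n₂) F)
        = Cfsg.Agent.S5638.om ⊗ₖ (1 : Matrix (Fin n₂) (Fin n₂) F))
    (hzi : ((z⁻¹ : Matrix.GeneralLinearGroup (Fin 2 × Fin n₂) F) :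
        Matrix (Fin 2 × Fin n₂) (Fin 2 × Fin n₂) F)
        = Cfsg.Agent.S5638.om2 ⊗ₖ (1 : Matrix (Fin n₂) (Fin n₂) F)) :
    Cfsg.Geo.kroneckerSubgroup 2 n₂ F ≤ Cfsg.Agent.S5638.nrm z := by
  rintro g ⟨a, b, hg⟩
  have ha := Cfsg.Agent.S5638.conj_aux hch h01 ((a : Matrix (Fin 2) (Fin 2) F) 0 0)
    ((a : Matrix (Fin 2) (Fin 2) F) 0 1) ((a : Matrix (Fin 2) (Fin 2) F) 1 0)
    ((a : Matrix (Fin 2) (Fin 2) F) 1 1) (by
      have h := ((Matrix.isUnit_iff_isUnit_det _).mp a.isUnit).ne_zero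
      rw [Matrix.det_fin_two] at h
      exact h)
  rw [← Matrix.eta_fin_two (a : Matrix (Fin 2) (Fin 2) F)] at ha
  rcases ha with ha | ha
  · apply Cfsg.Agent.S5638.mem_nrm_of_comm
    apply Units.ext
    rw [Units.val_mul, Units.val_mul, hg, hz, ← Matrix.mul_kronecker_mul,
      ← Matrix.mul_kronecker_mul, Matrix.mul_one, Matrix.one_mul, ha]
  · apply Cfsg.Agent.S5638.mem_nrm_of_inv
    apply Units.ext
    rw [Units.val_mul, Units.val_mul, hg, hz, hzi, ← Matrix.mul_kronecker_mul,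
      ← Matrix.mul_kronecker_mul, Matrix.mul_one, Matrix.one_mul, ha]

/-- Transport of the previous lemma to the tensor product subgroup. -/
theorem tensor_le_nrm {F : Type*} [Field F] {n n₂ : ℕ}
    (e : Fin n ≃ Fin 2 × Fin n₂) (P : Matrix.GeneralLinearGroup (Fin n) F)
    (z : Matrix.GeneralLinearGroup (Fin 2 × Fin n₂) F)
    (hle : Cfsg.Geo.kroneckerSubgroup 2 n₂ F ≤ Cfsg.Agent.S5638.nrm z) :
    Cfsg.Geo.tensorProductSubgroup 2 n₂ e P
      ≤ Cfsg.Agent.S5638.nrm (P * (Cfsg.Geo.glReindex e.symm z) * P⁻¹) := by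
  intro g hg
  obtain ⟨h, hh, hgh⟩ := Subgroup.mem_map.mp hg
  obtain ⟨k, hk, hkh⟩ := Subgroup.mem_map.mp hh
  have hgv : g = P * (Cfsg.Geo.glReindex e.symm k) * P⁻¹ := by
    rw [← hgh, ← hkh]
    rfl
  have e1 : g * (P * (Cfsg.Geo.glReindex e.symm z) * P⁻¹) * g⁻¹
      = P * (Cfsg.Geo.glReindex e.symm (k * z * k⁻¹)) * P⁻¹ := by
    rw [hgv, map_mul, map_mul, map_inv]
    group
  rcases hle hk with h1 | h1
  · exact Or.inl (by rw [e1, h1])
  · refine Or.inr ?_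
    rw [e1, h1, map_inv]
    group

/-- Over the field with 2 elements, for n = 2 n₂ ≥ 13 and n₂ > 2, the stabiliser in Ω of a tensor decomposition of the
polar form into symplectic forms in dimensions 2 and n₂, with Q vanishing on all pure tensors, is not maximal. -/
theorem result {F : Type*} [Field F] [Fintype F] {n : ℕ} (hn : 13 ≤ n) (heven : Even n) (Q : (Fin n → F) → F) (hQ : Cfsg.Geo.IsNondegenerateQuadraticForm Q) (hplus : Cfsg.Geo.IsPlusTypeOn Q ⊤) (hq : Fintype.card F = 2) (n₂ : ℕ) (h2 : 2 < n₂) (e : (Fin n) ≃ Fin 2 × Fin n₂) (P : Matrix.GeneralLinearGroup (Fin n) F) (f₁ : (Fin 2 → F) → (Fin 2 → F) → F) (f₂ : (Fin n₂ → F) → (Fin n₂ → F) → F) (hf₁ : Cfsg.Geo.IsSymplecticForm f₁) (hf₂ : Cfsg.Geo.IsSymplecticForm f₂) (hT : Cfsg.Geo.IsTensorFormStructure id (QuadraticMap.polar Q) f₁ f₂ e P) (hpure : (∀ (x₁ : Fin 2 → F) (x₂ : Fin n₂ → F), Q (Matrix.mulVec (P : Matrix (Fin n) (Fin n) F) ((fun a : Fin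 2 × Fin n₂ => x₁ a.1 * x₂ a.2) ∘ e)) = 0)) : ∃ K : Subgroup (Matrix.GeneralLinearGroup (Fin n) F), Cfsg.Geo.tensorProductSubgroup 2 n₂ e P ⊓ Cfsg.Geo.omegaGL Q < K ∧ K < Cfsg.Geo.omegaGL Q := by
  classical
  have hch : (2 : F) = 0 := by
    have h := Nat.cast_card_eq_zero F
    rw [hq] at h
    exact_mod_cast h
  have h01 : ∀ x : F, x = 0 ∨ x = 1 := by
    intro x
    by_contra hx
    push_neg at hx
    have h3 : 2 < Fintype.card F :=
      Fintype.two_lt_card_iff.mpr ⟨0, 1, x, zero_ne_one, hx.1.symm, hx.2.symm⟩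
    omega
  have hone : ∀ x : F, x ≠ 0 → x = 1 := fun x hx => (h01 x).resolve_left hx
  have hnegF : ∀ x : F, -x = x := by
    intro x
    linear_combination (-x) * hch
  have hvv : ∀ v : Fin n → F, v + v = 0 := by
    intro v
    rw [← two_smul F v, hch, zero_smul]
  obtain ⟨c₀, hc₀, hform⟩ := tensor_form e P (QuadraticMap.polar Q) f₁ f₂ hf₁.bilinear
    hf₂.bilinear hT
  have hc1 : c₀ = 1 := hone c₀ hc₀
  have hB : ∀ (u : Fin 2 → F) (w : Fin n₂ → F) (u' : Fin 2 → F) (w' : Fin n₂ → F),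
      Bf Q hQ (TP e P u w) (TP e P u' w') = f₁ u u' * f₂ w w' := by
    intro u w u' w'
    rw [Bf_apply, hform, hc1, one_mul]
  have hQT : ∀ (u : Fin 2 → F) (w : Fin n₂ → F), Q (TP e P u w) = 0 := fun u w => hpure u w
  -- the standard basis of the plane
  obtain ⟨b0, hb0⟩ : ∃ b0 : Fin 2 → F, b0 = ![1, 0] := ⟨_, rfl⟩
  obtain ⟨b1, hb1⟩ : ∃ b1 : Fin 2 → F, b1 = ![0, 1] := ⟨_, rfl⟩
  have hb00 : b0 0 = 1 := by
    rw [hb0]
    rfl
  have hb01 : b0 1 = 0 := by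
    rw [hb0]
    rfl
  have hb10 : b1 0 = 0 := by
    rw [hb1]
    rfl
  have hb11 : b1 1 = 1 := by
    rw [hb1]
    rfl
  have hom0 : (Cfsg.Agent.S5638.om : Matrix (Fin 2) (Fin 2) F) *ᵥ b0 = b1 := by
    rw [hb0, hb1]
    funext i
    fin_cases i <;> simp [Cfsg.Agent.S5638.om, Matrix.mulVec, dotProduct, Fin.sum_univ_two]
  have hom1 : (Cfsg.Agent.S5638.om : Matrix (Fin 2) (Fin 2) F) *ᵥ b1 = b0 + b1 := by
    rw [hb0, hb1]
    funext i
    fin_cases i <;> simp [Cfsg.Agent.S5638.om, Matrix.mulVec, dotProduct, Fin.sum_univ_two]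
  have h00 : f₁ b0 b0 = 0 := hf₁.alternating b0
  have h11 : f₁ b1 b1 = 0 := hf₁.alternating b1
  have hγ : f₁ b0 b1 = 1 := by
    apply hone
    intro h0
    have hb0ne : b0 ≠ 0 := by
      intro h
      have h' := congrFun h 0
      rw [hb00] at h'
      exact one_ne_zero h'
    obtain ⟨-, ⟨x, hx⟩⟩ := hf₁.nondegenerate b0 hb0ne
    have hxd : x 0 • b0 + x 1 • b1 = x := by
      rw [hb0, hb1]
      funext i
      fin_cases i <;> simp
    rw [← hxd, hf₁.bilinear.add_right, hf₁.bilinear.smul_right, hf₁.bilinear.smul_right, h00,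
      h0, mul_zero, mul_zero, add_zero] at hx
    exact hx rfl
  have h10 : f₁ b1 b0 = 1 := by
    rw [hf₁.skew b1 b0, hγ, hnegF]
  -- a hyperbolic pair `p, p'` of the second factor and a vector `q` orthogonal to both
  have hn₂ : 0 < n₂ := by omega
  obtain ⟨p, hp⟩ : ∃ p : Fin n₂ → F, p ≠ 0 := by
    refine ⟨Pi.single ⟨0, hn₂⟩ 1, fun h => ?_⟩
    have h' := congrFun h ⟨0, hn₂⟩
    simp at h'
  obtain ⟨-, ⟨p', hp'⟩⟩ := hf₂.nondegenerate p hp
  have hpp : f₂ p p' = 1 := hone _ hp'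
  have hp'p : f₂ p' p = 1 := by
    rw [hf₂.skew p' p, hpp, hnegF]
  obtain ⟨q, hq0, hqk⟩ := exists_ker 2 ![bl f₂ hf₂.bilinear p, bl f₂ hf₂.bilinear p']
    (by rw [Fintype.card_fin]; exact h2)
  have hpq : f₂ p q = 0 := hqk 0
  have hp'q : f₂ p' q = 0 := hqk 1
  have hqq : f₂ q q = 0 := hf₂.alternating q
  have hp0 : f₂ p p = 0 := hf₂.alternating p
  have hp'0 : f₂ p' p' = 0 := hf₂.alternating p'
  obtain ⟨j₀, hj₀⟩ : ∃ j, q j ≠ 0 := by
    by_contra hcon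
    push_neg at hcon
    exact hq0 (funext hcon)
  -- the vectors `a`, `c = z a`, `b = c + t`
  obtain ⟨a, ha⟩ : ∃ a : Fin n → F, a = TP e P b0 p + TP e P b1 p' := ⟨_, rfl⟩
  obtain ⟨c, hc⟩ : ∃ c : Fin n → F, c = TP e P b1 p + (TP e P b0 p' + TP e P b1 p') :=
    ⟨_, rfl⟩
  obtain ⟨b, hb⟩ : ∃ b : Fin n → F, b = c + TP e P b0 q := ⟨_, rfl⟩
  have hQa : Q a = 1 := by
    rw [ha, Q_add Q hQ, hQT, hQT, hB, hγ, hpp]
    ring
  have hQc : Q c = 1 := by
    rw [hc, Q_add Q hQ, Q_add Q hQ, hQT, hQT, hQT]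
    simp only [map_add, hB, h00, h11, hγ, h10, hp0, hp'0, hpp, hp'p]
    ring
  have hac : Bf Q hQ a c = 1 := by
    simp only [ha, hc, map_add, LinearMap.add_apply, hB, h00, h11, hγ, h10, hp0, hp'0, hpp,
      hp'p]
    ring
  have hct : Bf Q hQ c (TP e P b0 q) = 0 := by
    simp only [hc, map_add, LinearMap.add_apply, hB, h00, h11, hγ, h10, hpq, hp'q]
    ring
  have hat : Bf Q hQ a (TP e P b0 q) = 0 := by
    simp only [ha, map_add, LinearMap.add_apply, hB, h00, h11, hγ, h10, hpq, hp'q]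
    ring
  have hQb : Q b = 1 := by
    rw [hb, Q_add Q hQ, hQc, hQT, hct]
    ring
  have hab : Bf Q hQ a b = 1 := by
    rw [hb, map_add, hac, hat, add_zero]
  obtain ⟨g₁, hg₁Ω, hg₁⟩ := comm_formula Q hQ hch a c hQa hQc hac
  obtain ⟨g₂, hg₂Ω, hg₂⟩ := comm_formula Q hQ hch a b hQa hQb hab
  -- the element `z` of order `3`
  obtain ⟨z, hzv, hziv⟩ : ∃ z : Matrix.GeneralLinearGroup (Fin 2 × Fin n₂) F,
      (z : Matrix (Fin 2 × Fin n₂) (Fin 2 × Fin n₂) F)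
        = Cfsg.Agent.S5638.om ⊗ₖ (1 : Matrix (Fin n₂) (Fin n₂) F) ∧
      ((z⁻¹ : Matrix.GeneralLinearGroup (Fin 2 × Fin n₂) F) :
        Matrix (Fin 2 × Fin n₂) (Fin 2 × Fin n₂) F)
        = Cfsg.Agent.S5638.om2 ⊗ₖ (1 : Matrix (Fin n₂) (Fin n₂) F) :=
    ⟨⟨Cfsg.Agent.S5638.om ⊗ₖ 1, Cfsg.Agent.S5638.om2 ⊗ₖ 1,
      by rw [← Matrix.mul_kronecker_mul, Cfsg.Agent.S5638.om_om2 hch, Matrix.mul_one,
        Matrix.one_kronecker_one],
      by rw [← Matrix.mul_kronecker_mul, Cfsg.Agent.S5638.om2_om hch, Matrix.mul_one,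
        Matrix.one_kronecker_one]⟩, rfl, rfl⟩
  obtain ⟨z', hz'⟩ : ∃ z' : Matrix.GeneralLinearGroup (Fin n) F,
      z' = P * (Cfsg.Geo.glReindex e.symm z) * P⁻¹ := ⟨_, rfl⟩
  have hzT : ∀ (u : Fin 2 → F) (w : Fin n₂ → F),
      (z' : Matrix (Fin n) (Fin n) F) *ᵥ TP e P u w
        = TP e P (Cfsg.Agent.S5638.om *ᵥ u) w := by
    intro u w
    rw [hz']
    unfold TP
    rw [conj_act, hzv, kron_pt, Matrix.one_mulVec]
  have hz0 : ∀ w : Fin n₂ → F,
      (z' : Matrix (Fin n) (Fin n) F) *ᵥ TP e P b0 w = TP e P b1 w := by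
    intro w
    rw [hzT, hom0]
  have hz1 : ∀ w : Fin n₂ → F,
      (z' : Matrix (Fin n) (Fin n) F) *ᵥ TP e P b1 w = TP e P b0 w + TP e P b1 w := by
    intro w
    rw [hzT, hom1, TP_add_left]
  have hdec : ∀ x : Fin n → F, ∃ w₀ w₁ : Fin n₂ → F, x = TP e P b0 w₀ + TP e P b1 w₁ := by
    intro x
    rw [hb0, hb1]
    exact tp_dec e P x
  have hzB : ∀ x y : Fin n → F, Bf Q hQ ((z' : Matrix (Fin n) (Fin n) F) *ᵥ x)
      ((z' : Matrix (Fin n) (Fin n) F) *ᵥ y) = Bf Q hQ x y := by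
    intro x y
    obtain ⟨x₀, x₁, rfl⟩ := hdec x
    obtain ⟨y₀, y₁, rfl⟩ := hdec y
    rw [Matrix.mulVec_add, Matrix.mulVec_add, hz0, hz1, hz0, hz1]
    simp only [map_add, LinearMap.add_apply, hB, h00, h11, hγ, h10]
    linear_combination (f₂ x₁ y₁) * hch
  have hza : (z' : Matrix (Fin n) (Fin n) F) *ᵥ a = c := by
    rw [ha, hc, Matrix.mulVec_add, hz0, hz1]
  have hzc : (z' : Matrix (Fin n) (Fin n) F) *ᵥ c = a + c := by
    rw [ha, hc, Matrix.mulVec_add, Matrix.mulVec_add, hz1, hz0, hz1]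
    abel
  have hBc' : ∀ x : Fin n → F,
      Bf Q hQ c ((z' : Matrix (Fin n) (Fin n) F) *ᵥ x) = Bf Q hQ a x := by
    intro x
    rw [← hza, hzB]
  have hBa' : ∀ x : Fin n → F,
      Bf Q hQ a ((z' : Matrix (Fin n) (Fin n) F) *ᵥ x) = Bf Q hQ a x + Bf Q hQ c x := by
    intro x
    have h5 : Bf Q hQ (a + c) ((z' : Matrix (Fin n) (Fin n) F) *ᵥ x) = Bf Q hQ c x := by
      rw [← hzc, hzB]
    rw [map_add, LinearMap.add_apply, hBc'] at h5
    linear_combination h5 - (Bf Q hQ a x) * hch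
  have hg₁n : g₁ ∈ Cfsg.Agent.S5638.nrm z' := by
    apply Cfsg.Agent.S5638.mem_nrm_of_comm
    apply Units.ext
    rw [Units.val_mul, Units.val_mul]
    apply mat_ext
    intro x
    rw [← Matrix.mulVec_mulVec, ← Matrix.mulVec_mulVec, hg₁, hg₁, Matrix.mulVec_add,
      Matrix.mulVec_add, Matrix.mulVec_smul, Matrix.mulVec_smul, hza, hzc, hBa', hBc']
    module
  have hg₁T : g₁ ∉ Cfsg.Geo.tensorProductSubgroup 2 n₂ e P := by
    intro hmem
    obtain ⟨A, B, -, -, hAB⟩ := mem_tensor' e P g₁ hmem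
    have hcp : Bf Q hQ c (TP e P b0 p') = 1 := by
      simp only [hc, map_add, LinearMap.add_apply, hB, h00, h11, hγ, h10, hpp, hp'0]
      ring
    have hap : Bf Q hQ a (TP e P b0 p') = 0 := by
      simp only [ha, map_add, LinearMap.add_apply, hB, h00, h11, hγ, h10, hpp, hp'0]
      ring
    have h1 : TP e P (A *ᵥ b0) (B *ᵥ q) = TP e P b0 q := by
      rw [← hAB, hg₁, hat, hct, add_zero, zero_smul, zero_smul, add_zero, add_zero]
    have h2' : TP e P (A *ᵥ b0) (B *ᵥ p') = TP e P b1 (p + p') := by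
      rw [← hAB, hg₁, hap, hcp, zero_add, zero_smul, add_zero, one_smul, hc, TP_add_right]
      have e1 : TP e P b0 p' + (TP e P b1 p + (TP e P b0 p' + TP e P b1 p'))
          = TP e P b1 p + TP e P b1 p' + (TP e P b0 p' + TP e P b0 p') := by abel
      rw [e1, hvv, add_zero]
    have hBq : (B *ᵥ q) j₀ ≠ 0 := by
      intro h0
      have h6 := TP_coord e P h1 0 j₀
      rw [h0, mul_zero, hb00, one_mul] at h6
      exact hj₀ h6.symm
    have hA1 : (A *ᵥ b0) 1 = 0 := by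
      have h6 := TP_coord e P h1 1 j₀
      rw [hb01, zero_mul] at h6
      rcases mul_eq_zero.mp h6 with h7 | h7
      · exact h7
      · exact absurd h7 hBq
    have hpe : p' = p := by
      funext j
      have h6 := TP_coord e P h2' 1 j
      rw [hA1, zero_mul, hb11, one_mul, Pi.add_apply] at h6
      linear_combination (-1 : F) * h6 - (p j) * hch
    rw [hpe, hp0] at hpp
    exact zero_ne_one hpp
  -- `g₂` does not normalise `⟨z⟩`
  have hbq0 : Bf Q hQ b (TP e P b0 q) = 0 := by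
    simp only [hb, hc, map_add, LinearMap.add_apply, hB, h00, h11, hγ, h10, hpq, hp'q, hqq]
    ring
  have haq1 : Bf Q hQ a (TP e P b1 q) = 0 := by
    simp only [ha, map_add, LinearMap.add_apply, hB, h00, h11, hγ, h10, hpq, hp'q]
    ring
  have hbq1 : Bf Q hQ b (TP e P b1 q) = 0 := by
    simp only [hb, hc, map_add, LinearMap.add_apply, hB, h00, h11, hγ, h10, hpq, hp'q, hqq]
    ring
  have hg₂q0 : (g₂ : Matrix (Fin n) (Fin n) F) *ᵥ TP e P b0 q = TP e P b0 q := by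
    rw [hg₂, hat, hbq0, add_zero, zero_smul, zero_smul, add_zero, add_zero]
  have hg₂q1 : (g₂ : Matrix (Fin n) (Fin n) F) *ᵥ TP e P b1 q = TP e P b1 q := by
    rw [hg₂, haq1, hbq1, add_zero, zero_smul, zero_smul, add_zero, add_zero]
  have haa : Bf Q hQ a a = 0 := by rw [Bf_self Q hQ, hch, zero_mul]
  have hba : Bf Q hQ b a = 1 := by rw [Bf_symm Q hQ b a, hab]
  have hbc : Bf Q hQ b c = 0 := by
    rw [hb, map_add, LinearMap.add_apply, Bf_self Q hQ, hch, zero_mul,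
      Bf_symm Q hQ (TP e P b0 q) c, hct, add_zero]
  have hg₂a : (g₂ : Matrix (Fin n) (Fin n) F) *ᵥ a = a + b := by
    rw [hg₂, haa, hba, zero_add, zero_smul, add_zero, one_smul]
  have hg₂c : (g₂ : Matrix (Fin n) (Fin n) F) *ᵥ c = c + a + b := by
    rw [hg₂, hac, hbc, add_zero, one_smul, one_smul]
  have hg₂n : g₂ ∉ Cfsg.Agent.S5638.nrm z' := by
    intro h
    rcases h with h | h
    · have h' : g₂ * z' = z' * g₂ := mul_inv_eq_iff_eq_mul.mp h
      have h5 := congrArg (fun M : Matrix.GeneralLinearGroup (Fin n) F =>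
        (M : Matrix (Fin n) (Fin n) F) *ᵥ a) h'
      simp only [Units.val_mul, ← Matrix.mulVec_mulVec] at h5
      rw [hza, hg₂c, hg₂a, Matrix.mulVec_add, hza, hb, Matrix.mulVec_add, hzc, hz0] at h5
      have e1 : c + a + (c + TP e P b0 q) = (c + a + c) + TP e P b0 q := by abel
      have e2 : c + (a + c + TP e P b1 q) = (c + a + c) + TP e P b1 q := by abel
      rw [e1, e2] at h5
      have h6 := TP_coord e P (add_left_cancel h5) 0 j₀
      rw [hb00, hb10, one_mul, zero_mul] at h6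
      exact hj₀ h6
    · have h' : z' * (g₂ * z') = g₂ := by
        rw [mul_inv_eq_iff_eq_mul.mp h, mul_inv_cancel_left]
      have h5 := congrArg (fun M : Matrix.GeneralLinearGroup (Fin n) F =>
        (M : Matrix (Fin n) (Fin n) F) *ᵥ TP e P b0 q) h'
      simp only [Units.val_mul, ← Matrix.mulVec_mulVec] at h5
      rw [hz0, hg₂q1, hz1, hg₂q0] at h5
      rw [← TP_add_left] at h5
      have h6 := TP_coord e P h5 1 j₀
      rw [Pi.add_apply, hb01, hb11, zero_add, one_mul, zero_mul] at h6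
      exact hj₀ h6
  have hle : Cfsg.Geo.tensorProductSubgroup 2 n₂ e P ≤ Cfsg.Agent.S5638.nrm z' := by
    rw [hz']
    exact tensor_le_nrm e P z (kron_le_nrm hch h01 z hzv hziv)
  refine ⟨Cfsg.Agent.S5638.nrm z' ⊓ Cfsg.Geo.omegaGL Q, ?_, ?_⟩
  · refine lt_of_le_of_ne (inf_le_inf_right _ hle) (fun heq => hg₁T ?_)
    have h5 : g₁ ∈ Cfsg.Geo.tensorProductSubgroup 2 n₂ e P ⊓ Cfsg.Geo.omegaGL Q := by
      rw [heq]
      exact ⟨hg₁n, hg₁Ω⟩
    exact h5.1
  · refine lt_of_le_of_ne inf_le_right (fun heq => hg₂n ?_)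
    have h5 : g₂ ∈ Cfsg.Agent.S5638.nrm z' ⊓ Cfsg.Geo.omegaGL Q := by
      rw [heq]
      exact hg₂Ω
    exact h5.1

end Cfsg.Agent.S5705
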