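import Mathlib
import Cfsg.Statements.S5656

set_option autoImplicit false
open Cfsg

namespace Cfsg.Agent.S5656

open Matrix

variable {F : Type*} [Field F] [Fintype F]

theorem two_eq_zero (hF : Fintype.card F = 4) : (2 : F) = 0 := by
  have h := Nat.cast_card_eq_zero F
  rw [hF] at h
  have h4 : (2 : F) * 2 = 0 := by
    rw [← h]
    norm_num
  exact mul_self_eq_zero.mp h4

theorem pow_four (hF : Fintype.card F = 4) (x : F) : x ^ 4 = x := by
  have h := FiniteField.pow_card x
  rwa [hF] at h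

theorem cube (hF : Fintype.card F = 4) (x : F) (hx : x ≠ 0) : x ^ 3 = 1 := by
  have h := pow_four hF x
  have h2 : x * (x ^ 3 - 1) = 0 := by linear_combination h
  rcases mul_eq_zero.mp h2 with h3 | h3
  · exact absurd h3 hx
  · exact sub_eq_zero.mp h3

theorem add_sq' (hF : Fintype.card F = 4) (a b : F) : (a + b) ^ 2 = a ^ 2 + b ^ 2 := by
  have h2 := two_eq_zero hF
  linear_combination (a * b) * h2

variable {n : ℕ}

theorem f_add_left (x x' y : Fin n → F) :
    hermForm n F 2 (x + x') y = hermForm n F 2 x y + hermForm n F 2 x' y := by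
  unfold hermForm
  rw [← Finset.sum_add_distrib]
  exact Finset.sum_congr rfl (fun i _ => by rw [Pi.add_apply]; ring)

theorem f_smul_left (c : F) (x y : Fin n → F) :
    hermForm n F 2 (c • x) y = c * hermForm n F 2 x y := by
  unfold hermForm
  rw [Finset.mul_sum]
  exact Finset.sum_congr rfl (fun i _ => by rw [Pi.smul_apply, smul_eq_mul]; ring)

theorem f_add_right (hF : Fintype.card F = 4) (x y y' : Fin n → F) :
    hermForm n F 2 x (y + y') = hermForm n F 2 x y + hermForm n F 2 x y' := by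
  unfold hermForm
  rw [← Finset.sum_add_distrib]
  exact Finset.sum_congr rfl (fun i _ => by rw [Pi.add_apply, add_sq' hF]; ring)

theorem f_smul_right (c : F) (x y : Fin n → F) :
    hermForm n F 2 x (c • y) = c ^ 2 * hermForm n F 2 x y := by
  unfold hermForm
  rw [Finset.mul_sum]
  exact Finset.sum_congr rfl (fun i _ => by rw [Pi.smul_apply, smul_eq_mul]; ring)

theorem f_conj (hF : Fintype.card F = 4) (x y : Fin n → F) :
    (hermForm n F 2 x y) ^ 2 = hermForm n F 2 y x := by
  classical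
  have hsum : ∀ (s : Finset (Fin n)) (a : Fin n → F),
      (∑ i ∈ s, a i) ^ 2 = ∑ i ∈ s, (a i) ^ 2 := by
    intro s a
    induction s using Finset.induction_on with
    | empty => simp
    | insert i s hi ih => rw [Finset.sum_insert hi, Finset.sum_insert hi, add_sq' hF, ih]
  unfold hermForm
  rw [hsum]
  refine Finset.sum_congr rfl (fun i _ => ?_)
  have h4 : (y i ^ 2) ^ 2 = y i := by
    rw [← pow_mul]
    exact pow_four hF _
  rw [mul_pow, h4, mul_comm]

theorem f_pair (hF : Fintype.card F = 4) (u u' v v' : Fin n → F) (α β γ δ : F) :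
    hermForm n F 2 (α • u + β • u') (γ • v + δ • v')
      = α * γ ^ 2 * hermForm n F 2 u v + α * δ ^ 2 * hermForm n F 2 u v'
        + β * γ ^ 2 * hermForm n F 2 u' v + β * δ ^ 2 * hermForm n F 2 u' v' := by
  rw [f_add_left, f_add_right hF, f_add_right hF, f_smul_left, f_smul_left, f_smul_left,
    f_smul_left, f_smul_right, f_smul_right, f_smul_right, f_smul_right]
  ring

/-- The matrix of `x ↦ x + f(x, v) v`. -/
def tvM (n : ℕ) (v : Fin n → F) : Matrix (Fin n) (Fin n) F :=
  1 + Matrix.vecMulVec v (fun j => v j ^ 2)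

theorem tvM_mulVec (v x : Fin n → F) : tvM n v *ᵥ x = x + hermForm n F 2 x v • v := by
  have hdot : (fun j => v j ^ 2) ⬝ᵥ x = hermForm n F 2 x v := by
    unfold hermForm dotProduct
    exact Finset.sum_congr rfl (fun i _ => mul_comm _ _)
  unfold tvM
  rw [Matrix.add_mulVec, Matrix.one_mulVec, Matrix.vecMulVec_mulVec, hdot]
  ext i
  simp only [Pi.add_apply, Pi.smul_apply, smul_eq_mul, MulOpposite.smul_eq_mul_unop,
    MulOpposite.unop_op]
  ring

theorem tvM_isom (hF : Fintype.card F = 4) (v : Fin n → F) (hv : hermForm n F 2 v v = 0)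
    (x y : Fin n → F) :
    hermForm n F 2 (tvM n v *ᵥ x) (tvM n v *ᵥ y) = hermForm n F 2 x y := by
  have h2 := two_eq_zero hF
  rw [tvM_mulVec, tvM_mulVec, f_add_left, f_add_right hF, f_add_right hF, f_smul_left,
    f_smul_left, f_smul_right, f_smul_right, hv, ← f_conj hF y v]
  linear_combination (hermForm n F 2 x v * (hermForm n F 2 y v) ^ 2) * h2

theorem mat_ext {A B : Matrix (Fin n) (Fin n) F} (h : ∀ x, A *ᵥ x = B *ᵥ x) : A = B :=
  Matrix.toLin'.injective (LinearMap.ext fun x => by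
    rw [Matrix.toLin'_apply, Matrix.toLin'_apply, h])

theorem tvM_sq (hF : Fintype.card F = 4) (v : Fin n → F) (hv : hermForm n F 2 v v = 0) :
    tvM n v * tvM n v = 1 := by
  apply mat_ext
  intro x
  have h2 := two_eq_zero hF
  rw [← Matrix.mulVec_mulVec, tvM_mulVec, tvM_mulVec, f_add_left, f_smul_left, hv, mul_zero,
    add_zero, Matrix.one_mulVec]
  have key : x + hermForm n F 2 x v • v + hermForm n F 2 x v • v
      = x + (hermForm n F 2 x v * 2) • v := by module
  rw [key, h2, mul_zero, zero_smul, add_zero]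

/-- The unitary transvection as an element of `GL`. -/
def tvG (n : ℕ) (v : Fin n → F) (hF : Fintype.card F = 4) (hv : hermForm n F 2 v v = 0) :
    Matrix.GeneralLinearGroup (Fin n) F :=
  ⟨tvM n v, tvM n v, tvM_sq hF v hv, tvM_sq hF v hv⟩

theorem tvG_mem (v : Fin n → F) (hF : Fintype.card F = 4) (hv : hermForm n F 2 v v = 0) :
    tvG n v hF hv ∈ Cfsg.GU n F 2 ⊓ Cfsg.Geo.specialLinear (Fin n) F := by
  refine ⟨?_, ?_⟩
  · show ∀ x y : Fin n → F, hermForm n F 2 (tvM n v *ᵥ x) (tvM n v *ᵥ y) = hermForm n F 2 x y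
    exact tvM_isom hF v hv
  · show Matrix.GeneralLinearGroup.det (tvG n v hF hv) = 1
    apply Units.ext
    rw [Matrix.GeneralLinearGroup.val_det_apply, Units.val_one]
    show (tvM n v).det = 1
    have hd : (tvM n v).det * (tvM n v).det = 1 := by
      rw [← Matrix.det_mul, tvM_sq hF v hv, Matrix.det_one]
    have h2 := two_eq_zero hF
    have h3 : ((tvM n v).det - 1) ^ 2 = 0 := by
      linear_combination hd - ((tvM n v).det - 1) * h2
    exact sub_eq_zero.mp ((pow_eq_zero_iff (by norm_num : (2 : ℕ) ≠ 0)).mp h3)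

theorem stab_of_maps (S : Set (Fin n → F)) (g : Matrix.GeneralLinearGroup (Fin n) F)
    (h : ∀ w ∈ S, (g : Matrix (Fin n) (Fin n) F) *ᵥ w ∈ S) :
    g ∈ Cfsg.stabilizing (Cfsg.glToMat (Fin n) F) S := by
  show ∀ v, v ∈ S ↔ (g : Matrix (Fin n) (Fin n) F) *ᵥ v ∈ S
  intro v
  refine ⟨h v, fun hv => ?_⟩
  have hinj' : ∀ a b : Fin n → F, (g : Matrix (Fin n) (Fin n) F) *ᵥ a
      = (g : Matrix (Fin n) (Fin n) F) *ᵥ b → a = b := by
    intro a b hab
    have h1 := congrArg (fun y => ((g⁻¹ : Matrix.GeneralLinearGroup (Fin n) F) :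
      Matrix (Fin n) (Fin n) F) *ᵥ y) hab
    simpa [Matrix.mulVec_mulVec] using h1
  have hinj : Function.Injective
      (fun s : S => (⟨(g : Matrix (Fin n) (Fin n) F) *ᵥ s.1, h s.1 s.2⟩ : S)) := by
    intro a b hab
    exact Subtype.ext (hinj' _ _ (congrArg Subtype.val hab))
  obtain ⟨s, hs⟩ := (Finite.injective_iff_surjective.1 hinj) ⟨_, hv⟩
  have h2 : (g : Matrix (Fin n) (Fin n) F) *ᵥ s.1 = (g : Matrix (Fin n) (Fin n) F) *ᵥ v :=
    congrArg Subtype.val hs
  rw [← hinj' _ _ h2]
  exact s.2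

/-- A nondegenerate unitary plane over the field with 4 elements has an orthonormal basis. -/
theorem blk_basis (hF : Fintype.card F = 4) (W : Submodule F (Fin n → F))
    (hdim : Module.finrank F W = 2)
    (hnd : Cfsg.Geo.IsNondegenerateOn (hermForm n F 2) W) :
    ∃ a a' : Fin n → F, a ∈ W ∧ a' ∈ W ∧ hermForm n F 2 a a = 1 ∧ hermForm n F 2 a' a' = 1 ∧
      hermForm n F 2 a a' = 0 ∧ hermForm n F 2 a' a = 0 ∧
      ∀ x ∈ W, ∃ α β : F, α • a + β • a' = x := by
  classical
  have hnorm : ∀ v : Fin n → F, hermForm n F 2 v v = 0 ∨ hermForm n F 2 v v = 1 := by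
    intro v
    have h := f_conj hF v v
    have h3 : hermForm n F 2 v v * (hermForm n F 2 v v - 1) = 0 := by linear_combination h
    rcases mul_eq_zero.mp h3 with h4 | h4
    · exact Or.inl h4
    · exact Or.inr (sub_eq_zero.mp h4)
  obtain ⟨ω, hω0, hω1⟩ : ∃ ω : F, ω ≠ 0 ∧ ω ≠ 1 := by
    by_contra hcon
    push_neg at hcon
    have hle : Fintype.card F ≤ 2 := by
      calc Fintype.card F = (Finset.univ : Finset F).card := Finset.card_univ.symm
        _ ≤ ({0, 1} : Finset F).card := Finset.card_le_card (fun x _ => by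
            by_cases hx : x = 0
            · simp [hx]
            · simp [hcon x hx])
        _ ≤ 2 := Finset.card_le_two
    omega
  have hW0 : W ≠ ⊥ := by
    intro h
    rw [h] at hdim
    simp at hdim
  obtain ⟨w, hw, hw0⟩ := (Submodule.ne_bot_iff W).mp hW0
  have hex : ∃ a ∈ W, hermForm n F 2 a a ≠ 0 := by
    by_contra hcon
    push_neg at hcon
    obtain ⟨x, hx, hxw⟩ := (hnd w hw hw0).1
    have e1 := hcon (x + w) (W.add_mem hx hw)
    have e2 := hcon (ω • x + w) (W.add_mem (W.smul_mem ω hx) hw)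
    rw [f_add_left, f_add_right hF, f_add_right hF, hcon x hx, hcon w hw, ← f_conj hF x w] at e1
    rw [f_add_left, f_add_right hF, f_add_right hF, f_smul_left, f_smul_left, f_smul_right,
      f_smul_right, hcon x hx, hcon w hw, ← f_conj hF x w] at e2
    have e3 : hermForm n F 2 x w * (ω * (1 - ω)) = 0 := by linear_combination e2 - ω ^ 2 * e1
    rcases mul_eq_zero.mp e3 with h | h
    · exact hxw h
    · rcases mul_eq_zero.mp h with h | h
      · exact hω0 h
      · exact hω1 (sub_eq_zero.mp h).symm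
  obtain ⟨a, haW, ha⟩ := hex
  have haa : hermForm n F 2 a a = 1 := (hnorm a).resolve_left ha
  have ha0 : a ≠ 0 := by
    intro h0
    apply ha
    rw [h0]
    unfold hermForm
    simp
  have hnle : ¬ W ≤ Submodule.span F {a} := by
    intro hle
    have h1 := Submodule.finrank_mono hle
    rw [hdim, finrank_span_singleton ha0] at h1
    omega
  obtain ⟨b, hbW, hb⟩ := SetLike.not_le_iff_exists.mp hnle
  obtain ⟨a', ha'def⟩ : ∃ a' : Fin n → F, a' = b + (-(hermForm n F 2 b a)) • a := ⟨_, rfl⟩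
  have ha'W : a' ∈ W := by
    rw [ha'def]
    exact W.add_mem hbW (W.smul_mem _ haW)
  have ha'a : hermForm n F 2 a' a = 0 := by
    rw [ha'def, f_add_left, f_smul_left, haa]
    ring
  have haa' : hermForm n F 2 a a' = 0 := by
    rw [← f_conj hF a' a, ha'a]
    simp
  have hbspan : ∀ c : F, b ≠ c • a := by
    intro c hc
    apply hb
    rw [hc]
    exact Submodule.smul_mem _ _ (Submodule.mem_span_singleton_self a)
  have hli : LinearIndependent F ![a, a'] := by
    rw [LinearIndependent.pair_iff' ha0]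
    intro c hc
    apply hbspan (c + hermForm n F 2 b a)
    rw [add_smul, hc, ha'def]
    module
  have hsp : Submodule.span F ({a, a'} : Set (Fin n → F)) = W := by
    apply Submodule.eq_of_le_of_finrank_eq
    · rw [Submodule.span_le]
      intro x hx
      rcases hx with rfl | rfl
      · exact haW
      · exact ha'W
    · rw [hdim, ← Matrix.range_cons_cons_empty a a' ![], finrank_span_eq_card hli]
      simp
  have ha'a' : hermForm n F 2 a' a' = 1 := by
    refine (hnorm a').resolve_left ?_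
    intro h0
    have ha'0 : a' ≠ 0 := by
      intro h
      apply hbspan (hermForm n F 2 b a)
      have h' : b + (-(hermForm n F 2 b a)) • a = 0 := by rw [← ha'def]; exact h
      calc b = (b + (-(hermForm n F 2 b a)) • a) + (hermForm n F 2 b a) • a := by module
        _ = (hermForm n F 2 b a) • a := by rw [h', zero_add]
    obtain ⟨x, hx, hxa'⟩ := (hnd a' ha'W ha'0).1
    rw [← hsp] at hx
    obtain ⟨α, β, rfl⟩ := Submodule.mem_span_pair.mp hx
    apply hxa'
    rw [f_add_left, f_smul_left, f_smul_left, haa', h0]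
    ring
  refine ⟨a, a', haW, ha'W, haa, ha'a', haa', ha'a, ?_⟩
  intro x hx
  rw [← hsp] at hx
  exact Submodule.mem_span_pair.mp hx

theorem tv_blk (hF : Fintype.card F = 4) (a a' b : Fin n → F)
    (haa : hermForm n F 2 a a = 1) (ha'a' : hermForm n F 2 a' a' = 1)
    (haa' : hermForm n F 2 a a' = 0) (ha'a : hermForm n F 2 a' a = 0)
    (hab : hermForm n F 2 a b = 0) (ha'b : hermForm n F 2 a' b = 0) (α β : F)
    (hx : hermForm n F 2 (α • a + β • a') (α • a + β • a') ≠ 0) :
    tvM n (a + b) *ᵥ (α • a + β • a') = α • a + β • a' ∨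
      tvM n (a + b) *ᵥ (α • a + β • a') = α • b := by
  have h2 := two_eq_zero hF
  have hfx : hermForm n F 2 (α • a + β • a') (a + b) = α := by
    rw [f_add_right hF, f_add_left, f_add_left, f_smul_left, f_smul_left, f_smul_left,
      f_smul_left, haa, ha'a, hab, ha'b]
    ring
  rw [tvM_mulVec, hfx]
  by_cases hα : α = 0
  · left
    simp [hα]
  · right
    have hβ : β = 0 := by
      by_contra hβ
      apply hx
      rw [f_pair hF, haa, haa', ha'a, ha'a']
      have e1 := cube hF α hα
      have e2 := cube hF β hβ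
      linear_combination e1 + e2 + h2
    rw [hβ]
    have key : α • a + (0 : F) • a' + α • (a + b) = (α * 2) • a + α • b := by module
    rw [key, h2, mul_zero, zero_smul, zero_add]

/-- The non-isotropic vectors lying in a member of the decomposition. -/
def Sset {t : ℕ} (D : Fin t → Submodule F (Fin n → F)) : Set (Fin n → F) :=
  {x | ∃ i, x ∈ D i ∧ hermForm n F 2 x x ≠ 0}

/-- Let F be the field with 4 elements (q = 2) and n ≥ 13. Let D be a decomposition of F^n into t pairwise orthogonal 2-dimensional subspaces, each non-degenerate for the standard unitary form Σ u_i v_i². Then the elements of SU_n(2) permuting the members of D form a subgroup that is not maximal: some subgroup lies strictly between it and SU_n(2). -/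
theorem result {F : Type*} [Field F] [Fintype F] (n : ℕ) (hF : Fintype.card F = 4) (hn : 13 ≤ n) {t : ℕ} (D : Fin t → Submodule F (Fin n → F)) (hD : Cfsg.Geo.IsNondegenerateMDecomposition (Cfsg.hermForm n F 2) 2 D) : ∃ K : Subgroup (Matrix.GeneralLinearGroup (Fin n) F), Cfsg.Geo.decompositionStabilizer D ⊓ (Cfsg.GU n F 2 ⊓ Cfsg.Geo.specialLinear (Fin n) F) < K ∧ K < (Cfsg.GU n F 2 ⊓ Cfsg.Geo.specialLinear (Fin n) F) := by
  classical
  have h2 : (2 : F) = 0 := two_eq_zero hF
  have ht := hD.decomp.two_le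
  obtain ⟨i1, i2, hi12⟩ : ∃ i1 i2 : Fin t, i1 ≠ i2 :=
    ⟨⟨0, by omega⟩, ⟨1, by omega⟩, fun h => absurd (congrArg Fin.val h) (by simp)⟩
  obtain ⟨a, a', haW, ha'W, haa, ha'a', haa', ha'a, hspan1⟩ :=
    blk_basis hF (D i1) (hD.decomp.finrank_eq i1) (hD.nondegenerate i1)
  obtain ⟨b, b', hbW, hb'W, hbb, hb'b', hbb', hb'b, hspan2⟩ :=
    blk_basis hF (D i2) (hD.decomp.finrank_eq i2) (hD.nondegenerate i2)
  have horth : ∀ i j, i ≠ j → ∀ u ∈ D i, ∀ v ∈ D j, hermForm n F 2 u v = 0 := hD.orthogonal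
  have h12 := horth i1 i2 hi12
  have h21 := horth i2 i1 hi12.symm
  have huniq : ∀ i j x, x ∈ D i → x ∈ D j → hermForm n F 2 x x ≠ 0 → i = j := by
    intro i j x hxi hxj hx
    by_contra hij
    exact hx (horth i j hij x hxi x hxj)
  have hv0 : hermForm n F 2 (a + b) (a + b) = 0 := by
    rw [f_add_left, f_add_right hF, f_add_right hF, haa, hbb, h12 a haW b hbW,
      h21 b hbW a haW]
    linear_combination h2
  have hu1 : hermForm n F 2 (a + a') (a + a') = 0 := by
    rw [f_add_left, f_add_right hF, f_add_right hF, haa, ha'a', haa', ha'a]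
    linear_combination h2
  have hu2 : hermForm n F 2 (b + b') (b + b') = 0 := by
    rw [f_add_left, f_add_right hF, f_add_right hF, hbb, hb'b', hbb', hb'b]
    linear_combination h2
  have keyadd : ∀ u₁ u₂ : Fin n → F, hermForm n F 2 u₁ u₁ = 0 → hermForm n F 2 u₂ u₂ = 0 →
      hermForm n F 2 u₁ u₂ = 0 → hermForm n F 2 u₂ u₁ = 0 →
      hermForm n F 2 (u₁ + u₂) (u₁ + u₂) = 0 := by
    intro u₁ u₂ k1 k2 k3 k4
    rw [f_add_left, f_add_right hF, f_add_right hF, k1, k2, k3, k4]
    ring
  have hw0 : hermForm n F 2 ((a + a') + (b + b')) ((a + a') + (b + b')) = 0 :=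
    keyadd _ _ hu1 hu2
      (h12 (a + a') ((D i1).add_mem haW ha'W) (b + b') ((D i2).add_mem hbW hb'W))
      (h21 (b + b') ((D i2).add_mem hbW hb'W) (a + a') ((D i1).add_mem haW ha'W))
  -- the transvection along `a + b` preserves the set of non-isotropic block vectors
  have hτS : tvG n (a + b) hF hv0 ∈ Cfsg.stabilizing (Cfsg.glToMat (Fin n) F) (Sset D) := by
    apply stab_of_maps
    intro x hx
    obtain ⟨i, hxi, hxn⟩ := hx
    show tvM n (a + b) *ᵥ x ∈ Sset D
    have hiso : hermForm n F 2 (tvM n (a + b) *ᵥ x) (tvM n (a + b) *ᵥ x) ≠ 0 := by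
      rw [tvM_isom hF (a + b) hv0]
      exact hxn
    by_cases hi1 : i = i1
    · rw [hi1] at hxi
      obtain ⟨α, β, rfl⟩ := hspan1 x hxi
      rcases tv_blk hF a a' b haa ha'a' haa' ha'a (h12 a haW b hbW) (h12 a' ha'W b hbW) α β hxn
        with h | h
      · rw [h]
        exact ⟨i1, hxi, hxn⟩
      · refine ⟨i2, ?_, hiso⟩
        rw [h]
        exact (D i2).smul_mem α hbW
    · by_cases hi2 : i = i2
      · rw [hi2] at hxi
        obtain ⟨α, β, rfl⟩ := hspan2 x hxi
        have hcomm : tvM n (a + b) = tvM n (b + a) := by rw [add_comm]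
        rw [hcomm] at hiso ⊢
        rcases tv_blk hF b b' a hbb hb'b' hbb' hb'b (h21 b hbW a haW) (h21 b' hb'W a haW) α β hxn
          with h | h
        · rw [h]
          exact ⟨i2, hxi, hxn⟩
        · refine ⟨i1, ?_, hiso⟩
          rw [h]
          exact (D i1).smul_mem α haW
      · have hfx : hermForm n F 2 x (a + b) = 0 := by
          rw [f_add_right hF, horth i i1 hi1 x hxi a haW, horth i i2 hi2 x hxi b hbW, add_zero]
        rw [tvM_mulVec, hfx, zero_smul, add_zero]
        exact ⟨i, hxi, hxn⟩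
  -- but it does not permute the blocks
  have hτD : tvG n (a + b) hF hv0 ∉ Cfsg.Geo.decompositionStabilizer D := by
    rintro ⟨σ, hσ⟩
    have hmap := hσ i1
    have e1 : tvM n (a + b) *ᵥ a = b := by
      rw [tvM_mulVec, f_add_right hF, haa, h12 a haW b hbW, add_zero, one_smul]
      have key : a + (a + b) = (2 : F) • a + b := by module
      rw [key, h2, zero_smul, zero_add]
    have e2 : tvM n (a + b) *ᵥ a' = a' := by
      rw [tvM_mulVec, f_add_right hF, ha'a, h12 a' ha'W b hbW, add_zero, zero_smul, add_zero]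
    have hb1 : b ∈ D (σ i1) := by
      rw [← hmap]
      exact ⟨a, haW, by rw [Matrix.toLin'_apply]; exact e1⟩
    have ha1 : a' ∈ D (σ i1) := by
      rw [← hmap]
      exact ⟨a', ha'W, by rw [Matrix.toLin'_apply]; exact e2⟩
    have hj2 : σ i1 = i2 := huniq (σ i1) i2 b hb1 hbW (by rw [hbb]; exact one_ne_zero)
    have hj1 : σ i1 = i1 := huniq (σ i1) i1 a' ha1 ha'W (by rw [ha'a']; exact one_ne_zero)
    exact hi12 (hj1.symm.trans hj2)
  -- a transvection of SU not preserving the set
  have hρS : tvG n ((a + a') + (b + b')) hF hw0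
      ∉ Cfsg.stabilizing (Cfsg.glToMat (Fin n) F) (Sset D) := by
    intro hmem
    have haS : a ∈ Sset D := ⟨i1, haW, by rw [haa]; exact one_ne_zero⟩
    have h3 : tvM n ((a + a') + (b + b')) *ᵥ a ∈ Sset D := (hmem a).mp haS
    have e1 : tvM n ((a + a') + (b + b')) *ᵥ a = a' + (b + b') := by
      rw [tvM_mulVec, f_add_right hF, f_add_right hF, haa, haa',
        h12 a haW (b + b') ((D i2).add_mem hbW hb'W), add_zero, add_zero, one_smul]
      have key : a + ((a + a') + (b + b')) = (2 : F) • a + (a' + (b + b')) := by module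
      rw [key, h2, zero_smul, zero_add]
    rw [e1] at h3
    obtain ⟨j, hj, -⟩ := h3
    by_cases hj1 : j = i1
    · rw [hj1] at hj
      have h4 := h12 _ hj b hbW
      rw [f_add_left, f_add_left, h12 a' ha'W b hbW, hbb, hb'b] at h4
      simp at h4
    · have h4 := horth j i1 hj1 _ hj a' ha'W
      rw [f_add_left, f_add_left, ha'a', h21 b hbW a' ha'W, h21 b' hb'W a' ha'W] at h4
      simp at h4
  have hle : Cfsg.Geo.decompositionStabilizer D ⊓
      (Cfsg.GU n F 2 ⊓ Cfsg.Geo.specialLinear (Fin n) F)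
      ≤ Cfsg.stabilizing (Cfsg.glToMat (Fin n) F) (Sset D) ⊓
        (Cfsg.GU n F 2 ⊓ Cfsg.Geo.specialLinear (Fin n) F) := by
    rintro g ⟨⟨σ, hσ⟩, hg2⟩
    refine ⟨stab_of_maps _ g ?_, hg2⟩
    intro x hx
    obtain ⟨i, hxi, hxn⟩ := hx
    have hgu : ∀ u v : Fin n → F, hermForm n F 2 ((g : Matrix (Fin n) (Fin n) F) *ᵥ u)
        ((g : Matrix (Fin n) (Fin n) F) *ᵥ v) = hermForm n F 2 u v := hg2.1
    refine ⟨σ i, ?_, ?_⟩
    · rw [← hσ i]
      exact ⟨x, hxi, by rw [Matrix.toLin'_apply]⟩
    · rw [hgu]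
      exact hxn
  refine ⟨Cfsg.stabilizing (Cfsg.glToMat (Fin n) F) (Sset D) ⊓
    (Cfsg.GU n F 2 ⊓ Cfsg.Geo.specialLinear (Fin n) F), ?_, ?_⟩
  · refine lt_of_le_of_ne hle ?_
    intro heq
    have h5 : tvG n (a + b) hF hv0 ∈ Cfsg.Geo.decompositionStabilizer D ⊓
        (Cfsg.GU n F 2 ⊓ Cfsg.Geo.specialLinear (Fin n) F) := by
      rw [heq]
      exact ⟨hτS, tvG_mem _ hF hv0⟩
    exact hτD h5.1
  · refine lt_of_le_of_ne inf_le_right ?_
    intro heq
    have h5 : tvG n ((a + a') + (b + b')) hF hw0 ∈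
        Cfsg.stabilizing (Cfsg.glToMat (Fin n) F) (Sset D) ⊓
        (Cfsg.GU n F 2 ⊓ Cfsg.Geo.specialLinear (Fin n) F) := by
      rw [heq]
      exact tvG_mem _ hF hw0
    exact hρS h5.1

end Cfsg.Agent.S5656
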