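import Mathlib
import Cfsg.Statements.S0944

set_option autoImplicit false
open Cfsg

namespace Cfsg.Agent.S0944

/-- Let χ be an irreducible character of the finite group G and u an involution. Then χ u is a rational integer n with n ≡ χ 1 (mod 2). -/
theorem result {G : Type*} [Group G] [Finite G] (χ : Cfsg.IrrCharacter G) (u : G) (hu : orderOf u = 2) : ∃ n : ℤ, (χ : G → ℂ) u = (n : ℂ) ∧ (2 : ℤ) ∣ (Cfsg.charDegree (χ : G → ℂ) : ℤ) - n := by
  obtain ⟨χ, m, ρ, hirr, rfl⟩ := χ
  have huu : u * u = 1 := by rw [← pow_two, ← hu, pow_orderOf_eq_one]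
  set f : Module.End ℂ (Fin m → ℂ) := ρ u with hf
  have hff : f * f = 1 := by rw [hf, ← map_mul, huu, map_one]
  set P : Module.End ℂ (Fin m → ℂ) := (2⁻¹ : ℂ) • (1 + f) with hP
  have hPidem : IsIdempotentElem P := by
    unfold IsIdempotentElem
    have h2 : (1 + f) * (1 + f) = (2 : ℂ) • (1 + f) := by
      rw [mul_add, add_mul, add_mul, hff, one_mul, mul_one, one_mul, two_smul]; abel
    rw [hP, smul_mul_smul_comm, h2, smul_smul]
    norm_num
  have hproj := LinearMap.IsIdempotentElem.isProj_range P hPidem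
  have htr := hproj.trace
  have htrP : LinearMap.trace ℂ (Fin m → ℂ) P
      = 2⁻¹ * ((m : ℂ) + LinearMap.trace ℂ (Fin m → ℂ) f) := by
    rw [hP, map_smul, map_add, LinearMap.trace_one]
    simp
  have hχu : ρ.character u = LinearMap.trace ℂ (Fin m → ℂ) f := rfl
  have hdeg : Cfsg.charDegree ρ.character = m := by
    unfold Cfsg.charDegree
    rw [Representation.char_one]
    simp
  refine ⟨2 * (Module.finrank ℂ (LinearMap.range P) : ℤ) - m, ?_, ?_⟩
  · show ρ.character u = _
    rw [hχu]
    rw [htrP] at htr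
    push_cast
    rw [← htr]
    ring
  · rw [hdeg]
    exact ⟨(m : ℤ) - Module.finrank ℂ (LinearMap.range P), by ring⟩

end Cfsg.Agent.S0944
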