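import Cfsg.Statements.S0267
import Mathlib
import Cfsg.Agent.Helper1.ProjLine

set_option autoImplicit false
open Cfsg

namespace Cfsg.Agent.S0267
open Cfsg.Agent.Helper1.ProjLine Projectivization

theorem key {F : Type*} [Field F] [Fintype F] (hF : ringChar F = 2)
    (a b c : Projectivization F (Fin 2 → F)) (hab : a ≠ b)
    (hac : a ≠ c) (hbc : b ≠ c) :
    ∃ g : Matrix.SpecialLinearGroup (Fin 2) F, g • E0 F = a ∧ g • E1 F = b ∧ g • E2 F = c := by
  induction a using Projectivization.ind with | _ u hu =>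
  induction b using Projectivization.ind with | _ v hv =>
  induction c using Projectivization.ind with | _ w hw =>
  obtain ⟨M, hM, h0, h1, h2⟩ := exists_frame u v w hu hv hw hab hac hbc
  obtain ⟨s, hs⟩ := FiniteField.isSquare_of_char_two hF M.det
  have hs0 : s ≠ 0 := by
    rintro rfl
    rw [mul_zero] at hs
    exact hM hs
  have hdet : (s⁻¹ • M).det = 1 := by
    rw [Matrix.det_smul, Fintype.card_fin, hs]
    field_simp
  have hne : ∀ x : Fin 2 → F, x ≠ 0 → M.mulVec x ≠ 0 := by
    intro x hx h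
    apply hx
    have := congrArg (M⁻¹).mulVec h
    rw [Matrix.mulVec_mulVec, Matrix.nonsing_inv_mul _ (Ne.isUnit hM), Matrix.one_mulVec,
      Matrix.mulVec_zero] at this
    exact this
  obtain ⟨g0, hg0⟩ : ∃ g0 : Matrix.SpecialLinearGroup (Fin 2) F, g0.1 = s⁻¹ • M :=
    ⟨⟨s⁻¹ • M, hdet⟩, rfl⟩
  have hmk : ∀ (x : Fin 2 → F) (hx : x ≠ 0),
      g0 • Projectivization.mk F x hx = Projectivization.mk F (M.mulVec x) (hne x hx) := by
    intro x hx
    rw [Projectivization.smul_mk, mk_eq_mk_iff']
    refine ⟨s⁻¹, ?_⟩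
    rw [Matrix.SpecialLinearGroup.smul_def, hg0, Matrix.smul_eq_mulVec, Matrix.smul_mulVec]
  refine ⟨g0, ?_, ?_, ?_⟩
  · exact (hmk _ e0_ne).trans (h0 _)
  · exact (hmk _ e1_ne).trans (h1 _)
  · exact (hmk _ e2_ne).trans (h2 _)

/-- SL_2(q) is 3-transitive on the q+1 points of the projective line if and only if q is even. -/
theorem result {F : Type*} [Field F] [Fintype F] : MulAction.IsMultiplyPretransitive (Matrix.SpecialLinearGroup (Fin 2) F) (Projectivization F (Fin 2 → F)) 3 ↔ ringChar F = 2 := by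
  constructor
  · intro h
    by_contra hF
    obtain ⟨n, hn⟩ := FiniteField.exists_nonsquare hF
    have hn0 : n ≠ 0 := by
      rintro rfl
      exact hn ⟨0, by simp⟩
    have hN : (![n, 1] : Fin 2 → F) ≠ 0 := by
      intro h
      have := congrFun h 1
      simp at this
    have h01 : E0 F ≠ E1 F := by
      intro h
      rw [E0, E1, mk_eq_mk_iff'] at h
      obtain ⟨c, hc⟩ := h
      have := congrFun hc 0
      simp at this
    have h02 : E0 F ≠ E2 F := by
      intro h
      rw [E0, E2, mk_eq_mk_iff'] at h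
      obtain ⟨c, hc⟩ := h
      have h0 := congrFun hc 0
      have h1 := congrFun hc 1
      simp at h0 h1
      rw [h1] at h0
      exact zero_ne_one h0
    have h12 : E1 F ≠ E2 F := by
      intro h
      rw [E1, E2, mk_eq_mk_iff'] at h
      obtain ⟨c, hc⟩ := h
      have h0 := congrFun hc 0
      have h1 := congrFun hc 1
      simp at h0 h1
      rw [h0] at h1
      exact zero_ne_one h1
    have h0N : E0 F ≠ Projectivization.mk F ![n, 1] hN := by
      intro h
      rw [E0, mk_eq_mk_iff'] at h
      obtain ⟨c, hc⟩ := h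
      have h0 := congrFun hc 0
      have h1 := congrFun hc 1
      simp at h0 h1
      rw [h1] at h0
      simp at h0
    have h1N : E1 F ≠ Projectivization.mk F ![n, 1] hN := by
      intro h
      rw [E1, mk_eq_mk_iff'] at h
      obtain ⟨c, hc⟩ := h
      have h0 := congrFun hc 0
      have h1 := congrFun hc 1
      simp at h0 h1
      rw [h1] at h0
      simp at h0
      exact hn0 h0
    obtain ⟨g, hg0, hg1, hg2⟩ := exists_of_pretrans h (E0 F) (E1 F) (E2 F) (E0 F) (E1 F)
      (Projectivization.mk F ![n, 1] hN) h01 h02 h12 h01 h0N h1N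
    rw [E0, Projectivization.smul_mk, mk_eq_mk_iff'] at hg0
    rw [E1, Projectivization.smul_mk, mk_eq_mk_iff'] at hg1
    rw [E2, Projectivization.smul_mk, mk_eq_mk_iff'] at hg2
    obtain ⟨c0, hc0⟩ := hg0
    obtain ⟨c1, hc1⟩ := hg1
    obtain ⟨c2, hc2⟩ := hg2
    have e00 := congrFun hc0 0
    have e10 := congrFun hc0 1
    have e01 := congrFun hc1 0
    have e11 := congrFun hc1 1
    have f0 := congrFun hc2 0
    have f1 := congrFun hc2 1
    simp [Matrix.SpecialLinearGroup.smul_def, Matrix.mulVec, dotProduct, Fin.sum_univ_two]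
      at e00 e10 e01 e11 f0 f1
    have hdet := g.det_coe
    rw [Matrix.det_fin_two] at hdet
    apply hn
    refine ⟨g.1 0 0, ?_⟩
    -- n * g11 = g00, g00 * g11 = 1
    have hd : g.1 0 0 * g.1 1 1 = 1 := by
      rw [← e10, ← e01] at hdet
      linear_combination hdet
    have hn1 : c2 * n = g.1 0 0 := by rw [← e01] at f0; linear_combination f0
    have hc2' : c2 = g.1 1 1 := by rw [← e10] at f1; linear_combination f1
    calc n = n * (g.1 0 0 * g.1 1 1) := by rw [hd, mul_one]
      _ = (c2 * n) * g.1 0 0 := by rw [hc2']; ring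
      _ = g.1 0 0 * g.1 0 0 := by rw [hn1]
  · intro hF
    exact pretrans_of_frame (E0 F) (E1 F) (E2 F) (key hF)

end Cfsg.Agent.S0267
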