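import Cfsg.Statements.S0266
import Mathlib
import Cfsg.Agent.Helper1.ProjLine

set_option autoImplicit false
open scoped MatrixGroups
open Cfsg

namespace Cfsg.Agent.S0266
open Cfsg.Agent.Helper1.ProjLine Projectivization

theorem key {F : Type*} [Field F] (a b c : Projectivization F (Fin 2 → F)) (hab : a ≠ b)
    (hac : a ≠ c) (hbc : b ≠ c) :
    ∃ g : Matrix.ProjGenLinGroup (Fin 2) F, g • E0 F = a ∧ g • E1 F = b ∧ g • E2 F = c := by
  induction a using Projectivization.ind with | _ u hu =>
  induction b using Projectivization.ind with | _ v hv =>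
  induction c using Projectivization.ind with | _ w hw =>
  obtain ⟨M, hM, h0, h1, h2⟩ := exists_frame u v w hu hv hw hab hac hbc
  refine ⟨Matrix.ProjGenLinGroup.mk (Matrix.GeneralLinearGroup.mkOfDetNeZero M hM), ?_, ?_, ?_⟩
  · exact h0 _
  · exact h1 _
  · exact h2 _

theorem fix_frame {F : Type*} [Field F] (h : Matrix.ProjGenLinGroup (Fin 2) F)
    (h0 : h • E0 F = E0 F) (h1 : h • E1 F = E1 F) (h2 : h • E2 F = E2 F) : h = 1 := by
  induction h using Matrix.ProjGenLinGroup.induction_on with | mk g =>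
  have k0 : Projectivization.mk F ((g : Matrix (Fin 2) (Fin 2) F).mulVec ![1, 0])
      ((smul_ne_zero_iff_ne g).mpr e0_ne) = Projectivization.mk F ![1, 0] e0_ne := h0
  have k1 : Projectivization.mk F ((g : Matrix (Fin 2) (Fin 2) F).mulVec ![0, 1])
      ((smul_ne_zero_iff_ne g).mpr e1_ne) = Projectivization.mk F ![0, 1] e1_ne := h1
  have k2 : Projectivization.mk F ((g : Matrix (Fin 2) (Fin 2) F).mulVec ![1, 1])
      ((smul_ne_zero_iff_ne g).mpr e2_ne) = Projectivization.mk F ![1, 1] e2_ne := h2
  rw [mk_eq_mk_iff'] at k0 k1 k2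
  obtain ⟨c0, hc0⟩ := k0
  obtain ⟨c1, hc1⟩ := k1
  obtain ⟨c2, hc2⟩ := k2
  have e00 := congrFun hc0 0
  have e10 := congrFun hc0 1
  have e01 := congrFun hc1 0
  have e11 := congrFun hc1 1
  have f0 := congrFun hc2 0
  have f1 := congrFun hc2 1
  simp [Matrix.mulVec, dotProduct, Fin.sum_univ_two] at e00 e10 e01 e11 f0 f1
  have hdet : (g : Matrix (Fin 2) (Fin 2) F).det ≠ 0 :=
    ((Matrix.isUnit_iff_isUnit_det _).mp g.isUnit).ne_zero
  rw [Matrix.det_fin_two, ← e00, ← e10, ← e01, ← e11] at hdet
  have hc : c2 ≠ 0 := by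
    rintro rfl
    apply hdet
    have h00 : c0 = 0 := by rw [← e00, ← e01] at f0; linear_combination -f0
    rw [h00]; ring
  have hg : g = Matrix.GeneralLinearGroup.scalar (Fin 2) (Units.mk0 c2 hc) := by
    apply Matrix.GeneralLinearGroup.ext
    intro i j
    rw [Matrix.GeneralLinearGroup.coe_scalar]
    fin_cases i <;> fin_cases j
    · simp
      linear_combination -f0 + e01
    · simp
      exact e01.symm
    · simp
      exact e10.symm
    · simp
      linear_combination -f1 + e10
  rw [hg]
  exact Matrix.ProjGenLinGroup.mk_scalar _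

/-- PGL_2(F) is sharply 3-transitive on the projective line: it is 3-transitive and the stabiliser of three distinct points is trivial. -/
theorem result {F : Type*} [Field F] : MulAction.IsMultiplyPretransitive (Matrix.ProjGenLinGroup (Fin 2) F) (Projectivization F (Fin 2 → F)) 3 ∧ ∀ (g : Matrix.ProjGenLinGroup (Fin 2) F) (a b c : Projectivization F (Fin 2 → F)), a ≠ b → a ≠ c → b ≠ c → g • a = a → g • b = b → g • c = c → g = 1 := by
  constructor
  · exact pretrans_of_frame (E0 F) (E1 F) (E2 F) key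
  · intro g a b c hab hac hbc ha hb hc
    obtain ⟨m, rfl, rfl, rfl⟩ := key a b c hab hac hbc
    have hfix : ∀ P : Projectivization F (Fin 2 → F), g • m • P = m • P →
        (m⁻¹ * g * m) • P = P := by
      intro P hP
      rw [mul_smul, mul_smul, hP, inv_smul_smul]
    have h1 := fix_frame (m⁻¹ * g * m) (hfix _ ha) (hfix _ hb) (hfix _ hc)
    have h2 : g = m * (m⁻¹ * g * m) * m⁻¹ := by group
    rw [h2, h1]
    group

end Cfsg.Agent.S0266
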