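import Cfsg.Statements.S0573
import Mathlib
import Cfsg.Agent.S0572
import Cfsg.Agent.Helper8.Nilp
import Cfsg.Agent.Helper8.Nilp2
import Cfsg.Agent.Helper8.Schmidt3

set_option autoImplicit false
open Cfsg

namespace Cfsg.Agent.S0573

open Cfsg.Agent.Helper8

theorem central_of_comm {G : Type*} [Group G] (A B : Subgroup G)
    (hAB : ∀ g : G, ∃ a ∈ A, ∃ b ∈ B, g = a * b) (x : G)
    (hxA : ∀ a ∈ A, x * a = a * x) (hxB : ∀ b ∈ B, x * b = b * x) : ∀ g : G, x * g = g * x := by
  intro g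
  obtain ⟨a, ha, b, hb, rfl⟩ := hAB g
  calc x * (a * b) = (x * a) * b := by rw [mul_assoc]
    _ = (a * x) * b := by rw [hxA a ha]
    _ = a * (x * b) := by rw [mul_assoc]
    _ = a * (b * x) := by rw [hxB b hb]
    _ = a * b * x := by rw [mul_assoc]

/-- Fixed points of a subgroup on a normal subgroup of an abelian normal subgroup `H` with
`G/C_G(H)` abelian form a normal subgroup. -/
theorem fix_normal {G : Type*} [Group G] (H : Subgroup G)
    (hact : ∀ x y : G, ∀ h ∈ H, x * (y * h * y⁻¹) * x⁻¹ = y * (x * h * x⁻¹) * y⁻¹)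
    (T L : Subgroup G) (hL : L.Normal) (hLH : L ≤ H) :
    (L ⊓ Subgroup.centralizer (T : Set G)).Normal := by
  constructor
  intro m hm g
  obtain ⟨hmL, hmC⟩ := Subgroup.mem_inf.mp hm
  refine Subgroup.mem_inf.mpr ⟨hL.conj_mem m hmL g, ?_⟩
  rw [Subgroup.mem_centralizer_iff]
  intro t ht
  have h1 : t * m = m * t := Subgroup.mem_centralizer_iff.mp hmC t ht
  have h2 := hact t g m (hLH hmL)
  have h3 : t * m * t⁻¹ = m := by rw [h1, mul_inv_cancel_right]
  rw [h3] at h2
  calc t * (g * m * g⁻¹) = t * (g * m * g⁻¹) * t⁻¹ * t := by group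
    _ = g * m * g⁻¹ * t := by rw [h2]

/-- If `Q = Y X` then the index of `X` divides the order of `Y`. -/
theorem index_dvd_card_of_factor {Q : Type*} [Group Q] [Finite Q] (X Y : Subgroup Q)
    (h : ∀ g : Q, ∃ y ∈ Y, ∃ x ∈ X, g = y * x) : X.index ∣ Nat.card Y := by
  haveI : MulAction.IsPretransitive ↥Y (Q ⧸ X) := by
    constructor
    intro c₁ c₂
    obtain ⟨g₁, rfl⟩ := QuotientGroup.mk_surjective c₁
    obtain ⟨g₂, rfl⟩ := QuotientGroup.mk_surjective c₂
    obtain ⟨y₁, hy₁, x₁, hx₁, rfl⟩ := h g₁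
    obtain ⟨y₂, hy₂, x₂, hx₂, rfl⟩ := h g₂
    refine ⟨⟨y₂ * y₁⁻¹, Y.mul_mem hy₂ (Y.inv_mem hy₁)⟩, ?_⟩
    show ((y₂ * y₁⁻¹ * (y₁ * x₁) : Q) : Q ⧸ X) = ((y₂ * x₂ : Q) : Q ⧸ X)
    rw [QuotientGroup.eq]
    have e : (y₂ * y₁⁻¹ * (y₁ * x₁))⁻¹ * (y₂ * x₂) = x₁⁻¹ * x₂ := by group
    rw [e]; exact X.mul_mem (X.inv_mem hx₁) hx₂
  have h1 := MulAction.index_stabilizer_of_transitive ↥Y (QuotientGroup.mk (1 : Q) : Q ⧸ X)
  rw [Subgroup.index_eq_card, ← h1]
  exact Subgroup.index_dvd_card _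

/-- If `G = AB` and the normal subgroup `D` contains all `p`-elements of `A` and of `B`, then
`G/D` is a `p'`-group. -/
theorem not_dvd_index_of_factor {G : Type*} [Group G] [Finite G] {p : ℕ} [Fact p.Prime]
    (A B D : Subgroup G) [D.Normal]
    (hAB : ∀ g : G, ∃ a ∈ A, ∃ b ∈ B, g = a * b)
    (hA : ∀ x ∈ A, (∃ k : ℕ, x ^ (p ^ k) = 1) → x ∈ D)
    (hB : ∀ x ∈ B, (∃ k : ℕ, x ^ (p ^ k) = 1) → x ∈ D) : ¬ p ∣ D.index := by
  have hp : p.Prime := Fact.out
  have key : ∀ X : Subgroup G, (∀ x ∈ X, (∃ k : ℕ, x ^ (p ^ k) = 1) → x ∈ D) →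
      ¬ p ∣ Nat.card ↥(X.map (QuotientGroup.mk' D)) := by
    intro X hX hdvd
    obtain ⟨x, hx⟩ := exists_prime_orderOf_dvd_card' p hdvd
    obtain ⟨a, ha, hax⟩ := Subgroup.mem_map.mp x.2
    have hxo : orderOf (x : G ⧸ D) = p := by rw [Subgroup.orderOf_coe]; exact hx
    obtain ⟨e, m, u, v, hord, hm, hu, hv, hdec, hue, hvm⟩ :=
      exists_decomp a (orderOf_pos a).ne' p hp
    have huX : u ∈ X := (Subgroup.zpowers_le.mpr ha) hu
    have huD : u ∈ D := hX u huX ⟨e, hue⟩
    have h1 : (QuotientGroup.mk' D) u = 1 := (QuotientGroup.eq_one_iff u).mpr huD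
    have h2 : (x : G ⧸ D) = (QuotientGroup.mk' D) v := by
      rw [← hax, hdec, map_mul, h1, mul_one]
    have h3 : (x : G ⧸ D) ^ m = 1 := by rw [h2, ← map_pow, hvm, map_one]
    have h4 : p ∣ m := by rw [← hxo]; exact orderOf_dvd_of_pow_eq_one h3
    exact hm h4
  have hA' := key A hA
  have hB' := key B hB
  have hidx : (B.map (QuotientGroup.mk' D)).index ∣
      Nat.card ↥(A.map (QuotientGroup.mk' D)) := by
    apply index_dvd_card_of_factor
    intro g
    obtain ⟨g', rfl⟩ := QuotientGroup.mk'_surjective D g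
    obtain ⟨a, ha, b, hb, rfl⟩ := hAB g'
    exact ⟨_, Subgroup.mem_map_of_mem _ ha, _, Subgroup.mem_map_of_mem _ hb, map_mul _ a b⟩
  intro hdvd
  rw [Subgroup.index_eq_card, ← Subgroup.card_mul_index (B.map (QuotientGroup.mk' D))] at hdvd
  rcases (Nat.Prime.dvd_mul hp).mp hdvd with h | h
  · exact hB' h
  · exact hA' (dvd_trans h hidx)

/-- If a nontrivial finite group G is the product AB of abelian subgroups A and B, then some nontrivial normal subgroup of G is contained in A or in B. -/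
theorem result {G : Type*} [Group G] [Finite G] [Nontrivial G] (A B : Subgroup G) [IsMulCommutative A] [IsMulCommutative B] (hAB : ∀ g : G, ∃ a ∈ A, ∃ b ∈ B, g = a * b) : ∃ N : Subgroup G, N.Normal ∧ N ≠ ⊥ ∧ (N ≤ A ∨ N ≤ B) := by
  classical
  have hA : ∀ x ∈ A, ∀ y ∈ A, x * y = y * x := isMulCommutative_iff_of_setLike.mp inferInstance
  have hB : ∀ x ∈ B, ∀ y ∈ B, x * y = y * x := isMulCommutative_iff_of_setLike.mp inferInstance
  by_cases hZ : ∃ x : G, x ≠ 1 ∧ (∀ a ∈ A, x * a = a * x) ∧ (∀ b ∈ B, x * b = b * x) ∧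
      (x ∈ A ∨ x ∈ B)
  · obtain ⟨x, hx1, hxA, hxB, hxAB⟩ := hZ
    have hxc := central_of_comm A B hAB x hxA hxB
    refine ⟨Subgroup.zpowers x, ?_, ?_, ?_⟩
    · constructor
      intro n hn g
      obtain ⟨k, rfl⟩ := Subgroup.mem_zpowers_iff.mp hn
      have hc : g * x ^ k = x ^ k * g := ((show Commute x g from hxc g).zpow_left k).eq.symm
      rw [hc, mul_inv_cancel_right]
      exact Subgroup.zpow_mem_zpowers x k
    · intro h
      apply hx1
      have : x ∈ (⊥ : Subgroup G) := h ▸ Subgroup.mem_zpowers x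
      exact Subgroup.mem_bot.mp this
    · rcases hxAB with h | h
      · exact Or.inl (Subgroup.zpowers_le.mpr h)
      · exact Or.inr (Subgroup.zpowers_le.mpr h)
  · have hZ' : ∀ x : G, (∀ a ∈ A, x * a = a * x) → (∀ b ∈ B, x * b = b * x) →
        (x ∈ A ∨ x ∈ B) → x = 1 := by
      intro x hxA hxB hxAB
      by_contra hx1
      exact hZ ⟨x, hx1, hxA, hxB, hxAB⟩
    have hcen : ∀ x : G, (∀ a ∈ A, x * a = a * x) → (∀ b ∈ B, x * b = b * x) → x = 1 := by
      intro x hxA hxB
      obtain ⟨a, ha, b, hb, hab⟩ := hAB x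
      have haB : ∀ b' ∈ B, a * b' = b' * a := by
        intro b' hb'
        have e : a = x * b⁻¹ := by rw [hab]; group
        rw [e]
        have h1 := hxB b' hb'
        have h2 := hB b⁻¹ (B.inv_mem hb) b' hb'
        calc x * b⁻¹ * b' = x * (b⁻¹ * b') := by rw [mul_assoc]
          _ = x * (b' * b⁻¹) := by rw [h2]
          _ = x * b' * b⁻¹ := by rw [mul_assoc]
          _ = b' * x * b⁻¹ := by rw [h1]
          _ = b' * (x * b⁻¹) := by rw [mul_assoc]
      have ha1 : a = 1 := hZ' a (fun a' ha' => hA a ha a' ha') haB (Or.inl ha)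
      have hbA : ∀ a' ∈ A, b * a' = a' * b := by
        intro a' ha'
        have e : b = x := by rw [hab, ha1, one_mul]
        rw [e]; exact hxA a' ha'
      have hb1 : b = 1 := hZ' b hbA (fun b' hb' => hB b hb b' hb') (Or.inr hb)
      rw [hab, ha1, hb1, one_mul]
    have hCA : ∀ x : G, (∀ a ∈ A, x * a = a * x) → x ∈ A := by
      intro x hx
      obtain ⟨a, ha, b, hb, hab⟩ := hAB x
      have hb1 : b = 1 := by
        refine hcen b ?_ (fun b' hb' => hB b hb b' hb')
        intro a' ha'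
        have e : b = a⁻¹ * x := by rw [hab]; group
        rw [e]
        have h1 := hx a' ha'
        have h2 := hA a⁻¹ (A.inv_mem ha) a' ha'
        calc a⁻¹ * x * a' = a⁻¹ * (x * a') := by rw [mul_assoc]
          _ = a⁻¹ * (a' * x) := by rw [h1]
          _ = a⁻¹ * a' * x := by rw [mul_assoc]
          _ = a' * a⁻¹ * x := by rw [h2]
          _ = a' * (a⁻¹ * x) := by rw [mul_assoc]
      rw [hab, hb1, mul_one]; exact ha
    have hCB : ∀ x : G, (∀ b ∈ B, x * b = b * x) → x ∈ B := by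
      intro x hx
      obtain ⟨a, ha, b, hb, hab⟩ := hAB x
      have ha1 : a = 1 := by
        refine hcen a (fun a' ha' => hA a ha a' ha') ?_
        intro b' hb'
        have e : a = x * b⁻¹ := by rw [hab]; group
        rw [e]
        have h1 := hx b' hb'
        have h2 := hB b⁻¹ (B.inv_mem hb) b' hb'
        calc x * b⁻¹ * b' = x * (b⁻¹ * b') := by rw [mul_assoc]
          _ = x * (b' * b⁻¹) := by rw [h2]
          _ = x * b' * b⁻¹ := by rw [mul_assoc]
          _ = b' * x * b⁻¹ := by rw [h1]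
          _ = b' * (x * b⁻¹) := by rw [mul_assoc]
      rw [hab, ha1, one_mul]; exact hb
    -- the commutator subgroup
    obtain ⟨H, hHdef⟩ : ∃ H : Subgroup G, H = commutator G := ⟨_, rfl⟩
    have hHn : H.Normal := by rw [hHdef]; infer_instance
    have hcomH : ∀ g₁ g₂ : G, g₁ * g₂ * g₁⁻¹ * g₂⁻¹ ∈ H := by
      intro g₁ g₂
      rw [hHdef]
      exact Subgroup.commutator_mem_commutator (Subgroup.mem_top g₁) (Subgroup.mem_top g₂)
    have hHab : ∀ x ∈ H, ∀ y ∈ H, x * y = y * x := by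
      have hres := Cfsg.Agent.S0572.result A B hAB
      have h2 : ⁅commutator G, commutator G⁆ = ⊥ := hres
      have h3 := Subgroup.commutator_eq_bot_iff_le_centralizer.mp h2
      intro x hx y hy
      rw [hHdef] at hx hy
      exact Subgroup.mem_centralizer_iff.mp (h3 hy) x hx
    have hact : ∀ x y : G, ∀ h ∈ H, x * (y * h * y⁻¹) * x⁻¹ = y * (x * h * x⁻¹) * y⁻¹ := by
      intro x y h hh
      have hc : x⁻¹ * y⁻¹ * x * y ∈ H := by
        have := hcomH x⁻¹ y⁻¹
        simpa using this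
      have e := hHab _ hc h hh
      calc x * (y * h * y⁻¹) * x⁻¹
          = y * x * ((x⁻¹ * y⁻¹ * x * y) * h) * y⁻¹ * x⁻¹ := by group
        _ = y * x * (h * (x⁻¹ * y⁻¹ * x * y)) * y⁻¹ * x⁻¹ := by rw [e]
        _ = y * (x * h * x⁻¹) * y⁻¹ := by group
    by_cases hFB : H ⊓ Subgroup.centralizer (B : Set G) = ⊥
    swap
    · refine ⟨H ⊓ Subgroup.centralizer (B : Set G), fix_normal H hact B H hHn le_rfl, hFB,
        Or.inr ?_⟩
      intro x hx
      have hxc := (Subgroup.mem_inf.mp hx).2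
      exact hCB x (fun b hb => (Subgroup.mem_centralizer_iff.mp hxc b hb).symm)
    have hHne : H ≠ ⊥ := by
      intro hbot
      obtain ⟨g, hg⟩ := exists_ne (1 : G)
      apply hg
      apply hcen g
      · intro a _
        have h1 := hcomH g a
        rw [hbot, Subgroup.mem_bot] at h1
        calc g * a = (g * a * g⁻¹ * a⁻¹) * a * g := by group
          _ = a * g := by rw [h1, one_mul]
      · intro b _
        have h1 := hcomH g b
        rw [hbot, Subgroup.mem_bot] at h1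
        calc g * b = (g * b * g⁻¹ * b⁻¹) * b * g := by group
          _ = b * g := by rw [h1, one_mul]
    have hcard : Nat.card H ≠ 1 := fun h1 => hHne (Subgroup.card_eq_one.mp h1)
    obtain ⟨p, hp, hpd⟩ := Nat.exists_prime_and_dvd hcard
    haveI : Fact p.Prime := ⟨hp⟩
    let L : Subgroup G :=
      { carrier := {h | h ∈ H ∧ h ^ p = 1}
        mul_mem' := by
          rintro a b ⟨ha, ha'⟩ ⟨hb, hb'⟩
          refine ⟨H.mul_mem ha hb, ?_⟩
          rw [(show Commute a b from hHab a ha b hb).mul_pow, ha', hb', one_mul]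
        one_mem' := ⟨H.one_mem, one_pow _⟩
        inv_mem' := by
          rintro a ⟨ha, ha'⟩
          exact ⟨H.inv_mem ha, by rw [inv_pow, ha', inv_one]⟩ }
    have hLmem : ∀ a, a ∈ L ↔ a ∈ H ∧ a ^ p = 1 := fun a => Iff.rfl
    have hLH : L ≤ H := fun a ha => ((hLmem a).mp ha).1
    have hLn : L.Normal := by
      constructor
      intro a ha g
      rw [hLmem] at ha ⊢
      exact ⟨hHn.conj_mem a ha.1 g, by rw [conj_pow, ha.2, mul_one, mul_inv_cancel]⟩
    have hLp : IsPGroup p L :=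
      isPGroup_of_forall (fun a ha => ⟨1, by rw [pow_one]; exact ((hLmem a).mp ha).2⟩)
    have hLne : L ≠ ⊥ := by
      obtain ⟨x, hx⟩ := exists_prime_orderOf_dvd_card' p hpd
      intro hbot
      have hxL : (x : G) ∈ L := (hLmem _).mpr ⟨x.2, by
        have h1 : x ^ p = 1 := by rw [← hx]; exact pow_orderOf_eq_one x
        have h2 := congrArg Subtype.val h1
        simpa using h2⟩
      rw [hbot, Subgroup.mem_bot] at hxL
      have hx1 : x = 1 := Subtype.ext hxL
      rw [hx1, orderOf_one] at hx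
      exact hp.one_lt.ne hx
    have hAnil : Group.IsNilpotent ↥A :=
      isNilpotent_of_comm (fun a b => Subtype.ext (hA a a.2 b b.2))
    have hBnil : Group.IsNilpotent ↥B :=
      isNilpotent_of_comm (fun a b => Subtype.ext (hB a a.2 b b.2))
    obtain ⟨TA, hTAle, hTAp, hTAall⟩ := exists_sylow_of_nilpotent A hAnil p
    obtain ⟨TB, hTBle, hTBp, hTBall⟩ := exists_sylow_of_nilpotent B hBnil p
    obtain ⟨M₁, hM₁def⟩ : ∃ M₁ : Subgroup G, M₁ = L ⊓ Subgroup.centralizer (TA : Set G) :=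
      ⟨_, rfl⟩
    have hM₁n : M₁.Normal := by rw [hM₁def]; exact fix_normal H hact TA L hLn hLH
    have hM₁L : M₁ ≤ L := by rw [hM₁def]; exact inf_le_left
    have hM₁ne : M₁ ≠ ⊥ := by
      obtain ⟨w, hwL, hw1, hwc⟩ :=
        ne_one_centralized hTAp hLp hLne (fun g _ w hw => hLn.conj_mem w hw g)
      intro hbot
      have hw : w ∈ M₁ := by
        rw [hM₁def]
        exact Subgroup.mem_inf.mpr
          ⟨hwL, Subgroup.mem_centralizer_iff.mpr (fun g hg => hwc g hg)⟩
      rw [hbot, Subgroup.mem_bot] at hw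
      exact hw1 hw
    have hM₁p : IsPGroup p M₁ := hLp.to_le hM₁L
    obtain ⟨M, hMdef⟩ : ∃ M : Subgroup G, M = M₁ ⊓ Subgroup.centralizer (TB : Set G) :=
      ⟨_, rfl⟩
    have hMn : M.Normal := by
      rw [hMdef]; exact fix_normal H hact TB M₁ hM₁n (hM₁L.trans hLH)
    have hMM₁ : M ≤ M₁ := by rw [hMdef]; exact inf_le_left
    have hMne : M ≠ ⊥ := by
      obtain ⟨w, hwL, hw1, hwc⟩ :=
        ne_one_centralized hTBp hM₁p hM₁ne (fun g _ w hw => hM₁n.conj_mem w hw g)
      intro hbot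
      have hw : w ∈ M := by
        rw [hMdef]
        exact Subgroup.mem_inf.mpr
          ⟨hwL, Subgroup.mem_centralizer_iff.mpr (fun g hg => hwc g hg)⟩
      rw [hbot, Subgroup.mem_bot] at hw
      exact hw1 hw
    have hML : M ≤ L := hMM₁.trans hM₁L
    have hMH : M ≤ H := hML.trans hLH
    have hMTA : ∀ m ∈ M, ∀ t ∈ TA, t * m = m * t := by
      intro m hm t ht
      have h1 : m ∈ M₁ := hMM₁ hm
      rw [hM₁def] at h1
      exact Subgroup.mem_centralizer_iff.mp (Subgroup.mem_inf.mp h1).2 t ht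
    have hMTB : ∀ m ∈ M, ∀ t ∈ TB, t * m = m * t := by
      intro m hm t ht
      rw [hMdef] at hm
      exact Subgroup.mem_centralizer_iff.mp (Subgroup.mem_inf.mp hm).2 t ht
    have hMB : ∀ m ∈ M, m ∈ B → m = 1 := by
      intro m hm hmB
      have h1 : m ∈ H ⊓ Subgroup.centralizer (B : Set G) :=
        Subgroup.mem_inf.mpr
          ⟨hMH hm, Subgroup.mem_centralizer_iff.mpr (fun b hb => hB b hb m hmB)⟩
      rw [hFB, Subgroup.mem_bot] at h1
      exact h1
    have hMp : ∀ m ∈ M, m ^ p = 1 := fun m hm => ((hLmem m).mp (hML hm)).2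
    obtain ⟨A₁, hA₁def⟩ : ∃ A₁ : Subgroup G, A₁ = A ⊓ (B ⊔ M) := ⟨_, rfl⟩
    have hA₁A : A₁ ≤ A := by rw [hA₁def]; exact inf_le_left
    have hA₁dec : ∀ a ∈ A₁, ∃ b ∈ B, ∃ m ∈ M, b * m = a := by
      intro a ha
      rw [hA₁def] at ha
      exact Subgroup.mem_sup_of_normal_right.mp (Subgroup.mem_inf.mp ha).2
    have hK0 : ∀ a ∈ A₁, ∀ g : G, g * a * g⁻¹ * a⁻¹ ∈ M := by
      intro a ha g
      obtain ⟨b, hb, m₀, hm₀, hbm⟩ := hA₁dec a ha
      obtain ⟨a', ha', b', hb', rfl⟩ := hAB g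
      have haA := hA₁A ha
      have hbb : b' * b = b * b' := hB b' hb' b hb
      have haa : a' * a = a * a' := hA a' ha' a haA
      have hμ : m₀⁻¹ * (b' * m₀ * b'⁻¹) ∈ M :=
        M.mul_mem (M.inv_mem hm₀) (hMn.conj_mem m₀ hm₀ b')
      have e1 : b' * a * b'⁻¹ = a * (m₀⁻¹ * (b' * m₀ * b'⁻¹)) := by
        rw [← hbm]
        calc b' * (b * m₀) * b'⁻¹ = (b' * b) * m₀ * b'⁻¹ := by group
          _ = (b * b') * m₀ * b'⁻¹ := by rw [hbb]
          _ = b * m₀ * (m₀⁻¹ * (b' * m₀ * b'⁻¹)) := by group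
      have e2 : a' * b' * a * (a' * b')⁻¹ * a⁻¹ =
          a * (a' * (m₀⁻¹ * (b' * m₀ * b'⁻¹)) * a'⁻¹) * a⁻¹ := by
        calc a' * b' * a * (a' * b')⁻¹ * a⁻¹ = a' * (b' * a * b'⁻¹) * a'⁻¹ * a⁻¹ := by group
          _ = a' * (a * (m₀⁻¹ * (b' * m₀ * b'⁻¹))) * a'⁻¹ * a⁻¹ := by rw [e1]
          _ = (a' * a) * (m₀⁻¹ * (b' * m₀ * b'⁻¹)) * a'⁻¹ * a⁻¹ := by group
          _ = (a * a') * (m₀⁻¹ * (b' * m₀ * b'⁻¹)) * a'⁻¹ * a⁻¹ := by rw [haa]
          _ = a * (a' * (m₀⁻¹ * (b' * m₀ * b'⁻¹)) * a'⁻¹) * a⁻¹ := by group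
      rw [e2]
      exact hMn.conj_mem _ (hMn.conj_mem _ hμ a') a
    obtain ⟨K, hKdef⟩ : ∃ K : Subgroup G, K = A₁ ⊔ M := ⟨_, rfl⟩
    have hA₁K : A₁ ≤ K := by rw [hKdef]; exact le_sup_left
    have hMK : M ≤ K := by rw [hKdef]; exact le_sup_right
    have hKn : K.Normal := by
      constructor
      intro k hk g
      rw [hKdef] at hk
      obtain ⟨a, ha, m, hm, rfl⟩ := Subgroup.mem_sup_of_normal_right.mp hk
      have e : g * (a * m) * g⁻¹ = (g * a * g⁻¹ * a⁻¹) * a * (g * m * g⁻¹) := by group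
      rw [e]
      exact K.mul_mem (K.mul_mem (hMK (hK0 a ha g)) (hA₁K ha)) (hMK (hMn.conj_mem m hm g))
    obtain ⟨D, hDdef⟩ : ∃ D : Subgroup G, D = Subgroup.centralizer (K : Set G) := ⟨_, rfl⟩
    have hDn : D.Normal := by rw [hDdef]; infer_instance
    have hDcomm : ∀ d ∈ D, ∀ a ∈ A₁, d * a = a * d := by
      intro d hd a ha
      rw [hDdef] at hd
      exact (Subgroup.mem_centralizer_iff.mp hd a (hA₁K ha)).symm
    have hTAD : TA ≤ D := by
      rw [hDdef, Subgroup.le_centralizer_iff, hKdef, sup_le_iff]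
      constructor
      · intro a ha
        rw [Subgroup.mem_centralizer_iff]
        intro t ht
        exact hA t (hTAle ht) a (hA₁A ha)
      · intro m hm
        rw [Subgroup.mem_centralizer_iff]
        intro t ht
        exact hMTA m hm t ht
    have hTBD : TB ≤ D := by
      rw [hDdef, Subgroup.le_centralizer_iff, hKdef, sup_le_iff]
      constructor
      · intro a ha
        rw [Subgroup.mem_centralizer_iff]
        intro t ht
        obtain ⟨b, hb, m, hm, rfl⟩ := hA₁dec a ha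
        have h1 := hB t (hTBle ht) b hb
        have h2 := hMTB m hm t ht
        calc t * (b * m) = (t * b) * m := by rw [mul_assoc]
          _ = (b * t) * m := by rw [h1]
          _ = b * (t * m) := by rw [mul_assoc]
          _ = b * (m * t) := by rw [h2]
          _ = b * m * t := by rw [mul_assoc]
      · intro m hm
        rw [Subgroup.mem_centralizer_iff]
        intro t ht
        exact hMTB m hm t ht
    have hpD : ¬ p ∣ D.index :=
      not_dvd_index_of_factor A B D hAB (fun x hx hk => hTAD (hTAall x hx hk))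
        (fun x hx hk => hTBD (hTBall x hx hk))
    have hpelD : ∀ x : G, ∀ k : ℕ, x ^ (p ^ k) = 1 → x ∈ D := by
      intro x k hk
      apply mem_of_mem_normalizer_of_coprime D x
      · rw [Subgroup.normalizer_eq_top_iff.mpr hDn]; exact Subgroup.mem_top x
      · exact Nat.Coprime.coprime_dvd_left (orderOf_dvd_of_pow_eq_one hk)
          (Nat.Coprime.pow_left k ((Nat.Prime.coprime_iff_not_dvd hp).mpr hpD))
    have hK4 : ∀ s ∈ H, ∀ a ∈ A₁, s * a = a * s := by
      intro s hs a ha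
      obtain ⟨e, m, u, v, hord, hm, hu, hv, hdec, hue, hvm⟩ :=
        exists_decomp s (orderOf_pos s).ne' p hp
      have huD : u ∈ D := hpelD u e hue
      have hua : u * a = a * u := hDcomm u huD a ha
      have hvH : v ∈ H := (Subgroup.zpowers_le.mpr hs) hv
      obtain ⟨z, hz⟩ : ∃ z, z = a⁻¹ * v * a * v⁻¹ := ⟨_, rfl⟩
      have hzM : z ∈ M := by
        have h1 := hK0 a ha v
        have h2 := hMn.conj_mem _ h1 a⁻¹
        have e' : a⁻¹ * (v * a * v⁻¹ * a⁻¹) * a⁻¹⁻¹ = z := by rw [hz]; group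
        rw [e'] at h2; exact h2
      have hvz : v * z = z * v := hHab v hvH z (hMH hzM)
      have hva : v * a = a * z * v := by rw [hz]; group
      have h3 := conj_pow_aux v a z hva hvz m
      rw [hvm, one_mul, mul_one] at h3
      have hzm : z ^ m = 1 := mul_left_cancel (a := a) (by rw [← h3, mul_one])
      have hzp : z ^ p = 1 := hMp z hzM
      have h4 := Nat.dvd_gcd (orderOf_dvd_of_pow_eq_one hzm) (orderOf_dvd_of_pow_eq_one hzp)
      rw [Nat.Coprime.gcd_eq_one
        (Nat.Coprime.symm ((Nat.Prime.coprime_iff_not_dvd hp).mpr hm))] at h4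
      have hz1 : z = 1 := orderOf_eq_one_iff.mp (Nat.dvd_one.mp h4)
      rw [hz1, mul_one] at hva
      rw [hdec]
      calc v * u * a = v * (u * a) := by rw [mul_assoc]
        _ = v * (a * u) := by rw [hua]
        _ = (v * a) * u := by rw [mul_assoc]
        _ = (a * v) * u := by rw [hva]
        _ = a * (v * u) := by rw [mul_assoc]
    have hA₁n : A₁.Normal := by
      constructor
      intro a ha g
      have h1 : g * a * g⁻¹ ∈ A := by
        apply hCA
        intro a' ha'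
        obtain ⟨s, hs⟩ : ∃ s, s = a'⁻¹ * g⁻¹ * a' * g := ⟨_, rfl⟩
        have hsH : s ∈ H := by
          have := hcomH a'⁻¹ g⁻¹
          rw [hs]; simpa using this
        have h2 : s * a = a * s := hK4 s hsH a ha
        have h3 : a' * a = a * a' := hA a' ha' a (hA₁A ha)
        have h4 : a' * g = g * (a' * s) := by rw [hs]; group
        calc g * a * g⁻¹ * a' = g * a * g⁻¹ * (a' * g) * g⁻¹ := by group
          _ = g * a * g⁻¹ * (g * (a' * s)) * g⁻¹ := by rw [h4]
          _ = g * (a * a') * s * g⁻¹ := by group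
          _ = g * (a' * a) * s * g⁻¹ := by rw [h3]
          _ = g * a' * (a * s) * g⁻¹ := by group
          _ = g * a' * (s * a) * g⁻¹ := by rw [h2]
          _ = g * (a' * s) * a * g⁻¹ := by group
          _ = a' * g * a * g⁻¹ := by rw [← h4]
          _ = a' * (g * a * g⁻¹) := by group
      have h5 : g * a * g⁻¹ ∈ B ⊔ M := by
        have h6 : a ∈ B ⊔ M := by
          have h7 := ha
          rw [hA₁def] at h7
          exact (Subgroup.mem_inf.mp h7).2
        have e : g * a * g⁻¹ = (g * a * g⁻¹ * a⁻¹) * a := by group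
        rw [e]
        exact Subgroup.mul_mem _ (le_sup_right (a := B) (hK0 a ha g)) h6
      rw [hA₁def]
      exact Subgroup.mem_inf.mpr ⟨h1, h5⟩
    have hA₁ne : A₁ ≠ ⊥ := by
      obtain ⟨m, hm, hm1⟩ : ∃ m ∈ M, m ≠ 1 := by
        by_contra hcon
        push Not at hcon
        exact hMne ((Subgroup.eq_bot_iff_forall M).mpr hcon)
      obtain ⟨a, ha, b, hb, hab⟩ := hAB m
      intro hbot
      have haA₁ : a ∈ A₁ := by
        rw [hA₁def]
        refine Subgroup.mem_inf.mpr ⟨ha, ?_⟩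
        have e : a = m * b⁻¹ := by rw [hab]; group
        rw [e]
        exact Subgroup.mul_mem _ (le_sup_right (a := B) hm)
          (le_sup_left (b := M) (B.inv_mem hb))
      rw [hbot, Subgroup.mem_bot] at haA₁
      apply hm1
      apply hMB m hm
      rw [hab, haA₁, one_mul]; exact hb
    exact ⟨A₁, hA₁n, hA₁ne, Or.inl hA₁A⟩

end Cfsg.Agent.S0573
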