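import Mathlib
import Cfsg.Statements.S5967
import Cfsg.Agent.S2577
import Cfsg.Agent.S2670
import Cfsg.Agent.Helper16.SympInv
-- import your own Cfsg.Agent.* helpers here

set_option autoImplicit false
open scoped MatrixGroups
open Cfsg

namespace Cfsg.Agent.S5967

section form
variable {F : Type*} [Field F]

/-- A basis-like family of hyperbolic pairs with multipliers `lam`. -/
def Good {V : Type*} [AddCommGroup V] [Module F V] {ι : Type*} (B : LinearMap.BilinForm F V)
    (b : ι ⊕ ι → V) (lam : ι → F) : Prop :=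
  (∀ i, lam i ≠ 0) ∧ (∀ i, B (b (Sum.inl i)) (b (Sum.inr i)) = lam i) ∧
  (∀ i k, i ≠ k → B (b (Sum.inl i)) (b (Sum.inr k)) = 0) ∧
  (∀ i k, B (b (Sum.inl i)) (b (Sum.inl k)) = 0) ∧
  (∀ i k, B (b (Sum.inr i)) (b (Sum.inr k)) = 0)

theorem symp_pairs {V : Type*} [AddCommGroup V] [Module F V] [FiniteDimensional F V]
    (B : LinearMap.BilinForm F V) (hB : B.IsAlt) :
    ∀ d : ℕ, ∀ P : Submodule F V, Module.finrank F P = d → Helper16.SympInv.ND B P →
      ∃ (ι : Type) (_ : Fintype ι) (e e' : ι → V),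
        (∀ i, B (e i) (e' i) = 1) ∧ (∀ i k, i ≠ k → B (e i) (e' k) = 0) ∧
        (∀ i k, B (e i) (e k) = 0) ∧ (∀ i k, B (e' i) (e' k) = 0) ∧
        (∀ p ∈ P, p ∈ Submodule.span F (Set.range e ∪ Set.range e')) ∧
        (∀ i, e i ∈ P ∧ e' i ∈ P) := by
  intro d
  induction d using Nat.strong_induction_on with
  | _ d ih =>
    intro P hd hND
    by_cases hbot : P = ⊥
    · refine ⟨Empty, inferInstance, fun i => i.elim, fun i => i.elim, fun i => i.elim,
        fun i => i.elim, fun i => i.elim, fun i => i.elim, ?_, fun i => i.elim⟩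
      intro p hp
      rw [hbot, Submodule.mem_bot] at hp
      rw [hp]; exact Submodule.zero_mem _
    · obtain ⟨v, hv, hv0⟩ := Submodule.exists_mem_ne_zero_of_ne_bot hbot
      obtain ⟨v', hv', hγ⟩ := hND v hv hv0
      obtain ⟨P', hmem, hdec, hlt, hND'⟩ := Helper16.SympInv.split_pair B hB P v v' hv hv' hγ
      obtain ⟨ι, hι, e, e', h1, h2, h3, h4, h5, h6⟩ :=
        ih (Module.finrank F P') (hd ▸ hlt) P' rfl (hND' hND)
      have hsk := fun a b => Helper16.SympInv.skew hB a b
      have he : ∀ i, B (e i) v = 0 ∧ B (e i) v' = 0 := fun i => ((hmem _).1 (h6 i).1).2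
      have he' : ∀ i, B (e' i) v = 0 ∧ B (e' i) v' = 0 := fun i => ((hmem _).1 (h6 i).2).2
      refine ⟨Option ι, inferInstance, fun o => o.elim ((B v v')⁻¹ • v) e, fun o => o.elim v' e',
        ?_, ?_, ?_, ?_, ?_, ?_⟩
      · rintro (_ | i)
        · simp only [Option.elim_none, map_smul, LinearMap.smul_apply, smul_eq_mul]
          exact inv_mul_cancel₀ hγ
        · simp only [Option.elim_some]; exact h1 i
      · rintro (_ | i) (_ | k) hik
        · exact absurd rfl hik
        · simp only [Option.elim_none, Option.elim_some, map_smul, LinearMap.smul_apply,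
            smul_eq_mul]
          rw [hsk v (e' k), (he' k).1, neg_zero, mul_zero]
        · simp only [Option.elim_none, Option.elim_some]
          exact (he i).2
        · simp only [Option.elim_some]
          exact h2 i k (fun h => hik (by rw [h]))
      · rintro (_ | i) (_ | k)
        · simp only [Option.elim_none, map_smul, LinearMap.smul_apply, smul_eq_mul]
          rw [hB.self_eq_zero, mul_zero, mul_zero]
        · simp only [Option.elim_none, Option.elim_some, map_smul, LinearMap.smul_apply,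
            smul_eq_mul]
          rw [hsk v (e k), (he k).1, neg_zero, mul_zero]
        · simp only [Option.elim_none, Option.elim_some, map_smul, smul_eq_mul]
          rw [(he i).1, mul_zero]
        · simp only [Option.elim_some]; exact h3 i k
      · rintro (_ | i) (_ | k)
        · simp only [Option.elim_none]; exact hB.self_eq_zero _
        · simp only [Option.elim_none, Option.elim_some]
          rw [hsk, (he' k).2, neg_zero]
        · simp only [Option.elim_none, Option.elim_some]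
          exact (he' i).2
        · simp only [Option.elim_some]; exact h4 i k
      · intro p hp
        obtain ⟨α, β, p', hp', rfl⟩ := hdec p hp
        have hsub : Set.range e ∪ Set.range e' ⊆
            Set.range (fun o : Option ι => o.elim ((B v v')⁻¹ • v) e) ∪
              Set.range (fun o : Option ι => o.elim v' e') := by
          rintro y (⟨i, rfl⟩ | ⟨i, rfl⟩)
          · exact Or.inl ⟨some i, rfl⟩
          · exact Or.inr ⟨some i, rfl⟩
        have hvm : (B v v')⁻¹ • v ∈ Submodule.span F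
            (Set.range (fun o : Option ι => o.elim ((B v v')⁻¹ • v) e) ∪
              Set.range (fun o : Option ι => o.elim v' e')) :=
          Submodule.subset_span (Or.inl ⟨none, rfl⟩)
        have hvm' : v' ∈ Submodule.span F
            (Set.range (fun o : Option ι => o.elim ((B v v')⁻¹ • v) e) ∪
              Set.range (fun o : Option ι => o.elim v' e')) :=
          Submodule.subset_span (Or.inr ⟨none, rfl⟩)
        have hvm2 := Submodule.smul_mem _ (B v v') hvm
        rw [smul_smul, mul_inv_cancel₀ hγ, one_smul] at hvm2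
        exact Submodule.add_mem _ (Submodule.add_mem _ (Submodule.smul_mem _ _ hvm2)
          (Submodule.smul_mem _ _ hvm')) (Submodule.span_mono hsub (h5 p' hp'))
      · rintro (_ | i)
        · exact ⟨P.smul_mem _ hv, hv'⟩
        · exact ⟨((hmem _).1 (h6 i).1).1, ((hmem _).1 (h6 i).2).1⟩

theorem symp_basis {V : Type*} [AddCommGroup V] [Module F V] [FiniteDimensional F V]
    (B : LinearMap.BilinForm F V) (hB : B.IsAlt) (hND : ∀ u : V, u ≠ 0 → ∃ v, B u v ≠ 0) :
    ∃ (ι : Type) (_ : Fintype ι) (b : Module.Basis (ι ⊕ ι) F V), Good B b (fun _ => 1) := by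
  obtain ⟨ι, hι, e, e', h1, h2, h3, h4, h5, -⟩ := symp_pairs B hB _ ⊤ rfl
    (fun u _ hu => by obtain ⟨v, hv⟩ := hND u hu; exact ⟨v, Submodule.mem_top, hv⟩)
  have hsk := fun a b => Helper16.SympInv.skew hB a b
  have hli : LinearIndependent F (Sum.elim e e') := by
    refine Helper16.SympInv.li_of_dual B (Sum.elim e e') (Sum.elim e' e) ?_ ?_
    · rintro (i | i) (k | k) hne
      · simp only [Sum.elim_inl]
        exact h2 i k (fun h => hne (by rw [h]))
      · simp only [Sum.elim_inl, Sum.elim_inr]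
        exact h3 i k
      · simp only [Sum.elim_inl, Sum.elim_inr]
        exact h4 i k
      · simp only [Sum.elim_inr]
        rw [hsk, h2 k i (fun h => hne (by rw [h])), neg_zero]
    · rintro (i | i)
      · simp only [Sum.elim_inl]; rw [h1]; exact one_ne_zero
      · simp only [Sum.elim_inr]; rw [hsk, h1]; exact neg_ne_zero.2 one_ne_zero
  have hsp : ⊤ ≤ Submodule.span F (Set.range (Sum.elim e e')) := by
    intro p _
    have := h5 p Submodule.mem_top
    rwa [Set.Sum.elim_range]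
  refine ⟨ι, hι, Module.Basis.mk hli hsp, fun _ => one_ne_zero, ?_, ?_, ?_, ?_⟩
  · intro i
    simp only [Module.Basis.mk_apply, Sum.elim_inl, Sum.elim_inr]
    exact h1 i
  · intro i k hik
    simp only [Module.Basis.mk_apply, Sum.elim_inl, Sum.elim_inr]
    exact h2 i k hik
  · intro i k
    simp only [Module.Basis.mk_apply, Sum.elim_inl]
    exact h3 i k
  · intro i k
    simp only [Module.Basis.mk_apply, Sum.elim_inr]
    exact h4 i k

theorem symp_basis' {V : Type*} [AddCommGroup V] [Module F V] [FiniteDimensional F V]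
    (B : LinearMap.BilinForm F V) (hB : B.IsAlt) (hND : ∀ u : V, u ≠ 0 → ∃ v, B u v ≠ 0)
    (ι : Type) [Fintype ι] (hcard : Module.finrank F V = 2 * Fintype.card ι) :
    ∃ b : Module.Basis (ι ⊕ ι) F V, Good B b (fun _ => 1) := by
  obtain ⟨ι₀, hι₀, b₀, h0, h1, h2, h3, h4⟩ := symp_basis B hB hND
  have hc : Fintype.card ι₀ = Fintype.card ι := by
    have := Module.finrank_eq_card_basis b₀
    rw [Fintype.card_sum] at this
    omega
  obtain ⟨ε⟩ : Nonempty (ι₀ ≃ ι) := ⟨Fintype.equivOfCardEq hc⟩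
  refine ⟨b₀.reindex (Equiv.sumCongr ε ε), fun _ => one_ne_zero, ?_, ?_, ?_, ?_⟩
  · intro i
    simp only [Module.Basis.reindex_apply, Equiv.sumCongr_symm, Equiv.sumCongr_apply, Sum.map_inl,
      Sum.map_inr]
    exact h1 _
  · intro i k hik
    simp only [Module.Basis.reindex_apply, Equiv.sumCongr_symm, Equiv.sumCongr_apply, Sum.map_inl,
      Sum.map_inr]
    exact h2 _ _ (fun h => hik (ε.symm.injective h))
  · intro i k
    simp only [Module.Basis.reindex_apply, Equiv.sumCongr_symm, Equiv.sumCongr_apply, Sum.map_inl]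
    exact h3 _ _
  · intro i k
    simp only [Module.Basis.reindex_apply, Equiv.sumCongr_symm, Equiv.sumCongr_apply, Sum.map_inr]
    exact h4 _ _

theorem good_smul {V : Type*} [AddCommGroup V] [Module F V] {ι : Type*}
    (B : LinearMap.BilinForm F V) (b : Module.Basis (ι ⊕ ι) F V) (lam : ι → F) (w : ι ⊕ ι → Fˣ)
    (h : Good B b lam) :
    Good B (b.unitsSMul w) (fun i => (w (Sum.inl i) : F) * (w (Sum.inr i) : F) * lam i) := by
  obtain ⟨h0, h1, h2, h3, h4⟩ := h
  have key : ∀ j j', B (b.unitsSMul w j) (b.unitsSMul w j')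
      = (w j : F) * (w j' : F) * B (b j) (b j') := by
    intro j j'
    simp only [Module.Basis.unitsSMul_apply, Units.smul_def, map_smul, LinearMap.smul_apply,
      smul_eq_mul]
    ring
  refine ⟨fun i => mul_ne_zero (mul_ne_zero (w _).ne_zero (w _).ne_zero) (h0 i), fun i => ?_,
    fun i k hik => ?_, fun i k => ?_, fun i k => ?_⟩
  · rw [key, h1]
  · rw [key, h2 i k hik, mul_zero]
  · rw [key, h3, mul_zero]
  · rw [key, h4, mul_zero]

theorem block_case {V : Type*} [AddCommGroup V] [Module F V] {ι : Type*}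
    (B : LinearMap.BilinForm F V) (hB : B.IsAlt) (b : ι ⊕ ι → V) (lam : ι → F)
    (hg : Good B b lam)
    (u : ι ⊕ ι → V) (a₁ a₂ a₃ a₄ : ι → F) (c : F)
    (hl : ∀ i, u (Sum.inl i) = a₁ i • b (Sum.inl i) + a₂ i • b (Sum.inr i))
    (hr : ∀ i, u (Sum.inr i) = a₃ i • b (Sum.inl i) + a₄ i • b (Sum.inr i))
    (hc : ∀ i, a₁ i * a₄ i - a₂ i * a₃ i = c) :
    ∀ j j', B (u j) (u j') = c * B (b j) (b j') := by
  obtain ⟨h0, h1, h2, h3, h4⟩ := hg
  have h1' : ∀ i, B (b (Sum.inr i)) (b (Sum.inl i)) = -lam i := fun i => by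
    rw [Helper16.SympInv.skew hB, h1]
  have h2' : ∀ i k, i ≠ k → B (b (Sum.inr i)) (b (Sum.inl k)) = 0 := fun i k hik => by
    rw [Helper16.SympInv.skew hB, h2 k i (Ne.symm hik), neg_zero]
  rintro (i | i) (k | k)
  · rw [hl, hl]
    simp only [map_add, map_smul, LinearMap.add_apply, LinearMap.smul_apply, smul_eq_mul, h3, h4]
    by_cases hik : i = k
    · subst hik
      rw [h1, h1']; ring
    · rw [h2 i k hik, h2' i k hik]; ring
  · rw [hl, hr]
    simp only [map_add, map_smul, LinearMap.add_apply, LinearMap.smul_apply, smul_eq_mul, h3, h4]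
    by_cases hik : i = k
    · subst hik
      rw [h1, h1']; linear_combination lam i * hc i
    · rw [h2 i k hik, h2' i k hik]; ring
  · rw [hr, hl]
    simp only [map_add, map_smul, LinearMap.add_apply, LinearMap.smul_apply, smul_eq_mul, h3, h4]
    by_cases hik : i = k
    · subst hik
      rw [h1, h1']; linear_combination (-lam i) * hc i
    · rw [h2 i k hik, h2' i k hik]; ring
  · rw [hr, hr]
    simp only [map_add, map_smul, LinearMap.add_apply, LinearMap.smul_apply, smul_eq_mul, h3, h4]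
    by_cases hik : i = k
    · subst hik
      rw [h1, h1']; ring
    · rw [h2 i k hik, h2' i k hik]; ring

theorem det_diag_basis {V : Type*} [AddCommGroup V] [Module F V] {κ : Type*} [Fintype κ]
    [DecidableEq κ] (γ : Module.Basis κ F V) (T : V →ₗ[F] V) (μ : κ → F)
    (h : ∀ j, T (γ j) = μ j • γ j) : LinearMap.det T = ∏ j, μ j := by
  rw [← LinearMap.det_toMatrix γ]
  have : LinearMap.toMatrix γ γ T = Matrix.diagonal μ := by
    ext i j
    rw [LinearMap.toMatrix_apply, h, map_smul, Module.Basis.repr_self, Finsupp.smul_apply,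
      Finsupp.single_apply, Matrix.diagonal_apply]
    by_cases hij : i = j
    · subst hij; simp
    · rw [if_neg hij, if_neg (fun h => hij h.symm)]; simp
  rw [this, Matrix.det_diagonal]

end form
section adj
open Matrix
variable {F : Type*} [Field F]

/-- The form as a bilinear map. -/
def Bf {n : ℕ} (f : (Fin n → F) → (Fin n → F) → F) (hf : Cfsg.Geo.IsSymplecticForm f) :
    LinearMap.BilinForm F (Fin n → F) :=
  LinearMap.mk₂ F f hf.bilinear.add_left hf.bilinear.smul_left hf.bilinear.add_right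
    hf.bilinear.smul_right

theorem Bf_apply {n : ℕ} (f : (Fin n → F) → (Fin n → F) → F) (hf : Cfsg.Geo.IsSymplecticForm f)
    (u v : Fin n → F) : Bf f hf u v = f u v := rfl

theorem sl_conj {n : ℕ} (f : (Fin n → F) → (Fin n → F) → F)
    (x : Matrix.SpecialLinearGroup (Fin n) F)
    (φ : (Fin n → F) ≃ₗ[F] (Fin n → F))
    (hdet : LinearMap.det (φ : (Fin n → F) →ₗ[F] (Fin n → F)) = 1)
    (c : F) (hc : c ≠ 0)
    (h : ∀ u v, f (φ ((x : Matrix (Fin n) (Fin n) F) *ᵥ (φ.symm u)))
      (φ ((x : Matrix (Fin n) (Fin n) F) *ᵥ (φ.symm v))) = c * f u v) :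
    ∃ P : Matrix.SpecialLinearGroup (Fin n) F, P⁻¹ * x * P ∈
      ((Cfsg.Geo.similarityGroup f).comap (Matrix.SpecialLinearGroup.toGL :
        Matrix.SpecialLinearGroup (Fin n) F →* GL (Fin n) F)) := by
  have hcomp : (φ : (Fin n → F) →ₗ[F] (Fin n → F)) ∘ₗ (φ.symm : (Fin n → F) →ₗ[F] (Fin n → F))
      = LinearMap.id := by
    ext v; simp
  have hdet' : LinearMap.det (φ.symm : (Fin n → F) →ₗ[F] (Fin n → F)) = 1 := by
    have h2 := congrArg LinearMap.det hcomp
    rw [LinearMap.det_comp, hdet, one_mul, LinearMap.det_id] at h2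
    exact h2
  obtain ⟨P, hP⟩ : ∃ P : Matrix.SpecialLinearGroup (Fin n) F,
      (P : Matrix (Fin n) (Fin n) F)
        = LinearMap.toMatrix' (φ.symm : (Fin n → F) →ₗ[F] (Fin n → F)) :=
    ⟨⟨LinearMap.toMatrix' (φ.symm : (Fin n → F) →ₗ[F] (Fin n → F)), by
      rw [LinearMap.det_toMatrix']; exact hdet'⟩, rfl⟩
  obtain ⟨Q, hQ⟩ : ∃ Q : Matrix.SpecialLinearGroup (Fin n) F,
      (Q : Matrix (Fin n) (Fin n) F)
        = LinearMap.toMatrix' (φ : (Fin n → F) →ₗ[F] (Fin n → F)) :=
    ⟨⟨LinearMap.toMatrix' (φ : (Fin n → F) →ₗ[F] (Fin n → F)), by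
      rw [LinearMap.det_toMatrix']; exact hdet⟩, rfl⟩
  have hQP : Q * P = 1 := by
    apply Subtype.ext
    rw [Matrix.SpecialLinearGroup.coe_mul, hP, hQ, ← LinearMap.toMatrix'_comp, hcomp,
      LinearMap.toMatrix'_id]
    rfl
  have hQ' : P⁻¹ = Q := (eq_inv_of_mul_eq_one_left hQP).symm
  refine ⟨P, ?_⟩
  rw [Subgroup.mem_comap]
  refine ⟨Units.mk0 c hc, fun u v => ?_⟩
  have hcoe : ((Matrix.SpecialLinearGroup.toGL (P⁻¹ * x * P) : GL (Fin n) F) :
      Matrix (Fin n) (Fin n) F) = (Q : Matrix (Fin n) (Fin n) F) *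
        (x : Matrix (Fin n) (Fin n) F) * (P : Matrix (Fin n) (Fin n) F) := by
    rw [hQ']; rfl
  rw [hcoe]
  have hv : ∀ w : Fin n → F, ((Q : Matrix (Fin n) (Fin n) F) * (x : Matrix (Fin n) (Fin n) F)
      * (P : Matrix (Fin n) (Fin n) F)) *ᵥ w
      = φ ((x : Matrix (Fin n) (Fin n) F) *ᵥ (φ.symm w)) := by
    intro w
    rw [← Matrix.mulVec_mulVec, ← Matrix.mulVec_mulVec, hP, hQ, LinearMap.toMatrix'_mulVec,
      LinearMap.toMatrix'_mulVec]
    rfl
  rw [hv, hv, h]
  rfl

theorem adj {n : ℕ} (hn : 0 < n) (f : (Fin n → F) → (Fin n → F) → F)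
    (hf : Cfsg.Geo.IsSymplecticForm f)
    (x : Matrix.SpecialLinearGroup (Fin n) F) {ι : Type} [Fintype ι]
    (β : Module.Basis (ι ⊕ ι) F (Fin n → F)) (c : F) (hc : c ≠ 0)
    (H : ∀ (b : Module.Basis (ι ⊕ ι) F (Fin n → F)) (lam : ι → F), Good (Bf f hf) b lam →
      ∀ j j', Bf f hf ((β.equiv b (Equiv.refl _)) ((x : Matrix (Fin n) (Fin n) F) *ᵥ (β j)))
        ((β.equiv b (Equiv.refl _)) ((x : Matrix (Fin n) (Fin n) F) *ᵥ (β j')))
          = c * Bf f hf (b j) (b j')) :
    ∃ P : Matrix.SpecialLinearGroup (Fin n) F, P⁻¹ * x * P ∈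
      ((Cfsg.Geo.similarityGroup f).comap (Matrix.SpecialLinearGroup.toGL :
        Matrix.SpecialLinearGroup (Fin n) F →* GL (Fin n) F)) := by
  classical
  have hBalt : (Bf f hf).IsAlt := fun v => hf.alternating v
  have hBnd : ∀ u : Fin n → F, u ≠ 0 → ∃ v, Bf f hf u v ≠ 0 :=
    fun u hu => (hf.nondegenerate u hu).2
  have hfr : Module.finrank F (Fin n → F) = Fintype.card ι + Fintype.card ι := by
    rw [Module.finrank_eq_card_basis β, Fintype.card_sum]
  have hcard : Module.finrank F (Fin n → F) = 2 * Fintype.card ι := by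
    rw [hfr]; ring
  have hne : Nonempty ι := by
    rw [← Fintype.card_pos_iff]
    have := Module.finrank_fin_fun F (n := n)
    omega
  obtain ⟨b₀, hb₀⟩ := symp_basis' (Bf f hf) hBalt hBnd ι hcard
  obtain ⟨i₀⟩ := hne
  obtain ⟨φ₀, hφ₀⟩ : ∃ φ₀, φ₀ = β.equiv b₀ (Equiv.refl _) := ⟨_, rfl⟩
  have hd0 : LinearMap.det (φ₀ : (Fin n → F) →ₗ[F] (Fin n → F)) ≠ 0 :=
    (LinearEquiv.isUnit_det' φ₀).ne_zero
  obtain ⟨d, hd⟩ : ∃ d, d = LinearMap.det (φ₀ : (Fin n → F) →ₗ[F] (Fin n → F)) := ⟨_, rfl⟩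
  rw [← hd] at hd0
  obtain ⟨w, hw1, hw2⟩ : ∃ w : ι ⊕ ι → Fˣ, ((w (Sum.inl i₀) : Fˣ) : F) = d⁻¹ ∧
      ∀ j, j ≠ Sum.inl i₀ → ((w j : Fˣ) : F) = 1 := by
    refine ⟨fun j => if j = Sum.inl i₀ then Units.mk0 d⁻¹ (inv_ne_zero hd0) else 1, ?_, ?_⟩
    · dsimp only
      rw [if_pos rfl, Units.val_mk0]
    · intro j hj
      dsimp only
      rw [if_neg hj, Units.val_one]
  have hgood := good_smul (Bf f hf) b₀ (fun _ => 1) w hb₀
  obtain ⟨b₁, hb₁⟩ : ∃ b₁, b₁ = b₀.unitsSMul w := ⟨_, rfl⟩
  rw [← hb₁] at hgood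
  have hφβ : ∀ j, (β.equiv b₁ (Equiv.refl _)) (β j) = b₁ j := fun j => by
    rw [Module.Basis.equiv_apply]; rfl
  have hφ₀β : ∀ j, φ₀ (β j) = b₀ j := fun j => by rw [hφ₀, Module.Basis.equiv_apply]; rfl
  have hφ₀s : ∀ j, φ₀.symm (b₀ j) = β j := fun j => by
    rw [← hφ₀β j, LinearEquiv.symm_apply_apply]
  have hφs : ∀ j, (β.equiv b₁ (Equiv.refl _)).symm (b₁ j) = β j := fun j => by
    rw [← hφβ j, LinearEquiv.symm_apply_apply]
  have hdet : LinearMap.det ((β.equiv b₁ (Equiv.refl _)) : (Fin n → F) →ₗ[F] (Fin n → F)) = 1 := by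
    have hD : ((β.equiv b₁ (Equiv.refl _)) : (Fin n → F) →ₗ[F] (Fin n → F))
        = (((β.equiv b₁ (Equiv.refl _)) : (Fin n → F) →ₗ[F] (Fin n → F)) ∘ₗ
          (φ₀.symm : (Fin n → F) →ₗ[F] (Fin n → F))) ∘ₗ
            (φ₀ : (Fin n → F) →ₗ[F] (Fin n → F)) := by
      ext v; simp
    rw [hD, LinearMap.det_comp, det_diag_basis b₀ _ (fun j => ((w j : Fˣ) : F)),
      Fintype.prod_eq_single (Sum.inl i₀), hw1, ← hd, inv_mul_cancel₀ hd0]
    · intro j hj
      exact hw2 j hj
    · intro j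
      rw [LinearMap.comp_apply, LinearEquiv.coe_coe, LinearEquiv.coe_coe, hφ₀s, hφβ, hb₁,
        Module.Basis.unitsSMul_apply, Units.smul_def]
  refine sl_conj f x (β.equiv b₁ (Equiv.refl _)) hdet c hc ?_
  have hext : (Bf f hf).compl₁₂
      (((β.equiv b₁ (Equiv.refl _)) : (Fin n → F) →ₗ[F] (Fin n → F)) ∘ₗ
        Matrix.toLin' (x : Matrix (Fin n) (Fin n) F) ∘ₗ
          ((β.equiv b₁ (Equiv.refl _)).symm : (Fin n → F) →ₗ[F] (Fin n → F)))
      (((β.equiv b₁ (Equiv.refl _)) : (Fin n → F) →ₗ[F] (Fin n → F)) ∘ₗ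
        Matrix.toLin' (x : Matrix (Fin n) (Fin n) F) ∘ₗ
          ((β.equiv b₁ (Equiv.refl _)).symm : (Fin n → F) →ₗ[F] (Fin n → F)))
      = c • Bf f hf := by
    refine LinearMap.ext_basis b₁ b₁ (fun j j' => ?_)
    rw [LinearMap.compl₁₂_apply, LinearMap.smul_apply, LinearMap.smul_apply, smul_eq_mul]
    simp only [LinearMap.comp_apply, LinearEquiv.coe_coe, hφs, Matrix.toLin'_apply]
    exact H b₁ _ hgood j j'
  intro u v
  have h := LinearMap.congr_fun (LinearMap.congr_fun hext u) v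
  simpa only [LinearMap.compl₁₂_apply, LinearMap.smul_apply, smul_eq_mul, LinearMap.comp_apply,
    LinearEquiv.coe_coe, Matrix.toLin'_apply, Bf_apply] using h

theorem adj_block {n : ℕ} (hn : 0 < n) (f : (Fin n → F) → (Fin n → F) → F)
    (hf : Cfsg.Geo.IsSymplecticForm f)
    (x : Matrix.SpecialLinearGroup (Fin n) F) {ι : Type} [Fintype ι]
    (β : Module.Basis (ι ⊕ ι) F (Fin n → F)) (a₁ a₂ a₃ a₄ : ι → F) (c : F) (hc0 : c ≠ 0)
    (hl : ∀ i, (x : Matrix (Fin n) (Fin n) F) *ᵥ β (Sum.inl i)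
      = a₁ i • β (Sum.inl i) + a₂ i • β (Sum.inr i))
    (hr : ∀ i, (x : Matrix (Fin n) (Fin n) F) *ᵥ β (Sum.inr i)
      = a₃ i • β (Sum.inl i) + a₄ i • β (Sum.inr i))
    (hc : ∀ i, a₁ i * a₄ i - a₂ i * a₃ i = c) :
    ∃ P : Matrix.SpecialLinearGroup (Fin n) F, P⁻¹ * x * P ∈
      ((Cfsg.Geo.similarityGroup f).comap (Matrix.SpecialLinearGroup.toGL :
        Matrix.SpecialLinearGroup (Fin n) F →* GL (Fin n) F)) := by
  refine adj hn f hf x β c hc0 ?_
  intro b lam hg
  have hφβ : ∀ j, (β.equiv b (Equiv.refl _)) (β j) = b j := fun j => by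
    rw [Module.Basis.equiv_apply]; rfl
  refine block_case (Bf f hf) (fun v => hf.alternating v) b lam hg
    (fun j => (β.equiv b (Equiv.refl _)) ((x : Matrix (Fin n) (Fin n) F) *ᵥ (β j)))
    a₁ a₂ a₃ a₄ c ?_ ?_ hc
  · intro i
    show (β.equiv b (Equiv.refl _)) ((x : Matrix (Fin n) (Fin n) F) *ᵥ (β (Sum.inl i))) = _
    rw [hl, map_add, map_smul, map_smul, hφβ, hφβ]
  · intro i
    show (β.equiv b (Equiv.refl _)) ((x : Matrix (Fin n) (Fin n) F) *ᵥ (β (Sum.inr i))) = _
    rw [hr, map_add, map_smul, map_smul, hφβ, hφβ]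

end adj
section struct
open Matrix
variable {F : Type*} [Field F]

theorem span_coe_basis {V : Type*} [AddCommGroup V] [Module F V] (W : Submodule F V) {κ : Type*}
    (bb : Module.Basis κ F W) : Submodule.span F (Set.range (fun i => (bb i : V))) = W := by
  have h : Set.range (fun i => (bb i : V)) = W.subtype '' Set.range bb := by
    rw [← Set.range_comp]; rfl
  rw [h, ← Submodule.map_span, bb.span_eq, Submodule.map_subtype_top]

theorem li_coe_basis {V : Type*} [AddCommGroup V] [Module F V] (W : Submodule F V) {κ : Type*}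
    (bb : Module.Basis κ F W) : LinearIndependent F (fun i => (bb i : V)) :=
  LinearIndependent.map' bb.linearIndependent W.subtype (Submodule.ker_subtype W)

theorem basis_of_li {V : Type*} [AddCommGroup V] [Module F V] [FiniteDimensional F V]
    {κ κ' : Type} [Fintype κ] (g₀ : κ' → V) (hli : LinearIndependent F g₀)
    (σ : κ → κ') (hσ : Function.Injective σ) (hcard : Fintype.card κ = Module.finrank F V)
    (hpos : 0 < Module.finrank F V) :
    ∃ β : Module.Basis κ F V, ∀ j, β j = g₀ (σ j) := by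
  have hg : LinearIndependent F (g₀ ∘ σ) := hli.comp σ hσ
  have hne : Nonempty κ := by
    rw [← Fintype.card_pos_iff, hcard]; exact hpos
  refine ⟨basisOfLinearIndependentOfCardEqFinrank hg hcard, fun j => ?_⟩
  rw [coe_basisOfLinearIndependentOfCardEqFinrank]
  rfl

theorem sqzero_struct {V : Type*} [AddCommGroup V] [Module F V] [FiniteDimensional F V]
    (N : V →ₗ[F] V) (hN : ∀ v, N (N v) = 0) (hev : Even (Module.finrank F V))
    (hpos : 0 < Module.finrank F V) :
    ∃ (ι : Type) (_ : Fintype ι) (β : Module.Basis (ι ⊕ ι) F V) (θ : ι → F),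
      (∀ j, N (β (Sum.inl j)) = 0) ∧ (∀ j, N (β (Sum.inr j)) = θ j • β (Sum.inl j)) := by
  classical
  have hRK : LinearMap.range N ≤ LinearMap.ker N := by
    rintro _ ⟨v, rfl⟩
    exact LinearMap.mem_ker.2 (hN v)
  obtain ⟨Q, hQ⟩ := Submodule.exists_isCompl (LinearMap.range N)
  have hdisj : Disjoint (LinearMap.range N) (Q ⊓ LinearMap.ker N) :=
    hQ.disjoint.mono_right inf_le_left
  have hsup : LinearMap.range N ⊔ (Q ⊓ LinearMap.ker N) = LinearMap.ker N := by
    rw [← sup_inf_assoc_of_le Q hRK, hQ.sup_eq_top, top_inf_eq]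
  have hrn := LinearMap.finrank_range_add_finrank_ker N
  have hdim := Submodule.finrank_sup_add_finrank_inf_eq (LinearMap.range N) (Q ⊓ LinearMap.ker N)
  rw [hsup, hdisj.eq_bot, finrank_bot, add_zero] at hdim
  obtain ⟨m, hm⟩ := hev
  obtain ⟨t', ht'⟩ : ∃ t', Module.finrank F ↥(Q ⊓ LinearMap.ker N) = t' + t' :=
    ⟨m - Module.finrank F (LinearMap.range N), by omega⟩
  obtain ⟨s, hs⟩ : ∃ s, Module.finrank F (LinearMap.range N) = s := ⟨_, rfl⟩
  obtain ⟨r⟩ : Nonempty (Module.Basis (Fin s) F (LinearMap.range N)) :=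
    ⟨Module.finBasisOfFinrankEq F _ hs⟩
  obtain ⟨cb⟩ : Nonempty (Module.Basis (Fin t' ⊕ Fin t') F ↥(Q ⊓ LinearMap.ker N)) :=
    ⟨(Module.finBasisOfFinrankEq F _ ht').reindex finSumFinEquiv.symm⟩
  have hrv := li_coe_basis _ r
  have hcv := li_coe_basis _ cb
  have span_rv := span_coe_basis _ r
  have span_cv := span_coe_basis _ cb
  obtain ⟨a, hNa⟩ : ∃ a : Fin s → V, ∀ i, N (a i) = (r i : V) :=
    ⟨fun i => Classical.choose (r i).2, fun i => Classical.choose_spec (r i).2⟩
  have hli1 : LinearIndependent F (Sum.elim (fun i => (r i : V)) (fun k => (cb k : V))) := by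
    refine LinearIndependent.sum_type hrv hcv ?_
    rw [span_rv, span_cv]; exact hdisj
  have hspan1 : Submodule.span F (Set.range (Sum.elim (fun i => (r i : V)) (fun k => (cb k : V))))
      = LinearMap.ker N := by
    rw [Set.Sum.elim_range, Submodule.span_union, span_rv, span_cv, hsup]
  have ha : LinearIndependent F a := by
    refine LinearIndependent.of_comp N ?_
    have h : ⇑N ∘ a = fun i => (r i : V) := funext hNa
    rw [h]; exact hrv
  have hli2 : LinearIndependent F
      (Sum.elim (Sum.elim (fun i => (r i : V)) (fun k => (cb k : V))) a) := by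
    refine LinearIndependent.sum_type hli1 ha ?_
    rw [hspan1, Submodule.disjoint_def]
    intro v hvK hva
    obtain ⟨y, rfl⟩ := (Submodule.mem_span_range_iff_exists_fun F).1 hva
    have h0 : ∑ i, y i • (r i : V) = 0 := by
      have h := LinearMap.mem_ker.1 hvK
      rw [map_sum] at h
      simpa only [map_smul, hNa] using h
    have hy := Fintype.linearIndependent_iff.1 hrv y h0
    simp [hy]
  obtain ⟨σ, hσ1, hσ2, hσ3, hσ4⟩ : ∃ σ : (Fin s ⊕ Fin t') ⊕ (Fin s ⊕ Fin t') →
      (Fin s ⊕ (Fin t' ⊕ Fin t')) ⊕ Fin s,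
      (∀ i, σ (Sum.inl (Sum.inl i)) = Sum.inl (Sum.inl i)) ∧
      (∀ k, σ (Sum.inl (Sum.inr k)) = Sum.inl (Sum.inr (Sum.inl k))) ∧
      (∀ i, σ (Sum.inr (Sum.inl i)) = Sum.inr i) ∧
      (∀ k, σ (Sum.inr (Sum.inr k)) = Sum.inl (Sum.inr (Sum.inr k))) :=
    ⟨Sum.elim (Sum.elim (fun i => Sum.inl (Sum.inl i)) (fun k => Sum.inl (Sum.inr (Sum.inl k))))
      (Sum.elim (fun i => Sum.inr i) (fun k => Sum.inl (Sum.inr (Sum.inr k)))),
      fun _ => rfl, fun _ => rfl, fun _ => rfl, fun _ => rfl⟩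
  have hσinj : Function.Injective σ := by
    rintro ((i | k) | (i | k)) ((i' | k') | (i' | k')) h <;>
      simp only [hσ1, hσ2, hσ3, hσ4, Sum.inl.injEq, Sum.inr.injEq, reduceCtorEq] at h <;>
      rw [h]
  have hcard : Fintype.card ((Fin s ⊕ Fin t') ⊕ (Fin s ⊕ Fin t')) = Module.finrank F V := by
    simp only [Fintype.card_sum, Fintype.card_fin]
    omega
  obtain ⟨β, hβ⟩ := basis_of_li _ hli2 σ hσinj hcard hpos
  refine ⟨Fin s ⊕ Fin t', inferInstance, β, Sum.elim (fun _ => 1) (fun _ => 0), ?_, ?_⟩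
  · rintro (i | k)
    · rw [hβ, hσ1]
      exact LinearMap.mem_ker.1 (hRK (r i).2)
    · rw [hβ, hσ2]
      exact LinearMap.mem_ker.1 (cb (Sum.inl k)).2.2
  · rintro (i | k)
    · rw [hβ, hσ3, hβ, hσ1]
      simp only [Sum.elim_inl, Sum.elim_inr, one_smul]
      exact hNa i
    · rw [hβ, hσ4]
      simp only [Sum.elim_inl, Sum.elim_inr, zero_smul]
      exact LinearMap.mem_ker.1 (cb (Sum.inr k)).2.2

theorem two_struct {V : Type*} [AddCommGroup V] [Module F V] [FiniteDimensional F V]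
    (V₁ V₂ : Submodule F V) (hc : IsCompl V₁ V₂) (κ₁ κ₂ : Type) [Fintype κ₁] [Fintype κ₂]
    (h₁ : Module.finrank F V₁ = Fintype.card κ₁) (h₂ : Module.finrank F V₂ = Fintype.card κ₂)
    (hpos : 0 < Module.finrank F V) :
    ∃ γ : Module.Basis (κ₁ ⊕ κ₂) F V, (∀ i, γ (Sum.inl i) ∈ V₁) ∧ (∀ k, γ (Sum.inr k) ∈ V₂) := by
  classical
  obtain ⟨p⟩ : Nonempty (Module.Basis κ₁ F V₁) :=
    ⟨(Module.finBasisOfFinrankEq F _ h₁).reindex (Fintype.equivFinOfCardEq rfl).symm⟩
  obtain ⟨m⟩ : Nonempty (Module.Basis κ₂ F V₂) :=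
    ⟨(Module.finBasisOfFinrankEq F _ h₂).reindex (Fintype.equivFinOfCardEq rfl).symm⟩
  have hli : LinearIndependent F (Sum.elim (fun i => (p i : V)) (fun k => (m k : V))) := by
    refine LinearIndependent.sum_type (li_coe_basis _ p) (li_coe_basis _ m) ?_
    rw [span_coe_basis, span_coe_basis]; exact hc.disjoint
  have hcard : Fintype.card (κ₁ ⊕ κ₂) = Module.finrank F V := by
    rw [Fintype.card_sum, ← h₁, ← h₂]
    exact Submodule.finrank_add_eq_of_isCompl hc
  obtain ⟨γ, hγ⟩ := basis_of_li _ hli id Function.injective_id hcard hpos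
  refine ⟨γ, fun i => ?_, fun k => ?_⟩
  · rw [hγ]; exact (p i).2
  · rw [hγ]; exact (m k).2

theorem orth_zero {n : ℕ} (B : LinearMap.BilinForm F (Fin n → F))
    (hND : ∀ u, u ≠ 0 → ∃ v, B u v ≠ 0)
    (Q Pm : Matrix (Fin n) (Fin n) F) (hQP : Q * Pm = 1) (u : Fin n → F)
    (hu : ∀ j, B u (Q *ᵥ Pi.single j 1) = 0) : u = 0 := by
  by_contra hne
  obtain ⟨v, hv⟩ := hND u hne
  apply hv
  have hL : (B u) ∘ₗ Matrix.toLin' Q = 0 := by
    apply (Pi.basisFun F (Fin n)).ext
    intro j
    rw [Pi.basisFun_apply, LinearMap.comp_apply, Matrix.toLin'_apply, hu, LinearMap.zero_apply]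
  have h := LinearMap.congr_fun hL (Pm *ᵥ v)
  rw [LinearMap.comp_apply, Matrix.toLin'_apply, Matrix.mulVec_mulVec, hQP, Matrix.one_mulVec,
    LinearMap.zero_apply] at h
  exact h

end struct

section nt
variable {F : Type*} [Field F] [Fintype F]

theorem nt1 (n : ℕ) (hn : n ≠ 0)
    (h : padicValNat 2 n < padicValNat 2 (Fintype.card F - 1)) : ∃ w : F, w ^ n = -1 := by
  obtain ⟨γ, hγ0, hγo, -⟩ := S2670.exists_gen F
  obtain ⟨k, hk⟩ : ∃ k, k = padicValNat 2 n := ⟨_, rfl⟩
  rw [← hk] at h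
  have hq1 : Fintype.card F - 1 ≠ 0 := by
    intro h0; rw [h0] at h; simp at h
  have hdvd : 2 ^ (k + 1) ∣ Fintype.card F - 1 := (padicValNat_dvd_iff_le hq1).2 h
  obtain ⟨M, hM⟩ := hdvd
  have hMpos : 0 < M := by
    rcases Nat.eq_zero_or_pos M with h0 | h0
    · rw [h0, mul_zero] at hM; exact absurd hM hq1
    · exact h0
  have hsq : (γ ^ M) ^ (2 ^ (k + 1)) = 1 := by
    rw [← pow_mul, mul_comm, ← hM, ← hγo, pow_orderOf_eq_one]
  have hne : (γ ^ M) ^ (2 ^ k) ≠ 1 := by
    rw [← pow_mul]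
    apply pow_ne_one_of_lt_orderOf
    · exact (Nat.mul_pos hMpos (pow_pos two_pos k)).ne'
    · rw [hγo, hM, pow_succ]
      nlinarith [pow_pos (two_pos : (0:ℕ) < 2) k]
  have hm1 : (γ ^ M) ^ (2 ^ k) = -1 := by
    have h1 : ((γ ^ M) ^ (2 ^ k)) * ((γ ^ M) ^ (2 ^ k)) = 1 := by
      rw [← pow_add, ← two_mul, ← pow_succ']; exact hsq
    rcases mul_self_eq_one_iff.1 h1 with h2 | h2
    · exact absurd h2 hne
    · exact h2
  obtain ⟨n', hn'⟩ : 2 ^ k ∣ n := hk ▸ pow_padicValNat_dvd
  have hodd : Odd n' := by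
    rw [← Nat.not_even_iff_odd]
    rintro ⟨l, hl⟩
    have h3 : 2 ^ (padicValNat 2 n + 1) ∣ n := ⟨l, by rw [← hk, hn', hl, pow_succ]; ring⟩
    exact pow_succ_padicValNat_not_dvd hn h3
  refine ⟨γ ^ M, ?_⟩
  rw [hn', pow_mul, hm1, hodd.neg_one_pow]

theorem nt2 (n : ℕ) (hn : n ≠ 0) (h2 : (2 : F) ≠ 0) (w : F) (hw : w ^ n = -1) :
    padicValNat 2 n < padicValNat 2 (Fintype.card F - 1) := by
  obtain ⟨k, hk⟩ : ∃ k, k = padicValNat 2 n := ⟨_, rfl⟩
  rw [← hk]
  obtain ⟨n', hn'⟩ : 2 ^ k ∣ n := hk ▸ pow_padicValNat_dvd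
  have hw0 : w ≠ 0 := by
    rintro rfl
    rw [zero_pow hn] at hw
    exact (neg_ne_zero.2 one_ne_zero) hw.symm
  have hneg : (-1 : F) ≠ 1 := by
    intro h
    apply h2
    linear_combination (-1 : F) * h
  have h1 : (w ^ n') ^ (2 ^ k) = -1 := by
    rw [← pow_mul, mul_comm, ← hn']; exact hw
  have h3 : (w ^ n') ^ (2 ^ (k + 1)) = 1 := by
    rw [pow_succ, pow_mul, h1]; norm_num
  have ho : orderOf (w ^ n') = 2 ^ (k + 1) :=
    orderOf_eq_prime_pow (by rw [h1]; exact hneg) h3
  have hcard : (w ^ n') ^ (Fintype.card F - 1) = 1 :=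
    FiniteField.pow_card_sub_one_eq_one _ (pow_ne_zero _ hw0)
  have hdvd : 2 ^ (k + 1) ∣ Fintype.card F - 1 := ho ▸ orderOf_dvd_of_pow_eq_one hcard
  have hq1 : Fintype.card F - 1 ≠ 0 := by
    have := Fintype.one_lt_card (α := F)
    omega
  exact (padicValNat_dvd_iff_le hq1).1 hdvd

end nt
section main
open Matrix
variable {F : Type*} [Field F] [Fintype F]

theorem forward (n : ℕ) (hn : 4 ≤ n) (f : (Fin n → F) → (Fin n → F) → F)
    (hf : Cfsg.Geo.IsSymplecticForm f)
    (hlt : padicValNat 2 n < padicValNat 2 (Fintype.card F - 1)) :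
    ∃ x : Matrix.SpecialLinearGroup (Fin n) F,
      (∃ z : F, ((x ^ 2 : Matrix.SpecialLinearGroup (Fin n) F) : Matrix (Fin n) (Fin n) F)
        = z • (1 : Matrix (Fin n) (Fin n) F)) ∧
      (∀ z : F, (x : Matrix (Fin n) (Fin n) F) ≠ z • (1 : Matrix (Fin n) (Fin n) F)) ∧
      ¬ ∃ P : Matrix.SpecialLinearGroup (Fin n) F, P⁻¹ * x * P ∈
        ((Cfsg.Geo.similarityGroup f).comap (Matrix.SpecialLinearGroup.toGL :
          Matrix.SpecialLinearGroup (Fin n) F →* GL (Fin n) F)) := by
  classical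
  have hn0 : n ≠ 0 := by omega
  have h2 : (2 : F) ≠ 0 := by
    apply Ring.two_ne_zero
    intro hch
    have h1 := FiniteField.even_card_of_char_two hch
    have h3 : 2 ∣ Fintype.card F - 1 := dvd_of_one_le_padicValNat (by omega)
    have h4 := Fintype.one_lt_card (α := F)
    omega
  obtain ⟨w, hw⟩ := nt1 (F := F) n hn0 hlt
  have hw0 : w ≠ 0 := by
    rintro rfl
    rw [zero_pow hn0] at hw
    exact (neg_ne_zero.2 one_ne_zero) hw.symm
  obtain ⟨i0, i1, i2, h01, h02, h12⟩ : ∃ i0 i1 i2 : Fin n, i1 ≠ i0 ∧ i2 ≠ i0 ∧ i1 ≠ i2 := by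
    refine ⟨⟨0, by omega⟩, ⟨1, by omega⟩, ⟨2, by omega⟩, ?_, ?_, ?_⟩ <;> simp [Fin.ext_iff]
  obtain ⟨d, hd0, hd1⟩ : ∃ d : Fin n → F, d i0 = -w ∧ ∀ i, i ≠ i0 → d i = w :=
    ⟨fun i => w * (if i = i0 then -1 else 1), by simp, fun i hi => by simp [hi]⟩
  have hdd : ∀ i, d i * d i = w * w := by
    intro i
    by_cases hi : i = i0
    · rw [hi, hd0]; ring
    · rw [hd1 i hi]
  have hdet : (Matrix.diagonal d).det = 1 := by
    rw [Matrix.det_diagonal, ← Finset.mul_prod_erase Finset.univ d (Finset.mem_univ i0), hd0,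
      Finset.prod_congr rfl (fun i hi => hd1 i (Finset.ne_of_mem_erase hi)), Finset.prod_const,
      Finset.card_erase_of_mem (Finset.mem_univ i0), Finset.card_univ, Fintype.card_fin]
    have h3 : w ^ n = w * w ^ (n - 1) := by
      rw [← pow_succ']; congr 1; omega
    rw [neg_mul, ← h3, hw, neg_neg]
  obtain ⟨x, hx⟩ : ∃ x : Matrix.SpecialLinearGroup (Fin n) F,
      (x : Matrix (Fin n) (Fin n) F) = Matrix.diagonal d := ⟨⟨Matrix.diagonal d, hdet⟩, rfl⟩
  refine ⟨x, ⟨w * w, ?_⟩, ?_, ?_⟩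
  · rw [Matrix.SpecialLinearGroup.coe_pow, pow_two, hx, Matrix.diagonal_mul_diagonal,
      Matrix.smul_one_eq_diagonal]
    congr 1
    funext i
    exact hdd i
  · intro z hz
    rw [hx] at hz
    have hz' : Matrix.diagonal d = Matrix.diagonal (fun _ => z) := by
      rw [← Matrix.smul_one_eq_diagonal]; exact hz
    have e0 := congrFun (Matrix.diagonal_injective hz') i0
    have e1 := congrFun (Matrix.diagonal_injective hz') i1
    rw [hd0] at e0
    rw [hd1 i1 h01] at e1
    apply hw0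
    have h3 : (2 : F) * w = 0 := by linear_combination e1 - e0
    exact (mul_eq_zero.1 h3).resolve_left h2
  · rintro ⟨P, hP⟩
    rw [Subgroup.mem_comap] at hP
    obtain ⟨c, hc⟩ := hP
    obtain ⟨Q, hQ⟩ : ∃ Q : Matrix (Fin n) (Fin n) F,
        Q = ((P⁻¹ : Matrix.SpecialLinearGroup (Fin n) F) : Matrix (Fin n) (Fin n) F) := ⟨_, rfl⟩
    obtain ⟨Pm, hPm⟩ : ∃ Pm : Matrix (Fin n) (Fin n) F, Pm = (P : Matrix (Fin n) (Fin n) F) :=
      ⟨_, rfl⟩
    have hQP : Q * Pm = 1 := by
      rw [hQ, hPm, ← Matrix.SpecialLinearGroup.coe_mul, inv_mul_cancel,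
        Matrix.SpecialLinearGroup.coe_one]
    have hPQ : Pm * Q = 1 := by
      rw [hQ, hPm, ← Matrix.SpecialLinearGroup.coe_mul, mul_inv_cancel,
        Matrix.SpecialLinearGroup.coe_one]
    have hcoe : ((Matrix.SpecialLinearGroup.toGL (P⁻¹ * x * P) : GL (Fin n) F) :
          Matrix (Fin n) (Fin n) F) = Q * Matrix.diagonal d * Pm := by
      rw [hQ, hPm, ← hx]; rfl
    rw [hcoe] at hc
    obtain ⟨g, hg⟩ : ∃ g : Fin n → (Fin n → F), ∀ i, g i = Q *ᵥ Pi.single i 1 :=
      ⟨_, fun _ => rfl⟩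
    have hPg : ∀ i, Pm *ᵥ g i = Pi.single i 1 := by
      intro i
      rw [hg, Matrix.mulVec_mulVec, hPQ, Matrix.one_mulVec]
    have hyg : ∀ i, (Q * Matrix.diagonal d * Pm) *ᵥ g i = d i • g i := by
      intro i
      rw [← Matrix.mulVec_mulVec, ← Matrix.mulVec_mulVec, hPg, Matrix.diagonal_mulVec_single,
        mul_one, hg, ← Matrix.mulVec_smul]
      congr 1
      ext j
      simp [Pi.single_apply]
    have hB : ∀ i j, (d i * d j - c) * f (g i) (g j) = 0 := by
      intro i j
      have h := hc (g i) (g j)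
      rw [hyg, hyg, hf.bilinear.smul_left, hf.bilinear.smul_right] at h
      linear_combination h
    have horth := orth_zero (Bf f hf) (fun u hu => (hf.nondegenerate u hu).2) Q Pm hQP
    have hg0 : ∀ i, g i ≠ 0 := by
      intro i h0
      have h3 := hPg i
      rw [h0, Matrix.mulVec_zero] at h3
      have h1 := congrFun h3 i
      simp at h1
    have hww : w * w ≠ 0 := mul_ne_zero hw0 hw0
    by_cases hcw : (c : F) = w * w
    · apply hg0 i0
      apply horth
      intro j
      rw [Bf_apply, ← hg]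
      by_cases hj : j = i0
      · rw [hj]; exact hf.alternating _
      · have h := hB i0 j
        rw [hd0, hd1 j hj, hcw] at h
        have h' : (-w * w - w * w) ≠ 0 := by
          intro h3
          have h4 : (2 : F) * (w * w) = 0 := by linear_combination -h3
          exact (mul_ne_zero h2 hww) h4
        exact (mul_eq_zero.1 h).resolve_left h'
    · have hz : ∀ i j, i ≠ i0 → j ≠ i0 → f (g i) (g j) = 0 := by
        intro i j hi hj
        have h := hB i j
        rw [hd1 i hi, hd1 j hj] at h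
        exact (mul_eq_zero.1 h).resolve_left (sub_ne_zero.2 (Ne.symm hcw))
      have hu : f (g i2) (g i0) • g i1 - f (g i1) (g i0) • g i2 = 0 := by
        apply horth
        intro j
        rw [← hg j]
        simp only [map_sub, map_smul, LinearMap.sub_apply, LinearMap.smul_apply, smul_eq_mul,
          Bf_apply]
        by_cases hj : j = i0
        · rw [hj]; ring
        · rw [hz i1 j h01 hj, hz i2 j h02 hj]; ring
      have h5 := congrArg (fun v => (Pm *ᵥ v) i2) hu
      simp only [Matrix.mulVec_sub, Matrix.mulVec_smul, hPg, Matrix.mulVec_zero, Pi.sub_apply,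
        Pi.smul_apply, Pi.single_apply, Pi.zero_apply, smul_eq_mul] at h5
      have h6 : f (g i1) (g i0) = 0 := by simpa [Ne.symm h12] using h5
      apply hg0 i1
      apply horth
      intro j
      rw [Bf_apply, ← hg]
      by_cases hj : j = i0
      · rw [hj]; exact h6
      · exact hz i1 j h01 hj

theorem backward (n : ℕ) (hn : 4 ≤ n) (he : Even n) (f : (Fin n → F) → (Fin n → F) → F)
    (hf : Cfsg.Geo.IsSymplecticForm f)
    (hle : padicValNat 2 (Fintype.card F - 1) ≤ padicValNat 2 n)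
    (x : Matrix.SpecialLinearGroup (Fin n) F)
    (hx : ∃ z : F, ((x ^ 2 : Matrix.SpecialLinearGroup (Fin n) F) : Matrix (Fin n) (Fin n) F)
        = z • (1 : Matrix (Fin n) (Fin n) F)) :
    ∃ P : Matrix.SpecialLinearGroup (Fin n) F, P⁻¹ * x * P ∈
      ((Cfsg.Geo.similarityGroup f).comap (Matrix.SpecialLinearGroup.toGL :
        Matrix.SpecialLinearGroup (Fin n) F →* GL (Fin n) F)) := by
  classical
  have hn0 : n ≠ 0 := by omega
  have hnpos : 0 < n := by omega
  obtain ⟨z, hz⟩ := hx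
  rw [Matrix.SpecialLinearGroup.coe_pow, pow_two] at hz
  have hz0 : z ≠ 0 := by
    rintro rfl
    have h1 := congrArg Matrix.det hz
    have hne : Nonempty (Fin n) := ⟨⟨0, hnpos⟩⟩
    rw [Matrix.det_mul, Matrix.SpecialLinearGroup.det_coe, zero_smul, Matrix.det_zero] at h1
    simp at h1
  have hXX : ∀ v : Fin n → F, (x : Matrix (Fin n) (Fin n) F) *ᵥ
      ((x : Matrix (Fin n) (Fin n) F) *ᵥ v) = z • v := by
    intro v
    rw [Matrix.mulVec_mulVec, hz, Matrix.smul_mulVec, Matrix.one_mulVec]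
  have hfin : Module.finrank F (Fin n → F) = n := Module.finrank_fin_fun F
  have hpos : 0 < Module.finrank F (Fin n → F) := by rw [hfin]; exact hnpos
  by_cases hsq : IsSquare z
  · obtain ⟨w, rfl⟩ := hsq
    have hw0 : w ≠ 0 := fun h => hz0 (by rw [h, mul_zero])
    obtain ⟨wi, hwi⟩ : ∃ wi : F, wi * w = 1 := ⟨w⁻¹, inv_mul_cancel₀ hw0⟩
    have hwi' : w * wi = 1 := by rw [mul_comm]; exact hwi
    by_cases h2 : (2 : F) = 0
    · obtain ⟨N, hNdef⟩ : ∃ N : (Fin n → F) →ₗ[F] (Fin n → F),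
          ∀ v, N v = wi • ((x : Matrix (Fin n) (Fin n) F) *ᵥ v) - v :=
        ⟨wi • Matrix.toLin' (x : Matrix (Fin n) (Fin n) F) - LinearMap.id, fun v => rfl⟩
      have hNN : ∀ v, N (N v) = 0 := by
        intro v
        rw [hNdef (N v), hNdef v, Matrix.mulVec_sub, Matrix.mulVec_smul, hXX]
        generalize (x : Matrix (Fin n) (Fin n) F) *ᵥ v = y
        have e : wi • (wi • ((w * w) • v) - y) - (wi • y - v)
            = (wi * wi * (w * w) + 1) • v - ((2 : F) * wi) • y := by module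
        have hcoef : wi * wi * (w * w) + 1 = 0 := by
          linear_combination (wi * w + 1) * hwi + h2
        rw [e, hcoef, zero_smul, h2, zero_mul, zero_smul, sub_zero]
      have hev : Even (Module.finrank F (Fin n → F)) := by rw [hfin]; exact he
      obtain ⟨ι, hι, β, θ, hβ1, hβ2⟩ := sqzero_struct N hNN hev hpos
      have hX : ∀ v, (x : Matrix (Fin n) (Fin n) F) *ᵥ v = w • (N v + v) := by
        intro v
        rw [hNdef, sub_add_cancel, smul_smul, hwi', one_smul]
      refine adj_block hnpos f hf x β (fun _ => w) (fun _ => 0) (fun j => w * θ j) (fun _ => w)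
        (w * w) hz0 ?_ ?_ ?_
      · intro j
        rw [hX, hβ1, zero_add, zero_smul, add_zero]
      · intro j
        rw [hX, hβ2, smul_add, smul_smul]
      · intro j
        ring
    · obtain ⟨T, hTdef⟩ : ∃ T : (Fin n → F) →ₗ[F] (Fin n → F),
          ∀ v, T v = wi • ((x : Matrix (Fin n) (Fin n) F) *ᵥ v) :=
        ⟨wi • Matrix.toLin' (x : Matrix (Fin n) (Fin n) F), fun v => rfl⟩
      have hTT : ∀ v, T (T v) = v := by
        intro v
        rw [hTdef (T v), hTdef v, Matrix.mulVec_smul, hXX]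
        have e : wi • wi • (w * w) • v = (wi * w * (wi * w)) • v := by module
        rw [e, hwi, one_mul, one_smul]
      have hcompl := S2577.isCompl_inv h2 T hTT
      have hXT : ∀ v, w • T v = (x : Matrix (Fin n) (Fin n) F) *ᵥ v := by
        intro v
        rw [hTdef, smul_smul, hwi', one_smul]
      have hp : ∀ v ∈ LinearMap.ker (LinearMap.id - T),
          (x : Matrix (Fin n) (Fin n) F) *ᵥ v = w • v := by
        intro v hv
        rw [LinearMap.mem_ker, LinearMap.sub_apply, LinearMap.id_apply, sub_eq_zero] at hv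
        rw [← hXT, ← hv]
      have hm : ∀ v ∈ LinearMap.ker (LinearMap.id + T),
          (x : Matrix (Fin n) (Fin n) F) *ᵥ v = (-w) • v := by
        intro v hv
        rw [LinearMap.mem_ker, LinearMap.add_apply, LinearMap.id_apply] at hv
        have h4 : T v = -v := by rw [eq_neg_iff_add_eq_zero, add_comm]; exact hv
        rw [← hXT, h4, smul_neg, neg_smul]
      obtain ⟨a, ha⟩ : ∃ a, Module.finrank F (LinearMap.ker (LinearMap.id - T)) = a := ⟨_, rfl⟩
      obtain ⟨b, hb⟩ : ∃ b, Module.finrank F (LinearMap.ker (LinearMap.id + T)) = b := ⟨_, rfl⟩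
      have hab : a + b = n := by
        rw [← ha, ← hb, Submodule.finrank_add_eq_of_isCompl hcompl, hfin]
      obtain ⟨γ, hγ1, hγ2⟩ := two_struct _ _ hcompl (Fin a) (Fin b)
        (by rw [ha, Fintype.card_fin]) (by rw [hb, Fintype.card_fin]) hpos
      have hdet : LinearMap.det (Matrix.toLin' (x : Matrix (Fin n) (Fin n) F))
          = w ^ a * (-w) ^ b := by
        rw [det_diag_basis γ _ (Sum.elim (fun _ => w) (fun _ => -w))]
        · rw [Fintype.prod_sum_type]
          simp only [Sum.elim_inl, Sum.elim_inr, Finset.prod_const, Finset.card_univ,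
            Fintype.card_fin]
        · rintro (i | k)
          · rw [Matrix.toLin'_apply, hp _ (hγ1 i)]; rfl
          · rw [Matrix.toLin'_apply, hm _ (hγ2 k)]; rfl
      rw [LinearMap.det_toLin', Matrix.SpecialLinearGroup.det_coe] at hdet
      have hbe : Even b := by
        by_contra hbo
        rw [Nat.not_even_iff_odd] at hbo
        have hwn : w ^ n = -1 := by
          rw [← hab, pow_add]
          rw [hbo.neg_pow] at hdet
          linear_combination hdet
        exact absurd (nt2 n hn0 h2 w hwn) (not_lt.2 hle)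
      have hae : Even a := by
        rcases he with ⟨m, hm'⟩
        rcases hbe with ⟨b', hb'⟩
        exact ⟨m - b', by omega⟩
      obtain ⟨a', ha'⟩ := hae
      obtain ⟨b', hb'⟩ := hbe
      obtain ⟨γ', hγ'1, hγ'2⟩ := two_struct _ _ hcompl (Fin a' ⊕ Fin a') (Fin b' ⊕ Fin b')
        (by rw [ha, Fintype.card_sum, Fintype.card_fin, ha'])
        (by rw [hb, Fintype.card_sum, Fintype.card_fin, hb']) hpos
      obtain ⟨β, hβ⟩ : ∃ β : Module.Basis ((Fin a' ⊕ Fin b') ⊕ (Fin a' ⊕ Fin b')) F (Fin n → F),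
          ∀ j, β j = γ' ((Equiv.sumSumSumComm (Fin a') (Fin b') (Fin a') (Fin b')) j) :=
        ⟨γ'.reindex (Equiv.sumSumSumComm (Fin a') (Fin b') (Fin a') (Fin b')).symm, fun j => by
          rw [Module.Basis.reindex_apply, Equiv.symm_symm]⟩
      refine adj_block hnpos f hf x β (Sum.elim (fun _ => w) (fun _ => -w)) (fun _ => 0)
        (fun _ => 0) (Sum.elim (fun _ => w) (fun _ => -w)) (w * w) hz0 ?_ ?_ ?_
      · rintro (i | k)
        · dsimp only [Sum.elim_inl]
          rw [zero_smul, add_zero, hβ]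
          exact hp _ (hγ'1 _)
        · dsimp only [Sum.elim_inr]
          rw [zero_smul, add_zero, hβ]
          exact hm _ (hγ'2 _)
      · rintro (i | k)
        · dsimp only [Sum.elim_inl]
          rw [zero_smul, zero_add, hβ]
          exact hp _ (hγ'1 _)
        · dsimp only [Sum.elim_inr]
          rw [zero_smul, zero_add, hβ]
          exact hm _ (hγ'2 _)
      · rintro (i | k)
        · dsimp only [Sum.elim_inl]; ring
        · dsimp only [Sum.elim_inr]; ring
  · have hne : ∀ v : Fin n → F, v ≠ 0 → ∀ c : F,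
        Matrix.toLin' (x : Matrix (Fin n) (Fin n) F) v ≠ c • v := by
      intro v hv c hcv
      apply hsq
      refine ⟨c, ?_⟩
      have h1 := hXX v
      rw [Matrix.toLin'_apply] at hcv
      rw [hcv, Matrix.mulVec_smul, hcv, smul_smul] at h1
      have h3 : (c * c - z) • v = 0 := by rw [sub_smul, h1, sub_self]
      rcases smul_eq_zero.1 h3 with h4 | h4
      · exact (sub_eq_zero.1 h4).symm
      · exact absurd h4 hv
    obtain ⟨ι, hι, e, hli, hspan⟩ := S2577.nonsq_struct
      (Matrix.toLin' (x : Matrix (Fin n) (Fin n) F)) z hz0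
      (fun v => by rw [Matrix.toLin'_apply, Matrix.toLin'_apply]; exact hXX v) hne n ⊤
      (fun v _ => Submodule.mem_top) (by rw [finrank_top]; exact hfin)
    obtain ⟨β, hβ⟩ : ∃ β : Module.Basis (ι ⊕ ι) F (Fin n → F), ∀ j, β j
        = Sum.elim e (fun i => Matrix.toLin' (x : Matrix (Fin n) (Fin n) F) (e i)) j :=
      ⟨Module.Basis.mk hli (by rw [hspan]), fun j => by rw [Module.Basis.mk_apply]⟩
    refine adj_block hnpos f hf x β (fun _ => 0) (fun _ => 1) (fun _ => z) (fun _ => 0) (-z)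
      (neg_ne_zero.2 hz0) ?_ ?_ ?_
    · intro i
      rw [zero_smul, zero_add, one_smul, hβ, hβ]
      simp only [Sum.elim_inl, Sum.elim_inr, Matrix.toLin'_apply]
    · intro i
      rw [zero_smul, add_zero, hβ, hβ]
      simp only [Sum.elim_inl, Sum.elim_inr, Matrix.toLin'_apply]
      exact hXX (e i)
    · intro i
      ring

end main


/-- Involutions of PSL_n(q) and the symplectic-type subgroups. Here `T = PSL_n(F)` for a field `F` with `q` elements, `n ≥ 4` even, `f` is a nondegenerate alternating form on `F^n`, and `H` is the subgroup of matrices of determinant 1 preserving `f` up to a scalar — a maximal subgroup of type Sp_n(q); Ω is the set of `T`-conjugates of `H` (cosets of `H`), so an element of `T` of prime order `r` (a matrix `x` of determinant 1 with `x^r` scalar, `x` not scalar) fixes a point of Ω when some conjugate of `x` by a matrix of determinant 1 preserves `f` up to a scalar. Suppose the index of `H` is even. Then every involution of `T`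 is conjugate in `T` into `H` if and only if `(q − 1)_2 ≤ (n)_2`. -/
theorem result {F : Type*} [Field F] [Fintype F] {p : ℕ} [Fact p.Prime] [CharP F p] {q : ℕ} (hq : Fintype.card F = q)
    (n : ℕ) (hn : 4 ≤ n) (he : Even n) (f : (Fin n → F) → (Fin n → F) → F) (hf : Cfsg.Geo.IsSymplecticForm f)
    (hΩ : 2 ∣ ((Cfsg.Geo.similarityGroup f).comap (Matrix.SpecialLinearGroup.toGL : Matrix.SpecialLinearGroup (Fin n) F →* GL (Fin n) F)).index) :
    (∀ x : Matrix.SpecialLinearGroup (Fin n) F,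
      (∃ z : F, ((x ^ 2 : Matrix.SpecialLinearGroup (Fin n) F) : Matrix (Fin n) (Fin n) F) = z • (1 : Matrix (Fin n) (Fin n) F)) →
      (∀ z : F, (x : Matrix (Fin n) (Fin n) F) ≠ z • (1 : Matrix (Fin n) (Fin n) F)) →
      ∃ P : Matrix.SpecialLinearGroup (Fin n) F, P⁻¹ * x * P ∈ ((Cfsg.Geo.similarityGroup f).comap (Matrix.SpecialLinearGroup.toGL : Matrix.SpecialLinearGroup (Fin n) F →* GL (Fin n) F))) ↔
    padicValNat 2 (q - 1) ≤ padicValNat 2 n := by
  subst hq
  constructor
  · intro hall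
    by_contra hlt
    obtain ⟨x, hx1, hx2, hx3⟩ := forward n hn f hf (not_le.1 hlt)
    exact hx3 (hall x hx1 hx2)
  · intro hle x hx1 _
    exact backward n hn he f hf hle x hx1

end Cfsg.Agent.S5967
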