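import Cfsg.Statements.S0020
import Cfsg.Agent.S0003
import Mathlib

set_option autoImplicit false
open Pointwise
open Cfsg

namespace Cfsg.Agent.S0020

theorem index_inf_of_coprime {G : Type*} [Group G] [Finite G] (A B : Subgroup G)
    (h : A.index.Coprime B.index) : (A ⊓ B).index = A.index * B.index := by
  apply le_antisymm (Subgroup.index_inf_le)
  exact Nat.le_of_dvd (Nat.pos_of_ne_zero Subgroup.index_ne_zero_of_finite)
    (Nat.Coprime.mul_dvd_of_dvd_of_dvd h (Subgroup.index_dvd_of_le inf_le_left)
      (Subgroup.index_dvd_of_le inf_le_right))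

theorem exists_hall_compl {G : Type*} [Group G] [Finite G] [Group.IsSolvable G] (p : ℕ) :
    ∃ H : Subgroup G, H.index = p ^ (Nat.card G).factorization p := by
  by_cases hp : p.Prime
  · have hc : Nat.card G ≠ 0 := Nat.card_pos.ne'
    have h1 : Nat.card G = (Nat.card G / p ^ (Nat.card G).factorization p) *
        p ^ (Nat.card G).factorization p :=
      (Nat.div_mul_cancel (Nat.ordProj_dvd _ p)).symm
    have h2 : (Nat.card G / p ^ (Nat.card G).factorization p).Coprime
        (p ^ (Nat.card G).factorization p) :=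
      ((Nat.coprime_ordCompl hp hc).pow_left _).symm
    obtain ⟨H, hH⟩ := Cfsg.Agent.S0003.result _ _ h1 h2
    refine ⟨H, ?_⟩
    have h3 : H.index * Nat.card H = Nat.card G := Subgroup.index_mul_card H
    rw [hH] at h3
    have hpos : 0 < Nat.card G / p ^ (Nat.card G).factorization p := by
      rcases Nat.eq_zero_or_pos (Nat.card G / p ^ (Nat.card G).factorization p) with h0 | h0
      · rw [h0, zero_mul] at h1; exact absurd h1 hc
      · exact h0
    exact Nat.eq_of_mul_eq_mul_right hpos (h3.trans (h1.trans (mul_comm _ _)))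
  · refine ⟨⊤, ?_⟩
    rw [Subgroup.index_top, Nat.factorization_eq_zero_of_not_prime _ hp, pow_zero]

theorem prod_erase_mul {T : Finset ℕ} (f : ℕ → ℕ) (p : ℕ) (h : p ∉ T → f p = 1) :
    f p * ∏ x ∈ T.erase p, f x = ∏ x ∈ T, f x := by
  by_cases hp : p ∈ T
  · exact Finset.mul_prod_erase T f hp
  · rw [Finset.erase_eq_of_notMem hp, h hp, one_mul]

theorem mul_eq_of_card {G : Type*} [Group G] [Finite G] (A B W : Subgroup G) (hA : A ≤ W)
    (hB : B ≤ W) (hc : Nat.card A * Nat.card B = Nat.card W)
    (hcop : (Nat.card A).Coprime (Nat.card B)) :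
    (A : Set G) * (B : Set G) = (W : Set G) := by
  apply Set.Subset.antisymm
  · rintro x ⟨a, ha, b, hb, rfl⟩
    exact W.mul_mem (hA ha) (hB hb)
  · intro x hx
    have hAc : Nat.card (A.subgroupOf W) = Nat.card A :=
      Nat.card_congr (Subgroup.subgroupOfEquivOfLe hA).toEquiv
    have hBc : Nat.card (B.subgroupOf W) = Nat.card B :=
      Nat.card_congr (Subgroup.subgroupOfEquivOfLe hB).toEquiv
    have hcomp : Subgroup.IsComplement' (A.subgroupOf W) (B.subgroupOf W) :=
      Subgroup.isComplement'_of_coprime (by rw [hAc, hBc, hc]) (by rw [hAc, hBc]; exact hcop)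
    obtain ⟨⟨a, b⟩, hab⟩ := hcomp.2 ⟨x, hx⟩
    rw [Set.mem_mul]
    exact ⟨a.1.1, Subgroup.mem_subgroupOf.mp a.2, b.1.1, Subgroup.mem_subgroupOf.mp b.2,
      congrArg Subtype.val hab⟩

/-- A finite solvable group admits a Sylow system: Sylow subgroups, one for each prime, that pairwise permute as sets. -/
theorem result {G : Type*} [Group G] [Finite G] [Group.IsSolvable G] :
    ∃ S : (p : Nat.Primes) → Sylow (p : ℕ) G,
      ∀ p q : Nat.Primes, (S p : Set G) * (S q : Set G) = (S q : Set G) * (S p : Set G) := by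
  classical
  have hc : Nat.card G ≠ 0 := Nat.card_pos.ne'
  choose H hH using (fun p : ℕ => exists_hall_compl (G := G) p)
  obtain ⟨f, hf⟩ : ∃ f : ℕ → ℕ, f = fun p => p ^ (Nat.card G).factorization p := ⟨_, rfl⟩
  have hHf : ∀ p, (H p).index = f p := by intro p; rw [hf]; exact hH p
  obtain ⟨P, hP⟩ : ∃ P : Finset ℕ, P = (Nat.card G).primeFactors := ⟨_, rfl⟩
  have hPprime : ∀ p ∈ P, p.Prime := by
    intro p hp; rw [hP] at hp; exact Nat.prime_of_mem_primeFactors hp
  have hfP : ∀ p, p ∉ P → f p = 1 := by
    intro p hp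
    rw [hf]
    show p ^ (Nat.card G).factorization p = 1
    have : (Nat.card G).factorization p = 0 := by
      rw [← Finsupp.notMem_support_iff, Nat.support_factorization, ← hP]; exact hp
    rw [this, pow_zero]
  have hprod : ∏ p ∈ P, f p = Nat.card G := by
    have := Nat.prod_factorization_pow_eq_self hc
    rw [Finsupp.prod, Nat.support_factorization] at this
    rw [hP, hf]; exact this
  have hidx : ∀ T : Finset ℕ, T ⊆ P → (T.inf H).index = ∏ p ∈ T, f p := by
    intro T
    induction T using Finset.induction_on with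
    | empty => intro _; simp
    | insert a s ha ih =>
      intro hsub
      have hs : s ⊆ P := (Finset.subset_insert a s).trans hsub
      have haP : a ∈ P := hsub (Finset.mem_insert_self a s)
      rw [Finset.inf_insert, Finset.prod_insert ha, ← ih hs, ← hHf a]
      apply index_inf_of_coprime
      rw [hHf a, ih hs]
      apply Nat.Coprime.prod_right
      intro q hq
      rw [hf]
      show (a ^ _).Coprime (q ^ _)
      apply Nat.Coprime.pow
      exact (Nat.coprime_primes (hPprime a haP) (hPprime q (hs hq))).mpr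
        (by rintro rfl; exact ha hq)
  have hcard1 : ∀ p : ℕ, Nat.card ((P.erase p).inf H : Subgroup G) = f p := by
    intro p
    have h1 := hidx (P.erase p) (Finset.erase_subset _ _)
    have h2 := prod_erase_mul (T := P) f p (hfP p)
    have h3 := Subgroup.index_mul_card ((P.erase p).inf H)
    rw [h1, ← hprod, ← h2] at h3
    have hpos : 0 < ∏ x ∈ P.erase p, f x := by
      rw [← h1]; exact Nat.pos_of_ne_zero Subgroup.index_ne_zero_of_finite
    exact Nat.eq_of_mul_eq_mul_left hpos (h3.trans (mul_comm _ _))
  have hcard2 : ∀ p q : ℕ, p ≠ q →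
      Nat.card (((P.erase p).erase q).inf H : Subgroup G) = f p * f q := by
    intro p q hpq
    have h1 := hidx ((P.erase p).erase q)
      ((Finset.erase_subset _ _).trans (Finset.erase_subset _ _))
    have h2 := prod_erase_mul (T := P) f p (hfP p)
    have h2' := prod_erase_mul (T := P.erase p) f q (by
      intro hq
      apply hfP
      intro hqP
      exact hq (Finset.mem_erase.mpr ⟨fun h => hpq h.symm, hqP⟩))
    have h3 := Subgroup.index_mul_card (((P.erase p).erase q).inf H)
    rw [h1, ← hprod, ← h2, ← h2'] at h3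
    have hpos : 0 < ∏ x ∈ (P.erase p).erase q, f x := by
      rw [← h1]; exact Nat.pos_of_ne_zero Subgroup.index_ne_zero_of_finite
    refine Nat.eq_of_mul_eq_mul_left hpos (h3.trans ?_)
    ring
  have hsyl : ∀ p : Nat.Primes, Nat.card ((P.erase p).inf H : Subgroup G) =
      (p : ℕ) ^ (Nat.card G).factorization p := by
    intro p; rw [hcard1 p, hf]
  refine ⟨fun p => haveI : Fact (p : ℕ).Prime := ⟨p.2⟩; Sylow.ofCard _ (hsyl p), ?_⟩
  intro p q
  by_cases hpq : p = q
  · subst hpq; rfl
  · have hpq' : (p : ℕ) ≠ q := fun h => hpq (Subtype.ext h)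
    have hcop : (f p).Coprime (f q) := by
      rw [hf]
      show ((p:ℕ) ^ _).Coprime ((q:ℕ) ^ _)
      exact Nat.Coprime.pow _ _ ((Nat.coprime_primes p.2 q.2).mpr hpq')
    have e1 := mul_eq_of_card ((P.erase p).inf H) ((P.erase q).inf H)
      (((P.erase p).erase q).inf H)
      (Finset.inf_mono (Finset.erase_subset _ _))
      (Finset.inf_mono (Finset.erase_subset_erase _ (Finset.erase_subset _ _)))
      (by rw [hcard1, hcard1, hcard2 _ _ hpq']) (by rw [hcard1, hcard1]; exact hcop)
    have e2 := mul_eq_of_card ((P.erase q).inf H) ((P.erase p).inf H)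
      (((P.erase p).erase q).inf H)
      (Finset.inf_mono (Finset.erase_subset_erase _ (Finset.erase_subset _ _)))
      (Finset.inf_mono (Finset.erase_subset _ _))
      (by rw [hcard1, hcard1, hcard2 _ _ hpq', mul_comm]) (by rw [hcard1, hcard1]; exact hcop.symm)
    show (((P.erase p).inf H : Subgroup G) : Set G) * (((P.erase q).inf H : Subgroup G) : Set G) =
      (((P.erase q).inf H : Subgroup G) : Set G) * (((P.erase p).inf H : Subgroup G) : Set G)
    rw [e1, e2]

end Cfsg.Agent.S0020
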