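import Cfsg.Statements.S0062
import Mathlib

set_option autoImplicit false
open Cfsg

namespace Cfsg.Agent.S0062

theorem solvable_of_normal {G : Type*} [Group G] (N : Subgroup G) [N.Normal]
    [Group.IsSolvable N] [Group.IsSolvable (G ⧸ N)] : Group.IsSolvable G :=
  Group.isSolvable_of_ker_le_range N.subtype (QuotientGroup.mk' N) (by simp)

theorem solvable_of_card_prime_pow {G : Type*} [Group G] [Finite G] (p k : ℕ) (hp : p.Prime)
    (h : Nat.card G = p ^ k) : Group.IsSolvable G := by
  haveI : Fact p.Prime := ⟨hp⟩
  have : IsPGroup p G := IsPGroup.of_card h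
  haveI : Group.IsNilpotent G := this.isNilpotent
  infer_instance

theorem aux {G : Type*} [Group G] [Finite G] (p q : ℕ) (hp : p.Prime) (hq : q.Prime)
    (hlt : q < p) (hG : Nat.card G = p ^ 2 * q ^ 2) : Group.IsSolvable G := by
  haveI : Fact p.Prime := ⟨hp⟩
  have hpq : p ≠ q := hlt.ne'
  obtain ⟨P⟩ : Nonempty (Sylow p G) := inferInstance
  have hfac : (Nat.card G).factorization p = 2 := by
    rw [hG, Nat.factorization_mul (pow_ne_zero 2 hp.ne_zero) (pow_ne_zero 2 hq.ne_zero)]
    simp [hp.factorization_pow, hq.factorization_pow, Finsupp.single_apply, hpq.symm]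
  have hPcard : Nat.card P = p ^ 2 := by rw [Sylow.card_eq_multiplicity, hfac]
  have hPidx : (P : Subgroup G).index = q ^ 2 := by
    have := (P : Subgroup G).index_mul_card
    rw [hG] at this
    have hPc' : Nat.card (P : Subgroup G) = p ^ 2 := hPcard
    rw [hPc'] at this
    exact Nat.eq_of_mul_eq_mul_right (pow_pos hp.pos 2) (this.trans (mul_comm _ _))
  have key : ∃ N : Subgroup G, N.Normal ∧ (Nat.card N = p ^ 2 ∨ Nat.card N = q ^ 2) := by
    by_cases hPn : (P : Subgroup G).Normal
    · exact ⟨P, hPn, Or.inl hPcard⟩
    · have hdvd : Nat.card (Sylow p G) ∣ q ^ 2 := by rw [← hPidx]; exact Sylow.card_dvd_index P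
      have hmod : Nat.card (Sylow p G) ≡ 1 [MOD p] := card_sylow_modEq_one p G
      obtain ⟨j, hj, hnj⟩ := (Nat.dvd_prime_pow hq).mp hdvd
      have hnorm_idx : (Subgroup.normalizer ((P : Subgroup G) : Set G)).index =
          Nat.card (Sylow p G) := (Sylow.card_eq_index_normalizer P).symm
      interval_cases j
      · exfalso; apply hPn
        rw [pow_zero] at hnj
        rw [hnj, Subgroup.index_eq_one] at hnorm_idx
        exact Subgroup.normalizer_eq_top_iff.mp hnorm_idx
      · exfalso
        rw [hnj, pow_one] at hmod
        have h1 : q % p = 1 % p := hmod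
        rw [Nat.mod_eq_of_lt hlt, Nat.mod_eq_of_lt hp.one_lt] at h1
        exact hq.one_lt.ne' h1
      · rw [hnj] at hnorm_idx
        have hNP : Subgroup.normalizer ((P : Subgroup G) : Set G) = P := by
          symm
          apply Subgroup.eq_of_le_of_card_ge Subgroup.le_normalizer
          have h1 := (Subgroup.normalizer ((P : Subgroup G) : Set G)).index_mul_card
          have h2 := (P : Subgroup G).index_mul_card
          rw [hnorm_idx] at h1; rw [hPidx] at h2
          have : Nat.card (Subgroup.normalizer ((P : Subgroup G) : Set G)) =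
              Nat.card (P : Subgroup G) :=
            Nat.eq_of_mul_eq_mul_left (pow_pos hq.pos 2) (h1.trans h2.symm)
          exact this.le
        have hPab : ∀ x ∈ (P : Subgroup G), ∀ y ∈ (P : Subgroup G), x * y = y * x := by
          intro x hx y hy
          exact congrArg Subtype.val
            ((IsPGroup.isMulCommutative_of_card_eq_prime_sq hPcard).is_comm.comm
              (⟨x, hx⟩ : P) ⟨y, hy⟩)
        have hNC : Subgroup.normalizer ((P : Subgroup G) : Set G) ≤
            Subgroup.centralizer (P : Set G) := by
          rw [hNP]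
          intro x hx
          rw [Subgroup.mem_centralizer_iff]
          intro y hy
          exact hPab y hy x hx
        have hcomp := MonoidHom.ker_transferSylow_isComplement' P hNC
        refine ⟨(MonoidHom.transferSylow P hNC).ker, MonoidHom.normal_ker _, Or.inr ?_⟩
        rw [← hPidx]; exact (hcomp.index_eq_card).symm
  obtain ⟨N, hN, hNc⟩ := key
  haveI := hN
  have hq' := Subgroup.card_eq_card_quotient_mul_card_subgroup N
  rw [hG] at hq'
  rcases hNc with h | h
  · haveI : Group.IsSolvable N := solvable_of_card_prime_pow p 2 hp h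
    haveI : Group.IsSolvable (G ⧸ N) := solvable_of_card_prime_pow q 2 hq (by
      rw [h] at hq'
      exact (Nat.eq_of_mul_eq_mul_right (pow_pos hp.pos 2) (hq'.symm.trans (mul_comm _ _))))
    exact solvable_of_normal N
  · haveI : Group.IsSolvable N := solvable_of_card_prime_pow q 2 hq h
    haveI : Group.IsSolvable (G ⧸ N) := solvable_of_card_prime_pow p 2 hp (by
      rw [h] at hq'
      exact (Nat.eq_of_mul_eq_mul_right (pow_pos hq.pos 2) hq'.symm))
    exact solvable_of_normal N

/-- A finite group of order p^2 * q^2 with p and q prime is solvable. -/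
theorem result {G : Type*} [Group G] [Finite G] (p q : ℕ) (hp : p.Prime) (hq : q.Prime)
    (hG : Nat.card G = p ^ 2 * q ^ 2) : Group.IsSolvable G := by
  rcases lt_trichotomy p q with h | h | h
  · exact aux q p hq hp h (by rw [hG, mul_comm])
  · subst h
    exact solvable_of_card_prime_pow p 4 hp (by rw [hG]; ring)
  · exact aux p q hp hq h hG

end Cfsg.Agent.S0062
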