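import Cfsg.Statements.S0006
import Mathlib
import Cfsg.Agent.Helper1.Hall
import Cfsg.Agent.Helper24.CharBurnside
import Cfsg.Agent.S0062
import Cfsg.Agent.S0020

set_option autoImplicit false
open Cfsg

namespace Cfsg.Agent.S0006

universe u

/-- `p`-complement property in a form stable under passing to quotients, normal subgroups. -/
def PC (G : Type*) [Group G] : Prop :=
  ∀ p : ℕ, p.Prime → ∃ H : Subgroup G, (∃ e, H.index = p ^ e) ∧ (Nat.card H).Coprime p

theorem card_subgroupOf_dvd {G : Type*} [Group G] (K H : Subgroup G) :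
    Nat.card (K.subgroupOf H) ∣ Nat.card K := by
  have h1 : Nat.card ((K.subgroupOf H).map H.subtype) = Nat.card (K.subgroupOf H) :=
    Subgroup.card_map_of_injective H.subtype_injective
  rw [← h1, Subgroup.subgroupOf_map_subtype]
  exact Subgroup.card_dvd_of_le inf_le_left

theorem pc_of_hyp {G : Type*} [Group G] [Finite G]
    (h : ∀ p : ℕ, p.Prime → ∃ H : Subgroup G, H.index = p ^ (Nat.card G).factorization p) :
    PC G := by
  intro p hp
  obtain ⟨H, hH⟩ := h p hp
  refine ⟨H, ⟨_, hH⟩, ?_⟩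
  have h1 : Nat.card H * H.index = Nat.card G := Subgroup.card_mul_index H
  have hc : Nat.card G ≠ 0 := Nat.card_pos.ne'
  have h2 : Nat.card H = Nat.card G / p ^ (Nat.card G).factorization p := by
    have h3 : Nat.card G = Nat.card H * p ^ (Nat.card G).factorization p := by
      rw [← hH]; exact h1.symm
    exact (Nat.div_eq_of_eq_mul_left (pow_pos hp.pos _) h3).symm
  rw [h2]
  exact (Nat.coprime_ordCompl hp hc).symm

theorem pc_quotient {G : Type*} [Group G] [Finite G] (N : Subgroup G) [N.Normal] (h : PC G) :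
    PC (G ⧸ N) := by
  intro p hp
  obtain ⟨H, ⟨e, he⟩, hc⟩ := h p hp
  refine ⟨H.map (QuotientGroup.mk' N), ?_, ?_⟩
  · have hd : (H.map (QuotientGroup.mk' N)).index ∣ p ^ e := by
      rw [← he]; exact Subgroup.index_map_dvd _ (QuotientGroup.mk'_surjective N)
    obtain ⟨k, -, hk⟩ := (Nat.dvd_prime_pow hp).mp hd
    exact ⟨k, hk⟩
  · exact Nat.Coprime.coprime_dvd_left (Subgroup.card_map_dvd _ _) hc

theorem relIndex_sup_eq {G : Type*} [Group G] [Finite G] (H N : Subgroup G) [N.Normal] :
    H.relIndex N = H.relIndex (H ⊔ N) := by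
  have a1 : Nat.card ↥(H ⊓ N) * H.relIndex N = Nat.card N := by
    have := Subgroup.relIndex_mul_relIndex (⊥ : Subgroup G) (H ⊓ N) N bot_le inf_le_right
    rwa [Subgroup.relIndex_bot_left, Subgroup.relIndex_bot_left,
      Subgroup.inf_relIndex_right] at this
  have a2 : Nat.card H * H.relIndex (H ⊔ N) = Nat.card ↥(H ⊔ N) := by
    have := Subgroup.relIndex_mul_relIndex (⊥ : Subgroup G) H (H ⊔ N) bot_le le_sup_left
    rwa [Subgroup.relIndex_bot_left, Subgroup.relIndex_bot_left] at this
  have a3 : Nat.card ↥(H ⊓ N) * N.relIndex H = Nat.card H := by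
    have := Subgroup.relIndex_mul_relIndex (⊥ : Subgroup G) (H ⊓ N) H bot_le inf_le_left
    rwa [Subgroup.relIndex_bot_left, Subgroup.relIndex_bot_left,
      Subgroup.inf_relIndex_left] at this
  have a4 : Nat.card N * N.relIndex (H ⊔ N) = Nat.card ↥(H ⊔ N) := by
    have := Subgroup.relIndex_mul_relIndex (⊥ : Subgroup G) N (H ⊔ N) bot_le le_sup_right
    rwa [Subgroup.relIndex_bot_left, Subgroup.relIndex_bot_left] at this
  have a5 : N.relIndex (H ⊔ N) = N.relIndex H := Subgroup.relIndex_sup_right H N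
  rw [a5] at a4
  have hb : 0 < Nat.card H := Nat.card_pos
  have ha : 0 < Nat.card ↥(H ⊓ N) := Nat.card_pos
  have hm : 0 < N.relIndex H := by
    rcases Nat.eq_zero_or_pos (N.relIndex H) with h0 | h0
    · rw [h0, mul_zero] at a3; omega
    · exact h0
  have e1 : Nat.card ↥(H ⊓ N) * N.relIndex H * H.relIndex N = Nat.card ↥(H ⊔ N) := by
    rw [mul_right_comm, a1, a4]
  have e2 : Nat.card ↥(H ⊓ N) * N.relIndex H * H.relIndex (H ⊔ N) = Nat.card ↥(H ⊔ N) := by
    rw [a3, a2]
  exact Nat.eq_of_mul_eq_mul_left (Nat.mul_pos ha hm) (e1.trans e2.symm)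

theorem pc_normal {G : Type*} [Group G] [Finite G] (N : Subgroup G) [N.Normal] (h : PC G) :
    PC N := by
  intro p hp
  obtain ⟨H, ⟨e, he⟩, hc⟩ := h p hp
  refine ⟨H.subgroupOf N, ?_, Nat.Coprime.coprime_dvd_left (card_subgroupOf_dvd H N) hc⟩
  have hd : (H.subgroupOf N).index ∣ p ^ e := by
    rw [← he]
    show H.relIndex N ∣ H.index
    rw [relIndex_sup_eq H N]
    exact Subgroup.relIndex_dvd_index_of_le le_sup_left
  obtain ⟨k, -, hk⟩ := (Nat.dvd_prime_pow hp).mp hd
  exact ⟨k, hk⟩

theorem relIndex_of_coprime {G : Type*} [Group G] [Finite G] (K H : Subgroup G)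
    (h : K.index.Coprime H.index) : K.relIndex H = K.index := by
  have h1 := Cfsg.Agent.S0020.index_inf_of_coprime K H h
  have h2 := Subgroup.relIndex_mul_index (inf_le_right : K ⊓ H ≤ H)
  rw [h1, Subgroup.inf_relIndex_right] at h2
  exact Nat.eq_of_mul_eq_mul_right (Nat.pos_of_ne_zero Subgroup.index_ne_zero_of_finite) h2

theorem pc_compl {G : Type*} [Group G] [Finite G] (h : PC G) (p : ℕ) (hp : p.Prime)
    (H : Subgroup G) (e : ℕ) (he : H.index = p ^ e) (hc : (Nat.card H).Coprime p) : PC H := by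
  intro r hr
  by_cases hrp : r = p
  · rw [hrp]
    exact ⟨⊤, ⟨0, by rw [Subgroup.index_top, pow_zero]⟩, by rwa [Subgroup.card_top]⟩
  · obtain ⟨K, ⟨f, hf⟩, hKc⟩ := h r hr
    refine ⟨K.subgroupOf H, ⟨f, ?_⟩,
      Nat.Coprime.coprime_dvd_left (card_subgroupOf_dvd K H) hKc⟩
    show K.relIndex H = r ^ f
    rw [relIndex_of_coprime K H, hf]
    rw [hf, he]
    exact Nat.Coprime.pow _ _ ((Nat.coprime_primes hr hp).mpr hrp)

theorem normal_le_of_coprime {G : Type*} [Group G] [Finite G] (r : ℕ) (hr : r.Prime)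
    (H K : Subgroup G) (M : Subgroup H) [M.Normal] (hM : IsPGroup r M)
    (hcop : K.index.Coprime H.index) (hK : ¬ r ∣ K.index) :
    M.map H.subtype ≤ K := by
  haveI : Fact r.Prime := ⟨hr⟩
  have h1 : M ≤ K.subgroupOf H := by
    apply Cfsg.Agent.Helper1.normal_pgroup_le_of_index r M (K.subgroupOf H) hM
    show ¬ r ∣ K.relIndex H
    rw [relIndex_of_coprime K H hcop]
    exact hK
  rintro x ⟨y, hy, rfl⟩
  exact Subgroup.mem_subgroupOf.mp (h1 hy)

theorem main : ∀ n : ℕ, ∀ (G : Type u) [Group G] [Finite G], Nat.card G = n → PC G →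
    Group.IsSolvable G := by
  intro n
  induction n using Nat.strong_induction_on with
  | _ n ih =>
  intro G _ _ hn hpc
  have stepB : ∀ N : Subgroup G, N.Normal → N ≠ ⊥ → N ≠ ⊤ → Group.IsSolvable G := by
    intro N hN hbot htop
    haveI := hN
    have hidx : N.index ≠ 1 := fun h => htop (Subgroup.index_eq_one.mp h)
    have hidx0 : N.index ≠ 0 := Subgroup.index_ne_zero_of_finite
    have hmul : Nat.card N * N.index = Nat.card G := Subgroup.card_mul_index N
    have hNpos : 0 < Nat.card N := Nat.card_pos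
    have h1 : Nat.card N < n := by
      rw [← hn, ← hmul]
      have : 2 ≤ N.index := by omega
      nlinarith
    have hN1 : Nat.card N ≠ 1 := fun h => hbot (Subgroup.eq_bot_of_card_eq N h)
    have h2 : Nat.card (G ⧸ N) < n := by
      rw [← hn, ← hmul]
      have h3 : Nat.card (G ⧸ N) = N.index := rfl
      rw [h3]
      have : 2 ≤ Nat.card N := by omega
      nlinarith
    haveI : Group.IsSolvable N := ih _ h1 N rfl (pc_normal N hpc)
    haveI : Group.IsSolvable (G ⧸ N) := ih _ h2 (G ⧸ N) rfl (pc_quotient N hpc)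
    exact Cfsg.Agent.S0062.solvable_of_normal N
  by_cases htriv : Subsingleton G
  · haveI := htriv
    exact Group.isSolvable_of_comm (fun a b => Subsingleton.elim _ _)
  haveI : Nontrivial G := not_subsingleton_iff_nontrivial.mp htriv
  have hcard1 : 1 < Nat.card G := Finite.one_lt_card
  obtain ⟨p, hp, hpd⟩ : ∃ p : ℕ, p.Prime ∧ p ∣ Nat.card G :=
    ⟨_, Nat.minFac_prime (by omega), Nat.minFac_dvd _⟩
  obtain ⟨H, ⟨e, he⟩, hc⟩ := hpc p hp
  have hHtop : H ≠ ⊤ := by
    intro h
    rw [h, Subgroup.card_top] at hc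
    exact (Nat.Prime.coprime_iff_not_dvd hp).mp hc.symm hpd
  have hmulH : Nat.card H * H.index = Nat.card G := Subgroup.card_mul_index H
  have hHlt : Nat.card H < n := by
    have hidx : H.index ≠ 1 := fun h => hHtop (Subgroup.index_eq_one.mp h)
    have hidx0 : H.index ≠ 0 := Subgroup.index_ne_zero_of_finite
    have hHpos : 0 < Nat.card H := Nat.card_pos
    rw [← hn, ← hmulH]
    have : 2 ≤ H.index := by omega
    nlinarith
  haveI hHsolv : Group.IsSolvable H := ih _ hHlt H rfl (pc_compl hpc p hp H e he hc)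
  by_cases hHbot : H = ⊥
  · have hG : Nat.card G = p ^ e := by
      rw [← hmulH, he, hHbot, Subgroup.card_bot, one_mul]
    exact Cfsg.Agent.S0062.solvable_of_card_prime_pow p e hp hG
  haveI : Nontrivial H := (Subgroup.nontrivial_iff_ne_bot H).mpr hHbot
  obtain ⟨M, r, k, hMn, -, hr, hk, hMcard⟩ := Cfsg.Agent.Helper1.minimal_normal_data (G := H)
  haveI := hMn
  haveI : Fact r.Prime := ⟨hr⟩
  have hMpg : IsPGroup r M := IsPGroup.of_card hMcard
  have hrp : r ≠ p := by
    intro h
    have h1 : r ∣ Nat.card M := by rw [hMcard]; exact dvd_pow_self r hk.ne'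
    have h2 : r ∣ Nat.card H := h1.trans (Subgroup.card_subgroup_dvd_card M)
    rw [h] at h2
    exact (Nat.Prime.coprime_iff_not_dvd hp).mp hc.symm h2
  by_cases hs : ∃ s : ℕ, s.Prime ∧ s ∣ Nat.card G ∧ s ≠ p ∧ s ≠ r
  · obtain ⟨s, hsp, hsd, hsp', hsr⟩ := hs
    obtain ⟨K, ⟨f, hf⟩, hKc⟩ := hpc s hsp
    have hKtop : K ≠ ⊤ := by
      intro h
      rw [h, Subgroup.card_top] at hKc
      exact (Nat.Prime.coprime_iff_not_dvd hsp).mp hKc.symm hsd
    have hMK : M.map H.subtype ≤ K.normalCore := by
      intro m hm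
      show ∀ b : G, b * m * b⁻¹ ∈ K
      intro b
      have hidx : (K.map (MulAut.conj b⁻¹).toMonoidHom).index = K.index :=
        Subgroup.index_map_equiv K (MulAut.conj b⁻¹)
      have hle := normal_le_of_coprime r hr H (K.map (MulAut.conj b⁻¹).toMonoidHom) M hMpg
        (by rw [hidx, hf, he]; exact Nat.Coprime.pow _ _ ((Nat.coprime_primes hsp hp).mpr hsp'))
        (by
          rw [hidx, hf]
          intro hd
          exact hsr ((Nat.prime_dvd_prime_iff_eq hr hsp).mp (hr.dvd_of_dvd_pow hd)).symm)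
      obtain ⟨k', hk', hkm⟩ := hle hm
      have hkm' : b⁻¹ * k' * b = m := by simpa using hkm
      have : b * m * b⁻¹ = k' := by
        rw [← hkm']; group
      rw [this]; exact hk'
    refine stepB K.normalCore inferInstance ?_ ?_
    · intro hbot
      have h1 : M.map H.subtype = ⊥ := le_bot_iff.mp (hbot ▸ hMK)
      have h2 : M = ⊥ := by
        rwa [Subgroup.map_eq_bot_iff_of_injective _ H.subtype_injective] at h1
      rw [h2, Subgroup.card_bot] at hMcard
      have : 1 < r ^ k := Nat.one_lt_pow hk.ne' hr.one_lt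
      omega
    · intro htop
      exact hKtop (top_le_iff.mp (htop ▸ Subgroup.normalCore_le K))
  · push Not at hs
    have hc0 : Nat.card G ≠ 0 := Nat.card_pos.ne'
    have hsub : (Nat.card G).factorization.support ⊆ ({p, r} : Finset ℕ) := by
      intro q hq
      rw [Nat.support_factorization, Nat.mem_primeFactors] at hq
      rw [Finset.mem_insert, Finset.mem_singleton]
      by_cases hqp : q = p
      · exact Or.inl hqp
      · exact Or.inr (hs q hq.1 hq.2.1 hqp)
    have h0 := Nat.factorization_prod_pow_eq_self hc0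
    rw [Finsupp.prod_of_support_subset _ hsub _ (fun i _ => pow_zero i),
      Finset.prod_pair (Ne.symm hrp)] at h0
    exact Cfsg.Agent.Helper24.isSolvable_of_card_prime_pow_mul p r _ _ hp hr h0.symm

/-- Converse of Hall's Theorem: if for every prime p a finite group has a subgroup of index equal to the p-part of the group order (a Hall p-complement), then the group is solvable. -/
theorem result {G : Type*} [Group G] [Finite G]
    (h : ∀ p : ℕ, p.Prime → ∃ H : Subgroup G, H.index = p ^ (Nat.card G).factorization p) :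
    Group.IsSolvable G :=
  main _ G rfl (pc_of_hyp h)

end Cfsg.Agent.S0006
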