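import Cfsg.Statements.S0010
import Mathlib

set_option autoImplicit false
open Cfsg
open Pointwise

namespace Cfsg.Agent.S0010

/-- The largest normal p-subgroup of a finite group is the intersection of all its Sylow p-subgroups. -/
theorem result {G : Type*} [Group G] [Finite G] (p : ℕ) [Fact p.Prime] :
    Cfsg.pCore p G = ⨅ P : Sylow p G, (P : Subgroup G) := by
  apply le_antisymm
  · apply sSup_le
    rintro N ⟨hN, hNp⟩
    apply le_iInf
    intro P
    have := hN
    exact hNp.le_sylow_of_normal P
  · apply le_sSup
    constructor
    · constructor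
      intro x hx g
      rw [Subgroup.mem_iInf] at hx ⊢
      intro P
      have h1 : x ∈ MulAut.conj g⁻¹ • (P : Subgroup G) := hx (g⁻¹ • P)
      rw [Subgroup.mem_smul_pointwise_iff_exists] at h1
      obtain ⟨y, hy, hyx⟩ := h1
      rw [MulAut.smul_def, MulAut.conj_apply] at hyx
      have : g * x * g⁻¹ = y := by rw [← hyx]; group
      rw [this]; exact hy
    · obtain ⟨P⟩ := (inferInstance : Nonempty (Sylow p G))
      exact P.isPGroup'.to_le (iInf_le _ P)

end Cfsg.Agent.S0010
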