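import Cfsg.Statements.S0011
import Mathlib

set_option autoImplicit false
open Cfsg

namespace Cfsg.Agent.S0011

/-- If the Frattini quotient of a finite group is nilpotent then the group is nilpotent. -/
theorem result {G : Type*} [Group G] [Finite G]
    (h : Group.IsNilpotent (G ⧸ frattini G)) : Group.IsNilpotent G := by
  have q := (Group.isNilpotent_of_finite_tfae (G := G)).out 0 2
  rw [q]
  intro M hM
  have q' := (Group.isNilpotent_of_finite_tfae (G := G ⧸ frattini G)).out 0 2
  have hnorm := q'.mp h
  set π := QuotientGroup.mk' (frattini G) with hπ
  have hπs : Function.Surjective π := QuotientGroup.mk'_surjective _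
  have hker : π.ker ≤ M := by rw [QuotientGroup.ker_mk']; exact frattini_le_coatom hM
  have hcm : (M.map π).comap π = M := Subgroup.comap_map_eq_self hker
  have hcoatom : IsCoatom (M.map π) := by
    constructor
    · intro htop
      apply hM.1
      rw [← hcm, htop, Subgroup.comap_top]
    · intro K' hK'
      have h1 : M < K'.comap π := by
        rw [← hcm]
        refine lt_of_le_of_ne (Subgroup.comap_mono hK'.le) ?_
        intro heq
        have := congrArg (Subgroup.map π) heq
        rw [Subgroup.map_comap_eq_self_of_surjective hπs,
          Subgroup.map_comap_eq_self_of_surjective hπs] at this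
        exact hK'.ne this
      have h2 := hM.2 _ h1
      have := congrArg (Subgroup.map π) h2
      rw [Subgroup.map_comap_eq_self_of_surjective hπs, Subgroup.map_top_of_surjective π hπs] at this
      exact this
  have hn : (M.map π).Normal := hnorm _ hcoatom
  rw [← hcm]
  exact hn.comap π

end Cfsg.Agent.S0011
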