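import Cfsg.Statements.S0013
import Mathlib

set_option autoImplicit false
open Cfsg

namespace Cfsg.Agent.S0013

/-- In a finite p-group the Frattini subgroup is the smallest normal subgroup with elementary abelian quotient: it lies below any normal subgroup containing all commutators and all p-th powers. -/
theorem result {G : Type*} [Group G] [Finite G] (p : ℕ) [Fact p.Prime]
    (hG : IsPGroup p G) (N : Subgroup G) [N.Normal] (hcomm : commutator G ≤ N) (hpow : ∀ x : G, x ^ p ∈ N) :
    frattini G ≤ N := by
  have hp : p.Prime := Fact.out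
  intro x hxF
  by_contra hxN
  obtain ⟨M, hNM, hMmax⟩ := Finite.exists_le_maximal
    (p := fun K : Subgroup G => N ≤ K ∧ x ∉ K) (a := N) ⟨le_rfl, hxN⟩
  obtain ⟨⟨-, hxM⟩, hmax⟩ := hMmax
  have hMn : M.Normal := by
    constructor
    intro m hm g
    have h1 : g * m * g⁻¹ * m⁻¹ ∈ M := by
      apply hNM; apply hcomm
      rw [commutator_def]
      have := Subgroup.commutator_mem_commutator (Subgroup.mem_top g) (Subgroup.mem_top m)
      rwa [commutatorElement_def] at this
    have : g * m * g⁻¹ = (g * m * g⁻¹ * m⁻¹) * m := by group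
    rw [this]; exact M.mul_mem h1 hm
  have hall : ∀ y : G, y ∈ M ⊔ Subgroup.zpowers x := by
    intro y
    by_cases hyM : y ∈ M
    · exact (le_sup_left : M ≤ M ⊔ Subgroup.zpowers x) hyM
    · have hx' : x ∈ M ⊔ Subgroup.zpowers y := by
        by_contra hcon
        have := hmax ⟨hNM.trans le_sup_left, hcon⟩ le_sup_left
        exact hyM (this ((le_sup_right : Subgroup.zpowers y ≤ M ⊔ Subgroup.zpowers y)
          (Subgroup.mem_zpowers y)))
      have hx'' : x ∈ ((M ⊔ Subgroup.zpowers y : Subgroup G) : Set G) := hx'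
      rw [Subgroup.normal_mul, Set.mem_mul] at hx''
      obtain ⟨m, hm, z, hz, hmz⟩ := hx''
      obtain ⟨i, rfl⟩ := Subgroup.mem_zpowers_iff.mp hz
      have hpi : ¬ (p : ℤ) ∣ i := by
        rintro ⟨j, rfl⟩
        apply hxM
        rw [← hmz]
        apply M.mul_mem hm
        rw [zpow_mul, zpow_natCast]
        exact M.zpow_mem (hNM (hpow y)) j
      have hcop : IsCoprime (p : ℤ) i :=
        ((Nat.prime_iff_prime_int.mp hp).irreducible.coprime_iff_not_dvd).mpr hpi
      obtain ⟨b, a, hab⟩ := hcop
      have hy : y = (y ^ i) ^ a * (y ^ p) ^ b := by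
        rw [← zpow_natCast y p, ← zpow_mul, ← zpow_mul, ← zpow_add, mul_comm i a,
          mul_comm (p : ℤ) b, add_comm, hab, zpow_one]
      rw [hy]
      apply Subgroup.mul_mem
      · apply Subgroup.zpow_mem
        have : y ^ i = m⁻¹ * x := by rw [← hmz]; group
        rw [this]
        exact Subgroup.mul_mem _
          ((le_sup_left : M ≤ M ⊔ Subgroup.zpowers x) (Subgroup.inv_mem _ hm))
          ((le_sup_right : Subgroup.zpowers x ≤ M ⊔ Subgroup.zpowers x) (Subgroup.mem_zpowers x))
      · apply Subgroup.zpow_mem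
        exact (le_sup_left : M ≤ M ⊔ Subgroup.zpowers x) (hNM (hpow y))
  have hcoatom : IsCoatom M := by
    refine ⟨fun h => hxM (h ▸ Subgroup.mem_top x), ?_⟩
    intro K hK
    have hxK : x ∈ K := by
      by_contra hcon
      exact (not_le_of_gt hK) (hmax ⟨hNM.trans hK.le, hcon⟩ hK.le)
    rw [eq_top_iff]
    intro y _
    have := hall y
    exact (sup_le hK.le (by rw [Subgroup.zpowers_le]; exact hxK)) this
  exact hxM (frattini_le_coatom hcoatom hxF)

end Cfsg.Agent.S0013
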