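import Cfsg.Statements.S0014
import Mathlib
import Cfsg.Agent.S4208

set_option autoImplicit false
open Cfsg

namespace Cfsg.Agent.S0014

theorem normal_of_frattini_le {G : Type*} [Group G] [Finite G] (p : ℕ) [Fact p.Prime]
    (hG : IsPGroup p G) (K : Subgroup G) (hK : frattini G ≤ K) : K.Normal := by
  obtain ⟨m, hm⟩ := hG.exists_card_eq
  have hq := (Cfsg.Agent.S4208.frattini_quot p hm).1
  constructor
  intro k hk g
  have h1 : g * k * g⁻¹ * k⁻¹ ∈ K := hK (hq g k)
  have h2 : g * k * g⁻¹ = (g * k * g⁻¹ * k⁻¹) * k := by group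
  rw [h2]
  exact K.mul_mem h1 hk

theorem card_step_le {G : Type*} [Group G] [Finite G] (p : ℕ) [Fact p.Prime]
    (hG : IsPGroup p G) (K : Subgroup G) (hK : frattini G ≤ K) (a : G) :
    Nat.card ↥(Subgroup.zpowers a ⊔ K) ≤ p * Nat.card K := by
  haveI := normal_of_frattini_le p hG K hK
  have hp : p.Prime := Fact.out
  obtain ⟨m, hm⟩ := hG.exists_card_eq
  have hq := (Cfsg.Agent.S4208.frattini_quot p hm).2
  have h1 : Subgroup.zpowers a ⊔ K =
      (Subgroup.zpowers (QuotientGroup.mk' K a)).comap (QuotientGroup.mk' K) := by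
    apply le_antisymm
    · apply sup_le
      · rw [Subgroup.zpowers_le]
        exact Subgroup.mem_comap.mpr (Subgroup.mem_zpowers _)
      · intro k hk
        apply Subgroup.mem_comap.mpr
        have : QuotientGroup.mk' K k = 1 := (QuotientGroup.eq_one_iff k).mpr hk
        rw [this]; exact Subgroup.one_mem _
    · intro g hg
      obtain ⟨i, hi⟩ := Subgroup.mem_zpowers_iff.mp (Subgroup.mem_comap.mp hg)
      have h2 : (a ^ i)⁻¹ * g ∈ K := by
        apply (QuotientGroup.eq_one_iff _).mp
        show QuotientGroup.mk' K ((a ^ i)⁻¹ * g) = 1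
        rw [map_mul, map_inv, map_zpow, hi, inv_mul_cancel]
      have h3 : g = a ^ i * ((a ^ i)⁻¹ * g) := by group
      rw [h3]
      exact Subgroup.mul_mem _
        (le_sup_left (a := Subgroup.zpowers a) (b := K) (Subgroup.zpow_mem_zpowers a i))
        (le_sup_right (a := Subgroup.zpowers a) (b := K) h2)
  have h4 : Nat.card ↥((Subgroup.zpowers (QuotientGroup.mk' K a)).comap (QuotientGroup.mk' K)) =
      Nat.card K * Nat.card (Subgroup.zpowers (QuotientGroup.mk' K a)) :=
    QuotientGroup.card_preimage_mk K
      ((Subgroup.zpowers (QuotientGroup.mk' K a) : Subgroup (G ⧸ K)) : Set (G ⧸ K))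
  rw [h1, h4, Nat.card_zpowers, mul_comm]
  apply Nat.mul_le_mul_right
  apply Nat.le_of_dvd hp.pos
  apply orderOf_dvd_of_pow_eq_one
  rw [← map_pow]
  exact (QuotientGroup.eq_one_iff _).mpr (hK (hq a))

theorem card_step_ge {G : Type*} [Group G] [Finite G] (p : ℕ) [Fact p.Prime]
    (hG : IsPGroup p G) (A B : Subgroup G) (hAB : A < B) : p * Nat.card A ≤ Nat.card B := by
  obtain ⟨i, hi⟩ := (hG.to_subgroup A).exists_card_eq
  obtain ⟨j, hj⟩ := (hG.to_subgroup B).exists_card_eq
  have hlt : Nat.card A < Nat.card B :=
    lt_of_le_of_ne (Subgroup.card_le_of_le hAB.le)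
      (fun e => hAB.ne (Subgroup.eq_of_le_of_card_ge hAB.le e.ge))
  rw [hi, hj] at hlt ⊢
  have hp : p.Prime := Fact.out
  have hij : i < j := (Nat.pow_lt_pow_iff_right hp.one_lt).mp hlt
  calc p * p ^ i = p ^ (i + 1) := by ring
    _ ≤ p ^ j := Nat.pow_le_pow_right hp.pos hij

theorem upper {G : Type*} [Group G] [Finite G] (p : ℕ) [Fact p.Prime] (hG : IsPGroup p G)
    (U : Finset G) :
    Nat.card ↥(Subgroup.closure (U : Set G) ⊔ frattini G) ≤
      p ^ U.card * Nat.card (frattini G) := by
  classical
  induction U using Finset.induction_on with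
  | empty => simp
  | insert a U ha ih =>
    rw [Finset.card_insert_of_notMem ha, Finset.coe_insert, Set.insert_eq,
      Subgroup.closure_union, ← Subgroup.zpowers_eq_closure, sup_assoc]
    calc _ ≤ p * Nat.card ↥(Subgroup.closure (U : Set G) ⊔ frattini G) :=
          card_step_le p hG _ le_sup_right a
      _ ≤ p * (p ^ U.card * Nat.card (frattini G)) := Nat.mul_le_mul_left p ih
      _ = p ^ (U.card + 1) * Nat.card (frattini G) := by ring

theorem lower {G : Type*} [Group G] [Finite G] [DecidableEq G] (p : ℕ) [Fact p.Prime]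
    (hG : IsPGroup p G) (T : Finset G)
    (hT : ∀ a ∈ T, a ∉ Subgroup.closure ((T.erase a : Finset G) : Set G) ⊔ frattini G)
    (U : Finset G) (hU : U ⊆ T) :
    p ^ U.card * Nat.card (frattini G) ≤
      Nat.card ↥(Subgroup.closure (U : Set G) ⊔ frattini G) := by
  induction U using Finset.induction_on with
  | empty => simp
  | insert a U ha ih =>
    have hUT : U ⊆ T := (Finset.subset_insert a U).trans hU
    have haT : a ∈ T := hU (Finset.mem_insert_self a U)
    have hlt : Subgroup.closure (U : Set G) ⊔ frattini G <
        Subgroup.closure ((insert a U : Finset G) : Set G) ⊔ frattini G := by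
      apply lt_of_le_of_ne
      · apply sup_le_sup_right
        apply Subgroup.closure_mono
        exact_mod_cast Finset.subset_insert a U
      · intro heq
        apply hT a haT
        have h1 : a ∈ Subgroup.closure ((insert a U : Finset G) : Set G) ⊔ frattini G :=
          le_sup_left (a := Subgroup.closure ((insert a U : Finset G) : Set G))
            (b := frattini G) (Subgroup.subset_closure (by simp))
        rw [← heq] at h1
        have h2 : Subgroup.closure (U : Set G) ⊔ frattini G ≤
            Subgroup.closure ((T.erase a : Finset G) : Set G) ⊔ frattini G := by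
          apply sup_le_sup_right
          apply Subgroup.closure_mono
          intro x hx
          have hx' : x ∈ U := by exact_mod_cast hx
          have : x ∈ T.erase a := Finset.mem_erase.mpr ⟨fun h => ha (h ▸ hx'), hUT hx'⟩
          exact_mod_cast this
        exact h2 h1
    rw [Finset.card_insert_of_notMem ha]
    calc p ^ (U.card + 1) * Nat.card (frattini G)
        = p * (p ^ U.card * Nat.card (frattini G)) := by ring
      _ ≤ p * Nat.card ↥(Subgroup.closure (U : Set G) ⊔ frattini G) :=
          Nat.mul_le_mul_left p (ih hUT)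
      _ ≤ _ := card_step_ge p hG _ _ hlt

/-- Burnside's basis Theorem: in a finite p-group whose Frattini quotient has order p ^ n, every generating set contains n elements that already generate, and no set with fewer than n elements generates. -/
theorem result {G : Type*} [Group G] [Finite G] (p n : ℕ) [Fact p.Prime]
    (hG : IsPGroup p G) (hn : (frattini G).index = p ^ n) :
    (∀ S : Finset G, Subgroup.closure (S : Set G) = ⊤ → ∃ T : Finset G, T ⊆ S ∧ T.card = n ∧ Subgroup.closure (T : Set G) = ⊤) ∧
    (∀ T : Finset G, Subgroup.closure (T : Set G) = ⊤ → n ≤ T.card) := by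
  classical
  have hp : p.Prime := Fact.out
  have hcard : Nat.card G = Nat.card (frattini G) * p ^ n := by
    rw [← hn]; exact (Subgroup.card_mul_index _).symm
  have hΦpos : 0 < Nat.card (frattini G) := Nat.card_pos
  have part2 : ∀ T : Finset G, Subgroup.closure (T : Set G) ⊔ frattini G = ⊤ → n ≤ T.card := by
    intro T hT
    have h1 := upper p hG T
    rw [hT, Subgroup.card_top, hcard] at h1
    have h2 : p ^ n ≤ p ^ T.card := by
      have : Nat.card (frattini G) * p ^ n ≤ Nat.card (frattini G) * p ^ T.card := by
        rw [mul_comm _ (p ^ T.card)]; exact h1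
      exact Nat.le_of_mul_le_mul_left this hΦpos
    exact (Nat.pow_le_pow_iff_right hp.one_lt).mp h2
  refine ⟨?_, ?_⟩
  · intro S hS
    have hex : ∃ m, ∃ T : Finset G, T ⊆ S ∧
        Subgroup.closure (T : Set G) ⊔ frattini G = ⊤ ∧ T.card = m :=
      ⟨S.card, S, subset_rfl, by rw [hS, top_sup_eq], rfl⟩
    obtain ⟨T, hTS, hT, hTm⟩ := Nat.find_spec hex
    have hmin : ∀ T' : Finset G, T' ⊆ S →
        Subgroup.closure (T' : Set G) ⊔ frattini G = ⊤ → T.card ≤ T'.card := by
      intro T' h1 h2
      rw [hTm]
      exact Nat.find_min' hex ⟨T', h1, h2, rfl⟩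
    have hind : ∀ a ∈ T,
        a ∉ Subgroup.closure ((T.erase a : Finset G) : Set G) ⊔ frattini G := by
      intro a haT hmem
      have h1 : Subgroup.closure ((T.erase a : Finset G) : Set G) ⊔ frattini G = ⊤ := by
        rw [eq_top_iff, ← hT]
        apply sup_le _ le_sup_right
        rw [Subgroup.closure_le]
        intro x hx
        have hx' : x ∈ T := by exact_mod_cast hx
        by_cases hxa : x = a
        · rw [hxa]; exact hmem
        · apply le_sup_left (a := Subgroup.closure ((T.erase a : Finset G) : Set G))
            (b := frattini G)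
          apply Subgroup.subset_closure
          have : x ∈ T.erase a := Finset.mem_erase.mpr ⟨hxa, hx'⟩
          exact_mod_cast this
      have h2 := hmin (T.erase a) ((Finset.erase_subset a T).trans hTS) h1
      rw [Finset.card_erase_of_mem haT] at h2
      have : 0 < T.card := Finset.card_pos.mpr ⟨a, haT⟩
      omega
    have h3 := lower p hG T hind T subset_rfl
    rw [hT, Subgroup.card_top, hcard] at h3
    have h4 : T.card ≤ n := by
      have : Nat.card (frattini G) * p ^ T.card ≤ Nat.card (frattini G) * p ^ n := by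
        rw [mul_comm _ (p ^ T.card)]; exact h3
      exact (Nat.pow_le_pow_iff_right hp.one_lt).mp (Nat.le_of_mul_le_mul_left this hΦpos)
    have h5 := part2 T hT
    exact ⟨T, hTS, le_antisymm h4 h5, frattini_nongenerating hT⟩
  · intro T hT
    exact part2 T (by rw [hT, top_sup_eq])

end Cfsg.Agent.S0014
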