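import Cfsg.Statements.S0015
import Cfsg.Agent.S0065
import Mathlib

set_option autoImplicit false
open Cfsg

namespace Cfsg.Agent.S0015

/-- In a finite nilpotent group, an abelian normal subgroup that is maximal among abelian normal subgroups equals its own centralizer. -/
theorem result {G : Type*} [Group G] [Finite G] [Group.IsNilpotent G]
    (N : Subgroup G) [N.Normal] [IsMulCommutative N]
    (hmax : ∀ M : Subgroup G, M.Normal → IsMulCommutative M → N ≤ M → M = N) :
    Subgroup.centralizer (N : Set G) = N := by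
  have hNC : N ≤ Subgroup.centralizer (N : Set G) := Subgroup.le_centralizer N
  by_contra hne
  have hπs : Function.Surjective (QuotientGroup.mk' N) := QuotientGroup.mk'_surjective N
  have hCn : (Subgroup.centralizer (N : Set G)).Normal := inferInstance
  haveI hC'n : ((Subgroup.centralizer (N : Set G)).map (QuotientGroup.mk' N)).Normal :=
    hCn.map _ hπs
  have hC'ne : (Subgroup.centralizer (N : Set G)).map (QuotientGroup.mk' N) ≠ ⊥ := by
    intro h
    rw [Subgroup.map_eq_bot_iff, QuotientGroup.ker_mk'] at h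
    exact hne (le_antisymm h hNC)
  have h65 := Cfsg.Agent.S0065.result
    ((Subgroup.centralizer (N : Set G)).map (QuotientGroup.mk' N)) hC'ne
  obtain ⟨⟨y, hy⟩, hy1⟩ := (Subgroup.ne_bot_iff_exists_ne_one).mp h65
  obtain ⟨hyC, hyZ⟩ := Subgroup.mem_inf.mp hy
  obtain ⟨x, hxC, rfl⟩ := hyC
  have hxN : x ∉ N := by
    intro hx
    apply hy1
    apply Subtype.ext
    exact (QuotientGroup.eq_one_iff x).mpr hx
  have hZn : (Subgroup.zpowers (QuotientGroup.mk' N x)).Normal := by
    constructor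
    intro z hz g
    have hzc : z ∈ Subgroup.center (G ⧸ N) := by
      obtain ⟨i, rfl⟩ := Subgroup.mem_zpowers_iff.mp hz
      exact Subgroup.zpow_mem _ hyZ i
    rw [Subgroup.mem_center_iff] at hzc
    rw [hzc g, mul_inv_cancel_right]
    exact hz
  have hMn : ((Subgroup.zpowers (QuotientGroup.mk' N x)).comap (QuotientGroup.mk' N)).Normal :=
    hZn.comap _
  have hNM : N ≤ (Subgroup.zpowers (QuotientGroup.mk' N x)).comap (QuotientGroup.mk' N) := by
    intro n hn
    rw [Subgroup.mem_comap]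
    have : QuotientGroup.mk' N n = 1 := (QuotientGroup.eq_one_iff n).mpr hn
    rw [this]; exact Subgroup.one_mem _
  have hxM : x ∈ (Subgroup.zpowers (QuotientGroup.mk' N x)).comap (QuotientGroup.mk' N) := by
    rw [Subgroup.mem_comap]; exact Subgroup.mem_zpowers _
  have hdecomp : ∀ a ∈ (Subgroup.zpowers (QuotientGroup.mk' N x)).comap (QuotientGroup.mk' N),
      ∃ i : ℤ, ∃ n ∈ N, a = x ^ i * n := by
    intro a ha
    rw [Subgroup.mem_comap] at ha
    obtain ⟨i, hi⟩ := Subgroup.mem_zpowers_iff.mp ha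
    refine ⟨i, (x ^ i)⁻¹ * a, ?_, by group⟩
    rw [← QuotientGroup.eq_one_iff]
    show (QuotientGroup.mk' N) ((x ^ i)⁻¹ * a) = 1
    rw [map_mul, map_inv, map_zpow, hi, inv_mul_cancel]
  have hxn : ∀ n ∈ N, n * x = x * n := fun n hn => (Subgroup.mem_centralizer_iff.mp hxC) n hn
  have hxin : ∀ (i : ℤ), ∀ n ∈ N, n * x ^ i = x ^ i * n :=
    fun i n hn => ((show Commute n x from hxn n hn).zpow_right i)
  have hNcomm : ∀ a ∈ N, ∀ b ∈ N, a * b = b * a := by
    intro a ha b hb
    exact congrArg Subtype.val ((IsMulCommutative.is_comm (M := N)).comm ⟨a, ha⟩ ⟨b, hb⟩)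
  have hMc : IsMulCommutative
      ((Subgroup.zpowers (QuotientGroup.mk' N x)).comap (QuotientGroup.mk' N)) := by
    refine ⟨⟨fun a b => Subtype.ext ?_⟩⟩
    obtain ⟨i, n₁, hn₁, ha⟩ := hdecomp a a.2
    obtain ⟨j, n₂, hn₂, hb⟩ := hdecomp b b.2
    show (a : G) * b = b * a
    rw [ha, hb]
    calc x ^ i * n₁ * (x ^ j * n₂) = x ^ i * (n₁ * x ^ j) * n₂ := by simp only [mul_assoc]
      _ = x ^ i * (x ^ j * n₁) * n₂ := by rw [hxin j n₁ hn₁]
      _ = x ^ i * x ^ j * (n₁ * n₂) := by simp only [mul_assoc]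
      _ = x ^ j * x ^ i * (n₂ * n₁) := by
        rw [hNcomm n₁ hn₁ n₂ hn₂, ← zpow_add, ← zpow_add, add_comm]
      _ = x ^ j * (x ^ i * n₂) * n₁ := by simp only [mul_assoc]
      _ = x ^ j * (n₂ * x ^ i) * n₁ := by rw [hxin i n₂ hn₂]
      _ = x ^ j * n₂ * (x ^ i * n₁) := by simp only [mul_assoc]
  have := hmax _ hMn hMc hNM
  rw [this] at hxM
  exact hxN hxM

end Cfsg.Agent.S0015
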