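import Cfsg.Statements.S0018
import Cfsg.Agent.Helper23.Balance

set_option autoImplicit false
open Cfsg

namespace Cfsg.Agent.S0018

open Cfsg.Agent.Helper23

/-- A finite solvable group whose Sylow p-subgroups are abelian has p-length one: a Sylow p-subgroup together with the largest normal subgroup of order prime to p generates a normal subgroup. -/
theorem result {G : Type*} [Group G] [Finite G] [Group.IsSolvable G]
    (p : ℕ) [Fact p.Prime] (P : Sylow p G) (hP : IsMulCommutative P) :
    ((P : Subgroup G) ⊔ Cfsg.pPrimeCore p G).Normal := by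
  have hc := centralizer_pCore_quotient_le (isPSolvable_of_isSolvable p G)
  have hπs : Function.Surjective (QuotientGroup.mk' (pPrimeCore p G)) :=
    QuotientGroup.mk'_surjective _
  have hVn : (pCore p (G ⧸ pPrimeCore p G)).Normal := pCore_normal_fin p
  have hVp : IsPGroup p (pCore p (G ⧸ pPrimeCore p G)) := pCore_isPGroup p
  have hVP : pCore p (G ⧸ pPrimeCore p G) ≤
      (P : Subgroup G).map (QuotientGroup.mk' (pPrimeCore p G)) := by
    have := le_sylow_of_normal hVn hVp (P.mapSurjective hπs)
    rwa [Sylow.coe_mapSurjective] at this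
  have hcomm : ∀ a ∈ (P : Subgroup G), ∀ b ∈ (P : Subgroup G), a * b = b * a := by
    intro a ha b hb
    have := hP.is_comm.comm (⟨a, ha⟩ : P) ⟨b, hb⟩
    exact congrArg Subtype.val this
  have hPV : (P : Subgroup G).map (QuotientGroup.mk' (pPrimeCore p G)) ≤
      pCore p (G ⧸ pPrimeCore p G) := by
    refine le_trans ?_ hc
    rintro _ ⟨a, ha, rfl⟩
    rw [Subgroup.mem_centralizer_iff]
    intro v hv
    obtain ⟨b, hb, rfl⟩ := hVP hv
    rw [← map_mul, ← map_mul, hcomm b hb a ha]
  have heq : (P : Subgroup G).map (QuotientGroup.mk' (pPrimeCore p G)) =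
      pCore p (G ⧸ pPrimeCore p G) := le_antisymm hPV hVP
  have h1 : (P : Subgroup G) ⊔ pPrimeCore p G =
      (pCore p (G ⧸ pPrimeCore p G)).comap (QuotientGroup.mk' (pPrimeCore p G)) := by
    rw [← heq, Subgroup.comap_map_eq, QuotientGroup.ker_mk']
  rw [h1]
  exact hVn.comap _

end Cfsg.Agent.S0018
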