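import Cfsg.Statements.S0019
import Cfsg.Agent.Helper1.Hall
import Mathlib

set_option autoImplicit false
open Cfsg

namespace Cfsg.Agent.S0019

universe u

/-- If `G = H₁ H`, `N` is a `p`-subgroup normalised by `H₁` and `p ∤ |G : H|`, then the normal
closure of `N` lies in `H`. -/
theorem normalClosure_le_of_factor {G : Type*} [Group G] [Finite G] (p : ℕ) [Fact p.Prime]
    (H₁ H N : Subgroup G) (hNH₁ : H₁ ≤ Subgroup.normalizer (N : Set G)) (hN : IsPGroup p N)
    (hfac : ∀ g : G, ∃ x ∈ H₁, ∃ y ∈ H, g = x * y) (hp : ¬ p ∣ H.index) :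
    Subgroup.normalClosure (N : Set G) ≤ H := by
  have hfix : ∃ g : G, ∀ n ∈ N, g⁻¹ * n * g ∈ H := by
    obtain ⟨q, hq⟩ := hN.nonempty_fixed_point_of_prime_not_dvd_card (G ⧸ H) hp
    obtain ⟨g, rfl⟩ := QuotientGroup.mk_surjective q
    refine ⟨g, fun n hn => ?_⟩
    have h1 := MulAction.mem_fixedPoints.1 hq ⟨n⁻¹, N.inv_mem hn⟩
    have h2 : ((n⁻¹ * g : G) : G ⧸ H) = (g : G ⧸ H) := h1
    rw [QuotientGroup.eq] at h2
    have e : (n⁻¹ * g)⁻¹ * g = g⁻¹ * n * g := by group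
    rwa [e] at h2
  have hNH : N ≤ H := by
    obtain ⟨g, hg⟩ := hfix
    obtain ⟨x, hx, y, hy, rfl⟩ := hfac g
    intro n hn
    have hn' : x * n * x⁻¹ ∈ N := (Subgroup.mem_normalizer_iff.1 (hNH₁ hx) n).1 hn
    have h1 := hg _ hn'
    have h2 := H.mul_mem (H.mul_mem hy h1) (H.inv_mem hy)
    have e : y * ((x * y)⁻¹ * (x * n * x⁻¹) * (x * y)) * y⁻¹ = n := by group
    rwa [e] at h2
  show Subgroup.closure (Group.conjugatesOfSet (N : Set G)) ≤ H
  rw [Subgroup.closure_le]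
  intro z hz
  obtain ⟨n, hn, hc⟩ := Group.mem_conjugatesOfSet_iff.1 hz
  obtain ⟨c, rfl⟩ := isConj_iff.1 hc
  obtain ⟨x, hx, y, hy, hc'⟩ := hfac c⁻¹
  have hc2 : c = y⁻¹ * x⁻¹ := by rw [inv_eq_iff_eq_inv.1 hc', mul_inv_rev]
  have hn' : x⁻¹ * n * x⁻¹⁻¹ ∈ N :=
    (Subgroup.mem_normalizer_iff.1 (hNH₁ (H₁.inv_mem hx)) n).1 hn
  have h1 := H.mul_mem (H.mul_mem (H.inv_mem hy) (hNH hn')) hy
  have e : y⁻¹ * (x⁻¹ * n * x⁻¹⁻¹) * y = c * n * c⁻¹ := by rw [hc2]; group
  rw [e] at h1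
  exact h1

theorem aux : ∀ n : ℕ, ∀ (G : Type u) [Group G] [Finite G], Nat.card G = n →
    ∀ (H₁ H₂ H₃ : Subgroup G), Group.IsSolvable H₁ → Group.IsSolvable H₂ → Group.IsSolvable H₃ →
    (∀ g : G, ∃ x ∈ H₁, ∃ y ∈ H₂, g = x * y) → (∀ g : G, ∃ x ∈ H₁, ∃ y ∈ H₃, g = x * y) →
    H₂.index.Coprime H₃.index → Group.IsSolvable G := by
  intro n
  induction n using Nat.strong_induction_on with
  | _ n ih =>
    intro G _ _ hn H₁ H₂ H₃ h₁ h₂ h₃ h12 h13 hcop
    by_cases htriv : Subsingleton H₁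
    · have htop : ∀ g : G, g ∈ H₂ := by
        intro g
        obtain ⟨x, hx, y, hy, rfl⟩ := h12 g
        have hx1 : x = 1 := congrArg Subtype.val (Subsingleton.elim (⟨x, hx⟩ : H₁) 1)
        rw [hx1, one_mul]; exact hy
      haveI := h₂
      exact Group.isSolvable_of_surjective (f := H₂.subtype) (fun g => ⟨⟨g, htop g⟩, rfl⟩)
    · haveI : Nontrivial H₁ := not_subsingleton_iff_nontrivial.1 htriv
      haveI := h₁
      obtain ⟨N₀, p, k, hN₀n, -, hp, hk, hcard⟩ :=
        Cfsg.Agent.Helper1.minimal_normal_data (G := H₁)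
      haveI : Fact p.Prime := ⟨hp⟩
      obtain ⟨N, hNp, hNnorm, hNne⟩ : ∃ N : Subgroup G, IsPGroup p N ∧
          H₁ ≤ Subgroup.normalizer (N : Set G) ∧ N ≠ ⊥ := by
        refine ⟨N₀.map H₁.subtype, (IsPGroup.of_card hcard).map _, ?_, ?_⟩
        · intro x hx
          rw [Subgroup.mem_normalizer_iff]
          intro h
          constructor
          · intro hh
            obtain ⟨m, hm, rfl⟩ := Subgroup.mem_map.1 hh
            exact Subgroup.mem_map.2
              ⟨⟨x, hx⟩ * m * ⟨x, hx⟩⁻¹, hN₀n.conj_mem m hm ⟨x, hx⟩, rfl⟩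
          · intro hh
            obtain ⟨m, hm, hmeq⟩ := Subgroup.mem_map.1 hh
            refine Subgroup.mem_map.2 ⟨⟨x, hx⟩⁻¹ * m * ⟨x, hx⟩, ?_, ?_⟩
            · have h1 := hN₀n.conj_mem m hm ⟨x, hx⟩⁻¹
              rwa [inv_inv] at h1
            · have hm' : (m : G) = x * h * x⁻¹ := hmeq
              show x⁻¹ * (m : G) * x = h
              rw [hm']; group
        · intro hb
          have h1 : Nat.card (N₀.map H₁.subtype) = 1 := by rw [hb]; exact Subgroup.card_bot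
          rw [Subgroup.card_subtype, hcard] at h1
          have h2 : 1 < p ^ k := Nat.one_lt_pow hk.ne' hp.one_lt
          omega
      obtain ⟨H, hHsolv, hMH⟩ : ∃ H : Subgroup G, Group.IsSolvable H ∧
          Subgroup.normalClosure (N : Set G) ≤ H := by
        by_cases hp2 : p ∣ H₂.index
        · have hp3 : ¬ p ∣ H₃.index := by
            intro h3
            have h4 := Nat.dvd_gcd hp2 h3
            rw [Nat.Coprime.gcd_eq_one hcop] at h4
            exact hp.one_lt.ne' (Nat.dvd_one.1 h4)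
          exact ⟨H₃, h₃, normalClosure_le_of_factor p H₁ H₃ N hNnorm hNp h13 hp3⟩
        · exact ⟨H₂, h₂, normalClosure_le_of_factor p H₁ H₂ N hNnorm hNp h12 hp2⟩
      obtain ⟨M, hMn, hMne, hMH'⟩ : ∃ M : Subgroup G, M.Normal ∧ M ≠ ⊥ ∧ M ≤ H := by
        refine ⟨Subgroup.normalClosure (N : Set G), Subgroup.normalClosure_normal, ?_, hMH⟩
        intro hb
        apply hNne
        rw [eq_bot_iff, ← hb]
        exact Subgroup.le_normalClosure
      haveI := hMn
      haveI : Group.IsSolvable M := by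
        haveI := hHsolv
        exact Group.isSolvable_of_isSolvable_injective (f := Subgroup.inclusion hMH')
          (Subgroup.inclusion_injective hMH')
      have hlt : Nat.card (G ⧸ M) < n := by
        rw [← hn]; exact Cfsg.Agent.S0001.card_quot_lt M hMne
      have hsurj := QuotientGroup.mk'_surjective M
      have hsolvMap : ∀ K : Subgroup G, Group.IsSolvable K →
          Group.IsSolvable (K.map (QuotientGroup.mk' M)) := by
        intro K hK
        haveI := hK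
        exact Group.isSolvable_of_surjective (f := (QuotientGroup.mk' M).subgroupMap K)
          (MonoidHom.subgroupMap_surjective _ _)
      have hfacMap : ∀ K : Subgroup G, (∀ g : G, ∃ x ∈ H₁, ∃ y ∈ K, g = x * y) →
          ∀ q : G ⧸ M, ∃ x ∈ H₁.map (QuotientGroup.mk' M),
            ∃ y ∈ K.map (QuotientGroup.mk' M), q = x * y := by
        intro K hK q
        obtain ⟨g, rfl⟩ := hsurj q
        obtain ⟨x, hx, y, hy, rfl⟩ := hK g
        exact ⟨_, Subgroup.mem_map_of_mem _ hx, _, Subgroup.mem_map_of_mem _ hy, map_mul _ x y⟩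
      have hQ : Group.IsSolvable (G ⧸ M) :=
        ih _ hlt (G ⧸ M) rfl _ _ _ (hsolvMap H₁ h₁) (hsolvMap H₂ h₂) (hsolvMap H₃ h₃)
          (hfacMap H₂ h12) (hfacMap H₃ h13)
          (Nat.Coprime.coprime_dvd_left (Subgroup.index_map_dvd (H := H₂) hsurj)
            (Nat.Coprime.coprime_dvd_right (Subgroup.index_map_dvd (H := H₃) hsurj) hcop))
      exact Group.isSolvable_of_ker_le_range M.subtype (QuotientGroup.mk' M)
        (le_of_eq (by rw [QuotientGroup.ker_mk', Subgroup.range_subtype]))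

/-- A finite group that factorises as H₁H₂ and as H₁H₃ with all three subgroups solvable and the indices of H₂ and H₃ coprime is solvable. -/
theorem result {G : Type*} [Group G] [Finite G] (H₁ H₂ H₃ : Subgroup G)
    (h₁ : Group.IsSolvable H₁) (h₂ : Group.IsSolvable H₂) (h₃ : Group.IsSolvable H₃)
    (h12 : ∀ g : G, ∃ x ∈ H₁, ∃ y ∈ H₂, g = x * y) (h13 : ∀ g : G, ∃ x ∈ H₁, ∃ y ∈ H₃, g = x * y)
    (hcop : H₂.index.Coprime H₃.index) : Group.IsSolvable G := by
  exact aux _ G rfl H₁ H₂ H₃ h₁ h₂ h₃ h12 h13 hcop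

end Cfsg.Agent.S0019
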