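import Cfsg.Statements.S0021
import Mathlib
import Cfsg.Agent.S0006

set_option autoImplicit false
open Cfsg
open Pointwise

namespace Cfsg.Agent.S0021

theorem perm_sup {G : Type*} [Group G] (A B : Subgroup G)
    (h : (A : Set G) * (B : Set G) = (B : Set G) * (A : Set G)) :
    ((A ⊔ B : Subgroup G) : Set G) = (A : Set G) * (B : Set G) := by
  let S : Subgroup G :=
    { carrier := (A : Set G) * (B : Set G)
      one_mem' := ⟨1, A.one_mem, 1, B.one_mem, mul_one 1⟩
      mul_mem' := by
        rintro _ _ ⟨a, ha, b, hb, rfl⟩ ⟨a', ha', b', hb', rfl⟩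
        have h1 : b * a' ∈ (A : Set G) * (B : Set G) := by
          rw [h]; exact ⟨b, hb, a', ha', rfl⟩
        obtain ⟨a'', ha'', b'', hb'', e0⟩ := h1
        have e : a'' * b'' = b * a' := e0
        refine ⟨a * a'', A.mul_mem ha ha'', b'' * b', B.mul_mem hb'' hb', ?_⟩
        show a * a'' * (b'' * b') = a * b * (a' * b')
        calc a * a'' * (b'' * b') = a * (a'' * b'') * b' := by group
          _ = a * (b * a') * b' := by rw [e]
          _ = a * b * (a' * b') := by group
      inv_mem' := by
        rintro _ ⟨a, ha, b, hb, rfl⟩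
        have h1 : b⁻¹ * a⁻¹ ∈ (A : Set G) * (B : Set G) := by
          rw [h]; exact ⟨b⁻¹, B.inv_mem hb, a⁻¹, A.inv_mem ha, rfl⟩
        rwa [mul_inv_rev] }
  apply Set.Subset.antisymm
  · have hle : A ⊔ B ≤ S :=
      sup_le (fun a ha => ⟨a, ha, 1, B.one_mem, mul_one a⟩)
        (fun b hb => ⟨1, A.one_mem, b, hb, one_mul b⟩)
    exact fun x hx => hle hx
  · rintro _ ⟨a, ha, b, hb, rfl⟩
    exact (A ⊔ B).mul_mem ((le_sup_left : A ≤ A ⊔ B) ha) ((le_sup_right : B ≤ A ⊔ B) hb)

theorem key {G : Type*} [Group G] [Finite G]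
    (S : (p : Nat.Primes) → Sylow (p : ℕ) G)
    (hS : ∀ p q : Nat.Primes, (S p : Set G) * (S q : Set G) = (S q : Set G) * (S p : Set G))
    (T : Finset Nat.Primes) :
    ∃ J : Subgroup G, (∀ q ∈ T, (S q : Subgroup G) ≤ J) ∧
      (∀ r : Nat.Primes, (J : Set G) * (S r : Set G) = (S r : Set G) * (J : Set G)) ∧
      Nat.card J = ∏ q ∈ T, Nat.card (S q : Subgroup G) := by
  classical
  induction T using Finset.induction_on with
  | empty =>
    refine ⟨⊥, by simp, fun r => ?_, by simp⟩
    rw [Subgroup.coe_bot, Set.singleton_one, one_mul, mul_one]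
  | insert q T hq ih =>
    obtain ⟨J, hJ1, hJ2, hJ3⟩ := ih
    have hperm : ((S q : Subgroup G) : Set G) * (J : Set G) =
        (J : Set G) * ((S q : Subgroup G) : Set G) := (hJ2 q).symm
    have hsup := perm_sup (S q : Subgroup G) J hperm
    have hsup' : (((S q : Subgroup G) ⊔ J : Subgroup G) : Set G) = (S q : Set G) * (J : Set G) :=
      hsup
    refine ⟨(S q : Subgroup G) ⊔ J, ?_, ?_, ?_⟩
    · intro q' hq'
      rcases Finset.mem_insert.mp hq' with h | h
      · rw [h]; exact le_sup_left
      · exact (hJ1 q' h).trans le_sup_right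
    · intro r
      rw [hsup', mul_assoc, hJ2 r, ← mul_assoc, hS q r, mul_assoc]
    · rw [Finset.prod_insert hq]
      have h1 : Nat.card ↥((S q : Subgroup G) ⊔ J) ≤ Nat.card (S q : Subgroup G) * Nat.card J := by
        have h2 : Nat.card ↥((S q : Subgroup G) ⊔ J) =
            Nat.card ((((S q : Subgroup G) ⊔ J : Subgroup G)) : Set G) := rfl
        rw [h2, hsup]
        exact Set.natCard_mul_le
      have hcop : (Nat.card (S q : Subgroup G)).Coprime (Nat.card J) := by
        rw [hJ3]
        apply Nat.Coprime.prod_right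
        intro q' hq'
        haveI : Fact (q : ℕ).Prime := ⟨q.2⟩
        haveI : Fact (q' : ℕ).Prime := ⟨q'.2⟩
        have e1 : Nat.card (S q : Subgroup G) = (q : ℕ) ^ (Nat.card G).factorization q :=
          (S q).card_eq_multiplicity
        have e2 : Nat.card (S q' : Subgroup G) = (q' : ℕ) ^ (Nat.card G).factorization q' :=
          (S q').card_eq_multiplicity
        rw [e1, e2]
        apply Nat.Coprime.pow
        apply (Nat.coprime_primes q.2 q'.2).mpr
        intro h
        apply hq
        have h3 : q = q' := Subtype.ext h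
        rw [h3]; exact hq'
      have hdvd : Nat.card (S q : Subgroup G) * Nat.card J ∣ Nat.card ↥((S q : Subgroup G) ⊔ J) :=
        Nat.Coprime.mul_dvd_of_dvd_of_dvd hcop (Subgroup.card_dvd_of_le le_sup_left)
          (Subgroup.card_dvd_of_le le_sup_right)
      rw [← hJ3]
      exact Nat.le_antisymm h1 (Nat.le_of_dvd Nat.card_pos hdvd)

/-- A finite group with a family of pairwise permuting Sylow subgroups, one for each prime, is solvable (this direction rests on Burnside's two-prime Theorem). -/
theorem result {G : Type*} [Group G] [Finite G]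
    (S : (p : Nat.Primes) → Sylow (p : ℕ) G)
    (hS : ∀ p q : Nat.Primes, (S p : Set G) * (S q : Set G) = (S q : Set G) * (S p : Set G)) :
    Group.IsSolvable G := by
  classical
  apply Cfsg.Agent.S0006.result
  intro p hp
  let P : Nat.Primes := ⟨p, hp⟩
  obtain ⟨J, hJ1, -, hJ3⟩ :=
    key S hS ((Finset.subtype Nat.Prime (Nat.card G).primeFactors).erase P)
  refine ⟨J, ?_⟩
  have hc0 : Nat.card G ≠ 0 := Nat.card_pos.ne'
  have hmul : Nat.card J * J.index = Nat.card G := Subgroup.card_mul_index J
  have hidx0 : J.index ≠ 0 := Subgroup.index_ne_zero_of_finite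
  have hJ0 : Nat.card J ≠ 0 := Nat.card_pos.ne'
  have hpJ : ¬ p ∣ Nat.card J := by
    rw [hJ3]
    intro hd
    obtain ⟨q, hqT, hqd⟩ := (Prime.dvd_finset_prod_iff hp.prime _).mp hd
    haveI : Fact (q : ℕ).Prime := ⟨q.2⟩
    have e1 : Nat.card (S q : Subgroup G) = (q : ℕ) ^ (Nat.card G).factorization q :=
      (S q).card_eq_multiplicity
    rw [e1] at hqd
    have h1 : p ∣ (q : ℕ) := hp.dvd_of_dvd_pow hqd
    have h2 : p = (q : ℕ) := (Nat.prime_dvd_prime_iff_eq hp q.2).mp h1
    have h3 : q = P := Subtype.ext h2.symm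
    exact (Finset.mem_erase.mp hqT).1 h3
  have hq : ∀ q : ℕ, q.Prime → q ∣ J.index → q = p := by
    intro q hqp hqd
    by_contra hne
    let Q : Nat.Primes := ⟨q, hqp⟩
    haveI : Fact (Q : ℕ).Prime := ⟨hqp⟩
    have e1 : Nat.card (S Q : Subgroup G) = q ^ (Nat.card G).factorization q :=
      (S Q).card_eq_multiplicity
    have hSQ : Nat.card (S Q : Subgroup G) ∣ Nat.card J := by
      by_cases hqG : q ∣ Nat.card G
      · apply Subgroup.card_dvd_of_le
        apply hJ1 Q
        apply Finset.mem_erase.mpr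
        refine ⟨fun h => hne (congrArg Subtype.val h), ?_⟩
        apply Finset.mem_subtype.mpr
        exact Nat.mem_primeFactors.mpr ⟨hqp, hqG, hc0⟩
      · rw [e1, Nat.factorization_eq_zero_of_not_dvd hqG, pow_zero]
        exact one_dvd _
    rw [e1] at hSQ
    have h1 : (Nat.card G).factorization q =
        (Nat.card J).factorization q + J.index.factorization q := by
      rw [← hmul, Nat.factorization_mul hJ0 hidx0]; rfl
    have h2 : (Nat.card G).factorization q ≤ (Nat.card J).factorization q :=
      (hqp.pow_dvd_iff_le_factorization hJ0).mp hSQ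
    have h3 : 0 < J.index.factorization q := hqp.factorization_pos_of_dvd hidx0 hqd
    omega
  obtain ⟨k, hk⟩ : ∃ k, J.index = p ^ k :=
    ⟨_, Nat.eq_prime_pow_of_unique_prime_dvd hidx0 (fun {d} hd hdd => hq d hd hdd)⟩
  rw [hk]
  congr 1
  have h1 : (Nat.card G).factorization p =
      (Nat.card J).factorization p + J.index.factorization p := by
    rw [← hmul, Nat.factorization_mul hJ0 hidx0]; rfl
  rw [h1, Nat.factorization_eq_zero_of_not_dvd hpJ, zero_add, hk, hp.factorization_pow,
    Finsupp.single_eq_same]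

end Cfsg.Agent.S0021
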