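import Cfsg.Statements.S0030
import Cfsg.Agent.Lead.Coprime
import Mathlib

set_option autoImplicit false
open Cfsg

namespace Cfsg.Agent.S0030

open Cfsg.Agent.S0001 Cfsg.Agent.Lead

/-- Under coprime action fixed points of a product of two invariant subgroups factor: if K = X Y with X and Y normalised by A then every A-fixed element of K is a product of an A-fixed element of X and an A-fixed element of Y. -/
theorem result {G : Type*} [Group G] [Finite G] (A K : Subgroup G) (hAK : A ≤ Subgroup.normalizer (K : Set G))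
    (hcop : (Nat.card A).Coprime (Nat.card K)) (hsolv : Group.IsSolvable A ∨ Group.IsSolvable K)
    (X Y : Subgroup G) (hX : X ≤ K) (hY : Y ≤ K) (hXA : A ≤ Subgroup.normalizer (X : Set G)) (hYA : A ≤ Subgroup.normalizer (Y : Set G))
    (hXY : ∀ k ∈ K, ∃ x ∈ X, ∃ y ∈ Y, k = x * y) (k : G) (hk : k ∈ K ⊓ Subgroup.centralizer (A : Set G)) :
    ∃ x ∈ X ⊓ Subgroup.centralizer (A : Set G), ∃ y ∈ Y ⊓ Subgroup.centralizer (A : Set G), k = x * y := by
  obtain ⟨x, hx, y, hy, hkxy⟩ := hXY k hk.1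
  set D : Subgroup G := X ⊓ Y with hDdef
  have hDK : D ≤ K := inf_le_left.trans hX
  have hDA : A ≤ Subgroup.normalizer (D : Set G) := by
    intro a ha
    rw [Subgroup.mem_normalizer_iff]
    intro h
    have h1 := (Subgroup.mem_normalizer_iff.1 (hXA ha)) h
    have h2 := (Subgroup.mem_normalizer_iff.1 (hYA ha)) h
    constructor
    · rintro ⟨hh1, hh2⟩; exact ⟨h1.1 hh1, h2.1 hh2⟩
    · rintro ⟨hh1, hh2⟩; exact ⟨h1.2 hh1, h2.2 hh2⟩
  -- the key elements
  have hd : ∀ a ∈ A, x⁻¹ * a * x * a⁻¹ ∈ D := by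
    intro a ha
    have hka : a * k = k * a := (Subgroup.mem_centralizer_iff.1 hk.2) a ha
    have hxa : a * x * a⁻¹ ∈ X := ((Subgroup.mem_normalizer_iff.1 (hXA ha)) x).1 hx
    have hya : a * y * a⁻¹ ∈ Y := ((Subgroup.mem_normalizer_iff.1 (hYA ha)) y).1 hy
    have e1 : x⁻¹ * a * x * a⁻¹ = x⁻¹ * (a * x * a⁻¹) := by group
    have e2 : x⁻¹ * a * x * a⁻¹ = y * (a * y * a⁻¹)⁻¹ := by
      have h3 : a * (x * y) * a⁻¹ = x * y := by
        rw [← hkxy, hka]; group
      have h4 : a * x * a⁻¹ = x * y * (a * y * a⁻¹)⁻¹ := by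
        have : a * x * a⁻¹ = (a * (x * y) * a⁻¹) * (a * y * a⁻¹)⁻¹ := by group
        rw [this, h3]
      rw [e1, h4]; group
    refine ⟨?_, ?_⟩
    · rw [e1]; exact X.mul_mem (X.inv_mem hx) hxa
    · rw [e2]; exact Y.mul_mem hy (Y.inv_mem hya)
  set B : Subgroup G := A.map (MulAut.conj x⁻¹).toMonoidHom with hBdef
  have hAB : ConjTo x⁻¹ A B := conjTo_map x⁻¹ A
  have hBsup : B ⊔ D = A ⊔ D := by
    apply le_antisymm
    · apply sup_le _ le_sup_right
      intro z hz
      have hz' : x * z * x⁻¹ ∈ A := by simpa using (hAB z).1 hz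
      have e : z = (x⁻¹ * (x * z * x⁻¹) * x * (x * z * x⁻¹)⁻¹) * (x * z * x⁻¹) := by group
      rw [e]
      exact Subgroup.mul_mem _ (Subgroup.mem_sup_right (hd _ hz')) (Subgroup.mem_sup_left hz')
    · apply sup_le _ le_sup_right
      intro a ha
      have e : a = (x⁻¹ * a * x) * (x⁻¹ * a⁻¹ * x * a⁻¹⁻¹) := by group
      rw [e]
      refine Subgroup.mul_mem_sup ?_ (hd _ (A.inv_mem ha))
      rw [hAB]; simpa [mul_assoc] using ha
  have hcD : (Nat.card A).Coprime (Nat.card D) := coprime_of_le le_rfl hDK hcop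
  have hcB : (Nat.card B).Coprime (Nat.card D) := by
    rw [show Nat.card B = Nat.card A from
      Subgroup.card_map_of_injective (MulAut.conj x⁻¹).injective]
    exact hcD
  have hsolv' : Group.IsSolvable A ∨ Group.IsSolvable D := hsolv.imp id (isSolvable_of_le hDK)
  obtain ⟨d, hdD, hdconj⟩ := conj_complement A D B hDA hcD hsolv' hBsup hcB
  have hxdK : (x * d)⁻¹ ∈ K := K.inv_mem (K.mul_mem (hX hx) (hDK hdD))
  have hcent : (x * d)⁻¹ ∈ Subgroup.centralizer (A : Set G) := by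
    apply centralizes_of_normalizes A K hAK (inf_eq_bot_of_coprime' hcop) _ hxdK
    intro a ha
    have hb : x⁻¹ * a * x ∈ B := by rw [hAB]; simpa [mul_assoc] using ha
    have := (hdconj _).1 hb
    simpa [mul_assoc] using this
  have hcent' : x * d ∈ Subgroup.centralizer (A : Set G) := by
    simpa using Subgroup.inv_mem _ hcent
  refine ⟨x * d, ⟨X.mul_mem hx hdD.1, hcent'⟩, d⁻¹ * y, ⟨Y.mul_mem (Y.inv_mem hdD.2) hy, ?_⟩, ?_⟩
  · have e : d⁻¹ * y = (x * d)⁻¹ * k := by rw [hkxy]; group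
    rw [e]
    exact Subgroup.mul_mem _ hcent hk.2
  · rw [hkxy]; group

end Cfsg.Agent.S0030
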