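import Cfsg.Statements.S0036
import Cfsg.Agent.Helper1.Frob
import Mathlib

set_option autoImplicit false
open Cfsg

namespace Cfsg.Agent.S0036

theorem inv_lemma {G : Type*} [Group G] (H : Subgroup G) (hH : Cfsg.IsFrobeniusComplement H)
    (s a u b : G) (hs1 : s ≠ 1) (hsa : a⁻¹ * s * a ∈ H) (hu1 : u ≠ 1)
    (hinv : s * u * s⁻¹ = u⁻¹) (hub : b⁻¹ * u * b ∈ H) : a⁻¹ * b ∈ H := by
  have hw : b⁻¹ * s * b ∈ H := by
    by_contra hw
    have hx : (b⁻¹ * u * b)⁻¹ ∈ H := H.inv_mem hub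
    have hx' : (b⁻¹ * s * b)⁻¹ * (b⁻¹ * u * b)⁻¹ * (b⁻¹ * s * b) ∈ H := by
      have e : (b⁻¹ * s * b)⁻¹ * (b⁻¹ * u * b)⁻¹ * (b⁻¹ * s * b) =
          b⁻¹ * (s⁻¹ * u⁻¹ * s) * b := by group
      have e2 : s⁻¹ * u⁻¹ * s = u := by
        rw [← hinv]; group
      rw [e, e2]; exact hub
    have h1 := Cfsg.Agent.Helper1.frob_elt H hH _ hw _ hx hx'
    apply hu1
    have h2 : b⁻¹ * u * b = 1 := inv_eq_one.mp h1
    have e3 : u = b * (b⁻¹ * u * b) * b⁻¹ := by group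
    rw [e3, h2]; group
  exact Cfsg.Agent.Helper1.frob_TI H hH a b s hs1 hsa hw

/-- When a Frobenius complement contains an involution, an elementary argument shows the Frobenius kernel is closed under multiplication (hence a subgroup). -/
theorem result {G : Type*} [Group G] [Finite G] (H : Subgroup G) (hH : Cfsg.IsFrobeniusComplement H)
    (t : G) (ht : t ∈ H) (ht1 : t ≠ 1) (ht2 : t * t = 1) :
    ∀ x ∈ Cfsg.frobeniusKernel H, ∀ y ∈ Cfsg.frobeniusKernel H, x * y ∈ Cfsg.frobeniusKernel H := by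
  classical
  have ht_inv : t⁻¹ = t := inv_eq_of_mul_eq_one_right ht2
  have hmemK : ∀ x : G, x ≠ 1 → (∀ g : G, g⁻¹ * x * g ∉ H) → x ∈ Cfsg.frobeniusKernel H := by
    intro x _ hx
    by_contra hxK
    obtain ⟨-, g, hg⟩ := (Cfsg.Agent.Helper1.not_mem_kernel_iff H x).mp hxK
    exact hx g hg
  have h1K : (1 : G) ∈ Cfsg.frobeniusKernel H := Or.inl rfl
  have hKnot : ∀ x ∈ Cfsg.frobeniusKernel H, x ≠ 1 → ∀ g : G, g⁻¹ * x * g ∉ H := by
    intro x hx hx1 g hg
    exact ((Cfsg.Agent.Helper1.not_mem_kernel_iff H x).mpr ⟨hx1, g, hg⟩) hx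
  have hs_sq : ∀ g : G, (g * t * g⁻¹) * (g * t * g⁻¹) = 1 := by
    intro g
    have : (g * t * g⁻¹) * (g * t * g⁻¹) = g * (t * t) * g⁻¹ := by group
    rw [this, ht2]; group
  have hs_inv : ∀ g : G, (g * t * g⁻¹)⁻¹ = g * t * g⁻¹ := fun g =>
    inv_eq_of_mul_eq_one_right (hs_sq g)
  have hs_ne : ∀ g : G, g * t * g⁻¹ ≠ 1 := by
    intro g h
    apply ht1
    have e : t = g⁻¹ * (g * t * g⁻¹) * g := by group
    rw [e, h]; group
  have hs_mem : ∀ g : G, g⁻¹ * (g * t * g⁻¹) * g ∈ H := by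
    intro g
    have e : g⁻¹ * (g * t * g⁻¹) * g = t := by group
    rw [e]; exact ht
  have hu_ne : ∀ g : G, g ∉ H → t * (g * t * g⁻¹) ≠ 1 := by
    intro g hg h
    have h2 : g * t * g⁻¹ = t := by
      have : g * t * g⁻¹ = t⁻¹ * (t * (g * t * g⁻¹)) := by group
      rw [this, h, mul_one, ht_inv]
    have h3 : g⁻¹ * t * g ∈ H := by
      have e : g⁻¹ * t * g = g⁻¹ * (g * t * g⁻¹) * g := by rw [h2]
      rw [e]; exact hs_mem g
    exact ht1 (Cfsg.Agent.Helper1.frob_elt H hH g hg t ht h3)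
  have hu_inv_t : ∀ s : G, s⁻¹ = s → t * (t * s) * t⁻¹ = (t * s)⁻¹ := by
    intro s hs
    calc t * (t * s) * t⁻¹ = (t * t) * s * t⁻¹ := by group
      _ = s⁻¹ * t⁻¹ := by rw [ht2, one_mul, hs]
      _ = (t * s)⁻¹ := by group
  have hu_inv_s : ∀ s : G, s⁻¹ = s → s * (t * s) * s⁻¹ = (t * s)⁻¹ := by
    intro s hs
    calc s * (t * s) * s⁻¹ = s * t := by group
      _ = s⁻¹ * t⁻¹ := by rw [hs, ht_inv]
      _ = (t * s)⁻¹ := by group
  have hu_K : ∀ g : G, g ∉ H → t * (g * t * g⁻¹) ∈ Cfsg.frobeniusKernel H := by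
    intro g hg
    apply hmemK _ (hu_ne g hg)
    intro b hb
    have h1 := inv_lemma H hH t 1 (t * (g * t * g⁻¹)) b ht1 (by simpa using ht) (hu_ne g hg)
      (hu_inv_t _ (hs_inv g)) hb
    have h2 := inv_lemma H hH (g * t * g⁻¹) g (t * (g * t * g⁻¹)) b (hs_ne g) (hs_mem g)
      (hu_ne g hg) (hu_inv_s _ (hs_inv g)) hb
    apply hg
    have hb' : b ∈ H := by simpa using h1
    have e : g = b * (g⁻¹ * b)⁻¹ := by group
    rw [e]; exact H.mul_mem hb' (H.inv_mem h2)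
  obtain ⟨f, hf⟩ : ∃ f : G ⧸ H → G, ∀ c, f c =
      if c = ((1 : G) : G ⧸ H) then 1 else t * (c.out * t * c.out⁻¹) :=
    ⟨fun c => if c = ((1 : G) : G ⧸ H) then 1 else t * (c.out * t * c.out⁻¹), fun c => rfl⟩
  have hout : ∀ c : G ⧸ H, c ≠ ((1 : G) : G ⧸ H) → c.out ∉ H := by
    intro c hc hmem
    apply hc
    rw [← QuotientGroup.out_eq' c, QuotientGroup.eq]
    simpa using H.inv_mem hmem
  have hf_mem : ∀ c, f c ∈ Cfsg.frobeniusKernel H := by
    intro c
    rw [hf]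
    split_ifs with hc
    · exact h1K
    · exact hu_K _ (hout c hc)
  have hf_inj : Function.Injective f := by
    intro c c' hcc
    rw [hf, hf] at hcc
    by_cases hc : c = ((1 : G) : G ⧸ H)
    · by_cases hc' : c' = ((1 : G) : G ⧸ H)
      · rw [hc, hc']
      · rw [if_pos hc, if_neg hc'] at hcc
        exact absurd hcc.symm (hu_ne _ (hout c' hc'))
    · by_cases hc' : c' = ((1 : G) : G ⧸ H)
      · rw [if_neg hc, if_pos hc'] at hcc
        exact absurd hcc (hu_ne _ (hout c hc))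
      · rw [if_neg hc, if_neg hc'] at hcc
        have hss : c.out * t * c.out⁻¹ = c'.out * t * c'.out⁻¹ := mul_left_cancel hcc
        have h1 := hs_mem c.out
        have h2 : c'.out⁻¹ * (c.out * t * c.out⁻¹) * c'.out ∈ H := by
          rw [hss]; exact hs_mem c'.out
        have h3 := Cfsg.Agent.Helper1.frob_TI H hH c.out c'.out _ (hs_ne c.out) h1 h2
        rw [← QuotientGroup.out_eq' c, ← QuotientGroup.out_eq' c']
        exact QuotientGroup.eq.mpr h3
  have hrange : Set.range f = Cfsg.frobeniusKernel H := by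
    apply Set.eq_of_subset_of_ncard_le
    · rintro _ ⟨c, rfl⟩; exact hf_mem c
    · rw [← Set.image_univ, Set.ncard_image_of_injective _ hf_inj, Set.ncard_univ,
        ← Nat.card_coe_set_eq, Cfsg.Agent.Helper1.card_kernel H hH, Subgroup.index_eq_card]
    · exact Set.toFinite _
  have hKform : ∀ k ∈ Cfsg.frobeniusKernel H, k = 1 ∨ ∃ g : G, k = t * (g * t * g⁻¹) := by
    intro k hk
    rw [← hrange] at hk
    obtain ⟨c, rfl⟩ := hk
    rw [hf]
    split_ifs with hc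
    · exact Or.inl rfl
    · exact Or.inr ⟨c.out, rfl⟩
  have ht_invK : ∀ k ∈ Cfsg.frobeniusKernel H, t * k * t⁻¹ = k⁻¹ := by
    intro k hk
    rcases hKform k hk with rfl | ⟨g, rfl⟩
    · simp
    · exact hu_inv_t _ (hs_inv g)
  have hKconj : ∀ k ∈ Cfsg.frobeniusKernel H, ∀ g : G,
      g⁻¹ * k * g ∈ Cfsg.frobeniusKernel H := by
    intro k hk g
    by_cases hk1 : k = 1
    · rw [hk1]; simpa using h1K
    · apply hmemK
      · intro h
        apply hk1
        have e : k = g * (g⁻¹ * k * g) * g⁻¹ := by group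
        rw [e, h]; group
      · intro b hb
        apply hKnot k hk hk1 (g * b)
        have e : (g * b)⁻¹ * k * (g * b) = b⁻¹ * (g⁻¹ * k * g) * b := by group
        rw [e]; exact hb
  have hs_invK : ∀ g : G, ∀ k ∈ Cfsg.frobeniusKernel H,
      (g * t * g⁻¹) * k * (g * t * g⁻¹)⁻¹ = k⁻¹ := by
    intro g k hk
    have h1 := ht_invK _ (hKconj k hk g)
    have e : (g * t * g⁻¹) * k * (g * t * g⁻¹)⁻¹ = g * (t * (g⁻¹ * k * g) * t⁻¹) * g⁻¹ := by
      group
    rw [e, h1]; group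
  have hcomm : ∀ x ∈ Cfsg.frobeniusKernel H, ∀ y ∈ Cfsg.frobeniusKernel H, x * y = y * x := by
    intro x hx y hy
    rcases hKform x hx with rfl | ⟨g, rfl⟩
    · simp
    · have h1 := hs_invK g y hy
      have h2 := ht_invK y hy
      have h3 : t * (g * t * g⁻¹) * y * (t * (g * t * g⁻¹))⁻¹ = y := by
        have e : t * (g * t * g⁻¹) * y * (t * (g * t * g⁻¹))⁻¹ =
            t * ((g * t * g⁻¹) * y * (g * t * g⁻¹)⁻¹) * t⁻¹ := by group
        rw [e, h1]
        have e2 : t * y⁻¹ * t⁻¹ = (t * y * t⁻¹)⁻¹ := by group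
        rw [e2, h2, inv_inv]
      calc t * (g * t * g⁻¹) * y
          = (t * (g * t * g⁻¹) * y * (t * (g * t * g⁻¹))⁻¹) * (t * (g * t * g⁻¹)) := by group
        _ = y * (t * (g * t * g⁻¹)) := by rw [h3]
  intro x hx y hy
  by_cases hxy : x * y = 1
  · rw [hxy]; exact h1K
  · apply hmemK _ hxy
    intro b hb
    have hinv_gen : ∀ s : G, (∀ k ∈ Cfsg.frobeniusKernel H, s * k * s⁻¹ = k⁻¹) →
        s * (x * y) * s⁻¹ = (x * y)⁻¹ := by
      intro s hs
      have e : s * (x * y) * s⁻¹ = (s * x * s⁻¹) * (s * y * s⁻¹) := by group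
      rw [e, hs x hx, hs y hy, hcomm x hx y hy, mul_inv_rev]
    obtain ⟨g₀, hg₀⟩ : ∃ g : G, g ∉ H := by
      by_contra hall
      push Not at hall
      exact hH.2.1 (eq_top_iff.mpr fun z _ => hall z)
    have h1 := inv_lemma H hH t 1 (x * y) b ht1 (by simpa using ht) hxy
      (hinv_gen t ht_invK) hb
    have h2 := inv_lemma H hH (g₀ * t * g₀⁻¹) g₀ (x * y) b (hs_ne g₀) (hs_mem g₀) hxy
      (hinv_gen _ (hs_invK g₀)) hb
    apply hg₀
    have hb' : b ∈ H := by simpa using h1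
    have e : g₀ = b * (g₀⁻¹ * b)⁻¹ := by group
    rw [e]; exact H.mul_mem hb' (H.inv_mem h2)

end Cfsg.Agent.S0036
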