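import Cfsg.Statements.S0039
import Mathlib

set_option autoImplicit false
open Cfsg
open Pointwise

namespace Cfsg.Agent.S0039

/-- In a finite group that is a semidirect product of a normal subgroup K by a nontrivial subgroup H, H is a Frobenius complement exactly when each nonidentity element of H acts without nonidentity fixed points on K by conjugation. -/
theorem result {G : Type*} [Group G] [Finite G] (K H : Subgroup G) [K.Normal]
    (hc : Subgroup.IsComplement' K H) (hK : K ≠ ⊥) (hH : H ≠ ⊥) :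
    Cfsg.IsFrobeniusComplement H ↔ ∀ h ∈ H, h ≠ 1 → K ⊓ Subgroup.centralizer {h} = ⊥ := by
  have hdisj : K ⊓ H = ⊥ := hc.disjoint.eq_bot
  have hKH : ∀ z, z ∈ K → z ∈ H → z = 1 := by
    intro z hz1 hz2
    have : z ∈ K ⊓ H := ⟨hz1, hz2⟩
    rw [hdisj] at this
    exact Subgroup.mem_bot.mp this
  constructor
  · rintro ⟨-, -, hF⟩ h hh hh1
    rw [eq_bot_iff]
    intro k hk
    obtain ⟨hkK, hkC⟩ := Subgroup.mem_inf.mp hk
    rw [Subgroup.mem_bot]
    by_contra hk1
    have hkH : k ∉ H := fun hkH => hk1 (hKH k hkK hkH)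
    have hb := hF k hkH
    have hmem : h ∈ H ⊓ (MulAut.conj k • H) := by
      refine Subgroup.mem_inf.mpr ⟨hh, ?_⟩
      rw [Subgroup.mem_smul_pointwise_iff_exists]
      refine ⟨h, hh, ?_⟩
      rw [MulAut.smul_def, MulAut.conj_apply]
      rw [Subgroup.mem_centralizer_iff] at hkC
      have := hkC h (Set.mem_singleton h)
      rw [← this]; group
    rw [hb, Subgroup.mem_bot] at hmem
    exact hh1 hmem
  · intro hfpf
    refine ⟨hH, ?_, ?_⟩
    · intro htop
      apply hK
      rw [htop, inf_top_eq] at hdisj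
      exact hdisj
    · intro g hg
      rw [eq_bot_iff]
      intro x hx0
      obtain ⟨hxH, hxc'⟩ := Subgroup.mem_inf.mp hx0
      rw [Subgroup.mem_bot]
      rw [Subgroup.mem_smul_pointwise_iff_exists] at hxc'
      obtain ⟨y, hyH, hyx⟩ := hxc'
      rw [MulAut.smul_def, MulAut.conj_apply] at hyx
      obtain ⟨⟨⟨k, hk⟩, ⟨h', hh'⟩⟩, hkh, -⟩ := Subgroup.isComplement_iff_existsUnique.mp hc g
      simp only at hkh
      have hk' : k ∈ K := hk
      have hh'' : h' ∈ H := hh'
      have hk1 : k ≠ 1 := by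
        rintro rfl
        apply hg
        rw [← hkh, one_mul]; exact hh''
      have hy'H : h' * y * h'⁻¹ ∈ H := H.mul_mem (H.mul_mem hh'' hyH) (H.inv_mem hh'')
      generalize hy' : h' * y * h'⁻¹ = y' at hy'H
      have hx : x = k * y' * k⁻¹ := by
        rw [← hyx, ← hkh, ← hy']; group
      have h1 : x * y'⁻¹ ∈ K := by
        have : x * y'⁻¹ = k * (y' * k⁻¹ * y'⁻¹) := by rw [hx]; group
        rw [this]
        exact K.mul_mem hk' (‹K.Normal›.conj_mem _ (K.inv_mem hk') _)
      have h2 : x * y'⁻¹ ∈ H := H.mul_mem hxH (H.inv_mem hy'H)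
      have h3 : x = y' := mul_inv_eq_one.mp (hKH _ h1 h2)
      by_contra hx1
      have hy1 : y' ≠ 1 := by rw [← h3]; exact hx1
      have hb := hfpf y' hy'H hy1
      have hmem : k ∈ K ⊓ Subgroup.centralizer {y'} := by
        refine Subgroup.mem_inf.mpr ⟨hk', ?_⟩
        rw [Subgroup.mem_centralizer_iff]
        intro z hz
        rw [Set.mem_singleton_iff] at hz
        subst hz
        have hx' : z = k * z * k⁻¹ := by rw [← h3]; rw [← h3] at hx; exact hx
        calc z * k = (k * z * k⁻¹) * k := by rw [← hx']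
          _ = k * z := by group
      rw [hb, Subgroup.mem_bot] at hmem
      exact hk1 hmem

end Cfsg.Agent.S0039
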