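import Cfsg.Statements.S0041
import Cfsg.Agent.Helper9.Fpf

set_option autoImplicit false
open Cfsg

namespace Cfsg.Agent.S0041

theorem result {G : Type*} [Group G] [Finite G] (A V : Subgroup G) [IsMulCommutative V]
    (hV : V ≠ ⊥) (hAV : A ≤ Subgroup.normalizer (V : Set G)) (hfpf : ∀ a ∈ A, a ≠ 1 → V ⊓ Subgroup.centralizer {a} = ⊥)
    (hA : IsMulCommutative A ∨ ∃ p q : ℕ, p.Prime ∧ q.Prime ∧ Nat.card A = p * q) : IsCyclic A := by
  classical
  obtain ⟨φ, hφ⟩ : ∃ φ : ↥A →* MulAut ↥V, ∀ (a : A) (v : V),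
      ((φ a v : V) : G) = (a : G) * (v : G) * (a : G)⁻¹ :=
    ⟨V.normalizerMonoidHom.comp (Subgroup.inclusion hAV), fun a v => rfl⟩
  have hfpf' : ∀ a : A, a ≠ 1 → ∀ v : V, φ a v = v → v = 1 := by
    intro a ha v hv
    have h1 : (v : G) ∈ V ⊓ Subgroup.centralizer {(a : G)} := by
      refine Subgroup.mem_inf.2 ⟨v.2, ?_⟩
      rw [Subgroup.mem_centralizer_iff]
      intro h hh
      rw [Set.mem_singleton_iff] at hh
      rw [hh]
      have h2 := congrArg Subtype.val hv
      rw [hφ] at h2
      calc (a : G) * v = ((a : G) * (v : G) * (a : G)⁻¹) * a := by group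
        _ = v * a := by rw [h2]
    rw [hfpf a a.2 (fun h => ha (Subtype.ext h))] at h1
    exact Subtype.ext (Subgroup.mem_bot.1 h1)
  haveI : Nontrivial V := (Subgroup.nontrivial_iff_ne_bot V).2 hV
  have hcop : (Nat.card A).Coprime (Nat.card V) := Cfsg.Agent.Helper9.fpf_coprime φ hfpf'
  have habel : IsMulCommutative A → IsCyclic A := by
    intro hc
    by_contra hnc
    have hgen := Cfsg.Agent.Helper9.coprime_generation A V hnc hAV hcop
    apply hV
    rw [← hgen]
    unfold Cfsg.Agent.Helper9.cgen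
    simp only [iSup_eq_bot]
    intro a ha
    exact hfpf a ha.1 ha.2
  rcases hA with hc | ⟨p, q, hp, hq, hcard⟩
  · exact habel hc
  · open scoped IsMulCommutative in
    letI : CommGroup V := inferInstance
    rcases lt_trichotomy p q with h | h | h
    · exact Cfsg.Agent.Helper9.fpf_isCyclic_of_card_pq φ hfpf' p q hp hq h hcard
    · subst h
      apply habel
      haveI := Fact.mk hp
      exact IsPGroup.isMulCommutative_of_card_eq_prime_sq (G := A) (by rw [hcard, sq])
    · exact Cfsg.Agent.Helper9.fpf_isCyclic_of_card_pq φ hfpf' q p hq hp h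
        (by rw [hcard, mul_comm])

end Cfsg.Agent.S0041
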