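import Cfsg.Statements.S0046
import Cfsg.Agent.S0062
import Cfsg.Agent.Helper1.Frob
import Mathlib

set_option autoImplicit false
open Pointwise
open Cfsg

namespace Cfsg.Agent.S0046

universe u

/-- conjugation as an order isomorphism of the subgroup lattice -/
def conjIso {G : Type*} [Group G] (a : MulAut G) : Subgroup G ≃o Subgroup G where
  toFun S := a • S
  invFun S := a⁻¹ • S
  left_inv S := inv_smul_smul a S
  right_inv S := smul_inv_smul a S
  map_rel_iff' := Subgroup.pointwise_smul_le_pointwise_smul_iff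

theorem isCoatom_conj {G : Type*} [Group G] (M : Subgroup G) (hM : IsCoatom M) (g : G) :
    IsCoatom (MulAut.conj g • M) :=
  ((conjIso (MulAut.conj g)).isCoatom_iff M).mpr hM

theorem exists_normalizer_not_mem {G : Type*} [Group G] [Finite G] (M D : Subgroup G)
    (hMn : Group.IsNilpotent M) (hDM : D ≤ M) (hne : D ≠ M) :
    ∃ x : G, x ∈ M ∧ x ∈ Subgroup.normalizer (D : Set G) ∧ x ∉ D := by
  have hnc := Group.normalizerCondition_of_isNilpotent (G := M)
  have hlt : D.subgroupOf M < ⊤ := by
    rw [lt_top_iff_ne_top]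
    intro h
    rw [Subgroup.subgroupOf_eq_top] at h
    exact hne (le_antisymm hDM h)
  have h2 := hnc _ hlt
  obtain ⟨x, hxN, hxD⟩ := SetLike.exists_of_lt h2
  refine ⟨x, x.2, ?_, fun h => hxD (Subgroup.mem_subgroupOf.mpr h)⟩
  rw [Subgroup.mem_normalizer_iff] at hxN ⊢
  intro d
  constructor
  · intro hd
    have := (hxN ⟨d, hDM hd⟩).mp (Subgroup.mem_subgroupOf.mpr hd)
    exact Subgroup.mem_subgroupOf.mp this
  · intro hd
    have hdP : d ∈ M := by
      have h3 : (x : G)⁻¹ * ((x : G) * d * (x : G)⁻¹) * (x : G) ∈ M :=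
        M.mul_mem (M.mul_mem (M.inv_mem x.2) (hDM hd)) x.2
      simpa [mul_assoc] using h3
    have := (hxN ⟨d, hdP⟩).mpr (Subgroup.mem_subgroupOf.mpr hd)
    exact Subgroup.mem_subgroupOf.mp this

theorem quot_coatom_nilpotent {G : Type*} [Group G] [Finite G] (N : Subgroup G) [N.Normal]
    (h : ∀ M : Subgroup G, IsCoatom M → Group.IsNilpotent M) :
    ∀ M' : Subgroup (G ⧸ N), IsCoatom M' → Group.IsNilpotent M' := by
  intro M' hM'
  have hsurj := QuotientGroup.mk'_surjective N
  have hco : IsCoatom (M'.comap (QuotientGroup.mk' N)) := by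
    refine ⟨fun htop => hM'.1 ?_, fun K hK => ?_⟩
    · exact Subgroup.comap_injective hsurj (htop.trans (Subgroup.comap_top _).symm)
    · have hNK : N ≤ K := by
        have h1 : N ≤ M'.comap (QuotientGroup.mk' N) := by
          intro x hx
          rw [Subgroup.mem_comap]
          have hx1 : QuotientGroup.mk' N x = 1 := (QuotientGroup.eq_one_iff x).mpr hx
          rw [hx1]
          exact M'.one_mem
        exact h1.trans hK.le
      have hKeq : (K.map (QuotientGroup.mk' N)).comap (QuotientGroup.mk' N) = K := by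
        rw [Subgroup.comap_map_eq, QuotientGroup.ker_mk']; exact sup_eq_left.mpr hNK
      have h2 : M' < K.map (QuotientGroup.mk' N) := by
        rw [← Subgroup.comap_lt_comap_of_surjective hsurj, hKeq]; exact hK
      have h3 := hM'.2 _ h2
      rw [← hKeq, h3, Subgroup.comap_top]
  haveI := h _ hco
  have e := Subgroup.map_comap_eq_self_of_surjective hsurj M'
  have hn : Group.IsNilpotent ((M'.comap (QuotientGroup.mk' N)).map (QuotientGroup.mk' N)) :=
    nilpotent_of_surjective ((QuotientGroup.mk' N).subgroupMap (M'.comap (QuotientGroup.mk' N)))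
      (MonoidHom.subgroupMap_surjective _ _)
  rw [e] at hn
  exact hn

theorem main : ∀ c : ℕ, ∀ (G : Type u) [Group G] [Finite G], Nat.card G = c →
    (∀ M : Subgroup G, IsCoatom M → Group.IsNilpotent M) → Group.IsSolvable G := by
  intro c
  induction c using Nat.strongRecOn with | ind c ih => ?_
  intro G _ _ hc h
  by_cases hex : ∃ N : Subgroup G, N.Normal ∧ N ≠ ⊥ ∧ N ≠ ⊤
  · obtain ⟨N, hN, hN1, hN2⟩ := hex
    haveI := hN
    haveI : Group.IsSolvable (G ⧸ N) :=
      ih _ (hc ▸ Cfsg.Agent.S0001.card_quot_lt N hN1) (G ⧸ N) rfl (quot_coatom_nilpotent N h)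
    haveI : Group.IsSolvable N := by
      rcases eq_top_or_exists_le_coatom N with h1 | ⟨M, hM, hNM⟩
      · exact absurd h1 hN2
      · haveI := h M hM
        exact Group.isSolvable_of_isSolvable_injective (Subgroup.inclusion_injective hNM)
    exact Cfsg.Agent.S0062.solvable_of_normal N
  · push Not at hex
    by_cases hcyc : ∃ x : G, Subgroup.zpowers x = ⊤
    · obtain ⟨x, hx⟩ := hcyc
      apply Group.isSolvable_of_comm
      intro a b
      obtain ⟨i, rfl⟩ := Subgroup.mem_zpowers_iff.mp (hx ▸ Subgroup.mem_top a)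
      obtain ⟨j, rfl⟩ := Subgroup.mem_zpowers_iff.mp (hx ▸ Subgroup.mem_top b)
      rw [← zpow_add, ← zpow_add, add_comm]
    · push Not at hcyc
      exfalso
      have hcoat_ne_bot : ∀ M : Subgroup G, IsCoatom M → M ≠ ⊥ := by
        intro M hM hbot
        have hne : (⊥ : Subgroup G) ≠ ⊤ := hbot ▸ hM.1
        obtain ⟨x, hx⟩ : ∃ x : G, x ≠ 1 := by
          by_contra hall
          push Not at hall
          exact hne (eq_top_iff.mpr fun y _ => (hall y) ▸ Subgroup.one_mem ⊥)
        have h1 : (⊥ : Subgroup G) < Subgroup.zpowers x := by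
          rw [bot_lt_iff_ne_bot]; intro h0; exact hx (Subgroup.zpowers_eq_bot.mp h0)
        exact hcyc x (hM.2 _ (hbot ▸ h1))
      have hcoat_not_normal : ∀ M : Subgroup G, IsCoatom M → ¬ M.Normal := by
        intro M hM hMn
        exact hM.1 (hex M hMn (hcoat_ne_bot M hM))
      have hcoat_norm : ∀ M : Subgroup G, IsCoatom M →
          Subgroup.normalizer (M : Set G) = M := by
        intro M hM
        by_contra hne
        have hlt : M < Subgroup.normalizer (M : Set G) :=
          lt_of_le_of_ne Subgroup.le_normalizer (Ne.symm hne)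
        exact hcoat_not_normal M hM (Subgroup.normalizer_eq_top_iff.mp (hM.2 _ hlt))
      have hconj_ne : ∀ M : Subgroup G, IsCoatom M → ∀ g : G, g ∉ M →
          MulAut.conj g • M ≠ M := by
        intro M hM g hg heq
        apply hg
        rw [← hcoat_norm M hM, Subgroup.mem_normalizer_iff]
        intro x
        conv_rhs => rw [← heq, Cfsg.Agent.Helper1.mem_conj_smul_iff]
        have e : g⁻¹ * (g * x * g⁻¹) * g = x := by group
        rw [e]
      obtain ⟨M₀, hM₀⟩ : ∃ M : Subgroup G, IsCoatom M := by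
        rcases eq_top_or_exists_le_coatom (⊥ : Subgroup G) with h1 | ⟨M, hM, -⟩
        · exact absurd (by rw [Subgroup.zpowers_one_eq_bot]; exact h1) (hcyc 1)
        · exact ⟨M, hM⟩
      obtain ⟨g₀, hg₀⟩ : ∃ g : G, g ∉ M₀ := by
        by_contra hall
        push Not at hall
        exact hM₀.1 (eq_top_iff.mpr fun x _ => hall x)
      haveI : Nonempty {pr : Subgroup G × Subgroup G //
          IsCoatom pr.1 ∧ IsCoatom pr.2 ∧ pr.1 ≠ pr.2} :=
        ⟨⟨(MulAut.conj g₀ • M₀, M₀), isCoatom_conj M₀ hM₀ g₀, hM₀, hconj_ne M₀ hM₀ g₀ hg₀⟩⟩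
      obtain ⟨⟨⟨M₁, M₂⟩, hM₁, hM₂, hne⟩, hmax⟩ := Finite.exists_max
        (fun pr : {pr : Subgroup G × Subgroup G //
            IsCoatom pr.1 ∧ IsCoatom pr.2 ∧ pr.1 ≠ pr.2} =>
          Nat.card (pr.1.1 ⊓ pr.1.2 : Subgroup G))
      have hmax' : ∀ M₃ M₄ : Subgroup G, IsCoatom M₃ → IsCoatom M₄ → M₃ ≠ M₄ →
          Nat.card (M₃ ⊓ M₄ : Subgroup G) ≤ Nat.card (M₁ ⊓ M₂ : Subgroup G) :=
        fun M₃ M₄ h3 h4 h => hmax ⟨(M₃, M₄), h3, h4, h⟩
      obtain ⟨D, hD⟩ : ∃ D : Subgroup G, D = M₁ ⊓ M₂ := ⟨_, rfl⟩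
      rw [← hD] at hmax'
      have hM₁' : IsCoatom M₁ := hM₁
      have hM₂' : IsCoatom M₂ := hM₂
      have hne' : M₁ ≠ M₂ := hne
      have hDM1 : D ≤ M₁ := hD ▸ inf_le_left
      have hDM2 : D ≤ M₂ := hD ▸ inf_le_right
      by_cases hDbot : D = ⊥
      · have hTI : ∀ M₃ M₄ : Subgroup G, IsCoatom M₃ → IsCoatom M₄ → M₃ ≠ M₄ →
            M₃ ⊓ M₄ = ⊥ := by
          intro M₃ M₄ h3 h4 h34
          have := hmax' M₃ M₄ h3 h4 h34
          rw [hDbot, Subgroup.card_bot] at this
          exact Subgroup.eq_bot_of_card_le _ this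
        have hfrob : ∀ M : Subgroup G, IsCoatom M → Cfsg.IsFrobeniusComplement M := by
          intro M hM
          refine ⟨hcoat_ne_bot M hM, hM.1, fun g hg => ?_⟩
          exact hTI M _ hM (isCoatom_conj M hM g) (hconj_ne M hM g hg).symm
        have hcount : ∀ M : Subgroup G, IsCoatom M →
            Nat.card G ≤ 2 * Nat.card {x : G // x ∉ Cfsg.frobeniusKernel M} := by
          intro M hM
          rw [Cfsg.Agent.Helper1.card_compl_kernel M (hfrob M hM), ← M.index_mul_card]
          have h2 : 2 ≤ Nat.card M := by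
            have := (Subgroup.one_lt_card_iff_ne_bot M).mpr (hcoat_ne_bot M hM)
            omega
          calc M.index * Nat.card M ≤ M.index * (2 * (Nat.card M - 1)) :=
                Nat.mul_le_mul_left _ (by omega)
            _ = 2 * (M.index * (Nat.card M - 1)) := by ring
        have hK0 : Nat.card (Cfsg.frobeniusKernel M₀) = M₀.index :=
          Cfsg.Agent.Helper1.card_kernel M₀ (hfrob M₀ hM₀)
        have hidx2 : 1 < M₀.index := Subgroup.one_lt_index_of_ne_top hM₀.1
        obtain ⟨x, hxK, hx1⟩ : ∃ x : G, x ∈ Cfsg.frobeniusKernel M₀ ∧ x ≠ 1 := by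
          by_contra hno
          push Not at hno
          have : Nat.card (Cfsg.frobeniusKernel M₀) ≤ 1 := by
            rw [Nat.card_coe_set_eq]
            calc (Cfsg.frobeniusKernel M₀).ncard ≤ ({1} : Set G).ncard :=
                  Set.ncard_le_ncard (fun y hy => hno y hy) (Set.toFinite _)
              _ = 1 := Set.ncard_singleton 1
          omega
        obtain ⟨M', hM', hxM'⟩ : ∃ M' : Subgroup G, IsCoatom M' ∧ x ∈ M' := by
          rcases eq_top_or_exists_le_coatom (Subgroup.zpowers x) with h1 | ⟨M', hM', hle⟩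
          · exact absurd h1 (hcyc x)
          · exact ⟨M', hM', hle (Subgroup.mem_zpowers x)⟩
        have hdisj : Disjoint (Cfsg.frobeniusKernel M₀)ᶜ (Cfsg.frobeniusKernel M')ᶜ := by
          rw [Set.disjoint_left]
          intro y hy hy'
          obtain ⟨hy1, g, hg⟩ := (Cfsg.Agent.Helper1.not_mem_kernel_iff M₀ y).mp hy
          obtain ⟨-, g', hg'⟩ := (Cfsg.Agent.Helper1.not_mem_kernel_iff M' y).mp hy'
          have hy2 : y ∈ MulAut.conj g • M₀ ⊓ MulAut.conj g' • M' :=
            Subgroup.mem_inf.mpr ⟨(Cfsg.Agent.Helper1.mem_conj_smul_iff g y M₀).mpr hg,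
              (Cfsg.Agent.Helper1.mem_conj_smul_iff g' y M').mpr hg'⟩
          have heq : MulAut.conj g • M₀ = MulAut.conj g' • M' := by
            by_contra hne2
            rw [hTI _ _ (isCoatom_conj M₀ hM₀ g) (isCoatom_conj M' hM' g') hne2,
              Subgroup.mem_bot] at hy2
            exact hy1 hy2
          have hx2 : g' * x * g'⁻¹ ∈ MulAut.conj g • M₀ := by
            rw [heq, Cfsg.Agent.Helper1.mem_conj_smul_iff]
            have e : g'⁻¹ * (g' * x * g'⁻¹) * g' = x := by group
            rw [e]; exact hxM'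
          rw [Cfsg.Agent.Helper1.mem_conj_smul_iff] at hx2
          have : x ∉ Cfsg.frobeniusKernel M₀ := by
            rw [Cfsg.Agent.Helper1.not_mem_kernel_iff]
            refine ⟨hx1, g'⁻¹ * g, ?_⟩
            have e : (g'⁻¹ * g)⁻¹ * x * (g'⁻¹ * g) = g⁻¹ * (g' * x * g'⁻¹) * g := by group
            rw [e]; exact hx2
          exact this hxK
        have hA := hcount M₀ hM₀
        have hB := hcount M' hM'
        have h1A : (1 : G) ∉ (Cfsg.frobeniusKernel M₀)ᶜ ∪ (Cfsg.frobeniusKernel M')ᶜ := by
          intro h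
          rcases h with h | h
          · exact h (Or.inl rfl)
          · exact h (Or.inl rfl)
        have hU : ((Cfsg.frobeniusKernel M₀)ᶜ ∪ (Cfsg.frobeniusKernel M')ᶜ).ncard + 1 ≤
            Nat.card G := by
          rw [← Set.ncard_insert_of_notMem h1A (Set.toFinite _)]
          calc _ ≤ (Set.univ : Set G).ncard :=
                Set.ncard_le_ncard (Set.subset_univ _) (Set.toFinite _)
            _ = Nat.card G := Set.ncard_univ G
        rw [Set.ncard_union_eq hdisj (Set.toFinite _) (Set.toFinite _)] at hU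
        have eA : (Cfsg.frobeniusKernel M₀)ᶜ.ncard =
            Nat.card {x : G // x ∉ Cfsg.frobeniusKernel M₀} := (Nat.card_coe_set_eq _).symm
        have eB : (Cfsg.frobeniusKernel M')ᶜ.ncard =
            Nat.card {x : G // x ∉ Cfsg.frobeniusKernel M'} := (Nat.card_coe_set_eq _).symm
        rw [eA, eB] at hU
        omega
      · have hDne1 : D ≠ M₁ := by
          intro h
          have h12 : M₁ ≤ M₂ := h ▸ hDM2
          rcases eq_or_lt_of_le h12 with h3 | h3
          · exact hne' h3
          · exact hM₂'.1 (hM₁'.2 _ h3)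
        have hDne2 : D ≠ M₂ := by
          intro h
          have h21 : M₂ ≤ M₁ := h ▸ hDM1
          rcases eq_or_lt_of_le h21 with h3 | h3
          · exact hne' h3.symm
          · exact hM₁'.1 (hM₂'.2 _ h3)
        obtain ⟨x₁, hx₁M, hx₁N, hx₁D⟩ :=
          exists_normalizer_not_mem M₁ D (h M₁ hM₁') hDM1 hDne1
        obtain ⟨x₂, hx₂M, hx₂N, hx₂D⟩ :=
          exists_normalizer_not_mem M₂ D (h M₂ hM₂') hDM2 hDne2
        have hDnn : Subgroup.normalizer (D : Set G) ≠ ⊤ := by
          intro htop
          have hDn : D.Normal := Subgroup.normalizer_eq_top_iff.mp htop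
          have := hex D hDn hDbot
          exact hM₁'.1 (top_le_iff.mp (this ▸ hDM1))
        rcases eq_top_or_exists_le_coatom (Subgroup.normalizer (D : Set G)) with
          h1 | ⟨M₃, hM₃, hle⟩
        · exact hDnn h1
        · have hDM3 : D ≤ M₃ := Subgroup.le_normalizer.trans hle
          have h13 : M₁ = M₃ := by
            by_contra h3
            have h1 := hmax' M₁ M₃ hM₁' hM₃ h3
            have heq := Subgroup.eq_of_le_of_card_ge (le_inf hDM1 hDM3) h1
            apply hx₁D
            rw [heq]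
            exact Subgroup.mem_inf.mpr ⟨hx₁M, hle hx₁N⟩
          have h23 : M₂ = M₃ := by
            by_contra h3
            have h1 := hmax' M₂ M₃ hM₂' hM₃ h3
            have heq := Subgroup.eq_of_le_of_card_ge (le_inf hDM2 hDM3) h1
            apply hx₂D
            rw [heq]
            exact Subgroup.mem_inf.mpr ⟨hx₂M, hle hx₂N⟩
          exact hne' (h13.trans h23.symm)

/-- Schmidt's Theorem on minimal non-nilpotent groups: a finite group in which every maximal subgroup is nilpotent is solvable. -/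
theorem result {G : Type*} [Group G] [Finite G]
    (h : ∀ M : Subgroup G, IsCoatom M → Group.IsNilpotent M) : Group.IsSolvable G := by
  exact main _ G rfl h

end Cfsg.Agent.S0046
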