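import Cfsg.Statements.S0047
import Mathlib

set_option autoImplicit false
open Cfsg
open scoped commutatorElement

namespace Cfsg.Agent.S0047

theorem comm_mul_right' {G : Type*} [Group G] (a a' y : G) (h : a * a' = a' * a) :
    ⁅a, y * a'⁆ = ⁅a, y⁆ := by
  have h2 : a' * a⁻¹ * a'⁻¹ = a⁻¹ := by
    have : Commute a' a⁻¹ := (show Commute a' a from h.symm).inv_right
    rw [this.eq, mul_inv_cancel_right]
  calc ⁅a, y * a'⁆ = a * y * (a' * a⁻¹ * a'⁻¹) * y⁻¹ := by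
        rw [commutatorElement_def]; group
    _ = ⁅a, y⁆ := by rw [h2, commutatorElement_def]

theorem comm_mul_left' {G : Type*} [Group G] (b b' x : G) (h : b * b' = b' * b) :
    ⁅x * b', b⁆ = ⁅x, b⁆ := by
  have h2 : b' * b * b'⁻¹ = b := by
    rw [← h, mul_inv_cancel_right]
  calc ⁅x * b', b⁆ = x * (b' * b * b'⁻¹) * x⁻¹ * b⁻¹ := by
        rw [commutatorElement_def]; group
    _ = ⁅x, b⁆ := by rw [h2, commutatorElement_def]

theorem conj_comm {G : Type*} [Group G] (g x y : G) :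
    g * ⁅x, y⁆ * g⁻¹ = ⁅g * x * g⁻¹, g * y * g⁻¹⁆ := by
  rw [commutatorElement_def, commutatorElement_def]; group

/-- A finite group which is the product AB of two abelian subgroups A and B is solvable. -/
theorem result {G : Type*} [Group G] [Finite G] (A B : Subgroup G)
    [IsMulCommutative A] [IsMulCommutative B] (hAB : ∀ g : G, ∃ a ∈ A, ∃ b ∈ B, g = a * b) :
    Group.IsSolvable G := by
  have hA : ∀ a ∈ A, ∀ a' ∈ A, a * a' = a' * a := fun a ha a' ha' =>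
    congrArg Subtype.val ((IsMulCommutative.is_comm (M := A)).comm ⟨a, ha⟩ ⟨a', ha'⟩)
  have hB : ∀ b ∈ B, ∀ b' ∈ B, b * b' = b' * b := fun b hb b' hb' =>
    congrArg Subtype.val ((IsMulCommutative.is_comm (M := B)).comm ⟨b, hb⟩ ⟨b', hb'⟩)
  have stepA : ∀ a' ∈ A, ∀ b ∈ B, ∃ b₂ ∈ B, ∀ a ∈ A, a' * ⁅a, b⁆ * a'⁻¹ = ⁅a, b₂⁆ := by
    intro a' ha' b hb
    obtain ⟨a₀, ha₀, b₀, hb₀, h0⟩ := hAB (a' * b * a'⁻¹)⁻¹
    have h1 : a' * b * a'⁻¹ = b₀⁻¹ * a₀⁻¹ := by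
      rw [← mul_inv_rev, ← h0, inv_inv]
    refine ⟨b₀⁻¹, B.inv_mem hb₀, fun a ha => ?_⟩
    have h2 : a' * a * a'⁻¹ = a := by rw [hA a' ha' a ha, mul_inv_cancel_right]
    rw [conj_comm, h1, h2]
    exact comm_mul_right' a a₀⁻¹ b₀⁻¹ (hA a ha _ (A.inv_mem ha₀))
  have stepB : ∀ b' ∈ B, ∀ a ∈ A, ∃ a₃ ∈ A, ∀ b ∈ B, b' * ⁅a, b⁆ * b'⁻¹ = ⁅a₃, b⁆ := by
    intro b' hb' a ha
    obtain ⟨a₃, ha₃, b₃, hb₃, h0⟩ := hAB (b' * a * b'⁻¹)
    refine ⟨a₃, ha₃, fun b hb => ?_⟩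
    have h2 : b' * b * b'⁻¹ = b := by rw [hB b' hb' b hb, mul_inv_cancel_right]
    rw [conj_comm, h0, h2]
    exact comm_mul_left' b b₃ a₃ (hB b hb b₃ hb₃)
  obtain ⟨S, hS⟩ : ∃ S : Set G, S = {s | ∃ a ∈ A, ∃ b ∈ B, s = ⁅a, b⁆} := ⟨_, rfl⟩
  have hconj : ∀ s ∈ S, ∀ g : G, g * s * g⁻¹ ∈ S := by
    intro s hs g
    rw [hS] at hs ⊢
    obtain ⟨a, ha, b, hb, rfl⟩ := hs
    obtain ⟨a', ha', b', hb', rfl⟩ := hAB g
    obtain ⟨a₃, ha₃, h3⟩ := stepB b' hb' a ha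
    obtain ⟨b₂, hb₂, h2⟩ := stepA a' ha' b hb
    refine ⟨a₃, ha₃, b₂, hb₂, ?_⟩
    calc a' * b' * ⁅a, b⁆ * (a' * b')⁻¹ = a' * (b' * ⁅a, b⁆ * b'⁻¹) * a'⁻¹ := by group
      _ = ⁅a₃, b₂⁆ := by rw [h3 b hb, h2 a₃ ha₃]
  have hcomm : ∀ s ∈ S, ∀ t ∈ S, s * t = t * s := by
    intro s hs t ht
    rw [hS] at hs ht
    obtain ⟨a, ha, b, hb, rfl⟩ := hs
    obtain ⟨a₁, ha₁, b₁, hb₁, rfl⟩ := ht
    obtain ⟨a₃, ha₃, h3⟩ := stepB b₁⁻¹ (B.inv_mem hb₁) a ha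
    obtain ⟨b₂, hb₂, h2⟩ := stepA a₁⁻¹ (A.inv_mem ha₁) b hb
    have key : a₁⁻¹ * (b₁⁻¹ * ⁅a, b⁆ * b₁⁻¹⁻¹) * a₁⁻¹⁻¹ =
        b₁⁻¹ * (a₁⁻¹ * ⁅a, b⁆ * a₁⁻¹⁻¹) * b₁⁻¹⁻¹ := by
      rw [h3 b hb, h2 a₃ ha₃, h2 a ha, h3 b₂ hb₂]
    generalize ⁅a, b⁆ = s at key ⊢
    symm
    calc ⁅a₁, b₁⁆ * s = a₁ * b₁ * (a₁⁻¹ * (b₁⁻¹ * s * b₁⁻¹⁻¹) * a₁⁻¹⁻¹) * a₁⁻¹ * b₁⁻¹ := by
          rw [commutatorElement_def]; group
      _ = a₁ * b₁ * (b₁⁻¹ * (a₁⁻¹ * s * a₁⁻¹⁻¹) * b₁⁻¹⁻¹) * a₁⁻¹ * b₁⁻¹ := by rw [key]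
      _ = s * ⁅a₁, b₁⁆ := by rw [commutatorElement_def]; group
  obtain ⟨N, hN⟩ : ∃ N : Subgroup G, N = Subgroup.normalClosure S := ⟨_, rfl⟩
  haveI hNn : N.Normal := by rw [hN]; exact Subgroup.normalClosure_normal
  have hsub : Group.conjugatesOfSet S ⊆ S := by
    intro x hx
    rw [Group.mem_conjugatesOfSet_iff] at hx
    obtain ⟨s, hs, hsx⟩ := hx
    rw [isConj_iff] at hsx
    obtain ⟨c, rfl⟩ := hsx
    exact hconj s hs c
  have hNle : N ≤ Subgroup.closure S := by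
    rw [hN]; exact Subgroup.closure_mono hsub
  have hS1 : Subgroup.closure S ≤ Subgroup.centralizer S := by
    rw [Subgroup.closure_le]
    intro x hx
    rw [SetLike.mem_coe, Subgroup.mem_centralizer_iff]
    intro y hy
    exact hcomm y hy x hx
  have hS2 : Subgroup.closure S ≤ Subgroup.centralizer (Subgroup.closure S : Set G) := by
    rw [Subgroup.closure_le]
    intro x hx
    rw [SetLike.mem_coe, Subgroup.mem_centralizer_iff]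
    intro y hy
    have := hS1 hy
    rw [Subgroup.mem_centralizer_iff] at this
    exact (this x hx).symm
  have hNcomm : ∀ x y : N, x * y = y * x := by
    intro x y
    have hx := hS2 (hNle x.2)
    rw [Subgroup.mem_centralizer_iff] at hx
    exact Subtype.ext (hx y.1 (hNle y.2)).symm
  haveI : Group.IsSolvable N := Group.isSolvable_of_comm hNcomm
  have hπ : ∀ a ∈ A, ∀ b ∈ B,
      Commute (QuotientGroup.mk' N a) (QuotientGroup.mk' N b) := by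
    intro a ha b hb
    show QuotientGroup.mk' N a * QuotientGroup.mk' N b =
      QuotientGroup.mk' N b * QuotientGroup.mk' N a
    rw [← commutatorElement_eq_one_iff_mul_comm, ← map_commutatorElement]
    apply (QuotientGroup.eq_one_iff _).mpr
    rw [hN]
    apply Subgroup.subset_normalClosure
    rw [hS]
    exact ⟨a, ha, b, hb, rfl⟩
  have hπA : ∀ a ∈ A, ∀ a' ∈ A,
      Commute (QuotientGroup.mk' N a) (QuotientGroup.mk' N a') := by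
    intro a ha a' ha'
    show QuotientGroup.mk' N a * QuotientGroup.mk' N a' =
      QuotientGroup.mk' N a' * QuotientGroup.mk' N a
    rw [← map_mul, hA a ha a' ha', map_mul]
  have hπB : ∀ b ∈ B, ∀ b' ∈ B,
      Commute (QuotientGroup.mk' N b) (QuotientGroup.mk' N b') := by
    intro b hb b' hb'
    show QuotientGroup.mk' N b * QuotientGroup.mk' N b' =
      QuotientGroup.mk' N b' * QuotientGroup.mk' N b
    rw [← map_mul, hB b hb b' hb', map_mul]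
  have hQ : ∀ x y : G ⧸ N, x * y = y * x := by
    intro x y
    obtain ⟨g₁, rfl⟩ := QuotientGroup.mk'_surjective N x
    obtain ⟨g₂, rfl⟩ := QuotientGroup.mk'_surjective N y
    obtain ⟨a₁, ha₁, b₁, hb₁, rfl⟩ := hAB g₁
    obtain ⟨a₂, ha₂, b₂, hb₂, rfl⟩ := hAB g₂
    rw [map_mul, map_mul]
    exact ((hπA a₁ ha₁ a₂ ha₂).mul_right (hπ a₁ ha₁ b₂ hb₂)).mul_left
      (((hπ a₂ ha₂ b₁ hb₁).symm).mul_right (hπB b₁ hb₁ b₂ hb₂))
  haveI : Group.IsSolvable (G ⧸ N) := Group.isSolvable_of_comm hQ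
  exact Group.isSolvable_of_ker_le_range N.subtype (QuotientGroup.mk' N) (by simp)

end Cfsg.Agent.S0047
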