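import Cfsg.Statements.S0048
import Cfsg.Agent.Helper1.Hall
import Mathlib

set_option autoImplicit false
open Cfsg

namespace Cfsg.Agent.S0048

universe u

theorem aux : ∀ c : ℕ, ∀ (G : Type u) [Group G] [Finite G] [Group.IsSolvable G],
    Nat.card G = c → ∀ M : Subgroup G, IsCoatom M → IsPrimePow M.index := by
  intro c
  induction c using Nat.strongRecOn with | ind c ih => ?_
  intro G _ _ _ hc M hM
  haveI : Nontrivial G := by
    by_contra h
    rw [not_nontrivial_iff_subsingleton] at h
    exact hM.1 (Subsingleton.elim _ _)
  obtain ⟨N, p, k, hNn, hNc, hp, hk, hNcard⟩ := Cfsg.Agent.Helper1.minimal_normal_data (G := G)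
  haveI := hNn
  have hNne : N ≠ ⊥ := by
    rintro rfl
    rw [Subgroup.card_bot] at hNcard
    have := Nat.one_lt_pow hk.ne' hp.one_lt
    omega
  by_cases hNM : N ≤ M
  · have hlt : Nat.card (G ⧸ N) < c := hc ▸ Cfsg.Agent.S0001.card_quot_lt N hNne
    have hker : (QuotientGroup.mk' N).ker ≤ M := by rw [QuotientGroup.ker_mk']; exact hNM
    have hidx : (M.map (QuotientGroup.mk' N)).index = M.index :=
      Subgroup.index_map_eq _ (QuotientGroup.mk'_surjective N) hker
    have hcomap : (M.map (QuotientGroup.mk' N)).comap (QuotientGroup.mk' N) = M := by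
      rw [Subgroup.comap_map_eq, QuotientGroup.ker_mk']; exact sup_eq_left.mpr hNM
    have hco : IsCoatom (M.map (QuotientGroup.mk' N)) := by
      refine ⟨?_, fun K' hK' => ?_⟩
      · intro h
        apply hM.1
        rw [← Subgroup.index_eq_one, ← hidx, h, Subgroup.index_top]
      · have h1 : (M.map (QuotientGroup.mk' N)).comap (QuotientGroup.mk' N) <
            K'.comap (QuotientGroup.mk' N) :=
          (Subgroup.comap_lt_comap_of_surjective (QuotientGroup.mk'_surjective N)).mpr hK'
        rw [hcomap] at h1
        have h2 := hM.2 _ h1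
        exact Subgroup.comap_injective (QuotientGroup.mk'_surjective N)
          (h2.trans (Subgroup.comap_top _).symm)
    rw [← hidx]
    exact ih _ hlt (G ⧸ N) rfl _ hco
  · have hMN : M ⊔ N = ⊤ := hM.2 _ (lt_of_le_of_ne le_sup_left
      (fun h => hNM (by rw [h]; exact le_sup_right)))
    have h1 : M.index * Nat.card M = Nat.card G := Subgroup.index_mul_card M
    have h2 : N.index * Nat.card N = Nat.card G := Subgroup.index_mul_card N
    have h3 : N.index = N.relIndex M := by
      rw [← Subgroup.relIndex_top_right N, ← hMN, Subgroup.relIndex_sup_right]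
    have h4 : N.relIndex M * Nat.card (N.subgroupOf M) = Nat.card M :=
      Subgroup.index_mul_card (N.subgroupOf M)
    have h5 : N.relIndex M * (M.index * Nat.card (N.subgroupOf M)) =
        N.relIndex M * Nat.card N := by
      calc N.relIndex M * (M.index * Nat.card (N.subgroupOf M))
          = M.index * (N.relIndex M * Nat.card (N.subgroupOf M)) := by ring
        _ = M.index * Nat.card M := by rw [h4]
        _ = Nat.card G := h1
        _ = N.relIndex M * Nat.card N := by rw [← h3, h2]
    have hpos : 0 < N.relIndex M :=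
      Nat.pos_of_ne_zero (by rw [← h3]; exact Subgroup.index_ne_zero_of_finite)
    have h6 : M.index * Nat.card (N.subgroupOf M) = Nat.card N :=
      Nat.eq_of_mul_eq_mul_left hpos h5
    have hdvd : M.index ∣ p ^ k := by rw [← hNcard, ← h6]; exact dvd_mul_right _ _
    obtain ⟨j, hj, hidx⟩ := (Nat.dvd_prime_pow hp).mp hdvd
    have hj0 : j ≠ 0 := by
      rintro rfl
      rw [pow_zero, Subgroup.index_eq_one] at hidx
      exact hM.1 hidx
    exact ⟨p, j, hp.prime, Nat.pos_of_ne_zero hj0, hidx.symm⟩

/-- In a finite solvable group every maximal subgroup has index a prime power. -/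
theorem result {G : Type*} [Group G] [Finite G] [Group.IsSolvable G]
    (M : Subgroup G) (hM : IsCoatom M) : IsPrimePow M.index := by
  exact aux _ G rfl M hM

end Cfsg.Agent.S0048
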