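import Cfsg.Statements.S0049
import Mathlib

set_option autoImplicit false
open Cfsg

namespace Cfsg.Agent.S0049

/-- A prime divisor of the order of a finite group also divides the index of the Frattini subgroup. -/
theorem result {G : Type*} [Group G] [Finite G] (p : ℕ) (hp : p.Prime) (hdvd : p ∣ Nat.card G) :
    p ∣ (frattini G).index := by
  haveI := Fact.mk hp
  by_contra hnd
  obtain ⟨Q⟩ := (inferInstance : Nonempty (Sylow p (frattini G)))
  have hnorm : ((Q : Subgroup (frattini G)).map (frattini G).subtype).Normal := by
    have h1 := Sylow.normalizer_sup_eq_top Q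
    have h2 := frattini_nongenerating h1
    exact Subgroup.normalizer_eq_top_iff.mp h2
  have hpg : IsPGroup p ((Q : Subgroup (frattini G)).map (frattini G).subtype) :=
    Q.isPGroup'.map _
  have hidx : ¬ p ∣ ((Q : Subgroup (frattini G)).map (frattini G).subtype).index := by
    rw [Subgroup.index_map_subtype]
    exact Nat.Prime.not_dvd_mul hp Q.not_dvd_index hnd
  obtain ⟨k, hk⟩ := IsPGroup.iff_card.mp hpg
  have hcop : (Nat.card ((Q : Subgroup (frattini G)).map (frattini G).subtype)).Coprime
      ((Q : Subgroup (frattini G)).map (frattini G).subtype).index := by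
    rw [hk]
    exact Nat.Coprime.pow_left k ((Nat.Prime.coprime_iff_not_dvd hp).mpr hidx)
  obtain ⟨H, hH⟩ := Subgroup.exists_right_complement'_of_coprime hcop
  have hle : (Q : Subgroup (frattini G)).map (frattini G).subtype ≤ frattini G :=
    Subgroup.map_subtype_le _
  have h1 : H ⊔ frattini G = ⊤ := by
    rw [eq_top_iff, ← hH.sup_eq_top]
    exact sup_le (hle.trans le_sup_right) le_sup_left
  have h2 : H = ⊤ := frattini_nongenerating h1
  have h3 : (Q : Subgroup (frattini G)).map (frattini G).subtype = ⊥ := by
    have := hH.disjoint.eq_bot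
    rwa [h2, inf_top_eq] at this
  apply hidx
  rw [h3, Subgroup.index_bot]
  exact hdvd

end Cfsg.Agent.S0049
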