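import Cfsg.Statements.S0050
import Cfsg.Agent.Helper1.Hall
import Mathlib

set_option autoImplicit false
open Cfsg

namespace Cfsg.Agent.S0050

/-- Frattini argument for Hall subgroups: if L is a solvable normal subgroup and H a subgroup of L of order coprime to its index in L, then L together with the normaliser of H generates the whole group. -/
theorem result {G : Type*} [Group G] [Finite G] (L : Subgroup G) [L.Normal] (hL : Group.IsSolvable L)
    (H : Subgroup G) (hHL : H ≤ L) (hHall : (Nat.card H).Coprime (H.relIndex L)) :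
    L ⊔ Subgroup.normalizer (H : Set G) = ⊤ := by
  rw [eq_top_iff]
  intro g _
  haveI : Group.IsSolvable L := hL
  have hLn : L.Normal := inferInstance
  obtain ⟨H', hH'⟩ : ∃ H' : Subgroup L, H' = H.subgroupOf L := ⟨_, rfl⟩
  obtain ⟨K', hK'⟩ : ∃ K' : Subgroup L,
      K' = (H.map (MulAut.conj g).toMonoidHom).subgroupOf L := ⟨_, rfl⟩
  have hKL : H.map (MulAut.conj g).toMonoidHom ≤ L := by
    rintro y ⟨x, hx, rfl⟩
    exact hLn.conj_mem x (hHL hx) g
  have hcH : Nat.card H' = Nat.card H := by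
    rw [hH']; exact Nat.card_congr (Subgroup.subgroupOfEquivOfLe hHL).toEquiv
  have hcK : Nat.card K' = Nat.card H := by
    rw [hK', Nat.card_congr (Subgroup.subgroupOfEquivOfLe hKL).toEquiv,
      Subgroup.card_map_of_injective (MulAut.conj g).injective]
  have hidx : H'.index = H.relIndex L := by rw [hH']; rfl
  have hcardL : Nat.card L = Nat.card H' * H'.index := (Subgroup.card_mul_index H').symm
  have hcop : (Nat.card H').Coprime H'.index := by rw [hcH, hidx]; exact hHall
  obtain ⟨l₀, hl₀⟩ := (Cfsg.Agent.Helper1.hall_aux _ L rfl _ _ hcardL hcop).2 H' K' rfl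
    (by rw [hcK, ← hcH]; exact hcop)
  have hconj := Cfsg.Agent.S0001.conjTo_of_smul
    (Cfsg.Agent.Helper1.conj_of_subConj l₀ H' K' hl₀ (by rw [hcH, hcK]))
  have hw : (l₀ : G)⁻¹ * g ∈ Subgroup.normalizer (H : Set G) := by
    rw [Subgroup.mem_normalizer_iff]
    intro h
    have e : (l₀ : G)⁻¹ * g * h * ((l₀ : G)⁻¹ * g)⁻¹ = (l₀ : G)⁻¹ * (g * h * g⁻¹) * l₀ := by
      group
    rw [e]
    constructor
    · intro hh
      have hy : g * h * g⁻¹ ∈ L := hLn.conj_mem h (hHL hh) g
      have h1 : (⟨g * h * g⁻¹, hy⟩ : L) ∈ K' := by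
        rw [hK', Subgroup.mem_subgroupOf]
        exact ⟨h, hh, rfl⟩
      have h2 := (hconj _).1 h1
      rw [hH', Subgroup.mem_subgroupOf] at h2
      simpa using h2
    · intro hh
      have hy : g * h * g⁻¹ ∈ L := by
        have h3 : (l₀ : G) * ((l₀ : G)⁻¹ * (g * h * g⁻¹) * l₀) * (l₀ : G)⁻¹ ∈ L :=
          L.mul_mem (L.mul_mem l₀.2 (hHL hh)) (L.inv_mem l₀.2)
        simpa [mul_assoc] using h3
      have h1 : (⟨g * h * g⁻¹, hy⟩ : L) ∈ K' := by
        apply (hconj _).2
        rw [hH', Subgroup.mem_subgroupOf]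
        simpa using hh
      rw [hK', Subgroup.mem_subgroupOf] at h1
      obtain ⟨h', hh', heq⟩ := h1
      have : h' = h := by
        have h4 : g * h' * g⁻¹ = g * h * g⁻¹ := heq
        simpa using h4
      rw [← this]; exact hh'
  have : g = (l₀ : G) * ((l₀ : G)⁻¹ * g) := by group
  rw [this]
  exact Subgroup.mul_mem_sup l₀.2 hw

end Cfsg.Agent.S0050
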