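import Cfsg.Statements.S0051
import Mathlib

set_option autoImplicit false
open Cfsg

namespace Cfsg.Agent.S0051

open scoped IsMulCommutative in
/-- Gaschütz's Theorem, existence: an abelian normal subgroup K that is complemented inside a subgroup U ≥ K whose index is coprime to the order of K is complemented in the whole group. -/
theorem result {G : Type*} [Group G] [Finite G] (K U : Subgroup G) [K.Normal] [IsMulCommutative K]
    (hKU : K ≤ U) (hcop : (Nat.card K).Coprime U.index)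
    (A : Subgroup G) (hAU : A ≤ U) (hAK : A ⊓ K = ⊥) (hKA : K ⊔ A = U) :
    ∃ H : Subgroup G, Subgroup.IsComplement' K H := by
  classical
  haveI : Fintype (G ⧸ U) := Fintype.ofFinite _
  let cj : G → (K →* K) := fun x => (MulAut.conjNormal x : MulAut K).toMonoidHom
  have hcj : ∀ (x : G) (k : K), ((cj x k : K) : G) = x * k * x⁻¹ := fun x k => rfl
  let s₀ : G ⧸ U → G := Quotient.out
  have hs₀ : ∀ q : G ⧸ U, ((s₀ q : G) : G ⧸ U) = q := fun q => QuotientGroup.out_eq' q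
  have hex : ∀ (x : G) (q : G ⧸ U), ∃ c : K, ∃ a : A,
      x * s₀ (x⁻¹ • q) = (c : G) * s₀ q * (a : G) := by
    intro x q
    have h1 : ((x * s₀ (x⁻¹ • q) : G) : G ⧸ U) = ((s₀ q : G) : G ⧸ U) := by
      rw [hs₀ q]
      have h0 : ((x * s₀ (x⁻¹ • q) : G) : G ⧸ U) = x • ((s₀ (x⁻¹ • q) : G) : G ⧸ U) := rfl
      rw [h0, hs₀, smul_inv_smul]
    have h2 : (s₀ q)⁻¹ * (x * s₀ (x⁻¹ • q)) ∈ U := QuotientGroup.eq.mp h1.symm
    have h3 : (s₀ q)⁻¹ * (x * s₀ (x⁻¹ • q)) ∈ ((K ⊔ A : Subgroup G) : Set G) := by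
      rw [hKA]; exact h2
    rw [Subgroup.normal_mul] at h3
    obtain ⟨k, hk, a, ha, hka⟩ := Set.mem_mul.mp h3
    refine ⟨⟨s₀ q * k * (s₀ q)⁻¹, ‹K.Normal›.conj_mem k hk (s₀ q)⟩, ⟨a, ha⟩, ?_⟩
    show x * s₀ (x⁻¹ • q) = s₀ q * k * (s₀ q)⁻¹ * s₀ q * a
    have h4 : x * s₀ (x⁻¹ • q) = s₀ q * (k * a) := by rw [hka]; group
    rw [h4]; group
  choose c a hca using hex
  have huniq : ∀ (g : G) (c₁ c₂ : K) (a₁ a₂ : A),
      (c₁ : G) * g * a₁ = c₂ * g * a₂ → c₁ = c₂ := by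
    intro g c₁ c₂ a₁ a₂ h
    have h1 : g⁻¹ * ((c₂ : G)⁻¹ * c₁) * g = (a₂ : G) * (a₁ : G)⁻¹ := by
      have h0 : (c₂ : G)⁻¹ * c₁ = g * a₂ * (a₁ : G)⁻¹ * g⁻¹ := by
        calc (c₂ : G)⁻¹ * c₁ = (c₂ : G)⁻¹ * ((c₁ : G) * g * a₁) * (a₁ : G)⁻¹ * g⁻¹ := by group
          _ = (c₂ : G)⁻¹ * ((c₂ : G) * g * a₂) * (a₁ : G)⁻¹ * g⁻¹ := by rw [h]
          _ = g * a₂ * (a₁ : G)⁻¹ * g⁻¹ := by group
      rw [h0]; group
    have h2 : (a₂ : G) * (a₁ : G)⁻¹ ∈ A ⊓ K := by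
      refine Subgroup.mem_inf.mpr ⟨A.mul_mem a₂.2 (A.inv_mem a₁.2), ?_⟩
      rw [← h1]
      have h3 : (c₂ : G)⁻¹ * c₁ ∈ K := K.mul_mem (K.inv_mem c₂.2) c₁.2
      have h4 := ‹K.Normal›.conj_mem _ h3 g⁻¹
      rw [inv_inv] at h4
      exact h4
    rw [hAK, Subgroup.mem_bot] at h2
    have h5 : (a₂ : G) = a₁ := mul_inv_eq_one.mp h2
    rw [h5] at h
    exact Subtype.ext (mul_right_cancel (mul_right_cancel h))
  let δ : G → K := fun x => ∏ q : G ⧸ U, c x q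
  have hckey : ∀ (x y : G) (q : G ⧸ U), c (x * y) q = cj x (c y (x⁻¹ • q)) * c x q := by
    intro x y q
    apply huniq (s₀ q) _ _ (a (x * y) q) (a x q * a y (x⁻¹ • q))
    rw [← hca (x * y) q]
    have e1 : (x * y)⁻¹ • q = y⁻¹ • x⁻¹ • q := by rw [mul_inv_rev, mul_smul]
    rw [e1]
    have e2 := hca y (x⁻¹ • q)
    have e3 := hca x q
    rw [Subgroup.coe_mul, Subgroup.coe_mul, hcj]
    calc x * y * s₀ (y⁻¹ • x⁻¹ • q) = x * (y * s₀ (y⁻¹ • x⁻¹ • q)) := by rw [mul_assoc]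
      _ = x * ((c y (x⁻¹ • q) : G) * s₀ (x⁻¹ • q) * (a y (x⁻¹ • q) : G)) := by rw [e2]
      _ = x * (c y (x⁻¹ • q) : G) * x⁻¹ * (x * s₀ (x⁻¹ • q)) * (a y (x⁻¹ • q) : G) := by group
      _ = x * (c y (x⁻¹ • q) : G) * x⁻¹ * ((c x q : G) * s₀ q * (a x q : G))
            * (a y (x⁻¹ • q) : G) := by rw [e3]
      _ = x * (c y (x⁻¹ • q) : G) * x⁻¹ * (c x q : G) * s₀ q
            * ((a x q : G) * (a y (x⁻¹ • q) : G)) := by group
  have hcoc : ∀ x y : G, δ (x * y) = cj x (δ y) * δ x := by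
    intro x y
    show ∏ q : G ⧸ U, c (x * y) q = cj x (∏ q : G ⧸ U, c y q) * ∏ q : G ⧸ U, c x q
    rw [map_prod, ← Equiv.prod_comp (MulAction.toPerm x⁻¹) (fun q => cj x (c y q)),
      ← Finset.prod_mul_distrib]
    apply Finset.prod_congr rfl
    intro q _
    exact hckey x y q
  have hsmulK : ∀ (k : K) (q : G ⧸ U), (k : G)⁻¹ • q = q := by
    intro k q
    obtain ⟨g, rfl⟩ := QuotientGroup.mk_surjective q
    show (((k : G)⁻¹ * g : G) : G ⧸ U) = (g : G ⧸ U)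
    apply QuotientGroup.eq.mpr
    have h1 : ((k : G)⁻¹ * g)⁻¹ * g = g⁻¹ * k * g⁻¹⁻¹ := by group
    rw [h1]
    exact hKU (‹K.Normal›.conj_mem _ k.2 g⁻¹)
  have hcK : ∀ (k : K) (q : G ⧸ U), c (k : G) q = k := by
    intro k q
    apply huniq (s₀ q) _ _ (a (k : G) q) 1
    rw [← hca (k : G) q, hsmulK k q]
    simp
  have hδK : ∀ k : K, δ (k : G) = k ^ U.index := by
    intro k
    show ∏ q : G ⧸ U, c (k : G) q = k ^ U.index
    rw [Finset.prod_congr rfl (fun q _ => hcK k q), Finset.prod_const, Finset.card_univ,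
      Subgroup.index_eq_card, Nat.card_eq_fintype_card]
  have hδ1 : δ 1 = 1 := by
    have h0 := hδK 1
    simpa using h0
  have hcjK : ∀ (k : K) (z : K), cj (k : G) z = z := by
    intro k z
    apply Subtype.ext
    rw [hcj]
    have h0 := congrArg Subtype.val (mul_comm' k z)
    rw [Subgroup.coe_mul, Subgroup.coe_mul] at h0
    rw [h0, mul_inv_cancel_right]
  let H : Subgroup G :=
    { carrier := {x | δ x = 1}
      one_mem' := hδ1
      mul_mem' := by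
        intro x y hx hy
        show δ (x * y) = 1
        rw [hcoc, show δ y = 1 from hy, show δ x = 1 from hx, map_one, mul_one]
      inv_mem' := by
        intro x hx
        show δ x⁻¹ = 1
        have h1 := hcoc x x⁻¹
        rw [mul_inv_cancel, hδ1, show δ x = 1 from hx, mul_one] at h1
        have h2 : cj x (δ x⁻¹) = cj x 1 := by rw [← h1, map_one]
        exact (MulAut.conjNormal x : MulAut K).injective h2 }
  refine ⟨H, ?_⟩
  apply Subgroup.isComplement'_of_disjoint_and_mul_eq_univ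
  · rw [Subgroup.disjoint_def]
    intro k hkK hkH
    have h2 : (⟨k, hkK⟩ : K) ^ U.index = 1 := by
      rw [← hδK ⟨k, hkK⟩]; exact hkH
    have h3 : orderOf (⟨k, hkK⟩ : K) = 1 :=
      (Nat.Coprime.coprime_dvd_left (orderOf_dvd_natCard _) hcop).eq_one_of_dvd
        (orderOf_dvd_of_pow_eq_one h2)
    exact congrArg Subtype.val (orderOf_eq_one_iff.mp h3)
  · rw [Set.eq_univ_iff_forall]
    intro g
    obtain ⟨k, hk⟩ := (powCoprime hcop).surjective (δ g)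
    have hk' : k ^ U.index = δ g := hk
    refine Set.mem_mul.mpr ⟨(k : G), k.2, (k : G)⁻¹ * g, ?_, by group⟩
    show δ ((k : G)⁻¹ * g) = 1
    have h1 : δ ((k⁻¹ : K) : G) = (k⁻¹) ^ U.index := hδK k⁻¹
    rw [← Subgroup.coe_inv, hcoc, hcjK, h1, ← hk', inv_pow, mul_inv_cancel]

end Cfsg.Agent.S0051
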