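import Cfsg.Statements.S0052
import Mathlib

set_option autoImplicit false
open Pointwise
open Cfsg

namespace Cfsg.Agent.S0052

open scoped IsMulCommutative in
/-- Gaschütz's Theorem, conjugacy: for an abelian normal subgroup K ≤ U with the order of K coprime to the index of U, two complements of K in G having the same intersection with U are conjugate. -/
theorem result {G : Type*} [Group G] [Finite G] (K U : Subgroup G) [K.Normal] [IsMulCommutative K]
    (hKU : K ≤ U) (hcop : (Nat.card K).Coprime U.index)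
    (H₀ H₁ : Subgroup G) (h₀ : Subgroup.IsComplement' K H₀) (h₁ : Subgroup.IsComplement' K H₁) (hU : H₀ ⊓ U = H₁ ⊓ U) :
    ∃ g : G, MulAut.conj g • H₀ = H₁ := by
  classical
  haveI : Fintype (G ⧸ U) := Fintype.ofFinite _
  let cj : G → (K →* K) := fun x => (MulAut.conjNormal x : MulAut K).toMonoidHom
  have hcj : ∀ (x : G) (k : K), ((cj x k : K) : G) = x * k * x⁻¹ := fun x k => rfl
  have hexγ : ∀ g : G, ∃ k : K, (k : G) * g ∈ H₁ := by
    intro g
    obtain ⟨⟨k', h'⟩, hkh⟩ := h₁.2 g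
    have hkh' : (k' : G) * (h' : G) = g := hkh
    refine ⟨k'⁻¹, ?_⟩
    rw [← hkh', Subgroup.coe_inv, inv_mul_cancel_left]
    exact h'.2
  choose γ hγ using hexγ
  have hdisj₁ : ∀ k ∈ K, k ∈ H₁ → k = 1 := by
    intro k hk hk'
    exact Subgroup.disjoint_def.mp h₁.disjoint hk hk'
  have hγuniq : ∀ (g : G) (k : K), (k : G) * g ∈ H₁ → k = γ g := by
    intro g k hk
    have h1 : (k : G) * g * ((γ g : G) * g)⁻¹ ∈ H₁ := H₁.mul_mem hk (H₁.inv_mem (hγ g))
    have h2 : (k : G) * g * ((γ g : G) * g)⁻¹ = ((k * (γ g)⁻¹ : K) : G) := by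
      rw [Subgroup.coe_mul, Subgroup.coe_inv]; group
    rw [h2] at h1
    have h3 := hdisj₁ _ (k * (γ g)⁻¹).2 h1
    have h4 : k * (γ g)⁻¹ = 1 := Subtype.ext h3
    exact mul_inv_eq_one.mp h4
  have hγmul : ∀ g g' : G, γ (g * g') = γ g * cj g (γ g') := by
    intro g g'
    symm
    apply hγuniq
    have h1 := H₁.mul_mem (hγ g) (hγ g')
    have h2 : ((γ g * cj g (γ g') : K) : G) * (g * g') = (γ g : G) * g * ((γ g' : G) * g') := by
      rw [Subgroup.coe_mul, hcj]; group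
    rw [h2]; exact h1
  have hγ1 : ∀ g ∈ H₁, γ g = 1 := by
    intro g hg
    symm
    apply hγuniq
    rw [Subgroup.coe_one, one_mul]; exact hg
  have hexs : ∀ q : G ⧸ U, ∃ h : H₀, ((h : G) : G ⧸ U) = q := by
    intro q
    obtain ⟨g, rfl⟩ := QuotientGroup.mk_surjective q
    obtain ⟨⟨k', h'⟩, hkh⟩ := h₀.2 g⁻¹
    have hkh' : (k' : G) * (h' : G) = g⁻¹ := hkh
    refine ⟨h'⁻¹, ?_⟩
    apply QuotientGroup.eq.mpr
    have h1 : (((h'⁻¹ : H₀) : G))⁻¹ * g = ((k'⁻¹ : K) : G) := by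
      rw [Subgroup.coe_inv, Subgroup.coe_inv, inv_inv]
      have h0 : g = ((k' : G) * (h' : G))⁻¹ := by rw [hkh', inv_inv]
      rw [h0]; group
    rw [h1]
    exact hKU (k'⁻¹).2
  choose s hs using hexs
  let z : K := ∏ q : G ⧸ U, γ (s q : G)
  have hstep : ∀ h : G, h ∈ H₀ → ∀ q : G ⧸ U, γ (h * (s q : G)) = γ (s (h • q) : G) := by
    intro h hh q
    have hb1 : ((s (h • q) : G))⁻¹ * (h * (s q : G)) ∈ U := by
      apply QuotientGroup.eq.mp
      rw [hs]
      have h0 : (((h * (s q : G) : G)) : G ⧸ U) = h • (((s q : G)) : G ⧸ U) := rfl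
      rw [h0, hs]
    have hb2 : ((s (h • q) : G))⁻¹ * (h * (s q : G)) ∈ H₀ :=
      H₀.mul_mem (H₀.inv_mem (s _).2) (H₀.mul_mem hh (s q).2)
    have hb3 : ((s (h • q) : G))⁻¹ * (h * (s q : G)) ∈ H₁ := by
      have h0 : ((s (h • q) : G))⁻¹ * (h * (s q : G)) ∈ H₀ ⊓ U :=
        Subgroup.mem_inf.mpr ⟨hb2, hb1⟩
      rw [hU] at h0
      exact (Subgroup.mem_inf.mp h0).1
    have e : h * (s q : G) = (s (h • q) : G) * (((s (h • q) : G))⁻¹ * (h * (s q : G))) := by
      group
    rw [e, hγmul, hγ1 _ hb3, map_one, mul_one]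
  have hz : ∀ h : G, h ∈ H₀ → z = (γ h) ^ U.index * cj h z := by
    intro h hh
    have h1 : ∏ q : G ⧸ U, γ (s (h • q) : G) = z :=
      Equiv.prod_comp (MulAction.toPerm h) (fun q => γ (s q : G))
    have h2 : ∏ q : G ⧸ U, γ (h * (s q : G)) = (γ h) ^ U.index * cj h z := by
      have h3 : cj h z = ∏ q : G ⧸ U, cj h (γ (s q : G)) := map_prod (cj h) _ _
      rw [h3, Finset.prod_congr rfl (fun q _ => hγmul h (s q : G)), Finset.prod_mul_distrib,
        Finset.prod_const, Finset.card_univ, Subgroup.index_eq_card, Nat.card_eq_fintype_card]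
    calc z = ∏ q : G ⧸ U, γ (s (h • q) : G) := h1.symm
      _ = ∏ q : G ⧸ U, γ (h * (s q : G)) :=
          (Finset.prod_congr rfl (fun q _ => hstep h hh q)).symm
      _ = _ := h2
  obtain ⟨w, hw⟩ := (powCoprime hcop).surjective z
  have hw' : w ^ U.index = z := hw
  have hγw : ∀ h : G, h ∈ H₀ → γ h = w * (cj h w)⁻¹ := by
    intro h hh
    have h1 := hz h hh
    rw [← hw', map_pow] at h1
    have h2 : (γ h) ^ U.index = (w * (cj h w)⁻¹) ^ U.index := by
      rw [mul_pow, inv_pow, h1, mul_inv_cancel_right]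
    exact (powCoprime hcop).injective h2
  refine ⟨(w : G), ?_⟩
  have hle : MulAut.conj (w : G) • H₀ ≤ H₁ := by
    intro x hx
    obtain ⟨h, hh, rfl⟩ := (Subgroup.mem_smul_pointwise_iff_exists _ _ _).mp hx
    have h1 := hγ h
    rw [hγw h hh] at h1
    have e : ((w * (cj h w)⁻¹ : K) : G) * h = (w : G) * h * (w : G)⁻¹ := by
      rw [Subgroup.coe_mul, Subgroup.coe_inv, hcj]; group
    rw [e] at h1
    exact h1
  have hcard : Nat.card (MulAut.conj (w : G) • H₀ : Subgroup G) = Nat.card H₀ := by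
    rw [Subgroup.pointwise_smul_def]
    exact Subgroup.card_map_of_injective (MulAction.injective (MulAut.conj (w : G)))
  have hcard01 : Nat.card H₀ = Nat.card H₁ :=
    Nat.eq_of_mul_eq_mul_left Nat.card_pos (h₀.card_mul_card.trans h₁.card_mul_card.symm)
  exact Subgroup.eq_of_le_of_card_ge hle (by rw [hcard, hcard01])

end Cfsg.Agent.S0052
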