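import Cfsg.Statements.S0053
import Mathlib

set_option autoImplicit false
open Cfsg

namespace Cfsg.Agent.S0053

/-- An abelian minimal normal subgroup N of a finite group is complemented exactly when N is not inside the Frattini subgroup. -/
theorem result {G : Type*} [Group G] [Finite G]
    (N : Subgroup G) [N.Normal] [IsMulCommutative N] (hN : N ≠ ⊥)
    (hmin : ∀ M : Subgroup G, M.Normal → M ≤ N → M = ⊥ ∨ M = N) :
    (∃ H : Subgroup G, Subgroup.IsComplement' N H) ↔ ¬ N ≤ frattini G := by
  constructor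
  · rintro ⟨H, hH⟩ hle
    have h1 : H ⊔ frattini G = ⊤ := by
      rw [eq_top_iff, ← hH.sup_eq_top]
      exact sup_le (hle.trans le_sup_right) le_sup_left
    have h2 : H = ⊤ := frattini_nongenerating h1
    apply hN
    have := hH.disjoint.eq_bot
    rwa [h2, inf_top_eq] at this
  · intro hnle
    have hex : ∃ M : Subgroup G, IsCoatom M ∧ ¬ N ≤ M := by
      by_contra hcon
      push Not at hcon
      apply hnle
      unfold frattini Order.radical
      exact le_iInf₂ fun M hM => hcon M hM
    obtain ⟨M, hM, hNM⟩ := hex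
    have hsup : N ⊔ M = ⊤ := by
      apply hM.2
      exact lt_of_le_of_ne le_sup_right (fun h => hNM (h ▸ le_sup_left))
    have hD : (N ⊓ M).Normal := by
      constructor
      intro x hx g
      obtain ⟨hxN, hxM⟩ := Subgroup.mem_inf.mp hx
      have hg : g ∈ ((N ⊔ M : Subgroup G) : Set G) := by rw [hsup]; exact Set.mem_univ g
      rw [Subgroup.normal_mul, Set.mem_mul] at hg
      obtain ⟨n, hn, m, hm, rfl⟩ := hg
      refine Subgroup.mem_inf.mpr ⟨‹N.Normal›.conj_mem x hxN _, ?_⟩
      have hy : m * x * m⁻¹ ∈ N := ‹N.Normal›.conj_mem x hxN m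
      have hcomm : n * (m * x * m⁻¹) = (m * x * m⁻¹) * n := by
        have := (IsMulCommutative.is_comm (M := N)).comm ⟨n, hn⟩ ⟨m * x * m⁻¹, hy⟩
        exact congrArg Subtype.val this
      have : n * m * x * (n * m)⁻¹ = m * x * m⁻¹ := by
        calc n * m * x * (n * m)⁻¹ = n * (m * x * m⁻¹) * n⁻¹ := by group
          _ = (m * x * m⁻¹) * n * n⁻¹ := by rw [hcomm]
          _ = m * x * m⁻¹ := by group
      rw [this]
      exact M.mul_mem (M.mul_mem hm hxM) (M.inv_mem hm)
    rcases hmin (N ⊓ M) hD inf_le_left with h | h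
    · refine ⟨M, Subgroup.isComplement'_of_disjoint_and_mul_eq_univ (disjoint_iff.mpr h) ?_⟩
      rw [← Subgroup.normal_mul, hsup, Subgroup.coe_top]
    · exact absurd (inf_eq_left.mp h) hNM

end Cfsg.Agent.S0053
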