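import Cfsg.Statements.S0054
import Mathlib

set_option autoImplicit false
open Cfsg

namespace Cfsg.Agent.S0054

/-- A regular normal subgroup of a finite 2-transitive group is elementary abelian: it is commutative and all its elements have order dividing one prime. -/
theorem result {G : Type*} [Group G] [Finite G]
    {X : Type*} [Nonempty X] [MulAction G X] (h2 : MulAction.IsMultiplyPretransitive G X 2)
    (N : Subgroup G) [N.Normal] (htrans : MulAction.IsPretransitive N X) (hreg : ∀ x : X, MulAction.stabilizer N x = ⊥) :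
    IsMulCommutative N ∧ ∃ p : ℕ, p.Prime ∧ ∀ n ∈ N, n ^ p = 1 := by
  classical
  obtain ⟨x0⟩ := ‹Nonempty X›
  have hfix : ∀ n ∈ N, n • x0 = x0 → n = 1 := by
    intro n hn h
    have hmem : (⟨n, hn⟩ : N) ∈ MulAction.stabilizer N x0 := MulAction.mem_stabilizer_iff.mpr h
    rw [hreg x0, Subgroup.mem_bot] at hmem
    exact congrArg Subtype.val hmem
  have hconj : ∀ n ∈ N, ∀ m ∈ N, n ≠ 1 → m ≠ 1 → ∃ g : G, g * n * g⁻¹ = m := by
    intro n hn m hm hn1 hm1
    have h1 : x0 ≠ n • x0 := fun h => hn1 (hfix n hn h.symm)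
    have h3 : x0 ≠ m • x0 := fun h => hm1 (hfix m hm h.symm)
    obtain ⟨g, hg1, hg2⟩ := MulAction.is_two_pretransitive_iff.mp h2 h1 h3
    refine ⟨g, ?_⟩
    have hgi : g⁻¹ • x0 = x0 := by
      rw [inv_smul_eq_iff, hg1]
    have hmem : m⁻¹ * (g * n * g⁻¹) ∈ N :=
      N.mul_mem (N.inv_mem hm) (‹N.Normal›.conj_mem n hn g)
    have hst : (m⁻¹ * (g * n * g⁻¹)) • x0 = x0 := by
      rw [mul_smul, mul_smul, mul_smul, hgi, hg2, inv_smul_smul]
    have := hfix _ hmem hst
    exact (inv_mul_eq_one.mp this).symm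
  by_cases hN : N = ⊥
  · refine ⟨⟨⟨fun a b => ?_⟩⟩, 2, Nat.prime_two, ?_⟩
    · have ha : a = 1 := Subtype.ext (Subgroup.mem_bot.mp ((le_of_eq hN) a.2))
      rw [ha, one_mul, mul_one]
    · intro n hn
      rw [hN, Subgroup.mem_bot] at hn
      rw [hn, one_pow]
  · haveI : Nontrivial N := (Subgroup.nontrivial_iff_ne_bot N).mpr hN
    obtain ⟨p, hp, hpd⟩ := Nat.exists_prime_and_dvd (Finite.one_lt_card (α := N)).ne'
    haveI : Fact p.Prime := ⟨hp⟩
    obtain ⟨n1, hn1⟩ := exists_prime_orderOf_dvd_card' p hpd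
    have hn1ne : (n1 : G) ≠ 1 := by
      intro h
      have h' : n1 = 1 := Subtype.ext h
      rw [h', orderOf_one] at hn1
      exact hp.one_lt.ne hn1
    have hn1p : (n1 : G) ^ p = 1 := by
      have h' := pow_orderOf_eq_one n1
      rw [hn1] at h'
      have h'' := congrArg Subtype.val h'
      exact h''
    have hexp : ∀ m ∈ N, m ^ p = 1 := by
      intro m hm
      by_cases hm1 : m = 1
      · rw [hm1, one_pow]
      · obtain ⟨g, hg⟩ := hconj n1 n1.2 m hm hn1ne hm1
        rw [← hg, conj_pow, hn1p, mul_one, mul_inv_cancel]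
    have hpg : IsPGroup p N := by
      intro x
      refine ⟨1, ?_⟩
      rw [pow_one]
      exact Subtype.ext (hexp x x.2)
    haveI := hpg.center_nontrivial
    obtain ⟨z, hz⟩ := exists_ne (1 : Subgroup.center N)
    have hz1 : ((z : N) : G) ≠ 1 := by
      intro h
      exact hz (Subtype.ext (Subtype.ext h))
    have hzc : ∀ k : N, k * (z : N) = (z : N) * k := fun k => Subgroup.mem_center_iff.mp z.2 k
    refine ⟨⟨⟨fun a b => ?_⟩⟩, p, hp, hexp⟩
    by_cases hb1 : (b : G) = 1
    · have hb' : b = 1 := Subtype.ext hb1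
      rw [hb', one_mul, mul_one]
    · obtain ⟨g, hg⟩ := hconj ((z : N) : G) (z : N).2 (b : G) b.2 hz1 hb1
      apply Subtype.ext
      show (a : G) * (b : G) = (b : G) * (a : G)
      have hk : g⁻¹ * (a : G) * g ∈ N := by
        have := ‹N.Normal›.conj_mem (a : G) a.2 g⁻¹
        rwa [inv_inv] at this
      have h1 : g⁻¹ * (a : G) * g * ((z : N) : G) = ((z : N) : G) * (g⁻¹ * (a : G) * g) :=
        congrArg Subtype.val (hzc ⟨_, hk⟩)
      rw [← hg]
      calc (a : G) * (g * ((z : N) : G) * g⁻¹)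
          = g * (g⁻¹ * (a : G) * g * ((z : N) : G)) * g⁻¹ := by group
        _ = g * (((z : N) : G) * (g⁻¹ * (a : G) * g)) * g⁻¹ := by rw [h1]
        _ = g * ((z : N) : G) * g⁻¹ * (a : G) := by group

end Cfsg.Agent.S0054
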