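import Cfsg.Statements.S0057
import Cfsg.Agent.S0055
import Cfsg.Agent.S0023
import Cfsg.Agent.S0027
import Cfsg.Agent.Lead.Coprime
import Mathlib

set_option autoImplicit false
open Cfsg
open scoped commutatorElement

namespace Cfsg.Agent.S0057

/-- the natural map `X/(X∩C) → K/(K∩C)` on left cosets. -/
def cosetMap {G : Type*} [Group G] (X C K : Subgroup G) (hXK : X ≤ K) :
    X ⧸ C.subgroupOf X → K ⧸ C.subgroupOf K := fun q =>
  Quotient.liftOn' q (fun x => ((Subgroup.inclusion hXK x : K) : K ⧸ C.subgroupOf K))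
    (fun a b hab => QuotientGroup.eq.2 (by
      have h1 : ((a⁻¹ * b : X) : G) ∈ C :=
        Subgroup.mem_subgroupOf.1 (QuotientGroup.leftRel_apply.1 hab)
      exact Subgroup.mem_subgroupOf.2 h1))

theorem cosetMap_mk {G : Type*} [Group G] (X C K : Subgroup G) (hXK : X ≤ K) (x : X) :
    cosetMap X C K hXK (x : X ⧸ C.subgroupOf X)
      = ((Subgroup.inclusion hXK x : K) : K ⧸ C.subgroupOf K) := rfl

/-- If `K = X * C` elementwise then `|X : X ∩ C| = |K : K ∩ C|`. -/
theorem relIndex_of_factor {G : Type*} [Group G] (X C K : Subgroup G) (hXK : X ≤ K)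
    (hfac : ∀ k ∈ K, ∃ x ∈ X, ∃ c ∈ C, k = x * c) : (X ⊓ C).relIndex X = C.relIndex K := by
  rw [Subgroup.inf_relIndex_left]
  show Nat.card (X ⧸ C.subgroupOf X) = Nat.card (K ⧸ C.subgroupOf K)
  apply Nat.card_congr
  refine Equiv.ofBijective (cosetMap X C K hXK) ⟨?_, ?_⟩
  · intro q₁ q₂ h
    obtain ⟨a, rfl⟩ := QuotientGroup.mk_surjective q₁
    obtain ⟨b, rfl⟩ := QuotientGroup.mk_surjective q₂
    rw [cosetMap_mk, cosetMap_mk] at h
    have h1 : (((Subgroup.inclusion hXK a)⁻¹ * Subgroup.inclusion hXK b : K) : G) ∈ C :=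
      Subgroup.mem_subgroupOf.1 (QuotientGroup.eq.1 h)
    have h2 : ((a⁻¹ * b : X) : G) ∈ C := h1
    exact QuotientGroup.eq.2 (Subgroup.mem_subgroupOf.2 h2)
  · intro q
    obtain ⟨k, rfl⟩ := QuotientGroup.mk_surjective q
    obtain ⟨x, hx, c, hc, hk⟩ := hfac k k.2
    refine ⟨((⟨x, hx⟩ : X) : X ⧸ C.subgroupOf X), ?_⟩
    rw [cosetMap_mk, QuotientGroup.eq, Subgroup.mem_subgroupOf]
    show x⁻¹ * (k : G) ∈ C
    rw [hk, inv_mul_cancel_left]
    exact hc

/-- A Sylow `p`-subgroup is transitive on the cosets of a subgroup of index `p`. -/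
theorem sylow_factor {H : Type*} [Group H] [Finite H] (p : ℕ) [Fact p.Prime] (P : Sylow p H)
    (C : Subgroup H) (hC : C.index = p) :
    ∀ k : H, ∃ x ∈ (P : Subgroup H), ∃ c ∈ C, k = x * c := by
  have hp : p.Prime := Fact.out
  have hPC : ¬ ((P : Subgroup H) ≤ C) := by
    intro hle
    have h1 : C.index ∣ (P : Subgroup H).index := Subgroup.index_dvd_of_le hle
    rw [hC] at h1
    exact P.not_dvd_index h1
  obtain ⟨x₀, hx₀P, hx₀C⟩ := SetLike.not_le_iff_exists.1 hPC
  obtain ⟨n, hn⟩ := P.isPGroup'.card_orbit ((1 : H) : H ⧸ C)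
  have hle : Nat.card (MulAction.orbit (P : Subgroup H) ((1 : H) : H ⧸ C)) ≤ p :=
    (Nat.card_le_card_of_injective _ Subtype.val_injective).trans (le_of_eq hC)
  have hne1 : Nat.card (MulAction.orbit (P : Subgroup H) ((1 : H) : H ⧸ C)) ≠ 1 := by
    intro h1
    obtain ⟨hsub, -⟩ := Nat.card_eq_one_iff_unique.1 h1
    have h2 := @Subsingleton.elim _ hsub
      (⟨(⟨x₀, hx₀P⟩ : (P : Subgroup H)) • ((1 : H) : H ⧸ C), MulAction.mem_orbit _ _⟩ :
        MulAction.orbit (P : Subgroup H) ((1 : H) : H ⧸ C))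
      ⟨((1 : H) : H ⧸ C), MulAction.mem_orbit_self _⟩
    have h3 : ((x₀ * 1 : H) : H ⧸ C) = ((1 : H) : H ⧸ C) := congrArg Subtype.val h2
    rw [QuotientGroup.eq] at h3
    apply hx₀C
    have h4 := C.inv_mem h3
    simpa using h4
  have hcard : Nat.card (MulAction.orbit (P : Subgroup H) ((1 : H) : H ⧸ C)) = p := by
    rw [hn] at hle hne1 ⊢
    have hn0 : n ≠ 0 := by rintro rfl; exact hne1 (pow_zero p)
    exact Nat.le_antisymm hle (le_self_pow hp.one_lt.le hn0)
  have huniv : MulAction.orbit (P : Subgroup H) ((1 : H) : H ⧸ C) = Set.univ := by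
    apply Set.eq_of_subset_of_ncard_le (Set.subset_univ _)
    rw [Set.ncard_univ, ← Nat.card_coe_set_eq, hcard]
    exact le_of_eq hC
  intro k
  have hk : (k : H ⧸ C) ∈ MulAction.orbit (P : Subgroup H) ((1 : H) : H ⧸ C) := by
    rw [huniv]; exact Set.mem_univ _
  obtain ⟨x, hx⟩ := hk
  have hx' : (((x : H) * 1 : H) : H ⧸ C) = (k : H ⧸ C) := hx
  rw [mul_one, QuotientGroup.eq] at hx'
  exact ⟨x, x.2, (x : H)⁻¹ * k, hx', by group⟩

theorem pgroup_case {G : Type*} [Group G] [Finite G] (A K : Subgroup G)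
    (hAK : A ≤ Subgroup.normalizer (K : Set G)) (hcop : (Nat.card A).Coprime (Nat.card K))
    (p : ℕ) [Fact p.Prime] (hK : IsPGroup p K) (hKA : ⁅K, A⁆ = K)
    (hidx : (K ⊓ Subgroup.centralizer (A : Set G)).relIndex K = p) : Nat.card K = p := by
  have hp : p.Prime := Fact.out
  obtain ⟨C, hCdef⟩ : ∃ C : Subgroup G, C = K ⊓ Subgroup.centralizer (A : Set G) := ⟨_, rfl⟩
  rw [← hCdef] at hidx
  have hCK : C ≤ K := by rw [hCdef]; exact inf_le_left
  have hCA : C ≤ Subgroup.centralizer (A : Set G) := by rw [hCdef]; exact inf_le_right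
  obtain ⟨m, hm⟩ := IsPGroup.iff_card.1 hK
  have hm0 : m ≠ 0 := by
    rintro rfl
    rw [pow_zero] at hm
    have h1 : C.relIndex K ∣ Nat.card K := Subgroup.index_dvd_card (C.subgroupOf K)
    rw [hidx, hm] at h1
    exact hp.one_lt.ne' (Nat.dvd_one.1 h1)
  haveI hn : (C.subgroupOf K).Normal := by
    apply Subgroup.normal_of_index_eq_minFac_card
    rw [hm, Nat.Prime.pow_minFac hp hm0]
    exact hidx
  have hKC : K ≤ Subgroup.normalizer (C : Set G) :=
    (Subgroup.normal_subgroupOf_iff_le_normalizer hCK).1 hn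
  have hCKC : ⁅C, K⁆ ≤ C := Cfsg.Agent.S0026.comm_le K C hKC
  have h1 : ⁅⁅A, C⁆, K⁆ = ⊥ := by
    have h : ⁅A, C⁆ = ⊥ := by
      rw [Subgroup.commutator_comm (H₁ := A) (H₂ := C)]
      exact Subgroup.commutator_eq_bot_iff_le_centralizer.2 hCA
    rw [h, Subgroup.commutator_bot_left]
  have h2 : ⁅⁅C, K⁆, A⁆ = ⊥ :=
    Subgroup.commutator_eq_bot_iff_le_centralizer.2 (hCKC.trans hCA)
  have h3 : ⁅⁅K, A⁆, C⁆ = ⊥ := Subgroup.commutator_commutator_eq_bot_of_rotate h1 h2
  rw [hKA] at h3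
  have hKcent : K ≤ Subgroup.centralizer (C : Set G) :=
    Subgroup.commutator_eq_bot_iff_le_centralizer.1 h3
  haveI : IsCyclic (K ⧸ C.subgroupOf K) := isCyclic_of_prime_card (p := p) hidx
  haveI : IsMulCommutative K :=
    MonoidHom.isMulCommutative_of_isCyclic_of_ker_le_center (QuotientGroup.mk' (C.subgroupOf K)) (by
      rw [QuotientGroup.ker_mk']
      intro c hc
      rw [Subgroup.mem_center_iff]
      intro k
      apply Subtype.ext
      exact (Subgroup.mem_centralizer_iff.1 (hKcent k.2) c (Subgroup.mem_subgroupOf.1 hc)).symm)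
  have h55 := (Cfsg.Agent.S0055.result A K hAK hcop).1
  have e : (K ⊓ Subgroup.centralizer (A : Set G)) ⊓ K = K ⊓ Subgroup.centralizer (A : Set G) :=
    inf_eq_left.2 inf_le_left
  rw [hKA, e, ← hCdef] at h55
  rw [h55, Subgroup.relIndex_bot_left] at hidx
  exact hidx

theorem perfect_case {G : Type*} [Group G] [Finite G] (A K : Subgroup G)
    (hAK : A ≤ Subgroup.normalizer (K : Set G)) (hcop : (Nat.card A).Coprime (Nat.card K))
    (hsolv : Group.IsSolvable A ∨ Group.IsSolvable K)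
    (p : ℕ) [Fact p.Prime] (hKA : ⁅K, A⁆ = K)
    (hidx : (K ⊓ Subgroup.centralizer (A : Set G)).relIndex K = p) : Nat.card K = p := by
  obtain ⟨P, hP⟩ := Cfsg.Agent.S0023.result A K hAK hcop hsolv p
  have hfac := sylow_factor p P ((K ⊓ Subgroup.centralizer (A : Set G)).subgroupOf K) hidx
  have hle : ⁅K, A⁆ ≤ (P : Subgroup K).map K.subtype := by
    rw [Subgroup.commutator_le]
    intro k hk a ha
    obtain ⟨x, hx, c, hc, hkxc⟩ := hfac ⟨k, hk⟩
    have hcA : (c : G) ∈ Subgroup.centralizer (A : Set G) :=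
      (Subgroup.mem_inf.1 (Subgroup.mem_subgroupOf.1 hc)).2
    have hk' : k = (x : G) * (c : G) := congrArg Subtype.val hkxc
    have hca : (c : G) * a = a * (c : G) := (Subgroup.mem_centralizer_iff.1 hcA a ha).symm
    have e : ⁅k, a⁆ = ⁅(x : G), a⁆ := by
      rw [hk', commutatorElement_def, commutatorElement_def]
      have e1 : (x : G) * c * a * ((x : G) * c)⁻¹ * a⁻¹
          = x * (c * a) * (c : G)⁻¹ * (x : G)⁻¹ * a⁻¹ := by group
      rw [e1, hca]; group
    rw [e]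
    have hxP : (x : G) ∈ (P : Subgroup K).map K.subtype := Subgroup.mem_map_of_mem K.subtype hx
    exact Cfsg.Agent.S0026.comm_le A _ hP (Subgroup.commutator_mem_commutator hxP ha)
  rw [hKA] at hle
  have hPK : (P : Subgroup K).map K.subtype ≤ K := by
    intro z hz
    obtain ⟨y, -, rfl⟩ := Subgroup.mem_map.1 hz
    exact y.2
  have hcard : Nat.card K = Nat.card (P : Subgroup K) := by
    rw [← Subgroup.card_subtype K (P : Subgroup K)]
    exact congrArg (fun H : Subgroup G => Nat.card H) (le_antisymm hle hPK)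
  have hKp : IsPGroup p K := by
    apply IsPGroup.of_card (n := (Nat.card K).factorization p)
    exact hcard.trans P.card_eq_multiplicity
  exact pgroup_case A K hAK hcop p hKp hKA hidx

/-- Under coprime action, if the centraliser of A in K has prime index p in K then the commutator subgroup [K, A] has order exactly p. -/
theorem result {G : Type*} [Group G] [Finite G] (A K : Subgroup G) (hAK : A ≤ Subgroup.normalizer (K : Set G))
    (hcop : (Nat.card A).Coprime (Nat.card K)) (hsolv : Group.IsSolvable A ∨ Group.IsSolvable K)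
    (p : ℕ) (hp : p.Prime) (hidx : (K ⊓ Subgroup.centralizer (A : Set G)).relIndex K = p) :
    Nat.card (⁅K, A⁆ : Subgroup G) = p := by
  haveI : Fact p.Prime := ⟨hp⟩
  have hDK : ⁅K, A⁆ ≤ K := Cfsg.Agent.S0026.comm_le A K hAK
  have hAD : A ≤ Subgroup.normalizer ((⁅K, A⁆ : Subgroup G) : Set G) :=
    Subgroup.normalizer_commutator_ge_right K A
  have hcopD : (Nat.card A).Coprime (Nat.card (⁅K, A⁆ : Subgroup G)) :=
    Cfsg.Agent.Lead.coprime_of_le le_rfl hDK hcop
  have hsolvD : Group.IsSolvable A ∨ Group.IsSolvable (⁅K, A⁆ : Subgroup G) :=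
    hsolv.imp id (Cfsg.Agent.Lead.isSolvable_of_le hDK)
  have hDD : ⁅⁅K, A⁆, A⁆ = ⁅K, A⁆ := Cfsg.Agent.S0027.result A K hAK hcop hsolv
  have hidxD : (⁅K, A⁆ ⊓ Subgroup.centralizer (A : Set G)).relIndex ⁅K, A⁆ = p := by
    have hT := relIndex_of_factor ⁅K, A⁆ (K ⊓ Subgroup.centralizer (A : Set G)) K hDK
      (fun k hk => Cfsg.Agent.S0026.decomp A K hAK hcop hsolv k hk)
    have e : ⁅K, A⁆ ⊓ (K ⊓ Subgroup.centralizer (A : Set G))
        = ⁅K, A⁆ ⊓ Subgroup.centralizer (A : Set G) := by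
      rw [← inf_assoc, inf_eq_left.2 hDK]
    rw [e, hidx] at hT
    exact hT
  exact perfect_case A ⁅K, A⁆ hAD hcopD hsolvD p hDD hidxD

end Cfsg.Agent.S0057
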