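import Cfsg.Statements.S0059
import Cfsg.Agent.Lead.Coprime2
import Mathlib

set_option autoImplicit false
open Cfsg

namespace Cfsg.Agent.S0059

open Cfsg.Agent.S0001 Cfsg.Agent.Lead

/-- Let a finite group act on a set on which a normal subgroup K of coprime order and index is transitive, with K or the quotient solvable. Then any complement H of K has a fixed point, and any two H-fixed points are interchanged by an element of K centralising H. -/
theorem result {G : Type*} [Group G] [Finite G] {X : Type*} [Nonempty X] [MulAction G X]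
    (K H : Subgroup G) [K.Normal] (hc : Subgroup.IsComplement' K H) (hcop : (Nat.card K).Coprime K.index)
    (hsolv : Group.IsSolvable K ∨ Group.IsSolvable (G ⧸ K)) (htrans : MulAction.IsPretransitive K X) :
    (∃ x : X, ∀ h ∈ H, h • x = x) ∧
    ∀ x y : X, (∀ h ∈ H, h • x = x) → (∀ h ∈ H, h • y = y) → ∃ k ∈ K ⊓ Subgroup.centralizer (H : Set G), k • x = y := by
  have hKn : K.Normal := inferInstance
  have hHK : H ⊔ K = ⊤ := by rw [sup_comm]; exact hc.sup_eq_top
  have hcardH : Nat.card H = K.index := hc.symm.index_eq_card.symm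
  have hcop' : (Nat.card H).Coprime (Nat.card K) := by rw [hcardH]; exact hcop.symm
  have hdisj : H ⊓ K = ⊥ := inf_eq_bot_of_coprime' hcop'
  have hnorm : H ≤ Subgroup.normalizer (K : Set G) := by
    rw [Subgroup.normalizer_eq_top_iff.2 hKn]; exact le_top
  have hsolv' : Group.IsSolvable H ∨ Group.IsSolvable K := by
    rcases hsolv with hs | hs
    · exact Or.inr hs
    · left
      apply Group.isSolvable_of_isSolvable_injective (f := (QuotientGroup.mk' K).comp H.subtype)
      rw [injective_iff_map_eq_one]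
      intro x hx
      have h1 : (x : G) ∈ K := by simpa [QuotientGroup.eq_one_iff] using hx
      have h2 : (x : G) ∈ H ⊓ K := ⟨x.2, h1⟩
      rw [hdisj, Subgroup.mem_bot] at h2
      exact Subtype.ext h2
  constructor
  · obtain ⟨x₀⟩ := ‹Nonempty X›
    set Gx : Subgroup G := MulAction.stabilizer G x₀ with hGx
    let φ : Gx →* G ⧸ K := (QuotientGroup.mk' K).comp Gx.subtype
    have hker : φ.ker = K.subgroupOf Gx := by
      ext t
      rw [MonoidHom.mem_ker]
      show (QuotientGroup.mk (t : G) : G ⧸ K) = 1 ↔ t ∈ K.subgroupOf Gx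
      rw [QuotientGroup.eq_one_iff]
      rfl
    have hidx : (K.subgroupOf Gx).index ∣ K.index := by
      rw [← hker, Subgroup.index_ker, Subgroup.index_eq_card]
      exact Subgroup.card_subgroup_dvd_card _
    have hcopT : (Nat.card (K.subgroupOf Gx)).Coprime (K.subgroupOf Gx).index :=
      Nat.Coprime.coprime_dvd_left (card_subgroupOf_dvd K Gx)
        (Nat.Coprime.coprime_dvd_right hidx hcop)
    obtain ⟨B₁, hB₁⟩ := Subgroup.exists_right_complement'_of_coprime hcopT
    set B : Subgroup G := B₁.map Gx.subtype with hB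
    have hBGx : B ≤ Gx := Subgroup.map_subtype_le _
    have hcardB : Nat.card B = (K.subgroupOf Gx).index := by
      rw [hB, Subgroup.card_map_of_injective Gx.subtype_injective]
      exact hB₁.symm.index_eq_card.symm
    have hcB : (Nat.card B).Coprime (Nat.card K) := by
      rw [hcardB]; exact Nat.Coprime.coprime_dvd_left hidx hcop.symm
    have hGxBK : Gx ≤ B ⊔ K := by
      intro t ht
      have htop : (⟨t, ht⟩ : Gx) ∈ B₁ ⊔ K.subgroupOf Gx := by
        rw [sup_comm, hB₁.sup_eq_top]; trivial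
      obtain ⟨b, hb, n, hn, hbn⟩ := (mem_sup_normal B₁ (K.subgroupOf Gx) _).1 htop
      have e : t = (b : G) * (n : G) := congrArg Subtype.val hbn
      rw [e]
      exact Subgroup.mul_mem_sup ⟨b, hb, rfl⟩ (by simpa [Subgroup.mem_subgroupOf] using hn)
    have hBK : B ⊔ K = H ⊔ K := by
      rw [hHK, eq_top_iff]
      intro g _
      obtain ⟨k, hk⟩ := MulAction.exists_smul_eq K (g • x₀) x₀
      have h1 : (k : G) * g ∈ Gx := by
        rw [hGx, MulAction.mem_stabilizer_iff, mul_smul]; exact hk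
      have e : g = (k : G)⁻¹ * ((k : G) * g) := by group
      rw [e]
      exact Subgroup.mul_mem _ (Subgroup.mem_sup_right (K.inv_mem k.2)) (hGxBK h1)
    obtain ⟨n, hn, hnconj⟩ := conj_complement H K B hnorm hcop' hsolv' hBK hcB
    refine ⟨n⁻¹ • x₀, fun h hh => ?_⟩
    have hb : n * h * n⁻¹ ∈ B := by rw [hnconj]; simpa [mul_assoc] using hh
    have hfix : (n * h * n⁻¹) • x₀ = x₀ := MulAction.mem_stabilizer_iff.1 (hBGx hb)
    calc h • n⁻¹ • x₀ = n⁻¹ • ((n * h * n⁻¹) • x₀) := by simp [mul_smul]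
      _ = n⁻¹ • x₀ := by rw [hfix]
  · intro x y hx hy
    obtain ⟨k, hk⟩ := MulAction.exists_smul_eq K x y
    have hk' : (k : G) • x = y := hk
    set Gx : Subgroup G := MulAction.stabilizer G x with hGx
    have hHGx : H ≤ Gx := fun h hh => MulAction.mem_stabilizer_iff.2 (hx h hh)
    set N' : Subgroup G := K ⊓ Gx with hN'
    have hN'K : N' ≤ K := inf_le_left
    set B : Subgroup G := H.map (MulAut.conj (k : G)⁻¹).toMonoidHom with hB
    have hHB : ConjTo (k : G)⁻¹ H B := conjTo_map _ H
    have hHB' : ∀ z, z ∈ B ↔ (k : G) * z * (k : G)⁻¹ ∈ H := fun z => by simpa using hHB z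
    have hBGx : B ≤ Gx := by
      intro z hz
      have hh := (hHB' z).1 hz
      rw [hGx, MulAction.mem_stabilizer_iff]
      have h1 : ((k : G) * z * (k : G)⁻¹) • y = y := hy _ hh
      calc z • x = (k : G)⁻¹ • (((k : G) * z * (k : G)⁻¹) • ((k : G) • x)) := by simp [mul_smul]
        _ = (k : G)⁻¹ • y := by rw [hk', h1]
        _ = x := by rw [← hk']; simp
    have hHN' : H ≤ Subgroup.normalizer (N' : Set G) := by
      intro a ha
      rw [Subgroup.mem_normalizer_iff]
      intro h
      have haT : a ∈ Gx := hHGx ha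
      constructor
      · rintro ⟨hK, h1⟩
        exact ⟨hKn.conj_mem h hK a, Gx.mul_mem (Gx.mul_mem haT h1) (Gx.inv_mem haT)⟩
      · rintro ⟨hK, h1⟩
        refine ⟨?_, ?_⟩
        · have := hKn.conj_mem _ hK a⁻¹
          simpa [mul_assoc] using this
        · have : a⁻¹ * (a * h * a⁻¹) * a ∈ Gx := Gx.mul_mem (Gx.mul_mem (Gx.inv_mem haT) h1) haT
          simpa [mul_assoc] using this
    have hBsup : B ⊔ N' = H ⊔ N' := by
      apply le_antisymm
      · apply sup_le _ le_sup_right
        intro z hz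
        have ha := (hHB' z).1 hz
        have e : z = ((k:G) * z * (k:G)⁻¹) * (((k:G) * z * (k:G)⁻¹)⁻¹ * z) := by group
        rw [e]
        refine Subgroup.mul_mem_sup ha ⟨?_, Gx.mul_mem (Gx.inv_mem (hHGx ha)) (hBGx hz)⟩
        have h3 : ((k:G) * z * (k:G)⁻¹)⁻¹ * (k:G)⁻¹ * ((k:G) * z * (k:G)⁻¹)⁻¹⁻¹ ∈ K :=
          hKn.conj_mem _ (K.inv_mem k.2) _
        have h4 := K.mul_mem h3 k.2
        have e2 : ((k:G) * z * (k:G)⁻¹)⁻¹ * z =
            ((k:G) * z * (k:G)⁻¹)⁻¹ * (k:G)⁻¹ * ((k:G) * z * (k:G)⁻¹)⁻¹⁻¹ * k := by group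
        rw [e2]; exact h4
      · apply sup_le _ le_sup_right
        intro a ha
        have hb : (k:G)⁻¹ * a * k ∈ B := by rw [hHB']; simpa [mul_assoc] using ha
        have e : a = ((k:G)⁻¹ * a * k) * (((k:G)⁻¹ * a * k)⁻¹ * a) := by group
        rw [e]
        refine Subgroup.mul_mem_sup hb ⟨?_, Gx.mul_mem (Gx.inv_mem (hBGx hb)) (hHGx ha)⟩
        have h3 : a⁻¹ * (k:G) * a⁻¹⁻¹ ∈ K := hKn.conj_mem _ k.2 _
        have h4 := K.mul_mem (K.inv_mem k.2) h3
        have e2 : ((k:G)⁻¹ * a * k)⁻¹ * a = (k:G)⁻¹ * (a⁻¹ * (k:G) * a⁻¹⁻¹) := by group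
        rw [e2]; exact h4
    have hcN : (Nat.card H).Coprime (Nat.card N') := coprime_of_le le_rfl hN'K hcop'
    have hcB : (Nat.card B).Coprime (Nat.card N') := by
      rw [show Nat.card B = Nat.card H from
        Subgroup.card_map_of_injective (MulAut.conj (k:G)⁻¹).injective]
      exact hcN
    have hsolv'' : Group.IsSolvable H ∨ Group.IsSolvable N' :=
      hsolv'.imp id (isSolvable_of_le hN'K)
    obtain ⟨n, hn, hnconj⟩ := conj_complement H N' B hHN' hcN hsolv'' hBsup hcB
    have hnK : n ∈ K := hN'K hn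
    have hcK : ((k:G) * n)⁻¹ ∈ K := K.inv_mem (K.mul_mem k.2 hnK)
    have hcent : ((k:G) * n)⁻¹ ∈ Subgroup.centralizer (H : Set G) := by
      apply centralizes_of_normalizes H K hnorm hdisj _ hcK
      intro a ha
      have hb : (k:G)⁻¹ * a * k ∈ B := by rw [hHB']; simpa [mul_assoc] using ha
      have := (hnconj _).1 hb
      simpa [mul_assoc] using this
    refine ⟨(k : G) * n, ⟨K.mul_mem k.2 hnK, ?_⟩, ?_⟩
    · have := Subgroup.inv_mem _ hcent
      simpa using this
    · rw [mul_smul, MulAction.mem_stabilizer_iff.1 hn.2, hk']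

end Cfsg.Agent.S0059
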