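import Cfsg.Statements.S0060
import Cfsg.Agent.Helper16.Conj
import Cfsg.Agent.Helper10.SylowAux
import Cfsg.Agent.Helper1.Fitting
import Mathlib

set_option autoImplicit false
open Pointwise
open Cfsg
open Cfsg.Agent.Helper16

namespace Cfsg.Agent.S0060

/-- Brodkey's Theorem: in a finite group with abelian Sylow p-subgroups and no nontrivial normal p-subgroup, some conjugate of a Sylow p-subgroup meets it trivially. -/
theorem result {G : Type*} [Group G] [Finite G] (p : ℕ) [Fact p.Prime]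
    (S : Sylow p G) (hS : IsMulCommutative S) (hOp : Cfsg.pCore p G = ⊥) :
    ∃ g : G, (S : Subgroup G) ⊓ MulAut.conj g • (S : Subgroup G) = ⊥ := by
  classical
  have hex : ∃ n, ∃ g : G,
      Nat.card ((S : Subgroup G) ⊓ MulAut.conj g • (S : Subgroup G) : Subgroup G) = n :=
    ⟨_, 1, rfl⟩
  obtain ⟨g₀, hg₀⟩ := Nat.find_spec hex
  have hmin : ∀ g : G, Nat.find hex ≤
      Nat.card ((S : Subgroup G) ⊓ MulAut.conj g • (S : Subgroup G) : Subgroup G) :=
    fun g => Nat.find_min' hex ⟨g, rfl⟩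
  rw [← hg₀] at hmin
  refine ⟨g₀, ?_⟩
  obtain ⟨T, hT⟩ : ∃ T : Subgroup G, T = MulAut.conj g₀ • (S : Subgroup G) := ⟨_, rfl⟩
  rw [← hT] at hmin ⊢
  obtain ⟨D, hD⟩ : ∃ D : Subgroup G, D = (S : Subgroup G) ⊓ T := ⟨_, rfl⟩
  rw [← hD] at hmin ⊢
  have hDS : D ≤ S := by rw [hD]; exact inf_le_left
  have hDT : D ≤ T := by rw [hD]; exact inf_le_right
  have hScomm : ∀ a ∈ (S : Subgroup G), ∀ b ∈ (S : Subgroup G), a * b = b * a := by
    intro a ha b hb
    have h := hS.is_comm.comm (⟨a, ha⟩ : S) ⟨b, hb⟩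
    exact congrArg Subtype.val h
  have hTcomm : ∀ a ∈ T, ∀ b ∈ T, a * b = b * a := by
    intro a ha b hb
    rw [hT, mem_conj_smul_iff] at ha hb
    have h := hScomm _ ha _ hb
    calc a * b = g₀ * ((g₀⁻¹ * a * g₀) * (g₀⁻¹ * b * g₀)) * g₀⁻¹ := by group
      _ = g₀ * ((g₀⁻¹ * b * g₀) * (g₀⁻¹ * a * g₀)) * g₀⁻¹ := by rw [h]
      _ = b * a := by group
  have hnorm_of_comm : ∀ X : Subgroup G, D ≤ X → (∀ a ∈ X, ∀ b ∈ X, a * b = b * a) →
      X ≤ Subgroup.normalizer (D : Set G) := by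
    intro X hDX hX x hx
    rw [Subgroup.mem_normalizer_iff]
    intro d
    constructor
    · intro hd
      have h := hX x hx d (hDX hd)
      rw [h, mul_inv_cancel_right]; exact hd
    · intro hd
      have h := hX x⁻¹ (X.inv_mem hx) _ (hDX hd)
      have h2 : d * x⁻¹ = x * d * x⁻¹ * x⁻¹ := by
        have e1 : x⁻¹ * (x * d * x⁻¹) = d * x⁻¹ := by group
        rw [← e1]; exact h
      have e : d = x * d * x⁻¹ := mul_right_cancel h2
      rw [e]; exact hd
  have hSN : (S : Subgroup G) ≤ Subgroup.normalizer (D : Set G) := hnorm_of_comm _ hDS hScomm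
  have hTN : T ≤ Subgroup.normalizer (D : Set G) := hnorm_of_comm _ hDT hTcomm
  have key : ∀ h : G, D ≤ MulAut.conj h • (S : Subgroup G) := by
    intro h
    have hQp : IsPGroup p ((MulAut.conj h • (S : Subgroup G) ⊓
        Subgroup.normalizer (D : Set G) : Subgroup G)) :=
      (isPGroup_conj_smul S.isPGroup').to_le inf_le_left
    obtain ⟨n, hnN, hn⟩ := Cfsg.Agent.Helper10.exists_conj_mem_sylow_of_le
      (Subgroup.normalizer (D : Set G)) S hSN _ hQp inf_le_right
    have hE_le : MulAut.conj h • (S : Subgroup G) ⊓ MulAut.conj (n * g₀) • (S : Subgroup G)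
        ≤ D := by
      intro x hx
      obtain ⟨hx1, hx2⟩ := Subgroup.mem_inf.1 hx
      have hx2' : n⁻¹ * x * n ∈ T := by
        rw [hT, mem_conj_smul_iff]
        rw [mem_conj_smul_iff] at hx2
        have e : g₀⁻¹ * (n⁻¹ * x * n) * g₀ = (n * g₀)⁻¹ * x * (n * g₀) := by group
        rw [e]; exact hx2
      have hxN : x ∈ Subgroup.normalizer (D : Set G) := by
        have h1 := Subgroup.mul_mem _ (Subgroup.mul_mem _ hnN (hTN hx2'))
          (Subgroup.inv_mem _ hnN)
        have e : n * (n⁻¹ * x * n) * n⁻¹ = x := by group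
        rwa [e] at h1
      have hx3 : n⁻¹ * x * n ∈ (S : Subgroup G) := hn x (Subgroup.mem_inf.2 ⟨hx1, hxN⟩)
      have hx4 : n⁻¹ * x * n ∈ D := by rw [hD]; exact Subgroup.mem_inf.2 ⟨hx3, hx2'⟩
      have h5 := (Subgroup.mem_normalizer_iff.1 hnN _).1 hx4
      have e : n * (n⁻¹ * x * n) * n⁻¹ = x := by group
      rwa [e] at h5
    have hcard : Nat.card D ≤ Nat.card (MulAut.conj h • (S : Subgroup G) ⊓
        MulAut.conj (n * g₀) • (S : Subgroup G) : Subgroup G) := by
      have h1 := hmin (h⁻¹ * (n * g₀))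
      have e : ∀ x, x ∈ MulAut.conj h • ((S : Subgroup G) ⊓
            MulAut.conj (h⁻¹ * (n * g₀)) • (S : Subgroup G))
          ↔ x ∈ MulAut.conj h • (S : Subgroup G) ⊓ MulAut.conj (n * g₀) • (S : Subgroup G) := by
        intro x
        have e2 : (h⁻¹ * (n * g₀))⁻¹ * (h⁻¹ * x * h) * (h⁻¹ * (n * g₀))
            = (n * g₀)⁻¹ * x * (n * g₀) := by group
        constructor
        · intro hx
          have h1 := (mem_conj_smul_iff h x _).1 hx
          obtain ⟨h2, h3⟩ := Subgroup.mem_inf.1 h1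
          have h4 := (mem_conj_smul_iff _ _ _).1 h3
          rw [e2] at h4
          exact Subgroup.mem_inf.2
            ⟨(mem_conj_smul_iff h x _).2 h2, (mem_conj_smul_iff _ x _).2 h4⟩
        · intro hx
          obtain ⟨h2, h3⟩ := Subgroup.mem_inf.1 hx
          have h2' := (mem_conj_smul_iff h x _).1 h2
          have h3' := (mem_conj_smul_iff _ x _).1 h3
          rw [← e2] at h3'
          exact (mem_conj_smul_iff h x _).2
            (Subgroup.mem_inf.2 ⟨h2', (mem_conj_smul_iff _ _ _).2 h3'⟩)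
      have e' := SetLike.ext e
      rw [← e', card_conj_smul]
      exact h1
    have heq : MulAut.conj h • (S : Subgroup G) ⊓ MulAut.conj (n * g₀) • (S : Subgroup G) = D :=
      Subgroup.eq_of_le_of_card_ge hE_le hcard
    rw [← heq]; exact inf_le_left
  have hDcore : D ≤ (S : Subgroup G).normalCore := by
    intro d hd b
    have h1 := key b⁻¹ hd
    rw [mem_conj_smul_iff, inv_inv] at h1
    exact h1
  have hcore : (S : Subgroup G).normalCore ≤ Cfsg.pCore p G :=
    Cfsg.Agent.Helper1.le_pCore (Subgroup.normalCore_normal _)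
      (S.isPGroup'.to_le (Subgroup.normalCore_le _))
  rw [hOp] at hcore
  exact le_bot_iff.1 (hDcore.trans hcore)

end Cfsg.Agent.S0060
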