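import Cfsg.Statements.S0061
import Cfsg.Agent.S0062
import Cfsg.Agent.Helper1.Frob
import Mathlib

set_option autoImplicit false
open Pointwise
open Cfsg

namespace Cfsg.Agent.S0061

universe u

theorem reduce (c : ℕ) (ih : ∀ c' < c, ∀ (G : Type u) [Group G] [Finite G], ∀ p q m : ℕ,
      p.Prime → q.Prime → Nat.card G = c' → Nat.card G = p ^ m * q → Group.IsSolvable G)
    (G : Type u) [Group G] [Finite G] (p q m : ℕ) (hp : p.Prime) (hq : q.Prime)
    (hc : Nat.card G = c) (hG : Nat.card G = p ^ m * q)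
    (N : Subgroup G) [N.Normal] (hN1 : N ≠ ⊥) (hN2 : N ≠ ⊤) : Group.IsSolvable G := by
  have hNlt : Nat.card N < c := hc ▸ Cfsg.Agent.S0001.card_sub_lt N hN2
  have hQlt : Nat.card (G ⧸ N) < c := hc ▸ Cfsg.Agent.S0001.card_quot_lt N hN1
  have hmul : Nat.card G = Nat.card (G ⧸ N) * Nat.card N :=
    Subgroup.card_eq_card_quotient_mul_card_subgroup N
  have hdvd : Nat.card N ∣ p ^ m * q := hG ▸ Subgroup.card_subgroup_dvd_card N
  obtain ⟨d₁, d₂, hd₁, hd₂, hd⟩ := dvd_mul.mp hdvd
  obtain ⟨a, ha, rfl⟩ := (Nat.dvd_prime_pow hp).mp hd₁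
  rcases (Nat.dvd_prime hq).mp hd₂ with h1 | h1
  · have hN' : Nat.card N = p ^ a := by rw [hd, h1, mul_one]
    haveI : Group.IsSolvable N := Cfsg.Agent.S0062.solvable_of_card_prime_pow p a hp hN'
    haveI : Group.IsSolvable (G ⧸ N) := by
      apply ih _ hQlt (G ⧸ N) p q (m - a) hp hq rfl
      have h1 : Nat.card (G ⧸ N) * p ^ a = p ^ (m - a) * q * p ^ a := by
        calc Nat.card (G ⧸ N) * p ^ a = Nat.card G := by rw [hmul, hN']
          _ = p ^ m * q := hG
          _ = p ^ (m - a) * q * p ^ a := by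
            rw [mul_right_comm, ← pow_add, Nat.sub_add_cancel ha]
      exact Nat.eq_of_mul_eq_mul_right (pow_pos hp.pos a) h1
    exact Cfsg.Agent.S0062.solvable_of_normal N
  · have hN' : Nat.card N = p ^ a * q := by rw [hd, h1]
    haveI : Group.IsSolvable N := ih _ hNlt N p q a hp hq rfl hN'
    haveI : Group.IsSolvable (G ⧸ N) := by
      apply Cfsg.Agent.S0062.solvable_of_card_prime_pow p (m - a) hp
      have h1 : Nat.card (G ⧸ N) * (p ^ a * q) = p ^ (m - a) * (p ^ a * q) := by
        calc Nat.card (G ⧸ N) * (p ^ a * q) = Nat.card G := by rw [hmul, hN']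
          _ = p ^ m * q := hG
          _ = p ^ (m - a) * (p ^ a * q) := by
            rw [← mul_assoc, ← pow_add, Nat.sub_add_cancel ha]
      exact Nat.eq_of_mul_eq_mul_right (Nat.mul_pos (pow_pos hp.pos a) hq.pos) h1
    exact Cfsg.Agent.S0062.solvable_of_normal N

theorem main : ∀ c : ℕ, ∀ (G : Type u) [Group G] [Finite G], ∀ p q m : ℕ, p.Prime → q.Prime →
    Nat.card G = c → Nat.card G = p ^ m * q → Group.IsSolvable G := by
  intro c
  induction c using Nat.strongRecOn with | ind c ih => ?_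
  intro G _ _ p q m hp hq hc hG
  by_cases hpq : p = q
  · subst hpq
    exact Cfsg.Agent.S0062.solvable_of_card_prime_pow p (m + 1) hp (by rw [hG, pow_succ])
  rcases Nat.eq_zero_or_pos m with hm | hm
  · subst hm
    rw [pow_zero, one_mul] at hG
    exact Cfsg.Agent.S0062.solvable_of_card_prime_pow q 1 hq (by rw [hG, pow_one])
  haveI : Fact p.Prime := ⟨hp⟩
  haveI : Fact q.Prime := ⟨hq⟩
  have red : ∀ N : Subgroup G, N.Normal → N ≠ ⊥ → N ≠ ⊤ → Group.IsSolvable G := by
    intro N hN h1 h2
    haveI := hN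
    exact reduce c ih G p q m hp hq hc hG N h1 h2
  obtain ⟨P⟩ : Nonempty (Sylow p G) := inferInstance
  obtain ⟨Q⟩ : Nonempty (Sylow q G) := inferInstance
  have hfacp : (Nat.card G).factorization p = m := by
    rw [hG, Nat.factorization_mul (pow_ne_zero m hp.ne_zero) hq.ne_zero]
    simp [hp.factorization_pow, hq.factorization, Finsupp.single_apply, hpq]
  have hfacq : (Nat.card G).factorization q = 1 := by
    rw [hG, Nat.factorization_mul (pow_ne_zero m hp.ne_zero) hq.ne_zero]
    simp [hp.factorization_pow, hq.factorization, Finsupp.single_apply, hpq]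
  have hPcard : ∀ P' : Sylow p G, Nat.card (P' : Subgroup G) = p ^ m := by
    intro P'; rw [Sylow.card_eq_multiplicity, hfacp]
  have hQcard : ∀ Q' : Sylow q G, Nat.card (Q' : Subgroup G) = q := by
    intro Q'; rw [Sylow.card_eq_multiplicity, hfacq, pow_one]
  have hPidx : (P : Subgroup G).index = q := by
    have := (P : Subgroup G).index_mul_card
    rw [hG, hPcard P] at this
    exact Nat.eq_of_mul_eq_mul_right (pow_pos hp.pos m) (this.trans (mul_comm _ _))
  have hpm1 : 1 < p ^ m := Nat.one_lt_pow hm.ne' hp.one_lt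
  have hPbot : (P : Subgroup G) ≠ ⊥ := by
    intro h
    have := hPcard P
    rw [h, Subgroup.card_bot] at this
    omega
  have hPtop : (P : Subgroup G) ≠ ⊤ := by
    intro h
    rw [h, Subgroup.index_top] at hPidx
    exact hq.one_lt.ne' hPidx.symm
  have hQbot : (Q : Subgroup G) ≠ ⊥ := by
    intro h
    have := hQcard Q
    rw [h, Subgroup.card_bot] at this
    exact hq.one_lt.ne' this.symm
  have hQtop : (Q : Subgroup G) ≠ ⊤ := by
    intro h
    have := hQcard Q
    rw [h, Subgroup.card_top, hG] at this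
    have h2 : p ^ m * q = 1 * q := by rw [this, one_mul]
    have h3 := Nat.eq_of_mul_eq_mul_right hq.pos h2
    omega
  by_cases hPn : (P : Subgroup G).Normal
  · exact red P hPn hPbot hPtop
  by_cases hQn : (Q : Subgroup G).Normal
  · exact red Q hQn hQbot hQtop
  have hNP : Subgroup.normalizer ((P : Subgroup G) : Set G) = P := by
    have h1 : (P : Subgroup G).relIndex (Subgroup.normalizer ((P : Subgroup G) : Set G)) *
        (Subgroup.normalizer ((P : Subgroup G) : Set G)).index = q := by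
      rw [Subgroup.relIndex_mul_index Subgroup.le_normalizer, hPidx]
    have h2 : (Subgroup.normalizer ((P : Subgroup G) : Set G)).index ∣ q := Dvd.intro_left _ h1
    rcases (Nat.dvd_prime hq).mp h2 with h3 | h3
    · exfalso; apply hPn
      rw [Subgroup.index_eq_one] at h3
      exact Subgroup.normalizer_eq_top_iff.mp h3
    · rw [h3] at h1
      have h4 : (P : Subgroup G).relIndex (Subgroup.normalizer ((P : Subgroup G) : Set G)) = 1 := by
        have : (P : Subgroup G).relIndex (Subgroup.normalizer ((P : Subgroup G) : Set G)) * q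
            = 1 * q := by rw [h1, one_mul]
        exact Nat.eq_of_mul_eq_mul_right hq.pos this
      rw [Subgroup.relIndex_eq_one] at h4
      exact le_antisymm h4 Subgroup.le_normalizer
  obtain ⟨g₀, hg₀⟩ : ∃ g : G, g ∉ (P : Subgroup G) := by
    by_contra h
    push Not at h
    exact hPtop (eq_top_iff.mpr fun x _ => h x)
  have hsm : ∀ g : G, g ∉ (P : Subgroup G) → g • P ≠ P := by
    intro g hg h
    rw [Sylow.smul_eq_iff_mem_normalizer] at h
    apply hg
    have h' : g ∈ Subgroup.normalizer ((P : Subgroup G) : Set G) := h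
    rw [hNP] at h'
    exact h'
  haveI : Nonempty {pr : Sylow p G × Sylow p G // pr.1 ≠ pr.2} :=
    ⟨⟨(g₀ • P, P), hsm g₀ hg₀⟩⟩
  obtain ⟨⟨⟨P₁, P₂⟩, hne⟩, hmax⟩ := Finite.exists_max
    (fun pr : {pr : Sylow p G × Sylow p G // pr.1 ≠ pr.2} =>
      Nat.card ((pr.1.1 : Subgroup G) ⊓ (pr.1.2 : Subgroup G) : Subgroup G))
  have hmax' : ∀ P₃ P₄ : Sylow p G, P₃ ≠ P₄ →
      Nat.card ((P₃ : Subgroup G) ⊓ (P₄ : Subgroup G) : Subgroup G) ≤
        Nat.card ((P₁ : Subgroup G) ⊓ (P₂ : Subgroup G) : Subgroup G) :=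
    fun P₃ P₄ h => hmax ⟨(P₃, P₄), h⟩
  obtain ⟨D, hD⟩ : ∃ D : Subgroup G, D = (P₁ : Subgroup G) ⊓ (P₂ : Subgroup G) := ⟨_, rfl⟩
  rw [← hD] at hmax'
  have hne' : P₁ ≠ P₂ := hne
  by_cases hDbot : D = ⊥
  · -- TI case
    have hfrob : Cfsg.IsFrobeniusComplement (P : Subgroup G) := by
      refine ⟨hPbot, hPtop, fun g hg => ?_⟩
      have h1 := hmax' P (g • P) (hsm g hg).symm
      rw [hDbot, Subgroup.card_bot] at h1
      have h2 : (P : Subgroup G) ⊓ ((g • P : Sylow p G) : Subgroup G) = ⊥ :=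
        Subgroup.eq_bot_of_card_le _ h1
      rw [Sylow.smul_def, Sylow.pointwise_smul_def] at h2
      exact h2
    have hK : Nat.card (Cfsg.frobeniusKernel (P : Subgroup G)) = q := by
      rw [Cfsg.Agent.Helper1.card_kernel _ hfrob, hPidx]
    have hQK : ∀ Q' : Sylow q G,
        ((Q' : Subgroup G) : Set G) = Cfsg.frobeniusKernel (P : Subgroup G) := by
      intro Q'
      apply Set.eq_of_subset_of_ncard_le
      · intro x hx
        by_contra hxK
        obtain ⟨hx1, g, hg⟩ := (Cfsg.Agent.Helper1.not_mem_kernel_iff _ x).mp hxK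
        have ho1 : orderOf x ∣ q := by
          have := Subgroup.orderOf_dvd_natCard (Q' : Subgroup G) hx
          rwa [hQcard Q'] at this
        have ho2 : orderOf (g⁻¹ * x * g) ∣ p ^ m := by
          have := Subgroup.orderOf_dvd_natCard (P : Subgroup G) hg
          rwa [hPcard P] at this
        have ho3 : orderOf (g⁻¹ * x * g) = orderOf x := by
          have : g⁻¹ * x * g = (MulAut.conj g⁻¹).toMonoidHom x := by simp [MulAut.conj_apply]
          rw [this]; exact orderOf_injective _ (MulAut.conj g⁻¹).injective x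
        rw [ho3] at ho2
        have hcop : Nat.Coprime q (p ^ m) :=
          Nat.Coprime.pow_right m ((Nat.coprime_primes hq hp).mpr (Ne.symm hpq))
        have : orderOf x = 1 := Nat.eq_one_of_dvd_coprimes hcop ho1 ho2
        exact hx1 (orderOf_eq_one_iff.mp this)
      · rw [← Nat.card_coe_set_eq, ← Nat.card_coe_set_eq, hK]
        exact (hQcard Q').ge
      · exact Set.toFinite _
    haveI : Subsingleton (Sylow q G) := ⟨fun Q₁ Q₂ => by
      apply Sylow.ext
      exact SetLike.coe_injective ((hQK Q₁).trans (hQK Q₂).symm)⟩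
    exact absurd (Sylow.normal_of_subsingleton Q) hQn
  · -- non-TI case
    have hDP1 : D ≤ (P₁ : Subgroup G) := hD ▸ inf_le_left
    have hDP2 : D ≤ (P₂ : Subgroup G) := hD ▸ inf_le_right
    have hDne : ∀ P' : Sylow p G, D ≤ (P' : Subgroup G) → D ≠ (P' : Subgroup G) →
        ∃ x : G, x ∈ (P' : Subgroup G) ∧ x ∈ Subgroup.normalizer (D : Set G) ∧ x ∉ D := by
      intro P' hDP' hne'
      haveI : Group.IsNilpotent (P' : Subgroup G) := P'.isPGroup'.isNilpotent
      have hnc := Group.normalizerCondition_of_isNilpotent (G := (P' : Subgroup G))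
      have hlt : D.subgroupOf (P' : Subgroup G) < ⊤ := by
        rw [lt_top_iff_ne_top]
        intro h
        rw [Subgroup.subgroupOf_eq_top] at h
        exact hne' (le_antisymm hDP' h)
      have h2 := hnc _ hlt
      obtain ⟨x, hxN, hxD⟩ := SetLike.exists_of_lt h2
      refine ⟨x, x.2, ?_, fun h => hxD (Subgroup.mem_subgroupOf.mpr h)⟩
      rw [Subgroup.mem_normalizer_iff] at hxN ⊢
      intro d
      constructor
      · intro hd
        have := (hxN ⟨d, hDP' hd⟩).mp (Subgroup.mem_subgroupOf.mpr hd)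
        exact Subgroup.mem_subgroupOf.mp this
      · intro hd
        have hdP : d ∈ (P' : Subgroup G) := by
          have h3 : (x : G)⁻¹ * ((x : G) * d * (x : G)⁻¹) * (x : G) ∈ (P' : Subgroup G) :=
            (P' : Subgroup G).mul_mem ((P' : Subgroup G).mul_mem
              ((P' : Subgroup G).inv_mem x.2) (hDP' hd)) x.2
          simpa [mul_assoc] using h3
        have := (hxN ⟨d, hdP⟩).mpr (Subgroup.mem_subgroupOf.mpr hd)
        exact Subgroup.mem_subgroupOf.mp this
    have hP1P2 : (P₁ : Subgroup G) ≠ (P₂ : Subgroup G) := fun h => hne' (Sylow.ext h)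
    have hDne1 : D ≠ (P₁ : Subgroup G) := by
      intro h
      apply hP1P2
      apply Subgroup.eq_of_le_of_card_ge (h ▸ hDP2)
      rw [hPcard, hPcard]
    have hDne2 : D ≠ (P₂ : Subgroup G) := by
      intro h
      apply hP1P2
      symm
      apply Subgroup.eq_of_le_of_card_ge (h ▸ hDP1)
      rw [hPcard, hPcard]
    obtain ⟨x₁, hx₁P, hx₁N, hx₁D⟩ := hDne P₁ hDP1 hDne1
    obtain ⟨x₂, hx₂P, hx₂N, hx₂D⟩ := hDne P₂ hDP2 hDne2
    obtain ⟨M, hM⟩ : ∃ M : Subgroup G, M = Subgroup.normalizer (D : Set G) := ⟨_, rfl⟩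
    have hDM : D ≤ M := hM ▸ Subgroup.le_normalizer
    have hqM : q ∣ Nat.card M := by
      by_contra hq'
      have hMdvd : Nat.card M ∣ p ^ m * q := hG ▸ Subgroup.card_subgroup_dvd_card M
      have hcop : (Nat.card M).Coprime q :=
        (Nat.Coprime.symm ((Nat.Prime.coprime_iff_not_dvd hq).mpr hq'))
      have hMp : Nat.card M ∣ p ^ m := hcop.dvd_of_dvd_mul_right hMdvd
      obtain ⟨j, -, hj⟩ := (Nat.dvd_prime_pow hp).mp hMp
      have hMpg : IsPGroup p M := IsPGroup.of_card hj
      obtain ⟨P₃, hP₃⟩ := hMpg.exists_le_sylow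
      have h13 : P₁ = P₃ := by
        by_contra h
        have h1 := hmax' P₁ P₃ h
        have hle : D ≤ (P₁ : Subgroup G) ⊓ (P₃ : Subgroup G) := le_inf hDP1 (hDM.trans hP₃)
        have heq := Subgroup.eq_of_le_of_card_ge hle h1
        apply hx₁D
        rw [heq]
        exact Subgroup.mem_inf.mpr ⟨hx₁P, hP₃ (hM ▸ hx₁N)⟩
      have h23 : P₂ = P₃ := by
        by_contra h
        have h1 := hmax' P₂ P₃ h
        have hle : D ≤ (P₂ : Subgroup G) ⊓ (P₃ : Subgroup G) := le_inf hDP2 (hDM.trans hP₃)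
        have heq := Subgroup.eq_of_le_of_card_ge hle h1
        apply hx₂D
        rw [heq]
        exact Subgroup.mem_inf.mpr ⟨hx₂P, hP₃ (hM ▸ hx₂N)⟩
      exact hne' (h13.trans h23.symm)
    obtain ⟨y, hy⟩ := exists_prime_orderOf_dvd_card' q hqM
    obtain ⟨Y, hY⟩ : ∃ Y : Subgroup G, Y = Subgroup.zpowers (y : G) := ⟨_, rfl⟩
    have hYcard : Nat.card Y = q := by
      rw [hY, Nat.card_zpowers, Subgroup.orderOf_coe, hy]
    have hYM : Y ≤ M := by
      rw [hY, Subgroup.zpowers_le]; exact y.2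
    have hcomp : Subgroup.IsComplement' (P₁ : Subgroup G) Y :=
      Subgroup.isComplement'_of_coprime (by rw [hPcard, hYcard, hG])
        (by rw [hPcard, hYcard]; exact Nat.Coprime.pow_left m ((Nat.coprime_primes hp hq).mpr hpq))
    have hconj : ∀ g : G, ∀ d ∈ D, g * d * g⁻¹ ∈ (P₁ : Subgroup G) := by
      intro g d hd
      obtain ⟨⟨a, b⟩, hab⟩ := hcomp.2 g
      have hab' : (a : G) * (b : G) = g := hab
      rw [← hab']
      have hbN : (b : G) ∈ Subgroup.normalizer (D : Set G) := hM ▸ hYM b.2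
      have hbd : (b : G) * d * (b : G)⁻¹ ∈ D := (Subgroup.mem_normalizer_iff.mp hbN d).mp hd
      have e : (a : G) * (b : G) * d * ((a : G) * (b : G))⁻¹ =
          (a : G) * ((b : G) * d * (b : G)⁻¹) * (a : G)⁻¹ := by group
      rw [e]
      exact (P₁ : Subgroup G).mul_mem ((P₁ : Subgroup G).mul_mem a.2 (hDP1 hbd))
        ((P₁ : Subgroup G).inv_mem a.2)
    have hNle : Subgroup.normalClosure (D : Set G) ≤ (P₁ : Subgroup G) := by
      show Subgroup.closure (Group.conjugatesOfSet (D : Set G)) ≤ _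
      rw [Subgroup.closure_le]
      intro x hx
      rw [Group.mem_conjugatesOfSet_iff] at hx
      obtain ⟨d, hd, hdx⟩ := hx
      rw [isConj_iff] at hdx
      obtain ⟨c, rfl⟩ := hdx
      exact hconj c d hd
    refine red (Subgroup.normalClosure (D : Set G)) Subgroup.normalClosure_normal ?_ ?_
    · intro h
      apply hDbot
      rw [eq_bot_iff, ← h]
      exact Subgroup.le_normalClosure
    · intro h
      rw [h] at hNle
      have h1 : (P₁ : Subgroup G) = ⊤ := top_le_iff.mp hNle
      have h2 := hPcard P₁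
      rw [h1, Subgroup.card_top, hG] at h2
      have h3 : p ^ m * q = p ^ m * 1 := by rw [h2, mul_one]
      have := Nat.eq_of_mul_eq_mul_left (pow_pos hp.pos m) h3
      exact hq.one_lt.ne' this

/-- A finite group whose order is a prime power times a prime is solvable. -/
theorem result {G : Type*} [Group G] [Finite G] (p q m : ℕ) (hp : p.Prime) (hq : q.Prime)
    (hG : Nat.card G = p ^ m * q) : Group.IsSolvable G := by
  exact main _ G p q m hp hq rfl hG

end Cfsg.Agent.S0061
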