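import Cfsg.Statements.S0063
import Mathlib

set_option autoImplicit false
open Cfsg

namespace Cfsg.Agent.S0063

universe u

theorem aux (p : ℕ) [Fact p.Prime] : ∀ m : ℕ, ∀ (G : Type u) [Group G] [Finite G],
    Nat.card G = p ^ m → 2 ≤ m → Group.nilpotencyClass G ≤ m - 1 := by
  intro m
  induction m using Nat.strongRecOn with | ind m ih => ?_
  intro G _ _ hG hm
  have hpp : p.Prime := Fact.out
  have hpg : IsPGroup p G := IsPGroup.of_card hG
  haveI : Group.IsNilpotent G := hpg.isNilpotent
  haveI : Nontrivial G := by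
    rw [← Finite.one_lt_card_iff_nontrivial, hG]
    exact Nat.one_lt_pow (by omega) hpp.one_lt
  have hZ : Subgroup.center G ≠ ⊥ := (hpg.bot_lt_center).ne'
  obtain ⟨k, hk⟩ := IsPGroup.iff_card.mp (hpg.to_subgroup (Subgroup.center G))
  have hk1 : 1 ≤ k := by
    rcases Nat.eq_zero_or_pos k with h0 | h0
    · exfalso; rw [h0, pow_zero] at hk; exact hZ (Subgroup.eq_bot_of_card_eq _ hk)
    · exact h0
  have hmul := Subgroup.card_eq_card_quotient_mul_card_subgroup (Subgroup.center G)
  rw [hG, hk] at hmul
  have hkm : k ≤ m := by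
    have : p ^ k ∣ p ^ m := Dvd.intro_left _ hmul.symm
    exact (Nat.pow_dvd_pow_iff_le_right hpp.one_lt).mp this
  have hq : Nat.card (G ⧸ Subgroup.center G) = p ^ (m - k) := by
    have h1 : Nat.card (G ⧸ Subgroup.center G) * p ^ k = p ^ (m - k) * p ^ k := by
      rw [← hmul, ← pow_add, Nat.sub_add_cancel hkm]
    exact Nat.eq_of_mul_eq_mul_right (pow_pos hpp.pos k) h1
  have hclass := Group.nilpotencyClass_quotient_center (G := G)
  by_cases h2 : 2 ≤ m - k
  · have := ih (m - k) (by omega) (G ⧸ Subgroup.center G) hq h2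
    omega
  · have hcyc : IsCyclic (G ⧸ Subgroup.center G) := by
      rcases Nat.lt_or_ge (m - k) 1 with h0 | h1
      · have h00 : m - k = 0 := by omega
        rw [h00, pow_zero] at hq
        haveI : Subsingleton (G ⧸ Subgroup.center G) := (Nat.card_eq_one_iff_unique.mp hq).1
        infer_instance
      · have h11 : m - k = 1 := by omega
        rw [h11, pow_one] at hq
        exact isCyclic_of_prime_card hq
    have hcomm : ∀ a b : G, a * b = b * a :=
      commutative_of_cyclic_center_quotient (QuotientGroup.mk' (Subgroup.center G))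
        (by rw [QuotientGroup.ker_mk'])
    have : Group.nilpotencyClass G ≤ 1 :=
      Group.IsNilpotent.nilpotencyClass_le_one_iff.mpr ⟨⟨hcomm⟩⟩
    omega

/-- A finite group of prime-power order p ^ m with m > 1 is nilpotent of class at most m - 1. -/
theorem result {G : Type*} [Group G] [Finite G] (p m : ℕ) [Fact p.Prime]
    (hG : Nat.card G = p ^ m) (hm : 1 < m) : Group.nilpotencyClass G ≤ m - 1 := by
  exact aux p m G hG hm

end Cfsg.Agent.S0063
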