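import Cfsg.Statements.S0067
import Mathlib
import Cfsg.Agent.S0199
import Cfsg.Agent.Helper1.Fitting
import Cfsg.Agent.Helper1.Frob
import Cfsg.Agent.S0064

set_option autoImplicit false
open Cfsg
open Pointwise

namespace Cfsg.Agent.S0067

theorem isPGroup_sup_of_nilpotent {G : Type*} [Group G] [Finite G] (p : ℕ) [Fact p.Prime]
    (B X Y : Subgroup G) (hB : Group.IsNilpotent B) (hX : IsPGroup p X) (hY : IsPGroup p Y)
    (hXB : X ≤ B) (hYB : Y ≤ B) : IsPGroup p (X ⊔ Y : Subgroup G) := by
  have q := (Group.isNilpotent_of_finite_tfae (G := B)).out 0 3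
  have hX' : IsPGroup p (X.subgroupOf B) := hX.comap_subtype
  have hY' : IsPGroup p (Y.subgroupOf B) := hY.comap_subtype
  obtain ⟨R1, hR1⟩ := hX'.exists_le_sylow
  obtain ⟨R2, hR2⟩ := hY'.exists_le_sylow
  haveI hn : (R1 : Subgroup B).Normal := (q.mp hB) p inferInstance R1
  obtain ⟨g, hg⟩ := MulAction.exists_smul_eq B R1 R2
  rw [Sylow.smul_eq_of_normal] at hg
  rw [← hg] at hR2
  have h1 : IsPGroup p ((X.subgroupOf B ⊔ Y.subgroupOf B : Subgroup B)) :=
    R1.isPGroup'.to_le (sup_le hR1 hR2)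
  have h2 := h1.map B.subtype
  rw [Subgroup.map_sup, Subgroup.subgroupOf_map_subtype, Subgroup.subgroupOf_map_subtype,
    inf_eq_left.mpr hXB, inf_eq_left.mpr hYB] at h2
  exact h2

/-- If the join of a subgroup A with each of its conjugates is nilpotent, then A is subnormal in the finite group and contained in the Fitting subgroup. -/
theorem result {G : Type*} [Group G] [Finite G] (A : Subgroup G)
    (h : ∀ g : G, Group.IsNilpotent (A ⊔ MulAut.conj g • A : Subgroup G)) : A.IsSubnormal ∧ A ≤ Cfsg.fittingSubgroup G := by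
  have hsyl : ∀ (p : ℕ) [Fact p.Prime] (Q : Sylow p A),
      (Q : Subgroup A).map A.subtype ≤ Cfsg.fittingSubgroup G := by
    intro p _ Q
    have hXp : IsPGroup p ((Q : Subgroup A).map A.subtype) := Q.isPGroup'.map A.subtype
    have hXA : (Q : Subgroup A).map A.subtype ≤ A := Subgroup.map_subtype_le _
    have hyp : ∀ g : G, IsPGroup p ↥((Q : Subgroup A).map A.subtype ⊔
        ((Q : Subgroup A).map A.subtype).map (MulAut.conj g).toMonoidHom) := by
      intro g
      apply isPGroup_sup_of_nilpotent p (A ⊔ MulAut.conj g • A) _ _ (h g) hXp (hXp.map _)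
        (hXA.trans le_sup_left)
      refine le_trans ?_ (le_sup_right : MulAut.conj g • A ≤ A ⊔ MulAut.conj g • A)
      rintro _ ⟨x, hx, rfl⟩
      rw [Cfsg.Agent.Helper1.mem_conj_smul_iff]
      show g⁻¹ * (g * x * g⁻¹) * g ∈ A
      have e : g⁻¹ * (g * x * g⁻¹) * g = x := by group
      rw [e]; exact hXA hx
    obtain ⟨N, hN, hNp, hXN⟩ := Cfsg.Agent.S0199.result _ hXp hyp
    exact hXN.trans (Cfsg.Agent.Helper1.le_fitting hN hNp.isNilpotent)
  have hAF : A ≤ Cfsg.fittingSubgroup G := by
    have hdvd : Nat.card A ∣ Nat.card ↥(A ⊓ Cfsg.fittingSubgroup G) := by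
      rw [← Nat.factorization_prime_le_iff_dvd Nat.card_pos.ne' Nat.card_pos.ne']
      intro p hp
      haveI : Fact p.Prime := ⟨hp⟩
      obtain ⟨Q⟩ : Nonempty (Sylow p A) := inferInstance
      have h1 : (Q : Subgroup A).map A.subtype ≤ A ⊓ Cfsg.fittingSubgroup G :=
        le_inf (Subgroup.map_subtype_le _) (hsyl p Q)
      have h2 : Nat.card ((Q : Subgroup A).map A.subtype) = p ^ (Nat.card A).factorization p := by
        rw [Subgroup.card_map_of_injective A.subtype_injective]
        exact Q.card_eq_multiplicity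
      have h3 := Subgroup.card_dvd_of_le h1
      rw [h2] at h3
      exact (hp.pow_dvd_iff_le_factorization Nat.card_pos.ne').mp h3
    have heq : A ⊓ Cfsg.fittingSubgroup G = A :=
      Subgroup.eq_of_le_of_card_ge inf_le_left (Nat.le_of_dvd Nat.card_pos hdvd)
    exact inf_eq_left.mp heq
  refine ⟨?_, hAF⟩
  haveI hFn : (Cfsg.fittingSubgroup G).Normal := Cfsg.Agent.Helper1.fitting_normal G
  have hFnil : Group.IsNilpotent (Cfsg.fittingSubgroup G) := Cfsg.Agent.Helper1.fitting_isNilpotent
  exact Subgroup.IsSubnormal.trans hAF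
    ((Cfsg.Agent.S0064.result (G := Cfsg.fittingSubgroup G)).mp hFnil _)
    (Subgroup.Normal.isSubnormal hFn)

end Cfsg.Agent.S0067
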