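import Cfsg.Statements.S0068
import Mathlib

set_option autoImplicit false
open Cfsg

namespace Cfsg.Agent.S0068

/-- Frobenius complements of even order: if H complements a nontrivial normal subgroup K, each nonidentity element of H has trivial centraliser in K, and H has even order, then H contains a unique involution s, K is abelian, and s inverts every element of K. -/
theorem result {G : Type*} [Group G] [Finite G] (K H : Subgroup G) [K.Normal]
    (hc : Subgroup.IsComplement' K H) (hK : K ≠ ⊥) (hfpf : ∀ h ∈ H, h ≠ 1 → K ⊓ Subgroup.centralizer {h} = ⊥)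
    (heven : 2 ∣ Nat.card H) :
    (∃ s ∈ H, orderOf s = 2 ∧ (∀ t ∈ H, orderOf t = 2 → t = s) ∧ ∀ k ∈ K, s * k * s⁻¹ = k⁻¹) ∧ IsMulCommutative K := by
  classical
  have hKn : K.Normal := inferInstance
  have hinv : ∀ t ∈ H, orderOf t = 2 → ∀ k ∈ K, t * k * t⁻¹ = k⁻¹ := by
    intro t htH ht2 k hk
    have htt : t * t = 1 := by
      have h := pow_orderOf_eq_one t
      rw [ht2, pow_two] at h
      exact h
    have hti : t⁻¹ = t := inv_eq_of_mul_eq_one_right htt
    have ht1 : t ≠ 1 := by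
      intro h
      rw [h, orderOf_one] at ht2
      exact absurd ht2 (by norm_num)
    have hfix := hfpf t htH ht1
    let φ : ↥K → ↥K := fun x => ⟨(x : G)⁻¹ * (t * (x : G) * t⁻¹),
      K.mul_mem (K.inv_mem x.2) (hKn.conj_mem _ x.2 t)⟩
    have hinj : Function.Injective φ := by
      intro x y hxy
      have h : (x : G)⁻¹ * (t * (x : G) * t⁻¹) = (y : G)⁻¹ * (t * (y : G) * t⁻¹) :=
        congrArg Subtype.val hxy
      have h' : t * ((x : G) * (y : G)⁻¹) = ((x : G) * (y : G)⁻¹) * t := by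
        calc t * ((x : G) * (y : G)⁻¹)
            = (x : G) * ((x : G)⁻¹ * (t * (x : G) * t⁻¹)) * t * (y : G)⁻¹ := by group
          _ = (x : G) * ((y : G)⁻¹ * (t * (y : G) * t⁻¹)) * t * (y : G)⁻¹ := by rw [h]
          _ = ((x : G) * (y : G)⁻¹) * t := by group
      have hmem : (x : G) * (y : G)⁻¹ ∈ K ⊓ Subgroup.centralizer {t} := by
        refine Subgroup.mem_inf.2 ⟨K.mul_mem x.2 (K.inv_mem y.2), ?_⟩
        rw [Subgroup.mem_centralizer_iff]
        intro z hz
        rw [Set.mem_singleton_iff] at hz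
        rw [hz]
        exact h'
      rw [hfix, Subgroup.mem_bot] at hmem
      exact Subtype.ext (mul_inv_eq_one.1 hmem)
    have hsurj : Function.Surjective φ := Finite.surjective_of_injective hinj
    obtain ⟨x, hx⟩ := hsurj ⟨k, hk⟩
    have hx' : (x : G)⁻¹ * (t * (x : G) * t⁻¹) = k := congrArg Subtype.val hx
    rw [← hx']
    calc t * ((x : G)⁻¹ * (t * (x : G) * t⁻¹)) * t⁻¹
        = t * (x : G)⁻¹ * t * (x : G) * (t⁻¹ * t⁻¹) := by group
      _ = t * (x : G)⁻¹ * t * (x : G) := by rw [hti, htt, mul_one]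
      _ = t * (x : G)⁻¹ * t⁻¹ * (x : G) := by rw [hti]
      _ = ((x : G)⁻¹ * (t * (x : G) * t⁻¹))⁻¹ := by group
  haveI : Fact (Nat.Prime 2) := ⟨Nat.prime_two⟩
  obtain ⟨s', hs'⟩ := exists_prime_orderOf_dvd_card' (G := ↥H) 2 heven
  have hs2 : orderOf (s' : G) = 2 := by rw [Subgroup.orderOf_coe]; exact hs'
  have hsH : (s' : G) ∈ H := s'.2
  have hss : (s' : G) * (s' : G) = 1 := by
    have h := pow_orderOf_eq_one (s' : G)
    rw [hs2, pow_two] at h
    exact h
  have hsi : (s' : G)⁻¹ = (s' : G) := inv_eq_of_mul_eq_one_right hss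
  refine ⟨⟨(s' : G), hsH, hs2, ?_, fun k hk => hinv _ hsH hs2 k hk⟩, ?_⟩
  · intro t htH ht2
    by_contra hne
    have huH : t * (s' : G)⁻¹ ∈ H := H.mul_mem htH (H.inv_mem hsH)
    have hu1 : t * (s' : G)⁻¹ ≠ 1 := fun h => hne (mul_inv_eq_one.1 h)
    have hfix := hfpf _ huH hu1
    apply hK
    rw [eq_bot_iff]
    intro k hk
    have hA : (s' : G) * k = k⁻¹ * (s' : G) := by
      have h := hinv _ hsH hs2 k hk
      calc (s' : G) * k = ((s' : G) * k * (s' : G)⁻¹) * (s' : G) := by group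
        _ = k⁻¹ * (s' : G) := by rw [h]
    have hB : t * k⁻¹ = k * t := by
      have h := hinv t htH ht2 k⁻¹ (K.inv_mem hk)
      calc t * k⁻¹ = (t * k⁻¹ * t⁻¹) * t := by group
        _ = k * t := by rw [h, inv_inv]
    have hcomm : (t * (s' : G)⁻¹) * k = k * (t * (s' : G)⁻¹) := by
      calc (t * (s' : G)⁻¹) * k = t * ((s' : G) * k) := by rw [hsi, mul_assoc]
        _ = t * (k⁻¹ * (s' : G)) := by rw [hA]
        _ = (t * k⁻¹) * (s' : G) := by rw [mul_assoc]
        _ = (k * t) * (s' : G) := by rw [hB]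
        _ = k * (t * (s' : G)⁻¹) := by rw [hsi, mul_assoc]
    have hmem : k ∈ K ⊓ Subgroup.centralizer {t * (s' : G)⁻¹} := by
      refine Subgroup.mem_inf.2 ⟨hk, ?_⟩
      rw [Subgroup.mem_centralizer_iff]
      intro z hz
      rw [Set.mem_singleton_iff] at hz
      rw [hz]
      exact hcomm
    rw [hfix] at hmem
    exact hmem
  · refine ⟨⟨fun a b => Subtype.ext ?_⟩⟩
    have h1 := hinv _ hsH hs2 ((a : G) * (b : G)) (K.mul_mem a.2 b.2)
    have h2 := hinv _ hsH hs2 (a : G) a.2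
    have h3 := hinv _ hsH hs2 (b : G) b.2
    have h4 : ((a : G) * (b : G))⁻¹ = ((b : G) * (a : G))⁻¹ := by
      calc ((a : G) * (b : G))⁻¹ = (s' : G) * ((a : G) * (b : G)) * (s' : G)⁻¹ := h1.symm
        _ = ((s' : G) * (a : G) * (s' : G)⁻¹) * ((s' : G) * (b : G) * (s' : G)⁻¹) := by group
        _ = (a : G)⁻¹ * (b : G)⁻¹ := by rw [h2, h3]
        _ = ((b : G) * (a : G))⁻¹ := by group
    exact inv_injective h4

end Cfsg.Agent.S0068
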