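import Cfsg.Statements.S0070
import Cfsg.Agent.Helper1.Fitting

set_option autoImplicit false
open Cfsg

namespace Cfsg.Agent.S0070

/-- Gaschütz: a normal subgroup `K ≥ Φ(G)` with `K / Φ(G)` nilpotent is nilpotent. -/
theorem nilpotent_of_map_frattini {G : Type*} [Group G] [Finite G] (K : Subgroup G)
    (hK : K.Normal) (hΦ : frattini G ≤ K)
    (hnil : Group.IsNilpotent (K.map (QuotientGroup.mk' (frattini G)))) :
    Group.IsNilpotent K := by
  have q := (Group.isNilpotent_of_finite_tfae (G := K)).out 0 3
  rw [q]
  intro p hp P
  haveI := hp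
  have hπs : Function.Surjective (QuotientGroup.mk' (frattini G)) := QuotientGroup.mk'_surjective _
  have hKbar : (K.map (QuotientGroup.mk' (frattini G))).Normal := hK.map _ hπs
  have hf : Function.Surjective ((QuotientGroup.mk' (frattini G)).subgroupMap K) :=
    (QuotientGroup.mk' (frattini G)).subgroupMap_surjective K
  have hQn := Helper1.sylow_of_normal_nilpotent_normal hKbar hnil p (P.mapSurjective hf)
  have hQmap : ((P.mapSurjective hf : Sylow p (K.map (QuotientGroup.mk' (frattini G)))) :
      Subgroup (K.map (QuotientGroup.mk' (frattini G)))).map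
        (K.map (QuotientGroup.mk' (frattini G))).subtype
      = ((P : Subgroup K).map K.subtype).map (QuotientGroup.mk' (frattini G)) := by
    rw [Sylow.coe_mapSurjective, Subgroup.map_map, Subgroup.map_map]
    rfl
  rw [hQmap] at hQn
  have hLn : ((P : Subgroup K).map K.subtype ⊔ frattini G).Normal := by
    have := hQn.comap (QuotientGroup.mk' (frattini G))
    rw [Subgroup.comap_map_eq, QuotientGroup.ker_mk'] at this
    exact this
  have hP'L : (P : Subgroup K).map K.subtype ≤ (P : Subgroup K).map K.subtype ⊔ frattini G :=
    le_sup_left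
  have hP'K : (P : Subgroup K).map K.subtype ≤ K := Subgroup.map_subtype_le _
  have hLK : (P : Subgroup K).map K.subtype ⊔ frattini G ≤ K := sup_le hP'K hΦ
  have hpg : IsPGroup p (((P : Subgroup K).map K.subtype).subgroupOf
      ((P : Subgroup K).map K.subtype ⊔ frattini G)) :=
    (P.isPGroup'.map K.subtype).comap_subtype
  have hidx : ¬ p ∣ (((P : Subgroup K).map K.subtype).subgroupOf
      ((P : Subgroup K).map K.subtype ⊔ frattini G)).index := by
    intro hdvd
    apply P.not_dvd_index
    have h1 := Subgroup.relIndex_mul_relIndex _ _ _ hP'L hLK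
    have h2 : ((P : Subgroup K).map K.subtype).relIndex K = (P : Subgroup K).index := by
      show (((P : Subgroup K).map K.subtype).comap K.subtype).index = _
      rw [Subgroup.comap_map_eq_self_of_injective K.subtype_injective]
    rw [← h2, ← h1]
    exact Dvd.dvd.mul_right hdvd _
  haveI := hLn
  have h3 := Sylow.normalizer_sup_eq_top (hpg.toSylow hidx)
  have h4 : ((hpg.toSylow hidx : Sylow p ((P : Subgroup K).map K.subtype ⊔ frattini G : Subgroup G)) :
      Subgroup ((P : Subgroup K).map K.subtype ⊔ frattini G : Subgroup G)).map
        ((P : Subgroup K).map K.subtype ⊔ frattini G : Subgroup G).subtype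
      = (P : Subgroup K).map K.subtype := by
    rw [IsPGroup.toSylow_coe, Subgroup.subgroupOf_map_subtype, inf_of_le_left hP'L]
  rw [h4] at h3
  have h5 : Subgroup.normalizer (((P : Subgroup K).map K.subtype : Subgroup G) : Set G)
      ⊔ frattini G = ⊤ := by
    rw [← h3, ← sup_assoc, sup_eq_left.mpr Subgroup.le_normalizer]
  have h6 := frattini_nongenerating h5
  have h7 : ((P : Subgroup K).map K.subtype).Normal := Subgroup.normalizer_eq_top_iff.mp h6
  exact h7.of_map_subtype

/-- The Fitting subgroup commutes with passing to the Frattini quotient: the Fitting subgroup of G modulo its Frattini subgroup is the image of the Fitting subgroup of G. -/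
theorem result {G : Type*} [Group G] [Finite G] :
    Cfsg.fittingSubgroup (G ⧸ frattini G) = (Cfsg.fittingSubgroup G).map (QuotientGroup.mk' (frattini G)) := by
  have hπs : Function.Surjective (QuotientGroup.mk' (frattini G)) := QuotientGroup.mk'_surjective _
  apply le_antisymm
  · have hKn : ((Cfsg.fittingSubgroup (G ⧸ frattini G)).comap
        (QuotientGroup.mk' (frattini G))).Normal :=
      (Helper1.fitting_normal _).comap _
    have hΦ : frattini G ≤ (Cfsg.fittingSubgroup (G ⧸ frattini G)).comap
        (QuotientGroup.mk' (frattini G)) := by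
      intro x hx
      rw [Subgroup.mem_comap]
      have : QuotientGroup.mk' (frattini G) x = 1 := (QuotientGroup.eq_one_iff x).mpr hx
      rw [this]; exact Subgroup.one_mem _
    have hmap : ((Cfsg.fittingSubgroup (G ⧸ frattini G)).comap
        (QuotientGroup.mk' (frattini G))).map (QuotientGroup.mk' (frattini G))
        = Cfsg.fittingSubgroup (G ⧸ frattini G) :=
      Subgroup.map_comap_eq_self_of_surjective hπs _
    have hnil : Group.IsNilpotent (((Cfsg.fittingSubgroup (G ⧸ frattini G)).comap
        (QuotientGroup.mk' (frattini G))).map (QuotientGroup.mk' (frattini G))) := by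
      rw [hmap]; exact Helper1.fitting_isNilpotent
    have hK := nilpotent_of_map_frattini _ hKn hΦ hnil
    have hle := Helper1.le_fitting hKn hK
    calc Cfsg.fittingSubgroup (G ⧸ frattini G)
        = ((Cfsg.fittingSubgroup (G ⧸ frattini G)).comap
          (QuotientGroup.mk' (frattini G))).map (QuotientGroup.mk' (frattini G)) := hmap.symm
      _ ≤ (Cfsg.fittingSubgroup G).map (QuotientGroup.mk' (frattini G)) := Subgroup.map_mono hle
  · apply Helper1.le_fitting ((Helper1.fitting_normal G).map _ hπs)
    haveI : Group.IsNilpotent (Cfsg.fittingSubgroup G) := Helper1.fitting_isNilpotent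
    exact nilpotent_of_surjective ((QuotientGroup.mk' (frattini G)).subgroupMap
      (Cfsg.fittingSubgroup G)) ((QuotientGroup.mk' (frattini G)).subgroupMap_surjective _)

end Cfsg.Agent.S0070
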