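import Cfsg.Statements.S0072
import Mathlib
import Cfsg.Agent.Helper1.Frobenius

set_option autoImplicit false
open Cfsg

namespace Cfsg.Agent.S0072

/-- A finite group has a normal p-complement if and only if every p-local subgroup (normalizer of a nontrivial p-subgroup) has one. -/
theorem result {G : Type*} [Group G] [Finite G] (p : ℕ) [Fact p.Prime] : Cfsg.HasNormalPComplement p G ↔ ∀ Q : Subgroup G, IsPGroup p Q → Q ≠ ⊥ → Cfsg.HasNormalPComplement p (Subgroup.normalizer (Q : Set G)) := by
  constructor
  · intro h Q _ _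
    exact Cfsg.Agent.Helper1.npc_subgroup _ h
  · intro h
    apply Cfsg.Agent.Helper1.npc_of_local
    intro Q hQ g hg hgo
    by_cases hQb : Q = ⊥
    · rw [hQb, Subgroup.mem_centralizer_iff]
      intro x hx
      have hx1 : x = 1 := by simpa using hx
      rw [hx1, one_mul, mul_one]
    · have hL := Cfsg.Agent.Helper1.local_of_npc (h Q hQ hQb)
      have hQ' : IsPGroup p (Q.subgroupOf (Subgroup.normalizer (Q : Set G))) := hQ.comap_subtype
      have hg' : (⟨g, hg⟩ : Subgroup.normalizer (Q : Set G)) ∈ Subgroup.normalizer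
          ((Q.subgroupOf (Subgroup.normalizer (Q : Set G)) :
            Subgroup (Subgroup.normalizer (Q : Set G))) :
            Set (Subgroup.normalizer (Q : Set G))) := by
        rw [Subgroup.mem_normalizer_iff]
        intro y
        show (y : G) ∈ Q ↔ g * (y : G) * g⁻¹ ∈ Q
        exact Subgroup.mem_normalizer_iff.mp hg (y : G)
      have hc := hL _ hQ' ⟨g, hg⟩ hg' (by rw [Subgroup.orderOf_mk]; exact hgo)
      rw [Subgroup.mem_centralizer_iff] at hc ⊢
      intro x hx
      have h2 := hc ⟨x, Subgroup.le_normalizer hx⟩ (Subgroup.mem_subgroupOf.mpr hx)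
      exact congrArg Subtype.val h2

end Cfsg.Agent.S0072
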