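import Cfsg.Statements.S0073
import Mathlib

set_option autoImplicit false
open Cfsg

namespace Cfsg.Agent.S0073

/-- For a finite non-abelian simple group, either the cube of the least prime divisor of the order divides the order, or 12 does. -/
theorem result {G : Type*} [Group G] [Finite G] [IsSimpleGroup G] (hG : ∃ x y : G, x * y ≠ y * x) : (Nat.card G).minFac ^ 3 ∣ Nat.card G ∨ 12 ∣ Nat.card G := by
  classical
  by_contra hcon
  push Not at hcon
  obtain ⟨h3, h12⟩ := hcon
  have hcard1 : Nat.card G ≠ 1 := by
    intro h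
    obtain ⟨x, y, hxy⟩ := hG
    have := (Nat.card_eq_one_iff_unique.mp h).1
    exact hxy (Subsingleton.elim _ _)
  obtain ⟨p, hp⟩ : ∃ p, p = (Nat.card G).minFac := ⟨_, rfl⟩
  rw [← hp] at h3
  have hpp : p.Prime := hp ▸ Nat.minFac_prime hcard1
  haveI : Fact p.Prime := ⟨hpp⟩
  have hpdvd : p ∣ Nat.card G := hp ▸ Nat.minFac_dvd _
  obtain ⟨P⟩ : Nonempty (Sylow p G) := inferInstance
  obtain ⟨k, hk⟩ := P.2.exists_card_eq
  have hk2 : k ≤ 2 := by
    by_contra hk3
    push Not at hk3
    apply h3
    calc p ^ 3 ∣ p ^ k := pow_dvd_pow p hk3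
      _ = Nat.card P := hk.symm
      _ ∣ Nat.card G := Subgroup.card_subgroup_dvd_card _
  have hk1 : 1 ≤ k := by
    by_contra hk0
    have h0 : k = 0 := by omega
    rw [h0, pow_zero] at hk
    have hPbot : (P : Subgroup G) = ⊥ := Subgroup.eq_bot_of_card_eq _ hk
    exact P.ne_bot_of_dvd_card hpdvd hPbot
  have hPcomm : ∀ a b : P, a * b = b * a := by
    have hk' : k = 1 ∨ k = 2 := by omega
    rcases hk' with rfl | rfl
    · rw [pow_one] at hk
      haveI : IsCyclic P := isCyclic_of_prime_card hk
      intro a b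
      exact (IsCyclic.commGroup).mul_comm a b
    · exact IsPGroup.commutative_of_card_eq_prime_sq hk
  have hPC : (P : Subgroup G) ≤ Subgroup.centralizer (P : Set G) := by
    intro x hx
    apply Subgroup.mem_centralizer_iff.mpr
    intro y hy
    have := hPcomm ⟨y, hy⟩ ⟨x, hx⟩
    exact congrArg Subtype.val this
  by_cases hle : Subgroup.normalizer (P : Set G) ≤ Subgroup.centralizer (P : Set G)
  · -- Burnside
    obtain ⟨K, hKn, hK⟩ : ∃ K : Subgroup G, K.Normal ∧ K.IsComplement' P :=
      ⟨_, MonoidHom.normal_ker _, MonoidHom.ker_transferSylow_isComplement' P hle⟩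
    have hmul := hK.card_mul
    rcases hKn.eq_bot_or_eq_top with hb | ht
    · rw [hb, Subgroup.card_bot, one_mul] at hmul
      have hPtop : (P : Subgroup G) = ⊤ := Subgroup.eq_top_of_card_eq _ hmul
      obtain ⟨x, y, hxy⟩ := hG
      apply hxy
      have hx : x ∈ (P : Subgroup G) := hPtop ▸ Subgroup.mem_top x
      have hy : y ∈ (P : Subgroup G) := hPtop ▸ Subgroup.mem_top y
      have := hPcomm ⟨x, hx⟩ ⟨y, hy⟩
      exact congrArg Subtype.val this
    · rw [ht, Subgroup.card_top] at hmul
      have h1 : Nat.card P = 1 := by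
        have hpos : 0 < Nat.card G := Nat.card_pos
        nlinarith
      rw [hk] at h1
      have : 1 < p ^ k := Nat.one_lt_pow (by omega) hpp.one_lt
      omega
  · -- automorphism case
    obtain ⟨φ, hker⟩ : ∃ φ : ↥(Subgroup.normalizer (P : Set G)) →* MulAut P,
        φ.ker = (Subgroup.centralizer (P : Set G)).subgroupOf (Subgroup.normalizer (P : Set G)) :=
      ⟨_, Subgroup.normalizerMonoidHom_ker _⟩
    have hrange1 : Nat.card φ.range ≠ 1 := by
      intro h1
      rw [← Subgroup.index_ker, Subgroup.index_eq_one, hker, Subgroup.subgroupOf_eq_top] at h1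
      exact hle h1
    have hrdvd : Nat.card φ.range ∣ (P : Subgroup G).index := by
      rw [← Subgroup.index_ker, hker]
      exact (Subgroup.relIndex_dvd_of_le_left _ hPC).trans
        (Subgroup.relIndex_dvd_index_of_le Subgroup.le_normalizer)
    obtain ⟨r, hr⟩ : ∃ r, r = (Nat.card φ.range).minFac := ⟨_, rfl⟩
    have hrp : r.Prime := hr ▸ Nat.minFac_prime hrange1
    haveI : Fact r.Prime := ⟨hrp⟩
    have hr1 : r ∣ Nat.card φ.range := hr ▸ Nat.minFac_dvd _
    have hrne : r ≠ p := by
      intro h
      have h' : p ∣ (P : Subgroup G).index := by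
        have h'' := hr1.trans hrdvd
        rw [h] at h''
        exact h''
      exact P.not_dvd_index h'
    have hrG : r ∣ Nat.card G :=
      hr1.trans ((Subgroup.card_range_dvd φ).trans (Subgroup.card_subgroup_dvd_card _))
    have hpr : p < r := by
      have : p ≤ r := hp ▸ Nat.minFac_le_of_dvd hrp.two_le hrG
      omega
    obtain ⟨ψ', hψ'⟩ := exists_prime_orderOf_dvd_card' r hr1
    obtain ⟨ψ, hψ⟩ : ∃ ψ : MulAut P, orderOf ψ = r :=
      ⟨(ψ' : MulAut P), by rw [Subgroup.orderOf_coe]; exact hψ'⟩
    obtain ⟨F, hF⟩ : ∃ F : Subgroup P, ∀ x, x ∈ F ↔ ψ x = x :=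
      ⟨{ carrier := {x | ψ x = x}
         mul_mem' := fun {a b} ha hb => by
           show ψ (a * b) = a * b
           rw [map_mul, show ψ a = a from ha, show ψ b = b from hb]
         one_mem' := map_one ψ
         inv_mem' := fun {a} ha => by
           show ψ a⁻¹ = a⁻¹
           rw [map_inv, show ψ a = a from ha] }, fun x => Iff.rfl⟩
    have hFtop : F ≠ ⊤ := by
      intro h
      have h1 : ψ = 1 := by
        ext x
        have hx : x ∈ F := h ▸ Subgroup.mem_top x
        have hx' : ψ x = x := (hF x).mp hx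
        rw [hx']; rfl
      rw [h1, orderOf_one] at hψ
      exact hrp.one_lt.ne' hψ.symm
    have hFlt : Nat.card F < Nat.card P := by
      have h1 : Nat.card F ≤ Nat.card P := Subgroup.card_le_card_group F
      have h2 : Nat.card F ≠ Nat.card P := fun h => hFtop (Subgroup.eq_top_of_card_eq F h)
      omega
    obtain ⟨j, hj⟩ : ∃ j, Nat.card F = p ^ j := (P.2.to_subgroup F).exists_card_eq
    have hmod : Nat.card P ≡ Nat.card F [MOD r] := by
      let f : Function.End P := (ψ : P → P)
      have hpow : ∀ n : ℕ, (f ^ n : Function.End P) = ((ψ ^ n : MulAut P) : P → P) := by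
        intro n
        induction n with
        | zero => rfl
        | succ n ih => rw [pow_succ, pow_succ, ih]; rfl
      have hf : f ^ r ^ 1 = 1 := by
        rw [pow_one, hpow, ← hψ, pow_orderOf_eq_one]; rfl
      haveI : Fintype P := Fintype.ofFinite P
      have key := Equiv.Perm.card_fixedPoints_modEq (f := f) (p := r) (n := 1) hf
      rw [← Nat.card_eq_fintype_card, ← Nat.card_eq_fintype_card] at key
      have he : Nat.card (Function.fixedPoints f) = Nat.card F :=
        Nat.card_congr (Equiv.subtypeEquivRight (fun x => (hF x).symm))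
      rw [he] at key
      exact key
    rw [hk, hj] at hmod hFlt
    have hjk : j < k := (Nat.pow_lt_pow_iff_right hpp.one_lt).mp hFlt
    have hdvd : r ∣ p ^ k - p ^ j :=
      (Nat.modEq_iff_dvd' (Nat.pow_le_pow_right hpp.pos hjk.le)).mp hmod.symm
    have hp2 := hpp.two_le
    have hcases : (k = 1 ∧ j = 0) ∨ (k = 2 ∧ j = 0) ∨ (k = 2 ∧ j = 1) := by omega
    rcases hcases with ⟨rfl, rfl⟩ | ⟨rfl, rfl⟩ | ⟨rfl, rfl⟩
    · rw [pow_one, pow_zero] at hdvd
      have := Nat.le_of_dvd (by omega) hdvd
      omega
    · rw [pow_zero] at hdvd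
      have he : p ^ 2 - 1 = (p - 1) * (p + 1) := by
        obtain ⟨q, rfl⟩ : ∃ q, p = q + 1 := ⟨p - 1, by omega⟩
        have h1 : (q + 1) ^ 2 = q * (q + 1 + 1) + 1 := by ring
        have h2 : q + 1 - 1 = q := by omega
        rw [h2, h1]; omega
      rw [he] at hdvd
      rcases (Nat.Prime.dvd_mul hrp).mp hdvd with h | h
      · have := Nat.le_of_dvd (by omega) h
        omega
      · have hle' := Nat.le_of_dvd (by omega) h
        have hrp1 : r = p + 1 := by omega
        have hp2' : p = 2 := by
          rcases hpp.eq_two_or_odd' with h2 | hodd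
          · exact h2
          · exfalso
            have h2r : 2 ∣ r := by
              rw [hrp1]
              obtain ⟨m, hm⟩ := hodd
              exact ⟨m + 1, by omega⟩
            have := (Nat.prime_dvd_prime_iff_eq Nat.prime_two hrp).mp h2r
            omega
        have h4 : 4 ∣ Nat.card G := by
          have := Subgroup.card_subgroup_dvd_card (P : Subgroup G)
          rw [hk, hp2'] at this
          norm_num at this
          exact this
        have h3' : 3 ∣ Nat.card G := by
          have : r = 3 := by omega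
          rw [this] at hrG
          exact hrG
        exact h12 (Nat.Coprime.mul_dvd_of_dvd_of_dvd (by norm_num : Nat.Coprime 4 3) h4 h3')
    · rw [pow_one] at hdvd
      have he : p ^ 2 - p = p * (p - 1) := by
        obtain ⟨q, rfl⟩ : ∃ q, p = q + 1 := ⟨p - 1, by omega⟩
        have h1 : (q + 1) ^ 2 = (q + 1) * q + (q + 1) := by ring
        have h2 : q + 1 - 1 = q := by omega
        rw [h2, h1]; omega
      rw [he] at hdvd
      rcases (Nat.Prime.dvd_mul hrp).mp hdvd with h | h
      · have := Nat.le_of_dvd (by omega) h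
        omega
      · have := Nat.le_of_dvd (by omega) h
        omega

end Cfsg.Agent.S0073
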