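import Cfsg.Statements.S0076
import Mathlib

set_option autoImplicit false
open Cfsg
open Pointwise

namespace Cfsg.Agent.S0076

/-- Two P-invariant subsets of a Sylow p-subgroup P that are conjugate in G are conjugate under the normalizer of P. -/
theorem result {G : Type*} [Group G] [Finite G] {p : ℕ} [Fact p.Prime] (P : Sylow p G) (X Y : Set G) (hXP : X ⊆ P) (hYP : Y ⊆ P) (hX : ∀ x ∈ P, (fun y => x * y * x⁻¹) '' X = X) (hY : ∀ x ∈ P, (fun y => x * y * x⁻¹) '' Y = Y) (g : G) (hg : (fun y => g * y * g⁻¹) '' X = Y) : ∃ n ∈ Subgroup.normalizer (P : Set G), (fun y => n * y * n⁻¹) '' X = Y := by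
  have hcomp : ∀ (a b : G) (Z : Set G), (fun y => a * y * a⁻¹) '' ((fun y => b * y * b⁻¹) '' Z)
      = (fun y => (a * b) * y * (a * b)⁻¹) '' Z := by
    intro a b Z
    rw [Set.image_image]
    congr 1
    funext y; group
  have hmemS : ∀ c : G, c ∈ Subgroup.normalizer Y ↔ (fun y => c * y * c⁻¹) '' Y = Y := by
    intro c
    rw [Subgroup.mem_normalizer_iff_conj_image_eq]
    rfl
  have h1 : (P : Subgroup G) ≤ Subgroup.normalizer Y := by
    intro x hx
    exact (hmemS x).mpr (hY x hx)
  have h2 : ((g • P : Sylow p G) : Subgroup G) ≤ Subgroup.normalizer Y := by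
    intro q hq
    have hq' : q ∈ MulAut.conj g • (P : Subgroup G) := hq
    rw [Subgroup.mem_smul_pointwise_iff_exists] at hq'
    obtain ⟨x, hx, rfl⟩ := hq'
    rw [MulAut.smul_def, MulAut.conj_apply]
    rw [hmemS]
    rw [← hg, hcomp]
    have : g * x * g⁻¹ * g = g * x := by group
    rw [this, ← hcomp, hX x hx]
  obtain ⟨h, hh⟩ := MulAction.exists_smul_eq (Subgroup.normalizer Y) ((g • P).subtype h2) (P.subtype h1)
  simp_rw [Sylow.smul_subtype, Subgroup.smul_def, smul_smul] at hh
  refine ⟨h * g, Sylow.smul_eq_iff_mem_normalizer.mp (Sylow.subtype_injective hh), ?_⟩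
  rw [← hcomp, hg]
  exact (hmemS h).mp h.2

end Cfsg.Agent.S0076
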