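import Cfsg.Statements.S0077
import Mathlib
import Cfsg.Agent.Helper5.Grp

set_option autoImplicit false
open Cfsg
open scoped commutatorElement

namespace Cfsg.Agent.S0077

theorem fusion {G : Type*} [Group G] [Finite G] {p : ℕ} [Fact p.Prime] (P : Sylow p G)
    (Z : Subgroup G) (hZ : Z ≤ Subgroup.centralizer (P : Set G))
    (hW : Cfsg.IsWeaklyClosed Z P)
    (x g : G) (hx : x ∈ (P : Subgroup G)) (hy : g⁻¹ * x * g ∈ (P : Subgroup G)) :
    ∃ n ∈ Subgroup.normalizer (Z : Set G), g⁻¹ * x * g = n⁻¹ * x * n := by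
  obtain ⟨y, hydef⟩ : ∃ y, y = g⁻¹ * x * g := ⟨_, rfl⟩
  rw [← hydef] at hy ⊢
  have hZp : IsPGroup p Z := P.2.to_le hW.1
  let C : Subgroup G := Subgroup.centralizer {y}
  have hmemC : ∀ z : G, z ∈ C ↔ y * z = z * y := by
    intro z
    constructor
    · intro hz
      exact Subgroup.mem_centralizer_iff.mp hz y rfl
    · intro hz
      apply Subgroup.mem_centralizer_iff.mpr
      intro w hw
      rw [Set.mem_singleton_iff] at hw
      rw [hw]; exact hz
  have hZC : Z ≤ C := by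
    intro z hz
    exact (hmemC z).mpr (Subgroup.mem_centralizer_iff.mp (hZ hz) y hy)
  let Zg : Subgroup G := Z.map (MulAut.conj g⁻¹).toMonoidHom
  have hZgp : IsPGroup p Zg := hZp.map _
  have hZgC : Zg ≤ C := by
    rintro _ ⟨z, hz, rfl⟩
    apply (hmemC _).mpr
    have h1 : x * z = z * x := Subgroup.mem_centralizer_iff.mp (hZ hz) x hx
    show y * (g⁻¹ * z * g⁻¹⁻¹) = (g⁻¹ * z * g⁻¹⁻¹) * y
    calc y * (g⁻¹ * z * g⁻¹⁻¹) = g⁻¹ * (x * z) * g := by rw [hydef]; group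
      _ = g⁻¹ * (z * x) * g := by rw [h1]
      _ = (g⁻¹ * z * g⁻¹⁻¹) * y := by rw [hydef]; group
  obtain ⟨S, hS⟩ := (hZp.comap_subtype (K := C)).exists_le_sylow
  obtain ⟨c, hcC, hc⟩ := Helper5.exists_conj_mem_of_sylow_map C S Zg hZgp hZgC
  have hTp : IsPGroup p ((S : Subgroup C).map C.subtype) := S.2.map C.subtype
  obtain ⟨h, hh⟩ := Helper5.exists_conj_mem_sylow' P _ hTp
  have hZT : ∀ z ∈ Z, z ∈ (S : Subgroup C).map C.subtype := by
    intro z hz
    exact ⟨⟨z, hZC hz⟩, hS (Subgroup.mem_subgroupOf.mpr hz), rfl⟩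
  have hk₁ : h ∈ Subgroup.normalizer (Z : Set G) := by
    have h1 : Z.map (MulAut.conj h).toMonoidHom ≤ P := by
      rintro _ ⟨z, hz, rfl⟩
      exact hh z (hZT z hz)
    have h2 := hW.2 h h1
    apply Helper5.mem_normalizer_of_conj_mem
    intro q hq
    rw [← h2]
    exact ⟨q, hq, rfl⟩
  have hk₂ : h * c * g⁻¹ ∈ Subgroup.normalizer (Z : Set G) := by
    have h1 : Z.map (MulAut.conj (h * c * g⁻¹)).toMonoidHom ≤ P := by
      rintro _ ⟨z, hz, rfl⟩
      have h3 : g⁻¹ * z * g⁻¹⁻¹ ∈ Zg := ⟨z, hz, rfl⟩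
      have h4 := hh _ (hc _ h3)
      have h5 : (MulAut.conj (h * c * g⁻¹)).toMonoidHom z
          = h * (c * (g⁻¹ * z * g⁻¹⁻¹) * c⁻¹) * h⁻¹ := by
        show (h * c * g⁻¹) * z * (h * c * g⁻¹)⁻¹ = _
        group
      rw [h5]; exact h4
    have h2 := hW.2 _ h1
    apply Helper5.mem_normalizer_of_conj_mem
    intro q hq
    rw [← h2]
    exact ⟨q, hq, rfl⟩
  have hn : g * c⁻¹ ∈ Subgroup.normalizer (Z : Set G) := by
    have h1 := Subgroup.mul_mem _ (Subgroup.inv_mem _ hk₂) hk₁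
    have h2 : (h * c * g⁻¹)⁻¹ * h = g * c⁻¹ := by group
    rw [h2] at h1; exact h1
  refine ⟨g * c⁻¹, hn, ?_⟩
  have h1 : y * c = c * y := (hmemC c).mp hcC
  calc y = y * c * c⁻¹ := by group
    _ = c * y * c⁻¹ := by rw [h1]
    _ = (g * c⁻¹)⁻¹ * x * (g * c⁻¹) := by rw [hydef]; group

theorem focal_le {G : Type*} [Group G] [Finite G] {p : ℕ} [Fact p.Prime] (P : Sylow p G)
    (Z : Subgroup G) (hZ : Z ≤ Subgroup.centralizer (P : Set G))
    (hW : Cfsg.IsWeaklyClosed Z P) :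
    (P : Subgroup G).focalSubgroup ≤
      ⁅Subgroup.normalizer (Z : Set G), Subgroup.normalizer (Z : Set G)⁆ := by
  have hPN : (P : Subgroup G) ≤ Subgroup.normalizer (Z : Set G) := by
    intro a ha
    apply Helper5.mem_normalizer_of_conj_mem
    intro q hq
    have : a * q = q * a := Subgroup.mem_centralizer_iff.mp (hZ hq) a ha
    rw [this, mul_inv_cancel_right]; exact hq
  rw [Subgroup.focalSubgroup_def, Subgroup.closure_le]
  rintro g ⟨hg, x, hx, u, rfl⟩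
  have hx' : x⁻¹ ∈ (P : Subgroup G) := Subgroup.inv_mem _ hx
  have h1 : u⁻¹⁻¹ * x⁻¹ * u⁻¹ ∈ (P : Subgroup G) := by
    have : u⁻¹⁻¹ * x⁻¹ * u⁻¹ = x⁻¹ * ⁅x, u⁆ := by rw [commutatorElement_def]; group
    rw [this]; exact Subgroup.mul_mem _ hx' hg
  obtain ⟨n, hn, hnx⟩ := fusion P Z hZ hW x⁻¹ u⁻¹ hx' h1
  have e : ⁅x, u⁆ = ⁅x, n⁻¹⁆ := by
    have e1 : ⁅x, u⁆ = x * (u⁻¹⁻¹ * x⁻¹ * u⁻¹) := by rw [commutatorElement_def]; group
    rw [e1, hnx, commutatorElement_def]; group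
  rw [SetLike.mem_coe, e]
  exact Subgroup.commutator_mem_commutator (hPN hx) (Subgroup.inv_mem _ hn)

/-- If a subgroup Z of the centre of a Sylow p-subgroup P is weakly closed in P, then P meets the derived subgroup of G exactly where it meets the derived subgroup of the normalizer of Z. -/
theorem result {G : Type*} [Group G] [Finite G] {p : ℕ} [Fact p.Prime] (P : Sylow p G) (Z : Subgroup G) (hZ : Z ≤ Subgroup.centralizer (P : Set G)) (hW : Cfsg.IsWeaklyClosed Z P) : commutator G ⊓ (P : Subgroup G) = ⁅Subgroup.normalizer (Z : Set G), Subgroup.normalizer (Z : Set G)⁆ ⊓ (P : Subgroup G) := by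
  apply le_antisymm
  · rw [Subgroup.commutator_inf_eq_focalSubgroup P]
    exact le_inf (focal_le P Z hZ hW) (Subgroup.focalSubgroup_le _)
  · exact inf_le_inf_right _ (Subgroup.commutator_mono le_top le_top)

end Cfsg.Agent.S0077
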