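import Cfsg.Statements.S0079
import Mathlib
import Cfsg.Agent.Helper1.Frobenius

set_option autoImplicit false
open Cfsg

namespace Cfsg.Agent.S0079

theorem mem_sylow_of_nilpotent {G : Type*} [Group G] [Finite G] (H : Subgroup G)
    (hH : Group.IsNilpotent H) (p : ℕ) [Fact p.Prime] (PH : Sylow p H) (x : G) (hx : x ∈ H)
    (k : ℕ) (hxk : x ^ (p ^ k) = 1) : x ∈ (PH : Subgroup H).map H.subtype := by
  have q := (Group.isNilpotent_of_finite_tfae (G := H)).out 0 3
  haveI hn : (PH : Subgroup H).Normal := (q.mp hH) p inferInstance PH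
  have hz : IsPGroup p (Subgroup.zpowers (⟨x, hx⟩ : H)) :=
    Cfsg.Agent.Helper1.isPGroup_zpowers _ k (Subtype.ext (by simpa using hxk))
  obtain ⟨R, hR⟩ := hz.exists_le_sylow
  obtain ⟨g, hg⟩ := MulAction.exists_smul_eq H PH R
  rw [Sylow.smul_eq_of_normal] at hg
  rw [← hg] at hR
  exact ⟨⟨x, hx⟩, hR (Subgroup.mem_zpowers _), rfl⟩

/-- A nilpotent Hall subgroup has a normal complement exactly when elements of it that are conjugate in the whole group are already conjugate inside it. -/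
theorem result {G : Type*} [Group G] [Finite G] (H : Subgroup G) (hH : Group.IsNilpotent H) (hHall : Nat.Coprime (Nat.card H) H.index) : (∃ N : Subgroup G, N.Normal ∧ N.IsComplement' H) ↔ ∀ x ∈ H, ∀ y ∈ H, (∃ g : G, g * x * g⁻¹ = y) → ∃ h ∈ H, h * x * h⁻¹ = y := by
  constructor
  · rintro ⟨N, hN, hc⟩ x hx y hy ⟨g, hg⟩
    obtain ⟨⟨n, h⟩, hnh⟩ := hc.2 g
    have hg' : (n : G) * (h : G) = g := hnh
    refine ⟨(h : G), h.2, ?_⟩
    have hx' : (h : G) * x * (h : G)⁻¹ ∈ H := H.mul_mem (H.mul_mem h.2 hx) (H.inv_mem h.2)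
    have hzH : y * ((h : G) * x * (h : G)⁻¹)⁻¹ ∈ H := H.mul_mem hy (H.inv_mem hx')
    have hzN : y * ((h : G) * x * (h : G)⁻¹)⁻¹ ∈ N := by
      have e : y * ((h : G) * x * (h : G)⁻¹)⁻¹ = (n : G) * (((h : G) * x * (h : G)⁻¹) * (n : G)⁻¹ *
          ((h : G) * x * (h : G)⁻¹)⁻¹) := by
        rw [← hg, ← hg']; group
      rw [e]
      exact N.mul_mem n.2 (hN.conj_mem _ (N.inv_mem n.2) _)
    have hz : y * ((h : G) * x * (h : G)⁻¹)⁻¹ ∈ N ⊓ H := ⟨hzN, hzH⟩
    rw [hc.disjoint.eq_bot, Subgroup.mem_bot] at hz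
    exact (mul_inv_eq_one.mp hz).symm
  · intro hfus
    classical
    obtain ⟨𝒦, h𝒦⟩ : ∃ 𝒦 : Set (Subgroup G), 𝒦 = {K : Subgroup G | K.Normal ∧
        ∃ p k : ℕ, p.Prime ∧ p ∣ Nat.card H ∧ K.index = p ^ k} := ⟨_, rfl⟩
    have hNn : (sInf 𝒦).Normal := by
      constructor
      intro n hn g
      rw [Subgroup.mem_sInf] at hn ⊢
      intro K hK
      have hKn : K.Normal := by rw [h𝒦] at hK; exact hK.1
      exact hKn.conj_mem n (hn K hK) g
    have hcardG : Nat.card H * H.index = Nat.card G := Subgroup.card_mul_index H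
    have hex : ∀ p : ℕ, p.Prime → p ∣ Nat.card H → ∃ K ∈ 𝒦, (Nat.card K).Coprime p := by
      intro p hp hpH
      haveI : Fact p.Prime := ⟨hp⟩
      obtain ⟨PH⟩ : Nonempty (Sylow p H) := inferInstance
      have hpidx : ¬ p ∣ H.index := fun h =>
        (Nat.Prime.coprime_iff_not_dvd hp).mp (Nat.Coprime.coprime_dvd_left hpH hHall) h
      have hfac : (Nat.card G).factorization p = (Nat.card H).factorization p := by
        have h0 : (Nat.card G).factorization p =
            (Nat.card H).factorization p + H.index.factorization p := by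
          rw [← hcardG, Nat.factorization_mul Nat.card_pos.ne' Subgroup.index_ne_zero_of_finite]
          rfl
        rw [h0, Nat.factorization_eq_zero_of_not_dvd hpidx, add_zero]
      have hcardT : Nat.card ((PH : Subgroup H).map H.subtype) =
          p ^ (Nat.card G).factorization p := by
        rw [Subgroup.card_map_of_injective H.subtype_injective, hfac]
        exact PH.card_eq_multiplicity
      obtain ⟨P, hPcoe⟩ : ∃ P : Sylow p G, (P : Subgroup G) = (PH : Subgroup H).map H.subtype :=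
        ⟨Sylow.ofCard _ hcardT, Sylow.coe_ofCard _ _⟩
      have hPH : (P : Subgroup G) ≤ H := by rw [hPcoe]; exact Subgroup.map_subtype_le _
      have hnpc : Cfsg.HasNormalPComplement p G := by
        apply Cfsg.Agent.Helper1.npc_of_fusion _ G rfl p P
        intro x hx g hgx
        obtain ⟨h, hh, hhe⟩ := hfus x (hPH hx) (g * x * g⁻¹) (hPH hgx) ⟨g, rfl⟩
        obtain ⟨e, m, u₀, v, hord, hpm, hu₀z, hvz, hdec, hu₀, hv⟩ :=
          Cfsg.Agent.Helper8.exists_decomp h (orderOf_pos h).ne' p hp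
        have hu₀H : u₀ ∈ H := (Subgroup.zpowers_le.mpr hh) hu₀z
        have hvH : v ∈ H := (Subgroup.zpowers_le.mpr hh) hvz
        have hu₀P : u₀ ∈ (P : Subgroup G) := by
          rw [hPcoe]; exact mem_sylow_of_nilpotent H hH p PH u₀ hu₀H e hu₀
        refine ⟨u₀, hu₀P, ?_⟩
        have hwP : u₀ * x * u₀⁻¹ ∈ (P : Subgroup G) :=
          Subgroup.mul_mem _ (Subgroup.mul_mem _ hu₀P hx) (Subgroup.inv_mem _ hu₀P)
        obtain ⟨j, hj⟩ := Cfsg.Agent.Helper8.pelem_of_mem P.isPGroup' hwP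
        have hcop : (orderOf v).Coprime (orderOf (u₀ * x * u₀⁻¹)) := by
          have d1 : orderOf v ∣ m := orderOf_dvd_of_pow_eq_one hv
          have d2 : orderOf (u₀ * x * u₀⁻¹) ∣ p ^ j := orderOf_dvd_of_pow_eq_one hj
          exact Nat.Coprime.coprime_dvd_left d1 (Nat.Coprime.coprime_dvd_right d2
            (Nat.Coprime.pow_right j ((Nat.Prime.coprime_iff_not_dvd hp).mpr hpm).symm))
        have hcomm : v * (u₀ * x * u₀⁻¹) = (u₀ * x * u₀⁻¹) * v :=
          Cfsg.Agent.Helper8.comm_of_coprime_sub H hH hvH (hPH hwP) hcop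
        rw [← hhe, hdec]
        calc v * u₀ * x * (v * u₀)⁻¹ = (v * (u₀ * x * u₀⁻¹)) * v⁻¹ := by group
          _ = (u₀ * x * u₀⁻¹) * v * v⁻¹ := by rw [hcomm]
          _ = u₀ * x * u₀⁻¹ := by group
      obtain ⟨K, k, hKn, hKcop, hKidx⟩ := Cfsg.Agent.Helper16.npc_exists hnpc
      refine ⟨K, ?_, hKcop⟩
      rw [h𝒦]; exact ⟨hKn, p, k, hp, hpH, hKidx⟩
    have hdisj : sInf 𝒦 ⊓ H = ⊥ := by
      rw [eq_bot_iff]
      rintro z ⟨hzN, hzH⟩
      rw [Subgroup.mem_bot]
      by_contra hz1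
      have ho : orderOf z ≠ 1 := fun h => hz1 (orderOf_eq_one_iff.mp h)
      obtain ⟨p, hp, hpz⟩ := Nat.exists_prime_and_dvd ho
      have hpH : p ∣ Nat.card H := hpz.trans (by
        have h3 := orderOf_dvd_natCard (⟨z, hzH⟩ : H)
        rwa [Subgroup.orderOf_mk] at h3)
      obtain ⟨K, hK, hKcop⟩ := hex p hp hpH
      have hzK : z ∈ K := (Subgroup.mem_sInf.mp hzN) K hK
      have hd : orderOf z ∣ Nat.card K := by
        have h3 := orderOf_dvd_natCard (⟨z, hzK⟩ : K)
        rwa [Subgroup.orderOf_mk] at h3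
      exact (Nat.Prime.coprime_iff_not_dvd hp).mp hKcop.symm (hpz.trans hd)
    have hsup : sInf 𝒦 ⊔ H = ⊤ := by
      rw [← Subgroup.index_eq_one]
      by_contra hne
      obtain ⟨q, hq, hqd⟩ := Nat.exists_prime_and_dvd hne
      haveI : Fact q.Prime := ⟨hq⟩
      by_cases hqH : q ∣ Nat.card H
      · have h1 : (sInf 𝒦 ⊔ H).index ∣ H.index := Subgroup.index_dvd_of_le le_sup_right
        exact (Nat.Prime.coprime_iff_not_dvd hq).mp (Nat.Coprime.coprime_dvd_left hqH hHall)
          (hqd.trans h1)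
      · obtain ⟨Sq⟩ : Nonempty (Sylow q G) := inferInstance
        have hSq : (Sq : Subgroup G) ≤ sInf 𝒦 := by
          intro y hy
          rw [Subgroup.mem_sInf]
          intro K hK
          rw [h𝒦] at hK
          obtain ⟨hKn, p, k, hp, hpH, hKidx⟩ := hK
          haveI := hKn
          haveI : Fact p.Prime := ⟨hp⟩
          apply Cfsg.Agent.Helper16.mem_of_index_pow_of_coprime K k hKidx y
          obtain ⟨j, hj⟩ := Cfsg.Agent.Helper8.pelem_of_mem Sq.isPGroup' hy
          have hqp : q ≠ p := by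
            intro h; apply hqH; rw [h]; exact hpH
          exact Nat.Coprime.coprime_dvd_left (orderOf_dvd_of_pow_eq_one hj)
            (Nat.Coprime.pow_left j ((Nat.coprime_primes hq hp).mpr hqp))
        have h1 : (sInf 𝒦 ⊔ H).index ∣ (Sq : Subgroup G).index :=
          Subgroup.index_dvd_of_le (hSq.trans le_sup_left)
        exact Sq.not_dvd_index (hqd.trans h1)
    refine ⟨sInf 𝒦, hNn, ?_⟩
    haveI := hNn
    apply Subgroup.isComplement'_of_disjoint_and_mul_eq_univ
    · rw [disjoint_iff]; exact hdisj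
    · rw [← Subgroup.normal_mul, hsup]; rfl

end Cfsg.Agent.S0079
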