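import Cfsg.Statements.S0080
import Mathlib

set_option autoImplicit false
open Cfsg

namespace Cfsg.Agent.S0080

open scoped IsMulCommutative in
/-- When the index of H is prime to the order of H/H', the focal subgroup of H is G' ∩ H, and H/(G' ∩ H) has a normal complement. -/
theorem result {G : Type*} [Group G] [Finite G] (H : Subgroup G) (h : Nat.Coprime H.index (⁅H, H⁆.relIndex H)) : Subgroup.focalSubgroup H = commutator G ⊓ H ∧ ∃ N : Subgroup G, N.Normal ∧ N ⊓ H = commutator G ⊓ H ∧ N ⊔ H = ⊤ := by
  have hsub : (⁅H, H⁆).subgroupOf H = commutator H := by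
    rw [← Subgroup.map_subtype_commutator]
    exact Subgroup.comap_map_eq_self_of_injective H.subtype_injective _
  have hdvd : Nat.card (H ⧸ H.focalSubgroupOf) ∣ ⁅H, H⁆.relIndex H := by
    rw [← Subgroup.index_eq_card]
    show H.focalSubgroupOf.index ∣ (⁅H, H⁆.subgroupOf H).index
    rw [hsub]
    exact Subgroup.index_dvd_of_le H.commutator_le_focalSubgroupOf
  have hcop : (Nat.card (H ⧸ H.focalSubgroupOf)).Coprime H.index :=
    (Nat.Coprime.coprime_dvd_right hdvd h).symm
  have hpow : ∀ x : H, H.transferFocal (x : G) = (x : H ⧸ H.focalSubgroupOf) ^ H.index :=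
    fun x => H.transferFocal_eq_pow x
  have hker : ∀ x : H, H.transferFocal (x : G) = 1 → x ∈ H.focalSubgroupOf := by
    intro x hx
    rw [hpow] at hx
    have h1 : orderOf (x : H ⧸ H.focalSubgroupOf) ∣ H.index := orderOf_dvd_of_pow_eq_one hx
    have h2 : orderOf (x : H ⧸ H.focalSubgroupOf) ∣ Nat.card (H ⧸ H.focalSubgroupOf) :=
      orderOf_dvd_natCard _
    have h3 : orderOf (x : H ⧸ H.focalSubgroupOf) = 1 :=
      (Nat.Coprime.coprime_dvd_left h2 hcop).eq_one_of_dvd h1
    have h4 := orderOf_eq_one_iff.mp h3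
    exact (QuotientGroup.eq_one_iff x).mp h4
  have hkerinf : H.transferFocal.ker ⊓ H = H.focalSubgroup := by
    apply le_antisymm
    · intro g hg
      have := hker ⟨g, hg.2⟩ (MonoidHom.mem_ker.mp hg.1)
      exact Subgroup.mem_subgroupOf.mp this
    · exact le_inf (le_trans H.focalSubgroup_le_commutator
        (Abelianization.commutator_subset_ker H.transferFocal)) H.focalSubgroup_le
  have hfoc : Subgroup.focalSubgroup H = commutator G ⊓ H := by
    apply le_antisymm
    · exact le_inf H.focalSubgroup_le_commutator H.focalSubgroup_le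
    · rw [← hkerinf]
      exact inf_le_inf_right _ (Abelianization.commutator_subset_ker H.transferFocal)
  refine ⟨hfoc, H.transferFocal.ker, inferInstance, ?_, ?_⟩
  · rw [hkerinf, hfoc]
  · rw [eq_top_iff]
    intro g _
    obtain ⟨y, hy⟩ := (powCoprime hcop).surjective (H.transferFocal g)
    have hy' : y ^ H.index = H.transferFocal g := hy
    obtain ⟨x, rfl⟩ := QuotientGroup.mk_surjective y
    have h1 : H.transferFocal (g * (x : G)⁻¹) = 1 := by
      rw [map_mul, map_inv, hpow, hy', mul_inv_cancel]
    have h2 : g = (g * (x : G)⁻¹) * (x : G) := by group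
    rw [h2]
    exact Subgroup.mul_mem_sup (MonoidHom.mem_ker.mpr h1) x.2

end Cfsg.Agent.S0080
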