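import Cfsg.Statements.S0083
import Cfsg.Agent.S0074
import Mathlib

set_option autoImplicit false
open Cfsg

namespace Cfsg.Agent.S0083

/-- For an abelian Sylow p-subgroup P, a normal p-complement exists exactly when the normalizer of P is an internal direct product of P with some subgroup. -/
theorem result {G : Type*} [Group G] [Finite G] {p : ℕ} [Fact p.Prime] (P : Sylow p G) (hP : IsMulCommutative P) : Cfsg.HasNormalPComplement p G ↔ ∃ Q : Subgroup G, Q ≤ Subgroup.centralizer (P : Set G) ∧ Q ⊓ (P : Subgroup G) = ⊥ ∧ Q ⊔ (P : Subgroup G) = Subgroup.normalizer (P : Set G) := by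
  have hp : p.Prime := Fact.out
  have hPC := Cfsg.Agent.S0074.le_centralizer_of_comm P hP
  constructor
  · rintro ⟨P₀, N, hN, hcomp⟩
    have hcardN : Nat.card N * Nat.card (P : Subgroup G) = Nat.card G := by
      have h1 := hcomp.card_mul
      rw [← h1]; congr 1
      rw [Sylow.card_eq_multiplicity, Sylow.card_eq_multiplicity]
    have hcop : (Nat.card N).Coprime (Nat.card (P : Subgroup G)) := by
      rw [Sylow.card_eq_multiplicity]
      apply Nat.Coprime.pow_right
      have h2 : ¬ p ∣ Nat.card N := by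
        rw [← hcomp.index_eq_card]; exact P₀.not_dvd_index
      exact ((Nat.Prime.coprime_iff_not_dvd hp).mpr h2).symm
    have hcompP : Subgroup.IsComplement' N (P : Subgroup G) :=
      Subgroup.isComplement'_of_coprime hcardN hcop
    have hdisj : N ⊓ (P : Subgroup G) = ⊥ := hcompP.disjoint.eq_bot
    refine ⟨N ⊓ Subgroup.normalizer (P : Set G), ?_, ?_, ?_⟩
    · intro q hq
      obtain ⟨hqN, hqn⟩ := Subgroup.mem_inf.mp hq
      rw [Subgroup.mem_centralizer_iff]
      intro x hx
      have hc1 : q * x * q⁻¹ * x⁻¹ ∈ (P : Subgroup G) :=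
        Subgroup.mul_mem _ ((Subgroup.mem_normalizer_iff.mp hqn x).mp hx) (Subgroup.inv_mem _ hx)
      have hc2 : q * x * q⁻¹ * x⁻¹ ∈ N := by
        have h3 : x * q⁻¹ * x⁻¹ ∈ N := hN.conj_mem _ (N.inv_mem hqN) x
        have e : q * x * q⁻¹ * x⁻¹ = q * (x * q⁻¹ * x⁻¹) := by group
        rw [e]; exact N.mul_mem hqN h3
      have hc3 : q * x * q⁻¹ * x⁻¹ ∈ N ⊓ (P : Subgroup G) := Subgroup.mem_inf.mpr ⟨hc2, hc1⟩
      rw [hdisj, Subgroup.mem_bot] at hc3
      have e2 : x * q = (q * x * q⁻¹ * x⁻¹)⁻¹ * (q * x) := by group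
      rw [e2, hc3]; group
    · rw [eq_bot_iff, ← hdisj]
      exact inf_le_inf_right _ inf_le_left
    · apply le_antisymm (sup_le inf_le_right Subgroup.le_normalizer)
      intro y hy
      obtain ⟨⟨n, x⟩, hnx⟩ := hcompP.2 y
      have hnx' : (n : G) * (x : G) = y := hnx
      have hn : (n : G) ∈ Subgroup.normalizer (P : Set G) := by
        have e : (n : G) = y * (x : G)⁻¹ := by rw [← hnx']; group
        rw [e]
        exact Subgroup.mul_mem _ hy (Subgroup.inv_mem _ (Subgroup.le_normalizer x.2))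
      rw [← hnx']
      exact Subgroup.mul_mem_sup (Subgroup.mem_inf.mpr ⟨n.2, hn⟩) x.2
  · rintro ⟨Q, hQC, hQP, hQsup⟩
    have hNC : Subgroup.normalizer (P : Set G) ≤ Subgroup.centralizer (P : Set G) := by
      rw [← hQsup]; exact sup_le hQC hPC
    exact ⟨P, (MonoidHom.transferSylow P hNC).ker, MonoidHom.normal_ker _,
      MonoidHom.ker_transferSylow_isComplement' P hNC⟩

end Cfsg.Agent.S0083
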