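import Cfsg.Statements.S0084
import Mathlib

set_option autoImplicit false
open Cfsg

namespace Cfsg.Agent.S0084

/-- A group whose Sylow 2-subgroups are Klein four-groups and whose order is prime to 3 has a normal 2-complement. -/
theorem result {G : Type*} [Group G] [Finite G] (T : Sylow 2 G) (hT : IsKleinFour T) (h3 : ¬ 3 ∣ Nat.card G) : Cfsg.HasNormalPComplement 2 G := by
  haveI : Fact (Nat.Prime 2) := ⟨Nat.prime_two⟩
  haveI : IsMulCommutative (T : Subgroup G) := IsKleinFour.isMulCommutative
  have h24 : Nat.card (MulAut (T : Subgroup G)) ∣ 24 := by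
    have hinj : Function.Injective (MulAction.toPermHom (MulAut (T : Subgroup G)) (T : Subgroup G)) :=
      MulAction.toPerm_injective
    have := Subgroup.card_dvd_of_injective _ hinj
    rw [Nat.card_perm, hT.card_four] at this
    exact this
  have key := Subgroup.card_dvd_of_injective _
    (QuotientGroup.kerLift_injective (T : Subgroup G).normalizerMonoidHom)
  rw [Subgroup.normalizerMonoidHom_ker, ← Subgroup.index, ← Subgroup.relIndex] at key
  have hle : Subgroup.normalizer (T : Set G) ≤ Subgroup.centralizer (T : Set G) := by
    refine Subgroup.relIndex_eq_one.mp (Nat.Coprime.eq_one_of_dvd ?_ (key.trans h24))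
    have hc2 : Nat.Coprime ((Subgroup.centralizer (T : Set G)).relIndex
        (Subgroup.normalizer (T : Set G))) 2 := by
      apply Nat.Coprime.coprime_dvd_left (Subgroup.relIndex_dvd_of_le_left _ (Subgroup.le_centralizer (T : Subgroup G)))
      apply Nat.Coprime.coprime_dvd_left (Subgroup.relIndex_dvd_index_of_le Subgroup.le_normalizer)
      rw [Nat.coprime_comm, Nat.Prime.coprime_iff_not_dvd Nat.prime_two]
      exact T.not_dvd_index
    have hc3 : Nat.Coprime ((Subgroup.centralizer (T : Set G)).relIndex
        (Subgroup.normalizer (T : Set G))) 3 := by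
      apply Nat.Coprime.coprime_dvd_left (Subgroup.relIndex_dvd_card _ _)
      apply Nat.Coprime.coprime_dvd_left (Subgroup.card_subgroup_dvd_card _)
      rw [Nat.coprime_comm, Nat.Prime.coprime_iff_not_dvd Nat.prime_three]
      exact h3
    have : (24 : ℕ) = 2 ^ 3 * 3 := by norm_num
    rw [this]
    exact (Nat.Coprime.pow_right 3 hc2).mul_right hc3
  exact ⟨T, _, inferInstance, MonoidHom.ker_transferSylow_isComplement' T hle⟩

end Cfsg.Agent.S0084
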