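import Cfsg.Statements.S0085
import Mathlib

set_option autoImplicit false
open Cfsg

namespace Cfsg.Agent.S0085

/-- A group of order 8 and exponent 2 has no automorphism of order 5. -/
theorem no_aut_five {T : Type*} [Group T] [Finite T] (h8 : Nat.card T = 8) :
    ¬ 5 ∣ Nat.card (MulAut T) := by
  haveI : Fact (Nat.Prime 5) := ⟨by norm_num⟩
  intro hdvd
  obtain ⟨φ, hφ⟩ := exists_prime_orderOf_dvd_card' 5 hdvd
  have hZ : IsPGroup 5 (Subgroup.zpowers φ) :=
    IsPGroup.of_card (n := 1) (by rw [Nat.card_zpowers, hφ, pow_one])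
  have hmod := hZ.card_modEq_card_fixedPoints T
  have hF : Nat.card (FixedPoints.subgroup (Subgroup.zpowers φ) T) ∣ 8 := by
    have := Subgroup.card_subgroup_dvd_card (FixedPoints.subgroup (Subgroup.zpowers φ) T)
    rw [h8] at this
    exact this
  have hFeq : Nat.card (MulAction.fixedPoints (Subgroup.zpowers φ) T)
      = Nat.card (FixedPoints.subgroup (Subgroup.zpowers φ) T) := rfl
  rw [h8, hFeq] at hmod
  have hF8 : Nat.card (FixedPoints.subgroup (Subgroup.zpowers φ) T) = 8 := by
    have hle : Nat.card (FixedPoints.subgroup (Subgroup.zpowers φ) T) ≤ 8 :=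
      Nat.le_of_dvd (by norm_num) hF
    generalize Nat.card (FixedPoints.subgroup (Subgroup.zpowers φ) T) = k at hle hmod hF
    unfold Nat.ModEq at hmod
    interval_cases k <;> omega
  have htop : FixedPoints.subgroup (Subgroup.zpowers φ) T = ⊤ := by
    rw [← Subgroup.card_eq_iff_eq_top, hF8, h8]
  have hall : ∀ t : T, φ t = t := by
    intro t
    have ht : t ∈ FixedPoints.subgroup (Subgroup.zpowers φ) T := by rw [htop]; exact Subgroup.mem_top t
    rw [FixedPoints.mem_subgroup] at ht
    exact ht ⟨φ, Subgroup.mem_zpowers φ⟩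
  have : φ = 1 := MulEquiv.ext hall
  rw [this, orderOf_one] at hφ
  norm_num at hφ

/-- A group whose Sylow 2-subgroups are elementary abelian of order 8 and whose order is prime to 3 and to 7 has a normal 2-complement. -/
theorem result {G : Type*} [Group G] [Finite G] (T : Sylow 2 G) (h8 : Nat.card T = 8) (he : ∀ x : T, x * x = 1) (h3 : ¬ 3 ∣ Nat.card G) (h7 : ¬ 7 ∣ Nat.card G) : Cfsg.HasNormalPComplement 2 G := by
  haveI : Fact (Nat.Prime 2) := ⟨Nat.prime_two⟩
  have hinv : ∀ x : (T : Subgroup G), x⁻¹ = x := fun x => inv_eq_of_mul_eq_one_left (he x)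
  haveI : IsMulCommutative (T : Subgroup G) := ⟨⟨fun a b => by
    calc a * b = (a * b)⁻¹ := (hinv (a * b)).symm
      _ = b⁻¹ * a⁻¹ := mul_inv_rev a b
      _ = b * a := by rw [hinv, hinv]⟩⟩
  have h5 : ¬ 5 ∣ Nat.card (MulAut (T : Subgroup G)) := no_aut_five h8
  have hfac : Nat.card (MulAut (T : Subgroup G)) ∣ 40320 := by
    have hinj : Function.Injective (MulAction.toPermHom (MulAut (T : Subgroup G)) (T : Subgroup G)) :=
      MulAction.toPerm_injective
    have := Subgroup.card_dvd_of_injective _ hinj
    rw [Nat.card_perm, h8] at this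
    exact this
  have key := Subgroup.card_dvd_of_injective _
    (QuotientGroup.kerLift_injective (T : Subgroup G).normalizerMonoidHom)
  rw [Subgroup.normalizerMonoidHom_ker, ← Subgroup.index, ← Subgroup.relIndex] at key
  have hle : Subgroup.normalizer (T : Set G) ≤ Subgroup.centralizer (T : Set G) := by
    refine Subgroup.relIndex_eq_one.mp (Nat.Coprime.eq_one_of_dvd ?_ (key.trans hfac))
    have hc2 : Nat.Coprime ((Subgroup.centralizer (T : Set G)).relIndex
        (Subgroup.normalizer (T : Set G))) 2 := by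
      apply Nat.Coprime.coprime_dvd_left
        (Subgroup.relIndex_dvd_of_le_left _ (Subgroup.le_centralizer (T : Subgroup G)))
      apply Nat.Coprime.coprime_dvd_left (Subgroup.relIndex_dvd_index_of_le Subgroup.le_normalizer)
      rw [Nat.coprime_comm, Nat.Prime.coprime_iff_not_dvd Nat.prime_two]
      exact T.not_dvd_index
    have hc3 : Nat.Coprime ((Subgroup.centralizer (T : Set G)).relIndex
        (Subgroup.normalizer (T : Set G))) 3 := by
      apply Nat.Coprime.coprime_dvd_left (Subgroup.relIndex_dvd_card _ _)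
      apply Nat.Coprime.coprime_dvd_left (Subgroup.card_subgroup_dvd_card _)
      rw [Nat.coprime_comm, Nat.Prime.coprime_iff_not_dvd Nat.prime_three]
      exact h3
    have hc7 : Nat.Coprime ((Subgroup.centralizer (T : Set G)).relIndex
        (Subgroup.normalizer (T : Set G))) 7 := by
      apply Nat.Coprime.coprime_dvd_left (Subgroup.relIndex_dvd_card _ _)
      apply Nat.Coprime.coprime_dvd_left (Subgroup.card_subgroup_dvd_card _)
      rw [Nat.coprime_comm, Nat.Prime.coprime_iff_not_dvd (by norm_num)]
      exact h7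
    have hc5 : Nat.Coprime ((Subgroup.centralizer (T : Set G)).relIndex
        (Subgroup.normalizer (T : Set G))) 5 := by
      rw [Nat.coprime_comm, Nat.Prime.coprime_iff_not_dvd (by norm_num)]
      exact fun h => h5 (h.trans key)
    have : (40320 : ℕ) = 2 ^ 7 * 3 ^ 2 * 5 * 7 := by norm_num
    rw [this]
    exact (((Nat.Coprime.pow_right 7 hc2).mul_right (Nat.Coprime.pow_right 2 hc3)).mul_right
      hc5).mul_right hc7
  exact ⟨T, _, inferInstance, MonoidHom.ker_transferSylow_isComplement' T hle⟩

end Cfsg.Agent.S0085
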