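import Cfsg.Statements.S0086
import Mathlib

set_option autoImplicit false
open Cfsg

namespace Cfsg.Agent.S0086

/-- A normal complement to a Sylow p-subgroup is exactly the set of elements of order prime to p. -/
theorem result {G : Type*} [Group G] [Finite G] {p : ℕ} [Fact p.Prime] (P : Sylow p G) (N : Subgroup G) [N.Normal] (hN : N.IsComplement' (P : Subgroup G)) (x : G) : x ∈ N ↔ Nat.Coprime (orderOf x) p := by
  have hp : p.Prime := Fact.out
  constructor
  · intro hx
    have h1 : orderOf x ∣ Nat.card N := Subgroup.orderOf_dvd_natCard N hx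
    have h2 : (P : Subgroup G).index = Nat.card N := hN.index_eq_card
    have h3 : ¬ p ∣ (P : Subgroup G).index := P.not_dvd_index
    have h4 : Nat.Coprime p (Nat.card N) := by
      rw [← h2]; exact (Nat.Prime.coprime_iff_not_dvd hp).mpr h3
    exact Nat.Coprime.coprime_dvd_left h1 h4.symm
  · intro hx
    have h1 : N.index = Nat.card (P : Subgroup G) := hN.symm.index_eq_card
    obtain ⟨k, hk⟩ := (IsPGroup.iff_card.mp P.isPGroup')
    have h2 : Nat.card (G ⧸ N) = p ^ k := by
      rw [← hk, ← h1]; rfl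
    have h3 : IsPGroup p (G ⧸ N) := IsPGroup.of_card h2
    obtain ⟨j, hj⟩ := h3 (QuotientGroup.mk' N x)
    have h4 : orderOf (QuotientGroup.mk' N x) ∣ p ^ j := orderOf_dvd_of_pow_eq_one hj
    have h5 : orderOf (QuotientGroup.mk' N x) ∣ orderOf x := orderOf_map_dvd _ x
    have h6 : orderOf (QuotientGroup.mk' N x) ∣ 1 := by
      have hc : Nat.Coprime (orderOf x) (p ^ j) := Nat.Coprime.pow_right j hx
      have := Nat.dvd_gcd h5 h4
      rwa [Nat.Coprime.gcd_eq_one hc] at this
    have h7 : QuotientGroup.mk' N x = 1 := orderOf_eq_one_iff.mp (Nat.dvd_one.mp h6)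
    exact (QuotientGroup.eq_one_iff x).mp h7

end Cfsg.Agent.S0086
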