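import Cfsg.Statements.S0087
import Mathlib
import Cfsg.Agent.S0001
import Cfsg.Agent.Helper5.Grp

set_option autoImplicit false
open Cfsg

namespace Cfsg.Agent.S0087

universe u

open scoped IsMulCommutative in
theorem compl_of_noFusion {G : Type*} [Group G] [Finite G] (H : Subgroup G)
    (hHall : Nat.Coprime (Nat.card H) H.index)
    (hcomm : ∀ a ∈ H, ∀ b ∈ H, a * b = b * a)
    (hf : ∀ x ∈ H, ∀ g : G, g⁻¹ * x * g ∈ H → g⁻¹ * x * g = x) :
    ∃ N : Subgroup G, N.Normal ∧ N.IsComplement' H := by
  haveI : IsMulCommutative H := ⟨⟨fun a b => Subtype.ext (hcomm a a.2 b b.2)⟩⟩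
  let V : G →* H := MonoidHom.transfer (MonoidHom.id H)
  have hV : ∀ h : H, V (h : G) = h ^ H.index := by
    intro h
    have key : ∀ (k : ℕ) (g₀ : G), g₀⁻¹ * (h : G) ^ k * g₀ ∈ H →
        g₀⁻¹ * (h : G) ^ k * g₀ = (h : G) ^ k :=
      fun k g₀ hk => hf _ (H.pow_mem h.2 k) g₀ hk
    have h1 := MonoidHom.transfer_eq_pow (MonoidHom.id H) (h : G) key
    have h2 : V (h : G) = MonoidHom.transfer (MonoidHom.id H) (h : G) := rfl
    rw [h2, h1]
    apply Subtype.ext
    simp
  have hinj : ∀ h : H, V (h : G) = 1 → h = 1 := by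
    intro h hh
    rw [hV h] at hh
    have h1 : orderOf h ∣ H.index := orderOf_dvd_of_pow_eq_one hh
    have h2 : orderOf h ∣ Nat.card H := orderOf_dvd_natCard h
    have h3 : orderOf h = 1 := (Nat.Coprime.coprime_dvd_left h2 hHall).eq_one_of_dvd h1
    exact orderOf_eq_one_iff.mp h3
  have hdisj : Disjoint V.ker H := by
    rw [Subgroup.disjoint_def]
    intro x hx hxH
    have := hinj ⟨x, hxH⟩ (MonoidHom.mem_ker.mp hx)
    exact congrArg Subtype.val this
  have hsurj : Function.Surjective V := by
    have hinj' : Function.Injective (fun h : H => V (h : G)) := by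
      intro a b hab
      have hab' : V (a : G) = V (b : G) := hab
      have h1 : V ((a⁻¹ * b : H) : G) = 1 := by
        rw [Subgroup.coe_mul, map_mul, Subgroup.coe_inv, map_inv, hab', inv_mul_cancel]
      have h2 := hinj _ h1
      exact inv_mul_eq_one.mp h2
    have hsurj' := Finite.injective_iff_surjective.mp hinj'
    intro y
    obtain ⟨h, hh⟩ := hsurj' y
    exact ⟨h, hh⟩
  refine ⟨V.ker, inferInstance, ?_⟩
  apply Subgroup.isComplement'_of_card_mul_and_disjoint _ hdisj
  have h1 : V.ker.index = Nat.card H := by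
    rw [Subgroup.index_ker, MonoidHom.range_eq_top.mpr hsurj]
    exact Subgroup.card_top
  rw [← h1]
  exact Subgroup.card_mul_index V.ker

theorem aux : ∀ n : ℕ, ∀ (G : Type u) [Group G] [Finite G], Nat.card G = n →
    ∀ (H : Subgroup G), Nat.Coprime (Nat.card H) H.index →
    Subgroup.normalizer (H : Set G) ≤ Subgroup.centralizer (H : Set G) →
    ∃ N : Subgroup G, N.Normal ∧ N.IsComplement' H := by
  intro n
  induction n using Nat.strongRecOn with | ind n ih => ?_
  intro G _ _ hn H hHall h
  have hcomm : ∀ a ∈ H, ∀ b ∈ H, a * b = b * a := by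
    intro a ha b hb
    exact (h (Subgroup.le_normalizer ha) b hb).symm
  apply compl_of_noFusion H hHall hcomm
  intro x hx g hy
  by_cases hyc : g⁻¹ * x * g ∈ Subgroup.center G
  · have h1 : g * (g⁻¹ * x * g) = (g⁻¹ * x * g) * g := Subgroup.mem_center_iff.mp hyc g
    have h2 : g * (g⁻¹ * x * g) = x * g := by group
    rw [h2] at h1
    exact (mul_right_cancel h1).symm
  · obtain ⟨y, hydef⟩ : ∃ y, y = g⁻¹ * x * g := ⟨_, rfl⟩
    rw [← hydef] at hy hyc ⊢
    let C : Subgroup G := Subgroup.centralizer {y}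
    have hmemC : ∀ z : G, z ∈ C ↔ y * z = z * y := by
      intro z
      constructor
      · intro hz
        exact Subgroup.mem_centralizer_iff.mp hz y rfl
      · intro hz
        apply Subgroup.mem_centralizer_iff.mpr
        intro w hw
        rw [Set.mem_singleton_iff] at hw
        rw [hw]; exact hz
    have hCne : C ≠ ⊤ := by
      intro hC
      apply hyc
      rw [Subgroup.mem_center_iff]
      intro k
      have hk : k ∈ C := hC ▸ Subgroup.mem_top k
      exact ((hmemC k).mp hk).symm
    have hHC : H ≤ C := by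
      intro a ha
      exact (hmemC a).mpr (hcomm y hy a ha)
    let K : Subgroup G := H.comap (MulAut.conj g).toMonoidHom
    have hmemK : ∀ z : G, z ∈ K ↔ g * z * g⁻¹ ∈ H := fun z => Iff.rfl
    have hKC : K ≤ C := by
      intro z hz
      rw [hmemK] at hz
      apply (hmemC z).mpr
      have h1 := hcomm x hx _ hz
      calc y * z = g⁻¹ * (x * (g * z * g⁻¹)) * g := by rw [hydef]; group
        _ = g⁻¹ * ((g * z * g⁻¹) * x) * g := by rw [h1]
        _ = z * y := by rw [hydef]; group
    have hcardK : Nat.card K = Nat.card H := by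
      apply Nat.card_congr
      exact
        { toFun := fun z => ⟨g * z.1 * g⁻¹, z.2⟩
          invFun := fun a => ⟨g⁻¹ * a.1 * g, by
            apply (hmemK _).mpr
            have : g * (g⁻¹ * a.1 * g) * g⁻¹ = a.1 := by group
            rw [this]; exact a.2⟩
          left_inv := fun z => Subtype.ext (by simp [mul_assoc])
          right_inv := fun a => Subtype.ext (by simp [mul_assoc]) }
    have hcardC : Nat.card C < n := by
      rw [← hn]
      exact S0001.card_sub_lt C hCne
    let H₁ : Subgroup C := H.subgroupOf C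
    let K₁ : Subgroup C := K.subgroupOf C
    have hcardH₁ : Nat.card H₁ = Nat.card H :=
      Nat.card_congr (Subgroup.subgroupOfEquivOfLe hHC).toEquiv
    have hcardK₁ : Nat.card K₁ = Nat.card H := by
      rw [← hcardK]
      exact Nat.card_congr (Subgroup.subgroupOfEquivOfLe hKC).toEquiv
    have hidx : H₁.index ∣ H.index := Dvd.intro _ (Subgroup.relIndex_mul_index hHC)
    have hHall₁ : Nat.Coprime (Nat.card H₁) H₁.index := by
      rw [hcardH₁]
      exact Nat.Coprime.coprime_dvd_right hidx hHall
    have hNC₁ : Subgroup.normalizer (H₁ : Set C) ≤ Subgroup.centralizer (H₁ : Set C) := by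
      intro c hc
      have hc' : (c : G) ∈ Subgroup.normalizer (H : Set G) := by
        apply Helper5.mem_normalizer_of_conj_mem
        intro q hq
        have hq' : (⟨q, hHC hq⟩ : C) ∈ H₁ := Subgroup.mem_subgroupOf.mpr hq
        have h1 := (Subgroup.mem_normalizer_iff.mp hc ⟨q, hHC hq⟩).mp hq'
        exact Subgroup.mem_subgroupOf.mp h1
      have hc'' := h hc'
      apply Subgroup.mem_centralizer_iff.mpr
      intro z hz
      apply Subtype.ext
      exact Subgroup.mem_centralizer_iff.mp hc'' (z : G) (Subgroup.mem_subgroupOf.mp hz)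
    obtain ⟨N₁, hN₁, hcomp⟩ := ih (Nat.card C) hcardC C rfl H₁ hHall₁ hNC₁
    have hcardN₁ : Nat.card N₁ = H₁.index := hcomp.index_eq_card.symm
    have hcop : (Nat.card H).Coprime (Nat.card N₁) := by
      rw [hcardN₁]; exact Nat.Coprime.coprime_dvd_right hidx hHall
    have hsol : Group.IsSolvable H₁ :=
      isSolvable_of_comm (fun a b => Subtype.ext (Subtype.ext
        (hcomm _ (Subgroup.mem_subgroupOf.mp a.2) _ (Subgroup.mem_subgroupOf.mp b.2))))
    have hH₁N₁ : H₁ ⊔ N₁ = ⊤ := by rw [sup_comm]; exact hcomp.sup_eq_top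
    have hK₁N₁ : K₁ ⊔ N₁ = ⊤ := by
      apply Subgroup.IsComplement'.sup_eq_top
      apply Subgroup.isComplement'_of_coprime
      · rw [hcardK₁, ← hcardH₁, mul_comm]; exact hcomp.card_mul_card
      · rw [hcardK₁]; exact hcop
    obtain ⟨c, hc⟩ := S0001.auxB _ C rfl N₁ H₁ K₁ hN₁ hsol hH₁N₁ hK₁N₁
      (by rw [hcardH₁]; exact hcop) (by rw [hcardK₁]; exact hcop)
    have hm : (g * (c : G))⁻¹ ∈ Subgroup.normalizer (H : Set G) := by
      apply Helper5.mem_normalizer_of_conj_mem
      intro a ha
      have hz : g⁻¹ * a * g ∈ K := by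
        apply (hmemK _).mpr
        have : g * (g⁻¹ * a * g) * g⁻¹ = a := by group
        rw [this]; exact ha
      have hz' : (⟨g⁻¹ * a * g, hKC hz⟩ : C) ∈ K₁ := Subgroup.mem_subgroupOf.mpr hz
      have h1 := (hc _).mp hz'
      have h2 : ((c⁻¹ * ⟨g⁻¹ * a * g, hKC hz⟩ * c : C) : G) ∈ H := Subgroup.mem_subgroupOf.mp h1
      have h3 : ((c⁻¹ * ⟨g⁻¹ * a * g, hKC hz⟩ * c : C) : G)
          = (g * (c : G))⁻¹ * a * (g * (c : G))⁻¹⁻¹ := by
        simp only [Subgroup.coe_mul, Subgroup.coe_inv]
        group
      rw [← h3]; exact h2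
    have hm' : (g * (c : G)) ∈ Subgroup.normalizer (H : Set G) := by
      have := Subgroup.inv_mem _ hm
      simpa using this
    have hcent := h hm'
    have h1 : x * (g * (c : G)) = (g * (c : G)) * x := Subgroup.mem_centralizer_iff.mp hcent x hx
    have h2 : y * (c : G) = (c : G) * y := (hmemC _).mp c.2
    have h3 : g * y = x * g := by rw [hydef]; group
    have h4 : g * (c : G) * x = g * (c : G) * y := by
      calc g * (c : G) * x = x * (g * (c : G)) := h1.symm
        _ = (x * g) * (c : G) := by rw [mul_assoc]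
        _ = (g * y) * (c : G) := by rw [h3]
        _ = g * (y * (c : G)) := by rw [mul_assoc]
        _ = g * ((c : G) * y) := by rw [h2]
        _ = g * (c : G) * y := by rw [mul_assoc]
    exact (mul_left_cancel h4).symm

/-- A Hall subgroup that is central in its normalizer has a normal complement. -/
theorem result {G : Type*} [Group G] [Finite G] (H : Subgroup G) (hHall : Nat.Coprime (Nat.card H) H.index) (h : Subgroup.normalizer (H : Set G) ≤ Subgroup.centralizer (H : Set G)) : ∃ N : Subgroup G, N.Normal ∧ N.IsComplement' H := by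
  exact aux _ G rfl H hHall h

end Cfsg.Agent.S0087
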