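import Cfsg.Statements.S0090
import Mathlib

set_option autoImplicit false
open Cfsg

namespace Cfsg.Agent.S0090

open scoped IsMulCommutative in
theorem disj {G : Type*} [Group G] [Finite G] (A : Subgroup G) [A.Normal] (hc : IsMulCommutative A)
    (hHall : Nat.Coprime (Nat.card A) A.index) :
    ∀ z : G, z ∈ commutator G → z ∈ Subgroup.center G → z ∈ A → z = 1 := by
  intro z hz1 hz2 hz3
  haveI := hc
  let V : G →* A := MonoidHom.transfer (MonoidHom.id A)
  have key : ∀ (k : ℕ) (g₀ : G), g₀⁻¹ * z ^ k * g₀ ∈ A → g₀⁻¹ * z ^ k * g₀ = z ^ k := by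
    intro k g₀ _
    have h1 : z ^ k ∈ Subgroup.center G := Subgroup.pow_mem _ hz2 k
    have h2 : g₀ * z ^ k = z ^ k * g₀ := Subgroup.mem_center_iff.mp h1 g₀
    rw [mul_assoc, ← h2, inv_mul_cancel_left]
  have h1 := MonoidHom.transfer_eq_pow (MonoidHom.id A) z key
  have h2 : V z = 1 := by
    have : commutator G ≤ V.ker := Abelianization.commutator_subset_ker V
    exact MonoidHom.mem_ker.mp (this hz1)
  have h3 : z ^ A.index = 1 := by
    have h4 : V z = MonoidHom.transfer (MonoidHom.id A) z := rfl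
    rw [h4, h1] at h2
    have := congrArg Subtype.val h2
    simpa using this
  have h5 : orderOf z ∣ A.index := orderOf_dvd_of_pow_eq_one h3
  have h6 : orderOf z ∣ Nat.card A := Subgroup.orderOf_dvd_natCard A hz3
  have h7 : orderOf z = 1 := (Nat.Coprime.coprime_dvd_left h6 hHall).eq_one_of_dvd h5
  exact orderOf_eq_one_iff.mp h7

open scoped IsMulCommutative in
theorem decomp {G : Type*} [Group G] [Finite G] (A : Subgroup G) [hA : A.Normal]
    (hc : IsMulCommutative A) (hHall : Nat.Coprime (Nat.card A) A.index) :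
    ∀ b ∈ A, ∃ c ∈ ⁅A, (⊤ : Subgroup G)⁆, ∃ z ∈ Subgroup.center G ⊓ A, b = c * z := by
  haveI := hc
  obtain ⟨K, hK⟩ := Subgroup.exists_right_complement'_of_coprime hHall
  haveI : Fintype K := Fintype.ofFinite K
  have hcardK : Nat.card K = A.index := hK.symm.index_eq_card.symm
  let cj : K → A → A := fun k a => MulAut.conjNormal (k : G) a
  have hcj : ∀ (k : K) (a : A), ((cj k a : A) : G) = (k : G) * a * (k : G)⁻¹ := fun k a => rfl
  let zf : A → A := fun a => ∏ k : K, cj k a
  have hfix : ∀ (k' : K) (a : A), cj k' (zf a) = zf a := by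
    intro k' a
    show MulAut.conjNormal (k' : G) (∏ k : K, cj k a) = ∏ k : K, cj k a
    rw [map_prod]
    apply Fintype.prod_equiv (Equiv.mulLeft k')
    intro k
    show MulAut.conjNormal (k' : G) (MulAut.conjNormal (k : G) a)
      = MulAut.conjNormal ((k' * k : K) : G) a
    rw [Subgroup.coe_mul, map_mul]; rfl
  have hcent : ∀ a : A, ((zf a : A) : G) ∈ Subgroup.center G := by
    intro a
    rw [Subgroup.mem_center_iff]
    intro g
    obtain ⟨⟨a', k'⟩, hak⟩ := hK.2 g
    have hak' : (a' : G) * (k' : G) = g := hak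
    have h1 : (k' : G) * (zf a : G) * (k' : G)⁻¹ = (zf a : G) := by
      rw [← hcj]; exact congrArg Subtype.val (hfix k' a)
    have h2 : (a' : G) * (zf a : G) = (zf a : G) * (a' : G) := by
      have := mul_comm a' (zf a)
      exact congrArg Subtype.val this
    have h3 : (k' : G) * (zf a : G) = (zf a : G) * (k' : G) := by
      calc (k' : G) * (zf a : G) = (k' : G) * (zf a : G) * (k' : G)⁻¹ * (k' : G) := by group
        _ = (zf a : G) * (k' : G) := by rw [h1]
    rw [← hak']
    calc (a' : G) * (k' : G) * (zf a : G) = (a' : G) * ((k' : G) * (zf a : G)) := by rw [mul_assoc]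
      _ = (a' : G) * ((zf a : G) * (k' : G)) := by rw [h3]
      _ = (a' : G) * (zf a : G) * (k' : G) := by rw [mul_assoc]
      _ = (zf a : G) * (a' : G) * (k' : G) := by rw [h2]
      _ = (zf a : G) * ((a' : G) * (k' : G)) := by rw [mul_assoc]
  have hM : ∀ (k : K) (a : A), ((cj k a * a⁻¹ : A) : G) ∈ ⁅A, (⊤ : Subgroup G)⁆ := by
    intro k a
    rw [Subgroup.commutator_comm]
    have := Subgroup.commutator_mem_commutator (Subgroup.mem_top (k : G)) a.2
    rw [commutatorElement_def] at this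
    rw [Subgroup.coe_mul, Subgroup.coe_inv, hcj]
    exact this
  have hprod : ∀ a : A, zf a = (∏ k : K, (cj k a * a⁻¹)) * a ^ Nat.card K := by
    intro a
    rw [Nat.card_eq_fintype_card, ← Finset.card_univ, ← Finset.prod_const,
      ← Finset.prod_mul_distrib]
    apply Finset.prod_congr rfl
    intro k _
    rw [inv_mul_cancel_right]
  have hprodmem : ∀ a : A, ((∏ k : K, (cj k a * a⁻¹) : A) : G) ∈ ⁅A, (⊤ : Subgroup G)⁆ := by
    intro a
    have : (∏ k : K, (cj k a * a⁻¹)) ∈ (⁅A, (⊤ : Subgroup G)⁆).subgroupOf A := by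
      apply Subgroup.prod_mem
      intro k _
      exact Subgroup.mem_subgroupOf.mpr (hM k a)
    exact Subgroup.mem_subgroupOf.mp this
  intro b hb
  have hcop : (Nat.card A).Coprime (Nat.card K) := by rw [hcardK]; exact hHall
  obtain ⟨a, ha⟩ := (powCoprime hcop).surjective ⟨b, hb⟩
  have ha' : a ^ Nat.card K = ⟨b, hb⟩ := ha
  refine ⟨((∏ k : K, (cj k a * a⁻¹) : A) : G)⁻¹, Subgroup.inv_mem _ (hprodmem a), (zf a : G),
    ⟨hcent a, (zf a).2⟩, ?_⟩
  have h1 := hprod a
  rw [ha'] at h1
  have h2 := congrArg Subtype.val h1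
  rw [Subgroup.coe_mul] at h2
  rw [h2]; simp

/-- An abelian normal Hall subgroup A splits as the internal direct product of G' ∩ A and Z(G) ∩ A, and [A, G] = G' ∩ A. -/
theorem result {G : Type*} [Group G] [Finite G] (A : Subgroup G) [A.Normal] (hc : IsMulCommutative A) (hHall : Nat.Coprime (Nat.card A) A.index) : ⁅A, (⊤ : Subgroup G)⁆ = commutator G ⊓ A ∧ (commutator G ⊓ A) ⊓ (Subgroup.center G ⊓ A) = ⊥ ∧ (commutator G ⊓ A) ⊔ (Subgroup.center G ⊓ A) = A := by
  have hd := disj A hc hHall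
  have hdec := decomp A hc hHall
  have hM1 : ⁅A, (⊤ : Subgroup G)⁆ ≤ commutator G ⊓ A := by
    apply le_inf
    · rw [commutator_def]; exact Subgroup.commutator_mono le_top le_rfl
    · exact Subgroup.commutator_le_left A ⊤
  have h1 : ⁅A, (⊤ : Subgroup G)⁆ = commutator G ⊓ A := by
    apply le_antisymm hM1
    intro g hg
    obtain ⟨c, hc', z, hz, hgz⟩ := hdec g hg.2
    have hz' : z = c⁻¹ * g := by rw [hgz]; group
    have hzc : z ∈ commutator G := by
      rw [hz']
      exact Subgroup.mul_mem _ (Subgroup.inv_mem _ (hM1 hc').1) hg.1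
    have := hd z hzc hz.1 hz.2
    rw [this, mul_one] at hgz
    rw [hgz]; exact hc'
  refine ⟨h1, ?_, ?_⟩
  · rw [eq_bot_iff]
    intro z hz
    rw [Subgroup.mem_bot]
    exact hd z hz.1.1 hz.2.1 hz.2.2
  · apply le_antisymm
    · exact sup_le inf_le_right inf_le_right
    · intro b hb
      obtain ⟨c, hc', z, hz, hgz⟩ := hdec b hb
      rw [hgz]
      exact Subgroup.mul_mem_sup (hM1 hc') hz

end Cfsg.Agent.S0090
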