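import Cfsg.Statements.S0091
import Mathlib

set_option autoImplicit false
open Cfsg
open scoped commutatorElement

namespace Cfsg.Agent.S0091

/-- If a nontrivial Sylow p-subgroup controls its own fusion then it is not contained in the derived subgroup. -/
theorem result {G : Type*} [Group G] [Finite G] {p : ℕ} [Fact p.Prime] (P : Sylow p G) (hp : p ∣ Nat.card G) (h : ∀ x ∈ P, ∀ y ∈ P, (∃ g : G, g * x * g⁻¹ = y) → ∃ z ∈ P, z * x * z⁻¹ = y) : ¬ (P : Subgroup G) ≤ commutator G := by
  intro hle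
  have h1 : commutator G ⊓ (P : Subgroup G) = (P : Subgroup G).focalSubgroup :=
    Subgroup.commutator_inf_eq_focalSubgroup P
  have h2 : (P : Subgroup G).focalSubgroup = (P : Subgroup G) := by
    rw [← h1]; exact inf_eq_right.mpr hle
  have h3 : (P : Subgroup G).focalSubgroup ≤ ⁅(P : Subgroup G), (P : Subgroup G)⁆ := by
    rw [Subgroup.focalSubgroup_def, Subgroup.closure_le]
    rintro g ⟨hg, x, hx, u, rfl⟩
    have hconj : u * x⁻¹ * u⁻¹ ∈ (P : Subgroup G) := by
      have : u * x⁻¹ * u⁻¹ = x⁻¹ * ⁅x, u⁆ := by rw [commutatorElement_def]; group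
      rw [this]; exact Subgroup.mul_mem _ (Subgroup.inv_mem _ hx) hg
    obtain ⟨z, hz, hzx⟩ := h x⁻¹ (Subgroup.inv_mem _ hx) _ hconj ⟨u, rfl⟩
    have : ⁅x, u⁆ = ⁅x, z⁆ := by
      rw [commutatorElement_def, commutatorElement_def]
      calc x * u * x⁻¹ * u⁻¹ = x * (u * x⁻¹ * u⁻¹) := by group
        _ = x * (z * x⁻¹ * z⁻¹) := by rw [hzx]
        _ = x * z * x⁻¹ * z⁻¹ := by group
    rw [SetLike.mem_coe, this]
    exact Subgroup.commutator_mem_commutator hx hz
  have h4 : ⁅(P : Subgroup G), (P : Subgroup G)⁆ = (P : Subgroup G) := by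
    apply le_antisymm
    · rw [Subgroup.commutator_le]
      intro a ha b hb
      rw [commutatorElement_def]
      exact Subgroup.mul_mem _ (Subgroup.mul_mem _ (Subgroup.mul_mem _ ha hb)
        (Subgroup.inv_mem _ ha)) (Subgroup.inv_mem _ hb)
    · calc (P : Subgroup G) = (P : Subgroup G).focalSubgroup := h2.symm
        _ ≤ ⁅(P : Subgroup G), (P : Subgroup G)⁆ := h3
  have hnil : Group.IsNilpotent (P : Subgroup G) := P.isPGroup'.isNilpotent
  obtain ⟨n, hn⟩ := (Subgroup.isNilpotent_iff_lowerCentralSeries (P : Subgroup G)).mp hnil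
  have hall : ∀ k, (P : Subgroup G).lowerCentralSeries k = (P : Subgroup G) := by
    intro k
    induction k with
    | zero => rfl
    | succ k ih => rw [Subgroup.lowerCentralSeries_succ, ih, h4]
  rw [hall n] at hn
  exact P.ne_bot_of_dvd_card hp hn

end Cfsg.Agent.S0091
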