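import Cfsg.Statements.S0092
import Mathlib
import Cfsg.Agent.S0001
import Cfsg.Agent.S0075
import Cfsg.Agent.S0090
import Cfsg.Agent.Helper6.PResidual

set_option autoImplicit false
open Cfsg
open scoped Pointwise

namespace Cfsg.Agent.S0092

/-- `O^p(O^p(G)) = O^p(G)` -/
theorem pResidual_idem' (p : ℕ) (G : Type*) [Group G] :
    Cfsg.pResidual p ↥(Cfsg.pResidual p G) = ⊤ := by
  rw [eq_top_iff]
  rintro ⟨y, hy⟩ -
  have key : Subgroup.closure {g : G | Nat.Coprime (orderOf g) p} ≤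
      (Cfsg.pResidual p ↥(Cfsg.pResidual p G)).map (Cfsg.pResidual p G).subtype := by
    rw [Subgroup.closure_le]
    intro g hg
    have hgN : g ∈ Cfsg.pResidual p G := Subgroup.subset_closure hg
    refine ⟨⟨g, hgN⟩, ?_, rfl⟩
    apply Subgroup.subset_closure
    show Nat.Coprime (orderOf (⟨g, hgN⟩ : ↥(Cfsg.pResidual p G))) p
    rw [← Subgroup.orderOf_coe]
    exact hg
  obtain ⟨z, hz, hzy⟩ := key hy
  have hzy' : z = ⟨y, hy⟩ := Subtype.ext hzy
  rw [← hzy']; exact hz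

/-- the splitting lemma in the normalizer of the abelian Sylow subgroup -/
theorem split_aux {X : Type*} [Group X] [Finite X] {p : ℕ} [Fact p.Prime] (T M : Subgroup X)
    [hTn : T.Normal] [hMn : M.Normal] (hTM : T ≤ M)
    (hTc : ∀ a ∈ T, ∀ b ∈ T, a * b = b * a) (hTp : IsPGroup p T)
    (hSyl : ¬ p ∣ T.relIndex M) (hcomm : T ≤ ⁅M, M⁆)
    (hXM : ∀ x : X, ∃ k : ℕ, x ^ p ^ k ∈ M) :
    ∃ K : Subgroup X, K.IsComplement' M := by
  classical
  have hp : p.Prime := Fact.out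
  -- (a) a complement `L` of `T` in `M`
  haveI hTMn : (T.subgroupOf M).Normal := inferInstance
  haveI hTMc : IsMulCommutative (T.subgroupOf M) :=
    ⟨⟨fun a b => Subtype.ext (Subtype.ext (hTc a.1.1 (Subgroup.mem_subgroupOf.mp a.2) b.1.1
      (Subgroup.mem_subgroupOf.mp b.2)))⟩⟩
  have hcardTM : Nat.card (T.subgroupOf M) = Nat.card T :=
    Nat.card_congr (Subgroup.subgroupOfEquivOfLe hTM).toEquiv
  obtain ⟨e, he⟩ := hTp.exists_card_eq
  have hcop1 : Nat.Coprime (Nat.card (T.subgroupOf M)) (T.subgroupOf M).index := by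
    rw [hcardTM, he]
    apply Nat.Coprime.pow_left
    exact (Nat.Prime.coprime_iff_not_dvd hp).mpr hSyl
  obtain ⟨LM, hLM⟩ := Subgroup.exists_right_complement'_of_coprime hcop1
  obtain ⟨L, hLdef⟩ : ∃ L, L = LM.map M.subtype := ⟨_, rfl⟩
  have hLM' : L ≤ M := by rw [hLdef]; exact Subgroup.map_subtype_le LM
  have hLmem : ∀ y : M, (y : X) ∈ L ↔ y ∈ LM := by
    intro y
    rw [hLdef]
    constructor
    · rintro ⟨z, hz, hzy⟩
      have hzy' : z = y := Subtype.ext hzy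
      rw [← hzy']; exact hz
    · intro hy; exact ⟨y, hy, rfl⟩
  have hLT : ∀ c, c ∈ L → c ∈ T → c = 1 := by
    intro c hcL hcT
    have h1 : (⟨c, hLM' hcL⟩ : M) ∈ T.subgroupOf M ⊓ LM :=
      Subgroup.mem_inf.mpr ⟨Subgroup.mem_subgroupOf.mpr hcT, (hLmem ⟨c, hLM' hcL⟩).mp hcL⟩
    rw [hLM.disjoint.eq_bot, Subgroup.mem_bot] at h1
    exact congrArg Subtype.val h1
  have hcardL : Nat.card L = Nat.card LM := by
    rw [hLdef]; exact Subgroup.card_map_of_injective M.subtype_injective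
  have hcardM : Nat.card T * Nat.card L = Nat.card M := by
    rw [hcardL, ← hcardTM]; exact hLM.card_mul_card
  have hpL : ¬ p ∣ Nat.card L := by
    rw [hcardL, ← hLM.symm.index_eq_card]
    exact hSyl
  have hMdec : ∀ m ∈ M, ∃ t ∈ T, ∃ l ∈ L, m = t * l := by
    intro m hm
    obtain ⟨⟨a, k⟩, hak⟩ := hLM.2 ⟨m, hm⟩
    have hak' : (a : M) * (k : M) = ⟨m, hm⟩ := hak
    refine ⟨((a : M) : X), Subgroup.mem_subgroupOf.mp a.2, ((k : M) : X), (hLmem _).mpr k.2, ?_⟩
    have hak'' := congrArg Subtype.val hak'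
    exact hak''.symm
  -- (b) `C_T(L) = 1`
  have hb : ∀ c ∈ T, (∀ l ∈ L, c * l = l * c) → c = 1 := by
    intro c hcT hcL
    have hcM : c ∈ M := hTM hcT
    have h1 := Cfsg.Agent.S0090.disj (T.subgroupOf M) hTMc hcop1 (⟨c, hcM⟩ : M) ?_ ?_ ?_
    · exact congrArg Subtype.val h1
    · have h2 : c ∈ ⁅M, M⁆ := hcomm hcT
      rw [← Subgroup.map_subtype_commutator M] at h2
      obtain ⟨z, hz, hzc⟩ := h2
      have hzc' : z = ⟨c, hcM⟩ := Subtype.ext hzc
      rw [← hzc']; exact hz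
    · rw [Subgroup.mem_center_iff]
      rintro ⟨m, hm⟩
      apply Subtype.ext
      show m * c = c * m
      obtain ⟨t, ht, l, hl, rfl⟩ := hMdec m hm
      have e1 : t * c = c * t := hTc t ht c hcT
      have e2 : c * l = l * c := hcL l hl
      calc t * l * c = t * (l * c) := by group
        _ = t * (c * l) := by rw [e2]
        _ = (t * c) * l := by group
        _ = (c * t) * l := by rw [e1]
        _ = c * (t * l) := by group
    · exact Subgroup.mem_subgroupOf.mpr hcT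
  -- (c) Frattini argument
  obtain ⟨R, hRdef⟩ : ∃ R, R = Subgroup.normalizer (L : Set X) := ⟨_, rfl⟩
  have hLR : L ≤ R := by rw [hRdef]; exact Subgroup.le_normalizer
  have hRmem : ∀ r, r ∈ R ↔ ∀ y, y ∈ L ↔ r * y * r⁻¹ ∈ L := by
    intro r; rw [hRdef]; exact Subgroup.mem_normalizer_iff
  have hTsol : IsSolvable (T.subgroupOf M) :=
    Group.isSolvable_of_comm (fun a b => mul_comm' a b)
  have hsupL : L ⊔ T = M := by
    apply le_antisymm (sup_le hLM' hTM)
    intro m hm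
    obtain ⟨t, ht, l, hl, rfl⟩ := hMdec m hm
    exact Subgroup.mul_mem _ (le_sup_right (a := L) (b := T) ht)
      (le_sup_left (a := L) (b := T) hl)
  have hcopL : ∀ L' : Subgroup X, Nat.card L' = Nat.card L → L' ≤ M →
      (Nat.card (L'.subgroupOf M)).Coprime (Nat.card (T.subgroupOf M)) := by
    intro L' hL' hL'M
    have e1 : Nat.card (L'.subgroupOf M) = Nat.card L' :=
      Nat.card_congr (Subgroup.subgroupOfEquivOfLe hL'M).toEquiv
    rw [e1, hL', hcardTM, he]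
    exact Nat.Coprime.pow_right e ((Nat.Prime.coprime_iff_not_dvd hp).mpr hpL).symm
  have hc : ∀ x : X, ∃ t ∈ T, ∃ r ∈ R, x = t * r := by
    intro x
    obtain ⟨Lx, hLx⟩ : ∃ Lx, Lx = MulAut.conj x • L := ⟨_, rfl⟩
    have hconjx : Cfsg.Agent.S0001.ConjTo x L Lx := Cfsg.Agent.S0001.conjTo_of_smul hLx.symm
    have hLxM : Lx ≤ M := by
      intro y hy
      have h1 := (hconjx y).mp hy
      have h2 : x⁻¹ * y * x ∈ M := hLM' h1
      have h3 := hMn.conj_mem _ h2 x
      have h4 : x * (x⁻¹ * y * x) * x⁻¹ = y := by group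
      rw [h4] at h3; exact h3
    have hsupLx : Lx ⊔ T = M := by
      have h1 : MulAut.conj x • (L ⊔ T) = MulAut.conj x • L ⊔ MulAut.conj x • T :=
        Subgroup.smul_sup _ _ _
      rw [hsupL, Subgroup.Normal.conj_smul_eq_self x M, Subgroup.Normal.conj_smul_eq_self x T,
        ← hLx] at h1
      exact h1.symm
    have hcardLx : Nat.card Lx = Nat.card L := by
      rw [hLx]; exact (Nat.card_congr (Subgroup.equivSMul (MulAut.conj x) L).toEquiv).symm
    obtain ⟨m, hm⟩ := Cfsg.Agent.S0001.auxA (Nat.card M) M rfl (T.subgroupOf M)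
      (L.subgroupOf M) (Lx.subgroupOf M) hTMn hTsol
      (Cfsg.Agent.S0001.sup_subgroupOf_top L T M hLM' hTM hsupL)
      (Cfsg.Agent.S0001.sup_subgroupOf_top Lx T M hLxM hTM hsupLx)
      (hcopL L rfl hLM') (hcopL Lx hcardLx hLxM)
    obtain ⟨l, hlM, hconjl⟩ := Cfsg.Agent.S0001.conjTo_of_subgroup M L Lx hLM' hLxM ⟨m, hm⟩
    have hr : l⁻¹ * x ∈ R := by
      rw [hRmem]
      intro y
      have e1 := hconjx (x * y * x⁻¹)
      have e2 := hconjl (x * y * x⁻¹)
      have e3 : x⁻¹ * (x * y * x⁻¹) * x = y := by group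
      have e4 : l⁻¹ * (x * y * x⁻¹) * l = l⁻¹ * x * y * (l⁻¹ * x)⁻¹ := by group
      rw [e3] at e1
      rw [e4] at e2
      exact e1.symm.trans e2
    obtain ⟨t, ht, l', hl', rfl⟩ := hMdec l hlM
    exact ⟨t, ht, l' * ((t * l')⁻¹ * x), R.mul_mem (hLR hl') hr, by group⟩
  -- (d) `R ∩ T = 1`
  have hd : ∀ c, c ∈ R → c ∈ T → c = 1 := by
    intro c hcR hcT
    apply hb c hcT
    intro l hl
    have h1 : c * l * c⁻¹ ∈ L := ((hRmem c).mp hcR l).mp hl
    have h2 : c * l * c⁻¹ * l⁻¹ ∈ L := L.mul_mem h1 (L.inv_mem hl)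
    have h3 : c * l * c⁻¹ * l⁻¹ ∈ T := by
      have h4 : l * c⁻¹ * l⁻¹ ∈ T := hTn.conj_mem _ (T.inv_mem hcT) l
      have h5 : c * l * c⁻¹ * l⁻¹ = c * (l * c⁻¹ * l⁻¹) := by group
      rw [h5]; exact T.mul_mem hcT h4
    have h6 := hLT _ h2 h3
    calc c * l = (c * l * c⁻¹ * l⁻¹) * (l * c) := by group
      _ = l * c := by rw [h6, one_mul]
  -- (e) `R ∩ M ≤ L`
  have he' : ∀ y, y ∈ R → y ∈ M → y ∈ L := by
    intro y hyR hyM
    obtain ⟨t, ht, l, hl, rfl⟩ := hMdec y hyM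
    have htR : t ∈ R := by
      have e1 : t = (t * l) * l⁻¹ := by group
      rw [e1]; exact R.mul_mem hyR (R.inv_mem (hLR hl))
    rw [hd t htR ht, one_mul]; exact hl
  -- (f) Schur–Zassenhaus in `R`
  haveI hLRn : (L.subgroupOf R).Normal := by
    subst hRdef; exact Subgroup.normal_in_normalizer
  have hcardLR : Nat.card (L.subgroupOf R) = Nat.card L :=
    Nat.card_congr (Subgroup.subgroupOfEquivOfLe hLR).toEquiv
  have hquot : IsPGroup p (↥R ⧸ L.subgroupOf R) := by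
    intro q
    obtain ⟨r, rfl⟩ := QuotientGroup.mk_surjective q
    obtain ⟨k, hk⟩ := hXM (r : X)
    refine ⟨k, ?_⟩
    rw [← QuotientGroup.mk_pow]
    apply (QuotientGroup.eq_one_iff _).mpr
    rw [Subgroup.mem_subgroupOf]
    have e1 : ((r ^ p ^ k : R) : X) = (r : X) ^ p ^ k := rfl
    rw [e1]
    exact he' _ (R.pow_mem r.2 _) hk
  obtain ⟨k, hk⟩ := hquot.exists_card_eq
  have hcop2 : Nat.Coprime (Nat.card (L.subgroupOf R)) (L.subgroupOf R).index := by
    rw [hcardLR, Subgroup.index_eq_card, hk]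
    exact Nat.Coprime.pow_right k ((Nat.Prime.coprime_iff_not_dvd hp).mpr hpL).symm
  obtain ⟨KR, hKR⟩ := Subgroup.exists_right_complement'_of_coprime hcop2
  -- (g)
  refine ⟨KR.map R.subtype, ?_⟩
  apply Subgroup.isComplement'_of_card_mul_and_disjoint
  · have h1 : Nat.card (KR.map R.subtype) = Nat.card KR :=
      Subgroup.card_map_of_injective R.subtype_injective
    have h2 : Nat.card L * Nat.card KR = Nat.card R := by
      rw [← hcardLR]; exact hKR.card_mul_card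
    have h3 : Nat.card T * Nat.card R = Nat.card X := by
      have hTR : Subgroup.IsComplement' T R := by
        apply Subgroup.isComplement'_of_disjoint_and_mul_eq_univ
        · rw [disjoint_iff, eq_bot_iff]
          intro c hc
          rw [Subgroup.mem_bot]
          exact hd c (Subgroup.mem_inf.mp hc).2 (Subgroup.mem_inf.mp hc).1
        · rw [Set.eq_univ_iff_forall]
          intro x
          obtain ⟨t, ht, r, hr, rfl⟩ := hc x
          exact Set.mul_mem_mul ht hr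
      exact hTR.card_mul_card
    rw [h1, ← h3, ← h2, ← hcardM]; ring
  · rw [disjoint_iff, eq_bot_iff]
    intro y hy
    obtain ⟨hyK, hyM⟩ := Subgroup.mem_inf.mp hy
    obtain ⟨z, hz, rfl⟩ := hyK
    have hzL : (z : X) ∈ L := he' _ z.2 hyM
    have h4 : z ∈ L.subgroupOf R ⊓ KR :=
      Subgroup.mem_inf.mpr ⟨Subgroup.mem_subgroupOf.mpr hzL, hz⟩
    rw [hKR.disjoint.eq_bot, Subgroup.mem_bot] at h4
    rw [Subgroup.mem_bot, h4]; rfl

theorem main_aux {G : Type*} [Group G] [Finite G] {p : ℕ} [Fact p.Prime] (N : Subgroup G)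
    [hNn : N.Normal] (hidem : Cfsg.pResidual p ↥N = ⊤)
    (hquot : ∀ g : G, ∃ k : ℕ, g ^ p ^ k ∈ N)
    (T' : Sylow p ↥N) (hT' : IsMulCommutative T') : ∃ K : Subgroup G, K.IsComplement' N := by
  classical
  have hp : p.Prime := Fact.out
  have h1 := Cfsg.Agent.S0075.result T' hT'
  rw [hidem, inf_top_eq] at h1
  obtain ⟨T, hTdef⟩ : ∃ T, T = (T' : Subgroup ↥N).map N.subtype := ⟨_, rfl⟩
  have hTN : T ≤ N := by rw [hTdef]; exact Subgroup.map_subtype_le _
  have hTmem : ∀ y : ↥N, (y : G) ∈ T ↔ y ∈ (T' : Subgroup ↥N) := by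
    intro y
    rw [hTdef]
    constructor
    · rintro ⟨z, hz, hzy⟩
      have hzy' : z = y := Subtype.ext hzy
      rw [← hzy']; exact hz
    · intro hy; exact ⟨y, hy, rfl⟩
  obtain ⟨H, hHdef⟩ : ∃ H, H = Subgroup.normalizer (T : Set G) := ⟨_, rfl⟩
  have hTH : T ≤ H := by rw [hHdef]; exact Subgroup.le_normalizer
  have hFr : H ⊔ N = ⊤ := by
    rw [hHdef, hTdef]; exact Sylow.normalizer_sup_eq_top T'
  have hTcomm : T ≤ ⁅N ⊓ H, N ⊓ H⁆ := by
    have e1 : T = (⁅(T' : Subgroup ↥N),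
        Subgroup.normalizer (T' : Set ↥N)⁆).map N.subtype := by
      rw [← h1, hTdef]
    rw [e1, Subgroup.map_commutator]
    apply Subgroup.commutator_mono
    · rw [← hTdef]; exact le_inf hTN hTH
    · apply le_inf (Subgroup.map_subtype_le _)
      rw [hHdef, hTdef]
      exact Subgroup.le_normalizer_map (H := (T' : Subgroup ↥N)) N.subtype
  haveI hTXn : (T.subgroupOf H).Normal := by
    subst hHdef; exact Subgroup.normal_in_normalizer
  haveI hMXn : (N.subgroupOf H).Normal := inferInstance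
  have hTX_le : T.subgroupOf H ≤ N.subgroupOf H := by
    intro y hy
    exact Subgroup.mem_subgroupOf.mpr (hTN (Subgroup.mem_subgroupOf.mp hy))
  have hTc : ∀ a ∈ T, ∀ b ∈ T, a * b = b * a := by
    intro a ha b hb
    haveI := hT'
    have ha' : (⟨a, hTN ha⟩ : ↥N) ∈ (T' : Subgroup ↥N) := (hTmem _).mp ha
    have hb' : (⟨b, hTN hb⟩ : ↥N) ∈ (T' : Subgroup ↥N) := (hTmem _).mp hb
    have e := mul_comm' (⟨⟨a, hTN ha⟩, ha'⟩ : (T' : Subgroup ↥N)) ⟨⟨b, hTN hb⟩, hb'⟩
    have e' := congrArg Subtype.val e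
    exact congrArg Subtype.val e'
  have hTXc : ∀ a ∈ T.subgroupOf H, ∀ b ∈ T.subgroupOf H, a * b = b * a := by
    intro a ha b hb
    exact Subtype.ext (hTc _ (Subgroup.mem_subgroupOf.mp ha) _ (Subgroup.mem_subgroupOf.mp hb))
  have hTXp : IsPGroup p (T.subgroupOf H) := by
    rintro ⟨y, hy⟩
    have hyT : (y : G) ∈ T := Subgroup.mem_subgroupOf.mp hy
    have hyT' : (⟨(y : G), hTN hyT⟩ : ↥N) ∈ (T' : Subgroup ↥N) := (hTmem _).mp hyT
    obtain ⟨k, hk⟩ := T'.isPGroup' ⟨⟨(y : G), hTN hyT⟩, hyT'⟩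
    refine ⟨k, ?_⟩
    apply Subtype.ext
    apply Subtype.ext
    have e := congrArg Subtype.val (congrArg Subtype.val hk)
    exact e
  have hTsub : T.subgroupOf N = (T' : Subgroup ↥N) := by
    ext y
    rw [Subgroup.mem_subgroupOf]; exact hTmem y
  have hSyl : ¬ p ∣ (T.subgroupOf H).relIndex (N.subgroupOf H) := by
    rw [← Subgroup.inf_subgroupOf_right N H, Subgroup.relIndex_subgroupOf inf_le_right]
    intro hdvd
    have e1 := Subgroup.relIndex_mul_relIndex T (N ⊓ H) N (le_inf hTN hTH) inf_le_left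
    have e2 : p ∣ T.relIndex N := by rw [← e1]; exact Dvd.dvd.mul_right hdvd _
    have e3 : T.relIndex N = (T' : Subgroup ↥N).index := by
      show (T.subgroupOf N).index = _
      rw [hTsub]
    rw [e3] at e2
    exact T'.not_dvd_index e2
  have hcommX : T.subgroupOf H ≤ ⁅N.subgroupOf H, N.subgroupOf H⁆ := by
    intro y hy
    have hyT : (y : G) ∈ T := Subgroup.mem_subgroupOf.mp hy
    have h2 : (y : G) ∈ ⁅N ⊓ H, N ⊓ H⁆ := hTcomm hyT
    have e : (⁅N.subgroupOf H, N.subgroupOf H⁆).map H.subtype = ⁅N ⊓ H, N ⊓ H⁆ := by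
      rw [Subgroup.map_commutator, Subgroup.subgroupOf_map_subtype]
    rw [← e] at h2
    obtain ⟨z, hz, hzy⟩ := h2
    have hzy' : z = y := Subtype.ext hzy
    rw [← hzy']; exact hz
  have hXM : ∀ x : ↥H, ∃ k : ℕ, x ^ p ^ k ∈ N.subgroupOf H := by
    intro x
    obtain ⟨k, hk⟩ := hquot (x : G)
    exact ⟨k, Subgroup.mem_subgroupOf.mpr hk⟩
  obtain ⟨KX, hKX⟩ := split_aux (p := p) (T.subgroupOf H) (N.subgroupOf H) hTX_le hTXc hTXp
    hSyl hcommX hXM
  refine ⟨KX.map H.subtype, ?_⟩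
  apply Subgroup.isComplement'_of_card_mul_and_disjoint
  · have e1 : Nat.card (KX.map H.subtype) = Nat.card KX :=
      Subgroup.card_map_of_injective H.subtype_injective
    have e2 : Nat.card KX = (N.subgroupOf H).index := hKX.index_eq_card.symm
    have e3 : (N.subgroupOf H).index = N.index := by
      have e4 := Subgroup.relIndex_sup_right H N
      rw [hFr, Subgroup.relIndex_top_right] at e4
      exact e4.symm
    rw [e1, e2, e3]; exact Subgroup.index_mul_card N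
  · rw [disjoint_iff, eq_bot_iff]
    intro y hy
    obtain ⟨hyK, hyN⟩ := Subgroup.mem_inf.mp hy
    obtain ⟨z, hz, rfl⟩ := hyK
    have h4 : z ∈ KX ⊓ N.subgroupOf H :=
      Subgroup.mem_inf.mpr ⟨hz, Subgroup.mem_subgroupOf.mpr hyN⟩
    rw [hKX.disjoint.eq_bot, Subgroup.mem_bot] at h4
    rw [Subgroup.mem_bot, h4]; rfl

/-- If the Sylow p-subgroups of O^p(G) are abelian then G splits over O^p(G). -/
theorem result {G : Type*} [Group G] [Finite G] {p : ℕ} [Fact p.Prime] (h : ∀ Q : Sylow p (Cfsg.pResidual p G), IsMulCommutative Q) : ∃ K : Subgroup G, K.IsComplement' (Cfsg.pResidual p G) := by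
  haveI hNn : (Cfsg.pResidual p G).Normal := Cfsg.Agent.Helper6.pResidual_normal p G
  obtain ⟨T'⟩ : Nonempty (Sylow p ↥(Cfsg.pResidual p G)) := inferInstance
  have hq : IsPGroup p (G ⧸ Cfsg.pResidual p G) :=
    Cfsg.Agent.Helper6.isPGroup_quotient_pResidual p (Cfsg.pResidual p G) le_rfl
  refine main_aux (Cfsg.pResidual p G) (pResidual_idem' p G) ?_ T' (h T')
  intro g
  obtain ⟨k, hk⟩ := hq (QuotientGroup.mk g)
  refine ⟨k, ?_⟩
  rw [← QuotientGroup.mk_pow] at hk
  exact (QuotientGroup.eq_one_iff _).mp hk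

end Cfsg.Agent.S0092
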