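import Cfsg.Statements.S0094
import Cfsg.Agent.Helper1.Class2
import Cfsg.Agent.S0012
import Mathlib

set_option autoImplicit false
open Cfsg
open scoped commutatorElement

namespace Cfsg.Agent.S0094

/-- In a special p-group every central element has order dividing p. -/
theorem result {P : Type*} [Group P] [Finite P] {p : ℕ} [Fact p.Prime] (h : Cfsg.IsSpecial p P) (z : P) (hz : z ∈ Subgroup.center P) : z ^ p = 1 := by
  obtain ⟨hpg, hfr, hcm⟩ := h
  have hc : ∀ x y : P, ⁅x, y⁆ ∈ Subgroup.center P := by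
    intro x y
    rw [← hcm]
    exact Subgroup.commutator_mem_commutator (Subgroup.mem_top x) (Subgroup.mem_top y)
  have hz' : z ∈ commutator P := by rw [hcm]; exact hz
  rw [commutator_eq_closure] at hz'
  have key : z ∈ Subgroup.center P ∧ z ^ p = 1 := by
    refine Subgroup.closure_induction (p := fun w _ => w ∈ Subgroup.center P ∧ w ^ p = 1)
      ?_ ?_ ?_ ?_ hz'
    · rintro w ⟨a, b, rfl⟩
      refine ⟨hc a b, ?_⟩
      rw [← Cfsg.Agent.Helper1.comm_pow a b hc p]
      have hap : a ^ p ∈ Subgroup.center P := by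
        rw [← hfr]; exact (Cfsg.Agent.S0012.result p hpg).2 a
      rw [commutatorElement_eq_one_iff_commute]
      exact (Subgroup.mem_center_iff.mp hap b).symm
    · exact ⟨Subgroup.one_mem _, one_pow p⟩
    · rintro x y _ _ ⟨hx, hxp⟩ ⟨hy, hyp⟩
      refine ⟨Subgroup.mul_mem _ hx hy, ?_⟩
      have hcomm : Commute x y := Subgroup.mem_center_iff.mp hy x
      rw [hcomm.mul_pow, hxp, hyp, one_mul]
    · rintro x _ ⟨hx, hxp⟩
      exact ⟨Subgroup.inv_mem _ hx, by rw [inv_pow, hxp, inv_one]⟩
  exact key.2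

end Cfsg.Agent.S0094
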