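import Cfsg.Statements.S0096
import Cfsg.Agent.Helper1.Class2
import Mathlib

set_option autoImplicit false
open Cfsg
open scoped commutatorElement

namespace Cfsg.Agent.S0096

/-- For odd p, in a p-group of class at most two the elements of order dividing p generate a subgroup of exponent dividing p. -/
theorem result {P : Type*} [Group P] [Finite P] {p : ℕ} [Fact p.Prime] (hp : p ≠ 2) (hP : IsPGroup p P) (h2 : ⁅commutator P, (⊤ : Subgroup P)⁆ = ⊥) (g : P) (hg : g ∈ Subgroup.closure {x : P | x ^ p = 1}) : g ^ p = 1 := by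
  have hpp : p.Prime := Fact.out
  have hc : ∀ a b : P, ⁅a, b⁆ ∈ Subgroup.center P := by
    intro a b
    rw [Subgroup.mem_center_iff]
    intro g
    have h1 : ⁅⁅a, b⁆, g⁆ ∈ ⁅commutator P, (⊤ : Subgroup P)⁆ :=
      Subgroup.commutator_mem_commutator
        (Subgroup.commutator_mem_commutator (Subgroup.mem_top a) (Subgroup.mem_top b))
        (Subgroup.mem_top g)
    rw [h2, Subgroup.mem_bot, commutatorElement_eq_one_iff_commute] at h1
    exact h1.eq.symm
  have hmul : ∀ x y : P, x ^ p = 1 → y ^ p = 1 → (x * y) ^ p = 1 := by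
    intro x y hx hy
    have hcp : ⁅y, x⁆ ^ p = 1 := by
      rw [← Cfsg.Agent.Helper1.comm_pow y x hc p, hy]; simp
    rw [Cfsg.Agent.Helper1.mul_pow_odd p hpp hp hc x y hcp, hx, hy, one_mul]
  refine Subgroup.closure_induction (p := fun w _ => w ^ p = 1) ?_ ?_ ?_ ?_ hg
  · intro w hw; exact hw
  · exact one_pow p
  · intro x y _ _ hx hy; exact hmul x y hx hy
  · intro x _ hx; rw [inv_pow, hx, inv_one]

end Cfsg.Agent.S0096
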