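import Cfsg.Statements.S0097
import Cfsg.Agent.Helper1.Class2
import Cfsg.Agent.S0012
import Mathlib

set_option autoImplicit false
open Cfsg
open scoped commutatorElement

namespace Cfsg.Agent.S0097

/-- For odd p and E extraspecial, the subgroup generated by the elements of order dividing p has exponent dividing p and index at most p. -/
theorem result {E : Type*} [Group E] [Finite E] {p : ℕ} [Fact p.Prime] (hp : p ≠ 2) (h : Cfsg.IsExtraspecial p E) : (Subgroup.closure {x : E | x ^ p = 1}).index ≤ p ∧ ∀ g ∈ Subgroup.closure {x : E | x ^ p = 1}, g ^ p = 1 := by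
  have hpp : p.Prime := Fact.out
  obtain ⟨⟨hpg, hfr, hcm⟩, hZ⟩ := h
  have hc : ∀ x y : E, ⁅x, y⁆ ∈ Subgroup.center E := by
    intro x y
    rw [← hcm]
    exact Subgroup.commutator_mem_commutator (Subgroup.mem_top x) (Subgroup.mem_top y)
  have hpow : ∀ a : E, a ^ p ∈ Subgroup.center E := by
    intro a; rw [← hfr]; exact (Cfsg.Agent.S0012.result p hpg).2 a
  have hcp : ∀ x y : E, ⁅y, x⁆ ^ p = 1 := by
    intro x y
    rw [← Cfsg.Agent.Helper1.comm_pow y x hc p, commutatorElement_eq_one_iff_commute]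
    exact (Subgroup.mem_center_iff.mp (hpow y) x).symm
  have hmulpow : ∀ x y : E, (x * y) ^ p = x ^ p * y ^ p := fun x y =>
    Cfsg.Agent.Helper1.mul_pow_odd p hpp hp hc x y (hcp x y)
  obtain ⟨φ, hφ⟩ : ∃ φ : E →* Subgroup.center E, ∀ x, (φ x : E) = x ^ p :=
    ⟨MonoidHom.mk' (fun x => ⟨x ^ p, hpow x⟩) (fun x y => Subtype.ext (hmulpow x y)),
      fun x => rfl⟩
  have hker : ∀ x : E, x ∈ φ.ker ↔ x ^ p = 1 := by
    intro x
    rw [MonoidHom.mem_ker, ← hφ x]
    constructor
    · intro h1; rw [h1]; rfl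
    · intro h1; exact Subtype.ext h1
  have hle : Subgroup.closure {x : E | x ^ p = 1} ≤ φ.ker := by
    rw [Subgroup.closure_le]
    intro x hx
    exact (hker x).mpr hx
  have hge : φ.ker ≤ Subgroup.closure {x : E | x ^ p = 1} := fun x hx =>
    Subgroup.subset_closure ((hker x).mp hx)
  constructor
  · have h1 : (Subgroup.closure {x : E | x ^ p = 1}).index ∣ φ.ker.index :=
      Subgroup.index_dvd_of_le hge
    have h2 : φ.ker.index ≤ p := by
      rw [Subgroup.index_ker, ← hZ]
      exact Subgroup.card_le_card_group _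
    exact (Nat.le_of_dvd (Nat.pos_of_ne_zero Subgroup.index_ne_zero_of_finite) h1).trans h2
  · intro g hg
    exact (hker g).mp (hle hg)

end Cfsg.Agent.S0097
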