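import Mathlib
import Cfsg.Statements.S0098
import Cfsg.Agent.Helper19.ESP

set_option autoImplicit false

open Cfsg

namespace Cfsg.Agent.S0098

open Cfsg.Agent.Helper19.ESP

/-- An extraspecial `p`-group of exponent `p` satisfies the ambient hypotheses of `ESP`. -/
theorem ambp_of_es {E : Type*} [Group E] [Finite E] {p : ℕ} [Fact p.Prime]
    (hE : Cfsg.IsExtraspecial p E) (he : Monoid.exponent E = p) :
    ∃ z : E, AmbP p z ∧ NDp z (⊤ : Subgroup E) := by
  obtain ⟨⟨hP, hfr, hcm⟩, hc⟩ := hE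
  have hp : p.Prime := Fact.out
  haveI : Nontrivial (Subgroup.center E) := by
    rw [← Finite.one_lt_card_iff_nontrivial, hc]; exact hp.one_lt
  obtain ⟨z', hz'⟩ := exists_ne (1 : Subgroup.center E)
  have htop := zpowers_eq_top_of_prime_card hc hz'
  have hcen : ∀ g : E, g ∈ Subgroup.center E → ∃ k : ℕ, g = (z' : E) ^ k := by
    intro g hg
    have hmem : (⟨g, hg⟩ : Subgroup.center E) ∈ Subgroup.zpowers z' := by
      rw [htop]; exact Subgroup.mem_top _
    rw [← mem_powers_iff_mem_zpowers] at hmem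
    obtain ⟨k, hk⟩ := hmem
    refine ⟨k, ?_⟩
    have h' := congrArg Subtype.val hk
    exact h'.symm
  refine ⟨(z' : E), ⟨fun h => hz' (Subtype.ext h), fun g => Subgroup.mem_center_iff.mp z'.2 g,
    ?_, ?_⟩, Subgroup.mem_top _, ?_⟩
  · intro x; rw [← he]; exact Monoid.pow_exponent_eq_one x
  · intro x y
    apply hcen
    rw [← hcm]
    have := Subgroup.commutator_mem_commutator (Subgroup.mem_top x) (Subgroup.mem_top y)
    rw [commutatorElement_def] at this
    rw [commutator_def]; exact this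
  · intro g _ hg
    apply hcen
    rw [Subgroup.mem_center_iff]
    intro h
    exact (hg h (Subgroup.mem_top h)).symm

theorem result {E₁ : Type*} {E₂ : Type*} [Group E₁] [Group E₂] [Finite E₁] [Finite E₂] {p : ℕ} [Fact p.Prime] (hp : p ≠ 2) (h₁ : Cfsg.IsExtraspecial p E₁) (h₂ : Cfsg.IsExtraspecial p E₂) (he₁ : Monoid.exponent E₁ = p) (he₂ : Monoid.exponent E₂ = p) (hc : Nat.card E₁ = Nat.card E₂) : Nonempty (E₁ ≃* E₂) := by
  have hpp : p.Prime := Fact.out
  obtain ⟨z, hz, hND⟩ := ambp_of_es h₁ he₁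
  obtain ⟨z', hz', hND'⟩ := ambp_of_es h₂ he₂
  obtain ⟨F, -⟩ := iso_thm_p hpp hz hz' (Nat.card (⊤ : Subgroup E₁)) ⊤ ⊤ hND hND' rfl
    (by rw [Subgroup.card_top, Subgroup.card_top, hc])
  exact ⟨Subgroup.topEquiv.symm.trans (F.trans Subgroup.topEquiv)⟩

end Cfsg.Agent.S0098
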