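import Mathlib
import Cfsg.Statements.S0099
import Cfsg.Agent.S4416

set_option autoImplicit false

open Cfsg

namespace Cfsg.Agent.S0099

theorem result {E₁ : Type*} {E₂ : Type*} {E₃ : Type*} [Group E₁] [Group E₂] [Group E₃] [Finite E₁] [Finite E₂] [Finite E₃] (h₁ : Cfsg.IsExtraspecial 2 E₁) (h₂ : Cfsg.IsExtraspecial 2 E₂) (h₃ : Cfsg.IsExtraspecial 2 E₃) (h12 : Nat.card E₁ = Nat.card E₂) (h23 : Nat.card E₂ = Nat.card E₃) : Nonempty (E₁ ≃* E₂) ∨ Nonempty (E₂ ≃* E₃) ∨ Nonempty (E₁ ≃* E₃) := by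
  obtain ⟨m₁, -, hc₁, hs₁⟩ := (Cfsg.Agent.S4416.result.{_, 0} E₁ h₁).1
  obtain ⟨m₂, -, hc₂, hs₂⟩ := (Cfsg.Agent.S4416.result.{_, 0} E₂ h₂).1
  obtain ⟨m₃, -, hc₃, hs₃⟩ := (Cfsg.Agent.S4416.result.{_, 0} E₃ h₃).1
  have hm12 : m₁ = m₂ := by
    have : 2 ^ (2 * m₁ + 1) = 2 ^ (2 * m₂ + 1) := by rw [← hc₁, ← hc₂, h12]
    have := Nat.pow_right_injective (le_refl 2) this
    omega
  have hm23 : m₂ = m₃ := by
    have : 2 ^ (2 * m₂ + 1) = 2 ^ (2 * m₃ + 1) := by rw [← hc₂, ← hc₃, h23]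
    have := Nat.pow_right_injective (le_refl 2) this
    omega
  subst hm12
  subst hm23
  rcases hs₁ with hs₁ | hs₁ <;> rcases hs₂ with hs₂ | hs₂ <;> rcases hs₃ with hs₃ | hs₃
  · exact Or.inl ((Cfsg.Agent.S4416.result E₁ h₁).2 E₂ h₂ h12.symm (by rw [hs₁, hs₂]))
  · exact Or.inl ((Cfsg.Agent.S4416.result E₁ h₁).2 E₂ h₂ h12.symm (by rw [hs₁, hs₂]))
  · exact Or.inr (Or.inr ((Cfsg.Agent.S4416.result E₁ h₁).2 E₃ h₃ (by rw [h12, h23]) (by rw [hs₁, hs₃])))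
  · exact Or.inr (Or.inl ((Cfsg.Agent.S4416.result E₂ h₂).2 E₃ h₃ h23.symm (by rw [hs₂, hs₃])))
  · exact Or.inr (Or.inl ((Cfsg.Agent.S4416.result E₂ h₂).2 E₃ h₃ h23.symm (by rw [hs₂, hs₃])))
  · exact Or.inr (Or.inr ((Cfsg.Agent.S4416.result E₁ h₁).2 E₃ h₃ (by rw [h12, h23]) (by rw [hs₁, hs₃])))
  · exact Or.inl ((Cfsg.Agent.S4416.result E₁ h₁).2 E₂ h₂ h12.symm (by rw [hs₁, hs₂]))
  · exact Or.inl ((Cfsg.Agent.S4416.result E₁ h₁).2 E₂ h₂ h12.symm (by rw [hs₁, hs₂]))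

end Cfsg.Agent.S0099
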