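import Cfsg.Statements.S0101
import Cfsg.Agent.S1241
import Cfsg.Agent.S0012
import Mathlib

set_option autoImplicit false
open Cfsg
open scoped commutatorElement

namespace Cfsg.Agent.S0101

/-- In a perfect central extension, the kernel meets each Sylow p-subgroup P inside the Frattini subgroup of P. -/
theorem result {H : Type*} {G : Type*} [Group H] [Group G] [Finite H] (σ : H →* G) (hσ : Function.Surjective σ) (hc : σ.ker ≤ Subgroup.center H) (hH : commutator H = ⊤) {p : ℕ} [Fact p.Prime] (P : Sylow p H) : σ.ker ⊓ (P : Subgroup H) ≤ (frattini P).map (P : Subgroup H).subtype := by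
  intro z hz
  obtain ⟨hzk, hzP⟩ := Subgroup.mem_inf.mp hz
  have hzc : z ∈ Subgroup.center H := hc hzk
  have hp : p.Prime := Fact.out
  obtain ⟨K, hK⟩ : ∃ K : Subgroup H,
      K = (commutator (P : Subgroup H)).map (P : Subgroup H).subtype := ⟨_, rfl⟩
  have hzK : z ∈ K := by
    by_contra hzK
    have hKP : K ≤ (P : Subgroup H) := by rw [hK]; exact Subgroup.map_subtype_le _
    have hKn : (K.subgroupOf (P : Subgroup H)).Normal := by
      have e : K.subgroupOf (P : Subgroup H) = commutator (P : Subgroup H) := by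
        rw [hK]; exact Subgroup.comap_map_eq_self_of_injective (Subgroup.subtype_injective _) _
      rw [e]; infer_instance
    have hab : ∀ x ∈ (P : Subgroup H), ∀ y ∈ (P : Subgroup H), x * y * x⁻¹ * y⁻¹ ∈ K := by
      intro x hx y hy
      rw [hK]
      exact ⟨⁅(⟨x, hx⟩ : (P : Subgroup H)), ⟨y, hy⟩⁆,
        Subgroup.commutator_mem_commutator (Subgroup.mem_top _) (Subgroup.mem_top _), rfl⟩
    have hidx : Nat.Coprime p (P : Subgroup H).index :=
      (Nat.Prime.coprime_iff_not_dvd hp).mpr P.not_dvd_index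
    have hgp : ∃ k : ℕ, orderOf z = p ^ k := by
      obtain ⟨k, hk⟩ := (IsPGroup.iff_orderOf.mp P.isPGroup') ⟨z, hzP⟩
      exact ⟨k, by rw [← hk, Subgroup.orderOf_mk]⟩
    have hctrl : ∀ (m : ℤ) (a : H), a * z ^ m * a⁻¹ ∈ (P : Subgroup H) →
        (a * z ^ m * a⁻¹) * (z ^ m)⁻¹ ∈ K := by
      intro m a _
      have h1 : a * z ^ m = z ^ m * a :=
        Subgroup.mem_center_iff.mp (Subgroup.zpow_mem _ hzc m) a
      have h2 : a * z ^ m * a⁻¹ * (z ^ m)⁻¹ = 1 := by rw [h1]; group
      rw [h2]; exact K.one_mem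
    have := Cfsg.Agent.S1241.result (P : Subgroup H) K hKP hKn hab hidx z hzP hzK hgp hctrl
    exact this (by rw [hH]; trivial)
  rw [hK] at hzK
  obtain ⟨w, hw, rfl⟩ := hzK
  exact ⟨w, (Cfsg.Agent.S0012.result p P.isPGroup').1 hw, rfl⟩

end Cfsg.Agent.S0101
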