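import Cfsg.Statements.S0105
import Mathlib
import Cfsg.Agent.S0090

set_option autoImplicit false
open Cfsg

namespace Cfsg.Agent.S0105

open scoped IsMulCommutative in
/-- With an abelian Sylow p-subgroup P, some quotient of G is isomorphic to the part of P central in N_G(P). -/
theorem result {G : Type*} [Group G] [Finite G] {p : ℕ} [Fact p.Prime] (P : Sylow p G) (hP : IsMulCommutative P) : ∃ (N : Subgroup G) (hN : N.Normal), Nonempty (G ⧸ N ≃* ((P : Subgroup G) ⊓ Subgroup.centralizer (Subgroup.normalizer (P : Set G) : Set G) : Subgroup G)) := by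
  haveI := hP
  have hp : p.Prime := Fact.out
  let V : G →* P := MonoidHom.transfer (MonoidHom.id P)
  set Z₀ : Subgroup G := (P : Subgroup G) ⊓
    Subgroup.centralizer (Subgroup.normalizer (P : Set G) : Set G) with hZ₀
  set m := (P : Subgroup G).index with hm
  have hcopP : (Nat.card P).Coprime m := by
    obtain ⟨k, hk⟩ := IsPGroup.iff_card.mp P.2
    rw [hk]
    exact Nat.Coprime.pow_left k ((Nat.Prime.coprime_iff_not_dvd hp).mpr P.not_dvd_index)
  have hVZ : ∀ z ∈ Z₀, ((V z : P) : G) = z ^ m := by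
    intro z hz
    have key : ∀ (k : ℕ) (g₀ : G), g₀⁻¹ * z ^ k * g₀ ∈ (P : Subgroup G) →
        g₀⁻¹ * z ^ k * g₀ = z ^ k := by
      intro k g₀ hk
      have hzk : z ^ k ∈ Z₀ := Subgroup.pow_mem _ hz k
      obtain ⟨n, hn, hn'⟩ := P.conj_eq_normalizer_conj_of_mem (z ^ k) g₀ hzk.1 hk
      rw [hn']
      have h1 : n * z ^ k = z ^ k * n := Subgroup.mem_centralizer_iff.mp hzk.2 n hn
      rw [mul_assoc, ← h1, inv_mul_cancel_left]
    have h1 := MonoidHom.transfer_eq_pow (MonoidHom.id P) z key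
    have h2 : V z = MonoidHom.transfer (MonoidHom.id P) z := rfl
    rw [h2, h1]
    rfl
  have hVcomm : ∀ g ∈ commutator G, V g = 1 := fun g hg =>
    MonoidHom.mem_ker.mp (Abelianization.commutator_subset_ker V hg)
  have hdec : ∀ b ∈ (P : Subgroup G), ∃ c ∈ commutator G, ∃ z ∈ Z₀, b = c * z := by
    let N : Subgroup G := Subgroup.normalizer ((P : Subgroup G) : Set G)
    let A : Subgroup N := (P : Subgroup G).subgroupOf N
    haveI : A.Normal := Subgroup.normal_in_normalizer
    have hAc : IsMulCommutative A := ⟨⟨fun a b => by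
      apply Subtype.ext; apply Subtype.ext
      have h1 := congrArg Subtype.val (mul_comm' (⟨a.1.1, a.2⟩ : P) ⟨b.1.1, b.2⟩)
      exact h1⟩⟩
    have hPN : (P : Subgroup G) ≤ N := Subgroup.le_normalizer
    have hcardA : Nat.card A = Nat.card P :=
      Nat.card_congr (Subgroup.subgroupOfEquivOfLe hPN).toEquiv
    have hidx : A.index ∣ m := Dvd.intro _ (Subgroup.relIndex_mul_index hPN)
    have hHall : Nat.Coprime (Nat.card A) A.index := by
      rw [hcardA]; exact Nat.Coprime.coprime_dvd_right hidx hcopP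
    intro b hb
    obtain ⟨c, hc, z, hz, hbz⟩ :=
      S0090.decomp A hAc hHall ⟨b, hPN hb⟩ (Subgroup.mem_subgroupOf.mpr hb)
    refine ⟨(c : G), ?_, (z : G), ⟨Subgroup.mem_subgroupOf.mp hz.2, ?_⟩,
      congrArg Subtype.val hbz⟩
    · have h1 : ⁅A, (⊤ : Subgroup N)⁆ ≤ commutator N := by
        rw [commutator_def]; exact Subgroup.commutator_mono le_top le_rfl
      have h2 : (commutator N).map N.subtype ≤ commutator G := by
        rw [commutator_def, commutator_def, Subgroup.map_commutator]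
        exact Subgroup.commutator_mono le_top le_top
      exact h2 (Subgroup.mem_map_of_mem N.subtype (h1 hc))
    · apply Subgroup.mem_centralizer_iff.mpr
      intro n hn
      have := Subgroup.mem_center_iff.mp hz.1 ⟨n, hn⟩
      exact congrArg Subtype.val this
  have hZ₀P : Z₀ ≤ (P : Subgroup G) := inf_le_left
  have hsurj : ∀ z ∈ Z₀, ∃ g, ((V g : P) : G) = z := by
    intro z hz
    have hcop : (Nat.card Z₀).Coprime m :=
      Nat.Coprime.coprime_dvd_left (Subgroup.card_dvd_of_le hZ₀P) hcopP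
    obtain ⟨w, hw⟩ := (powCoprime hcop).surjective ⟨z, hz⟩
    have hw' : w ^ m = ⟨z, hz⟩ := hw
    refine ⟨(w : G), ?_⟩
    rw [hVZ _ w.2]
    have := congrArg Subtype.val hw'
    simpa using this
  have hsup : V.ker ⊔ (P : Subgroup G) = ⊤ := by
    apply Subgroup.index_eq_one.mp
    have h1 : (V.ker ⊔ (P : Subgroup G)).index ∣ V.ker.index := Subgroup.index_dvd_of_le le_sup_left
    have h2 : (V.ker ⊔ (P : Subgroup G)).index ∣ m := Subgroup.index_dvd_of_le le_sup_right
    have h3 : V.ker.index ∣ Nat.card P := by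
      rw [Subgroup.index_ker]; exact Subgroup.card_subgroup_dvd_card _
    exact (Nat.Coprime.coprime_dvd_left (h1.trans h3) hcopP).eq_one_of_dvd h2
  have hrange : ∀ g : G, ((V g : P) : G) ∈ Z₀ := by
    intro g
    have hg : g ∈ ((V.ker ⊔ (P : Subgroup G) : Subgroup G) : Set G) := by
      rw [hsup]; exact Set.mem_univ g
    rw [Subgroup.normal_mul] at hg
    obtain ⟨k, hk, x, hx, rfl⟩ := Set.mem_mul.mp hg
    obtain ⟨c, hc, z, hz, rfl⟩ := hdec x hx
    have hk' : V k = 1 := MonoidHom.mem_ker.mp hk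
    rw [map_mul, map_mul, hk', hVcomm c hc, one_mul, one_mul, hVZ z hz]
    exact Subgroup.pow_mem _ hz m
  have hrangeeq : V.range = Z₀.subgroupOf (P : Subgroup G) := by
    ext y
    constructor
    · rintro ⟨g, rfl⟩
      exact Subgroup.mem_subgroupOf.mpr (hrange g)
    · intro hy
      obtain ⟨g, hg⟩ := hsurj (y : G) (Subgroup.mem_subgroupOf.mp hy)
      exact ⟨g, Subtype.ext hg⟩
  exact ⟨V.ker, MonoidHom.normal_ker V, ⟨(QuotientGroup.quotientKerEquivRange V).trans
    ((MulEquiv.subgroupCongr hrangeeq).trans (Subgroup.subgroupOfEquivOfLe hZ₀P))⟩⟩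

end Cfsg.Agent.S0105
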