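import Cfsg.Statements.S0102
import Mathlib
import Cfsg.Agent.S0105
import Cfsg.Agent.Helper5.Grp

set_option autoImplicit false
open Cfsg

namespace Cfsg.Agent.S0102

/-- A finite perfect group with cyclic Sylow p-subgroups has no perfect central extension whose kernel has order divisible by p. -/
theorem result {G : Type*} {H : Type*} [Group G] [Group H] [Finite G] [Finite H] (hG : commutator G = ⊤) {p : ℕ} [Fact p.Prime] (hcyc : ∀ P : Sylow p G, IsCyclic P) (σ : H →* G) (hσ : Function.Surjective σ) (hz : σ.ker ≤ Subgroup.center H) (hH : commutator H = ⊤) : ¬ p ∣ Nat.card σ.ker := by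
  intro hdvd
  have hp : p.Prime := Fact.out
  obtain ⟨P⟩ := (inferInstance : Nonempty (Sylow p H))
  have hPcomm : IsMulCommutative P := by
    have hσP : IsPGroup p ((P : Subgroup H).map σ) := P.2.map σ
    obtain ⟨Q, hQ⟩ := hσP.exists_le_sylow
    haveI : IsCyclic Q := hcyc Q
    let f : (P : Subgroup H) →* (Q : Subgroup G) :=
      { toFun := fun x => ⟨σ x, hQ ⟨x, x.2, rfl⟩⟩
        map_one' := Subtype.ext (by simp)
        map_mul' := fun x y => Subtype.ext (by simp) }
    have hker : f.ker ≤ Subgroup.center (P : Subgroup H) := by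
      intro x hx
      have h1 : σ (x : H) = 1 := congrArg Subtype.val (MonoidHom.mem_ker.mp hx)
      have h2 : (x : H) ∈ Subgroup.center H := hz (MonoidHom.mem_ker.mpr h1)
      apply Subgroup.mem_center_iff.mpr
      intro y
      exact Subtype.ext (Subgroup.mem_center_iff.mp h2 (y : H))
    exact ⟨⟨commutative_of_cyclic_center_quotient f hker⟩⟩
  obtain ⟨a, ha⟩ := exists_prime_orderOf_dvd_card' p hdvd
  have haH : orderOf (a : H) = p := by rw [Subgroup.orderOf_coe]; exact ha
  have hacen : (a : H) ∈ Subgroup.center H := hz a.2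
  have haP : (a : H) ∈ (P : Subgroup H) := by
    haveI : (Subgroup.zpowers (a : H)).Normal := by
      constructor
      intro n hn g
      have hnc' : n ∈ Subgroup.center H := (Subgroup.zpowers_le.mpr hacen) hn
      have h0 : g * n * g⁻¹ = n := by
        rw [Subgroup.mem_center_iff.mp hnc' g, mul_inv_cancel_right]
      rw [h0]; exact hn
    have hZp : IsPGroup p (Subgroup.zpowers (a : H)) := by
      apply IsPGroup.of_card (n := 1)
      rw [Nat.card_zpowers, haH, pow_one]
    exact Helper5.normal_pGroup_le_sylow (Subgroup.zpowers (a : H)) hZp P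
      (Subgroup.mem_zpowers _)
  obtain ⟨N, hN, ⟨e⟩⟩ := S0105.result P hPcomm
  have hcommQ : IsMulCommutative (H ⧸ N) := by
    refine ⟨⟨fun x y => ?_⟩⟩
    apply e.injective
    rw [map_mul, map_mul]
    apply Subtype.ext
    have hx := (Subgroup.mem_inf.mp (e x).2).1
    have hy := (Subgroup.mem_inf.mp (e y).2).1
    have h5 := congrArg Subtype.val (mul_comm' (⟨(e x : H), hx⟩ : P) ⟨(e y : H), hy⟩)
    exact h5
  have hNtop : N = ⊤ := by
    rw [eq_top_iff, ← hH]
    exact Subgroup.Normal.quotient_commutative_iff_commutator_le.mp hcommQ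
  have haZ : (a : H) ∈ (P : Subgroup H) ⊓
      Subgroup.centralizer (Subgroup.normalizer (P : Set H) : Set H) := by
    refine Subgroup.mem_inf.mpr ⟨haP, ?_⟩
    apply Subgroup.mem_centralizer_iff.mpr
    intro n _
    exact Subgroup.mem_center_iff.mp hacen n
  have h1 : e.symm ⟨(a : H), haZ⟩ = 1 := by
    obtain ⟨g, hg⟩ := QuotientGroup.mk_surjective (e.symm ⟨(a : H), haZ⟩)
    rw [← hg]
    exact (QuotientGroup.eq_one_iff g).mpr (by rw [hNtop]; exact Subgroup.mem_top g)
  have h2 := congrArg e h1
  rw [e.apply_symm_apply, map_one] at h2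
  have h3 : (a : H) = 1 := congrArg Subtype.val h2
  rw [h3, orderOf_one] at haH
  exact hp.one_lt.ne haH

end Cfsg.Agent.S0102
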