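import Cfsg.Statements.S0104
import Mathlib

set_option autoImplicit false
open Cfsg
open Pointwise

namespace Cfsg.Agent.S0104

/-- A subgroup Z of a Sylow p-subgroup P that is normalized by N_G(P) is weakly closed in P exactly when it is normal in every Sylow p-subgroup containing it. -/
theorem result {G : Type*} [Group G] [Finite G] {p : ℕ} [Fact p.Prime] (P : Sylow p G) (Z : Subgroup G) (hZP : Z ≤ (P : Subgroup G)) (hZN : Subgroup.normalizer (P : Set G) ≤ Subgroup.normalizer (Z : Set G)) : Cfsg.IsWeaklyClosed Z P ↔ ∀ R : Sylow p G, Z ≤ (R : Subgroup G) → (R : Subgroup G) ≤ Subgroup.normalizer (Z : Set G) := by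
  have hPN : (P : Subgroup G) ≤ Subgroup.normalizer (Z : Set G) :=
    le_trans Subgroup.le_normalizer hZN
  constructor
  · rintro ⟨-, hW⟩ R hZR
    obtain ⟨g, rfl⟩ := MulAction.exists_smul_eq G P R
    have h1 : Z.map (MulAut.conj g⁻¹).toMonoidHom ≤ (P : Subgroup G) := by
      rintro _ ⟨z, hz, rfl⟩
      have hz' : z ∈ MulAut.conj g • (P : Subgroup G) := hZR hz
      rw [Subgroup.mem_smul_pointwise_iff_exists] at hz'
      obtain ⟨x, hx, rfl⟩ := hz'
      simp only [MulEquiv.coe_toMonoidHom, MulAut.conj_apply, MulAut.smul_def]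
      have : g⁻¹ * (g * x * g⁻¹) * g⁻¹⁻¹ = x := by group
      rw [this]; exact hx
    have h2 := hW g⁻¹ h1
    have hg' : g⁻¹ ∈ Subgroup.normalizer (Z : Set G) :=
      Subgroup.mem_normalizer_iff_map_conj_eq.mpr h2
    have hg : g ∈ Subgroup.normalizer (Z : Set G) := by simpa using Subgroup.inv_mem _ hg'
    intro r hr
    have hr' : r ∈ MulAut.conj g • (P : Subgroup G) := hr
    rw [Subgroup.mem_smul_pointwise_iff_exists] at hr'
    obtain ⟨x, hx, rfl⟩ := hr'
    rw [MulAut.smul_def, MulAut.conj_apply]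
    exact Subgroup.mul_mem _ (Subgroup.mul_mem _ hg (hPN hx)) (Subgroup.inv_mem _ hg)
  · intro hR
    refine ⟨hZP, fun g hg => ?_⟩
    have h1 : Z ≤ ((g⁻¹ • P : Sylow p G) : Subgroup G) := by
      intro z hz
      show z ∈ MulAut.conj g⁻¹ • (P : Subgroup G)
      rw [Subgroup.mem_smul_pointwise_iff_exists]
      refine ⟨g * z * g⁻¹, hg ⟨z, hz, rfl⟩, ?_⟩
      rw [MulAut.smul_def, MulAut.conj_apply]; group
    have h2 := hR (g⁻¹ • P) h1
    obtain ⟨c, hc⟩ := MulAction.exists_smul_eq (Subgroup.normalizer (Z : Set G))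
      ((g⁻¹ • P).subtype h2) (P.subtype hPN)
    simp_rw [Sylow.smul_subtype, Subgroup.smul_def, smul_smul] at hc
    have h3 : (c : G) * g⁻¹ ∈ Subgroup.normalizer (P : Set G) :=
      Sylow.smul_eq_iff_mem_normalizer.mp (Sylow.subtype_injective hc)
    have h4 : (c : G) * g⁻¹ ∈ Subgroup.normalizer (Z : Set G) := hZN h3
    have h5 : g ∈ Subgroup.normalizer (Z : Set G) := by
      have : g = ((c : G) * g⁻¹)⁻¹ * c := by group
      rw [this]
      exact Subgroup.mul_mem _ (Subgroup.inv_mem _ h4) c.2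
    exact Subgroup.mem_normalizer_iff_map_conj_eq.mp h5

end Cfsg.Agent.S0104
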