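import Cfsg.Statements.S0110
import Mathlib

set_option autoImplicit false
open Cfsg
open scoped commutatorElement

namespace Cfsg.Agent.S0110

/-- the hom `e ↦ ⁅a, e⁆` on `E`, for `a` with `⁅a, E⁆` centralizing `E` -/
def cmE {G : Type*} [Group G] (E : Subgroup G) (a : G)
    (ha : ∀ e ∈ E, ⁅a, e⁆ ∈ Subgroup.centralizer (E : Set G)) : E →* G where
  toFun e := ⁅a, (e : G)⁆
  map_one' := by simp
  map_mul' e e' := by
    have hc : (e : G) * ⁅a, (e' : G)⁆ = ⁅a, (e' : G)⁆ * (e : G) :=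
      Subgroup.mem_centralizer_iff.mp (ha e' e'.2) e e.2
    rw [commutatorElement_def] at hc
    show ⁅a, (e : G) * (e' : G)⁆ = ⁅a, (e : G)⁆ * ⁅a, (e' : G)⁆
    calc ⁅a, (e : G) * (e' : G)⁆
        = a * (e : G) * a⁻¹ * (e : G)⁻¹ * ((e : G) * (a * (e' : G) * a⁻¹ * (e' : G)⁻¹) * (e : G)⁻¹) := by
          rw [commutatorElement_def]; group
      _ = a * (e : G) * a⁻¹ * (e : G)⁻¹ * ((a * (e' : G) * a⁻¹ * (e' : G)⁻¹) * (e : G) * (e : G)⁻¹) := by
          rw [hc]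
      _ = ⁅a, (e : G)⁆ * ⁅a, (e' : G)⁆ := by
          rw [commutatorElement_def, commutatorElement_def]; group

theorem key {G : Type*} [Group G] [Finite G] (p : ℕ) [Fact p.Prime] : ∀ n : ℕ,
    ∀ E : Subgroup G, Nat.card E = n →
    Nat.card (E ⊓ Subgroup.centralizer (E : Set G) : Subgroup G) = p →
    (∀ a ∈ E, ∀ b ∈ E, ⁅a, b⁆ ∈ Subgroup.centralizer (E : Set G)) →
    (∃ a ∈ E, ∃ b ∈ E, a * b ≠ b * a) →
    ∀ g : G, (∀ e ∈ E, ⁅g, e⁆ ∈ E ⊓ Subgroup.centralizer (E : Set G)) →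
    ∃ e ∈ E, e⁻¹ * g ∈ Subgroup.centralizer (E : Set G) := by
  intro n
  induction n using Nat.strongRecOn with | ind n ih => ?_
  intro E hn hZ hH2 hnab g hg
  have hp : p.Prime := Fact.out
  obtain ⟨x, hxE, y, hyE, hxy⟩ := hnab
  obtain ⟨Z, hZdef⟩ : ∃ Z : Subgroup G, Z = E ⊓ Subgroup.centralizer (E : Set G) := ⟨_, rfl⟩
  rw [← hZdef] at hZ hg
  have hcomE : ∀ a ∈ E, ∀ b ∈ E, ⁅a, b⁆ ∈ Z := by
    intro a ha b hb
    rw [hZdef]
    refine ⟨?_, hH2 a ha b hb⟩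
    rw [commutatorElement_def]
    exact E.mul_mem (E.mul_mem (E.mul_mem ha hb) (E.inv_mem ha)) (E.inv_mem hb)
  obtain ⟨u, hudef⟩ : ∃ u : G, u = ⁅x, y⁆ := ⟨_, rfl⟩
  have huZ : u ∈ Z := by rw [hudef]; exact hcomE x hxE y hyE
  have hu1 : u ≠ 1 := by
    intro h
    rw [hudef] at h
    exact hxy (commutatorElement_eq_one_iff_mul_comm.mp h)
  have hZpow : ∀ z ∈ Z, ∃ k : ℤ, u ^ k = z := by
    intro z hz
    have h1 : (⟨u, huZ⟩ : Z) ≠ 1 := fun h => hu1 (congrArg Subtype.val h)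
    have h2 := mem_zpowers_of_prime_card hZ h1 (g' := (⟨z, hz⟩ : Z))
    obtain ⟨k, hk⟩ := Subgroup.mem_zpowers_iff.mp h2
    refine ⟨k, ?_⟩
    have h3 := congrArg Subtype.val hk
    simpa using h3
  let cx : E →* G := cmE E x (hH2 x hxE)
  let cy : E →* G := cmE E y (hH2 y hyE)
  have hcx : ∀ e : E, cx e = ⁅x, (e : G)⁆ := fun e => rfl
  have hcy : ∀ e : E, cy e = ⁅y, (e : G)⁆ := fun e => rfl
  have hcxx : cx ⟨x, hxE⟩ = 1 := by rw [hcx]; simp
  have hcyy : cy ⟨y, hyE⟩ = 1 := by rw [hcy]; simp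
  have hcxy : cx ⟨y, hyE⟩ = u := by rw [hcx, hudef]
  have hcyx : cy ⟨x, hxE⟩ = u⁻¹ := by
    rw [hcy, hudef]; exact (commutatorElement_inv x y).symm
  let t : ℤ → ℤ → E := fun a b => (⟨y, hyE⟩ : E) ^ a * (⟨x, hxE⟩ : E) ^ b
  have hcxt : ∀ a b : ℤ, cx (t a b) = u ^ a := by
    intro a b
    show cx ((⟨y, hyE⟩ : E) ^ a * (⟨x, hxE⟩ : E) ^ b) = u ^ a
    rw [map_mul, map_zpow, map_zpow, hcxx, hcxy, one_zpow, mul_one]
  have hcyt : ∀ a b : ℤ, cy (t a b) = u ^ (-b) := by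
    intro a b
    show cy ((⟨y, hyE⟩ : E) ^ a * (⟨x, hxE⟩ : E) ^ b) = u ^ (-b)
    rw [map_mul, map_zpow, map_zpow, hcyy, hcyx, one_zpow, one_mul, inv_zpow, zpow_neg]
  let Q : Subgroup G := E ⊓ Subgroup.centralizer {x, y}
  have hmemQ : ∀ q : G, q ∈ Q ↔ q ∈ E ∧ x * q = q * x ∧ y * q = q * y := by
    intro q
    constructor
    · intro hq
      have hq' := Subgroup.mem_inf.mp hq
      have h2 := Subgroup.mem_centralizer_iff.mp hq'.2
      exact ⟨hq'.1, h2 x (by simp), h2 y (by simp)⟩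
    · rintro ⟨h1, h2, h3⟩
      apply Subgroup.mem_inf.mpr
      refine ⟨h1, ?_⟩
      apply Subgroup.mem_centralizer_iff.mpr
      intro w hw
      rcases hw with rfl | rfl
      · exact h2
      · exact h3
  have hdec : ∀ e : E, ∃ a b : ℤ, ((e * (t a b)⁻¹ : E) : G) ∈ Q := by
    intro e
    obtain ⟨i, hi⟩ := hZpow _ (hcomE x hxE e e.2)
    obtain ⟨j, hj⟩ := hZpow _ (hcomE y hyE e e.2)
    refine ⟨i, -j, ?_⟩
    have h1 : cx (e * (t i (-j))⁻¹) = 1 := by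
      rw [map_mul, map_inv, hcxt, hcx, ← hi, mul_inv_cancel]
    have h2 : cy (e * (t i (-j))⁻¹) = 1 := by
      rw [map_mul, map_inv, hcyt, hcy, ← hj, neg_neg, mul_inv_cancel]
    rw [hmemQ]
    refine ⟨(e * (t i (-j))⁻¹).2, ?_, ?_⟩
    · exact commutatorElement_eq_one_iff_mul_comm.mp h1
    · exact commutatorElement_eq_one_iff_mul_comm.mp h2
  have hcentE : ∀ w : G, (∀ q ∈ Q, q * w = w * q) → x * w = w * x → y * w = w * y →
      w ∈ Subgroup.centralizer (E : Set G) := by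
    intro w hwQ hwx hwy
    apply Subgroup.mem_centralizer_iff.mpr
    intro e he
    obtain ⟨a, b, hq⟩ := hdec ⟨e, he⟩
    have hx' : x ∈ Subgroup.centralizer {w} := by
      apply Subgroup.mem_centralizer_iff.mpr
      intro s hs
      rw [Set.mem_singleton_iff] at hs
      rw [hs]; exact hwx.symm
    have hy' : y ∈ Subgroup.centralizer {w} := by
      apply Subgroup.mem_centralizer_iff.mpr
      intro s hs
      rw [Set.mem_singleton_iff] at hs
      rw [hs]; exact hwy.symm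
    have hq' : (((⟨e, he⟩ : E) * (t a b)⁻¹ : E) : G) ∈ Subgroup.centralizer {w} := by
      apply Subgroup.mem_centralizer_iff.mpr
      intro s hs
      rw [Set.mem_singleton_iff] at hs
      rw [hs]; exact (hwQ _ hq).symm
    have ht' : ((t a b : E) : G) ∈ Subgroup.centralizer {w} := by
      show (((⟨y, hyE⟩ : E) ^ a * (⟨x, hxE⟩ : E) ^ b : E) : G) ∈ _
      rw [Subgroup.coe_mul, Subgroup.coe_zpow, Subgroup.coe_zpow]
      exact Subgroup.mul_mem _ (Subgroup.zpow_mem _ hy' a) (Subgroup.zpow_mem _ hx' b)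
    have he' : e ∈ Subgroup.centralizer {w} := by
      have h5 := Subgroup.mul_mem _ hq' ht'
      have h6 : (((⟨e, he⟩ : E) * (t a b)⁻¹ : E) : G) * ((t a b : E) : G) = e := by
        rw [Subgroup.coe_mul, Subgroup.coe_inv, inv_mul_cancel_right]
      rw [h6] at h5; exact h5
    exact (Subgroup.mem_centralizer_iff.mp he' w rfl).symm
  have hZQ : Q ⊓ Subgroup.centralizer (Q : Set G) = Z := by
    rw [hZdef]
    apply le_antisymm
    · rintro w ⟨hwQ, hwC⟩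
      have hwQ' := (hmemQ w).mp hwQ
      exact ⟨hwQ'.1, hcentE w (fun q hq => Subgroup.mem_centralizer_iff.mp hwC q hq)
        hwQ'.2.1 hwQ'.2.2⟩
    · rintro z ⟨hzE, hzC⟩
      have hzC' := Subgroup.mem_centralizer_iff.mp hzC
      refine ⟨(hmemQ z).mpr ⟨hzE, hzC' x hxE, hzC' y hyE⟩, ?_⟩
      apply Subgroup.mem_centralizer_iff.mpr
      intro q hq
      exact hzC' q ((hmemQ q).mp hq).1
  obtain ⟨i, hi⟩ := hZpow _ (hg x hxE)
  obtain ⟨j, hj⟩ := hZpow _ (hg y hyE)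
  obtain ⟨e₀, he₀def⟩ : ∃ e₀ : E, e₀ = t (-i) j := ⟨_, rfl⟩
  have he₀x : ⁅(e₀ : G), x⁆ = ⁅g, x⁆ := by
    rw [← commutatorElement_inv x (e₀ : G), ← hi]
    have h1 : ⁅x, (e₀ : G)⁆ = u ^ (-i) := by rw [he₀def]; exact hcxt (-i) j
    rw [h1, zpow_neg, inv_inv]
  have he₀y : ⁅(e₀ : G), y⁆ = ⁅g, y⁆ := by
    rw [← commutatorElement_inv y (e₀ : G), ← hj]
    have h1 : ⁅y, (e₀ : G)⁆ = u ^ (-j) := by rw [he₀def]; exact hcyt (-i) j
    rw [h1, zpow_neg, inv_inv]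
  have hg'x : (e₀ : G)⁻¹ * g * x = x * ((e₀ : G)⁻¹ * g) := by
    have h1 : (e₀ : G) * x * (e₀ : G)⁻¹ = g * x * g⁻¹ := by
      have h0 := he₀x
      rw [commutatorElement_def, commutatorElement_def] at h0
      exact mul_right_cancel h0
    calc (e₀ : G)⁻¹ * g * x = (e₀ : G)⁻¹ * (g * x * g⁻¹) * g := by group
      _ = (e₀ : G)⁻¹ * ((e₀ : G) * x * (e₀ : G)⁻¹) * g := by rw [h1]
      _ = x * ((e₀ : G)⁻¹ * g) := by group
  have hg'y : (e₀ : G)⁻¹ * g * y = y * ((e₀ : G)⁻¹ * g) := by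
    have h1 : (e₀ : G) * y * (e₀ : G)⁻¹ = g * y * g⁻¹ := by
      have h0 := he₀y
      rw [commutatorElement_def, commutatorElement_def] at h0
      exact mul_right_cancel h0
    calc (e₀ : G)⁻¹ * g * y = (e₀ : G)⁻¹ * (g * y * g⁻¹) * g := by group
      _ = (e₀ : G)⁻¹ * ((e₀ : G) * y * (e₀ : G)⁻¹) * g := by rw [h1]
      _ = y * ((e₀ : G)⁻¹ * g) := by group
  have hg'Q : ∀ q ∈ Q, ⁅(e₀ : G)⁻¹ * g, q⁆ ∈ Q ⊓ Subgroup.centralizer (Q : Set G) := by
    intro q hq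
    rw [hZQ]
    have hqE := ((hmemQ q).mp hq).1
    have h1 : ⁅g, q⁆ ∈ Z := hg q hqE
    have h2 : ⁅(e₀ : G)⁻¹, q⁆ ∈ Z := hcomE _ (E.inv_mem e₀.2) q hqE
    have h1' : ⁅g, q⁆ ∈ Subgroup.centralizer (E : Set G) := by
      have := h1; rw [hZdef] at this; exact this.2
    have h3 : (e₀ : G)⁻¹ * ⁅g, q⁆ = ⁅g, q⁆ * (e₀ : G)⁻¹ :=
      Subgroup.mem_centralizer_iff.mp h1' _ (E.inv_mem e₀.2)
    have h4 : ⁅(e₀ : G)⁻¹ * g, q⁆ = ⁅g, q⁆ * ⁅(e₀ : G)⁻¹, q⁆ := by
      calc ⁅(e₀ : G)⁻¹ * g, q⁆ = ((e₀ : G)⁻¹ * ⁅g, q⁆) * q * (e₀ : G) * q⁻¹ := by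
            simp only [commutatorElement_def]; group
        _ = (⁅g, q⁆ * (e₀ : G)⁻¹) * q * (e₀ : G) * q⁻¹ := by rw [h3]
        _ = ⁅g, q⁆ * ⁅(e₀ : G)⁻¹, q⁆ := by simp only [commutatorElement_def]; group
    rw [h4]
    exact Z.mul_mem h1 h2
  have hQE : Q ≤ E := inf_le_left
  have hyQ : y ∉ Q := by
    intro hy
    exact hxy ((hmemQ y).mp hy).2.1
  have hQlt : Nat.card Q < n := by
    rw [← hn]
    have hlt : Q < E := lt_of_le_of_ne hQE (fun h => hyQ (h ▸ hyE))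
    exact lt_of_le_of_ne (Subgroup.card_le_of_le hQE)
      (fun e => hlt.ne (Subgroup.eq_of_le_of_card_ge hQE e.ge))
  have hex : ∃ q₀ ∈ Q, q₀⁻¹ * ((e₀ : G)⁻¹ * g) ∈ Subgroup.centralizer (Q : Set G) := by
    by_cases hQab : ∃ a ∈ Q, ∃ b ∈ Q, a * b ≠ b * a
    · have hQ2 : ∀ a ∈ Q, ∀ b ∈ Q, ⁅a, b⁆ ∈ Subgroup.centralizer (Q : Set G) := by
        intro a ha b hb
        have h1 : ⁅a, b⁆ ∈ Z := hcomE a (hQE ha) b (hQE hb)
        rw [← hZQ] at h1
        exact h1.2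
      exact ih (Nat.card Q) hQlt Q rfl (by rw [hZQ]; exact hZ) hQ2 hQab _ hg'Q
    · push Not at hQab
      refine ⟨1, Q.one_mem, ?_⟩
      rw [inv_one, one_mul]
      apply Subgroup.mem_centralizer_iff.mpr
      intro q hq
      have hqZ : q ∈ Z := by
        rw [← hZQ]
        refine ⟨hq, ?_⟩
        apply Subgroup.mem_centralizer_iff.mpr
        intro b hb
        exact hQab b hb q hq
      obtain ⟨k, hk⟩ := hZpow q hqZ
      have hx' : x ∈ Subgroup.centralizer {(e₀ : G)⁻¹ * g} := by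
        apply Subgroup.mem_centralizer_iff.mpr
        intro s hs
        rw [Set.mem_singleton_iff] at hs
        rw [hs]; exact hg'x
      have hy' : y ∈ Subgroup.centralizer {(e₀ : G)⁻¹ * g} := by
        apply Subgroup.mem_centralizer_iff.mpr
        intro s hs
        rw [Set.mem_singleton_iff] at hs
        rw [hs]; exact hg'y
      have hu' : u ∈ Subgroup.centralizer {(e₀ : G)⁻¹ * g} := by
        rw [hudef, commutatorElement_def]
        exact Subgroup.mul_mem _ (Subgroup.mul_mem _ (Subgroup.mul_mem _ hx' hy')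
          (Subgroup.inv_mem _ hx')) (Subgroup.inv_mem _ hy')
      have hq' : q ∈ Subgroup.centralizer {(e₀ : G)⁻¹ * g} := by
        rw [← hk]; exact Subgroup.zpow_mem _ hu' k
      exact (Subgroup.mem_centralizer_iff.mp hq' _ rfl).symm
  obtain ⟨q₀, hq₀Q, hq₀⟩ := hex
  refine ⟨(e₀ : G) * q₀, E.mul_mem e₀.2 (hQE hq₀Q), ?_⟩
  have hrew : ((e₀ : G) * q₀)⁻¹ * g = q₀⁻¹ * ((e₀ : G)⁻¹ * g) := by group
  rw [hrew]
  have hq₀' := (hmemQ q₀).mp hq₀Q
  apply hcentE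
  · intro q hq
    exact Subgroup.mem_centralizer_iff.mp hq₀ q hq
  · have h1 : q₀ ∈ Subgroup.centralizer {x} := by
      apply Subgroup.mem_centralizer_iff.mpr
      intro s hs
      rw [Set.mem_singleton_iff] at hs
      rw [hs]; exact hq₀'.2.1
    have h2 : (e₀ : G)⁻¹ * g ∈ Subgroup.centralizer {x} := by
      apply Subgroup.mem_centralizer_iff.mpr
      intro s hs
      rw [Set.mem_singleton_iff] at hs
      rw [hs]; exact hg'x.symm
    have h3 := Subgroup.mul_mem _ (Subgroup.inv_mem _ h1) h2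
    exact Subgroup.mem_centralizer_iff.mp h3 x rfl
  · have h1 : q₀ ∈ Subgroup.centralizer {y} := by
      apply Subgroup.mem_centralizer_iff.mpr
      intro s hs
      rw [Set.mem_singleton_iff] at hs
      rw [hs]; exact hq₀'.2.2
    have h2 : (e₀ : G)⁻¹ * g ∈ Subgroup.centralizer {y} := by
      apply Subgroup.mem_centralizer_iff.mpr
      intro s hs
      rw [Set.mem_singleton_iff] at hs
      rw [hs]; exact hg'y.symm
    have h3 := Subgroup.mul_mem _ (Subgroup.inv_mem _ h1) h2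
    exact Subgroup.mem_centralizer_iff.mp h3 y rfl

/-- In a p-group G, an extraspecial subgroup E with [G, E] ≤ Z(E) satisfies G = E C_G(E). -/
theorem result {G : Type*} [Group G] [Finite G] {p : ℕ} [Fact p.Prime] (hG : IsPGroup p G) (E : Subgroup G) (hE : Cfsg.IsExtraspecial p E) (h : ⁅(⊤ : Subgroup G), E⁆ ≤ E ⊓ Subgroup.centralizer (E : Set G)) : E ⊔ Subgroup.centralizer (E : Set G) = ⊤ := by
  have hp : p.Prime := Fact.out
  have hcardZ := hE.2
  have hcomm := hE.1.2.2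
  have hmap : (Subgroup.center E).map E.subtype = E ⊓ Subgroup.centralizer (E : Set G) := by
    ext z
    constructor
    · rintro ⟨w, hw, rfl⟩
      refine ⟨w.2, ?_⟩
      apply Subgroup.mem_centralizer_iff.mpr
      intro e he
      exact congrArg Subtype.val (Subgroup.mem_center_iff.mp hw ⟨e, he⟩)
    · rintro ⟨hz1, hz2⟩
      refine ⟨⟨z, hz1⟩, ?_, rfl⟩
      apply Subgroup.mem_center_iff.mpr
      intro e
      exact Subtype.ext (Subgroup.mem_centralizer_iff.mp hz2 e e.2)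
  have hZ : Nat.card (E ⊓ Subgroup.centralizer (E : Set G) : Subgroup G) = p := by
    rw [← hmap, Subgroup.card_map_of_injective E.subtype_injective, hcardZ]
  have hH2 : ∀ a ∈ E, ∀ b ∈ E, ⁅a, b⁆ ∈ Subgroup.centralizer (E : Set G) := by
    intro a ha b hb
    have h1 : ⁅(⟨a, ha⟩ : E), ⟨b, hb⟩⁆ ∈ commutator E := by
      rw [commutator_def]
      exact Subgroup.commutator_mem_commutator (Subgroup.mem_top _) (Subgroup.mem_top _)
    rw [hcomm] at h1
    have h2 : ((⁅(⟨a, ha⟩ : E), ⟨b, hb⟩⁆ : E) : G) ∈ E ⊓ Subgroup.centralizer (E : Set G) := by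
      rw [← hmap]; exact Subgroup.mem_map_of_mem E.subtype h1
    exact h2.2
  have hnab : ∃ a ∈ E, ∃ b ∈ E, a * b ≠ b * a := by
    by_contra hcon
    push Not at hcon
    have h1 : Subgroup.center E = ⊤ := by
      rw [eq_top_iff]
      intro w _
      apply Subgroup.mem_center_iff.mpr
      intro e
      exact Subtype.ext (hcon e e.2 w w.2)
    have h2 : commutator E = ⊥ := (commutator_eq_bot_iff_center_eq_top E).mpr h1
    rw [← hcomm, h2, Subgroup.card_bot] at hcardZ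
    exact hp.one_lt.ne hcardZ
  rw [eq_top_iff]
  intro g _
  have hg : ∀ e ∈ E, ⁅g, e⁆ ∈ E ⊓ Subgroup.centralizer (E : Set G) := fun e he =>
    h (Subgroup.commutator_mem_commutator (Subgroup.mem_top g) he)
  obtain ⟨e, heE, he⟩ := key p _ E rfl hZ hH2 hnab g hg
  have hge : g = e * (e⁻¹ * g) := by group
  rw [hge]
  exact Subgroup.mul_mem_sup heE he

end Cfsg.Agent.S0110
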