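import Cfsg.Statements.S0125
import Mathlib
import Cfsg.Agent.Helper19.Basic

set_option autoImplicit false
open Cfsg

namespace Cfsg.Agent.S0125

/-- The centralizer of a self-centralizing normal subgroup A of a Sylow p-subgroup is the direct product of A with a normal p'-subgroup. -/
theorem result {G : Type*} [Group G] [Finite G] {p : ℕ} [Fact p.Prime] (R : Sylow p G) (A : Subgroup G) (hAR : A ≤ (R : Subgroup G)) (hAn : (R : Subgroup G) ≤ Subgroup.normalizer (A : Set G)) (hC : (R : Subgroup G) ⊓ Subgroup.centralizer (A : Set G) = A) : ∃ H : Subgroup G, H ≤ Subgroup.centralizer (A : Set G) ∧ Nat.Coprime (Nat.card H) p ∧ Subgroup.centralizer (A : Set G) ≤ Subgroup.normalizer (H : Set G) ∧ H ⊓ A = ⊥ ∧ H ⊔ A = Subgroup.centralizer (A : Set G) := by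
  have hp : p.Prime := Fact.out
  obtain ⟨C, hCdef⟩ : ∃ C : Subgroup G, C = Subgroup.centralizer (A : Set G) := ⟨_, rfl⟩
  obtain ⟨N, hNdef⟩ : ∃ N : Subgroup G, N = Subgroup.normalizer (A : Set G) := ⟨_, rfl⟩
  rw [← hCdef] at hC ⊢
  rw [← hNdef] at hAn
  have hAC : A ≤ C := by rw [← hC]; exact inf_le_right
  have hCN : C ≤ N := by rw [hCdef, hNdef]; exact Subgroup.centralizer_le_normalizer _
  have hAN : A ≤ N := hAC.trans hCN
  haveI hC'n : (C.subgroupOf N).Normal := by
    rw [hCdef, hNdef]; infer_instance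
  have hmem : ∀ g : G, g ∈ A ↔ g ∈ (R : Subgroup G) ∧ g ∈ C := fun g => by
    rw [← Subgroup.mem_inf, hC]
  have hinf : ((R.subtype hAn : Sylow p N) : Subgroup N) ⊓ C.subgroupOf N = A.subgroupOf N := by
    ext x
    rw [Subgroup.mem_inf, Sylow.coe_subtype, Subgroup.mem_subgroupOf, Subgroup.mem_subgroupOf,
      Subgroup.mem_subgroupOf]
    exact (hmem _).symm
  have hcard1 := Cfsg.Agent.Helper19.card_inf_normal_sylow (R.subtype hAn) (C.subgroupOf N)
  rw [hinf] at hcard1
  have e1 : Nat.card (A.subgroupOf N) = Nat.card A :=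
    Nat.card_congr (Subgroup.subgroupOfEquivOfLe hAN).toEquiv
  have e2 : Nat.card (C.subgroupOf N) = Nat.card C :=
    Nat.card_congr (Subgroup.subgroupOfEquivOfLe hCN).toEquiv
  have e3 : Nat.card (A.subgroupOf C) = Nat.card A :=
    Nat.card_congr (Subgroup.subgroupOfEquivOfLe hAC).toEquiv
  rw [e1, e2] at hcard1
  obtain ⟨P, hPcoe⟩ : ∃ P : Sylow p C, (P : Subgroup C) = A.subgroupOf C :=
    ⟨Sylow.ofCard (A.subgroupOf C) (by rw [e3, hcard1]), Sylow.coe_ofCard _ _⟩
  have hNC : Subgroup.normalizer ((P : Subgroup C) : Set C) ≤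
      Subgroup.centralizer ((P : Subgroup C) : Set C) := by
    intro c _
    rw [Subgroup.mem_centralizer_iff]
    intro a ha
    rw [SetLike.mem_coe, hPcoe, Subgroup.mem_subgroupOf] at ha
    have hc : (c : G) ∈ Subgroup.centralizer (A : Set G) := by rw [← hCdef]; exact c.2
    have hc' := Subgroup.mem_centralizer_iff.mp hc (a : G) ha
    exact Subtype.ext hc'
  have hcompl := MonoidHom.ker_transferSylow_isComplement' P hNC
  obtain ⟨K, hK⟩ : ∃ K : Subgroup C, K = (MonoidHom.transferSylow P hNC).ker := ⟨_, rfl⟩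
  rw [← hK] at hcompl
  have hKn : K.Normal := by rw [hK]; exact MonoidHom.normal_ker _
  refine ⟨K.map C.subtype, Subgroup.map_subtype_le K, ?_, ?_, ?_, ?_⟩
  · have h1 : Nat.card K * Nat.card (P : Subgroup C) = Nat.card C := hcompl.card_mul
    have h2 : Nat.card (P : Subgroup C) = p ^ (Nat.card C).factorization p :=
      P.card_eq_multiplicity
    have h3 : Nat.card (K.map C.subtype) = Nat.card K :=
      Subgroup.card_map_of_injective C.subtype_injective
    rw [h3]
    have h4 : Nat.card K = Nat.card C / p ^ (Nat.card C).factorization p := by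
      rw [h2] at h1
      exact (Nat.div_eq_of_eq_mul_left (pow_pos hp.pos _) h1.symm).symm
    rw [h4]
    exact (Nat.coprime_ordCompl hp Nat.card_pos.ne').symm
  · intro c hc
    rw [Subgroup.mem_normalizer_iff]
    intro h
    constructor
    · rintro ⟨k, hk, rfl⟩
      exact ⟨⟨c, hc⟩ * k * ⟨c, hc⟩⁻¹, hKn.conj_mem k hk ⟨c, hc⟩, rfl⟩
    · rintro ⟨k, hk, hkeq⟩
      refine ⟨⟨c, hc⟩⁻¹ * k * ⟨c, hc⟩, ?_, ?_⟩
      · have h1 := hKn.conj_mem k hk (⟨c, hc⟩⁻¹)
        simpa using h1
      · show c⁻¹ * (k : G) * c = h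
        have h1 : (k : G) = c * h * c⁻¹ := hkeq
        rw [h1]; group
  · rw [eq_bot_iff]
    rintro g ⟨⟨k, hk, rfl⟩, hgA⟩
    have hkP : k ∈ (P : Subgroup C) := by
      rw [hPcoe]; exact Subgroup.mem_subgroupOf.mpr hgA
    have hdisj := hcompl.disjoint
    have h1 : k ∈ (K ⊓ (P : Subgroup C)) := ⟨hk, hkP⟩
    rw [hdisj.eq_bot, Subgroup.mem_bot] at h1
    rw [Subgroup.mem_bot, h1]; rfl
  · have hsup : K ⊔ (P : Subgroup C) = ⊤ := hcompl.sup_eq_top
    have hmapP : (P : Subgroup C).map C.subtype = A := by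
      rw [hPcoe, Subgroup.subgroupOf_map_subtype]
      exact inf_eq_left.mpr hAC
    rw [← hmapP, ← Subgroup.map_sup, hsup, ← MonoidHom.range_eq_map, Subgroup.range_subtype]

end Cfsg.Agent.S0125
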