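import Cfsg.Statements.S0131
import Mathlib

set_option autoImplicit false
open Cfsg
open scoped commutatorElement

namespace Cfsg.Agent.S0131

/-- P/P' has a normal complement in G exactly when the focal subgroup G' ∩ P is as small as possible, namely P'. -/
theorem result {G : Type*} [Group G] [Finite G] {p : ℕ} [Fact p.Prime] (P : Sylow p G) : (∃ N : Subgroup G, N.Normal ∧ N ⊓ (P : Subgroup G) = ⁅(P : Subgroup G), (P : Subgroup G)⁆ ∧ N ⊔ (P : Subgroup G) = ⊤) ↔ commutator G ⊓ (P : Subgroup G) = ⁅(P : Subgroup G), (P : Subgroup G)⁆ := by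
  have hPP : ⁅(P : Subgroup G), (P : Subgroup G)⁆ ≤ (P : Subgroup G) := by
    rw [Subgroup.commutator_le]
    intro a ha b hb
    rw [commutatorElement_def]
    exact Subgroup.mul_mem _ (Subgroup.mul_mem _ (Subgroup.mul_mem _ ha hb)
      (Subgroup.inv_mem _ ha)) (Subgroup.inv_mem _ hb)
  constructor
  · rintro ⟨N, hN, hNP, hsup⟩
    have hcomm : commutator G ≤ N := by
      rw [commutator_def, Subgroup.commutator_le]
      intro a _ b _
      have ha : a ∈ ((N ⊔ (P : Subgroup G) : Subgroup G) : Set G) := by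
        rw [hsup]; exact Set.mem_univ a
      have hb : b ∈ ((N ⊔ (P : Subgroup G) : Subgroup G) : Set G) := by
        rw [hsup]; exact Set.mem_univ b
      rw [Subgroup.normal_mul, Set.mem_mul] at ha hb
      obtain ⟨n₁, hn₁, x₁, hx₁, rfl⟩ := ha
      obtain ⟨n₂, hn₂, x₂, hx₂, rfl⟩ := hb
      rw [← QuotientGroup.eq_one_iff]
      have h1 : (QuotientGroup.mk' N) n₁ = 1 := (QuotientGroup.eq_one_iff n₁).mpr hn₁
      have h2 : (QuotientGroup.mk' N) n₂ = 1 := (QuotientGroup.eq_one_iff n₂).mpr hn₂
      have h3 : (QuotientGroup.mk' N) ⁅x₁, x₂⁆ = 1 := by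
        apply (QuotientGroup.eq_one_iff _).mpr
        have : ⁅x₁, x₂⁆ ∈ N ⊓ (P : Subgroup G) := by
          rw [hNP]; exact Subgroup.commutator_mem_commutator hx₁ hx₂
        exact (Subgroup.mem_inf.mp this).1
      show (QuotientGroup.mk' N) ⁅n₁ * x₁, n₂ * x₂⁆ = 1
      rw [commutatorElement_def] at h3 ⊢
      simp only [map_mul, map_inv, h1, h2, one_mul] at h3 ⊢
      exact h3
    apply le_antisymm
    · rw [← hNP]; exact inf_le_inf_right _ hcomm
    · apply le_inf _ hPP
      rw [commutator_def]; exact Subgroup.commutator_mono le_top le_top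
  · intro hfoc
    refine ⟨(P : Subgroup G).transferFocal.ker, inferInstance, ?_, ?_⟩
    · rw [Subgroup.ker_transferFocal_inf_eq_focalSubgroup,
        ← Subgroup.commutator_inf_eq_focalSubgroup P, hfoc]
    · rw [eq_top_iff]
      intro g _
      obtain ⟨y, hy⟩ := Subgroup.focalSubgroupOf.pow_index_surjective P
        ((P : Subgroup G).transferFocal g)
      obtain ⟨x, rfl⟩ := QuotientGroup.mk'_surjective _ y
      have hx : (P : Subgroup G).transferFocal (x : G) = (P : Subgroup G).transferFocal g := by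
        rw [Subgroup.transferFocal_eq_pow]; exact hy
      have hk : g * (x : G)⁻¹ ∈ (P : Subgroup G).transferFocal.ker := by
        rw [MonoidHom.mem_ker, map_mul, map_inv, hx, mul_inv_cancel]
      have : g = (g * (x : G)⁻¹) * x := by group
      rw [this]
      exact Subgroup.mul_mem_sup hk x.2

end Cfsg.Agent.S0131
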