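import Cfsg.Statements.S0132
import Mathlib
import Cfsg.Agent.Helper1.Frobenius
import Cfsg.Agent.Helper1.Fitting

set_option autoImplicit false
open Cfsg
open scoped commutatorElement

namespace Cfsg.Agent.S0132

theorem isNilpotent_of_comm' {K : Type*} [hK : Group K] (h : ∀ a b : K, a * b = b * a) :
    Group.IsNilpotent K := by
  letI : CommGroup K := { hK with mul_comm := h }
  infer_instance

theorem nilpotent_of_eq_top {H : Type*} [Group H] (F : Subgroup H) (hF : F = ⊤)
    (hFn : Group.IsNilpotent F) : Group.IsNilpotent H := by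
  subst hF
  exact Group.nilpotent_of_mulEquiv Subgroup.topEquiv

/-- A minimal non-p-nilpotent finite group is a minimal non-nilpotent group with a normal Sylow p-subgroup. -/
theorem result {G : Type*} [Group G] [Finite G] {p : ℕ} [Fact p.Prime] (h1 : ¬ Cfsg.HasNormalPComplement p G) (h2 : ∀ H : Subgroup G, H ≠ ⊤ → Cfsg.HasNormalPComplement p H) : (∀ H : Subgroup G, H ≠ ⊤ → Group.IsNilpotent H) ∧ ¬ Group.IsNilpotent G ∧ ∀ P : Sylow p G, (P : Subgroup G).Normal := by
  have hp : p.Prime := Fact.out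
  have hnL : ¬ Cfsg.Agent.Helper1.LocalP p G :=
    fun hL => h1 (Cfsg.Agent.Helper1.npc_of_local hL)
  unfold Cfsg.Agent.Helper1.LocalP at hnL
  push Not at hnL
  obtain ⟨Q, hQ, g, hg, hgo, hgc⟩ := hnL
  obtain ⟨L, hLdef⟩ : ∃ L : Subgroup G, L = Q ⊔ Subgroup.zpowers g := ⟨_, rfl⟩
  have hgL : g ∈ L := by rw [hLdef]; exact Subgroup.mem_sup_right (Subgroup.mem_zpowers g)
  have hQL : Q ≤ L := by rw [hLdef]; exact le_sup_left
  have hLtop : L = ⊤ := by
    by_contra hne
    have hL := Cfsg.Agent.Helper1.local_of_npc (h2 L hne)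
    have hQ' : IsPGroup p (Q.subgroupOf L) := hQ.comap_subtype
    have hg' : (⟨g, hgL⟩ : L) ∈
        Subgroup.normalizer ((Q.subgroupOf L : Subgroup L) : Set L) := by
      rw [Subgroup.mem_normalizer_iff]
      intro y
      show (y : G) ∈ Q ↔ g * (y : G) * g⁻¹ ∈ Q
      exact Subgroup.mem_normalizer_iff.mp hg (y : G)
    have hc := hL _ hQ' ⟨g, hgL⟩ hg' (by rw [Subgroup.orderOf_mk]; exact hgo)
    apply hgc
    rw [Subgroup.mem_centralizer_iff] at hc ⊢
    intro x hx
    have h3 := hc ⟨x, hQL hx⟩ (Subgroup.mem_subgroupOf.mpr hx)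
    exact congrArg Subtype.val h3
  haveI hQn : Q.Normal := by
    rw [← Subgroup.normalizer_eq_top_iff, eq_top_iff, ← hLtop, hLdef]
    exact sup_le Subgroup.le_normalizer (Subgroup.zpowers_le.mpr hg)
  have hgen : Subgroup.zpowers (QuotientGroup.mk' Q g) = ⊤ := by
    rw [eq_top_iff]
    intro y _
    obtain ⟨x, rfl⟩ := QuotientGroup.mk'_surjective Q y
    have hx : x ∈ Subgroup.zpowers g ⊔ Q := by rw [sup_comm, ← hLdef, hLtop]; trivial
    rw [Cfsg.Agent.S0001.mem_sup_normal] at hx
    obtain ⟨a, ha, b, hb, rfl⟩ := hx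
    obtain ⟨j, hj⟩ := ha
    have hj' : g ^ j = a := hj
    have hb1 : QuotientGroup.mk' Q b = 1 := (QuotientGroup.eq_one_iff b).mpr hb
    rw [map_mul, hb1, mul_one, ← hj', map_zpow]
    exact Subgroup.zpow_mem _ (Subgroup.mem_zpowers _) j
  have hidx : (Q.index).Coprime p := by
    have h3 : Q.index = orderOf (QuotientGroup.mk' Q g) := by
      rw [Subgroup.index_eq_card, ← Nat.card_zpowers, hgen, Subgroup.card_top]
    rw [h3]
    exact Nat.Coprime.coprime_dvd_left (orderOf_map_dvd (QuotientGroup.mk' Q) g) hgo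
  have hpidx : ¬ p ∣ Q.index := (Nat.Prime.coprime_iff_not_dvd hp).mp hidx.symm
  have hSyl : ∀ P : Sylow p G, (P : Subgroup G) = Q := by
    intro P
    have hQP : Q ≤ (P : Subgroup G) := IsPGroup.le_sylow_of_normal hQ P
    have h5 := (hQ.toSylow hpidx).is_maximal' P.isPGroup'
      (by rw [IsPGroup.toSylow_coe]; exact hQP)
    rw [h5, IsPGroup.toSylow_coe]
  have hGcomm : commutator G ≤ Q := by
    rw [commutator_def, Subgroup.commutator_le]
    intro a _ b _
    rw [← QuotientGroup.eq_one_iff]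
    show QuotientGroup.mk' Q ⁅a, b⁆ = 1
    rw [map_commutatorElement, commutatorElement_eq_one_iff_commute]
    have ha : QuotientGroup.mk' Q a ∈ Subgroup.zpowers (QuotientGroup.mk' Q g) := by
      rw [hgen]; trivial
    have hb : QuotientGroup.mk' Q b ∈ Subgroup.zpowers (QuotientGroup.mk' Q g) := by
      rw [hgen]; trivial
    obtain ⟨i, hi⟩ := ha
    obtain ⟨j, hj⟩ := hb
    have hi' : (QuotientGroup.mk' Q g) ^ i = QuotientGroup.mk' Q a := hi
    have hj' : (QuotientGroup.mk' Q g) ^ j = QuotientGroup.mk' Q b := hj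
    rw [← hi', ← hj']
    exact (Commute.refl _).zpow_zpow i j
  refine ⟨?_, ?_, fun P => by rw [hSyl P]; exact hQn⟩
  · intro H hH
    obtain ⟨K, k, hKn, hKcop, hKidx⟩ := Cfsg.Agent.Helper16.npc_exists (h2 H hH)
    haveI := hKn
    have hQHp : IsPGroup p (Q.subgroupOf H) := hQ.comap_subtype
    have hQHn : (Q.subgroupOf H).Normal := inferInstance
    have hQHidx : ((Q.subgroupOf H).index).Coprime p :=
      Nat.Coprime.coprime_dvd_left (Subgroup.relIndex_dvd_index_of_normal Q H) hidx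
    obtain ⟨j, hj⟩ := IsPGroup.iff_card.mp hQHp
    have hdisj : K ⊓ Q.subgroupOf H = ⊥ := by
      have hcc : (Nat.card K).Coprime (Nat.card (Q.subgroupOf H)) := by
        have h2 := hKcop.pow_right j
        rw [← hj] at h2
        exact h2
      exact Subgroup.inf_eq_bot_of_coprime hcc
    have hKcomm : ∀ a b : K, a * b = b * a := by
      intro a b
      have hcK : (a : H) * (b : H) * (a : H)⁻¹ * (b : H)⁻¹ ∈ K :=
        K.mul_mem (K.mul_mem (K.mul_mem a.2 b.2) (K.inv_mem a.2)) (K.inv_mem b.2)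
      have hcQ : (a : H) * (b : H) * (a : H)⁻¹ * (b : H)⁻¹ ∈ Q.subgroupOf H := by
        rw [Subgroup.mem_subgroupOf]
        apply hGcomm
        show ((a : H) : G) * ((b : H) : G) * ((a : H) : G)⁻¹ * ((b : H) : G)⁻¹ ∈ commutator G
        rw [commutator_def, ← commutatorElement_def]
        exact Subgroup.commutator_mem_commutator (Subgroup.mem_top _) (Subgroup.mem_top _)
      have hc1 : (a : H) * (b : H) * (a : H)⁻¹ * (b : H)⁻¹ ∈ K ⊓ Q.subgroupOf H := ⟨hcK, hcQ⟩
      rw [hdisj, Subgroup.mem_bot] at hc1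
      apply Subtype.ext
      show (a : H) * (b : H) = (b : H) * (a : H)
      calc (a : H) * (b : H) = ((a : H) * (b : H) * (a : H)⁻¹ * (b : H)⁻¹) * ((b : H) * (a : H)) := by
            group
        _ = (b : H) * (a : H) := by rw [hc1, one_mul]
    have hKnil : Group.IsNilpotent K := isNilpotent_of_comm' hKcomm
    have hsup : K ⊔ Q.subgroupOf H = ⊤ := by
      rw [← Subgroup.index_eq_one]
      have d1 : (K ⊔ Q.subgroupOf H).index ∣ p ^ k := by
        rw [← hKidx]; exact Subgroup.index_dvd_of_le le_sup_left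
      have d2 : (K ⊔ Q.subgroupOf H).index ∣ (Q.subgroupOf H).index :=
        Subgroup.index_dvd_of_le le_sup_right
      have d3 := Nat.dvd_gcd d1 d2
      rwa [Nat.Coprime.gcd_eq_one ((hQHidx.symm).pow_left k), Nat.dvd_one] at d3
    have hF : Cfsg.fittingSubgroup ↥H = ⊤ := by
      rw [eq_top_iff, ← hsup]
      exact sup_le (Cfsg.Agent.Helper1.le_fitting hKn hKnil)
        (Cfsg.Agent.Helper1.le_fitting hQHn hQHp.isNilpotent)
    exact nilpotent_of_eq_top _ hF Cfsg.Agent.Helper1.fitting_isNilpotent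
  · intro hnil
    apply hgc
    rw [Subgroup.mem_centralizer_iff]
    intro x hx
    obtain ⟨j, hj⟩ := Cfsg.Agent.Helper8.pelem_of_mem hQ hx
    have hcop : (orderOf x).Coprime (orderOf g) :=
      Nat.Coprime.coprime_dvd_left (orderOf_dvd_of_pow_eq_one hj)
        (Nat.Coprime.pow_left j hgo.symm)
    exact Cfsg.Agent.Helper8.comm_of_coprime_nilpotent x g hcop

end Cfsg.Agent.S0132
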