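import Cfsg.Statements.S0136
import Cfsg.Agent.Helper24.CharComplete

set_option autoImplicit false
open Cfsg

namespace Cfsg.Agent.S0136

/-- Two elements of a finite group are conjugate if and only if no irreducible complex character separates them. -/
theorem result {G : Type*} [Group G] [Finite G] (g h : G) : IsConj g h ↔ ∀ χ : Cfsg.IrrCharacter G, (χ : G → ℂ) g = (χ : G → ℂ) h := by
  constructor
  · intro hgh χ
    exact Cfsg.Agent.Helper24.isClassFunction_of_isConj (Cfsg.Agent.Helper24.irr_isClassFunction χ) hgh
  · intro hχ
    by_contra hgh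
    have h1 := (Cfsg.Agent.Helper24.sum_irr_mul_conj g h).2 hgh
    have h2 := (Cfsg.Agent.Helper24.sum_irr_mul_conj h h).1 (IsConj.refl h)
    simp only [hχ] at h1
    rw [h1] at h2
    have h3 : Nat.card (Subgroup.centralizer ({h} : Set G)) = 0 := by exact_mod_cast h2.symm
    exact Nat.card_pos.ne' h3

end Cfsg.Agent.S0136
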