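import Cfsg.Statements.S0158
import Cfsg.Agent.Helper22.FrobSchur

set_option autoImplicit false
open Cfsg

namespace Cfsg.Agent.S0158

/-- The Frobenius–Schur indicator of an irreducible complex representation of a finite group — the average over s of the character at s * s — is 0, 1 or −1, and it vanishes exactly when some character value is not real. -/
theorem result {G : Type*} [Group G] [Fintype G] {V : Type*} [AddCommGroup V] [Module ℂ V] [FiniteDimensional ℂ V] (ρ : Representation ℂ G V) [ρ.IsIrreducible] : ((Nat.card G : ℂ)⁻¹ * ∑ s : G, ρ.character (s * s) = 0 ∨ (Nat.card G : ℂ)⁻¹ * ∑ s : G, ρ.character (s * s) = 1 ∨ (Nat.card G : ℂ)⁻¹ * ∑ s : G, ρ.character (s * s) = -1) ∧ ((Nat.card G : ℂ)⁻¹ * ∑ s : G, ρ.character (s * s) = 0 ↔ ∃ s : G, (ρ.character s).im ≠ 0) := by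
  classical
  obtain ⟨n, ρ', hirr', hχ⟩ := Cfsg.Agent.Helper24.isIrrCharacter_of_irreducible ρ
  have hirr : ρ'.IsIrreducible := hirr'
  have hfs : (Nat.card G : ℂ)⁻¹ * ∑ s : G, ρ.character (s * s) =
      Cfsg.Agent.Helper22.fsInd ρ'.character := by
    rw [hχ]; rfl
  rw [hfs]
  have hc := Cfsg.Agent.Helper22.fs_cases ρ'
  constructor
  · rcases hc with h | ⟨h | h, -⟩
    · exact Or.inl h
    · exact Or.inr (Or.inl h)
    · exact Or.inr (Or.inr h)
  · constructor
    · intro h0
      by_contra hcon
      have hreal : ∀ g, (ρ'.character g).im = 0 := by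
        intro g
        by_contra hg
        exact hcon ⟨g, by rw [← hχ]; exact hg⟩
      obtain ⟨M, hM0, hM⟩ := Cfsg.Agent.Helper22.exists_invForm_of_real ρ' hreal
      have h1 := Cfsg.Agent.Helper22.fs_transpose ρ' hM
      rw [h0, zero_smul] at h1
      exact hM0 (by simpa using congrArg Matrix.transpose h1)
    · rintro ⟨s, hs⟩
      rcases hc with h | ⟨-, hreal⟩
      · exact h
      · exact absurd (by rw [← hχ]; exact hreal s) hs

end Cfsg.Agent.S0158
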