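import Cfsg.Statements.S0172
import Mathlib

set_option autoImplicit false
open Cfsg
open scoped Pointwise

namespace Cfsg.Agent.S0172

/-- commuting pairs with non-identity first coordinate -/
abbrev nonOne (X : Type*) [Group X] : Set (X × X) := {p | p.1 ≠ 1 ∧ p.1 * p.2 = p.2 * p.1}

theorem split_one (X : Type*) [Group X] [Finite X] :
    {p : X × X | Commute p.1 p.2}.ncard = Nat.card X + (nonOne X).ncard := by
  classical
  have h1 : {p : X × X | Commute p.1 p.2} =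
      (({1} : Set X) ×ˢ (Set.univ : Set X)) ∪ nonOne X := by
    ext ⟨x, y⟩
    constructor
    · intro h
      by_cases hx : x = 1
      · left; exact ⟨hx, Set.mem_univ _⟩
      · right; exact ⟨hx, h⟩
    · rintro (⟨hx, -⟩ | ⟨-, h⟩)
      · have hx' : x = 1 := hx
        rw [hx']; exact Commute.one_left y
      · exact h
  have h2 : Disjoint (({1} : Set X) ×ˢ (Set.univ : Set X)) (nonOne X) := by
    rw [Set.disjoint_left]
    rintro ⟨x, y⟩ ⟨hx, -⟩ ⟨hy, -⟩
    exact hy hx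
  rw [h1, Set.ncard_union_eq h2 (Set.toFinite _) (Set.toFinite _), Set.ncard_prod,
    Set.ncard_singleton, Set.ncard_univ, one_mul]

theorem cnt (X : Type*) [Group X] [Finite X] :
    Nat.card (ConjClasses X) * Nat.card X = Nat.card X + (nonOne X).ncard := by
  rw [← card_comm_eq_card_conjClasses_mul_card X, ← split_one X]
  exact Nat.card_coe_set_eq {p : X × X | Commute p.1 p.2}

/-- inclusion of pairs -/
def fK {G : Type*} [Group G] (K : Subgroup G) (p : K × K) : G × G := ((p.1 : G), (p.2 : G))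

/-- simultaneous conjugation of a pair of `H` by an element of `K` -/
def phi {G : Type*} [Group G] (K H : Subgroup G) (q : K × (H × H)) : G × G :=
  ((q.1 : G)⁻¹ * q.2.1 * q.1, (q.1 : G)⁻¹ * q.2.2 * q.1)

theorem result {G : Type*} [Group G] [Finite G] (K H : Subgroup G) [K.Normal] (hKH : K ⊓ H = ⊥) (hKH' : K ⊔ H = ⊤) (hfpf : ∀ h ∈ H, h ≠ 1 → ∀ k ∈ K, h * k = k * h → k = 1) : Nat.card H * Nat.card (ConjClasses G) + 1 = Nat.card H * Nat.card (ConjClasses H) + Nat.card (ConjClasses K) := by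
  classical
  have hKn : K.Normal := inferInstance
  have hKHmem : ∀ x : G, x ∈ K → x ∈ H → x = 1 := by
    intro x hxK hxH
    have : x ∈ K ⊓ H := ⟨hxK, hxH⟩
    rw [hKH] at this
    exact Subgroup.mem_bot.1 this
  have hmul : (K : Set G) * (H : Set G) = Set.univ := by
    rw [← Subgroup.normal_mul, hKH']; rfl
  have hdec : ∀ g : G, ∃ k ∈ K, ∃ h ∈ H, g = k * h := by
    intro g
    have hg : g ∈ (K : Set G) * (H : Set G) := by rw [hmul]; exact Set.mem_univ g
    obtain ⟨k, hk, h, hh, rfl⟩ := Set.mem_mul.1 hg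
    exact ⟨k, hk, h, hh, rfl⟩
  have hc : Subgroup.IsComplement' K H :=
    Subgroup.isComplement'_of_disjoint_and_mul_eq_univ (disjoint_iff.2 hKH) hmul
  have hcard : Nat.card K * Nat.card H = Nat.card G := hc.card_mul_card
  -- centralizers of non-identity elements of `H` lie in `H`
  have hCH : ∀ h ∈ H, h ≠ 1 → ∀ y : G, h * y = y * h → y ∈ H := by
    intro h hh h1 y hy
    obtain ⟨k, hk, h', hh', rfl⟩ := hdec y
    have hk1 : k = 1 := by
      apply hfpf h hh h1 k hk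
      have e0 : h * k = k * (h' * h * h'⁻¹) := by
        calc h * k = h * (k * h') * h'⁻¹ := by group
          _ = k * h' * h * h'⁻¹ := by rw [hy]
          _ = k * (h' * h * h'⁻¹) := by group
      have e1 : k⁻¹ * h * k * h⁻¹ = h' * h * h'⁻¹ * h⁻¹ := by
        calc k⁻¹ * h * k * h⁻¹ = k⁻¹ * (h * k) * h⁻¹ := by group
          _ = k⁻¹ * (k * (h' * h * h'⁻¹)) * h⁻¹ := by rw [e0]
          _ = h' * h * h'⁻¹ * h⁻¹ := by group
      have m1 : k⁻¹ * h * k * h⁻¹ ∈ K := by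
        have : k⁻¹ * (h * k * h⁻¹) ∈ K := K.mul_mem (K.inv_mem hk) (hKn.conj_mem k hk h)
        convert this using 1
        group
      have m2 : k⁻¹ * h * k * h⁻¹ ∈ H := by
        rw [e1]
        exact H.mul_mem (H.mul_mem (H.mul_mem hh' hh) (H.inv_mem hh')) (H.inv_mem hh)
      have e2 := hKHmem _ m1 m2
      calc h * k = k * (k⁻¹ * h * k * h⁻¹) * h := by group
        _ = k * h := by rw [e2, mul_one]
    rw [hk1, one_mul]; exact hh'
  -- every element of the coset `K h` is a `K`-conjugate of `h`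
  have hsurj : ∀ h ∈ H, h ≠ 1 → ∀ k ∈ K, ∃ c ∈ K, c⁻¹ * h * c = k * h := by
    intro h hh h1 k hk
    have hmemf : ∀ c : K, (c : G)⁻¹ * h * c * h⁻¹ ∈ K := by
      intro c
      have : (c : G)⁻¹ * (h * c * h⁻¹) ∈ K := K.mul_mem (K.inv_mem c.2) (hKn.conj_mem c c.2 h)
      convert this using 1
      group
    have hinj : Function.Injective (fun c : K => (⟨(c : G)⁻¹ * h * c * h⁻¹, hmemf c⟩ : K)) := by
      intro c d hcd
      have h0 : (c : G)⁻¹ * h * c * h⁻¹ = (d : G)⁻¹ * h * d * h⁻¹ := congrArg Subtype.val hcd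
      have h2 : (c : G)⁻¹ * h * c = (d : G)⁻¹ * h * d := mul_right_cancel h0
      have h3 : h * ((c : G) * (d : G)⁻¹) = ((c : G) * (d : G)⁻¹) * h := by
        calc h * ((c : G) * (d : G)⁻¹) = (c : G) * ((c : G)⁻¹ * h * c) * (d : G)⁻¹ := by group
          _ = (c : G) * ((d : G)⁻¹ * h * d) * (d : G)⁻¹ := by rw [h2]
          _ = ((c : G) * (d : G)⁻¹) * h := by group
      have h4 := hfpf h hh h1 _ (K.mul_mem c.2 (K.inv_mem d.2)) h3
      exact Subtype.ext (mul_inv_eq_one.1 h4)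
    obtain ⟨c, hc⟩ := Finite.surjective_of_injective hinj ⟨k, hk⟩
    refine ⟨c, c.2, ?_⟩
    have h0 : (c : G)⁻¹ * h * c * h⁻¹ = k := congrArg Subtype.val hc
    rw [← h0]; group
  have hout : ∀ g : G, g ∉ K → ∃ c ∈ K, ∃ h ∈ H, h ≠ 1 ∧ g = c⁻¹ * h * c := by
    intro g hg
    obtain ⟨k, hk, h, hh, rfl⟩ := hdec g
    have h1 : h ≠ 1 := by
      rintro rfl
      apply hg; simpa using hk
    obtain ⟨c, hc, hch⟩ := hsurj h hh h1 k hk
    exact ⟨c, hc, h, hh, h1, hch.symm⟩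
  -- centralizers of non-identity elements of `K` lie in `K`
  have hCK : ∀ x ∈ K, x ≠ 1 → ∀ y : G, x * y = y * x → y ∈ K := by
    intro x hx x1 y hy
    by_contra hyK
    obtain ⟨c, hc, h, hh, h1, rfl⟩ := hout y hyK
    apply x1
    have h3 : h * (c * x * c⁻¹) = (c * x * c⁻¹) * h := by
      calc h * (c * x * c⁻¹) = c * ((c⁻¹ * h * c) * x) * c⁻¹ := by group
        _ = c * (x * (c⁻¹ * h * c)) * c⁻¹ := by rw [← hy]
        _ = (c * x * c⁻¹) * h := by group
    have h4 := hfpf h hh h1 _ (hKn.conj_mem x hx c) h3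
    calc x = c⁻¹ * (c * x * c⁻¹) * c := by group
      _ = 1 := by rw [h4]; group
  -- the decomposition of the commuting pairs
  have hBGeq : nonOne G = fK K '' nonOne K ∪ phi K H '' ((Set.univ : Set K) ×ˢ nonOne H) := by
    ext ⟨x, y⟩
    constructor
    · rintro ⟨hx1, hxy⟩
      have hxy' : x * y = y * x := hxy
      by_cases hxK : x ∈ K
      · left
        have hyK : y ∈ K := hCK x hxK hx1 y hxy'
        refine ⟨(⟨x, hxK⟩, ⟨y, hyK⟩), ⟨?_, ?_⟩, rfl⟩
        · intro h; exact hx1 (OneMemClass.coe_eq_one.2 h)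
        · exact Subtype.ext hxy'
      · right
        obtain ⟨c, hc, h, hh, h1, rfl⟩ := hout x hxK
        have h3 : h * (c * y * c⁻¹) = (c * y * c⁻¹) * h := by
          calc h * (c * y * c⁻¹) = c * ((c⁻¹ * h * c) * y) * c⁻¹ := by group
            _ = c * (y * (c⁻¹ * h * c)) * c⁻¹ := by rw [hxy']
            _ = (c * y * c⁻¹) * h := by group
        have hyH : c * y * c⁻¹ ∈ H := hCH h hh h1 _ h3
        refine ⟨(⟨c, hc⟩, ⟨h, hh⟩, ⟨c * y * c⁻¹, hyH⟩), ⟨Set.mem_univ _, ?_, ?_⟩, ?_⟩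
        · intro hh1; exact h1 (OneMemClass.coe_eq_one.2 hh1)
        · exact Subtype.ext h3
        · show ((c⁻¹ * h * c, c⁻¹ * (c * y * c⁻¹) * c) : G × G) = (c⁻¹ * h * c, y)
          congr 1; group
    · rintro (⟨⟨k1, k2⟩, ⟨hk1, hk12⟩, hp⟩ | ⟨⟨c, h, h'⟩, ⟨-, hh1, hhh'⟩, hp⟩)
      · have hx : x = k1 := (congrArg Prod.fst hp).symm
        have hy : y = k2 := (congrArg Prod.snd hp).symm
        subst hx hy
        exact ⟨fun h => hk1 (OneMemClass.coe_eq_one.1 h), congrArg Subtype.val hk12⟩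
      · have hx : x = (c : G)⁻¹ * h * c := (congrArg Prod.fst hp).symm
        have hy : y = (c : G)⁻¹ * h' * c := (congrArg Prod.snd hp).symm
        subst hx hy
        refine ⟨?_, ?_⟩
        · intro h0
          have h0' : (c : G)⁻¹ * h * c = 1 := h0
          apply hh1
          apply OneMemClass.coe_eq_one.1
          calc (h : G) = c * ((c : G)⁻¹ * h * c) * (c : G)⁻¹ := by group
            _ = 1 := by rw [h0']; group
        · have hcm : (h : G) * h' = h' * h := congrArg Subtype.val hhh'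
          show (c : G)⁻¹ * h * c * ((c : G)⁻¹ * h' * c) = (c : G)⁻¹ * h' * c * ((c : G)⁻¹ * h * c)
          calc (c : G)⁻¹ * h * c * ((c : G)⁻¹ * h' * c) = (c : G)⁻¹ * ((h : G) * h') * c := by group
            _ = (c : G)⁻¹ * ((h' : G) * h) * c := by rw [hcm]
            _ = (c : G)⁻¹ * h' * c * ((c : G)⁻¹ * h * c) := by group
  have hdisj : Disjoint (fK K '' nonOne K) (phi K H '' ((Set.univ : Set K) ×ˢ nonOne H)) := by
    rw [Set.disjoint_left]
    rintro p ⟨⟨k1, k2⟩, -, rfl⟩ ⟨⟨c, h, h'⟩, ⟨-, hh1, -⟩, hp⟩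
    have e : (c : G)⁻¹ * h * c = k1 := congrArg Prod.fst hp
    apply hh1
    apply OneMemClass.coe_eq_one.1
    apply hKHmem _ _ h.2
    have e' : (h : G) = c * ((c : G)⁻¹ * h * c) * (c : G)⁻¹ := by group
    rw [e', e]
    exact K.mul_mem (K.mul_mem c.2 k1.2) (K.inv_mem c.2)
  have hfKinj : Function.Injective (fK K) := by
    rintro ⟨a, b⟩ ⟨a', b'⟩ h
    have h1 : (a : G) = a' := congrArg Prod.fst h
    have h2 : (b : G) = b' := congrArg Prod.snd h
    rw [Subtype.ext h1, Subtype.ext h2]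
  have hφinj : Set.InjOn (phi K H) ((Set.univ : Set K) ×ˢ nonOne H) := by
    rintro ⟨c, h, h'⟩ ⟨-, hh1, -⟩ ⟨d, h₂, h₂'⟩ ⟨-, -, -⟩ heq
    have e1 : (c : G)⁻¹ * h * c = (d : G)⁻¹ * h₂ * d := congrArg Prod.fst heq
    have e2 : (c : G)⁻¹ * h' * c = (d : G)⁻¹ * h₂' * d := congrArg Prod.snd heq
    have e3 : ((d : G) * (c : G)⁻¹) * h * ((d : G) * (c : G)⁻¹)⁻¹ = h₂ := by
      calc ((d : G) * (c : G)⁻¹) * h * ((d : G) * (c : G)⁻¹)⁻¹
          = (d : G) * ((c : G)⁻¹ * h * c) * (d : G)⁻¹ := by group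
        _ = (d : G) * ((d : G)⁻¹ * h₂ * d) * (d : G)⁻¹ := by rw [e1]
        _ = h₂ := by group
    have hdcK : (d : G) * (c : G)⁻¹ ∈ K := K.mul_mem d.2 (K.inv_mem c.2)
    have m1 : ((d : G) * (c : G)⁻¹) * h * ((d : G) * (c : G)⁻¹)⁻¹ * (h : G)⁻¹ ∈ K := by
      have : ((d : G) * (c : G)⁻¹) * ((h : G) * ((d : G) * (c : G)⁻¹)⁻¹ * (h : G)⁻¹) ∈ K :=
        K.mul_mem hdcK (hKn.conj_mem _ (K.inv_mem hdcK) h)
      convert this using 1
      group
    have m2 : ((d : G) * (c : G)⁻¹) * h * ((d : G) * (c : G)⁻¹)⁻¹ * (h : G)⁻¹ ∈ H := by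
      rw [e3]; exact H.mul_mem h₂.2 (H.inv_mem h.2)
    have e4 := hKHmem _ m1 m2
    have e5 : (h : G) * ((d : G) * (c : G)⁻¹) = ((d : G) * (c : G)⁻¹) * h := by
      calc (h : G) * ((d : G) * (c : G)⁻¹)
          = (((d : G) * (c : G)⁻¹) * h * ((d : G) * (c : G)⁻¹)⁻¹ * (h : G)⁻¹)⁻¹ *
              (((d : G) * (c : G)⁻¹) * h) := by group
        _ = ((d : G) * (c : G)⁻¹) * h := by rw [e4]; group
    have e6 := hfpf h h.2 (fun hh => hh1 (OneMemClass.coe_eq_one.1 hh)) _ hdcK e5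
    have hdc : d = c := Subtype.ext (mul_inv_eq_one.1 e6)
    subst hdc
    have e7 : (h : G) = h₂ := by
      calc (h : G) = (d : G) * ((d : G)⁻¹ * h * d) * (d : G)⁻¹ := by group
        _ = (d : G) * ((d : G)⁻¹ * h₂ * d) * (d : G)⁻¹ := by rw [e1]
        _ = h₂ := by group
    have e8 : (h' : G) = h₂' := by
      calc (h' : G) = (d : G) * ((d : G)⁻¹ * h' * d) * (d : G)⁻¹ := by group
        _ = (d : G) * ((d : G)⁻¹ * h₂' * d) * (d : G)⁻¹ := by rw [e2]
        _ = h₂' := by group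
    rw [Subtype.ext e7, Subtype.ext e8]
  have hBG : (nonOne G).ncard = (nonOne K).ncard + Nat.card K * (nonOne H).ncard := by
    rw [hBGeq, Set.ncard_union_eq hdisj (Set.toFinite _) (Set.toFinite _),
      Set.ncard_image_of_injective _ hfKinj, hφinj.ncard_image, Set.ncard_prod,
      Set.ncard_univ]
  have eG := cnt G
  have eK := cnt K
  have eH := cnt H
  have hKpos : 0 < Nat.card K := Nat.card_pos
  apply Nat.eq_of_mul_eq_mul_left hKpos
  rw [hBG, ← hcard] at eG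
  zify at eG eK eH ⊢
  linear_combination eG - (Nat.card K : ℤ) * eH - eK

end Cfsg.Agent.S0172
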