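import Cfsg.Statements.S0180
import Cfsg.Agent.Helper22.GalChar2
import Cfsg.Agent.Helper24.CharComplete

set_option autoImplicit false
open Cfsg
open Cfsg.Agent.Helper22 Cfsg.Agent.Helper24

namespace Cfsg.Agent.S0180

/-- Every irreducible complex character of a finite group takes only rational values if and only if g is conjugate to g ^ m for every element g and every m coprime to the group order. -/
theorem result {G : Type*} [Group G] [Finite G] : (∀ χ : Cfsg.IrrCharacter G, ∀ g : G, ∃ q : ℚ, (χ : G → ℂ) g = (q : ℂ)) ↔ ∀ m : ℕ, m.Coprime (Nat.card G) → ∀ g : G, IsConj g (g ^ m) := by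
  classical
  constructor
  · intro h m hm g
    by_contra hcon
    have h1 := (sum_irr_mul_conj g (g ^ m)).2 hcon
    have h2 := (sum_irr_mul_conj g g).1 (IsConj.refl g)
    have h3 : ∀ χ : IrrCharacter G, (χ : G → ℂ) (g ^ m) = (χ : G → ℂ) g := by
      intro χ
      obtain ⟨q, hq⟩ := h χ g
      have hfam := char_pow_fam (isCharacter_of_isIrrCharacter χ.2) g
      have h0 : (fun k : (ZMod (Nat.card G))ˣ =>
          (χ : G → ℂ) (g ^ (k : ZMod (Nat.card G)).val)) 1 = (q : ℂ) := by
        show (χ : G → ℂ) (g ^ ((1 : (ZMod (Nat.card G))ˣ) : ZMod (Nat.card G)).val) = (q : ℂ)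
        rw [pow_unit_one]; exact hq
      have h4 : (χ : G → ℂ) (g ^ ((ZMod.unitOfCoprime m hm : (ZMod (Nat.card G))ˣ) :
          ZMod (Nat.card G)).val) = (q : ℂ) :=
        hfam.const_of_rat q h0 (ZMod.unitOfCoprime m hm)
      rw [pow_unit_coprime] at h4
      rw [h4, hq]
    simp only [h3] at h1
    rw [h1] at h2
    exact (Nat.cast_ne_zero.mpr Nat.card_pos.ne' :
      (Nat.card (Subgroup.centralizer ({g} : Set G)) : ℂ) ≠ 0) h2.symm
  · intro h χ g
    have hfam := char_pow_fam (isCharacter_of_isIrrCharacter χ.2) g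
    have hc : ∀ k : (ZMod (Nat.card G))ˣ,
        (fun k : (ZMod (Nat.card G))ˣ => (χ : G → ℂ) (g ^ (k : ZMod (Nat.card G)).val)) k =
        (fun k : (ZMod (Nat.card G))ˣ => (χ : G → ℂ) (g ^ (k : ZMod (Nat.card G)).val)) 1 := by
      intro k
      show (χ : G → ℂ) (g ^ (k : ZMod (Nat.card G)).val) =
        (χ : G → ℂ) (g ^ ((1 : (ZMod (Nat.card G))ˣ) : ZMod (Nat.card G)).val)
      rw [pow_unit_one]
      exact (isClassFunction_of_isConj (irr_isClassFunction χ)
        (h _ (ZMod.val_coe_unit_coprime k) g)).symm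
    obtain ⟨z, hz⟩ := hfam.int_of_const hc
    have hz' : (χ : G → ℂ) g = (z : ℂ) := by
      rw [← pow_unit_one g]; exact hz
    refine ⟨(z : ℚ), ?_⟩
    rw [hz', Rat.cast_intCast]

end Cfsg.Agent.S0180
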