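import Cfsg.Statements.S0191
import Cfsg.Agent.Helper22.GalChar2

set_option autoImplicit false
open Cfsg
open Cfsg.Agent.Helper22 Cfsg.Agent.Helper24

namespace Cfsg.Agent.S0191

/-- An irreducible complex representation of a finite group of degree greater than 1 has a character that vanishes somewhere. -/
theorem result {G : Type*} [Group G] [Finite G] {V : Type*} [AddCommGroup V] [Module ℂ V] [FiniteDimensional ℂ V] (ρ : Representation ℂ G V) [ρ.IsIrreducible] (hdeg : 1 < Module.finrank ℂ V) : ∃ g : G, ρ.character g = 0 := by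
  classical
  by_contra hcon
  push Not at hcon
  have := Fintype.ofFinite G
  have hirr : IsIrrCharacter G ρ.character := isIrrCharacter_of_irreducible ρ
  have hchar : IsCharacter G ρ.character := isCharacter_of_isIrrCharacter hirr
  have hsum := irr_sum_normSq (⟨ρ.character, hirr⟩ : IrrCharacter G)
  have hstab : ∀ g ∈ (Finset.univ.erase (1 : G)), ∀ k : (ZMod (Nat.card G))ˣ,
      g ^ (k : ZMod (Nat.card G)).val ∈ (Finset.univ.erase (1 : G)) := by
    intro g hg k
    rw [Finset.mem_erase] at hg ⊢
    refine ⟨fun h1 => hg.1 ?_, Finset.mem_univ _⟩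
    have h2 := pow_unit_inv k g
    rw [h1, one_pow] at h2
    exact h2.symm
  have hA := sum_normSq_ge_card_of_stable hchar (Finset.univ.erase (1 : G)) hstab
    (fun g _ => hcon g)
  have hsum' : ∑ g : G, ‖ρ.character g‖ ^ 2 = (Nat.card G : ℝ) := hsum
  rw [← Finset.add_sum_erase Finset.univ _ (Finset.mem_univ (1 : G))] at hsum'
  rw [Finset.card_erase_of_mem (Finset.mem_univ _), Finset.card_univ] at hA
  have h1 : ρ.character 1 = (Module.finrank ℂ V : ℂ) := Representation.char_one ρ
  have h1' : ‖ρ.character 1‖ ^ 2 = (Module.finrank ℂ V : ℝ) ^ 2 := by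
    rw [h1, Complex.norm_natCast]
  have hd : (2 : ℝ) ≤ (Module.finrank ℂ V : ℝ) := by exact_mod_cast hdeg
  have hcard : ((Fintype.card G - 1 : ℕ) : ℝ) = (Nat.card G : ℝ) - 1 := by
    rw [Nat.cast_sub Fintype.card_pos, Nat.card_eq_fintype_card, Nat.cast_one]
  rw [hcard] at hA
  rw [h1'] at hsum'
  nlinarith

end Cfsg.Agent.S0191
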