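import Cfsg.Statements.S0196
import Mathlib

set_option autoImplicit false
open Cfsg

namespace Cfsg.Agent.S0196

/-- If all point stabilizers of an action on a finite set have the same index `k`, then `k`
divides the size of the set. -/
theorem dvd_card_of_index_stabilizer {N X : Type*} [Group N] [MulAction N X] [Finite X] (k : ℕ)
    (h : ∀ x : X, (MulAction.stabilizer N x).index = k) : k ∣ Nat.card X := by
  classical
  haveI : Fintype (MulAction.orbitRel.Quotient N X) := Fintype.ofFinite _
  rw [Nat.card_congr (MulAction.selfEquivSigmaOrbits N X), Nat.card_sigma]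
  apply Finset.dvd_sum
  intro ω _
  rw [Nat.card_coe_set_eq, ← MulAction.index_stabilizer, h]

/-- The conjugation action of the normalizer of `A` on the non-identity elements of `A`. -/
noncomputable def conjAct {G : Type*} [Group G] (A : Subgroup G) :
    MulAction (Subgroup.normalizer (A : Set G)) ((A : Set G) \ {1} : Set G) where
  smul n x := ⟨n * x * n⁻¹, (Subgroup.mem_normalizer_iff.mp n.2 x.1).mp x.2.1, fun h => x.2.2 (by
    have h' : (n : G) * x * (n : G)⁻¹ = 1 := h
    have : (x : G) = (n : G)⁻¹ * ((n : G) * x * (n : G)⁻¹) * n := by group
    rw [this, h']; simp)⟩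
  one_smul x := Subtype.ext (by
    show ((1 : Subgroup.normalizer (A : Set G)) : G) * x
      * ((1 : Subgroup.normalizer (A : Set G)) : G)⁻¹ = x
    simp)
  mul_smul a b x := Subtype.ext (by
    show ((a * b : Subgroup.normalizer (A : Set G)) : G) * x
      * ((a * b : Subgroup.normalizer (A : Set G)) : G)⁻¹
      = (a : G) * ((b : G) * x * (b : G)⁻¹) * (a : G)⁻¹
    simp [mul_assoc])

/-- Let A be a subgroup of a finite group G that equals the centralizer of each of its non-identity elements, and let N be its normalizer. Then the index of A in N divides |A| − 1 (N/A permutes the non-identity elements of A in orbits of full length). -/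
theorem result {G : Type*} [Group G] [Finite G] (A : Subgroup G) (hA : ∀ x ∈ A, x ≠ 1 → Subgroup.centralizer ({x} : Set G) = A) : (A.subgroupOf (Subgroup.normalizer (A : Set G))).index ∣ Nat.card A - 1 := by
  classical
  letI := conjAct A
  have hstab : ∀ x : ((A : Set G) \ {1} : Set G),
      MulAction.stabilizer (Subgroup.normalizer (A : Set G)) x
        = A.subgroupOf (Subgroup.normalizer (A : Set G)) := by
    intro x
    ext n
    rw [MulAction.mem_stabilizer_iff, Subgroup.mem_subgroupOf]
    constructor
    · intro h
      have hc : (n : G) ∈ Subgroup.centralizer ({(x : G)} : Set G) := by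
        rw [Subgroup.mem_centralizer_iff]
        intro y hy
        rw [Set.mem_singleton_iff] at hy; subst hy
        have h' : (n : G) * x * (n : G)⁻¹ = x := congrArg Subtype.val h
        calc (x : G) * n = ((n : G) * x * (n : G)⁻¹) * n := by rw [h']
          _ = n * x := by group
      rw [hA x.1 x.2.1 x.2.2] at hc
      exact hc
    · intro h
      have hc : (n : G) ∈ Subgroup.centralizer ({(x : G)} : Set G) := by
        rw [hA x.1 x.2.1 x.2.2]; exact h
      rw [Subgroup.mem_centralizer_iff] at hc
      apply Subtype.ext
      show (n : G) * x * (n : G)⁻¹ = x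
      rw [← hc x (Set.mem_singleton _)]; group
  have h1 := dvd_card_of_index_stabilizer (N := Subgroup.normalizer (A : Set G))
    (X := ((A : Set G) \ {1} : Set G)) _ (fun x => by rw [hstab x])
  have h2 : Nat.card ((A : Set G) \ {1} : Set G) = Nat.card A - 1 := by
    rw [Nat.card_coe_set_eq, Set.ncard_diff_singleton_of_mem (Subgroup.one_mem A),
      ← Nat.card_coe_set_eq]
    rfl
  rw [← h2]; exact h1

end Cfsg.Agent.S0196
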