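import Cfsg.Statements.S0200
import Mathlib
import Cfsg.Agent.Helper1.BaerSuzuki
import Cfsg.Agent.S0206

set_option autoImplicit false
open Cfsg

namespace Cfsg.Agent.S0200

/-- An involution lying in no normal 2-subgroup of a finite group inverts a nontrivial element of odd order (a consequence of the Baer–Suzuki Theorem). -/
theorem result {G : Type*} [Group G] [Finite G] (t : G) (ht : orderOf t = 2) (hO : ∀ N : Subgroup G, N.Normal → IsPGroup 2 N → t ∉ N) : ∃ h : G, h ≠ 1 ∧ Odd (orderOf h) ∧ t * h * t⁻¹ = h⁻¹ := by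
  obtain ⟨D, hDdef⟩ : ∃ D : Set G, D = {a | ∃ g : G, a = g * t * g⁻¹} := ⟨_, rfl⟩
  have hD : ∀ a ∈ D, ∀ g : G, g * a * g⁻¹ ∈ D := by
    intro a ha g
    rw [hDdef] at ha ⊢
    obtain ⟨k, rfl⟩ := ha
    exact ⟨g * k, by group⟩
  have hex : ∃ a ∈ D, ∃ b ∈ D, ¬ IsPGroup 2 (Subgroup.closure ({a, b} : Set G)) := by
    by_contra hcon
    push Not at hcon
    have hBS := Cfsg.Agent.Helper1.baer_suzuki 2 D hD hcon
    refine hO (Subgroup.closure D) (Cfsg.Agent.Helper1.closure_normal_of_conj D hD) hBS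
      (Subgroup.subset_closure ?_)
    rw [hDdef]
    exact ⟨1, by simp⟩
  obtain ⟨a, ha, b, hb, hnp⟩ := hex
  rw [hDdef] at ha hb
  obtain ⟨g, hag⟩ := ha
  obtain ⟨k, hbk⟩ := hb
  have hoa : orderOf a = 2 := by
    rw [hag, ← ht]; exact (MulAut.conj g).orderOf_eq t
  have hob : orderOf b = 2 := by
    rw [hbk, ← ht]; exact (MulAut.conj k).orderOf_eq t
  have ha2 : a * a = 1 := by rw [← pow_two, ← hoa, pow_orderOf_eq_one]
  have hb2 : b * b = 1 := by rw [← pow_two, ← hob, pow_orderOf_eq_one]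
  have hainv : a⁻¹ = a := inv_eq_of_mul_eq_one_left ha2
  have hab : a ≠ b := by
    intro hab
    apply hnp
    rw [← hab, Set.pair_eq_singleton, ← Subgroup.zpowers_eq_closure]
    apply IsPGroup.of_card (n := 1)
    rw [Nat.card_zpowers, hoa, pow_one]
  obtain ⟨e⟩ := Cfsg.Agent.S0206.result a b hoa hob hab
  have hcard : Nat.card (Subgroup.closure ({a, b} : Set G)) = 2 * orderOf (a * b) := by
    rw [Nat.card_congr e.toEquiv, DihedralGroup.nat_card]
  have hn0 : orderOf (a * b) ≠ 0 := (orderOf_pos (a * b)).ne'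
  obtain ⟨j, m, hm, hjm⟩ := Nat.exists_eq_two_pow_mul_odd hn0
  have hm1 : m ≠ 1 := by
    intro h1
    apply hnp
    apply IsPGroup.of_card (n := j + 1)
    rw [hcard, hjm, h1, mul_one, pow_succ, mul_comm]
  -- the element of odd order
  have hdvd : 2 ^ j ∣ orderOf (a * b) := ⟨m, hjm⟩
  have hord : orderOf ((a * b) ^ (2 ^ j)) = m := by
    rw [orderOf_pow_of_dvd (pow_pos (by norm_num) j).ne' hdvd]
    conv_lhs => rw [hjm]
    exact Nat.mul_div_cancel_left m (pow_pos (by norm_num) j)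
  have hinv : a * (a * b) ^ (2 ^ j) * a = ((a * b) ^ (2 ^ j))⁻¹ :=
    Cfsg.Agent.S0207.conj_mem_zpowers a b ha2 hb2 _
      (Subgroup.pow_mem _ (Subgroup.mem_zpowers _) _)
  obtain ⟨h0, hh0⟩ : ∃ h0 : G, h0 = (a * b) ^ (2 ^ j) := ⟨_, rfl⟩
  rw [← hh0] at hord hinv
  have hconj : g⁻¹ * h0 * g = MulAut.conj g⁻¹ h0 := by simp [MulAut.conj_apply]
  have hordh : orderOf (g⁻¹ * h0 * g) = m := by
    rw [hconj, (MulAut.conj g⁻¹).orderOf_eq h0, hord]
  refine ⟨g⁻¹ * h0 * g, ?_, ?_, ?_⟩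
  · intro h1
    rw [h1, orderOf_one] at hordh
    exact hm1 hordh.symm
  · rw [hordh]; exact hm
  · have e1 : (g * t * g⁻¹) * h0 * (g * t * g⁻¹)⁻¹ = h0⁻¹ := by
      rw [← hag, hainv]; exact hinv
    calc t * (g⁻¹ * h0 * g) * t⁻¹
        = g⁻¹ * ((g * t * g⁻¹) * h0 * (g * t * g⁻¹)⁻¹) * g := by group
      _ = g⁻¹ * h0⁻¹ * g := by rw [e1]
      _ = (g⁻¹ * h0 * g)⁻¹ := by group

end Cfsg.Agent.S0200
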