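import Cfsg.Statements.S0202
import Cfsg.Agent.Helper1.Klein
import Mathlib

set_option autoImplicit false
open Cfsg

namespace Cfsg.Agent.S0202

/-- If a Sylow 2-subgroup of a finite group is a Klein four-group, the group has one or three conjugacy classes of involutions. -/
theorem result {G : Type*} [Group G] [Finite G] (P : Sylow 2 G) (hP : IsKleinFour (P : Subgroup G)) : Nat.card {C : ConjClasses G // ∃ t : G, orderOf t = 2 ∧ ConjClasses.mk t = C} = 1 ∨ Nat.card {C : ConjClasses G // ∃ t : G, orderOf t = 2 ∧ ConjClasses.mk t = C} = 3 := by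
  obtain ⟨F, hF, hsurj, hcardI⟩ := Cfsg.Agent.Helper1.klein_class_map P hP
  by_cases hinj : Function.Injective F
  · right
    rw [← Nat.card_congr (Equiv.ofBijective F ⟨hinj, hsurj⟩), hcardI]
  · left
    rw [Function.Injective] at hinj
    push Not at hinj
    obtain ⟨x, y, hFxy, hxy⟩ := hinj
    have hc : IsConj ((x.1 : (P : Subgroup G)) : G) ((y.1 : (P : Subgroup G)) : G) := by
      rw [← ConjClasses.mk_eq_mk_iff_isConj, ← hF, ← hF, hFxy]
    have hall : ∀ z : {x : (P : Subgroup G) // x ≠ 1}, F z = F x := by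
      intro z
      apply Subtype.ext
      rw [hF, hF, ConjClasses.mk_eq_mk_iff_isConj]
      exact (Cfsg.Agent.Helper1.klein_fusion P hP x.1 y.1 x.2 y.2
        (fun h => hxy (Subtype.ext h)) hc z.1 z.2).symm
    rw [Nat.card_eq_one_iff_unique]
    refine ⟨⟨fun C₁ C₂ => ?_⟩, ⟨F x⟩⟩
    obtain ⟨z₁, rfl⟩ := hsurj C₁
    obtain ⟨z₂, rfl⟩ := hsurj C₂
    rw [hall z₁, hall z₂]

end Cfsg.Agent.S0202
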