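import Cfsg.Statements.S0203
import Cfsg.Agent.Helper1.Klein
import Mathlib

set_option autoImplicit false
open Cfsg

namespace Cfsg.Agent.S0203

/-- If a Sylow 2-subgroup P of a finite group G is a Klein four-group, then G has three classes of involutions if and only if P has a normal complement in G. -/
theorem result {G : Type*} [Group G] [Finite G] (P : Sylow 2 G) (hP : IsKleinFour (P : Subgroup G)) : Nat.card {C : ConjClasses G // ∃ t : G, orderOf t = 2 ∧ ConjClasses.mk t = C} = 3 ↔ ∃ N : Subgroup G, N.Normal ∧ Subgroup.IsComplement' N (P : Subgroup G) := by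
  obtain ⟨F, hF, hsurj, hcardI⟩ := Cfsg.Agent.Helper1.klein_class_map P hP
  have hcomm := Cfsg.Agent.Helper1.klein_comm P hP
  constructor
  · intro h3
    have hinj : Function.Injective F := by
      obtain ⟨e⟩ := Finite.card_eq.mp (hcardI.trans h3.symm)
      exact (Finite.injective_iff_surjective_of_equiv e).mpr hsurj
    have hNC : Subgroup.normalizer ((P : Subgroup G) : Set G) ≤
        Subgroup.centralizer ((P : Subgroup G) : Set G) := by
      intro n hn
      rw [Subgroup.mem_centralizer_iff]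
      intro x hx
      by_cases hx1 : x = 1
      · rw [hx1]; simp
      have hy : n * x * n⁻¹ ∈ (P : Subgroup G) := (Subgroup.mem_normalizer_iff.mp hn x).mp hx
      have hy1 : (⟨n * x * n⁻¹, hy⟩ : (P : Subgroup G)) ≠ 1 := by
        intro h
        have h2 : n * x * n⁻¹ = 1 := congrArg Subtype.val h
        apply hx1
        have h3 : x = n⁻¹ * (n * x * n⁻¹) * n := by group
        rw [h3, h2]; group
      have hFeq : F ⟨⟨x, hx⟩, fun h => hx1 (congrArg Subtype.val h)⟩ =
          F ⟨⟨n * x * n⁻¹, hy⟩, hy1⟩ := by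
        apply Subtype.ext
        rw [hF, hF, ConjClasses.mk_eq_mk_iff_isConj, isConj_iff]
        exact ⟨n, rfl⟩
      have := hinj hFeq
      have h4 : x = n * x * n⁻¹ := congrArg (fun z => ((z.1 : (P : Subgroup G)) : G)) this
      calc x * n = (n * x * n⁻¹) * n := by rw [← h4]
        _ = n * x := by group
    exact ⟨(MonoidHom.transferSylow P hNC).ker, MonoidHom.normal_ker _,
      MonoidHom.ker_transferSylow_isComplement' P hNC⟩
  · rintro ⟨N, hN, hcomp⟩
    have hinj : Function.Injective F := by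
      intro x y hxy
      have hc : IsConj ((x.1 : (P : Subgroup G)) : G) ((y.1 : (P : Subgroup G)) : G) := by
        rw [← ConjClasses.mk_eq_mk_iff_isConj, ← hF, ← hF, hxy]
      obtain ⟨c, hc⟩ := isConj_iff.mp hc
      obtain ⟨⟨n, p⟩, hnp⟩ := hcomp.2 c
      have hnp' : (n : G) * (p : G) = c := hnp
      have h1 : ((y.1 : (P : Subgroup G)) : G) =
          (n : G) * ((x.1 : (P : Subgroup G)) : G) * (n : G)⁻¹ := by
        rw [← hc, ← hnp']
        have h2 : (p : G) * ((x.1 : (P : Subgroup G)) : G) * (p : G)⁻¹ =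
            ((x.1 : (P : Subgroup G)) : G) := by
          rw [hcomm _ p.2 _ x.1.2, mul_inv_cancel_right]
        calc (n : G) * (p : G) * ((x.1 : (P : Subgroup G)) : G) * ((n : G) * (p : G))⁻¹
            = (n : G) * ((p : G) * ((x.1 : (P : Subgroup G)) : G) * (p : G)⁻¹) * (n : G)⁻¹ := by
              group
          _ = _ := by rw [h2]
      have h3 : ((y.1 : (P : Subgroup G)) : G) * ((x.1 : (P : Subgroup G)) : G)⁻¹ ∈ N := by
        rw [h1]
        have h4 : ((x.1 : (P : Subgroup G)) : G) * (n : G)⁻¹ *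
            ((x.1 : (P : Subgroup G)) : G)⁻¹ ∈ N := hN.conj_mem _ (N.inv_mem n.2) _
        have e : (n : G) * ((x.1 : (P : Subgroup G)) : G) * (n : G)⁻¹ *
            ((x.1 : (P : Subgroup G)) : G)⁻¹ = (n : G) * (((x.1 : (P : Subgroup G)) : G) *
              (n : G)⁻¹ * ((x.1 : (P : Subgroup G)) : G)⁻¹) := by group
        rw [e]
        exact N.mul_mem n.2 h4
      have h5 : ((y.1 : (P : Subgroup G)) : G) * ((x.1 : (P : Subgroup G)) : G)⁻¹ ∈
          (P : Subgroup G) := (P : Subgroup G).mul_mem y.1.2 ((P : Subgroup G).inv_mem x.1.2)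
      have h6 : ((y.1 : (P : Subgroup G)) : G) * ((x.1 : (P : Subgroup G)) : G)⁻¹ = 1 := by
        have hdis := hcomp.disjoint
        have h7 : ((y.1 : (P : Subgroup G)) : G) * ((x.1 : (P : Subgroup G)) : G)⁻¹ ∈
            N ⊓ (P : Subgroup G) := Subgroup.mem_inf.mpr ⟨h3, h5⟩
        rw [hdis.eq_bot, Subgroup.mem_bot] at h7
        exact h7
      have h7 : ((y.1 : (P : Subgroup G)) : G) = ((x.1 : (P : Subgroup G)) : G) :=
        mul_inv_eq_one.mp h6
      exact Subtype.ext (Subtype.ext h7.symm)
    rw [← Nat.card_congr (Equiv.ofBijective F ⟨hinj, hsurj⟩), hcardI]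

end Cfsg.Agent.S0203
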