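import Cfsg.Statements.S0210
import Cfsg.Agent.Helper2.Dihedral
import Mathlib.Tactic

set_option autoImplicit false
open Cfsg

namespace Cfsg.Agent.S0210

/-- If x, y are involutions whose product has even order, no element of the subgroup generated by x and y conjugates x to y. -/
theorem result {G : Type*} [Group G] [Finite G] (x y : G) (hx : orderOf x = 2) (hy : orderOf y = 2) (heven : Even (orderOf (x * y))) (d : G) (hd : d ∈ Subgroup.closure ({x, y} : Set G)) : d * x * d⁻¹ ≠ y := by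
  have hx2 := Helper2.inv_sq_of_orderOf_two hx
  have hy2 := Helper2.inv_sq_of_orderOf_two hy
  intro h
  obtain ⟨i, hi⟩ := Helper2.dih_conj hx2 hy2 d hd
  have hy' := Helper2.dih_y_eq hx2 hy2
  have h2 : (x * y) ^ (-1 : ℤ) = (x * y) ^ (2 * i) := mul_right_cancel (hy'.symm.trans (h.symm.trans hi))
  have h1 : (x * y) ^ (2 * i + 1) = 1 := by
    rw [zpow_add, ← h2, ← zpow_add]; simp
  have h3 : (orderOf (x * y) : ℤ) ∣ 2 * i + 1 := orderOf_dvd_iff_zpow_eq_one.mpr h1
  obtain ⟨k, hk⟩ := heven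
  rw [hk] at h3
  obtain ⟨c, hc⟩ := h3
  push_cast at hc
  have : (2 : ℤ) ∣ 2 * i + 1 := ⟨k * c, by rw [hc]; ring⟩
  omega

end Cfsg.Agent.S0210
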