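import Cfsg.Statements.S0211
import Cfsg.Agent.Helper2.Dihedral
import Mathlib.Tactic

set_option autoImplicit false
open Cfsg

namespace Cfsg.Agent.S0211

/-- Let x, y be involutions with xy of even order n and z = (xy)^(n/2). Then xz is conjugate to x by an element of the subgroup generated by x, y if and only if 4 divides n. -/
theorem result {G : Type*} [Group G] [Finite G] (x y : G) (hx : orderOf x = 2) (hy : orderOf y = 2) (heven : Even (orderOf (x * y))) : (∃ d ∈ Subgroup.closure ({x, y} : Set G), d * x * d⁻¹ = x * (x * y) ^ (orderOf (x * y) / 2)) ↔ 4 ∣ orderOf (x * y) := by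
  have hx2 := Helper2.inv_sq_of_orderOf_two hx
  have hy2 := Helper2.inv_sq_of_orderOf_two hy
  obtain ⟨k, hk⟩ := heven
  have hdiv : orderOf (x * y) / 2 = k := by omega
  rw [hdiv]
  have hxz : x * (x * y) ^ k = (x * y) ^ (-(k : ℤ)) * x := by
    rw [← Helper2.dih_semiconj hx2 hy2, zpow_natCast]
  rw [hxz]
  constructor
  · rintro ⟨d, hd, h⟩
    obtain ⟨i, hi⟩ := Helper2.dih_conj hx2 hy2 d hd
    rw [h] at hi
    have h2 := mul_right_cancel hi
    have h1 : (x * y) ^ (2 * i + k) = 1 := by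
      rw [zpow_add, ← h2, ← zpow_add]; simp
    have h3 : (orderOf (x * y) : ℤ) ∣ 2 * i + k := orderOf_dvd_iff_zpow_eq_one.mpr h1
    rw [hk] at h3 ⊢
    obtain ⟨c, hc⟩ := h3
    push_cast at hc
    have h5 : (2 : ℤ) ∣ k := by
      have : (2 : ℤ) ∣ 2 * i + k := ⟨k * c, by rw [hc]; ring⟩
      omega
    omega
  · intro h4
    rw [hk] at h4
    obtain ⟨j, hj⟩ : ∃ j, k = 2 * j := by
      obtain ⟨c, hc⟩ := h4
      exact ⟨c, by omega⟩
    refine ⟨(x * y) ^ (-(j : ℤ)), ?_, ?_⟩
    · apply Subgroup.zpow_mem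
      apply Subgroup.mul_mem <;> apply Subgroup.subset_closure <;> simp
    · rw [← zpow_neg, neg_neg, mul_assoc, Helper2.dih_semiconj hx2 hy2, ← mul_assoc,
        ← zpow_add, hj]
      congr 2
      push_cast
      ring

end Cfsg.Agent.S0211
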