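import Cfsg.Statements.S0216
import Cfsg.Agent.Helper2.Syl

set_option autoImplicit false
open Cfsg

namespace Cfsg.Agent.S0216

/-- For an involution u in a Sylow 2-subgroup P of a finite group G, the following are equivalent: no G-conjugate of u other than u lies in P; every commutator of u with an element of G has odd order. -/
theorem result {G : Type*} [Group G] [Finite G] (P : Sylow 2 G) (u : G) (hu : orderOf u = 2) (huP : u ∈ P) : (∀ g : G, g * u * g⁻¹ ∈ P → g * u * g⁻¹ = u) ↔ (∀ g : G, Odd (orderOf (u * g * u⁻¹ * g⁻¹))) := by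
  have hui : u⁻¹ = u := Helper2.inv_eq_self_of_orderOf_two hu
  constructor
  · intro hiso g
    have h1 := Helper6.isolated_odd (Helper2.isolated_of_sylow P hu hiso) g
    have e : u * g * u⁻¹ * g⁻¹ = u * (g * u * g⁻¹) := by rw [hui]; group
    rw [e]; exact h1
  · intro hodd g hg
    have hmem : u * g * u⁻¹ * g⁻¹ ∈ (P : Subgroup G) := by
      have e : u * g * u⁻¹ * g⁻¹ = u * (g * u * g⁻¹)⁻¹ := by group
      rw [e]; exact mul_mem huP (inv_mem hg)
    obtain ⟨k, hk⟩ := P.isPGroup' ⟨_, hmem⟩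
    have hk' : (u * g * u⁻¹ * g⁻¹) ^ (2 ^ k) = 1 := by
      have := congrArg Subtype.val hk
      simpa using this
    have h1 : orderOf (u * g * u⁻¹ * g⁻¹) ∣ 2 ^ k := orderOf_dvd_of_pow_eq_one hk'
    have h2 : orderOf (u * g * u⁻¹ * g⁻¹) = 1 :=
      Nat.Coprime.eq_one_of_dvd (Nat.Coprime.pow_right k (hodd g).coprime_two_right) h1
    have h3 := orderOf_eq_one_iff.mp h2
    have : g * u * g⁻¹ = (u * g * u⁻¹ * g⁻¹)⁻¹ * u := by group
    rw [this, h3, inv_one, one_mul]

end Cfsg.Agent.S0216
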