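import Cfsg.Statements.S0218
import Mathlib

set_option autoImplicit false
open Cfsg

namespace Cfsg.Agent.S0218

theorem aux (M : ℕ) [NeZero M] : Nat.card {x : QuaternionGroup M // orderOf x = 2} = 1 := by
  have hM : 0 < M := Nat.pos_of_ne_zero (NeZero.ne M)
  have key : ∀ z : QuaternionGroup M, orderOf z = 2 →
      z = QuaternionGroup.a ((M : ℕ) : ZMod (2 * M)) := by
    intro z hz
    have hz1 : z * z = 1 := by rw [← pow_two, ← hz, pow_orderOf_eq_one]
    cases z with
    | a i =>
      rw [QuaternionGroup.a_mul_a, QuaternionGroup.one_def] at hz1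
      have h2 : i + i = 0 := QuaternionGroup.a.inj hz1
      have h3 : i ≠ 0 := by
        intro h0
        rw [h0, ← QuaternionGroup.one_def, orderOf_one] at hz; omega
      congr 1
      have hv : ((i.val : ℕ) : ZMod (2 * M)) = i := ZMod.natCast_zmod_val i
      have hlt : i.val < 2 * M := ZMod.val_lt i
      have h4 : ((i.val + i.val : ℕ) : ZMod (2 * M)) = 0 := by
        rw [Nat.cast_add, hv]; exact h2
      rw [ZMod.natCast_eq_zero_iff] at h4
      obtain ⟨k, hk⟩ := h4
      have hv0 : i.val ≠ 0 := by
        intro h0; rw [h0, Nat.cast_zero] at hv; exact h3 hv.symm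
      have : i.val = M := by
        rcases k with _ | _ | k
        · omega
        · omega
        · nlinarith
      rw [← hv, this]
    | xa i =>
      rw [QuaternionGroup.orderOf_xa] at hz; omega
  rw [Nat.card_eq_one_iff_unique]
  constructor
  · constructor
    rintro ⟨x, hx⟩ ⟨y, hy⟩
    rw [Subtype.mk.injEq, key x hx, key y hy]
  · refine ⟨⟨QuaternionGroup.a ((M : ℕ) : ZMod (2 * M)), ?_⟩⟩
    have hMM : ((M : ℕ) : ZMod (2 * M)) + ((M : ℕ) : ZMod (2 * M)) = 0 := by
      rw [← Nat.cast_add, ← two_mul]; exact ZMod.natCast_self (2 * M)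
    have hne : ((M : ℕ) : ZMod (2 * M)) ≠ 0 := by
      rw [Ne, ZMod.natCast_eq_zero_iff]
      intro h
      have := Nat.le_of_dvd hM h
      omega
    have := Fact.mk Nat.prime_two
    rw [orderOf_eq_prime_iff]
    constructor
    · rw [pow_two, QuaternionGroup.a_mul_a, hMM, QuaternionGroup.one_def]
    · rw [QuaternionGroup.one_def]
      intro h
      exact hne (QuaternionGroup.a.inj h)


/-- The generalized quaternion group of order 2^(n+3) contains exactly one element of order 2. -/
theorem result (n : ℕ) : Nat.card {x : QuaternionGroup (2 ^ (n + 1)) // orderOf x = 2} = 1 := by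
  have : NeZero (2 ^ (n + 1)) := ⟨by positivity⟩
  exact aux _

end Cfsg.Agent.S0218
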