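import Cfsg.Statements.S0219
import Cfsg.Agent.Helper2.Syl

set_option autoImplicit false
open Cfsg

namespace Cfsg.Agent.S0219

/-- If a finite group has even order and a cyclic Sylow 2-subgroup, then it has a subgroup of index 2 (consider the parity of permutations in the regular representation). -/
theorem result {G : Type*} [Group G] [Finite G] (heven : Even (Nat.card G)) (T : Sylow 2 G) (hT : IsCyclic (T : Subgroup G)) : ∃ H : Subgroup G, H.index = 2 := by
  have : Fact (Nat.Prime 2) := ⟨Nat.prime_two⟩
  have h2 : 2 ∣ Nat.card G := even_iff_two_dvd.mp heven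
  have hp : (Nat.card G).minFac = 2 := (Nat.minFac_eq_two_iff _).mpr h2
  have hcomp := IsCyclic.isComplement' hp hT
  exact Helper2.exists_index_two_of_isComplement' hcomp T.isPGroup' (T.ne_bot_of_dvd_card h2)

end Cfsg.Agent.S0219
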