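import Cfsg.Statements.S0220
import Cfsg.Agent.Helper2.Syl
import Cfsg.Agent.S0219

set_option autoImplicit false
open Cfsg

namespace Cfsg.Agent.S0220

/-- If x is an involution of a finite group G and a Sylow 2-subgroup of the centralizer of x is cyclic, then G has a subgroup of index 2; in particular G is not simple unless it has order 2. -/
theorem result {G : Type*} [Group G] [Finite G] (x : G) (hx : orderOf x = 2) (S : Sylow 2 ↥(Subgroup.centralizer ({x} : Set G))) (hS : IsCyclic (S : Subgroup ↥(Subgroup.centralizer ({x} : Set G)))) : ∃ H : Subgroup G, H.index = 2 := by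
  have : Fact (Nat.Prime 2) := ⟨Nat.prime_two⟩
  obtain ⟨C, hC⟩ : ∃ C : Subgroup G, C = Subgroup.centralizer ({x} : Set G) := ⟨_, rfl⟩
  subst hC
  have hxC : x ∈ Subgroup.centralizer ({x} : Set G) := Helper2.mem_centralizer_singleton.mpr rfl
  obtain ⟨S', hS'⟩ : ∃ S' : Subgroup G, S' = (S : Subgroup _).map (Subgroup.centralizer ({x} : Set G)).subtype := ⟨_, rfl⟩
  have hS'C : S' ≤ Subgroup.centralizer ({x} : Set G) := by
    rw [hS']
    rintro _ ⟨y, -, rfl⟩; exact y.2
  have hS'2 : IsPGroup 2 S' := by
    rw [hS']; exact S.isPGroup'.map _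
  have hmaxS : ∀ Q : Subgroup G, IsPGroup 2 Q → Q ≤ Subgroup.centralizer ({x} : Set G) → S' ≤ Q → Q ≤ S' := by
    intro Q hQ hQC hSQ
    have h1 : IsPGroup 2 (Q.subgroupOf (Subgroup.centralizer ({x} : Set G))) := hQ.comap_subtype
    have h2 : (S : Subgroup _) ≤ Q.subgroupOf (Subgroup.centralizer ({x} : Set G)) := by
      intro y hy
      rw [Subgroup.mem_subgroupOf]
      apply hSQ
      rw [hS']
      exact ⟨y, hy, rfl⟩
    have h3 := S.is_maximal' h1 h2
    intro q hq
    have : (⟨q, hQC hq⟩ : Subgroup.centralizer ({x} : Set G)) ∈ Q.subgroupOf (Subgroup.centralizer ({x} : Set G)) := by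
      rw [Subgroup.mem_subgroupOf]; exact hq
    rw [h3] at this
    rw [hS']
    exact ⟨⟨q, hQC hq⟩, this, rfl⟩
  have hxS' : x ∈ S' := by
    have hzx : IsPGroup 2 (Subgroup.zpowers x) := Helper9.isPGroup_zpowers_of_orderOf x hx
    have hn : S' ≤ Subgroup.normalizer (Subgroup.zpowers x : Set G) := by
      intro y hy
      apply Helper2.mem_normalizer_of_forall_commute
      intro z hz
      obtain ⟨k, rfl⟩ := Subgroup.mem_zpowers_iff.mp hz
      have hcm : Commute y x := (Helper2.mem_centralizer_singleton.mp (hS'C hy)).symm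
      exact (hcm.zpow_right k).eq
    have hQ : IsPGroup 2 (S' ⊔ Subgroup.zpowers x : Subgroup G) :=
      IsPGroup.to_sup_of_normal_right' hS'2 hzx hn
    have hQC : S' ⊔ Subgroup.zpowers x ≤ Subgroup.centralizer ({x} : Set G) :=
      sup_le hS'C (by rw [Subgroup.zpowers_le]; exact hxC)
    exact hmaxS _ hQ hQC le_sup_left (Subgroup.mem_sup_right (Subgroup.mem_zpowers x))
  have hS'cyc : IsCyclic S' := by
    rw [hS']
    have e := (S : Subgroup _).equivMapOfInjective (Subgroup.centralizer ({x} : Set G)).subtype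
      (Subgroup.centralizer ({x} : Set G)).subtype_injective
    exact isCyclic_of_surjective e.toMonoidHom e.surjective
  obtain ⟨T, hT⟩ := hS'2.exists_le_sylow
  have hTC : (T : Subgroup G) ⊓ Subgroup.centralizer ({x} : Set G) ≤ S' :=
    hmaxS _ (T.isPGroup'.to_le inf_le_left) inf_le_right (le_inf hT hS'C)
  have hxT : x ∈ (T : Subgroup G) := hT hxS'
  have hTnt : Nontrivial (T : Subgroup G) := by
    refine ⟨⟨1, ⟨x, hxT⟩, ?_⟩⟩
    intro h
    have h1 : (1 : G) = x := congrArg Subtype.val h
    rw [← h1, orderOf_one] at hx; omega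
  have hcen : Nontrivial (Subgroup.center (T : Subgroup G)) := IsPGroup.center_nontrivial T.isPGroup'
  have hcen2 : IsPGroup 2 (Subgroup.center (T : Subgroup G)) := T.isPGroup'.to_subgroup _
  have hev : Even (Nat.card (Subgroup.center (T : Subgroup G))) := by
    obtain ⟨k, hk⟩ := hcen2.exists_card_eq
    rw [hk]
    rcases k with _ | k
    · rw [pow_zero] at hk
      have := Finite.one_lt_card (α := Subgroup.center (T : Subgroup G))
      omega
    · rw [pow_succ]; exact even_two.mul_left _
  obtain ⟨z, hz, hz2⟩ := Helper2.exists_involution_of_even _ hev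
  have hz2' : orderOf (z : G) = 2 := by rw [Subgroup.orderOf_coe]; exact hz2
  rw [Subgroup.mem_center_iff] at hz
  have hzx : (z : G) = x := by
    apply Helper2.involution_unique_of_isCyclic hS'cyc _ hxS' hz2' hx
    apply hTC
    refine Subgroup.mem_inf.mpr ⟨z.2, ?_⟩
    rw [Helper2.mem_centralizer_singleton]
    have := hz ⟨x, hxT⟩
    exact congrArg Subtype.val this
  have hle : (T : Subgroup G) ≤ S' := by
    intro q hq
    apply hTC
    refine Subgroup.mem_inf.mpr ⟨hq, ?_⟩
    rw [Helper2.mem_centralizer_singleton, ← hzx]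
    have := hz ⟨q, hq⟩
    exact (congrArg Subtype.val this).symm
  have hTeq : (T : Subgroup G) = S' := le_antisymm hle hT
  have hTcyc : IsCyclic (T : Subgroup G) := by rw [hTeq]; exact hS'cyc
  have heven : Even (Nat.card G) := even_iff_two_dvd.mpr (hx ▸ orderOf_dvd_natCard x)
  exact Cfsg.Agent.S0219.result heven T hTcyc

end Cfsg.Agent.S0220
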