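import Cfsg.Statements.S0221
import Cfsg.Agent.Helper2.R3
import Cfsg.Agent.S0111

set_option autoImplicit false
open Cfsg

namespace Cfsg.Agent.S0221

/-- Let G be a finite group with no subgroup of index 2 whose 2-rank is at least 3 (it contains an elementary abelian subgroup of order 8). Then the centralizer of every involution of G also contains an elementary abelian subgroup of order 8. -/
theorem result {G : Type*} [Group G] [Finite G] (hno : ∀ H : Subgroup G, H.index ≠ 2) (hrank : ∃ E : Subgroup G, Nat.card E = 8 ∧ ∀ e ∈ E, e ^ 2 = 1) (x : G) (hx : orderOf x = 2) : ∃ E : Subgroup G, E ≤ Subgroup.centralizer ({x} : Set G) ∧ Nat.card E = 8 ∧ ∀ e ∈ E, e ^ 2 = 1 := by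
  classical
  by_contra hbad0
  have hbad : ¬ Helper2.R3.Good x := hbad0
  have : Fintype G := Fintype.ofFinite G
  have h2p : Fact (Nat.Prime 2) := ⟨Nat.prime_two⟩
  obtain ⟨E0, hE0c, hE0e⟩ := hrank
  obtain ⟨S⟩ : Nonempty (Sylow 2 G) := inferInstance
  have hE0p : IsPGroup 2 E0 := IsPGroup.of_card (n := 3) (by rw [hE0c]; norm_num)
  obtain ⟨h0, hh0⟩ := Helper9.exists_conj_mem_sylow S E0 hE0p
  obtain ⟨E, hEdef⟩ : ∃ E : Subgroup G, E = E0.map (MulAut.conj h0).toMonoidHom := ⟨_, rfl⟩
  have hES : E ≤ (S : Subgroup G) := by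
    rw [hEdef]; rintro _ ⟨e, he, rfl⟩; exact hh0 e he
  have hE8 : Nat.card E = 8 := by
    rw [hEdef, Subgroup.card_map_of_injective (MulAut.conj h0).injective]; exact hE0c
  have hE2 : ∀ e ∈ E, e * e = 1 := by
    rw [hEdef]; rintro _ ⟨e, he, rfl⟩
    rw [← map_mul, ← pow_two, hE0e e he, map_one]
  have hE2' : ∀ e ∈ E, e ^ 2 = 1 := fun e he => by rw [pow_two]; exact hE2 e he
  obtain ⟨h1, hx1S⟩ := Helper2.exists_conj_mem_sylow_of_involution S hx
  obtain ⟨x1, hx1def⟩ : ∃ x1, x1 = h1 * x * h1⁻¹ := ⟨_, rfl⟩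
  rw [← hx1def] at hx1S
  have hbad1 : ¬ Helper2.R3.Good x1 := fun h =>
    hbad (Helper2.R3.good_conj x h1 (by rw [← hx1def]; exact h))
  have hx1o : orderOf x1 = 2 := by rw [hx1def, Helper2.orderOf_conj_eq]; exact hx
  have hSnt : Nontrivial (S : Subgroup G) := by
    refine ⟨⟨1, ⟨x1, hx1S⟩, ?_⟩⟩
    intro h
    have h' : (1 : G) = x1 := congrArg Subtype.val h
    rw [← h', orderOf_one] at hx1o; omega
  have hcen : Nontrivial (Subgroup.center (S : Subgroup G)) :=
    IsPGroup.center_nontrivial S.isPGroup'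
  have hcen2 : IsPGroup 2 (Subgroup.center (S : Subgroup G)) := S.isPGroup'.to_subgroup _
  have hev : Even (Nat.card (Subgroup.center (S : Subgroup G))) := by
    obtain ⟨k, hk⟩ := hcen2.exists_card_eq
    rw [hk]
    rcases k with _ | k
    · rw [pow_zero] at hk
      have := Finite.one_lt_card (α := Subgroup.center (S : Subgroup G))
      omega
    · rw [pow_succ]; exact even_two.mul_left _
  obtain ⟨z', hz'c, hz'2⟩ := Helper2.exists_involution_of_even _ hev
  rw [Subgroup.mem_center_iff] at hz'c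
  obtain ⟨z, hzdef⟩ : ∃ z : G, z = (z' : G) := ⟨_, rfl⟩
  have hzS : z ∈ (S : Subgroup G) := by rw [hzdef]; exact z'.2
  have hzo : orderOf z = 2 := by rw [hzdef, Subgroup.orderOf_coe]; exact hz'2
  have hzc : ∀ s ∈ (S : Subgroup G), s * z = z * s := by
    intro s hs
    rw [hzdef]
    exact congrArg Subtype.val (hz'c ⟨s, hs⟩)
  have good_central : ∀ v : G, (∀ s ∈ (S : Subgroup G), s * v = v * s) → Helper2.R3.Good v :=
    fun v hv => Helper2.R3.good_of v E hE8 hE2' (fun e he => (hv e (hES he)).symm)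
  obtain ⟨v, hvS, hv2, hv1, hvz, hvidx⟩ :=
    Helper2.R3.exists_index_two_centralizer (S : Subgroup G) E S.isPGroup' hES hE8 hE2 z hzc
  have hvo : orderOf v = 2 := Helper2.orderOf_eq_two_iff'.mpr ⟨hv2, hv1⟩
  obtain ⟨T, hTdef⟩ : ∃ T : Subgroup G, T = Helper2.R3.CE (S : Subgroup G) v := ⟨_, rfl⟩
  rw [← hTdef] at hvidx
  have hmemT : ∀ g, g ∈ T ↔ g ∈ (S : Subgroup G) ∧ v * g = g * v := by
    intro g; rw [hTdef]; exact Helper2.R3.mem_CE
  have hTS : T ≤ (S : Subgroup G) := fun g hg => ((hmemT g).mp hg).1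
  have hcardsub : Nat.card (T.subgroupOf (S : Subgroup G)) = Nat.card T :=
    Nat.card_congr (Subgroup.subgroupOfEquivOfLe hTS).toEquiv
  have hrelmul : Nat.card T * T.relIndex (S : Subgroup G) = Nat.card (S : Subgroup G) := by
    rw [← hcardsub]; exact (T.subgroupOf (S : Subgroup G)).card_mul_index
  have hTpos : 0 < Nat.card T := Nat.card_pos
  have hrel : T.relIndex (S : Subgroup G) = 1 ∨ T.relIndex (S : Subgroup G) = 2 := by
    rcases hvidx with h | h
    · left
      rw [← h] at hrelmul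
      exact Nat.eq_of_mul_eq_mul_left hTpos (by rw [hrelmul, mul_one])
    · right
      rw [← h] at hrelmul
      exact Nat.eq_of_mul_eq_mul_left hTpos (by rw [hrelmul, mul_comm])
  have hex : ∃ x' ∈ T, orderOf x' = 2 ∧ ¬ Helper2.R3.Good x' := by
    by_cases hx1T : x1 ∈ T
    · exact ⟨x1, hx1T, hx1o, hbad1⟩
    · rcases hrel with hr | hr
      · exfalso; exact hx1T ((Subgroup.relIndex_eq_one.mp hr) hx1S)
      · rcases Cfsg.Agent.S0111.result S T hTS hr x1 hx1o hx1S hx1T with ⟨M, -, hM, -⟩ | ⟨g, hg⟩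
        · exact absurd hM (hno M)
        · exact ⟨g * x1 * g⁻¹, hg, by rw [Helper2.orderOf_conj_eq]; exact hx1o,
            fun h => hbad1 (Helper2.R3.good_conj x1 g h)⟩
  obtain ⟨x', hx'T, hx'o, hx'bad⟩ := hex
  have hx'S := hTS hx'T
  have hx'v : v * x' = x' * v := ((hmemT x').mp hx'T).2
  have hx'z : x' ≠ z := fun h => hx'bad (by rw [h]; exact good_central z hzc)
  have h6 := Helper2.R3.key_b (S : Subgroup G) z hzS hzo hzc x' hx'S hx'o hx'z hx'bad v hvS hvo
    hx'v
  have hzz : z * z = 1 := Helper2.inv_sq_of_orderOf_two hzo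
  have hTx' : ∀ g ∈ T, g * x' = x' * g := by
    intro g hg
    obtain ⟨hgS, hgv⟩ := (hmemT g).mp hg
    have hgz := hzc g hgS
    rcases h6 with h | h | h
    · rw [← h]; exact hgv.symm
    · exact absurd h hvz
    · have hx'eq : x' = v * z := by
        rw [h, mul_assoc, hzz, mul_one]
      rw [hx'eq]
      calc g * (v * z) = (g * v) * z := by group
        _ = (v * g) * z := by rw [hgv]
        _ = v * (g * z) := by group
        _ = v * (z * g) := by rw [hgz]
        _ = v * z * g := by group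
  have hET : 4 ≤ Nat.card (E ⊓ T : Subgroup G) := by
    have h1 : (E ⊓ T).relIndex E = T.relIndex E := Subgroup.inf_relIndex_left E T
    have h2 : T.relIndex E ≤ T.relIndex (S : Subgroup G) :=
      Subgroup.relIndex_le_of_le_right hES (by rcases hrel with h | h <;> omega)
    have h3 : Nat.card ((E ⊓ T).subgroupOf E) = Nat.card (E ⊓ T : Subgroup G) :=
      Nat.card_congr (Subgroup.subgroupOfEquivOfLe inf_le_left).toEquiv
    have h4 : Nat.card (E ⊓ T : Subgroup G) * (E ⊓ T).relIndex E = Nat.card E := by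
      rw [← h3]; exact ((E ⊓ T).subgroupOf E).card_mul_index
    rw [h1, hE8] at h4
    have h5 : T.relIndex E ≤ 2 := by rcases hrel with h | h <;> omega
    have h6' : 1 ≤ T.relIndex E := by
      apply Nat.pos_of_ne_zero
      intro h0; rw [h0, mul_zero] at h4; omega
    obtain ⟨r, hr⟩ : ∃ r, r = T.relIndex E := ⟨_, rfl⟩
    rw [← hr] at h4 h5 h6'
    interval_cases r <;> omega
  have hexe : ∃ e ∈ E, e ∈ T ∧ e ≠ 1 ∧ e ≠ z := by
    by_contra hcon
    push Not at hcon
    have hsub : Helper2.R3.fs (E ⊓ T : Subgroup G) ⊆ ({1, z} : Finset G) := by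
      intro e he
      rw [Helper2.R3.mem_fs, Subgroup.mem_inf] at he
      rw [Finset.mem_insert, Finset.mem_singleton]
      by_contra h
      push Not at h
      exact h.2 (hcon e he.1 he.2 h.1)
    have h7 := Finset.card_le_card hsub
    rw [Helper2.R3.card_fs] at h7
    have h8 : ({1, z} : Finset G).card ≤ 2 := Finset.card_le_two
    omega
  obtain ⟨e, heE, heT, he1, hez⟩ := hexe
  have heo : orderOf e = 2 := Helper2.orderOf_eq_two_iff'.mpr ⟨hE2 e heE, he1⟩
  have h7 := Helper2.R3.key_b (S : Subgroup G) z hzS hzo hzc x' hx'S hx'o hx'z hx'bad e (hES heE)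
    heo (hTx' e heT)
  apply hx'bad
  apply Helper2.R3.good_of x' E hE8 hE2'
  intro e' he'
  rcases h7 with h | h | h
  · rw [← h]; exact Helper2.R3.comm_of_exp_two hE2 heE he'
  · exact absurd h hez
  · have hc1 : e * e' = e' * e := Helper2.R3.comm_of_exp_two hE2 heE he'
    have hc2 : e' * z = z * e' := hzc e' (hES he')
    rw [h] at hc1
    have h9 : x' * e' * z = e' * x' * z := by
      calc x' * e' * z = x' * (e' * z) := by group
        _ = x' * (z * e') := by rw [hc2]
        _ = x' * z * e' := by group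
        _ = e' * (x' * z) := hc1
        _ = e' * x' * z := by group
    exact mul_right_cancel h9

end Cfsg.Agent.S0221
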