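import Cfsg.Statements.S0226
import Cfsg.Agent.Helper2.Inv

set_option autoImplicit false
open Cfsg

namespace Cfsg.Agent.S0226

/-- A finite group of even order has an odd number of involutions. -/
theorem result {G : Type*} [Group G] [Finite G] (heven : Even (Nat.card G)) : Odd (Nat.card {t : G // orderOf t = 2}) := by
  classical
  have := Fintype.ofFinite G
  let f : Function.End G := fun x => x⁻¹
  have hf : f ^ 2 ^ 1 = 1 := by
    rw [pow_one, pow_two]
    funext x
    exact inv_inv x
  have := Fact.mk Nat.prime_two
  have h1 := Equiv.Perm.card_fixedPoints_modEq (p := 2) (n := 1) hf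
  have h2 : Fintype.card (Function.fixedPoints f) =
      (Finset.univ.filter fun x : G => x⁻¹ = x).card := by
    rw [Fintype.card_subtype]
    rfl
  have h3 : Nat.card {t : G // orderOf t = 2} =
      (Finset.univ.filter fun x : G => orderOf x = 2).card := by
    rw [Nat.card_eq_fintype_card, Fintype.card_subtype]
  have h4 : (Finset.univ.filter fun x : G => x⁻¹ = x) =
      insert 1 (Finset.univ.filter fun x : G => orderOf x = 2) := by
    ext x
    simp only [Finset.mem_filter, Finset.mem_univ, true_and, Finset.mem_insert]
    rw [Helper2.orderOf_eq_two_iff']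
    constructor
    · intro hx
      by_cases hx1 : x = 1
      · left; exact hx1
      · right
        refine ⟨?_, hx1⟩
        have : x * x = x * x⁻¹ := by rw [hx]
        rw [this, mul_inv_cancel]
    · rintro (hx | ⟨hx, _⟩)
      · rw [hx, inv_one]
      · exact inv_eq_of_mul_eq_one_left hx
  have h5 : (1 : G) ∉ (Finset.univ.filter fun x : G => orderOf x = 2) := by
    simp
  rw [h2, h4, Finset.card_insert_of_notMem h5, ← h3, ← Nat.card_eq_fintype_card] at h1
  rw [← Nat.not_even_iff_odd]
  intro hev
  have h6 : Nat.card G % 2 = 0 := Nat.even_iff.1 heven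
  have h7 : Nat.card {t : G // orderOf t = 2} % 2 = 0 := Nat.even_iff.1 hev
  have h8 := h1
  unfold Nat.ModEq at h8
  omega

end Cfsg.Agent.S0226
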