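import Cfsg.Statements.S0228
import Cfsg.Agent.Helper2.Syl

set_option autoImplicit false
open Cfsg

namespace Cfsg.Agent.S0228

theorem card_sylow_eq {G : Type*} [Group G] [Finite G] {p k m : ℕ} [hp : Fact p.Prime]
    (hG : Nat.card G = p ^ k * m) (hm : ¬ p ∣ m) (P : Sylow p G) :
    Nat.card (P : Subgroup G) = p ^ k := by
  have hm0 : m ≠ 0 := by rintro rfl; exact hm (dvd_zero p)
  rw [P.card_eq_multiplicity, hG, Nat.factorization_mul (pow_ne_zero k hp.out.ne_zero) hm0,
    Nat.Prime.factorization_pow hp.out]
  simp [Nat.factorization_eq_zero_of_not_dvd hm]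


/-- A group of order 12 in which no involution is central is isomorphic to the alternating group on four letters. -/
theorem result {G : Type*} [Group G] [Finite G] (hG : Nat.card G = 12) (hz : ∀ z : G, orderOf z = 2 → z ∉ Subgroup.center G) : Nonempty (G ≃* alternatingGroup (Fin 4)) := by
  classical
  have h3 : Fact (Nat.Prime 3) := ⟨Nat.prime_three⟩
  have h2 : Fact (Nat.Prime 2) := ⟨Nat.prime_two⟩
  have hc3 : ∀ P : Sylow 3 G, Nat.card (P : Subgroup G) = 3 := fun P => by
    have := card_sylow_eq (p := 3) (k := 1) (m := 4) (by rw [hG]; norm_num) (by norm_num) P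
    simpa using this
  have hc2 : ∀ Q : Sylow 2 G, Nat.card (Q : Subgroup G) = 4 := fun Q => by
    have := card_sylow_eq (p := 2) (k := 2) (m := 3) (by rw [hG]; norm_num) (by norm_num) Q
    simpa using this
  obtain ⟨P3⟩ : Nonempty (Sylow 3 G) := inferInstance
  obtain ⟨Q⟩ : Nonempty (Sylow 2 G) := inferInstance
  have hidx3 : (P3 : Subgroup G).index = 4 := by
    have := (P3 : Subgroup G).card_mul_index
    rw [hc3, hG] at this; omega
  have hn3 : Nat.card (Sylow 3 G) = 1 ∨ Nat.card (Sylow 3 G) = 4 := by
    have h1 := card_sylow_modEq_one 3 G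
    have h2' := P3.card_dvd_index
    rw [hidx3] at h2'
    obtain ⟨n, hn⟩ : ∃ n, n = Nat.card (Sylow 3 G) := ⟨_, rfl⟩
    rw [← hn] at h1 h2' ⊢
    have h4 : n ≤ 4 := Nat.le_of_dvd (by norm_num) h2'
    have h5 : n % 3 = 1 := h1
    interval_cases n <;> first | exact Or.inl rfl | exact Or.inr rfl | (exfalso; revert h5 h2'; decide)
  rcases hn3 with hn1 | hn4
  · exfalso
    have hsub : Subsingleton (Sylow 3 G) := (Nat.card_eq_one_iff_unique.mp hn1).1
    have hnorm : (P3 : Subgroup G).Normal := Sylow.normal_of_subsingleton P3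
    let f : (Q : Subgroup G) →* MulAut (P3 : Subgroup G) :=
      (MulAut.conjNormal).comp (Q : Subgroup G).subtype
    have hcyc : IsCyclic (P3 : Subgroup G) := isCyclic_of_prime_card (p := 3) (hc3 P3)
    have hAut : Nat.card (MulAut (P3 : Subgroup G)) = 2 := by
      rw [IsCyclic.card_mulAut, hc3, Nat.totient_prime Nat.prime_three]
    have hker : Even (Nat.card f.ker) := by
      have h1 : f.ker.index ∣ 2 := by
        have hd := Subgroup.card_subgroup_dvd_card f.range
        rw [hAut] at hd
        rw [Subgroup.index_ker]; exact hd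
      have h2' := f.ker.card_mul_index
      rw [hc2 Q] at h2'
      have h3' : f.ker.index = 1 ∨ f.ker.index = 2 := by
        have := Nat.le_of_dvd (by norm_num) h1
        have hpos : f.ker.index ≠ 0 := Subgroup.index_ne_zero_of_finite
        omega
      rcases h3' with h | h
      · rw [h] at h2'; exact ⟨2, by omega⟩
      · rw [h] at h2'; exact ⟨1, by omega⟩
    obtain ⟨z, hzk, hz2⟩ := Helper2.exists_involution_of_even f.ker hker
    have hz2' : orderOf ((z : G)) = 2 := by rw [Subgroup.orderOf_coe]; exact hz2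
    apply hz (z : G) hz2'
    rw [Subgroup.mem_center_iff]
    have hle : (P3 : Subgroup G) ⊔ (Q : Subgroup G) ≤ Subgroup.centralizer ({(z : G)} : Set G) := by
      apply sup_le
      · intro p hp
        rw [Helper2.mem_centralizer_singleton]
        have h1 : f z = 1 := hzk
        have h2' : (f z) ⟨p, hp⟩ = ⟨p, hp⟩ := by rw [h1]; rfl
        have h3' : ((f z) ⟨p, hp⟩ : G) = (z : G) * p * (z : G)⁻¹ :=
          MulAut.conjNormal_apply (z : G) ⟨p, hp⟩
        rw [h2'] at h3'
        have h4 : p = (z : G) * p * (z : G)⁻¹ := h3'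
        calc (z : G) * p = ((z : G) * p * (z : G)⁻¹) * z := by group
          _ = p * z := by rw [← h4]
      · intro q hq
        rw [Helper2.mem_centralizer_singleton]
        have hcomm := IsPGroup.commutative_of_card_eq_prime_sq (p := 2) (G := (Q : Subgroup G))
          (by rw [hc2 Q]; norm_num) z ⟨q, hq⟩
        exact congrArg Subtype.val hcomm
    have htop : (P3 : Subgroup G) ⊔ (Q : Subgroup G) = ⊤ := by
      apply Subgroup.eq_top_of_card_eq
      have d3 : 3 ∣ Nat.card ((P3 : Subgroup G) ⊔ (Q : Subgroup G) : Subgroup G) := by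
        have hd := Subgroup.card_dvd_of_le (le_sup_left : (P3 : Subgroup G) ≤ (P3 : Subgroup G) ⊔ (Q : Subgroup G))
        rw [hc3 P3] at hd; exact hd
      have d4 : 4 ∣ Nat.card ((P3 : Subgroup G) ⊔ (Q : Subgroup G) : Subgroup G) := by
        have hd := Subgroup.card_dvd_of_le (le_sup_right : (Q : Subgroup G) ≤ (P3 : Subgroup G) ⊔ (Q : Subgroup G))
        rw [hc2 Q] at hd; exact hd
      have d12 : Nat.card ((P3 : Subgroup G) ⊔ (Q : Subgroup G) : Subgroup G) ∣ 12 := by
        rw [← hG]; exact Subgroup.card_subgroup_dvd_card _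
      have hle := Nat.le_of_dvd (by norm_num) d12
      have hpos : 0 < Nat.card ((P3 : Subgroup G) ⊔ (Q : Subgroup G) : Subgroup G) := Nat.card_pos
      rw [hG]
      obtain ⟨n, hn⟩ : ∃ n, n = Nat.card ((P3 : Subgroup G) ⊔ (Q : Subgroup G) : Subgroup G) := ⟨_, rfl⟩
      rw [← hn] at d3 d4 hle hpos ⊢
      omega
    intro g
    have hg : g ∈ Subgroup.centralizer ({(z : G)} : Set G) := hle (htop ▸ Subgroup.mem_top g)
    rw [Helper2.mem_centralizer_singleton] at hg
    exact hg.symm
  · have hnorm : ∀ P : Sylow 3 G, Subgroup.normalizer ((P : Subgroup G) : Set G) = P := by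
      intro P
      symm
      apply Subgroup.eq_of_le_of_card_ge Subgroup.le_normalizer
      have h1 : Nat.card (Sylow 3 G) = (Subgroup.normalizer ((P : Subgroup G) : Set G)).index :=
        P.card_eq_index_normalizer
      rw [hn4] at h1
      have h2' := (Subgroup.normalizer ((P : Subgroup G) : Set G)).card_mul_index
      rw [← h1, hG] at h2'
      rw [hc3 P]; omega
    obtain ⟨P1, P2, hne⟩ : ∃ P1 P2 : Sylow 3 G, P1 ≠ P2 := by
      have : Nontrivial (Sylow 3 G) := by
        rw [← Finite.one_lt_card_iff_nontrivial, hn4]; norm_num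
      exact exists_pair_ne _
    let φ : G →* Equiv.Perm (Sylow 3 G) := MulAction.toPermHom G (Sylow 3 G)
    have hmem : ∀ g : G, φ g = 1 → ∀ P : Sylow 3 G, g ∈ (P : Subgroup G) := by
      intro g hg P
      have h1 : g • P = P := by
        have := congrArg (fun σ => σ P) hg
        simpa [φ] using this
      have h2' : g ∈ MulAction.stabilizer G P := h1
      have h3' : MulAction.stabilizer G P = Subgroup.normalizer ((P : Subgroup G) : Set G) :=
        Sylow.stabilizer_eq_normalizer P
      rw [h3', hnorm P] at h2'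
      exact h2'
    have hprime : ∀ (P : Sylow 3 G) (g : G), g ∈ (P : Subgroup G) → g ≠ 1 →
        Subgroup.zpowers g = P := by
      intro P g hg hg1
      apply Subgroup.eq_of_le_of_card_ge (by rw [Subgroup.zpowers_le]; exact hg)
      rw [hc3 P, Nat.card_zpowers]
      have h1 : orderOf g ∣ 3 := by
        rw [← hc3 P, ← Subgroup.orderOf_mk g hg]; exact orderOf_dvd_natCard _
      have h2' : orderOf g ≠ 1 := by rwa [Ne, orderOf_eq_one_iff]
      rcases (Nat.dvd_prime Nat.prime_three).mp h1 with h | h
      · exact absurd h h2'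
      · rw [h]
    have hinj : Function.Injective φ := by
      rw [injective_iff_map_eq_one]
      intro g hg
      by_contra hg1
      apply hne
      apply Sylow.ext
      rw [← hprime P1 g (hmem g hg P1) hg1, ← hprime P2 g (hmem g hg P2) hg1]
    let e : Sylow 3 G ≃ Fin 4 := (Finite.equivFin (Sylow 3 G)).trans (finCongr hn4)
    let ψ : G →* Equiv.Perm (Fin 4) :=
      (e.permCongrHom : Equiv.Perm (Sylow 3 G) ≃* Equiv.Perm (Fin 4)).toMonoidHom.comp φ
    have hψ : Function.Injective ψ := fun a b h => hinj (e.permCongrHom.injective h)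
    have hrange : Nat.card ψ.range = 12 := by
      rw [← hG]; exact (Nat.card_congr (MonoidHom.ofInjective hψ).toEquiv).symm
    have hidx : ψ.range.index = 2 := by
      have h1 := ψ.range.card_mul_index
      rw [hrange, Nat.card_eq_fintype_card, Fintype.card_perm, Fintype.card_fin] at h1
      have h4 : (4 : ℕ).factorial = 24 := by decide
      rw [h4] at h1; omega
    have heq := Equiv.Perm.eq_alternatingGroup_of_index_eq_two hidx
    exact ⟨(MonoidHom.ofInjective hψ).trans (MulEquiv.subgroupCongr heq)⟩

end Cfsg.Agent.S0228
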