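import Cfsg.Statements.S0229
import Cfsg.Agent.Helper2.Syl

set_option autoImplicit false
open Cfsg

namespace Cfsg.Agent.S0229

/-- Let t be an involution of a Sylow 2-subgroup S of a finite group G, conjugate in G to no other element of S, and let s be an involution of G not conjugate to t. Then the order of st is twice an odd number. -/
theorem result {G : Type*} [Group G] [Finite G] (S : Sylow 2 G) (t : G) (ht : orderOf t = 2) (htS : t ∈ S) (hiso : ∀ g : G, g * t * g⁻¹ ∈ S → g * t * g⁻¹ = t) (s : G) (hs : orderOf s = 2) (hns : ¬ IsConj s t) : orderOf (s * t) % 4 = 2 := by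
  have hiso' := Helper2.isolated_of_sylow S ht hiso
  have ht2 : t * t = 1 := Helper2.inv_sq_of_orderOf_two ht
  have hs2 : s * s = 1 := Helper2.inv_sq_of_orderOf_two hs
  have hn0 : 0 < orderOf (s * t) := orderOf_pos _
  have hcomm : orderOf (s * t) = orderOf (t * s) := by
    have e : t * (s * t) * t⁻¹ = t * s := by group
    rw [← e, Helper2.orderOf_conj_eq]
  have hodd : ¬ Odd (orderOf (s * t)) := by
    intro hodd
    obtain ⟨d, -, hd⟩ := Cfsg.Agent.S0208.result s t hs ht hodd
    exact hns (isConj_iff.mpr ⟨d, hd⟩)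
  have h4 : ¬ 4 ∣ orderOf (s * t) := by
    rintro ⟨k, hk⟩
    have hk0 : 0 < k := by omega
    have hord : orderOf (t * s) = 4 * k := by rw [← hk, hcomm]
    obtain ⟨r, hr⟩ : ∃ r, r = t * s := ⟨_, rfl⟩
    rw [← hr] at hord
    have hinv : t * r ^ k * t = (r ^ k)⁻¹ := by
      rw [hr]; exact Helper6.inv_mul_inverts_pow ht2 hs2 k
    have hinv2 : t * r ^ (2 * k) * t = (r ^ (2 * k))⁻¹ := by
      rw [hr]; exact Helper6.inv_mul_inverts_pow ht2 hs2 (2 * k)
    have hz2 : r ^ (2 * k) * r ^ (2 * k) = 1 := by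
      rw [← pow_add]
      have : 2 * k + 2 * k = orderOf r := by omega
      rw [this]; exact pow_orderOf_eq_one r
    have hconj : r ^ k * t * (r ^ k)⁻¹ = r ^ (2 * k) * t := by
      have h1 : t * (r ^ k)⁻¹ = r ^ k * t := by
        rw [← hinv]
        calc t * (t * r ^ k * t) = (t * t) * r ^ k * t := by group
          _ = r ^ k * t := by rw [ht2, one_mul]
      calc r ^ k * t * (r ^ k)⁻¹ = r ^ k * (t * (r ^ k)⁻¹) := by group
        _ = r ^ k * (r ^ k * t) := by rw [h1]
        _ = r ^ (2 * k) * t := by rw [two_mul, pow_add, mul_assoc]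
    have hcm : Commute t (r ^ k * t * (r ^ k)⁻¹) := by
      rw [hconj]
      show t * (r ^ (2 * k) * t) = r ^ (2 * k) * t * t
      have e1 : (r ^ (2 * k))⁻¹ = r ^ (2 * k) := inv_eq_of_mul_eq_one_right hz2
      calc t * (r ^ (2 * k) * t) = t * r ^ (2 * k) * t := by group
        _ = r ^ (2 * k) := by rw [hinv2, e1]
        _ = r ^ (2 * k) * (t * t) := by rw [ht2, mul_one]
        _ = r ^ (2 * k) * t * t := by group
    have h5 := hiso'.2 (r ^ k) hcm
    rw [hconj] at h5
    have h6 : r ^ (2 * k) = 1 := mul_right_cancel (h5.trans (one_mul t).symm)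
    have h7 := orderOf_dvd_of_pow_eq_one h6
    rw [hord] at h7
    have := Nat.le_of_dvd (by omega) h7
    omega
  rw [Nat.not_odd_iff_even] at hodd
  obtain ⟨m, hm⟩ := hodd
  omega

end Cfsg.Agent.S0229
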