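import Cfsg.Statements.S0231
import Cfsg.Agent.Helper2.Syl

set_option autoImplicit false
open scoped Pointwise
open Cfsg

namespace Cfsg.Agent.S0231

/-- Let T be a Sylow 2-subgroup of the finite group G which is not normal and which intersects every other Sylow 2-subgroup trivially. Then G has a single conjugacy class of involutions. -/
theorem result {G : Type*} [Group G] [Finite G] (T : Sylow 2 G) (hnn : ¬ (T : Subgroup G).Normal) (hTI : ∀ g : G, MulAut.conj g • (T : Subgroup G) ≠ T → MulAut.conj g • (T : Subgroup G) ⊓ T = ⊥) (s t : G) (hs : orderOf s = 2) (ht : orderOf t = 2) : IsConj s t := by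
  have key : ∀ a b : G, orderOf a = 2 → orderOf b = 2 → Commute a b →
      ∀ h : G, h * a * h⁻¹ ∈ (T : Subgroup G) → h * b * h⁻¹ ∈ (T : Subgroup G) := by
    intro a b ha hb hc h hh
    obtain ⟨k, hk1, hk2⟩ := Helper2.exists_conj_pair_mem_sylow T ha hb hc
    have hx1 : h * a * h⁻¹ ≠ 1 := by
      intro h1
      have := Helper2.orderOf_conj_eq h a
      rw [h1, orderOf_one, ha] at this
      omega
    have hnorm : MulAut.conj (h * k⁻¹) • (T : Subgroup G) = T := by
      by_contra hne
      have hbot := hTI (h * k⁻¹) hne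
      have hmem : h * a * h⁻¹ ∈ MulAut.conj (h * k⁻¹) • (T : Subgroup G) ⊓ T := by
        refine Subgroup.mem_inf.mpr ⟨?_, hh⟩
        rw [Subgroup.mem_pointwise_smul_iff_inv_smul_mem]
        have : (MulAut.conj (h * k⁻¹))⁻¹ • (h * a * h⁻¹) = k * a * k⁻¹ := by
          simp only [MulAut.smul_def, MulAut.conj_inv_apply]
          group
        rw [this]; exact hk1
      rw [hbot, Subgroup.mem_bot] at hmem
      exact hx1 hmem
    rw [← hnorm, Subgroup.mem_pointwise_smul_iff_inv_smul_mem]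
    have : (MulAut.conj (h * k⁻¹))⁻¹ • (h * b * h⁻¹) = k * b * k⁻¹ := by
      simp only [MulAut.smul_def, MulAut.conj_inv_apply]
      group
    rw [this]; exact hk2
  have key2 : ∀ a b : G, orderOf a = 2 → orderOf b = 2 → ¬ IsConj a b →
      ∀ h : G, h * a * h⁻¹ ∈ (T : Subgroup G) → h * b * h⁻¹ ∈ (T : Subgroup G) := by
    intro a b ha hb hnc h hh
    obtain ⟨z, hz, hza, hzb, -⟩ := Helper2.exists_commuting_involution ha hb hnc
    exact key z b hz hb hzb h (key a z ha hz hza.symm h hh)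
  by_contra hnc
  obtain ⟨h0, hh0⟩ := Helper2.exists_conj_mem_sylow_of_involution T hs
  have ht0 := key2 s t hs ht hnc h0 hh0
  obtain ⟨g, hg⟩ : ∃ g : G, MulAut.conj g • (T : Subgroup G) ≠ T := by
    by_contra hall
    push Not at hall
    apply hnn
    constructor
    intro n hn g
    have := hall g
    rw [← this]
    exact Subgroup.smul_mem_pointwise_smul n (MulAut.conj g) (T : Subgroup G) hn
  have hs1 : orderOf (g * (h0 * s * h0⁻¹) * g⁻¹) = 2 := by
    rw [Helper2.orderOf_conj_eq, Helper2.orderOf_conj_eq]; exact hs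
  have ht1 : orderOf (h0 * t * h0⁻¹) = 2 := by
    rw [Helper2.orderOf_conj_eq]; exact ht
  have hnc1 : ¬ IsConj (h0 * t * h0⁻¹) (g * (h0 * s * h0⁻¹) * g⁻¹) := by
    intro hc
    apply hnc
    have c1 : IsConj t (h0 * t * h0⁻¹) := isConj_iff.mpr ⟨h0, rfl⟩
    have c2 : IsConj s (g * (h0 * s * h0⁻¹) * g⁻¹) := isConj_iff.mpr ⟨g * h0, by group⟩
    exact c2.trans (hc.symm.trans c1.symm)
  have hmemT := key2 _ _ ht1 hs1 hnc1 1 (by simpa using ht0)
  have hmemT' : g * (h0 * s * h0⁻¹) * g⁻¹ ∈ (T : Subgroup G) := by simpa using hmemT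
  have hbot := hTI g hg
  have hmem : g * (h0 * s * h0⁻¹) * g⁻¹ ∈ MulAut.conj g • (T : Subgroup G) ⊓ T := by
    refine Subgroup.mem_inf.mpr ⟨?_, hmemT'⟩
    exact Subgroup.smul_mem_pointwise_smul _ (MulAut.conj g) (T : Subgroup G) hh0
  rw [hbot, Subgroup.mem_bot] at hmem
  rw [hmem, orderOf_one] at hs1
  omega

end Cfsg.Agent.S0231
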