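import Cfsg.Statements.S0235
import Cfsg.Agent.Helper2.Inv

set_option autoImplicit false
open Cfsg

namespace Cfsg.Agent.S0235

/-- If x² ≠ 1, the ordered pairs (u, v) of involutions with uv = x correspond bijectively to the involutions t with t x t⁻¹ = x⁻¹ (via (u, v) ↦ u), so the two counts agree. -/
theorem result {G : Type*} [Group G] [Finite G] (x : G) (hx : x ^ 2 ≠ 1) : Nat.card {p : G × G // orderOf p.1 = 2 ∧ orderOf p.2 = 2 ∧ p.1 * p.2 = x} = Nat.card {t : G // orderOf t = 2 ∧ t * x * t⁻¹ = x⁻¹} := by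
  apply Nat.card_congr
  refine
    { toFun := fun p => ⟨p.1.1, p.2.1, ?_⟩
      invFun := fun t => ⟨(t.1, t.1⁻¹ * x), t.2.1, ?_, ?_⟩
      left_inv := ?_
      right_inv := ?_ }
  · obtain ⟨⟨u, v⟩, hu, hv, huv⟩ := p
    have hu2 := (Helper2.orderOf_eq_two_iff'.1 hu).1
    have hv2 := (Helper2.orderOf_eq_two_iff'.1 hv).1
    have huinv : u⁻¹ = u := inv_eq_of_mul_eq_one_left hu2
    have hvinv : v⁻¹ = v := inv_eq_of_mul_eq_one_left hv2
    show u * x * u⁻¹ = x⁻¹
    rw [← huv, mul_inv_rev, huinv, hvinv, ← mul_assoc, hu2, one_mul]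
  · obtain ⟨t, ht, htx⟩ := t
    have ht2 := (Helper2.orderOf_eq_two_iff'.1 ht).1
    have htinv : t⁻¹ = t := inv_eq_of_mul_eq_one_left ht2
    show orderOf (t⁻¹ * x) = 2
    rw [Helper2.orderOf_eq_two_iff']
    constructor
    · rw [htinv]
      have : t * x * (t * x) = (t * x * t⁻¹) * x := by rw [htinv]; group
      rw [this, htx, inv_mul_cancel]
    · intro h1
      apply hx
      have : x = t := by
        have := congrArg (fun y => t * y) h1
        simpa using this
      rw [this, pow_two, ht2]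
  · show t.1 * (t.1⁻¹ * x) = x
    group
  · rintro ⟨⟨u, v⟩, hu, hv, huv⟩
    apply Subtype.ext
    show (u, u⁻¹ * x) = (u, v)
    rw [← huv]
    congr 1
    group
  · rintro ⟨t, ht, htx⟩
    rfl

end Cfsg.Agent.S0235
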