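import Cfsg.Statements.S0236
import Cfsg.Agent.Helper2.Inv

set_option autoImplicit false
open Cfsg

namespace Cfsg.Agent.S0236

/-- If x is an involution, the number of ordered pairs (u, v) of involutions with uv = x, plus one, equals the number of involutions in the centralizer of x. -/
theorem result {G : Type*} [Group G] [Finite G] (x : G) (hx : orderOf x = 2) : Nat.card {p : G × G // orderOf p.1 = 2 ∧ orderOf p.2 = 2 ∧ p.1 * p.2 = x} + 1 = Nat.card {t : G // orderOf t = 2 ∧ Commute t x} := by
  have hx2 := (Helper2.orderOf_eq_two_iff'.1 hx).1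
  have hx1 := (Helper2.orderOf_eq_two_iff'.1 hx).2
  have hxinv : x⁻¹ = x := inv_eq_of_mul_eq_one_left hx2
  rw [← Finite.card_option]
  apply Nat.card_congr
  classical
  refine
    { toFun := fun o => match o with
        | none => ⟨x, hx, Commute.refl x⟩
        | some p => ⟨p.1.1, p.2.1, ?_⟩
      invFun := fun t => if h : t.1 = x then none else some ⟨(t.1, t.1⁻¹ * x), t.2.1, ?_, ?_⟩
      left_inv := ?_
      right_inv := ?_ }
  · obtain ⟨⟨u, v⟩, hu, hv, huv⟩ := p
    have hu2 := (Helper2.orderOf_eq_two_iff'.1 hu).1
    have hv2 := (Helper2.orderOf_eq_two_iff'.1 hv).1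
    have huinv : u⁻¹ = u := inv_eq_of_mul_eq_one_left hu2
    have hvinv : v⁻¹ = v := inv_eq_of_mul_eq_one_left hv2
    show u * x = x * u
    have h1 : u * v * (u * v) = 1 := by rw [huv]; exact hx2
    have h2 : u * v * u = v := by
      have : u * v * u = (u * v * (u * v)) * v⁻¹ := by group
      rw [this, h1, one_mul, hvinv]
    rw [← huv, h2, ← mul_assoc, hu2, one_mul]
  · obtain ⟨t, ht, htx⟩ := t
    have ht2 := (Helper2.orderOf_eq_two_iff'.1 ht).1
    have htinv : t⁻¹ = t := inv_eq_of_mul_eq_one_left ht2
    show orderOf (t⁻¹ * x) = 2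
    rw [Helper2.orderOf_eq_two_iff']
    constructor
    · rw [htinv]
      have e : t * x = x * t := htx
      calc t * x * (t * x) = t * (x * t) * x := by group
        _ = t * (t * x) * x := by rw [e]
        _ = (t * t) * (x * x) := by group
        _ = 1 := by rw [ht2, hx2, one_mul]
    · intro h1
      apply h
      have : x = t := by
        have := congrArg (fun y => t * y) h1
        simpa using this
      exact this.symm
  · show t.1 * (t.1⁻¹ * x) = x
    group
  · rintro (_ | ⟨⟨u, v⟩, hu, hv, huv⟩)
    · simp
    · have hv1 := (Helper2.orderOf_eq_two_iff'.1 hv).2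
      have hne : u ≠ x := by
        intro h
        apply hv1
        rw [h] at huv
        simpa using huv
      simp only [hne, dite_false, Option.some.injEq]
      apply Subtype.ext
      show (u, u⁻¹ * x) = (u, v)
      rw [← huv]
      congr 1
      group
  · rintro ⟨t, ht, htx⟩
    by_cases h : t = x
    · subst h
      simp
    · simp [h]

end Cfsg.Agent.S0236
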