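import Cfsg.Statements.S0237
import Cfsg.Agent.Helper2.Inv

set_option autoImplicit false
open Cfsg

namespace Cfsg.Agent.S0237

/-- If x is real (conjugate to x⁻¹) in a finite group G, the number of g with g x g⁻¹ = x⁻¹ equals |C_G(x)|. -/
theorem result {G : Type*} [Group G] [Finite G] (x : G) (hreal : IsConj x x⁻¹) : Nat.card {g : G // g * x * g⁻¹ = x⁻¹} = Nat.card (Subgroup.centralizer ({x} : Set G)) := by
  obtain ⟨c, hc⟩ := isConj_iff.1 hreal
  symm
  apply Nat.card_congr
  refine
    { toFun := fun z => ⟨c * z.1, ?_⟩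
      invFun := fun g => ⟨c⁻¹ * g.1, ?_⟩
      left_inv := ?_
      right_inv := ?_ }
  · have hz := Helper2.mem_centralizer_singleton.1 z.2
    have : c * z.1 * x * (c * z.1)⁻¹ = c * (z.1 * x) * z.1⁻¹ * c⁻¹ := by group
    rw [this, ← hz, ← hc]; group
  · rw [Helper2.mem_centralizer_singleton]
    have hg := g.2
    have h1 : g.1 * x = x⁻¹ * g.1 := by
      have : g.1 * x = (g.1 * x * g.1⁻¹) * g.1 := by group
      rw [this, hg]
    have h2 : c * x = x⁻¹ * c := by
      have : c * x = (c * x * c⁻¹) * c := by group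
      rw [this, hc]
    have h3 : x * c⁻¹ = c⁻¹ * x⁻¹ := by
      have : x * c⁻¹ = c⁻¹ * (c * x) * c⁻¹ := by group
      rw [this, h2]; group
    calc x * (c⁻¹ * g.1) = (x * c⁻¹) * g.1 := by group
      _ = c⁻¹ * (x⁻¹ * g.1) := by rw [h3]; group
      _ = c⁻¹ * g.1 * x := by rw [← h1]; group
  · intro z
    apply Subtype.ext
    show c⁻¹ * (c * z.1) = z.1
    group
  · intro g
    apply Subtype.ext
    show c * (c⁻¹ * g.1) = g.1
    group

end Cfsg.Agent.S0237
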