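import Cfsg.Statements.S0238
import Cfsg.Agent.Helper2.Inv
import Cfsg.Agent.S0236
import Cfsg.Agent.S0237

set_option autoImplicit false
open Cfsg

namespace Cfsg.Agent.S0238

/-- For every x in a finite group G, the number c of ordered pairs (u, v) of involutions with uv = x is at most |C_G(x)|; c = 0 when x is not conjugate to x⁻¹; and c + 2 ≤ |C_G(x)| when x is an involution. -/
theorem result {G : Type*} [Group G] [Finite G] (x : G) : Nat.card {p : G × G // orderOf p.1 = 2 ∧ orderOf p.2 = 2 ∧ p.1 * p.2 = x} ≤ Nat.card (Subgroup.centralizer ({x} : Set G)) ∧ (¬ IsConj x x⁻¹ → Nat.card {p : G × G // orderOf p.1 = 2 ∧ orderOf p.2 = 2 ∧ p.1 * p.2 = x} = 0) ∧ (orderOf x = 2 → Nat.card {p : G × G // orderOf p.1 = 2 ∧ orderOf p.2 = 2 ∧ p.1 * p.2 = x} + 2 ≤ Nat.card (Subgroup.centralizer ({x} : Set G))) := by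
  have F : ∀ p : {p : G × G // orderOf p.1 = 2 ∧ orderOf p.2 = 2 ∧ p.1 * p.2 = x},
      p.1.1 * x * p.1.1⁻¹ = x⁻¹ := by
    rintro ⟨⟨u, v⟩, hu, hv, huv⟩
    have hu2 := (Helper2.orderOf_eq_two_iff'.1 hu).1
    have hv2 := (Helper2.orderOf_eq_two_iff'.1 hv).1
    have huinv : u⁻¹ = u := inv_eq_of_mul_eq_one_left hu2
    have hvinv : v⁻¹ = v := inv_eq_of_mul_eq_one_left hv2
    show u * x * u⁻¹ = x⁻¹
    rw [← huv, mul_inv_rev, huinv, hvinv, ← mul_assoc, hu2, one_mul]
  have h2 : ¬ IsConj x x⁻¹ →
      Nat.card {p : G × G // orderOf p.1 = 2 ∧ orderOf p.2 = 2 ∧ p.1 * p.2 = x} = 0 := by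
    intro hnr
    have : IsEmpty {p : G × G // orderOf p.1 = 2 ∧ orderOf p.2 = 2 ∧ p.1 * p.2 = x} :=
      ⟨fun p => hnr (isConj_iff.2 ⟨p.1.1, F p⟩)⟩
    exact Nat.card_of_isEmpty
  refine ⟨?_, h2, ?_⟩
  · by_cases hreal : IsConj x x⁻¹
    · rw [← Cfsg.Agent.S0237.result x hreal]
      apply Nat.card_le_card_of_injective
        (fun p : {p : G × G // orderOf p.1 = 2 ∧ orderOf p.2 = 2 ∧ p.1 * p.2 = x} =>
          (⟨p.1.1, F p⟩ : {g : G // g * x * g⁻¹ = x⁻¹}))
      rintro ⟨⟨u, v⟩, hu, hv, huv⟩ ⟨⟨u', v'⟩, hu', hv', huv'⟩ h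
      have huu : u = u' := congrArg Subtype.val h
      apply Subtype.ext
      show (u, v) = (u', v')
      have hvv : v = v' := by
        have h1 : v = u⁻¹ * x := by rw [← huv]; group
        have h2 : v' = u'⁻¹ * x := by rw [← huv']; group
        rw [h1, h2, huu]
      rw [huu, hvv]
    · rw [h2 hreal]; exact Nat.zero_le _
  · intro hx
    have h1 := Cfsg.Agent.S0236.result x hx
    have h3 : Nat.card {t : G // orderOf t = 2 ∧ Commute t x} + 1 ≤
        Nat.card (Subgroup.centralizer ({x} : Set G)) := by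
      rw [← Finite.card_option]
      apply Nat.card_le_card_of_injective
        (fun o : Option {t : G // orderOf t = 2 ∧ Commute t x} =>
          (Option.elim o (1 : Subgroup.centralizer ({x} : Set G))
            (fun t => ⟨t.1, Helper2.mem_centralizer_singleton.2 t.2.2.eq.symm⟩)))
      intro a b hab
      cases a with
      | none =>
        cases b with
        | none => rfl
        | some t =>
          exfalso
          have hab' : (1 : Subgroup.centralizer ({x} : Set G)) =
              ⟨t.1, Helper2.mem_centralizer_singleton.2 t.2.2.eq.symm⟩ := hab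
          have : (1 : G) = t.1 := congrArg (fun z : Subgroup.centralizer ({x} : Set G) => (z : G)) hab'
          exact (Helper2.orderOf_eq_two_iff'.1 t.2.1).2 this.symm
      | some t =>
        cases b with
        | none =>
          exfalso
          have hab' : (⟨t.1, Helper2.mem_centralizer_singleton.2 t.2.2.eq.symm⟩ :
              Subgroup.centralizer ({x} : Set G)) = 1 := hab
          have : t.1 = (1 : G) := congrArg (fun z : Subgroup.centralizer ({x} : Set G) => (z : G)) hab'
          exact (Helper2.orderOf_eq_two_iff'.1 t.2.1).2 this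
        | some t' =>
          have hab' : (⟨t.1, Helper2.mem_centralizer_singleton.2 t.2.2.eq.symm⟩ :
              Subgroup.centralizer ({x} : Set G)) =
              ⟨t'.1, Helper2.mem_centralizer_singleton.2 t'.2.2.eq.symm⟩ := hab
          have : t.1 = t'.1 := Subtype.mk.inj hab'
          exact congrArg some (Subtype.ext this)
    omega

end Cfsg.Agent.S0238
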