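import Cfsg.Statements.S0239
import Cfsg.Agent.Helper2.Inv

set_option autoImplicit false
open Cfsg

namespace Cfsg.Agent.S0239

/-- If some nontrivial element x of a finite group G is conjugate to x⁻¹, then |G| is even. -/
theorem result {G : Type*} [Group G] [Finite G] (x : G) (hx : x ≠ 1) (hreal : IsConj x x⁻¹) : Even (Nat.card G) := by
  by_contra hodd
  rw [Nat.not_even_iff_odd] at hodd
  obtain ⟨c, hc⟩ := isConj_iff.1 hreal
  have h2 : c * x = x⁻¹ * c := by
    have : c * x = (c * x * c⁻¹) * c := by group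
    rw [this, hc]
  have hs1 : SemiconjBy c x x⁻¹ := h2
  have hs2 : SemiconjBy c x⁻¹ x := by
    have := hs1.inv_right
    rwa [inv_inv] at this
  have hs3 : SemiconjBy (c * c) x x := hs2.mul_left hs1
  -- the order of `c` is odd
  have hco : Odd (orderOf c) := by
    have hdvd : orderOf c ∣ Nat.card G := orderOf_dvd_natCard c
    exact Odd.of_dvd_nat hodd hdvd
  obtain ⟨k, hk⟩ := hco
  have hck : c = (c * c) ^ (k + 1) := by
    have h1 : c ^ (2 * k + 1) = 1 := by rw [← hk]; exact pow_orderOf_eq_one c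
    have h3 : (c * c) ^ (k + 1) = c ^ (2 * k + 1) * c := by
      rw [← pow_two, ← pow_mul, ← pow_succ]
      congr 1
    rw [h3, h1, one_mul]
  have hs4 : SemiconjBy c x x := by
    rw [hck]
    exact (show Commute (c * c) x from hs3).pow_left (k + 1)
  have hxx : x⁻¹ = x := by
    have h5 : x⁻¹ * c = x * c := by rw [← h2]; exact hs4.eq
    exact mul_right_cancel h5
  have hx2 : orderOf x = 2 := by
    rw [Helper2.orderOf_eq_two_iff']
    refine ⟨?_, hx⟩
    have : x * x = x * x⁻¹ := by rw [hxx]
    rw [this, mul_inv_cancel]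
  have hdvd : 2 ∣ Nat.card G := hx2 ▸ orderOf_dvd_natCard x
  exact (Nat.not_even_iff_odd.2 hodd) (even_iff_two_dvd.2 hdvd)

end Cfsg.Agent.S0239
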