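import Cfsg.Statements.S0240
import Cfsg.Agent.Helper2.Inv

set_option autoImplicit false
open Cfsg

namespace Cfsg.Agent.S0240

/-- Let G be a finite group with n involutions and H a subgroup with |H|·(n+1) > |G|. Then some nontrivial h ∈ H is strongly real in G: an involution t of G satisfies t h t⁻¹ = h⁻¹. -/
theorem result {G : Type*} [Group G] [Finite G] (H : Subgroup G) (hH : Nat.card G < Nat.card H * (Nat.card {t : G // orderOf t = 2} + 1)) : ∃ h : G, h ∈ H ∧ h ≠ 1 ∧ ∃ t : G, orderOf t = 2 ∧ t * h * t⁻¹ = h⁻¹ := by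
  classical
  let φ : Option {t : G // orderOf t = 2} → G := fun o => Option.elim o 1 (fun t => t.1)
  have hφsq : ∀ o, φ o * φ o = 1 := by
    intro o
    cases o with
    | none => exact one_mul 1
    | some t => exact (Helper2.orderOf_eq_two_iff'.1 t.2).1
  have hφo : ∀ o, φ o = 1 ∨ orderOf (φ o) = 2 := by
    intro o
    cases o with
    | none => exact Or.inl rfl
    | some t => exact Or.inr t.2
  have hφinj : Function.Injective φ := by
    intro a b hab
    cases a with
    | none =>
      cases b with
      | none => rfl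
      | some t => exact absurd hab.symm (Helper2.orderOf_eq_two_iff'.1 t.2).2
    | some t =>
      cases b with
      | none => exact absurd hab (Helper2.orderOf_eq_two_iff'.1 t.2).2
      | some t' => exact congrArg some (Subtype.ext hab)
  let f : Option {t : G // orderOf t = 2} × H → G := fun p => φ p.1 * (p.2 : G)
  have hcard : Nat.card G < Nat.card (Option {t : G // orderOf t = 2} × H) := by
    rw [Nat.card_prod, Finite.card_option, mul_comm]
    exact hH
  have hninj : ¬ Function.Injective f := fun hinj =>
    absurd (Nat.card_le_card_of_injective f hinj) (not_le.2 hcard)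
  obtain ⟨p, q, hfpq, hpq⟩ := Function.not_injective_iff.1 hninj
  obtain ⟨a, h⟩ := p
  obtain ⟨b, h'⟩ := q
  have heq : φ a * (h : G) = φ b * (h' : G) := hfpq
  have ht := hφsq a
  have ht' := hφsq b
  have htinv : (φ a)⁻¹ = φ a := inv_eq_of_mul_eq_one_left ht
  have ht'inv : (φ b)⁻¹ = φ b := inv_eq_of_mul_eq_one_left ht'
  have hne' : φ a ≠ φ b := by
    intro h2
    apply hpq
    have hab : a = b := hφinj h2
    have hh : (h : G) = h' := by
      rw [h2] at heq
      exact mul_left_cancel heq
    rw [hab, Subtype.ext hh]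
  have hy : (h : G) * (h' : G)⁻¹ = φ a * φ b := by
    have : (h : G) = (φ a)⁻¹ * (φ a * (h : G)) := by group
    rw [this, heq, htinv]; group
  refine ⟨(h : G) * (h' : G)⁻¹, H.mul_mem h.2 (H.inv_mem h'.2), ?_, ?_⟩
  · rw [hy]
    intro h1
    apply hne'
    have : φ b = (φ a)⁻¹ := by
      have := congrArg (fun y => (φ a)⁻¹ * y) h1
      simpa using this
    rw [this, htinv]
  · rw [hy]
    rcases hφo a with h1 | h1
    · rcases hφo b with h2 | h2
      · exact absurd (h1.trans h2.symm) hne'
      · refine ⟨φ b, h2, ?_⟩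
        rw [h1, one_mul, mul_inv_cancel_right, ht'inv]
    · refine ⟨φ a, h1, ?_⟩
      rw [mul_inv_rev, htinv, ht'inv]
      calc φ a * (φ a * φ b) * φ a = (φ a * φ a) * φ b * φ a := by group
        _ = φ b * φ a := by rw [ht, one_mul]

end Cfsg.Agent.S0240
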