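import Cfsg.Statements.S0241
import Cfsg.Agent.Helper2.Inv

set_option autoImplicit false
open Cfsg

namespace Cfsg.Agent.S0241

/-- If x ≠ 1 is conjugate to x⁻¹ in a finite group G and |C_G(x)| is odd, then some involution t satisfies t x t⁻¹ = x⁻¹. -/
theorem result {G : Type*} [Group G] [Finite G] (x : G) (hx : x ≠ 1) (hreal : IsConj x x⁻¹) (hodd : Odd (Nat.card (Subgroup.centralizer ({x} : Set G)))) : ∃ t : G, orderOf t = 2 ∧ t * x * t⁻¹ = x⁻¹ := by
  obtain ⟨c, hc⟩ := isConj_iff.1 hreal
  have h2 : c * x = x⁻¹ * c := by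
    have : c * x = (c * x * c⁻¹) * c := by group
    rw [this, hc]
  have hs1 : SemiconjBy c x x⁻¹ := h2
  have hs2 : SemiconjBy c x⁻¹ x := by
    have := hs1.inv_right
    rwa [inv_inv] at this
  have hs3 : SemiconjBy (c * c) x x := hs2.mul_left hs1
  have hccC : c * c ∈ Subgroup.centralizer ({x} : Set G) := by
    rw [Helper2.mem_centralizer_singleton]; exact hs3.eq.symm
  -- order of `c * c` is odd
  have hbo : Odd (orderOf (c * c)) := by
    have h3 : orderOf (⟨c * c, hccC⟩ : Subgroup.centralizer ({x} : Set G)) ∣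
        Nat.card (Subgroup.centralizer ({x} : Set G)) := orderOf_dvd_natCard _
    rw [Subgroup.orderOf_mk] at h3
    exact Odd.of_dvd_nat hodd h3
  obtain ⟨k, hk⟩ := hbo
  -- `t = c ^ (2k+1)`
  have hs4 : SemiconjBy ((c * c) ^ k) x⁻¹ x⁻¹ := (show Commute (c * c) x⁻¹ from hs3.inv_right).pow_left k
  have hs5 : SemiconjBy ((c * c) ^ k * c) x x⁻¹ := hs4.mul_left hs1
  have ht2 : ((c * c) ^ k * c) * ((c * c) ^ k * c) = 1 := by
    have h4 : (c * c) ^ (2 * k + 1) = 1 := by rw [← hk]; exact pow_orderOf_eq_one _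
    have hcomm : Commute ((c * c) ^ k) c := by
      apply Commute.pow_left
      show c * c * c = c * (c * c)
      group
    calc ((c * c) ^ k * c) * ((c * c) ^ k * c) = (c * c) ^ k * (c * (c * c) ^ k) * c := by group
      _ = (c * c) ^ k * ((c * c) ^ k * c) * c := by rw [hcomm.eq]
      _ = (c * c) ^ (2 * k + 1) := by
        rw [two_mul, pow_succ, pow_add]; group
      _ = 1 := h4
  have hxx : x⁻¹ ≠ x := by
    intro hxx
    have hx2 : orderOf x = 2 := by
      rw [Helper2.orderOf_eq_two_iff']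
      refine ⟨?_, hx⟩
      have : x * x = x * x⁻¹ := by rw [hxx]
      rw [this, mul_inv_cancel]
    have hxC : x ∈ Subgroup.centralizer ({x} : Set G) := by
      rw [Helper2.mem_centralizer_singleton]
    have := Helper2.even_card_of_involution_mem hxC hx2
    exact (Nat.not_even_iff_odd.2 hodd) this
  refine ⟨(c * c) ^ k * c, ?_, ?_⟩
  · rw [Helper2.orderOf_eq_two_iff']
    refine ⟨ht2, ?_⟩
    intro h1
    rw [h1] at hs5
    have : x = x⁻¹ := by
      have := hs5.eq
      simpa using this
    exact hxx this.symm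
  · have := hs5.eq
    rw [this]; group

end Cfsg.Agent.S0241
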