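import Mathlib
import Cfsg.Statements.S0244

set_option autoImplicit false
open Cfsg

namespace Cfsg.Agent.S0244

/-- Sp_2 = SL_2: a matrix on Fin 1 ⊕ Fin 1 lies in Mathlib's symplectic group iff its determinant is 1. -/
theorem result {R : Type*} [CommRing R] (A : Matrix (Fin 1 ⊕ Fin 1) (Fin 1 ⊕ Fin 1) R) : A ∈ Matrix.symplecticGroup (Fin 1) R ↔ A.det = 1 := by
  let e : Fin 2 ≃ Fin 1 ⊕ Fin 1 :=
    { toFun := ![Sum.inl 0, Sum.inr 0]
      invFun := Sum.elim (fun _ => 0) (fun _ => 1)
      left_inv := fun i => by fin_cases i <;> rfl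
      right_inv := fun x => by
        rcases x with i | i
        · obtain rfl : i = 0 := Subsingleton.elim _ _; rfl
        · obtain rfl : i = 0 := Subsingleton.elim _ _; rfl }
  have hdet : A.det = A (Sum.inl 0) (Sum.inl 0) * A (Sum.inr 0) (Sum.inr 0) -
      A (Sum.inl 0) (Sum.inr 0) * A (Sum.inr 0) (Sum.inl 0) := by
    rw [← Matrix.det_submatrix_equiv_self e A, Matrix.det_fin_two]
    rfl
  have hentry : ∀ i k : Fin 1 ⊕ Fin 1, (A * Matrix.J (Fin 1) R * A.transpose) i k =
      -(A i (Sum.inl 0) * A k (Sum.inr 0)) + A i (Sum.inr 0) * A k (Sum.inl 0) := by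
    intro i k
    simp [Matrix.mul_apply, Fintype.sum_sum_type, Matrix.J] <;> ring
  have hJ11 : Matrix.J (Fin 1) R (Sum.inl 0) (Sum.inl 0) = 0 := by simp [Matrix.J]
  have hJ12 : Matrix.J (Fin 1) R (Sum.inl 0) (Sum.inr 0) = -1 := by simp [Matrix.J]
  have hJ21 : Matrix.J (Fin 1) R (Sum.inr 0) (Sum.inl 0) = 1 := by simp [Matrix.J]
  have hJ22 : Matrix.J (Fin 1) R (Sum.inr 0) (Sum.inr 0) = 0 := by simp [Matrix.J]
  rw [SymplecticGroup.mem_iff, hdet]
  constructor
  · intro h
    have h1 := congrFun (congrFun h (Sum.inr 0)) (Sum.inl 0)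
    rw [hentry, hJ21] at h1
    linear_combination h1
  · intro h
    ext i k
    rw [hentry]
    rcases i with i | i <;> rcases k with k | k
    · obtain rfl : i = 0 := Subsingleton.elim _ _
      obtain rfl : k = 0 := Subsingleton.elim _ _
      rw [hJ11]; ring
    · obtain rfl : i = 0 := Subsingleton.elim _ _
      obtain rfl : k = 0 := Subsingleton.elim _ _
      rw [hJ12]; linear_combination -h
    · obtain rfl : i = 0 := Subsingleton.elim _ _
      obtain rfl : k = 0 := Subsingleton.elim _ _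
      rw [hJ21]; linear_combination h
    · obtain rfl : i = 0 := Subsingleton.elim _ _
      obtain rfl : k = 0 := Subsingleton.elim _ _
      rw [hJ22]; ring

end Cfsg.Agent.S0244
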