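import Cfsg.Statements.S0247
import Mathlib
import Cfsg.Agent.Helper2.SymSp
import Cfsg.Agent.S0245

set_option autoImplicit false
open Cfsg

namespace Cfsg.Agent.S0247

/-- Sp_4(2) is isomorphic to the symmetric group S_6. -/
theorem result {F : Type*} [Field F] [Fintype F] (hF : Fintype.card F = 2) : Nonempty (Matrix.symplecticGroup (Fin 2) F ≃* Equiv.Perm (Fin 6)) := by
  classical
  have h2 : (2 : F) = 0 := by
    have h := FiniteField.cast_card_eq_zero F
    rw [hF] at h
    exact_mod_cast h
  obtain ⟨f, hf⟩ : ∃ f : Equiv.Perm (Fin 6) →* Matrix.symplecticGroup (Fin 2) F,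
      Function.Injective f := Cfsg.Agent.Helper2.SymSp.exists_hom_fin 3 le_rfl F h2
  have hc1 : Nat.card (Equiv.Perm (Fin 6)) = 720 := by
    rw [Nat.card_eq_fintype_card, Fintype.card_perm, Fintype.card_fin]
    rfl
  have hc2 : Nat.card (Matrix.symplecticGroup (Fin 2) F) = 720 := by
    rw [Cfsg.Agent.S0245.result hF 2]
    norm_num [Finset.prod_range_succ]
  have hbij : Function.Bijective f :=
    Function.Injective.bijective_of_nat_card_le hf (by rw [hc1, hc2])
  exact ⟨(MulEquiv.ofBijective f hbij).symm⟩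

end Cfsg.Agent.S0247
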