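import Cfsg.Statements.S0250
import Cfsg.Agent.Helper2.SLCard

set_option autoImplicit false
open Cfsg

namespace Cfsg.Agent.S0250

/-- SL_2(2) is isomorphic to S_3. -/
theorem result {F : Type*} [Field F] [Fintype F] (hF : Fintype.card F = 2) : Nonempty (Matrix.SpecialLinearGroup (Fin 2) F ≃* Equiv.Perm (Fin 3)) := by
  classical
  let S : SubMulAction (Matrix.SpecialLinearGroup (Fin 2) F) (Fin 2 → F) :=
    { carrier := {v | v ≠ 0}
      smul_mem' := by
        intro g v hv hgv
        apply hv
        have h1 : g⁻¹ • (g • v) = v := inv_smul_smul g v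
        rw [← h1, hgv, smul_zero] }
  let φ : Matrix.SpecialLinearGroup (Fin 2) F →* Equiv.Perm S :=
    MulAction.toPermHom (Matrix.SpecialLinearGroup (Fin 2) F) S
  have hinj : Function.Injective φ := by
    rw [injective_iff_map_eq_one]
    intro g hg
    have hfix : ∀ v : Fin 2 → F, v ≠ 0 → g • v = v := by
      intro v hv
      have h1 := congrArg (fun σ : Equiv.Perm S => ((σ ⟨v, hv⟩ : S) : Fin 2 → F)) hg
      exact h1
    apply Matrix.SpecialLinearGroup.ext
    intro i j
    have hne : (Pi.single j 1 : Fin 2 → F) ≠ 0 := by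
      intro h
      have h1 := congrFun h j
      simp at h1
    have h1 := hfix (Pi.single j 1) hne
    have h2 : g.1 i j = if i = j then 1 else 0 := by
      have h3 := congrFun h1 i
      rw [Matrix.SpecialLinearGroup.smul_def, Matrix.smul_eq_mulVec, Matrix.mulVec_single_one] at h3
      rw [Pi.single_apply] at h3
      exact h3
    rw [Matrix.SpecialLinearGroup.coe_one, Matrix.one_apply]
    exact h2
  have hS3 : Nat.card S = 3 := by
    have h := Nat.card_congr (Equiv.optionSubtypeNe (0 : Fin 2 → F))
    rw [Finite.card_option, Nat.card_eq_fintype_card (α := Fin 2 → F), Fintype.card_fun,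
      Fintype.card_fin, hF] at h
    have h4 : (2 : ℕ) ^ 2 = 4 := by norm_num
    rw [h4] at h
    show Nat.card {b : Fin 2 → F // b ≠ 0} = 3
    omega
  have h6 : Nat.card (Matrix.SpecialLinearGroup (Fin 2) F) = 6 := by
    have h := Cfsg.Agent.Helper2.SLCard.card_SL_mul F 2 (by norm_num)
    rw [Matrix.card_GL_field, Fin.prod_univ_two, hF] at h
    simpa using h
  have hP6 : Nat.card (Equiv.Perm (Fin 3)) = 6 := by
    rw [Nat.card_eq_fintype_card, Fintype.card_perm, Fintype.card_fin]
    rfl
  let e : S ≃ Fin 3 := Finite.equivFinOfCardEq hS3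
  let ψ : Matrix.SpecialLinearGroup (Fin 2) F →* Equiv.Perm (Fin 3) :=
    (e.permCongrHom.toMonoidHom).comp φ
  have hψ : Function.Injective ψ := e.permCongrHom.injective.comp hinj
  have hbij : Function.Bijective ψ :=
    hψ.bijective_of_nat_card_le (by rw [h6, hP6])
  exact ⟨MulEquiv.ofBijective ψ hbij⟩

end Cfsg.Agent.S0250
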