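import Cfsg.Statements.S0251
import Cfsg.Agent.Helper12.A4PSL
import Cfsg.Agent.Helper12.SL2Card

set_option autoImplicit false
open Cfsg

namespace Cfsg.Agent.S0251

open Cfsg.Agent.Helper12

/-- PSL_2(3) is isomorphic to A_4. -/
theorem result {F : Type*} [Field F] [Fintype F] (hF : Fintype.card F = 3) : Nonempty (Matrix.ProjectiveSpecialLinearGroup (Fin 2) F ≃* alternatingGroup (Fin 4)) := by
  have hodd : Odd (Fintype.card F) := by rw [hF]; decide
  obtain ⟨H, ⟨e⟩⟩ := psl2_exists_a4_of_odd hodd
  have hA : Nat.card (alternatingGroup (Fin 4)) = 12 := by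
    rw [nat_card_alternatingGroup, Nat.card_eq_fintype_card, Fintype.card_fin]
    decide
  have hH : Nat.card H = 12 := by rw [Nat.card_congr e.toEquiv, hA]
  have hG : Nat.card (Matrix.ProjectiveSpecialLinearGroup (Fin 2) F) = 12 := by
    have h1 := psl2_card_odd (F := F) (two_ne_zero_of_odd hodd)
    rw [hF] at h1
    omega
  have htop : H = ⊤ := (Subgroup.card_eq_iff_eq_top H).mp (by rw [hH, hG])
  exact ⟨(Subgroup.topEquiv.symm.trans (MulEquiv.subgroupCongr htop.symm)).trans e⟩

end Cfsg.Agent.S0251
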