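import Cfsg.Statements.S0494
import Mathlib

set_option autoImplicit false
open Cfsg

namespace Cfsg.Agent.S0494

/-- A simple group of order 60 is isomorphic to the alternating group of degree 5. -/
theorem result {G : Type*} [Group G] [Finite G] [IsSimpleGroup G]
    (h : Nat.card G = 60) : Nonempty (G ≃* alternatingGroup (Fin 5)) := by
  classical
  haveI : Fact (Nat.Prime 2) := ⟨Nat.prime_two⟩
  obtain ⟨P⟩ : Nonempty (Sylow 2 G) := inferInstance
  have hP4 : Nat.card (P : Subgroup G) = 4 := by
    have h1 := Sylow.card_eq_multiplicity P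
    rw [h] at h1
    have hfac : (60 : ℕ).factorization 2 = 2 := by
      have e : (60 : ℕ) = 2 ^ 2 * 15 := by norm_num
      rw [e, Nat.factorization_mul (by norm_num) (by norm_num),
        Nat.Prime.factorization_pow Nat.prime_two]
      have : (15 : ℕ).factorization 2 = 0 := Nat.factorization_eq_zero_of_not_dvd (by norm_num)
      simp [this]
    rw [hfac] at h1
    exact h1
  obtain ⟨N, hN⟩ : ∃ N : Subgroup G, N = Subgroup.normalizer (P : Set G) := ⟨_, rfl⟩
  have hPN : (P : Subgroup G) ≤ N := by
    rw [hN]
    exact Subgroup.le_normalizer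
  have hNcard : Nat.card N * N.index = 60 := by rw [Subgroup.card_mul_index, h]
  have hPidx : (P : Subgroup G).index = 15 := by
    have := Subgroup.card_mul_index (P : Subgroup G)
    rw [hP4, h] at this
    omega
  have hk15 : N.index ∣ 15 := by
    rw [← hPidx]
    exact Subgroup.index_dvd_of_le hPN
  have hNtop : N ≠ ⊤ := by
    intro hN'
    rw [hN] at hN'
    have hnorm : (P : Subgroup G).Normal := Subgroup.normalizer_eq_top_iff.mp hN'
    rcases IsSimpleGroup.eq_bot_or_eq_top_of_normal (P : Subgroup G) hnorm with h' | h'
    · rw [h'] at hP4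
      simp at hP4
    · rw [h'] at hP4
      simp at hP4
      omega
  have hker : (MulAction.toPermHom G (G ⧸ N)).ker = ⊥ := by
    rw [← Subgroup.normalCore_eq_ker]
    rcases IsSimpleGroup.eq_bot_or_eq_top_of_normal N.normalCore inferInstance with h' | h'
    · exact h'
    · exfalso
      apply hNtop
      rw [eq_top_iff, ← h']
      exact Subgroup.normalCore_le N
  have hinj : Function.Injective (MulAction.toPermHom G (G ⧸ N)) :=
    (MonoidHom.ker_eq_bot_iff _).mp hker
  have hdvd : 60 ∣ (N.index).factorial := by
    have h1 : Nat.card G ∣ Nat.card (Equiv.Perm (G ⧸ N)) := by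
      have := Subgroup.card_subgroup_dvd_card (MulAction.toPermHom G (G ⧸ N)).range
      rwa [← Nat.card_congr (MonoidHom.ofInjective hinj).toEquiv] at this
    rw [h, Nat.card_perm, ← Subgroup.index_eq_card] at h1
    exact h1
  have hk : N.index = 5 ∨ N.index = 15 := by
    have hmem : N.index ∈ Nat.divisors 15 := Nat.mem_divisors.mpr ⟨hk15, by norm_num⟩
    have hdiv : Nat.divisors 15 = {1, 3, 5, 15} := by decide
    rw [hdiv] at hmem
    simp only [Finset.mem_insert, Finset.mem_singleton] at hmem
    rcases hmem with h1 | h3 | h5 | h15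
    · exact absurd (Subgroup.index_eq_one.mp h1) hNtop
    · exfalso
      rw [h3] at hdvd
      revert hdvd
      decide
    · left
      exact h5
    · right
      exact h15
  rcases hk with hk | hk
  · have hcard5 : Nat.card (G ⧸ N) = 5 := by
      rw [← Subgroup.index_eq_card]
      exact hk
    have e : (G ⧸ N) ≃ Fin 5 := Finite.equivFinOfCardEq hcard5
    let ψ : G →* Equiv.Perm (Fin 5) :=
      (e.permCongrHom.toMonoidHom).comp (MulAction.toPermHom G (G ⧸ N))
    have hψ : Function.Injective ψ := by
      intro a b hab
      apply hinj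
      exact e.permCongrHom.injective hab
    have hrange : Nat.card ψ.range = 60 := by
      rw [← Nat.card_congr (MonoidHom.ofInjective hψ).toEquiv, h]
    have hidx : ψ.range.index = 2 := by
      have h1 := Subgroup.card_mul_index ψ.range
      rw [hrange, Nat.card_perm, Nat.card_fin] at h1
      have h120 : Nat.factorial 5 = 120 := by decide
      omega
    have heq := Equiv.Perm.eq_alternatingGroup_of_index_eq_two hidx
    exact ⟨(MonoidHom.ofInjective hψ).trans (MulEquiv.subgroupCongr heq)⟩
  · exfalso
    have hN4 : Nat.card N = 4 := by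
      rw [hk] at hNcard
      omega
    have hNP : (P : Subgroup G) = N := Subgroup.eq_of_le_of_card_ge hPN (by rw [hN4, hP4])
    have hcomm := IsPGroup.commutative_of_card_eq_prime_sq (p := 2) (G := (P : Subgroup G))
      (by rw [hP4]; norm_num)
    have hP : Subgroup.normalizer (P : Set G) ≤ Subgroup.centralizer (P : Set G) := by
      rw [← hN, ← hNP]
      intro x hx
      rw [Subgroup.mem_centralizer_iff]
      intro y hy
      have := hcomm ⟨y, hy⟩ ⟨x, hx⟩
      exact congrArg Subtype.val this
    have hK := MonoidHom.ker_transferSylow_isComplement' P hP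
    have hKcard := hK.card_mul_card
    rw [hP4, h] at hKcard
    have hK15 : Nat.card (MonoidHom.transferSylow P hP).ker = 15 := by omega
    rcases IsSimpleGroup.eq_bot_or_eq_top_of_normal _
      (MonoidHom.normal_ker (MonoidHom.transferSylow P hP)) with h' | h'
    · rw [h'] at hK15
      simp at hK15
    · rw [h'] at hK15
      simp at hK15
      omega

end Cfsg.Agent.S0494
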