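import Cfsg.Statements.S0252
import Cfsg.Agent.S0494
import Cfsg.Agent.Helper12.SL2Card

set_option autoImplicit false
open Cfsg

namespace Cfsg.Agent.S0252

open Cfsg.Agent.Helper12

/-- PSL_2(4) is isomorphic to A_5. -/
theorem result {F : Type*} [Field F] [Fintype F] (hF : Fintype.card F = 4) : Nonempty (Matrix.ProjectiveSpecialLinearGroup (Fin 2) F ≃* alternatingGroup (Fin 5)) := by
  have h2 : (2 : F) = 0 := by
    have h0 := FiniteField.cast_card_eq_zero F
    rw [hF] at h0
    have h22 : (2 : F) * 2 = 0 := by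
      norm_num
      exact_mod_cast h0
    exact mul_self_eq_zero.mp h22
  have hcard := psl2_card_char2 (F := F) h2
  rw [hF] at hcard
  have h60 : Nat.card (Matrix.ProjectiveSpecialLinearGroup (Fin 2) F) = 60 := by omega
  haveI : IsSimpleGroup (Matrix.ProjectiveSpecialLinearGroup (Fin 2) F) :=
    Matrix.ProjectiveSpecialLinearGroup.rank_two_simple (by rw [Nat.card_eq_fintype_card, hF])
  exact Cfsg.Agent.S0494.result h60

end Cfsg.Agent.S0252
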