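import Cfsg.Statements.S0253
import Cfsg.Agent.S0494
import Cfsg.Agent.Helper12.SL2Card

set_option autoImplicit false
open Cfsg

namespace Cfsg.Agent.S0253

open Cfsg.Agent.Helper12

/-- PSL_2(5) is isomorphic to A_5. -/
theorem result {F : Type*} [Field F] [Fintype F] (hF : Fintype.card F = 5) : Nonempty (Matrix.ProjectiveSpecialLinearGroup (Fin 2) F ≃* alternatingGroup (Fin 5)) := by
  have hodd : Odd (Fintype.card F) := by
    rw [hF]
    decide
  have h2 : (2 : F) ≠ 0 := two_ne_zero_of_odd hodd
  have hcard := psl2_card_odd (F := F) h2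
  rw [hF] at hcard
  have h60 : Nat.card (Matrix.ProjectiveSpecialLinearGroup (Fin 2) F) = 60 := by omega
  haveI : IsSimpleGroup (Matrix.ProjectiveSpecialLinearGroup (Fin 2) F) :=
    Matrix.ProjectiveSpecialLinearGroup.rank_two_simple (by rw [Nat.card_eq_fintype_card, hF]; norm_num)
  exact Cfsg.Agent.S0494.result h60

end Cfsg.Agent.S0253
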