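import Mathlib
import Cfsg.Statements.S0255
import Cfsg.Agent.Helper17.L27.Conc

set_option autoImplicit false
open Cfsg

namespace Cfsg.Agent.S0255

/-- PSL_2(7) is isomorphic to PSL_3(2). -/
theorem result {F K : Type*} [Field F] [Fintype F] [Field K] [Fintype K] (hF : Fintype.card F = 7) (hK : Fintype.card K = 2) : Nonempty (Matrix.ProjectiveSpecialLinearGroup (Fin 2) F ≃* Matrix.ProjectiveSpecialLinearGroup (Fin 3) K) := by
  exact Cfsg.Agent.Helper17.L27.psl27_iso_psl32 hF hK

end Cfsg.Agent.S0255
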