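import Mathlib
import Cfsg.Statements.S0824

set_option autoImplicit false
open Cfsg

namespace Cfsg.Agent.S0824

open Matrix

/-- Transfer of isometry groups along a ring isomorphism. -/
theorem isoTransfer {ι : Type} [Fintype ι] [DecidableEq ι] {F K : Type*} [Field F] [Field K]
    (e : F ≃+* K) (QF : (ι → F) → F) (QK : (ι → K) → K)
    (h : ∀ v : ι → F, e (QF v) = QK (fun i => e (v i))) :
    Nonempty (↥(Cfsg.isometryGroup F QF) ≃* ↥(Cfsg.isometryGroup K QK)) := by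
  let E : Matrix.GeneralLinearGroup ι F ≃* Matrix.GeneralLinearGroup ι K :=
    Units.mapEquiv (RingEquiv.mapMatrix e).toMulEquiv
  have hE : ∀ g : Matrix.GeneralLinearGroup ι F,
      ((E g : Matrix.GeneralLinearGroup ι K) : Matrix ι ι K) = (g : Matrix ι ι F).map e :=
    fun g => rfl
  have hEs : ∀ g : Matrix.GeneralLinearGroup ι K,
      ((E.symm g : Matrix.GeneralLinearGroup ι F) : Matrix ι ι F)
        = (g : Matrix ι ι K).map e.symm := fun g => rfl
  have hmv : ∀ (M : Matrix ι ι F) (v : ι → F),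
      (M.map e) *ᵥ (fun i => e (v i)) = fun i => e ((M *ᵥ v) i) := by
    intro M v
    funext i
    exact (RingHom.map_mulVec (e : F →+* K) M v i).symm
  have hmemF : ∀ g : Matrix.GeneralLinearGroup ι F, g ∈ Cfsg.isometryGroup F QF ↔
      ∀ u : ι → F, QF ((g : Matrix ι ι F) *ᵥ u) = QF u := by
    intro g
    constructor
    · intro hg u; exact hg u u
    · intro hg u _; exact hg u
  have hmemK : ∀ g : Matrix.GeneralLinearGroup ι K, g ∈ Cfsg.isometryGroup K QK ↔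
      ∀ u : ι → K, QK ((g : Matrix ι ι K) *ᵥ u) = QK u := by
    intro g
    constructor
    · intro hg u; exact hg u u
    · intro hg u _; exact hg u
  have hmap : (Cfsg.isometryGroup F QF).map
      (E : Matrix.GeneralLinearGroup ι F →* Matrix.GeneralLinearGroup ι K)
        = Cfsg.isometryGroup K QK := by
    ext g
    constructor
    · rintro ⟨g0, hg0, rfl⟩
      rw [hmemK]
      intro u
      obtain ⟨u', rfl⟩ : ∃ u' : ι → F, u = fun i => e (u' i) :=
        ⟨fun i => e.symm (u i), by funext i; simp⟩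
      show QK ((g0 : Matrix ι ι F).map e *ᵥ fun i => e (u' i)) = _
      rw [hmv, ← h, ← h, (hmemF g0).1 hg0 u']
    · intro hg
      refine ⟨E.symm g, (hmemF _).2 ?_, E.apply_symm_apply g⟩
      intro u
      apply e.injective
      rw [h, h, ← hmv, hEs]
      have : ((g : Matrix ι ι K).map e.symm).map e = (g : Matrix ι ι K) := by
        ext i j; simp
      rw [this]
      exact (hmemK g).1 hg _
  exact ⟨(E.subgroupMap (Cfsg.isometryGroup F QF)).trans (MulEquiv.subgroupCongr hmap)⟩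

abbrev I4 : Type := (Fin 1 ⊕ Fin 1) ⊕ Fin 2

def eI : I4 → Fin 4 := Sum.elim (Sum.elim (fun _ => 0) (fun _ => 1)) ![2, 3]

def C0 : Matrix (Fin 4) (Fin 5) (ZMod 2) :=
  !![1,0,1,1,1; 0,1,1,1,1; 0,0,1,0,1; 0,0,0,1,1]

def D0 : Matrix (Fin 5) (Fin 4) (ZMod 2) :=
  !![1,0,1,1; 0,1,1,1; 0,0,1,0; 0,0,0,1; 0,0,0,0]

def C : Matrix I4 (Fin 5) (ZMod 2) := C0.submatrix eI id

def D : Matrix (Fin 5) I4 (ZMod 2) := D0.submatrix id eI

abbrev Q2 : (I4 → ZMod 2) → ZMod 2 := Cfsg.quadFormMinus 1 (ZMod 2) 1 1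

theorem D1 : C * D = 1 := by decide +kernel

theorem D2a : ∀ i : I4, ∑ k, C i k = 0 := by decide +kernel

theorem D2b : D * C = 1 + Matrix.of (fun (_ : Fin 5) (j : Fin 5) => if j = 4 then (1 : ZMod 2) else 0) := by
  decide +kernel

theorem D3 : ∀ a : Fin 5 → ZMod 2,
    Q2 (C *ᵥ a) = (((Finset.univ.filter (fun i => a i = 1)).card.choose 2 : ℕ) : ZMod 2) := by
  decide +kernel

theorem D4 : ∀ i j : Fin 5, (fun r => C r i) = (fun r => C r j) → i = j := by decide +kernel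

theorem D5 : ∀ v : I4 → ZMod 2, Q2 v = 0 → v ≠ 0 → ∃ j : Fin 5, v = fun r => C r j := by
  decide +kernel

theorem D6 : ∀ j : Fin 5, Q2 (fun r => C r j) = 0 ∧ (fun r => C r j) ≠ 0 := by decide +kernel

def Cs (σ : Equiv.Perm (Fin 5)) : Matrix I4 (Fin 5) (ZMod 2) := C.submatrix id σ

theorem Cs_mul_DC (σ : Equiv.Perm (Fin 5)) : Cs σ * (D * C) = Cs σ := by
  rw [D2b, Matrix.mul_add, Matrix.mul_one]
  have : Cs σ * Matrix.of (fun (_ : Fin 5) (j : Fin 5) => if j = 4 then (1 : ZMod 2) else 0)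
      = 0 := by
    ext i j
    rw [Matrix.mul_apply]
    simp only [Matrix.of_apply, Matrix.zero_apply]
    rw [← Finset.sum_mul]
    have h2 : ∑ k, Cs σ i k = 0 := by
      show ∑ k, C i (σ k) = 0
      rw [Equiv.sum_comp σ (fun k => C i k)]; exact D2a i
    rw [h2, zero_mul]
  rw [this, add_zero]

def Mσ (σ : Equiv.Perm (Fin 5)) : Matrix I4 I4 (ZMod 2) := Cs σ * D

theorem M_mul (σ τ : Equiv.Perm (Fin 5)) : Mσ (σ * τ) = Mσ σ * Mσ τ := by
  unfold Mσ
  have h1 : Cs σ * D * Cs τ = Cs (σ * τ) := by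
    have h2 : Cs σ * D * Cs τ = (Cs σ * D * C).submatrix id τ := by
      ext i j; rfl
    rw [h2, Matrix.mul_assoc, Cs_mul_DC]; rfl
  rw [← Matrix.mul_assoc, h1]

theorem M_one : Mσ 1 = 1 := by
  unfold Mσ
  have : Cs 1 = C := rfl
  rw [this, D1]

def fHom : Equiv.Perm (Fin 5) →* Matrix I4 I4 (ZMod 2) where
  toFun := Mσ
  map_one' := M_one
  map_mul' := M_mul

theorem M_mem (σ : Equiv.Perm (Fin 5)) :
    fHom.toHomUnits σ ∈ Cfsg.isometryGroup (ZMod 2) Q2 := by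
  intro u _
  show Q2 (Mσ σ *ᵥ u) = Q2 u
  have h1 : Mσ σ *ᵥ u = C *ᵥ ((D *ᵥ u) ∘ σ.symm) := by
    unfold Mσ
    rw [← Matrix.mulVec_mulVec]
    ext i
    show ∑ k, C i (σ k) * (D *ᵥ u) k = ∑ k, C i k * (D *ᵥ u) (σ.symm k)
    rw [← Equiv.sum_comp σ (fun k => C i k * (D *ᵥ u) (σ.symm k))]
    simp
  have hc : (Finset.univ.filter (fun i => ((D *ᵥ u) ∘ σ.symm) i = 1)).card
      = (Finset.univ.filter (fun i => (D *ᵥ u) i = 1)).card :=
    Finset.card_equiv σ.symm (fun i => by simp)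
  have h2 : Q2 (C *ᵥ ((D *ᵥ u) ∘ σ.symm)) = Q2 (C *ᵥ (D *ᵥ u)) := by
    rw [D3, D3, hc]
  rw [h1, h2, Matrix.mulVec_mulVec, D1, Matrix.one_mulVec]

theorem Cs_of_M (σ : Equiv.Perm (Fin 5)) : Mσ σ * C = Cs σ := by
  unfold Mσ; rw [Matrix.mul_assoc, Cs_mul_DC]

theorem M_inj : Function.Injective Mσ := by
  intro σ τ h
  have h1 : Cs σ = Cs τ := by rw [← Cs_of_M, ← Cs_of_M, h]
  exact Equiv.ext fun k => D4 _ _ (funext fun r => congrFun (congrFun h1 r) k)

theorem M_surj (g : Matrix.GeneralLinearGroup I4 (ZMod 2))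
    (hg : g ∈ Cfsg.isometryGroup (ZMod 2) Q2) : ∃ σ, fHom.toHomUnits σ = g := by
  have hg' : ∀ u : I4 → ZMod 2, Q2 ((g : Matrix I4 I4 (ZMod 2)) *ᵥ u) = Q2 u :=
    fun u => hg u u
  obtain ⟨A, hA⟩ : ∃ A : Matrix I4 I4 (ZMod 2), A = (g : Matrix I4 I4 (ZMod 2)) := ⟨_, rfl⟩
  rw [← hA] at hg'
  have hAinv : ∀ u, ((g⁻¹ : Matrix.GeneralLinearGroup I4 (ZMod 2)) : Matrix I4 I4 (ZMod 2))
      *ᵥ (A *ᵥ u) = u := by
    intro u
    rw [Matrix.mulVec_mulVec, hA, ← Units.val_mul, inv_mul_cancel, Units.val_one,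
      Matrix.one_mulVec]
  have hex : ∀ j : Fin 5, ∃ k : Fin 5, A *ᵥ (fun r => C r j) = fun r => C r k := by
    intro j
    apply D5
    · rw [hg']; exact (D6 j).1
    · intro h0
      have := hAinv (fun r => C r j)
      rw [h0, Matrix.mulVec_zero] at this
      exact (D6 j).2 this.symm
  choose π hπ using hex
  have hπinj : Function.Injective π := by
    intro j k hjk
    apply D4
    have h1 := hAinv (fun r => C r j)
    have h2 := hAinv (fun r => C r k)
    rw [hπ j, hjk, ← hπ k, h2] at h1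
    exact h1.symm
  let σ : Equiv.Perm (Fin 5) := Equiv.ofBijective π (Finite.injective_iff_bijective.mp hπinj)
  refine ⟨σ, ?_⟩
  apply Units.ext
  show Mσ σ = (g : Matrix I4 I4 (ZMod 2))
  rw [← hA]
  have hAC : A * C = Cs σ := by
    ext r j
    exact congrFun (hπ j) r
  unfold Mσ
  rw [← hAC, Matrix.mul_assoc, D1, Matrix.mul_one]

noncomputable def φ : Equiv.Perm (Fin 5) →* ↥(Cfsg.isometryGroup (ZMod 2) Q2) :=
  fHom.toHomUnits.codRestrict _ M_mem

theorem φ_bij : Function.Bijective φ := by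
  constructor
  · intro σ τ h
    apply M_inj
    exact congrArg (fun x : ↥(Cfsg.isometryGroup (ZMod 2) Q2) =>
      ((x : Matrix.GeneralLinearGroup I4 (ZMod 2)) : Matrix I4 I4 (ZMod 2))) h
  · rintro ⟨g, hg⟩
    obtain ⟨σ, hσ⟩ := M_surj g hg
    exact ⟨σ, Subtype.ext hσ⟩

/-- O⁻_4(2) ≅ S_5: the isometry group of the form x y + z_1² + z_1 z_2 + z_2² over the field with 2 elements is isomorphic to the symmetric group on 5 letters. -/
theorem result {F : Type*} [Field F] [Fintype F] (hF : Fintype.card F = 2) : Nonempty (↥(Cfsg.isometryGroup F (Cfsg.quadFormMinus 1 F 1 1)) ≃* Equiv.Perm (Fin 5)) := by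
  let e : F ≃+* ZMod 2 := (ZMod.ringEquivOfPrime F Nat.prime_two hF).symm
  obtain ⟨t⟩ := isoTransfer e (Cfsg.quadFormMinus 1 F 1 1) (Cfsg.quadFormMinus 1 (ZMod 2) 1 1)
    (fun v => by simp [Cfsg.quadFormMinus, map_add, map_mul, map_pow])
  exact ⟨t.trans (MulEquiv.ofBijective φ φ_bij).symm⟩

end Cfsg.Agent.S0824
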