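import Cfsg.Statements.S0825
import Mathlib
import Cfsg.Agent.Helper2.SymSp
import Cfsg.Agent.S0245
import Cfsg.Agent.S0824

set_option autoImplicit false
open Cfsg

namespace Cfsg.Agent.S0825

open Matrix Cfsg.Agent.Helper2

abbrev K6 : Type := Fin 3 ⊕ Fin 3

abbrev QQ : (K6 → ZMod 2) → ZMod 2 := Cfsg.quadFormPlus 3 (ZMod 2)

def eK : K6 → Fin 6 := Sum.elim ![0, 1, 2] ![3, 4, 5]

def W0 : Matrix (Fin 8) (Fin 6) (ZMod 2) :=
  !![1, 1, 1, 1, 1, 1;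
     1, 1, 0, 1, 1, 0;
     1, 0, 1, 1, 0, 0;
     1, 0, 0, 0, 0, 1;
     0, 0, 0, 1, 0, 1;
     0, 1, 0, 0, 1, 1;
     0, 1, 1, 0, 0, 0;
     0, 0, 1, 0, 1, 0]

def W : Matrix (Fin 8) K6 (ZMod 2) := W0.submatrix id eK

def uu : Fin 8 → ZMod 2 := ![0, 1, 0, 1, 1, 0, 1, 1]

def vv : Fin 8 → ZMod 2 := ![1, 0, 1, 0, 0, 1, 0, 0]

theorem hF1 : Wᵀ * W = J (Fin 3) (ZMod 2) := by decide +kernel

theorem hF2 : ∀ c, ∑ x, W x c = 0 := by decide +kernel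

theorem hF3 : ∀ y x, (W * J (Fin 3) (ZMod 2) * Wᵀ) y x
    = (if y = x then 1 else 0) + uu x + vv y := by decide +kernel

theorem h2 : (2 : ZMod 2) = 0 := by decide

def wt (h : Fin 8 → ZMod 2) : ℕ := ∑ x, (h x).val

theorem wt_perm (h : Fin 8 → ZMod 2) (σ : Equiv.Perm (Fin 8)) :
    wt (fun x => h (σ x)) = wt h :=
  Equiv.sum_comp σ (fun x => (h x).val)

theorem P2 : ∀ h : Fin 8 → ZMod 2, wt h % 2 = 0 →
    QQ ((J (Fin 3) (ZMod 2) * Wᵀ) *ᵥ h) = if wt h % 4 = 0 then 0 else 1 := by decide +kernel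

theorem P3 : ∀ v : K6 → ZMod 2, wt (W *ᵥ v) % 2 = 0 := by decide +kernel

theorem MM_mulVec (σ : Equiv.Perm (Fin 8)) (v : K6 → ZMod 2) :
    SymSp.MM W σ *ᵥ v
      = (J (Fin 3) (ZMod 2) * Wᵀ) *ᵥ (fun y => (W *ᵥ v) (σ⁻¹ y)) := by
  have e1 : SymSp.MM W σ *ᵥ v
      = J (Fin 3) (ZMod 2) *ᵥ ((W.submatrix σ id)ᵀ *ᵥ (W *ᵥ v)) := by
    unfold SymSp.MM SymSp.AA
    rw [← Matrix.mulVec_mulVec, ← Matrix.mulVec_mulVec]
  have e2 : (J (Fin 3) (ZMod 2) * Wᵀ) *ᵥ (fun y => (W *ᵥ v) (σ⁻¹ y))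
      = J (Fin 3) (ZMod 2) *ᵥ (Wᵀ *ᵥ (fun y => (W *ᵥ v) (σ⁻¹ y))) :=
    (Matrix.mulVec_mulVec _ _ _).symm
  rw [e1, e2]
  refine congrArg _ ?_
  funext c
  show ∑ x, W (σ x) c * (W *ᵥ v) x = ∑ y, W y c * (W *ᵥ v) (σ⁻¹ y)
  rw [← Equiv.sum_comp σ (fun y => W y c * (W *ᵥ v) (σ⁻¹ y))]
  refine Finset.sum_congr rfl (fun x _ => ?_)
  show W (σ x) c * (W *ᵥ v) x = W (σ x) c * (W *ᵥ v) (σ⁻¹ (σ x))
  rw [SymSp.perm_inv_apply]

theorem MM_iso (σ : Equiv.Perm (Fin 8)) (v : K6 → ZMod 2) :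
    QQ (SymSp.MM W σ *ᵥ v) = QQ v := by
  have hJJ : (J (Fin 3) (ZMod 2) * Wᵀ) * W = 1 := by
    rw [Matrix.mul_assoc, hF1, J_squared, SymSp.neg_eq_self h2]
  have hv : (J (Fin 3) (ZMod 2) * Wᵀ) *ᵥ (W *ᵥ v) = v := by
    rw [Matrix.mulVec_mulVec, hJJ, Matrix.one_mulVec]
  have hw : wt (fun y => (W *ᵥ v) (σ⁻¹ y)) = wt (W *ᵥ v) := wt_perm (W *ᵥ v) σ⁻¹
  rw [MM_mulVec, P2 _ (by rw [hw]; exact P3 v), hw, ← P2 _ (P3 v), hv]

noncomputable def fHom : Equiv.Perm (Fin 8) →* Matrix K6 K6 (ZMod 2) where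
  toFun := SymSp.MM W
  map_one' := SymSp.MM_one W h2 hF1
  map_mul' := SymSp.MM_mul W (SymSp.AA_mul W hF2 uu vv hF3)

theorem M_mem (σ : Equiv.Perm (Fin 8)) :
    fHom.toHomUnits σ ∈ Cfsg.isometryGroup (ZMod 2) QQ := by
  show ∀ u _v : K6 → ZMod 2, QQ (SymSp.MM W σ *ᵥ u) = QQ u
  intro u _
  exact MM_iso σ u

noncomputable def φ : Equiv.Perm (Fin 8) →* ↥(Cfsg.isometryGroup (ZMod 2) QQ) :=
  fHom.toHomUnits.codRestrict _ M_mem

theorem φ_inj : Function.Injective φ := by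
  intro σ τ h
  have h1 : SymSp.MM W σ = SymSp.MM W τ :=
    congrArg (fun x : ↥(Cfsg.isometryGroup (ZMod 2) QQ) =>
      ((x : Matrix.GeneralLinearGroup K6 (ZMod 2)) : Matrix K6 K6 (ZMod 2))) h
  exact SymSp.spHom_injective W h2 hF1 hF2 uu vv hF3
    (by rw [Fintype.card_fin]; norm_num) (Subtype.ext h1)

def sw : K6 → K6 := Sum.swap

def Tm (a : K6 → ZMod 2) : Matrix K6 K6 (ZMod 2) :=
  fun c d => (if c = d then 1 else 0) + a c * a (sw d)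

def Bf (v a : K6 → ZMod 2) : ZMod 2 := ∑ d, v d * a (sw d)

theorem Tsymp : ∀ a : K6 → ZMod 2,
    Tm a * J (Fin 3) (ZMod 2) * (Tm a)ᵀ = J (Fin 3) (ZMod 2) := by decide +kernel

theorem P4a : ∀ a : K6 → ZMod 2, QQ a = 0 →
    ∀ v : K6 → ZMod 2, QQ (Tm a *ᵥ v) = QQ v + Bf v a := by decide +kernel

theorem P5 : ∀ u w : K6 → ZMod 2,
    QQ (u + w) + QQ u + QQ w = u ⬝ᵥ (J (Fin 3) (ZMod 2) *ᵥ w) := by decide +kernel

theorem cardA : (Finset.univ.filter (fun a : K6 → ZMod 2 => QQ a = 0)).card = 36 := by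
  decide +kernel

theorem Bf_single (c : K6) (a : K6 → ZMod 2) : Bf (Pi.single c 1) a = a (sw c) := by
  unfold Bf
  rw [Finset.sum_eq_single c]
  · rw [Pi.single_eq_same, one_mul]
  · intro d _ hd
    rw [Pi.single_eq_of_ne hd, zero_mul]
  · intro h
    exact absurd (Finset.mem_univ _) h

theorem bil_single (M : Matrix K6 K6 (ZMod 2)) (c d : K6) :
    (Pi.single c 1 : K6 → ZMod 2) ⬝ᵥ (M *ᵥ Pi.single d 1) = M c d := by
  simp [dotProduct, Matrix.mulVec, Pi.single_apply]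

theorem iso_symp (A : Matrix K6 K6 (ZMod 2)) (hA : ∀ u, QQ (A *ᵥ u) = QQ u) :
    A ∈ Matrix.symplecticGroup (Fin 3) (ZMod 2) := by
  rw [SymplecticGroup.mem_iff']
  have hB : ∀ u w : K6 → ZMod 2,
      (A *ᵥ u) ⬝ᵥ (J (Fin 3) (ZMod 2) *ᵥ (A *ᵥ w)) = u ⬝ᵥ (J (Fin 3) (ZMod 2) *ᵥ w) := by
    intro u w
    rw [← P5, ← P5, ← Matrix.mulVec_add, hA, hA, hA]
  have key : ∀ u w : K6 → ZMod 2,
      u ⬝ᵥ ((Aᵀ * J (Fin 3) (ZMod 2) * A) *ᵥ w) = u ⬝ᵥ (J (Fin 3) (ZMod 2) *ᵥ w) := by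
    intro u w
    rw [← hB u w, ← Matrix.mulVec_mulVec, ← Matrix.mulVec_mulVec,
      Matrix.dotProduct_mulVec u Aᵀ (J (Fin 3) (ZMod 2) *ᵥ (A *ᵥ w)), Matrix.vecMul_transpose]
  ext c d
  have h := key (Pi.single c 1) (Pi.single d 1)
  rw [bil_single, bil_single] at h
  exact h

noncomputable def inj (p : ↥(Cfsg.isometryGroup (ZMod 2) QQ) × {a : K6 → ZMod 2 // QQ a = 0}) :
    Matrix.symplecticGroup (Fin 3) (ZMod 2) :=
  ⟨(p.1 : Matrix.GeneralLinearGroup K6 (ZMod 2)).1, iso_symp _ (fun u => p.1.2 u u)⟩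
    * ⟨Tm p.2.1, SymplecticGroup.mem_iff.2 (Tsymp p.2.1)⟩

theorem inj_injective : Function.Injective inj := by
  rintro ⟨g, a⟩ ⟨g', b⟩ h
  have hmat : (g : Matrix.GeneralLinearGroup K6 (ZMod 2)).1 * Tm a.1
      = (g' : Matrix.GeneralLinearGroup K6 (ZMod 2)).1 * Tm b.1 := congrArg Subtype.val h
  have hab : a = b := by
    apply Subtype.ext
    have hv : ∀ v : K6 → ZMod 2, Bf v a.1 = Bf v b.1 := by
      intro v
      have h1 : QQ (Tm a.1 *ᵥ v) = QQ (Tm b.1 *ᵥ v) := by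
        have e1 : QQ ((g : Matrix.GeneralLinearGroup K6 (ZMod 2)).1 *ᵥ (Tm a.1 *ᵥ v))
            = QQ (Tm a.1 *ᵥ v) := g.2 (Tm a.1 *ᵥ v) (Tm a.1 *ᵥ v)
        have e2 : QQ ((g' : Matrix.GeneralLinearGroup K6 (ZMod 2)).1 *ᵥ (Tm b.1 *ᵥ v))
            = QQ (Tm b.1 *ᵥ v) := g'.2 (Tm b.1 *ᵥ v) (Tm b.1 *ᵥ v)
        rw [← e1, ← e2, Matrix.mulVec_mulVec, Matrix.mulVec_mulVec, hmat]
      rw [P4a a.1 a.2 v, P4a b.1 b.2 v] at h1
      exact add_left_cancel h1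
    funext c
    have h3 := hv (Pi.single (sw c) 1)
    rw [Bf_single, Bf_single] at h3
    have h4 : sw (sw c) = c := Sum.swap_swap c
    rw [h4] at h3
    exact h3
  subst hab
  have h5 : (⟨(g : Matrix.GeneralLinearGroup K6 (ZMod 2)).1, iso_symp _ (fun u => g.2 u u)⟩ :
      Matrix.symplecticGroup (Fin 3) (ZMod 2))
      = ⟨(g' : Matrix.GeneralLinearGroup K6 (ZMod 2)).1, iso_symp _ (fun u => g'.2 u u)⟩ :=
    mul_right_cancel h
  have h6 : (g : Matrix.GeneralLinearGroup K6 (ZMod 2)).1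
      = (g' : Matrix.GeneralLinearGroup K6 (ZMod 2)).1 := congrArg Subtype.val h5
  have h7 : g = g' := Subtype.ext (Units.ext h6)
  rw [h7]

theorem card_le : Nat.card ↥(Cfsg.isometryGroup (ZMod 2) QQ) ≤ 40320 := by
  have h1 := Nat.card_le_card_of_injective inj inj_injective
  rw [Nat.card_prod] at h1
  have h3 : Nat.card {a : K6 → ZMod 2 // QQ a = 0} = 36 := by
    rw [Nat.card_eq_fintype_card, Fintype.card_subtype]
    exact cardA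
  have h4 : Nat.card (Matrix.symplecticGroup (Fin 3) (ZMod 2)) = 1451520 := by
    rw [Cfsg.Agent.S0245.result (ZMod.card 2) 3]
    norm_num [Finset.prod_range_succ]
  rw [h3, h4] at h1
  omega

theorem φ_bij : Function.Bijective φ :=
  Function.Injective.bijective_of_nat_card_le φ_inj (by
    have h1 : Nat.card (Equiv.Perm (Fin 8)) = 40320 := by
      rw [Nat.card_eq_fintype_card, Fintype.card_perm, Fintype.card_fin]
      rfl
    rw [h1]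
    exact card_le)

/-- O⁺_6(2) ≅ S_8: the isometry group of the hyperbolic form x_1y_1 + x_2y_2 + x_3y_3 over the field with 2 elements is isomorphic to the symmetric group on 8 letters. -/
theorem result {F : Type*} [Field F] [Fintype F] (hF : Fintype.card F = 2) : Nonempty (↥(Cfsg.isometryGroup F (Cfsg.quadFormPlus 3 F)) ≃* Equiv.Perm (Fin 8)) := by
  let e : F ≃+* ZMod 2 := (ZMod.ringEquivOfPrime F Nat.prime_two hF).symm
  obtain ⟨t⟩ := Cfsg.Agent.S0824.isoTransfer e (Cfsg.quadFormPlus 3 F)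
    (Cfsg.quadFormPlus 3 (ZMod 2))
    (fun v => by simp [Cfsg.quadFormPlus, map_sum, map_mul])
  exact ⟨t.trans (MulEquiv.ofBijective φ φ_bij).symm⟩

end Cfsg.Agent.S0825
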