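import Cfsg.Statements.S0256
import Mathlib
import Cfsg.Agent.Helper2.SLCard
import Cfsg.Agent.S0825

set_option autoImplicit false
open Cfsg

namespace Cfsg.Agent.S0256

open Matrix

abbrev K6 : Type := Fin 3 ⊕ Fin 3

def r1 : K6 → Fin 4 := Sum.elim (fun _ => 0) ![2, 3, 1]

def r2 : K6 → Fin 4 := Sum.elim ![1, 2, 3] ![3, 1, 2]

theorem r1_inl (i : Fin 3) : r1 (Sum.inl i) = 0 := rfl
theorem r1_inr0 : r1 (Sum.inr 0) = 2 := rfl
theorem r1_inr1 : r1 (Sum.inr 1) = 3 := rfl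
theorem r1_inr2 : r1 (Sum.inr 2) = 1 := rfl
theorem r2_inl0 : r2 (Sum.inl 0) = 1 := rfl
theorem r2_inl1 : r2 (Sum.inl 1) = 2 := rfl
theorem r2_inl2 : r2 (Sum.inl 2) = 3 := rfl
theorem r2_inr0 : r2 (Sum.inr 0) = 3 := rfl
theorem r2_inr1 : r2 (Sum.inr 1) = 1 := rfl
theorem r2_inr2 : r2 (Sum.inr 2) = 2 := rfl

theorem key1 : ∀ c d : K6, (r1 c = r1 d ∧ r2 c = r2 d) → c = d := by decide

theorem key2 : ∀ c d : K6, ¬ (r1 c = r2 d ∧ r2 c = r1 d) := by decide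

theorem key3 : ∀ c : K6, ¬ (r1 c = r2 c) := by decide

section ring
variable {R : Type*} [CommRing R]

/-- The second compound matrix (2 × 2 minors) in the oriented basis
`01, 02, 03, 23, 31, 12` of the exterior square. -/
def C (A : Matrix (Fin 4) (Fin 4) R) : Matrix K6 K6 R :=
  fun c d => A (r1 c) (r1 d) * A (r2 c) (r2 d) - A (r1 c) (r2 d) * A (r2 c) (r1 d)

theorem C_apply (A : Matrix (Fin 4) (Fin 4) R) (c d : K6) :
    C A c d = A (r1 c) (r1 d) * A (r2 c) (r2 d) - A (r1 c) (r2 d) * A (r2 c) (r1 d) := rfl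

theorem cb (a b c d : Fin 4 → R) :
    (∑ m, a m * c m) * (∑ m, b m * d m) - (∑ m, a m * d m) * (∑ m, b m * c m)
      = ∑ e : K6, (a (r1 e) * b (r2 e) - a (r2 e) * b (r1 e))
          * (c (r1 e) * d (r2 e) - d (r1 e) * c (r2 e)) := by
  rw [Fintype.sum_sum_type]
  simp only [Fin.sum_univ_four, Fin.sum_univ_three, r1_inl, r1_inr0, r1_inr1, r1_inr2,
    r2_inl0, r2_inl1, r2_inl2, r2_inr0, r2_inr1, r2_inr2]
  ring

theorem C_mul (A B : Matrix (Fin 4) (Fin 4) R) : C (A * B) = C A * C B := by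
  ext c d
  exact cb (fun m => A (r1 c) m) (fun m => A (r2 c) m) (fun m => B m (r1 d))
    (fun m => B m (r2 d))

theorem C_one : C (1 : Matrix (Fin 4) (Fin 4) R) = 1 := by
  ext c d
  show (1 : Matrix (Fin 4) (Fin 4) R) (r1 c) (r1 d) * (1 : Matrix (Fin 4) (Fin 4) R) (r2 c) (r2 d)
    - (1 : Matrix (Fin 4) (Fin 4) R) (r1 c) (r2 d) * (1 : Matrix (Fin 4) (Fin 4) R) (r2 c) (r1 d)
    = (1 : Matrix K6 K6 R) c d
  rw [Matrix.one_apply, Matrix.one_apply, Matrix.one_apply, Matrix.one_apply, Matrix.one_apply]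
  by_cases hcd : c = d
  · subst hcd
    rw [if_pos rfl, if_pos rfl, if_pos rfl, if_neg (key3 c), zero_mul, sub_zero, mul_one]
  · have h1 : ¬ (r1 c = r1 d ∧ r2 c = r2 d) := fun h => hcd (key1 c d h)
    have h2 := key2 c d
    rw [if_neg hcd]
    by_cases ha : r1 c = r1 d
    · have hb : ¬ r2 c = r2 d := fun h => h1 ⟨ha, h⟩
      rw [if_neg hb, mul_zero, zero_sub, neg_eq_zero]
      by_cases hc : r1 c = r2 d
      · have hd : ¬ r2 c = r1 d := fun h => h2 ⟨hc, h⟩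
        rw [if_neg hd, mul_zero]
      · rw [if_neg hc, zero_mul]
    · rw [if_neg ha, zero_mul, zero_sub, neg_eq_zero]
      by_cases hc : r1 c = r2 d
      · have hd : ¬ r2 c = r1 d := fun h => h2 ⟨hc, h⟩
        rw [if_neg hd, mul_zero]
      · rw [if_neg hc, zero_mul]

theorem det4 (A : Matrix (Fin 4) (Fin 4) R) : A.det =
    (-1) ^ (0 : ℕ) * A 0 0 * (A 1 1 * A 2 2 * A 3 3 - A 1 1 * A 2 3 * A 3 2 - A 1 2 * A 2 1 * A 3 3 + A 1 2 * A 2 3 * A 3 1 + A 1 3 * A 2 1 * A 3 2 - A 1 3 * A 2 2 * A 3 1)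
      + (-1) ^ (1 : ℕ) * A 0 1 * (A 1 0 * A 2 2 * A 3 3 - A 1 0 * A 2 3 * A 3 2 - A 1 2 * A 2 0 * A 3 3 + A 1 2 * A 2 3 * A 3 0 + A 1 3 * A 2 0 * A 3 2 - A 1 3 * A 2 2 * A 3 0)
      + (-1) ^ (2 : ℕ) * A 0 2 * (A 1 0 * A 2 1 * A 3 3 - A 1 0 * A 2 3 * A 3 1 - A 1 1 * A 2 0 * A 3 3 + A 1 1 * A 2 3 * A 3 0 + A 1 3 * A 2 0 * A 3 1 - A 1 3 * A 2 1 * A 3 0)
      + (-1) ^ (3 : ℕ) * A 0 3 * (A 1 0 * A 2 1 * A 3 2 - A 1 0 * A 2 2 * A 3 1 - A 1 1 * A 2 0 * A 3 2 + A 1 1 * A 2 2 * A 3 0 + A 1 2 * A 2 0 * A 3 1 - A 1 2 * A 2 1 * A 3 0) := by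
  rw [Matrix.det_succ_row_zero, Fin.sum_univ_four, Matrix.det_fin_three, Matrix.det_fin_three,
    Matrix.det_fin_three, Matrix.det_fin_three]
  rfl

end ring

section field
variable {F : Type*} [Field F]

theorem Q_C (A : Matrix (Fin 4) (Fin 4) F) (p : K6 → F) :
    Cfsg.quadFormPlus 3 F (C A *ᵥ p) = A.det * Cfsg.quadFormPlus 3 F p := by
  rw [det4]
  unfold Cfsg.quadFormPlus
  simp only [Fin.sum_univ_three, Matrix.mulVec, dotProduct, Fintype.sum_sum_type, C_apply,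
    r1_inl, r1_inr0, r1_inr1, r1_inr2, r2_inl0, r2_inl1, r2_inl2, r2_inr0, r2_inr1, r2_inr2]
  ring

noncomputable def cHom (F : Type*) [Field F] :
    Matrix.SpecialLinearGroup (Fin 4) F →* Matrix K6 K6 F where
  toFun A := C A.1
  map_one' := C_one
  map_mul' A B := C_mul A.1 B.1

theorem c_mem (A : Matrix.SpecialLinearGroup (Fin 4) F) :
    (cHom F).toHomUnits A ∈ Cfsg.isometryGroup F (Cfsg.quadFormPlus 3 F) := by
  show ∀ u _v : K6 → F, Cfsg.quadFormPlus 3 F (C A.1 *ᵥ u) = Cfsg.quadFormPlus 3 F u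
  intro u _
  rw [Q_C, A.2, one_mul]

noncomputable def ψ (F : Type*) [Field F] :
    Matrix.SpecialLinearGroup (Fin 4) F →* ↥(Cfsg.isometryGroup F (Cfsg.quadFormPlus 3 F)) :=
  (cHom F).toHomUnits.codRestrict _ c_mem

theorem eq_one_of_ne_zero [Fintype F] (hF : Fintype.card F = 2) (x : F) (hx : x ≠ 0) :
    x = 1 := by
  let e : ZMod 2 ≃+* F := ZMod.ringEquivOfPrime F Nat.prime_two hF
  have h1 : ∀ y : ZMod 2, y ≠ 0 → y = 1 := by decide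
  have h2 : e.symm x ≠ 0 := fun h => hx ((EmbeddingLike.map_eq_zero_iff (f := e.symm)).1 h)
  exact (EmbeddingLike.map_eq_one_iff (f := e.symm)).1 (h1 _ h2)

theorem C_eq_one [Fintype F] (hF : Fintype.card F = 2) (A : Matrix (Fin 4) (Fin 4) F)
    (hC : ∀ c d : K6, C A c d = (1 : Matrix K6 K6 F) c d) : A = 1 := by
  have hl0l0 : A 0 0 * A 1 1 - A 0 1 * A 1 0 = 1 := hC (Sum.inl 0) (Sum.inl 0)
  have hl0l1 : A 0 0 * A 1 2 - A 0 2 * A 1 0 = 0 := hC (Sum.inl 0) (Sum.inl 1)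
  have hl0l2 : A 0 0 * A 1 3 - A 0 3 * A 1 0 = 0 := hC (Sum.inl 0) (Sum.inl 2)
  have hl0r1 : A 0 3 * A 1 1 - A 0 1 * A 1 3 = 0 := hC (Sum.inl 0) (Sum.inr 1)
  have hl0r2 : A 0 1 * A 1 2 - A 0 2 * A 1 1 = 0 := hC (Sum.inl 0) (Sum.inr 2)
  have hl1l0 : A 0 0 * A 2 1 - A 0 1 * A 2 0 = 0 := hC (Sum.inl 1) (Sum.inl 0)
  have hl1l1 : A 0 0 * A 2 2 - A 0 2 * A 2 0 = 1 := hC (Sum.inl 1) (Sum.inl 1)
  have hl1l2 : A 0 0 * A 2 3 - A 0 3 * A 2 0 = 0 := hC (Sum.inl 1) (Sum.inl 2)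
  have hl1r2 : A 0 1 * A 2 2 - A 0 2 * A 2 1 = 0 := hC (Sum.inl 1) (Sum.inr 2)
  have hl2l0 : A 0 0 * A 3 1 - A 0 1 * A 3 0 = 0 := hC (Sum.inl 2) (Sum.inl 0)
  have hl2l1 : A 0 0 * A 3 2 - A 0 2 * A 3 0 = 0 := hC (Sum.inl 2) (Sum.inl 1)
  have hl2l2 : A 0 0 * A 3 3 - A 0 3 * A 3 0 = 1 := hC (Sum.inl 2) (Sum.inl 2)
  have hl2r1 : A 0 3 * A 3 1 - A 0 1 * A 3 3 = 0 := hC (Sum.inl 2) (Sum.inr 1)
  have hr0l1 : A 2 0 * A 3 2 - A 2 2 * A 3 0 = 0 := hC (Sum.inr 0) (Sum.inl 1)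
  have hr0l2 : A 2 0 * A 3 3 - A 2 3 * A 3 0 = 0 := hC (Sum.inr 0) (Sum.inl 2)
  have hr0r0 : A 2 2 * A 3 3 - A 2 3 * A 3 2 = 1 := hC (Sum.inr 0) (Sum.inr 0)
  have hr1l0 : A 3 0 * A 1 1 - A 3 1 * A 1 0 = 0 := hC (Sum.inr 1) (Sum.inl 0)
  have hr1l2 : A 3 0 * A 1 3 - A 3 3 * A 1 0 = 0 := hC (Sum.inr 1) (Sum.inl 2)
  have hr1r1 : A 3 3 * A 1 1 - A 3 1 * A 1 3 = 1 := hC (Sum.inr 1) (Sum.inr 1)
  have hr2l0 : A 1 0 * A 2 1 - A 1 1 * A 2 0 = 0 := hC (Sum.inr 2) (Sum.inl 0)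
  have hr2l1 : A 1 0 * A 2 2 - A 1 2 * A 2 0 = 0 := hC (Sum.inr 2) (Sum.inl 1)
  have hr2r2 : A 1 1 * A 2 2 - A 1 2 * A 2 1 = 1 := hC (Sum.inr 2) (Sum.inr 2)
  have hO01 : A 0 1 = 0 := by
    linear_combination (-(A 0 1)) * hr2r2 + (A 1 1) * hl1r2 - (A 2 1) * hl0r2
  have hO02 : A 0 2 = 0 := by
    linear_combination (-(A 0 2)) * hr2r2 - (A 2 2) * hl0r2 + (A 1 2) * hl1r2
  have hO03 : A 0 3 = 0 := by
    linear_combination (-(A 0 3)) * hr1r1 + (A 3 3) * hl0r1 - (A 1 3) * hl2r1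
  have hO10 : A 1 0 = 0 := by
    linear_combination (-(A 1 0)) * hl1l1 + (A 0 0) * hr2l1 + (A 2 0) * hl0l1
  have hO12 : A 1 2 = 0 := by
    linear_combination (-(A 1 2)) * hl1l1 + (A 2 2) * hl0l1 + (A 0 2) * hr2l1
  have hO13 : A 1 3 = 0 := by
    linear_combination (-(A 1 3)) * hl2l2 + (A 3 3) * hl0l2 - (A 0 3) * hr1l2
  have hO20 : A 2 0 = 0 := by
    linear_combination (-(A 2 0)) * hl0l0 - (A 0 0) * hr2l0 + (A 1 0) * hl1l0
  have hO21 : A 2 1 = 0 := by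
    linear_combination (-(A 2 1)) * hl0l0 + (A 1 1) * hl1l0 - (A 0 1) * hr2l0
  have hO23 : A 2 3 = 0 := by
    linear_combination (-(A 2 3)) * hl2l2 + (A 3 3) * hl1l2 + (A 0 3) * hr0l2
  have hO30 : A 3 0 = 0 := by
    linear_combination (-(A 3 0)) * hl0l0 + (A 0 0) * hr1l0 + (A 1 0) * hl2l0
  have hO31 : A 3 1 = 0 := by
    linear_combination (-(A 3 1)) * hl0l0 + (A 1 1) * hl2l0 + (A 0 1) * hr1l0
  have hO32 : A 3 2 = 0 := by
    linear_combination (-(A 3 2)) * hl1l1 + (A 2 2) * hl2l1 - (A 0 2) * hr0l1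
  have e01 : A 0 0 * A 1 1 = 1 := by linear_combination hl0l0 + (A 1 0) * hO01
  have e23 : A 2 2 * A 3 3 = 1 := by linear_combination hr0r0 + (A 3 2) * hO23
  have hD0 : A 0 0 = 1 := eq_one_of_ne_zero hF _ (left_ne_zero_of_mul_eq_one e01)
  have hD1 : A 1 1 = 1 := eq_one_of_ne_zero hF _ (right_ne_zero_of_mul_eq_one e01)
  have hD2 : A 2 2 = 1 := eq_one_of_ne_zero hF _ (left_ne_zero_of_mul_eq_one e23)
  have hD3 : A 3 3 = 1 := eq_one_of_ne_zero hF _ (right_ne_zero_of_mul_eq_one e23)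
  ext i j
  fin_cases i <;> fin_cases j
  all_goals first
    | exact hD0 | exact hD1 | exact hD2 | exact hD3
    | exact hO01 | exact hO02 | exact hO03 | exact hO10 | exact hO12 | exact hO13
    | exact hO20 | exact hO21 | exact hO23 | exact hO30 | exact hO31 | exact hO32

theorem ψ_inj [Fintype F] (hF : Fintype.card F = 2) : Function.Injective (ψ F) := by
  rw [injective_iff_map_eq_one]
  intro A hA
  have h1 : C A.1 = 1 :=
    congrArg (fun x : ↥(Cfsg.isometryGroup F (Cfsg.quadFormPlus 3 F)) =>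
      ((x : Matrix.GeneralLinearGroup K6 F) : Matrix K6 K6 F)) hA
  apply Subtype.ext
  exact C_eq_one hF A.1 (fun c d => by rw [h1])

theorem center_eq_bot [Fintype F] (hF : Fintype.card F = 2) :
    Subgroup.center (Matrix.SpecialLinearGroup (Fin 4) F) = ⊥ := by
  rw [Subgroup.eq_bot_iff_forall]
  intro A hA
  obtain ⟨r, hr, hrA⟩ := Matrix.SpecialLinearGroup.mem_center_iff.1 hA
  have hr0 : r ≠ 0 := by
    intro h
    rw [h] at hr
    simp at hr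
  have hr1 : r = 1 := eq_one_of_ne_zero hF r hr0
  apply Subtype.ext
  rw [← hrA, hr1]
  simp

theorem card_SL [Fintype F] (hF : Fintype.card F = 2) :
    Nat.card (Matrix.SpecialLinearGroup (Fin 4) F) = 20160 := by
  have h1 := Cfsg.Agent.Helper2.SLCard.card_SL_mul F 4 (by norm_num)
  rw [hF, Matrix.card_GL_field (n := 4) (𝔽 := F), hF, Fin.prod_univ_four] at h1
  have h2 : (2 ^ 4 - 2 ^ ((0 : Fin 4) : ℕ)) * (2 ^ 4 - 2 ^ ((1 : Fin 4) : ℕ))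
      * (2 ^ 4 - 2 ^ ((2 : Fin 4) : ℕ)) * (2 ^ 4 - 2 ^ ((3 : Fin 4) : ℕ)) = 20160 := rfl
  have h3 : Nat.card (Matrix.SpecialLinearGroup (Fin 4) F) * (2 - 1) = 20160 := h1.trans h2
  omega

end field

/-- PSL_4(2) is isomorphic to A_8. -/
theorem result {F : Type*} [Field F] [Fintype F] (hF : Fintype.card F = 2) : Nonempty (Matrix.ProjectiveSpecialLinearGroup (Fin 4) F ≃* alternatingGroup (Fin 8)) := by
  obtain ⟨t⟩ := Cfsg.Agent.S0825.result hF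
  let θ : Matrix.SpecialLinearGroup (Fin 4) F →* Equiv.Perm (Fin 8) := t.toMonoidHom.comp (ψ F)
  have hθ : Function.Injective θ := by
    intro x y h
    exact ψ_inj hF (t.injective h)
  have hrange : Nat.card θ.range = 20160 := by
    rw [← Nat.card_congr (MonoidHom.ofInjective hθ).toEquiv]
    exact card_SL hF
  have hidx : θ.range.index = 2 := by
    have h := Subgroup.card_mul_index θ.range
    rw [hrange, Nat.card_eq_fintype_card, Fintype.card_perm, Fintype.card_fin] at h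
    have h8 : Nat.factorial 8 = 40320 := rfl
    omega
  have hA := Equiv.Perm.eq_alternatingGroup_of_index_eq_two hidx
  let e1 : Matrix.ProjectiveSpecialLinearGroup (Fin 4) F ≃* Matrix.SpecialLinearGroup (Fin 4) F :=
    (QuotientGroup.quotientMulEquivOfEq (center_eq_bot hF)).trans QuotientGroup.quotientBot
  exact ⟨e1.trans ((MonoidHom.ofInjective hθ).trans (MulEquiv.subgroupCongr hA))⟩

end Cfsg.Agent.S0256
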