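import Cfsg.Statements.S0257
import Cfsg.Agent.S0261
import Cfsg.Agent.Helper12.SL2Trace

set_option autoImplicit false
open Cfsg

namespace Cfsg.Agent.S0257

open Cfsg.Agent.Helper12

theorem quat2_pow_four : ∀ w : QuaternionGroup 2, w ^ 4 = 1 := by decide

theorem no_root_of_card_three {F : Type*} [Field F] [Fintype F] (hF : Fintype.card F = 3) (z : F) :
    z ^ 2 - 0 * z + 1 ≠ 0 := by
  intro h
  have hz3 : z ^ 3 = z := by rw [← hF]; exact FiniteField.pow_card z
  have hodd : Odd (Fintype.card F) := by rw [hF]; decide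
  have h20 : (2 : F) ≠ 0 := two_ne_zero_of_odd hodd
  have hz2 : z ^ 2 = -1 := by linear_combination h
  have h2z : (2 : F) * z = 0 := by
    have h3 : z ^ 3 = -z := by rw [pow_succ, hz2]; ring
    rw [hz3] at h3
    linear_combination h3
  rcases mul_eq_zero.mp h2z with h' | h'
  · exact h20 h'
  · rw [h'] at hz2
    have h1 : (1 : F) = 0 := by linear_combination hz2
    exact one_ne_zero h1

/-- SL_2(3) has a normal subgroup of index 3 isomorphic to the quaternion group of order 8, and its centre has order 2. -/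
theorem result {F : Type*} [Field F] [Fintype F] (hF : Fintype.card F = 3) : (∃ Q : Subgroup (Matrix.SpecialLinearGroup (Fin 2) F), Q.Normal ∧ Q.index = 3 ∧ Nonempty (Q ≃* QuaternionGroup 2)) ∧ Nat.card (Subgroup.center (Matrix.SpecialLinearGroup (Fin 2) F)) = 2 := by
  classical
  have hodd : Odd (Fintype.card F) := by rw [hF]; decide
  have h20 : (2 : F) ≠ 0 := two_ne_zero_of_odd hodd
  have hcard : Nat.card (Matrix.SpecialLinearGroup (Fin 2) F) = 24 := by rw [sl2_card, hF]; rfl
  refine ⟨?_, sl2_center_card_odd h20⟩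
  obtain ⟨P⟩ : Nonempty (Sylow 2 (Matrix.SpecialLinearGroup (Fin 2) F)) := inferInstance
  obtain ⟨k, hk, ⟨e⟩⟩ := S0261.result hodd P
  have hne : NeZero (2 ^ k) := ⟨pow_ne_zero k two_ne_zero⟩
  have hcP : Nat.card (P : Subgroup (Matrix.SpecialLinearGroup (Fin 2) F)) = 4 * 2 ^ k := by
    rw [Nat.card_congr e.toEquiv, Nat.card_eq_fintype_card, QuaternionGroup.card]
  have hdvd : 4 * 2 ^ k ∣ 24 := by
    rw [← hcP, ← hcard]; exact Subgroup.card_subgroup_dvd_card _
  have hk1 : k = 1 := by
    by_contra hne'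
    have h2 : 2 ≤ k := by omega
    have h3 : 2 ^ 2 ∣ 2 ^ k := pow_dvd_pow 2 h2
    have h16 : 4 * 2 ^ 2 ∣ 24 := (Nat.mul_dvd_mul_left 4 h3).trans hdvd
    exact absurd h16 (by norm_num)
  subst hk1
  have e' : ↥(P : Subgroup (Matrix.SpecialLinearGroup (Fin 2) F)) ≃* QuaternionGroup 2 := e
  have hP8 : Nat.card (P : Subgroup (Matrix.SpecialLinearGroup (Fin 2) F)) = 8 := by rw [hcP]; rfl
  have hPT : ∀ g ∈ (P : Subgroup (Matrix.SpecialLinearGroup (Fin 2) F)),
      g = 1 ∨ g = sl2NegOne ∨ (g : Matrix (Fin 2) (Fin 2) F).trace = 0 := by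
    intro g hg
    have h4 : g ^ 4 = 1 := by
      have h := quat2_pow_four (e' ⟨g, hg⟩)
      have h' : (⟨g, hg⟩ : ↥(P : Subgroup (Matrix.SpecialLinearGroup (Fin 2) F))) ^ 4 = 1 :=
        e'.injective (by rw [map_pow, map_one]; exact h)
      exact congrArg Subtype.val h'
    have hsq : (g * g) * (g * g) = 1 := by
      rw [← h4, show (4 : ℕ) = 2 + 2 from rfl, pow_add, pow_two]
    by_cases h1 : g * g = 1
    · by_cases h0 : g = 1
      · exact Or.inl h0
      · refine Or.inr (Or.inl ?_)
        apply Subtype.ext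
        rw [S0268.result hodd g h0 h1, S0809.negOne_val]
    · refine Or.inr (Or.inr ?_)
      apply S0809.trace_of_sq_eq_negOne
      apply Subtype.ext
      rw [S0268.result hodd (g * g) h1 hsq, S0809.negOne_val]
  have hT : Set.ncard {g : Matrix.SpecialLinearGroup (Fin 2) F |
      g = 1 ∨ g = sl2NegOne ∨ (g : Matrix (Fin 2) (Fin 2) F).trace = 0} ≤ 8 := by
    have h1 : {g : Matrix.SpecialLinearGroup (Fin 2) F |
        g = 1 ∨ g = sl2NegOne ∨ (g : Matrix (Fin 2) (Fin 2) F).trace = 0} =
        {1, sl2NegOne} ∪ {g : Matrix.SpecialLinearGroup (Fin 2) F |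
          (g : Matrix (Fin 2) (Fin 2) F).trace = 0} := by
      ext g
      constructor
      · rintro (h | h | h)
        · exact Or.inl (Or.inl h)
        · exact Or.inl (Or.inr h)
        · exact Or.inr h
      · rintro ((h | h) | h)
        · exact Or.inl h
        · exact Or.inr (Or.inl h)
        · exact Or.inr (Or.inr h)
    have h2 : Set.ncard {g : Matrix.SpecialLinearGroup (Fin 2) F |
          (g : Matrix (Fin 2) (Fin 2) F).trace = 0} = 6 := by
      rw [← Nat.card_coe_set_eq]
      have h3 := sl2_card_trace_fiber (F := F) 0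
      rw [card_roots_none (0 : F) (no_root_of_card_three hF), hF] at h3
      exact h3
    rw [h1]
    calc Set.ncard ({1, sl2NegOne} ∪ {g : Matrix.SpecialLinearGroup (Fin 2) F |
          (g : Matrix (Fin 2) (Fin 2) F).trace = 0})
        ≤ Set.ncard ({1, sl2NegOne} : Set (Matrix.SpecialLinearGroup (Fin 2) F)) +
          Set.ncard {g : Matrix.SpecialLinearGroup (Fin 2) F |
          (g : Matrix (Fin 2) (Fin 2) F).trace = 0} := Set.ncard_union_le _ _
      _ = 8 := by rw [h2, Set.ncard_pair (Ne.symm (sl2NegOne_ne_one h20))]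
  have h8 : ((P : Subgroup (Matrix.SpecialLinearGroup (Fin 2) F)) :
      Set (Matrix.SpecialLinearGroup (Fin 2) F)).ncard = 8 := by
    rw [← Nat.card_coe_set_eq]
    exact hP8
  have hPeq : ((P : Subgroup (Matrix.SpecialLinearGroup (Fin 2) F)) :
      Set (Matrix.SpecialLinearGroup (Fin 2) F)) = {g : Matrix.SpecialLinearGroup (Fin 2) F |
      g = 1 ∨ g = sl2NegOne ∨ (g : Matrix (Fin 2) (Fin 2) F).trace = 0} := by
    refine Set.eq_of_subset_of_ncard_le (fun g hg => hPT g hg) ?_ (Set.toFinite _)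
    rw [h8]
    exact hT
  have hPn : (P : Subgroup (Matrix.SpecialLinearGroup (Fin 2) F)).Normal := by
    constructor
    intro n hn g
    have hn' : n ∈ ((P : Subgroup (Matrix.SpecialLinearGroup (Fin 2) F)) :
      Set (Matrix.SpecialLinearGroup (Fin 2) F)) := hn
    rw [hPeq] at hn'
    have hgoal : g * n * g⁻¹ ∈ ((P : Subgroup (Matrix.SpecialLinearGroup (Fin 2) F)) :
      Set (Matrix.SpecialLinearGroup (Fin 2) F)) := by
      rw [hPeq]
      rcases hn' with h | h | h
      · exact Or.inl (by rw [h, mul_one, mul_inv_cancel])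
      · refine Or.inr (Or.inl ?_)
        rw [h]
        have hc := Subgroup.mem_center_iff.mp (sl2NegOne_mem_center (F := F)) g
        rw [hc, mul_assoc, mul_inv_cancel, mul_one]
      · refine Or.inr (Or.inr ?_)
        rw [sl2_trace_conj]
        exact h
    exact hgoal
  have hidx : (P : Subgroup (Matrix.SpecialLinearGroup (Fin 2) F)).index = 3 := by
    have h1 := Subgroup.index_mul_card (P : Subgroup (Matrix.SpecialLinearGroup (Fin 2) F))
    rw [hP8, hcard] at h1
    omega
  exact ⟨(P : Subgroup (Matrix.SpecialLinearGroup (Fin 2) F)), hPn, hidx, ⟨e'⟩⟩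

end Cfsg.Agent.S0257
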