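import Cfsg.Statements.S0262
import Cfsg.Agent.Helper12.SL2Orders
import Cfsg.Agent.Helper12.SL2Card

set_option autoImplicit false
open Cfsg

namespace Cfsg.Agent.S0262

open Cfsg.Agent.Helper12

/-- A Sylow subgroup whose order divides the order of some element is cyclic. -/
theorem sylow_isCyclic_of_dvd_orderOf {G : Type*} [Group G] [Finite G] (r : ℕ) [Fact r.Prime]
    (R : Sylow r G) (X : G) (hX : Nat.card (R : Subgroup G) ∣ orderOf X) :
    IsCyclic (R : Subgroup G) := by
  classical
  have hNpos : 0 < orderOf X := orderOf_pos X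
  obtain ⟨m, hm⟩ : ∃ m, m = Nat.card (R : Subgroup G) := ⟨_, rfl⟩
  rw [← hm] at hX
  obtain ⟨k, hk⟩ := hX
  have hk0 : k ≠ 0 := by
    rintro rfl
    rw [mul_zero] at hk
    omega
  have hY : orderOf (X ^ k) = m := by
    rw [orderOf_pow_of_dvd hk0 ⟨m, by rw [hk, mul_comm]⟩, hk]
    exact Nat.mul_div_cancel m (Nat.pos_of_ne_zero hk0)
  have hCcard : Nat.card (Subgroup.zpowers (X ^ k)) = m := by rw [Nat.card_zpowers, hY]
  have hRcard := Sylow.card_eq_multiplicity R
  have hC : IsPGroup r (Subgroup.zpowers (X ^ k)) := IsPGroup.of_card (by rw [hCcard, hm, hRcard])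
  obtain ⟨Q, hCQ⟩ := hC.exists_le_sylow
  have hQcard : Nat.card (Q : Subgroup G) = m := by rw [Sylow.card_eq_multiplicity Q, hm, hRcard]
  have hCQeq : Subgroup.zpowers (X ^ k) = (Q : Subgroup G) :=
    Subgroup.eq_of_le_of_card_ge hCQ (by rw [hQcard, hCcard])
  have hQcyc : IsCyclic (Q : Subgroup G) := by
    rw [← hCQeq]
    infer_instance
  exact (Sylow.equiv Q R).isCyclic.mp hQcyc

/-- For an odd prime r different from the characteristic, the Sylow r-subgroups of SL_2(q) are cyclic. -/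
theorem result {F : Type*} [Field F] [Fintype F] (p : ℕ) [Fact p.Prime] [CharP F p] (r : ℕ) [Fact r.Prime] (hr : r ≠ 2) (hrp : r ≠ p) (R : Sylow r (Matrix.SpecialLinearGroup (Fin 2) F)) : IsCyclic (R : Subgroup (Matrix.SpecialLinearGroup (Fin 2) F)) := by
  have hrpr : r.Prime := Fact.out
  have hpp : p.Prime := Fact.out
  obtain ⟨n, -, hqn⟩ := FiniteField.card F p
  have hq1 : 1 < Fintype.card F := Fintype.one_lt_card
  have hcop : Nat.Coprime r (Fintype.card F) := by
    rw [hqn]
    exact Nat.Coprime.pow_right _ ((Nat.coprime_primes hrpr hpp).mpr hrp)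
  have hRcard := Sylow.card_eq_multiplicity R
  have hdvd : Nat.card (R : Subgroup (Matrix.SpecialLinearGroup (Fin 2) F)) ∣
      Nat.card (Matrix.SpecialLinearGroup (Fin 2) F) := Subgroup.card_subgroup_dvd_card _
  rw [sl2_card] at hdvd
  have hcopR : Nat.Coprime (Nat.card (R : Subgroup (Matrix.SpecialLinearGroup (Fin 2) F)))
      (Fintype.card F) := by
    rw [hRcard]
    exact Nat.Coprime.pow_left _ hcop
  have hdvd2 : Nat.card (R : Subgroup (Matrix.SpecialLinearGroup (Fin 2) F)) ∣
      Fintype.card F ^ 2 - 1 := hcopR.dvd_of_dvd_mul_left hdvd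
  have hfact : Fintype.card F ^ 2 - 1 = (Fintype.card F - 1) * (Fintype.card F + 1) := by
    obtain ⟨k, hk⟩ : ∃ k, Fintype.card F = k + 1 := ⟨Fintype.card F - 1, by omega⟩
    rw [hk, Nat.add_sub_cancel, show (k + 1) ^ 2 = k * (k + 1 + 1) + 1 by ring, Nat.add_sub_cancel]
  rw [hfact] at hdvd2
  by_cases hrq : r ∣ Fintype.card F + 1
  · have hnot : ¬ r ∣ Fintype.card F - 1 := by
      intro h
      have h2 : r ∣ 2 := by
        have := Nat.dvd_sub hrq h
        have e : Fintype.card F + 1 - (Fintype.card F - 1) = 2 := by omega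
        rwa [e] at this
      rcases (Nat.dvd_prime Nat.prime_two).mp h2 with h' | h'
      · exact hrpr.one_lt.ne' h'
      · exact hr h'
    have hcop2 : Nat.Coprime (Nat.card (R : Subgroup (Matrix.SpecialLinearGroup (Fin 2) F)))
        (Fintype.card F - 1) := by
      rw [hRcard]
      exact Nat.Coprime.pow_left _ ((Nat.Prime.coprime_iff_not_dvd hrpr).mpr hnot)
    have hfin : Nat.card (R : Subgroup (Matrix.SpecialLinearGroup (Fin 2) F)) ∣ Fintype.card F + 1 :=
      hcop2.dvd_of_dvd_mul_left hdvd2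
    obtain ⟨X, hX⟩ := sl2_exists_orderOf_card_add_one (F := F) p
    exact sylow_isCyclic_of_dvd_orderOf r R X (by rw [hX]; exact hfin)
  · have hcop2 : Nat.Coprime (Nat.card (R : Subgroup (Matrix.SpecialLinearGroup (Fin 2) F)))
        (Fintype.card F + 1) := by
      rw [hRcard]
      exact Nat.Coprime.pow_left _ ((Nat.Prime.coprime_iff_not_dvd hrpr).mpr hrq)
    have hfin : Nat.card (R : Subgroup (Matrix.SpecialLinearGroup (Fin 2) F)) ∣ Fintype.card F - 1 :=
      hcop2.dvd_of_dvd_mul_right hdvd2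
    obtain ⟨u, hu⟩ := sl2_exists_orderOf_card_sub_one (F := F)
    exact sylow_isCyclic_of_dvd_orderOf r R (sl2diag u) (by rw [hu]; exact hfin)

end Cfsg.Agent.S0262
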