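import Cfsg.Statements.S0264
import Cfsg.Agent.Helper2.SLGen

set_option autoImplicit false
open Cfsg

namespace Cfsg.Agent.S0264

/-- GL_n(F)' = SL_n(F) (as the kernel of det), for every field F and every n, except n = 2 over the field of two elements. -/
theorem result {F : Type*} [Field F] (n : ℕ) (h : n = 2 → ∃ a : F, a ≠ 0 ∧ a ≠ 1) : commutator (Matrix.GeneralLinearGroup (Fin n) F) = (Matrix.GeneralLinearGroup.det : Matrix.GeneralLinearGroup (Fin n) F →* Fˣ).ker := by
  rcases Nat.lt_or_ge n 2 with hn | hn
  · apply le_antisymm (Abelianization.commutator_subset_ker _)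
    intro A hA
    have hA' : (A : Matrix (Fin n) (Fin n) F).det = 1 := by
      have h1 : Matrix.GeneralLinearGroup.det A = 1 := hA
      have h2 := congrArg Units.val h1
      rwa [Matrix.GeneralLinearGroup.val_det_apply] at h2
    have hA1 : A = 1 := by
      apply Units.ext
      ext i j
      interval_cases n
      · exact i.elim0
      · have hi : i = 0 := Subsingleton.elim _ _
        have hj : j = 0 := Subsingleton.elim _ _
        subst hi; subst hj
        rw [Matrix.det_fin_one] at hA'
        simp [hA']
    rw [hA1]; exact Subgroup.one_mem _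
  · haveI : Nontrivial (Fin n) := Fin.nontrivial_iff_two_le.2 hn
    apply Cfsg.Agent.Helper2.SLGen.commutator_GL_eq_ker_det
    intro i j hij c
    rcases Nat.lt_or_ge n 3 with hn3 | hn3
    · obtain ⟨a, ha, ha1⟩ := h (by omega)
      exact Cfsg.Agent.Helper2.SLGen.toGL_transvection_mem_commutator_of_ne_one ha ha1 hij c
    · obtain ⟨k, hki, hkj⟩ := Cfsg.Agent.Helper2.SLGen.exists_third n hn3 i j
      exact Cfsg.Agent.Helper2.SLGen.toGL_transvection_mem_commutator_of_three (Ne.symm hki) hkj hij c

end Cfsg.Agent.S0264
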