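import Cfsg.Statements.S0273
import Cfsg.Agent.Helper2.GL2Syl

set_option autoImplicit false
open Cfsg

namespace Cfsg.Agent.S0273

/-- In GL_2(q) the centraliser of a non-trivial element of a Sylow p-subgroup (p the characteristic) has order q (q-1): the Sylow subgroup times the scalars. -/
theorem result {F : Type*} [Field F] [Fintype F] {q : ℕ} (hF : Fintype.card F = q) (p : ℕ) [Fact p.Prime] [CharP F p] (P : Sylow p (Matrix.GeneralLinearGroup (Fin 2) F)) (a : Matrix.GeneralLinearGroup (Fin 2) F) (ha : a ∈ P) (ha1 : a ≠ 1) : Nat.card (Subgroup.centralizer ({a} : Set (Matrix.GeneralLinearGroup (Fin 2) F))) = q * (q - 1) := by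
  obtain ⟨g, hg⟩ := Cfsg.Agent.Helper2.GL2Syl.sylow_conj p P
  obtain ⟨t, ht⟩ := Cfsg.Agent.Helper2.GL2Syl.mem_U.1 ((hg a).1 ha)
  have ht0 : t ≠ 0 := by
    intro h0
    rw [h0, Cfsg.Agent.Helper2.GL2Syl.uGL_zero] at ht
    apply ha1
    calc a = g * (g⁻¹ * a * g) * g⁻¹ := by group
      _ = 1 := by rw [← ht]; group
  have ha' : a = g * Cfsg.Agent.Helper2.GL2Syl.uGL t * g⁻¹ := by
    rw [ht]; group
  rw [ha', Cfsg.Agent.Helper2.GL2Syl.card_cent_conj,
    Cfsg.Agent.Helper2.GL2Syl.card_cent t ht0, hF]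

end Cfsg.Agent.S0273
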