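import Cfsg.Statements.S0276
import Cfsg.Agent.Helper12.PSL2Spec
import Cfsg.Agent.Helper12.SL2Card

set_option autoImplicit false
open Cfsg

namespace Cfsg.Agent.S0276

open Cfsg.Agent.Helper12

/-- For q = 3 or 5 mod 8 the Sylow 2-subgroups of PSL_2(q) are elementary abelian of order 4. -/
theorem result {F : Type*} [Field F] [Fintype F] {q : ℕ} (hF : Fintype.card F = q) (hq : q % 8 = 3 ∨ q % 8 = 5) (P : Sylow 2 (Matrix.ProjectiveSpecialLinearGroup (Fin 2) F)) : IsKleinFour (P : Subgroup (Matrix.ProjectiveSpecialLinearGroup (Fin 2) F)) := by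
  subst hF
  obtain ⟨p, hp⟩ := CharP.exists F
  haveI : Fact p.Prime := ⟨CharP.char_is_prime F p⟩
  have hpp : p.Prime := Fact.out
  have hodd : Odd (Fintype.card F) := by
    rw [Nat.odd_iff]
    omega
  have h2 : (2 : F) ≠ 0 := two_ne_zero_of_odd hodd
  have hcard := psl2_card_odd (F := F) h2
  obtain ⟨M, hM, hMcard⟩ : ∃ M : ℕ, Odd M ∧
      Nat.card (Matrix.ProjectiveSpecialLinearGroup (Fin 2) F) = 4 * M := by
    rcases hq with hq | hq
    · obtain ⟨k, hk⟩ : ∃ k, Fintype.card F = 8 * k + 3 := ⟨Fintype.card F / 8, by omega⟩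
      refine ⟨(8 * k + 3) * (8 * k ^ 2 + 6 * k + 1), ?_, ?_⟩
      · exact Odd.mul ⟨4 * k + 1, by ring⟩ ⟨4 * k ^ 2 + 3 * k, by ring⟩
      · rw [hk] at hcard
        have e : (8 * k + 3) ^ 2 = (64 * k ^ 2 + 48 * k + 8) + 1 := by ring
        rw [e, Nat.add_sub_cancel] at hcard
        have e2 : (8 * k + 3) * (64 * k ^ 2 + 48 * k + 8) =
            8 * ((8 * k + 3) * (8 * k ^ 2 + 6 * k + 1)) := by ring
        rw [e2] at hcard
        omega
    · obtain ⟨k, hk⟩ : ∃ k, Fintype.card F = 8 * k + 5 := ⟨Fintype.card F / 8, by omega⟩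
      refine ⟨(8 * k + 5) * (8 * k ^ 2 + 10 * k + 3), ?_, ?_⟩
      · exact Odd.mul ⟨4 * k + 2, by ring⟩ ⟨4 * k ^ 2 + 5 * k + 1, by ring⟩
      · rw [hk] at hcard
        have e : (8 * k + 5) ^ 2 = (64 * k ^ 2 + 80 * k + 24) + 1 := by ring
        rw [e, Nat.add_sub_cancel] at hcard
        have e2 : (8 * k + 5) * (64 * k ^ 2 + 80 * k + 24) =
            8 * ((8 * k + 5) * (8 * k ^ 2 + 10 * k + 3)) := by ring
        rw [e2] at hcard
        omega
  have hP4 : Nat.card (P : Subgroup (Matrix.ProjectiveSpecialLinearGroup (Fin 2) F)) = 4 := by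
    have h := Sylow.card_eq_multiplicity P
    rw [hMcard] at h
    have hM0 : M ≠ 0 := by
      rintro rfl
      simp at hM
    have hM2 : ¬ 2 ∣ M := by
      have := Nat.odd_iff.mp hM
      omega
    have hfac : (4 * M).factorization 2 = 2 := by
      rw [Nat.factorization_mul (by norm_num) hM0]
      have h4 : (4 : ℕ).factorization 2 = 2 := by
        have : (4 : ℕ) = 2 ^ 2 := by norm_num
        rw [this, Nat.Prime.factorization_pow Nat.prime_two]
        simp
      have hMf : M.factorization 2 = 0 := Nat.factorization_eq_zero_of_not_dvd hM2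
      simp [h4, hMf]
    rw [hfac] at h
    exact h
  have hexp : ∀ x : (P : Subgroup (Matrix.ProjectiveSpecialLinearGroup (Fin 2) F)), x ^ 2 = 1 := by
    intro x
    have hx4 : (x : Matrix.ProjectiveSpecialLinearGroup (Fin 2) F) ^ 4 = 1 := by
      have h := pow_card_eq_one' (G := (P : Subgroup (Matrix.ProjectiveSpecialLinearGroup (Fin 2) F))) (x := x)
      rw [hP4] at h
      have h' := congrArg Subtype.val h
      simpa using h'
    have hord4 : orderOf (x : Matrix.ProjectiveSpecialLinearGroup (Fin 2) F) ∣ 2 ^ 2 :=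
      orderOf_dvd_of_pow_eq_one hx4
    have hgcd : Nat.gcd 2 (Fintype.card F - 1) = 2 := Nat.gcd_eq_left (by omega)
    have hne4 : orderOf (x : Matrix.ProjectiveSpecialLinearGroup (Fin 2) F) ≠ 4 := by
      intro h4
      rcases psl2_orderOf_dvd p (x : Matrix.ProjectiveSpecialLinearGroup (Fin 2) F) with h | h | h
      · rw [h4] at h
        rcases (Nat.dvd_prime hpp).mp h with h' | h'
        · omega
        · rw [← h'] at hpp
          exact absurd hpp (by norm_num)
      · rw [h4, hgcd] at h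
        obtain ⟨j, hj⟩ := h
        omega
      · rw [h4, hgcd] at h
        obtain ⟨j, hj⟩ := h
        omega
    have hord2 : orderOf (x : Matrix.ProjectiveSpecialLinearGroup (Fin 2) F) ∣ 2 := by
      obtain ⟨m, hm, hm'⟩ := (Nat.dvd_prime_pow Nat.prime_two).mp hord4
      interval_cases m
      · rw [hm']
        norm_num
      · rw [hm']
        norm_num
      · exfalso
        apply hne4
        rw [hm']
        norm_num
    apply Subtype.ext
    have := orderOf_dvd_iff_pow_eq_one.mp hord2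
    simpa using this
  refine ⟨hP4, ?_⟩
  have hdvd : Monoid.exponent (P : Subgroup (Matrix.ProjectiveSpecialLinearGroup (Fin 2) F)) ∣ 2 :=
    Monoid.exponent_dvd_of_forall_pow_eq_one hexp
  rcases (Nat.dvd_prime Nat.prime_two).mp hdvd with h | h
  · exfalso
    rw [Monoid.exp_eq_one_iff] at h
    have hle : Nat.card (P : Subgroup (Matrix.ProjectiveSpecialLinearGroup (Fin 2) F)) ≤ 1 :=
      Finite.card_le_one_iff_subsingleton.mpr h
    omega
  · exact h

end Cfsg.Agent.S0276
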