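import Cfsg.Statements.S0837
import Mathlib
import Cfsg.Agent.S0277
import Cfsg.Agent.S0755
-- import your own Cfsg.Agent.* helpers here

set_option autoImplicit false
open Cfsg

namespace Cfsg.Agent.S0837

section
open Matrix

theorem map_map_invol {F : Type*} [Field F] {α β : Type*} (σ : F →+* F) (hσ : ∀ a, σ (σ a) = a)
    (M : Matrix α β F) : (M.map σ).map σ = M := by
  ext i j; simp [hσ]

theorem left_inv_of_U {F : Type*} [Field F] {ι : Type*} [Fintype ι] [DecidableEq ι]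
    (σ : F →+* F) (hσ : ∀ a, σ (σ a) = a)
    (g : Matrix ι ι F) (h : gᵀ * g.map σ = 1) : (g.map σ)ᵀ * g = 1 := by
  have h1 := congrArg (fun M => M.map σ) h
  simp only [Matrix.map_mul] at h1
  rw [map_map_invol σ hσ, Matrix.transpose_map, Matrix.map_one _ (map_zero σ) (map_one σ)] at h1
  exact h1

/-- the unit attached to a unitary matrix -/
def toGL {F : Type*} [Field F] {ι : Type*} [Fintype ι] [DecidableEq ι]
    (σ : F →+* F) (hσ : ∀ a, σ (σ a) = a)
    (g : Matrix ι ι F) (h : gᵀ * g.map σ = 1) : Matrix.GeneralLinearGroup ι F :=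
  ⟨g, (g.map σ)ᵀ, mul_eq_one_comm.mp (left_inv_of_U σ hσ g h), left_inv_of_U σ hσ g h⟩

theorem conjU {F : Type*} [Field F] {α β : Type*} [Fintype α] [DecidableEq α] [Fintype β]
    [DecidableEq β] (σ : F →+* F)
    (X : Matrix α β F) (Y : Matrix β α F) (hY1 : Yᵀ = X.map σ) (hY2 : Y.map σ = Xᵀ)
    (hX : Xᵀ * X.map σ = 1) (hX' : X.map σ * Xᵀ = 1) (M : Matrix β β F)
    (hM : Mᵀ * M.map σ = 1) : (X * M * Y)ᵀ * (X * M * Y).map σ = 1 := by
  rw [Matrix.map_mul, Matrix.map_mul, Matrix.transpose_mul, Matrix.transpose_mul, hY1, hY2]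
  have : X.map σ * (Mᵀ * Xᵀ) * (X.map σ * M.map σ * Xᵀ)
      = X.map σ * (Mᵀ * ((Xᵀ * X.map σ) * M.map σ)) * Xᵀ := by
    simp only [Matrix.mul_assoc]
  rw [this, hX, Matrix.one_mul, hM, Matrix.mul_one, hX']

theorem diagU {F : Type*} [Field F] {α β : Type*} [Fintype α] [DecidableEq α] [Fintype β]
    [DecidableEq β] (σ : F →+* F) (A : Matrix α α F) (D : Matrix β β F)
    (hA : Aᵀ * A.map σ = 1) (hD : Dᵀ * D.map σ = 1) :
    (Matrix.fromBlocks A 0 0 D)ᵀ * (Matrix.fromBlocks A 0 0 D).map σ = 1 := by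
  rw [Matrix.fromBlocks_transpose, Matrix.fromBlocks_map, Matrix.fromBlocks_multiply]
  simp [hA, hD]

theorem blockU {F : Type*} [Field F] {α β : Type*} [Fintype α] [DecidableEq α] [Fintype β]
    [DecidableEq β] (σ : F →+* F) (hσ : ∀ a, σ (σ a) = a) (M : Matrix (α ⊕ β) (α ⊕ β) F)
    (hM : Mᵀ * M.map σ = 1) (h21 : M.toBlocks₂₁ = 0) :
    M.toBlocks₁₂ = 0 ∧ M.toBlocks₁₁ᵀ * M.toBlocks₁₁.map σ = 1 ∧
      M.toBlocks₂₂ᵀ * M.toBlocks₂₂.map σ = 1 := by
  have hM' : M = Matrix.fromBlocks M.toBlocks₁₁ M.toBlocks₁₂ 0 M.toBlocks₂₂ := by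
    rw [← h21, Matrix.fromBlocks_toBlocks]
  generalize M.toBlocks₁₁ = A at hM' ⊢
  generalize M.toBlocks₁₂ = B at hM' ⊢
  generalize M.toBlocks₂₂ = D at hM' ⊢
  subst hM'
  rw [Matrix.fromBlocks_transpose, Matrix.fromBlocks_map, Matrix.fromBlocks_multiply,
    ← Matrix.fromBlocks_one, Matrix.fromBlocks_inj] at hM
  simp only [Matrix.transpose_zero, Matrix.mul_zero, Matrix.zero_mul, add_zero, zero_add] at hM
  obtain ⟨h1, h2, h3, h4⟩ := hM
  have hB : B = 0 := by
    have h5 : A.map σ * Aᵀ = 1 := mul_eq_one_comm.mp h1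
    have h6 : B.map σ = 0 := by
      have : A.map σ * (Aᵀ * B.map σ) = 0 := by rw [h2, Matrix.mul_zero]
      rwa [← Matrix.mul_assoc, h5, Matrix.one_mul] at this
    have h7 := congrArg (fun M => M.map σ) h6
    simp only [map_map_invol σ hσ] at h7
    rw [h7]; ext i j; simp
  subst hB
  refine ⟨rfl, h1, ?_⟩
  simpa using h4

theorem herm_eq {F : Type*} [Field F] [Fintype F] {q : ℕ} (hF : Fintype.card F = q ^ 2) (n : ℕ)
    (u v : Fin n → F) : hermForm n F q u v = u ⬝ᵥ (fun i => S0284.frob hF (v i)) := rfl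

theorem gu_iff {F : Type*} [Field F] [Fintype F] {q : ℕ} (hF : Fintype.card F = q ^ 2) (n : ℕ)
    (A : Matrix (Fin n) (Fin n) F) :
    (∀ u v, hermForm n F q (A *ᵥ u) (A *ᵥ v) = hermForm n F q u v) ↔
      Aᵀ * A.map (S0284.frob hF) = 1 := by
  classical
  have hq := S0284.q_two_le hF
  constructor
  · intro h
    ext a b
    have h1 := h (Pi.single a 1) (Pi.single b 1)
    rw [Matrix.mulVec_single_one, Matrix.mulVec_single_one, S0277.herm_single_left] at h1
    rw [Matrix.mul_apply]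
    have h2 : hermForm n F q (A.col a) (A.col b)
        = ∑ i, Aᵀ a i * (A.map (S0284.frob hF)) i b := rfl
    rw [← h2, h1, Matrix.one_apply]
    by_cases hab : a = b
    · subst hab; simp
    · rw [if_neg hab, Pi.single_eq_of_ne hab, zero_pow (by omega)]
  · intro h u v
    rw [herm_eq hF, herm_eq hF]
    have h1 : (fun i => S0284.frob hF ((A *ᵥ v) i))
        = A.map (S0284.frob hF) *ᵥ (fun i => S0284.frob hF (v i)) := by
      ext i; simp [Matrix.mulVec, dotProduct, map_sum]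
    rw [h1, ← Matrix.vecMul_transpose, ← Matrix.dotProduct_mulVec, Matrix.mulVec_mulVec, h,
      Matrix.one_mulVec]

theorem mem_GU_iff {F : Type*} [Field F] [Fintype F] {q : ℕ} (hF : Fintype.card F = q ^ 2)
    (n : ℕ) (g : GL (Fin n) F) :
    g ∈ GU n F q ↔ (g : Matrix (Fin n) (Fin n) F)ᵀ *
      (g : Matrix (Fin n) (Fin n) F).map (S0284.frob hF) = 1 :=
  (S0277.mem_GU n q g).trans (gu_iff hF n _)

theorem algU {F : Type*} [Field F] [Fintype F] {q : ℕ} (hF : Fintype.card F = q ^ 2)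
    (n k l : ℕ) (W : Submodule F (Fin n → F)) (P : Matrix (Fin n) (Fin k ⊕ Fin l) F)
    (hQP : (P.map (S0284.frob hF))ᵀ * P = 1) (hPQ : P * (P.map (S0284.frob hF))ᵀ = 1)
    (hW : ∀ v, v ∈ W ↔ ∀ b, ((P.map (S0284.frob hF))ᵀ *ᵥ v) (Sum.inr b) = 0) :
    Nonempty (↥((Cfsg.stabilizing (Cfsg.glToMat (Fin n) F) (W : Set (Fin n → F))).subgroupOf
      (Cfsg.GU n F q)) ≃* ↥(Cfsg.GU k F q) × ↥(Cfsg.GU l F q)) := by
  classical
  have hσ : ∀ a, S0284.frob hF (S0284.frob hF a) = a := S0284.frob_invol hF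
  have hQt' : ((P.map (S0284.frob hF))ᵀ)ᵀ = P.map (S0284.frob hF) := Matrix.transpose_transpose _
  have hQm' : ((P.map (S0284.frob hF))ᵀ).map (S0284.frob hF) = Pᵀ := by
    rw [Matrix.transpose_map, map_map_invol _ hσ]
  generalize (P.map (S0284.frob hF))ᵀ = Q at hQP hPQ hW hQt' hQm'
  have h1 : Pᵀ * P.map (S0284.frob hF) = 1 := by
    have := congrArg Matrix.transpose hQP
    rwa [Matrix.transpose_mul, hQt', Matrix.transpose_one] at this
  have h2 : P.map (S0284.frob hF) * Pᵀ = 1 := by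
    have := congrArg Matrix.transpose hPQ
    rwa [Matrix.transpose_mul, hQt', Matrix.transpose_one] at this
  have hU1 : ∀ M : Matrix (Fin k ⊕ Fin l) (Fin k ⊕ Fin l) F, Mᵀ * M.map (S0284.frob hF) = 1 →
      (P * M * Q)ᵀ * (P * M * Q).map (S0284.frob hF) = 1 :=
    fun M hM => conjU _ P Q hQt' hQm' h1 h2 M hM
  have hU2 : ∀ g : Matrix (Fin n) (Fin n) F, gᵀ * g.map (S0284.frob hF) = 1 →
      (Q * g * P)ᵀ * (Q * g * P).map (S0284.frob hF) = 1 :=
    fun g hg => conjU _ Q P hQm'.symm hQt'.symm (by rw [hQt', hQm']; exact h2)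
      (by rw [hQt', hQm']; exact h1) g hg
  have hAD : ∀ (A : GU k F q) (D : GU l F q),
      (P * Matrix.fromBlocks (A.1 : Matrix (Fin k) (Fin k) F) 0 0 (D.1 : Matrix (Fin l) (Fin l) F) * Q)ᵀ *
        (P * Matrix.fromBlocks (A.1 : Matrix (Fin k) (Fin k) F) 0 0 (D.1 : Matrix (Fin l) (Fin l) F) * Q).map
          (S0284.frob hF) = 1 :=
    fun A D => hU1 _ (diagU _ _ _ ((mem_GU_iff hF k A.1).mp A.2) ((mem_GU_iff hF l D.1).mp D.2))
  have hmem2 : ∀ (A : GU k F q) (D : GU l F q) (v : Fin n → F),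
      v ∈ W ↔ (P * Matrix.fromBlocks (A.1 : Matrix (Fin k) (Fin k) F) 0 0 (D.1 : Matrix (Fin l) (Fin l) F) * Q) *ᵥ v
        ∈ W := by
    intro A D v
    rw [hW, hW]
    have h3 : Q *ᵥ ((P * Matrix.fromBlocks (A.1 : Matrix (Fin k) (Fin k) F) 0 0 (D.1 : Matrix (Fin l) (Fin l) F) * Q)
        *ᵥ v) = Matrix.fromBlocks (A.1 : Matrix (Fin k) (Fin k) F) 0 0 (D.1 : Matrix (Fin l) (Fin l) F) *ᵥ (Q *ᵥ v) := by
      rw [Matrix.mulVec_mulVec, Matrix.mulVec_mulVec, ← Matrix.mul_assoc, ← Matrix.mul_assoc, hQP,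
        Matrix.one_mul]
    rw [h3, Matrix.fromBlocks_mulVec]
    simp only [Sum.elim_inr, Matrix.zero_mulVec, zero_add]
    constructor
    · intro h b
      have : (Q *ᵥ v) ∘ Sum.inr = 0 := funext h
      rw [this, Matrix.mulVec_zero]; rfl
    · intro h b
      have h4 : (D.1 : Matrix (Fin l) (Fin l) F) *ᵥ ((Q *ᵥ v) ∘ Sum.inr) = 0 := funext h
      have h5 : ((D.1⁻¹ : GL (Fin l) F) : Matrix (Fin l) (Fin l) F) *ᵥ
          ((D.1 : Matrix (Fin l) (Fin l) F) *ᵥ ((Q *ᵥ v) ∘ Sum.inr)) = (Q *ᵥ v) ∘ Sum.inr := by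
        rw [Matrix.mulVec_mulVec]
        have : ((D.1⁻¹ : GL (Fin l) F) : Matrix (Fin l) (Fin l) F) * (D.1 : Matrix (Fin l) (Fin l) F) = 1 :=
          Units.inv_mul D.1
        rw [this, Matrix.one_mulVec]
      rw [h4, Matrix.mulVec_zero] at h5
      exact (congrFun h5 b).symm
  let ψ : ↥(GU k F q) × ↥(GU l F q) →* ↥((Cfsg.stabilizing (Cfsg.glToMat (Fin n) F)
      (W : Set (Fin n → F))).subgroupOf (Cfsg.GU n F q)) :=
    { toFun := fun AD => ⟨⟨toGL _ hσ _ (hAD AD.1 AD.2), (mem_GU_iff hF n _).mpr (hAD AD.1 AD.2)⟩,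
        Subgroup.mem_subgroupOf.mpr (hmem2 AD.1 AD.2)⟩
      map_one' := by
        apply Subtype.ext; apply Subtype.ext; apply Units.ext
        show P * Matrix.fromBlocks (1 : Matrix (Fin k) (Fin k) F) 0 0 (1 : Matrix (Fin l) (Fin l) F) * Q = 1
        rw [Matrix.fromBlocks_one, Matrix.mul_one, hPQ]
      map_mul' := by
        intro x y
        apply Subtype.ext; apply Subtype.ext; apply Units.ext
        show P * Matrix.fromBlocks ((x.1.1 : Matrix (Fin k) (Fin k) F) * (y.1.1 : Matrix (Fin k) (Fin k) F)) 0 0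
            ((x.2.1 : Matrix (Fin l) (Fin l) F) * (y.2.1 : Matrix (Fin l) (Fin l) F)) * Q
          = (P * Matrix.fromBlocks (x.1.1 : Matrix (Fin k) (Fin k) F) 0 0 (x.2.1 : Matrix (Fin l) (Fin l) F) * Q) *
            (P * Matrix.fromBlocks (y.1.1 : Matrix (Fin k) (Fin k) F) 0 0 (y.2.1 : Matrix (Fin l) (Fin l) F) * Q)
        have : (P * Matrix.fromBlocks (x.1.1 : Matrix (Fin k) (Fin k) F) 0 0 (x.2.1 : Matrix (Fin l) (Fin l) F) * Q) *
            (P * Matrix.fromBlocks (y.1.1 : Matrix (Fin k) (Fin k) F) 0 0 (y.2.1 : Matrix (Fin l) (Fin l) F) * Q)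
            = P * (Matrix.fromBlocks (x.1.1 : Matrix (Fin k) (Fin k) F) 0 0 (x.2.1 : Matrix (Fin l) (Fin l) F) * (Q * P) *
              Matrix.fromBlocks (y.1.1 : Matrix (Fin k) (Fin k) F) 0 0 (y.2.1 : Matrix (Fin l) (Fin l) F)) * Q := by
          simp only [Matrix.mul_assoc]
        rw [this, hQP, Matrix.mul_one, Matrix.fromBlocks_multiply]
        simp }
  have hinj : Function.Injective ψ := by
    intro x y hxy
    have h3 : P * Matrix.fromBlocks (x.1.1 : Matrix (Fin k) (Fin k) F) 0 0 (x.2.1 : Matrix (Fin l) (Fin l) F) * Q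
        = P * Matrix.fromBlocks (y.1.1 : Matrix (Fin k) (Fin k) F) 0 0 (y.2.1 : Matrix (Fin l) (Fin l) F) * Q :=
      congrArg (fun g => ((g.1.1 : GL (Fin n) F) : Matrix (Fin n) (Fin n) F)) hxy
    have h4 : ∀ M : Matrix (Fin k ⊕ Fin l) (Fin k ⊕ Fin l) F, Q * (P * M * Q) * P = M := by
      intro M
      have : Q * (P * M * Q) * P = (Q * P) * M * (Q * P) := by simp only [Matrix.mul_assoc]
      rw [this, hQP, Matrix.one_mul, Matrix.mul_one]
    have h5 := congrArg (fun g => Q * g * P) h3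
    simp only [h4] at h5
    rw [Matrix.fromBlocks_inj] at h5
    exact Prod.ext (Subtype.ext (Units.ext h5.1)) (Subtype.ext (Units.ext h5.2.2.2))
  have hsurj : Function.Surjective ψ := by
    rintro ⟨⟨g, hgU⟩, hgS⟩
    have hg' : ∀ v, v ∈ W ↔ (g : Matrix (Fin n) (Fin n) F) *ᵥ v ∈ W :=
      Subgroup.mem_subgroupOf.mp hgS
    have hM := hU2 _ ((mem_GU_iff hF n g).mp hgU)
    have h21 : (Q * (g : Matrix (Fin n) (Fin n) F) * P).toBlocks₂₁ = 0 := by
      ext b a
      show (Q * (g : Matrix (Fin n) (Fin n) F) * P) (Sum.inr b) (Sum.inl a) = 0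
      have h3 : P *ᵥ Pi.single (Sum.inl a) 1 ∈ W := by
        rw [hW]
        intro b'
        rw [Matrix.mulVec_mulVec, hQP, Matrix.one_mulVec]
        simp
      have h4 := (hg' _).mp h3
      rw [hW] at h4
      have h5 := h4 b
      rw [Matrix.mulVec_mulVec, Matrix.mulVec_mulVec, Matrix.mulVec_single_one] at h5
      exact h5
    obtain ⟨h12, hA, hD⟩ := blockU _ hσ _ hM h21
    refine ⟨(⟨toGL _ hσ _ hA, (mem_GU_iff hF k _).mpr hA⟩,
      ⟨toGL _ hσ _ hD, (mem_GU_iff hF l _).mpr hD⟩), ?_⟩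
    apply Subtype.ext; apply Subtype.ext; apply Units.ext
    show P * Matrix.fromBlocks (Q * (g : Matrix (Fin n) (Fin n) F) * P).toBlocks₁₁ 0 0
      (Q * (g : Matrix (Fin n) (Fin n) F) * P).toBlocks₂₂ * Q = (g : Matrix (Fin n) (Fin n) F)
    have h5 := Matrix.fromBlocks_toBlocks (Q * (g : Matrix (Fin n) (Fin n) F) * P)
    rw [h12, h21] at h5
    rw [h5]
    have : P * (Q * (g : Matrix (Fin n) (Fin n) F) * P) * Q
        = (P * Q) * (g : Matrix (Fin n) (Fin n) F) * (P * Q) := by simp only [Matrix.mul_assoc]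
    rw [this, hPQ, Matrix.one_mul, Matrix.mul_one]
  exact ⟨(MulEquiv.ofBijective ψ ⟨hinj, hsurj⟩).symm⟩

theorem geoU {F : Type*} [Field F] [Fintype F] {q : ℕ} (hF : Fintype.card F = q ^ 2)
    (n k : ℕ) (W : Submodule F (Fin n → F)) (hWk : Module.finrank F W = k)
    (hW : ∀ u ∈ W, (∀ v ∈ W, Cfsg.hermForm n F q u v = 0) → u = 0) :
    ∃ P : Matrix (Fin n) (Fin k ⊕ Fin (n - k)) F,
      (P.map (S0284.frob hF))ᵀ * P = 1 ∧ P * (P.map (S0284.frob hF))ᵀ = 1 ∧
      ∀ v, v ∈ W ↔ ∀ b, ((P.map (S0284.frob hF))ᵀ *ᵥ v) (Sum.inr b) = 0 := by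
  classical
  have hσ : ∀ a, S0284.frob hF (S0284.frob hF a) = a := S0284.frob_invol hF
  have hS : (S0277.hB hF n).IsSymm := S0277.hB_symm hF n
  have hnd : (S0277.hB hF n).Nondegenerate := S0277.hB_nondeg hF n
  have hsym : ∀ x y, S0284.frob hF (S0277.hB hF n x y) = S0277.hB hF n y x :=
    LinearMap.isSymm_def.mp hS
  have hkn : k ≤ n := by
    have := Submodule.finrank_le W
    rw [hWk, Module.finrank_fin_fun] at this
    exact this
  have hSW : ((S0277.hB hF n).domRestrict₁₂ W W).IsSymm := ⟨fun x y => hsym x y⟩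
  have hsepW : ∀ x : W, (∀ y : W, S0277.hB hF n (x : Fin n → F) (y : Fin n → F) = 0) → x = 0 := by
    intro x hx
    apply Subtype.ext
    apply hW x.1 x.2
    intro v hv
    have h1 := hx ⟨v, hv⟩
    rw [← S0277.hB_apply hF, ← hsym, h1, map_zero]
  have hndW : ((S0277.hB hF n).domRestrict₁₂ W W).Nondegenerate := by
    refine ⟨fun x hx => hsepW x (fun y => hx y), fun y hy => hsepW y (fun x => ?_)⟩
    rw [← hsym]
    have h4 : S0277.hB hF n (x : Fin n → F) (y : Fin n → F) = 0 := hy x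
    rw [h4, map_zero]
  obtain ⟨bW, hbW⟩ := S0755.main (S0284.frob hF) (S0284.frob_ne hF) hσ k
    ((S0277.hB hF n).domRestrict₁₂ W W) hSW hndW hWk
  have hbW' : ∀ i j, S0277.hB hF n (bW i).1 (bW j).1 = if i = j then 1 else 0 := hbW
  let π : (Fin n → F) →ₗ[F] (Fin k → F) := LinearMap.pi (fun i => S0277.hB hF n (bW i).1)
  have hπ : ∀ x i, π x i = S0277.hB hF n (bW i).1 x := fun x i => rfl
  have hπsurj : Function.Surjective π := by
    intro a
    refine ⟨∑ j, a j • (bW j).1, ?_⟩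
    funext i
    rw [hπ, map_sum]
    simp [hbW']
  have hker : Module.finrank F (LinearMap.ker π) = n - k := by
    have h1 := LinearMap.finrank_range_add_finrank_ker π
    rw [LinearMap.range_eq_top.mpr hπsurj, finrank_top, Module.finrank_fin_fun,
      Module.finrank_fin_fun] at h1
    omega
  have hdec : ∀ y : Fin n → F, y - ∑ i, S0277.hB hF n (bW i).1 y • (bW i).1 ∈ LinearMap.ker π := by
    intro y
    rw [LinearMap.mem_ker]
    funext i
    rw [hπ, map_sub, map_sum]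
    simp [hbW']
  have hWexp : ∀ w ∈ W, ∃ r : Fin k → F, w = ∑ i, r i • (bW i).1 := by
    intro w hw
    refine ⟨fun i => bW.repr ⟨w, hw⟩ i, ?_⟩
    have := congrArg Subtype.val (bW.sum_repr ⟨w, hw⟩)
    simp only [Submodule.coe_sum, Submodule.coe_smul] at this
    exact this.symm
  have hperp : ∀ x ∈ LinearMap.ker π, ∀ w ∈ W, S0277.hB hF n x w = 0 := by
    intro x hx w hw
    obtain ⟨r, rfl⟩ := hWexp w hw
    rw [map_sum]
    apply Finset.sum_eq_zero; intro i _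
    rw [map_smul, ← hsym,
      show S0277.hB hF n (bW i).1 x = 0 from congrFun (LinearMap.mem_ker.mp hx) i]
    simp
  have hsepU : ∀ x : LinearMap.ker π,
      (∀ y : LinearMap.ker π, S0277.hB hF n (x : Fin n → F) (y : Fin n → F) = 0) → x = 0 := by
    intro x hx
    apply Subtype.ext
    apply hnd.1
    intro y
    have h3 := hx ⟨_, hdec y⟩
    rw [map_sub, map_sum] at h3
    have h4 : ∀ i, S0277.hB hF n x.1 (S0277.hB hF n (bW i).1 y • (bW i).1) = 0 := by
      intro i; rw [map_smul, hperp x.1 x.2 _ (bW i).2, smul_zero]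
    rw [Finset.sum_eq_zero (fun i _ => h4 i), sub_zero] at h3
    exact h3
  have hSU : ((S0277.hB hF n).domRestrict₁₂ (LinearMap.ker π) (LinearMap.ker π)).IsSymm :=
    ⟨fun x y => hsym x y⟩
  have hndU : ((S0277.hB hF n).domRestrict₁₂ (LinearMap.ker π) (LinearMap.ker π)).Nondegenerate := by
    refine ⟨fun x hx => hsepU x (fun y => hx y), fun y hy => hsepU y (fun x => ?_)⟩
    rw [← hsym]
    have h4 : S0277.hB hF n (x : Fin n → F) (y : Fin n → F) = 0 := hy x
    rw [h4, map_zero]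
  obtain ⟨bU, hbU⟩ := S0755.main (S0284.frob hF) (S0284.frob_ne hF) hσ (n - k)
    ((S0277.hB hF n).domRestrict₁₂ (LinearMap.ker π) (LinearMap.ker π)) hSU hndU hker
  have hbU' : ∀ i j, S0277.hB hF n (bU i).1 (bU j).1 = if i = j then 1 else 0 := hbU
  let c : Fin k ⊕ Fin (n - k) → (Fin n → F) := Sum.elim (fun i => (bW i).1) (fun j => (bU j).1)
  have hc : ∀ a b, S0277.hB hF n (c a) (c b) = if a = b then 1 else 0 := by
    rintro (i | i) (j | j)
    · simp [c, hbW']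
    · have : S0277.hB hF n (bW i).1 (bU j).1 = 0 := congrFun (LinearMap.mem_ker.mp (bU j).2) i
      simp [c, this]
    · have : S0277.hB hF n (bU i).1 (bW j).1 = 0 := hperp _ (bU i).2 _ (bW j).2
      simp [c, this]
    · simp [c, hbU']
  let P : Matrix (Fin n) (Fin k ⊕ Fin (n - k)) F := Matrix.of fun i a => c a i
  have hQ : ∀ (a : Fin k ⊕ Fin (n - k)) (v : Fin n → F),
      ((P.map (S0284.frob hF))ᵀ *ᵥ v) a = S0277.hB hF n (c a) v := by
    intro a v
    rw [S0277.hB_apply]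
    simp [Matrix.mulVec, dotProduct, hermForm, P, mul_comm, S0284.frob_apply]
  have hQP : (P.map (S0284.frob hF))ᵀ * P = 1 := by
    ext a b
    have := hQ a (c b)
    rw [Matrix.one_apply, ← hc a b, ← this]; rfl
  have hPQ : P * (P.map (S0284.frob hF))ᵀ = 1 := by
    refine (Matrix.mul_eq_one_comm_of_card_eq _ _ _ ?_).mp hQP
    simp only [Fintype.card_sum, Fintype.card_fin]; omega
  refine ⟨P, hQP, hPQ, ?_⟩
  intro v
  constructor
  · intro hv b
    rw [hQ]
    exact hperp _ (bU b).2 v hv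
  · intro hv
    have hv2 : v = P *ᵥ ((P.map (S0284.frob hF))ᵀ *ᵥ v) := by
      rw [Matrix.mulVec_mulVec, hPQ, Matrix.one_mulVec]
    rw [hv2]
    have hPy : ∀ y : Fin k ⊕ Fin (n - k) → F, P *ᵥ y = ∑ a, y a • c a := by
      intro y; ext i; simp [Matrix.mulVec, dotProduct, P, mul_comm]
    rw [hPy, Fintype.sum_sum_type]
    simp only [hv, zero_smul, Finset.sum_const_zero, add_zero]
    exact W.sum_mem fun i _ => W.smul_mem _ (bW i).2

theorem main {F : Type*} [Field F] [Fintype F] {q : ℕ} (hF : Fintype.card F = q ^ 2)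
    (n k : ℕ) (W : Submodule F (Fin n → F)) (hWk : Module.finrank F W = k)
    (hW : ∀ u ∈ W, (∀ v ∈ W, Cfsg.hermForm n F q u v = 0) → u = 0) :
    Nonempty (↥((Cfsg.stabilizing (Cfsg.glToMat (Fin n) F) (W : Set (Fin n → F))).subgroupOf
      (Cfsg.GU n F q)) ≃* ↥(Cfsg.GU k F q) × ↥(Cfsg.GU (n - k) F q)) := by
  obtain ⟨P, h1, h2, h3⟩ := geoU hF n k W hWk hW
  exact algU hF n k (n - k) W P h1 h2 h3

end


/-- If W ≤ F^n (|F| = q²) is a k-dimensional subspace on which the Hermitian form Σ x_i y_i^q is non-degenerate, then the stabiliser of W in GU_n(q) is isomorphic to GU_k(q) × GU_(n−k)(q). -/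
theorem result {F : Type*} [Field F] [Fintype F] {q : ℕ} (hF : Fintype.card F = q ^ 2) (n k : ℕ) (hk : k ≤ n) (W : Submodule F (Fin n → F)) (hWk : Module.finrank F W = k) (hW : ∀ u ∈ W, (∀ v ∈ W, Cfsg.hermForm n F q u v = 0) → u = 0) : Nonempty (↥((Cfsg.stabilizing (Cfsg.glToMat (Fin n) F) (W : Set (Fin n → F))).subgroupOf (Cfsg.GU n F q)) ≃* ↥(Cfsg.GU k F q) × ↥(Cfsg.GU (n - k) F q)) := by
  exact main hF n k W hWk hW


end Cfsg.Agent.S0837
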