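import Cfsg.Statements.S0281
import Mathlib
import Cfsg.Agent.S0278
import Cfsg.Agent.S0837
import Cfsg.Agent.Helper2.SLCard
-- import your own Cfsg.Agent.* helpers here

set_option autoImplicit false
open Cfsg

namespace Cfsg.Agent.S0281


section
open Matrix

theorem exists_emb {F K : Type*} [Field F] [Fintype F] [Field K] [Fintype K] {q : ℕ}
    (hF : Fintype.card F = q ^ 2) (hK : Fintype.card K = q) : Nonempty (K →+* F) := by
  obtain ⟨p, hp⟩ := CharP.exists K
  haveI := hp
  have hpp : p.Prime := CharP.char_is_prime K p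
  haveI : Fact p.Prime := ⟨hpp⟩
  obtain ⟨p', hp'⟩ := CharP.exists F
  haveI := hp'
  have hpp' : p'.Prime := CharP.char_is_prime F p'
  obtain ⟨n, hn1, hn2⟩ := FiniteField.card K p
  obtain ⟨n', hn1', hn2'⟩ := FiniteField.card F p'
  have hpeq : p' = p := by
    have h1 : p' ∣ p ^ (2 * (n : ℕ)) := by
      rw [pow_mul', ← hn2, hK, ← hF, hn2']
      exact dvd_pow_self _ (PNat.ne_zero n')
    exact (Nat.prime_dvd_prime_iff_eq hpp' hpp).mp (hpp'.dvd_of_dvd_pow h1)
  subst hpeq
  letI : Algebra (ZMod p') K := ZMod.algebra K p'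
  letI : Algebra (ZMod p') F := ZMod.algebra F p'
  have h1 : p' ^ Module.finrank (ZMod p') K = q := by rw [FiniteField.pow_finrank_eq_card, hK]
  have h2 : p' ^ Module.finrank (ZMod p') F = q ^ 2 := by rw [FiniteField.pow_finrank_eq_card, hF]
  have h3 : Module.finrank (ZMod p') F = 2 * Module.finrank (ZMod p') K := by
    apply Nat.pow_right_injective hpp'.two_le
    show p' ^ _ = p' ^ _
    rw [h2, pow_mul', h1]
  obtain ⟨f⟩ := FiniteField.nonempty_algHom_of_finrank_dvd (F := ZMod p') (K := K) (L := F)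
    (by rw [h3]; exact dvd_mul_left _ _)
  exact ⟨f.toRingHom⟩

theorem two_J {R : Type*} [CommRing R] (X : Matrix (Fin 2) (Fin 2) R) :
    Xᵀ * !![0, 1; -1, 0] * X = X.det • !![0, 1; -1, 0] := by
  ext i j
  fin_cases i <;> fin_cases j <;>
    simp [Matrix.mul_apply, Fin.sum_univ_two, Matrix.det_fin_two] <;> ring

theorem mem_SU_iff {F : Type*} [Field F] [Fintype F] {q : ℕ} (hF : Fintype.card F = q ^ 2)
    (n : ℕ) (g : Matrix.SpecialLinearGroup (Fin n) F) :
    g ∈ SU n F q ↔ (g.1)ᵀ * (g.1).map (S0284.frob hF) = 1 :=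
  (show g ∈ SU n F q ↔ ∀ u v, hermForm n F q (g.1 *ᵥ u) (g.1 *ᵥ v) = hermForm n F q u v from
    Iff.rfl).trans (S0837.gu_iff hF n _)

theorem exists_P {F : Type*} [Field F] [Fintype F] {q : ℕ} (hF : Fintype.card F = q ^ 2) :
    ∃ (P Q : Matrix (Fin 2) (Fin 2) F) (ε : F), P * Q = 1 ∧ Q * P = 1 ∧
      Pᵀ * P.map (S0284.frob hF) = ε • !![0, 1; -1, 0] := by
  classical
  have hq := S0284.q_two_le hF
  have hfix : (-1 : F) ^ q = -1 := by
    have h1 := map_neg (S0284.frob hF) 1
    rw [map_one] at h1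
    exact h1
  have hcard := S0284.card_norm_fiber hF (-1) hfix
  rw [if_neg (by simp)] at hcard
  obtain ⟨⟨a, ha⟩⟩ : Nonempty {x : F // x ^ (q + 1) = -1} :=
    (Nat.card_pos_iff.mp (by rw [hcard]; omega)).1
  obtain ⟨l, hl⟩ : ∃ l : F, l ^ q ≠ l := by
    by_contra hno
    push Not at hno
    exact S0284.frob_ne hF (RingHom.ext fun x => hno x)
  have ha0 : a ≠ 0 := by
    rintro rfl
    rw [zero_pow (by omega)] at ha
    exact zero_ne_one (neg_eq_zero.mp ha.symm).symm
  have ha' : a * a ^ q = -1 := by rw [← pow_succ']; exact ha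
  have hε0 : l - l ^ q ≠ 0 := sub_ne_zero.mpr (Ne.symm hl)
  have hd : -(a * (l - l ^ q)) ≠ 0 := neg_ne_zero.mpr (mul_ne_zero ha0 hε0)
  have hadj1 : !![a, l * a; 1, l ^ q] * !![l ^ q, -(l * a); -1, a]
      = (-(a * (l - l ^ q))) • (1 : Matrix (Fin 2) (Fin 2) F) := by
    ext i j
    fin_cases i <;> fin_cases j <;> simp [Matrix.mul_apply, Fin.sum_univ_two] <;> ring
  have hadj2 : !![l ^ q, -(l * a); -1, a] * !![a, l * a; 1, l ^ q]
      = (-(a * (l - l ^ q))) • (1 : Matrix (Fin 2) (Fin 2) F) := by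
    ext i j
    fin_cases i <;> fin_cases j <;> simp [Matrix.mul_apply, Fin.sum_univ_two] <;> ring
  refine ⟨!![a, l * a; 1, l ^ q], (-(a * (l - l ^ q)))⁻¹ • !![l ^ q, -(l * a); -1, a],
    l - l ^ q, ?_, ?_, ?_⟩
  · rw [Matrix.mul_smul, hadj1, smul_smul, inv_mul_cancel₀ hd, one_smul]
  · rw [Matrix.smul_mul, hadj2, smul_smul, inv_mul_cancel₀ hd, one_smul]
  · have hll : (l ^ q) ^ q = l := S0284.pow_q_q hF l
    ext i j
    fin_cases i <;> fin_cases j <;>
      simp [Matrix.mul_apply, Fin.sum_univ_two, S0284.frob_apply, mul_pow, hll]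
    · linear_combination ha'
    · linear_combination (l ^ q) * ha'
    · linear_combination l * ha'
    · linear_combination (l * l ^ q) * ha'

theorem main {F K : Type*} [Field F] [Fintype F] [Field K] [Fintype K] {q : ℕ}
    (hF : Fintype.card F = q ^ 2) (hK : Fintype.card K = q) :
    Nonempty (Cfsg.SU 2 F q ≃* Matrix.SpecialLinearGroup (Fin 2) K) := by
  classical
  have hq := S0284.q_two_le hF
  obtain ⟨ι⟩ := exists_emb hF hK
  obtain ⟨P, Q, ε, hPQ, hQP, hPP⟩ := exists_P hF
  have hιfix : ∀ x : K, S0284.frob hF (ι x) = ι x := by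
    intro x
    rw [S0284.frob_apply, ← map_pow, ← hK, FiniteField.pow_card]
  have hdetX : ∀ A : Matrix.SpecialLinearGroup (Fin 2) K, (A.1.map ι).det = 1 := by
    intro A
    rw [← RingHom.mapMatrix_apply, ← RingHom.map_det, A.2, map_one]
  have hU : ∀ A : Matrix.SpecialLinearGroup (Fin 2) K,
      (P * (A.1.map ι) * Q)ᵀ * (P * (A.1.map ι) * Q).map (S0284.frob hF) = 1 := by
    intro A
    have hX1 : (A.1.map ι).map (S0284.frob hF) = A.1.map ι := by
      ext i j; simp [hιfix]
    have hX2 : (A.1.map ι)ᵀ * !![0, 1; -1, 0] * (A.1.map ι) = !![0, 1; -1, 0] := by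
      rw [two_J, hdetX, one_smul]
    rw [Matrix.map_mul, Matrix.map_mul, hX1, Matrix.transpose_mul, Matrix.transpose_mul]
    have e1 : Qᵀ * ((A.1.map ι)ᵀ * Pᵀ) * (P.map (S0284.frob hF) * A.1.map ι
          * Q.map (S0284.frob hF))
        = Qᵀ * ((A.1.map ι)ᵀ * (Pᵀ * P.map (S0284.frob hF)) * A.1.map ι)
          * Q.map (S0284.frob hF) := by
      simp only [Matrix.mul_assoc]
    rw [e1, hPP, Matrix.mul_smul, Matrix.smul_mul, hX2, ← hPP]
    have e2 : Qᵀ * (Pᵀ * P.map (S0284.frob hF)) * Q.map (S0284.frob hF)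
        = (P * Q)ᵀ * (P * Q).map (S0284.frob hF) := by
      rw [Matrix.transpose_mul, Matrix.map_mul]; simp only [Matrix.mul_assoc]
    rw [e2, hPQ]
    simp
  have hdet : ∀ A : Matrix.SpecialLinearGroup (Fin 2) K, (P * (A.1.map ι) * Q).det = 1 := by
    intro A
    rw [Matrix.det_mul, Matrix.det_mul, mul_right_comm, ← Matrix.det_mul, hPQ, Matrix.det_one,
      one_mul, hdetX]
  let Φ : Matrix.SpecialLinearGroup (Fin 2) K →* Cfsg.SU 2 F q :=
    { toFun := fun A => ⟨⟨P * (A.1.map ι) * Q, hdet A⟩, (mem_SU_iff hF 2 _).mpr (hU A)⟩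
      map_one' := by
        apply Subtype.ext; apply Subtype.ext
        show P * ((1 : Matrix (Fin 2) (Fin 2) K).map ι) * Q = 1
        rw [Matrix.map_one _ (map_zero ι) (map_one ι), Matrix.mul_one, hPQ]
      map_mul' := by
        intro A B
        apply Subtype.ext; apply Subtype.ext
        show P * ((A.1 * B.1).map ι) * Q = (P * (A.1.map ι) * Q) * (P * (B.1.map ι) * Q)
        have e3 : (P * (A.1.map ι) * Q) * (P * (B.1.map ι) * Q)
            = P * (A.1.map ι * (Q * P) * B.1.map ι) * Q := by simp only [Matrix.mul_assoc]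
        rw [e3, hQP, Matrix.mul_one, Matrix.map_mul] }
  have hinj : Function.Injective Φ := by
    intro A B hAB
    have h1 : P * (A.1.map ι) * Q = P * (B.1.map ι) * Q :=
      congrArg (fun g => g.1.1) hAB
    have h2 : ∀ M : Matrix (Fin 2) (Fin 2) F, Q * (P * M * Q) * P = M := by
      intro M
      have : Q * (P * M * Q) * P = (Q * P) * M * (Q * P) := by simp only [Matrix.mul_assoc]
      rw [this, hQP, Matrix.one_mul, Matrix.mul_one]
    have h3 := congrArg (fun g => Q * g * P) h1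
    simp only [h2] at h3
    apply Subtype.ext
    ext i j
    have h4 := congrFun (congrFun h3 i) j
    simp only [Matrix.map_apply] at h4
    exact ι.injective h4
  have hcardSU : Nat.card (Cfsg.SU 2 F q) = q * (q ^ 2 - 1) := by
    have h1 := S0278.result hF 2 (by norm_num)
    have e0 : q ^ (2 * (2 - 1) / 2) * ∏ i ∈ Finset.range 2,
        (if Even i then q ^ (i + 1) + 1 else q ^ (i + 1) - 1)
        = q * ((q + 1) * (q ^ 2 - 1)) := by
      rw [Finset.prod_range_succ, Finset.prod_range_one]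
      norm_num
    rw [e0] at h1
    have h2 : q ^ 2 - 1 = (q + 1) * (q - 1) := by
      obtain ⟨t, rfl⟩ : ∃ t, q = t + 1 := ⟨q - 1, by omega⟩
      simp only [Nat.add_sub_cancel]
      have : (t + 1) ^ 2 = (t + 1 + 1) * t + 1 := by ring
      omega
    have h3 : (q + 1) * Nat.card (Cfsg.SU 2 F q) = (q + 1) * (q * (q ^ 2 - 1)) := by
      rw [h1]; ring
    exact Nat.eq_of_mul_eq_mul_left (by omega) h3
  have hcardSL : Nat.card (Matrix.SpecialLinearGroup (Fin 2) K) = q * (q ^ 2 - 1) := by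
    have h1 := Helper2.SLCard.card_SL_mul K 2 (by norm_num)
    rw [Matrix.card_GL_field, hK, Fin.prod_univ_two] at h1
    simp only [Fin.val_zero, Fin.val_one, pow_zero, pow_one] at h1
    have h2 : q ^ 2 - q = q * (q - 1) := by
      rw [Nat.mul_sub, sq, mul_one]
    rw [h2] at h1
    have h3 : Nat.card (Matrix.SpecialLinearGroup (Fin 2) K) * (q - 1)
        = (q * (q ^ 2 - 1)) * (q - 1) := by rw [h1]; ring
    exact Nat.eq_of_mul_eq_mul_right (by omega) h3
  have hbij : Function.Bijective Φ :=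
    hinj.bijective_of_nat_card_le (by rw [hcardSU, hcardSL])
  exact ⟨(MulEquiv.ofBijective Φ hbij).symm⟩

end


/-- SU_2(q) is isomorphic to SL_2(q). -/
theorem result {F K : Type*} [Field F] [Fintype F] [Field K] [Fintype K] {q : ℕ} (hF : Fintype.card F = q ^ 2) (hK : Fintype.card K = q) : Nonempty (Cfsg.SU 2 F q ≃* Matrix.SpecialLinearGroup (Fin 2) K) := by
  exact main hF hK


end Cfsg.Agent.S0281
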