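import Cfsg.Statements.S0290
import Cfsg.Agent.Helper2.QCount

set_option autoImplicit false
open Cfsg

namespace Cfsg.Agent.S0290

theorem aux {F : Type*} [Field F] [Fintype F] (k : ℕ) (a b : F)
    (hab : ∀ z₁ z₂ : F, z₁ ^ 2 + a * z₁ * z₂ + b * z₂ ^ 2 = 0 → z₁ = 0 ∧ z₂ = 0) :
    Nat.card {v : (Fin k ⊕ Fin k) ⊕ Fin 2 → F // Cfsg.quadFormMinus k F a b v = 0}
      = Fintype.card F ^ k
        + (Fintype.card F ^ k - 1) * (Fintype.card F ^ 2 * Fintype.card F ^ (k - 1)) := by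
  classical
  let e : ((Fin k ⊕ Fin k) ⊕ Fin 2 → F) ≃ ((Fin 2 → F) × (Fin k → F)) × (Fin k → F) :=
    { toFun := fun v => ((fun j => v (Sum.inr j), fun i => v (Sum.inl (Sum.inl i))),
        fun i => v (Sum.inl (Sum.inr i)))
      invFun := fun p => Sum.elim (Sum.elim p.1.2 p.2) p.1.1
      left_inv := by
        intro v
        funext s
        rcases s with (i | i) | j <;> rfl
      right_inv := by
        rintro ⟨⟨z, x⟩, y⟩
        rfl }
  have e1 : {v : (Fin k ⊕ Fin k) ⊕ Fin 2 → F // Cfsg.quadFormMinus k F a b v = 0} ≃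
      {p : ((Fin 2 → F) × (Fin k → F)) × (Fin k → F) //
        (∑ i, p.1.2 i * p.2 i)
          + (p.1.1 0 ^ 2 + a * p.1.1 0 * p.1.1 1 + b * p.1.1 1 ^ 2) = 0} :=
    e.subtypeEquiv (fun v => Iff.rfl)
  have e2 := Equiv.subtypeProdEquivSigmaSubtype
    (fun (p : (Fin 2 → F) × (Fin k → F)) (y : Fin k → F) =>
      (∑ i, p.2 i * y i) + (p.1 0 ^ 2 + a * p.1 0 * p.1 1 + b * p.1 1 ^ 2) = 0)
  rw [Nat.card_congr (e1.trans e2), Nat.card_sigma, Fintype.sum_prod_type_right]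
  have hz : ∀ z : Fin 2 → F, z ≠ 0 → z 0 ^ 2 + a * z 0 * z 1 + b * z 1 ^ 2 ≠ 0 := by
    intro z hz h
    obtain ⟨h0, h1⟩ := hab _ _ h
    apply hz
    funext j
    fin_cases j
    · exact h0
    · exact h1
  have h0 : ∑ z : Fin 2 → F, Nat.card {y : Fin k → F //
      (∑ i, (0 : Fin k → F) i * y i) + (z 0 ^ 2 + a * z 0 * z 1 + b * z 1 ^ 2) = 0}
      = Fintype.card F ^ k := by
    rw [Finset.sum_eq_single (0 : Fin 2 → F)]
    · have := Cfsg.Agent.Helper2.QCount.card_zero_pos (ι := Fin k)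
        (fun s : F => s + ((0 : Fin 2 → F) 0 ^ 2 + a * (0 : Fin 2 → F) 0 * (0 : Fin 2 → F) 1
          + b * (0 : Fin 2 → F) 1 ^ 2) = 0) (by simp)
      rw [Fintype.card_fin] at this
      exact this
    · intro z _ hz'
      exact Cfsg.Agent.Helper2.QCount.card_zero_neg (ι := Fin k)
        (fun s : F => s + (z 0 ^ 2 + a * z 0 * z 1 + b * z 1 ^ 2) = 0)
        (by simpa using hz z hz')
    · intro h
      exact absurd (Finset.mem_univ _) h
  have h1 : ∀ x : Fin k → F, x ≠ 0 → ∑ z : Fin 2 → F, Nat.card {y : Fin k → F //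
      (∑ i, x i * y i) + (z 0 ^ 2 + a * z 0 * z 1 + b * z 1 ^ 2) = 0}
      = Fintype.card F ^ 2 * Fintype.card F ^ (k - 1) := by
    intro x hx
    have hc : ∀ z : Fin 2 → F, Nat.card {y : Fin k → F //
        (∑ i, x i * y i) + (z 0 ^ 2 + a * z 0 * z 1 + b * z 1 ^ 2) = 0}
        = Fintype.card F ^ (k - 1) := by
      intro z
      have := Cfsg.Agent.Helper2.QCount.card_ne x hx
        (fun s : F => s + (z 0 ^ 2 + a * z 0 * z 1 + b * z 1 ^ 2) = 0)
        (-(z 0 ^ 2 + a * z 0 * z 1 + b * z 1 ^ 2))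
        (fun s => ⟨fun h => by linear_combination h, fun h => by linear_combination h⟩)
      rw [Fintype.card_fin] at this
      exact this
    rw [Finset.sum_congr rfl (fun z _ => hc z), Finset.sum_const, Finset.card_univ,
      Fintype.card_fun, Fintype.card_fin, smul_eq_mul]
  refine (Cfsg.Agent.Helper2.QCount.sum_split
    (fun x : Fin k → F => ∑ z : Fin 2 → F, Nat.card {y : Fin k → F //
      (∑ i, x i * y i) + (z 0 ^ 2 + a * z 0 * z 1 + b * z 1 ^ 2) = 0}) _ _ h0 h1).trans ?_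
  rw [Fintype.card_fin]


/-- The minus-type quadratic form on F^(2m), m at least 1, has q^(2m-1) + q^(m-1) - q^m zeros (that is, (q^m + 1)(q^(m-1) - 1) non-zero isotropic vectors). -/
theorem result {F : Type*} [Field F] [Fintype F] {q : ℕ} (hF : Fintype.card F = q) (m : ℕ) (hm : 1 ≤ m) (a b : F) (hab : ∀ z₁ z₂ : F, z₁ ^ 2 + a * z₁ * z₂ + b * z₂ ^ 2 = 0 → z₁ = 0 ∧ z₂ = 0) : Nat.card {v : (Fin (m - 1) ⊕ Fin (m - 1)) ⊕ Fin 2 → F // Cfsg.quadFormMinus (m - 1) F a b v = 0} = q ^ (2 * m - 1) + q ^ (m - 1) - q ^ m := by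
  obtain ⟨k, rfl⟩ : ∃ k, m = k + 1 := ⟨m - 1, by omega⟩
  have h := aux k a b hab
  change Nat.card {v : (Fin k ⊕ Fin k) ⊕ Fin 2 → F // Cfsg.quadFormMinus k F a b v = 0}
    = q ^ (2 * (k + 1) - 1) + q ^ k - q ^ (k + 1)
  rw [h, hF]
  have hq0 : 0 < q := by rw [← hF]; exact Fintype.card_pos
  rcases Nat.eq_zero_or_pos k with hk | hk
  · subst hk
    simp
  · have e1 : q ^ 2 * q ^ (k - 1) = q ^ (k + 1) := by
      rw [← pow_add]; congr 1; omega
    have e2 : q ^ (2 * (k + 1) - 1) = q ^ k * q ^ (k + 1) := by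
      rw [← pow_add]; congr 1; omega
    rw [e1, e2, Nat.sub_mul, one_mul]
    have : q ^ (k + 1) ≤ q ^ k * q ^ (k + 1) := Nat.le_mul_of_pos_left _ (pow_pos hq0 k)
    omega

end Cfsg.Agent.S0290
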