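import Cfsg.Statements.S0291
import Cfsg.Agent.Helper2.QCount

set_option autoImplicit false
open Cfsg

namespace Cfsg.Agent.S0291

/-- For q odd, the form x_0^2 + sum_{i<m} x_i y_i on F^(2m+1) has exactly q^(2m) zeros. -/
theorem result {F : Type*} [Field F] [Fintype F] {q : ℕ} (hF : Fintype.card F = q) (hodd : Odd q) (m : ℕ) : Nat.card {v : Unit ⊕ (Fin m ⊕ Fin m) → F // Cfsg.quadFormOdd m F v = 0} = q ^ (2 * m) := by
  classical
  let e : (Unit ⊕ (Fin m ⊕ Fin m) → F) ≃ (F × (Fin m → F)) × (Fin m → F) :=
    { toFun := fun v => ((v (Sum.inl ()), fun i => v (Sum.inr (Sum.inl i))),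
        fun i => v (Sum.inr (Sum.inr i)))
      invFun := fun p => Sum.elim (fun _ => p.1.1) (Sum.elim p.1.2 p.2)
      left_inv := by
        intro v
        funext s
        rcases s with u | i | i <;> rfl
      right_inv := by
        rintro ⟨⟨t, x⟩, y⟩
        rfl }
  have e1 : {v : Unit ⊕ (Fin m ⊕ Fin m) → F // Cfsg.quadFormOdd m F v = 0} ≃
      {p : (F × (Fin m → F)) × (Fin m → F) // p.1.1 ^ 2 + ∑ i, p.1.2 i * p.2 i = 0} :=
    e.subtypeEquiv (fun v => Iff.rfl)
  have e2 := Equiv.subtypeProdEquivSigmaSubtype
    (fun (p : F × (Fin m → F)) (y : Fin m → F) => p.1 ^ 2 + ∑ i, p.2 i * y i = 0)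
  rw [Nat.card_congr (e1.trans e2), Nat.card_sigma, Fintype.sum_prod_type_right]
  have hinner : ∀ x : Fin m → F,
      ∑ t : F, Nat.card {y : Fin m → F // t ^ 2 + ∑ i, x i * y i = 0}
        = Fintype.card F ^ m := by
    intro x
    by_cases hx : x = 0
    · subst hx
      rw [Finset.sum_eq_single (0 : F)]
      · have := Cfsg.Agent.Helper2.QCount.card_zero_pos (ι := Fin m)
          (fun s : F => (0 : F) ^ 2 + s = 0) (by simp)
        rw [Fintype.card_fin] at this
        exact this
      · intro t _ ht
        exact Cfsg.Agent.Helper2.QCount.card_zero_neg (ι := Fin m)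
          (fun s : F => t ^ 2 + s = 0) (by simpa using ht)
      · intro h
        exact absurd (Finset.mem_univ _) h
    · have hm : 0 < m := by
        rcases Nat.eq_zero_or_pos m with h | h
        · subst h
          exact absurd (Subsingleton.elim x 0) hx
        · exact h
      have hc : ∀ t : F, Nat.card {y : Fin m → F // t ^ 2 + ∑ i, x i * y i = 0}
          = Fintype.card F ^ (m - 1) := by
        intro t
        have := Cfsg.Agent.Helper2.QCount.card_ne x hx (fun s : F => t ^ 2 + s = 0) (-t ^ 2)
          (fun s => ⟨fun h => by linear_combination h, fun h => by linear_combination h⟩)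
        rw [Fintype.card_fin] at this
        exact this
      rw [Finset.sum_congr rfl (fun t _ => hc t), Finset.sum_const, Finset.card_univ,
        smul_eq_mul, ← pow_succ']
      congr 1
      omega
  refine (Finset.sum_congr rfl (fun x _ => hinner x)).trans ?_
  rw [Finset.sum_const, Finset.card_univ, Fintype.card_fun, Fintype.card_fin, smul_eq_mul,
    ← pow_add, hF]
  congr 1
  omega

end Cfsg.Agent.S0291
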