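import Mathlib
import Cfsg.Statements.S0292
import Cfsg.Agent.Helper4.OCenter
import Cfsg.Agent.S0286

set_option autoImplicit false
open Cfsg

namespace Cfsg.Agent.S0292

open Cfsg.Agent.Helper4.OrthPlane Cfsg.Agent.Helper4.CartanD Cfsg.Agent.Helper4.Dickson
  Cfsg.Agent.Helper4.Spinor Cfsg.Agent.Helper4.OCenter

/-- 2 |PΩ_{2m+1}(q)| = q^(m^2) prod_{i=1}^{m} (q^(2i) - 1), for q odd and m at least 3 (type B_m). -/
theorem result {F : Type*} [Field F] [Fintype F] {q : ℕ} (hF : Fintype.card F = q) (hodd : Odd q) (m : ℕ) (hm : 3 ≤ m) : 2 * Nat.card (Cfsg.POmega F (Cfsg.quadFormOdd m F)) = q ^ (m ^ 2) * ∏ i ∈ Finset.range m, (q ^ (2 * (i + 1)) - 1) := by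
  have hq' : Odd (Fintype.card F) := by rw [hF]; exact hodd
  have h2 : (2 : F) ≠ 0 := two_ne_zero_of_odd hq'
  have hcard : Fintype.card (Unit ⊕ (Fin m ⊕ Fin m)) = 2 * m + 1 := by
    rw [Fintype.card_sum, Fintype.card_sum, Fintype.card_unit, Fintype.card_fin]
    omega
  have hQ := odd_nd F m h2
  have hidx := index_four (Cfsg.quadFormOdd m F) hQ h2 (by rw [hcard]; omega)
  have hO := Cfsg.Agent.S0286.result hF hodd m
  have hmul := Subgroup.card_mul_index
    (commutator ↥(Cfsg.isometryGroup F (Cfsg.quadFormOdd m F)))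
  have hP := card_pomega_of_trivial (Cfsg.quadFormOdd m F) hQ (by rw [hcard]; omega) (by
    intro g hg hneg
    exfalso
    have hdet := det_eq_one_of_mem (Cfsg.quadFormOdd m F) g hg
    rw [hneg, Matrix.det_neg, Matrix.det_one, mul_one, hcard, pow_succ, pow_mul, neg_one_sq,
      one_pow, one_mul] at hdet
    apply h2
    linear_combination (-1 : F) * hdet)
  rw [hidx] at hmul
  rw [hP]
  rw [mul_assoc] at hO
  omega

end Cfsg.Agent.S0292
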