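import Mathlib
import Cfsg.Statements.S0294
import Cfsg.Agent.Helper4.OCenter
import Cfsg.Agent.S0288
import Cfsg.Agent.S0791

set_option autoImplicit false
open Cfsg

namespace Cfsg.Agent.S0294

open Cfsg.Agent.Helper4.OrthPlane Cfsg.Agent.Helper4.CartanD Cfsg.Agent.Helper4.Dickson
  Cfsg.Agent.Helper4.Spinor Cfsg.Agent.Helper4.OCenter

/-- gcd(4, q^m + 1) |PΩ^-_{2m}(q)| = q^(m(m-1)) (q^m + 1) prod_{i=1}^{m-1} (q^(2i) - 1), m at least 4 (type ²D_m). -/
theorem result {F : Type*} [Field F] [Fintype F] {q : ℕ} (hF : Fintype.card F = q) (m : ℕ) (hm : 4 ≤ m) (a b : F) (hab : ∀ z₁ z₂ : F, z₁ ^ 2 + a * z₁ * z₂ + b * z₂ ^ 2 = 0 → z₁ = 0 ∧ z₂ = 0) : Nat.gcd 4 (q ^ m + 1) * Nat.card (Cfsg.POmega F (Cfsg.quadFormMinus (m - 1) F a b)) = q ^ (m * (m - 1)) * (q ^ m + 1) * ∏ i ∈ Finset.range (m - 1), (q ^ (2 * (i + 1)) - 1) := by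
  have hcard : Fintype.card ((Fin (m - 1) ⊕ Fin (m - 1)) ⊕ Fin 2) = 2 * m := by
    rw [Fintype.card_sum, Fintype.card_sum, Fintype.card_fin, Fintype.card_fin]; omega
  have hO := Cfsg.Agent.S0288.result hF m (by omega : 1 ≤ m) a b hab
  have hmul := Subgroup.card_mul_index
    (commutator ↥(Cfsg.isometryGroup F (Cfsg.quadFormMinus (m - 1) F a b)))
  obtain ⟨N, hN⟩ : ∃ N, N = q ^ (m * (m - 1)) * (q ^ m + 1)
    * ∏ i ∈ Finset.range (m - 1), (q ^ (2 * (i + 1)) - 1) := ⟨_, rfl⟩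
  have hO' : Nat.card ↥(Cfsg.isometryGroup F (Cfsg.quadFormMinus (m - 1) F a b)) = 2 * N := by
    rw [hO, hN]; ring
  rw [← hN]
  have hq2 : 2 ≤ q := by rw [← hF]; exact Fintype.one_lt_card
  have hpos : 0 < q ^ m := Nat.pow_pos (by omega)
  by_cases hch : (2 : F) = 0
  · haveI : CharP F 2 := CharTwo.of_one_ne_zero_of_two_eq_zero one_ne_zero hch
    have hsq : ∀ c : F, ∃ s, s * s = c := by
      intro c
      obtain ⟨r, hr⟩ := FiniteField.isSquare_of_char_two (ringChar.eq F 2) c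
      exact ⟨r, hr.symm⟩
    have hQ := minus_nd_two F (m - 1) a b hch hsq hab
    have hidx := index_two (Cfsg.quadFormMinus (m - 1) F a b) hQ hch
      (Or.inr (by rw [hcard]; omega)) ⟨Sum.inr 0⟩
    have hP := card_pomega_of_trivial (Cfsg.quadFormMinus (m - 1) F a b) hQ
      (by rw [hcard]; omega) (by
      intro g hg hneg
      rw [hneg]
      exact neg_one_eq_one hch)
    have hqe : q % 2 = 0 := by
      rw [← hF]; exact FiniteField.even_card_of_char_two (ringChar.eq F 2)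
    have hqm : q ^ m % 2 = 0 := by
      have hdvd : 2 ∣ q ^ m := dvd_pow (Nat.dvd_of_mod_eq_zero hqe) (by omega)
      omega
    have hg : Nat.gcd 4 (q ^ m + 1) = 1 := gcd_four_of_odd _ (by omega)
    rw [hidx] at hmul
    rw [hg, hP, one_mul]
    omega
  · have hq' : Odd (Fintype.card F) := by
      rw [Nat.odd_iff]
      exact FiniteField.odd_card_of_char_ne_two (ringChar_ne_two hch)
    have hodd : Odd q := by rw [← hF]; exact hq'
    have hQ := minus_nd F (m - 1) a b hch hab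
    have hidx := index_four (Cfsg.quadFormMinus (m - 1) F a b) hQ hch (by rw [hcard]; omega)
    have hiff := Cfsg.Agent.S0791.result hF hodd m (by omega : 1 ≤ m) a b hab
    have hqmo : q ^ m % 2 = 1 := Nat.odd_iff.mp hodd.pow
    rw [hidx] at hmul
    by_cases h4 : q ^ m % 4 = 3
    · have hP := card_pomega_of_neg (Cfsg.quadFormMinus (m - 1) F a b) hQ
        (by rw [hcard]; omega) hch (hiff.mpr h4)
      have hg : Nat.gcd 4 (q ^ m + 1) = 4 := gcd_four_of_mod_zero _ (by omega)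
      rw [hg]
      omega
    · have hP := card_pomega_of_trivial (Cfsg.quadFormMinus (m - 1) F a b) hQ
        (by rw [hcard]; omega) (by
        intro g hg hneg
        exact absurd (hiff.mp ⟨g, hg, hneg⟩) h4)
      have hg : Nat.gcd 4 (q ^ m + 1) = 2 := gcd_four_of_mod_two _ (by omega)
      rw [hg, hP]
      omega

end Cfsg.Agent.S0294
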