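import Mathlib
import Cfsg.Statements.S0295
import Cfsg.Agent.Helper4.OSiegel3

set_option autoImplicit false
open Cfsg

namespace Cfsg.Agent.S0295

open Cfsg.Agent.Helper4.OrthPlane Cfsg.Agent.Helper4.CartanD Cfsg.Agent.Helper4.Dickson
  Cfsg.Agent.Helper4.Spinor Cfsg.Agent.Helper4.OCenter Cfsg.Agent.Helper4.OSiegel

theorem single_ind {κ : Type} [DecidableEq κ] {F : Type*} [Field F] (a b : κ) (hab : a ≠ b)
    (α β : F) (h : α • (Pi.single a 1 : κ → F) + β • Pi.single b 1 = 0) : α = 0 ∧ β = 0 := by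
  have ha := congrFun h a
  have hb := congrFun h b
  simp [Pi.single_apply, hab, hab.symm] at ha hb
  exact ⟨ha, hb⟩

/-- PΩ_{2m+1}(q) is simple for q odd and m at least 3. -/
theorem result {F : Type*} [Field F] [Fintype F] (hodd : Odd (Fintype.card F)) (m : ℕ) (hm : 3 ≤ m) : IsSimpleGroup (Cfsg.POmega F (Cfsg.quadFormOdd m F)) := by
  have h2 : (2 : F) ≠ 0 := two_ne_zero_of_odd hodd
  have hQ := odd_nd F m h2
  have hcard : Fintype.card (Unit ⊕ (Fin m ⊕ Fin m)) = 2 * m + 1 := by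
    rw [Fintype.card_sum, Fintype.card_sum, Fintype.card_unit, Fintype.card_fin]
    omega
  have hne : (Sum.inr (Sum.inl (⟨0, by omega⟩ : Fin m)) : Unit ⊕ (Fin m ⊕ Fin m))
      ≠ Sum.inr (Sum.inl (⟨1, by omega⟩ : Fin m)) := by simp
  exact simple (Cfsg.quadFormOdd m F) hQ (by rw [hcard]; omega)
    (Pi.single (Sum.inr (Sum.inl ⟨0, by omega⟩)) 1) (Pi.single (Sum.inr (Sum.inl ⟨1, by omega⟩)) 1)
    (odd_Q_inl F m _) (odd_Q_inl F m _)
    (by
      show QuadraticMap.polar (Cfsg.quadFormOdd m F) _ _ = 0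
      rw [odd_polar_inl]
      simp [Pi.single_apply])
    (single_ind _ _ hne)

end Cfsg.Agent.S0295
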