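import Mathlib
import Cfsg.Statements.S0297
import Cfsg.Agent.Helper4.OSiegel3

set_option autoImplicit false
open Cfsg

namespace Cfsg.Agent.S0297

open Cfsg.Agent.Helper4.OrthPlane Cfsg.Agent.Helper4.CartanD Cfsg.Agent.Helper4.Dickson
  Cfsg.Agent.Helper4.Spinor Cfsg.Agent.Helper4.OCenter Cfsg.Agent.Helper4.OSiegel

theorem single_ind {κ : Type} [DecidableEq κ] {F : Type*} [Field F] (a b : κ) (hab : a ≠ b)
    (α β : F) (h : α • (Pi.single a 1 : κ → F) + β • Pi.single b 1 = 0) : α = 0 ∧ β = 0 := by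
  have ha := congrFun h a
  have hb := congrFun h b
  simp [Pi.single_apply, hab, hab.symm] at ha hb
  exact ⟨ha, hb⟩

/-- PΩ^-_{2m}(q) is simple for m at least 4 (the form is quadFormMinus (m-1) with anisotropic binary part). -/
theorem result {F : Type*} [Field F] [Fintype F] (m : ℕ) (hm : 4 ≤ m) (a b : F) (hab : ∀ z₁ z₂ : F, z₁ ^ 2 + a * z₁ * z₂ + b * z₂ ^ 2 = 0 → z₁ = 0 ∧ z₂ = 0) : IsSimpleGroup (Cfsg.POmega F (Cfsg.quadFormMinus (m - 1) F a b)) := by
  have hQ : Cfsg.Geo.IsNondegenerateQuadraticForm (Cfsg.quadFormMinus (m - 1) F a b) := by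
    by_cases hch : (2 : F) = 0
    · have hcp : CharP F 2 := CharTwo.of_one_ne_zero_of_two_eq_zero one_ne_zero hch
      have hsq : ∀ c : F, ∃ s, s * s = c := by
        intro c
        obtain ⟨r, hr⟩ := FiniteField.isSquare_of_char_two (ringChar.eq F 2) c
        exact ⟨r, hr.symm⟩
      exact minus_nd_two F (m - 1) a b hch hsq hab
    · exact minus_nd F (m - 1) a b hch hab
  have hcard : Fintype.card ((Fin (m - 1) ⊕ Fin (m - 1)) ⊕ Fin 2) = 2 * m := by
    rw [Fintype.card_sum, Fintype.card_sum, Fintype.card_fin, Fintype.card_fin]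
    omega
  have hne : (Sum.inl (Sum.inl (⟨0, by omega⟩ : Fin (m - 1))) :
      (Fin (m - 1) ⊕ Fin (m - 1)) ⊕ Fin 2)
      ≠ Sum.inl (Sum.inl (⟨1, by omega⟩ : Fin (m - 1))) := by simp
  exact simple (Cfsg.quadFormMinus (m - 1) F a b) hQ (by rw [hcard]; omega)
    (Pi.single (Sum.inl (Sum.inl ⟨0, by omega⟩)) 1)
    (Pi.single (Sum.inl (Sum.inl ⟨1, by omega⟩)) 1)
    (minus_Q_inl F (m - 1) a b _) (minus_Q_inl F (m - 1) a b _)
    (by
      show QuadraticMap.polar (Cfsg.quadFormMinus (m - 1) F a b) _ _ = 0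
      rw [minus_polar_inl]
      simp [Pi.single_apply])
    (single_ind _ _ hne)

end Cfsg.Agent.S0297
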