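import Cfsg.Statements.S0304
import Mathlib
import Cfsg.Agent.S0287
import Cfsg.Agent.S0286
-- import your own Cfsg.Agent.* helpers here

set_option autoImplicit false
open Cfsg

namespace Cfsg.Agent.S0304


open Matrix
open Cfsg.Agent.S0287 (BsP BsP_apply plus_sep gram_sum mem_iso)
open Cfsg.Agent.S0286 (BsO BsO_apply odd_add odd_smul odd_single_inr)

section

variable {F : Type*} [Field F] (m : ℕ)

theorem Qo_eq (x : Unit ⊕ (Fin m ⊕ Fin m) → F) :
    quadFormOdd m F x = x (.inl ()) ^ 2 + quadFormPlus m F (x ∘ Sum.inr) := rfl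

theorem BsO_eq (x y : Unit ⊕ (Fin m ⊕ Fin m) → F) :
    BsO m F x y = 2 * x (.inl ()) * y (.inl ()) + BsP m F (x ∘ Sum.inr) (y ∘ Sum.inr) := rfl

theorem Qp_zero : quadFormPlus m F 0 = 0 := by
  unfold quadFormPlus
  simp

theorem sq_inj [CharP F 2] (a b : F) (h : a ^ 2 = b ^ 2) : a = b := by
  have h2 : (2 : F) = 0 := CharTwo.two_eq_zero
  have h1 : (a - b) * (a - b) = 0 := by linear_combination h + (b * b - a * b) * h2
  exact sub_eq_zero.1 (mul_self_eq_zero.1 h1)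

theorem symp_eq_BsP [CharP F 2] (u v : Fin m ⊕ Fin m → F) :
    Cfsg.sympForm m F u v = BsP m F u v := by
  rw [BsP_apply]
  simp only [Cfsg.sympForm, Matrix.J, dotProduct, Fintype.sum_sum_type, Matrix.mulVec,
    Matrix.fromBlocks_apply₁₁, Matrix.fromBlocks_apply₁₂, Matrix.fromBlocks_apply₂₁,
    Matrix.fromBlocks_apply₂₂, Matrix.zero_apply, Matrix.one_apply, Matrix.neg_apply]
  simp only [zero_mul, Finset.sum_const_zero, zero_add, add_zero, ite_mul, one_mul,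
    Finset.sum_ite_eq, Finset.mem_univ, if_true, CharTwo.neg_eq]
  rw [← Finset.sum_add_distrib]

theorem mem_symp_iff [CharP F 2] (D : Matrix (Fin m ⊕ Fin m) (Fin m ⊕ Fin m) F) :
    D ∈ Matrix.symplecticGroup (Fin m) F
      ↔ ∀ x y, BsP m F (D *ᵥ x) (D *ᵥ y) = BsP m F x y := by
  rw [SymplecticGroup.mem_iff']
  have key : ∀ u v, Cfsg.sympForm m F (D *ᵥ u) (D *ᵥ v)
      = u ⬝ᵥ ((Dᵀ * Matrix.J (Fin m) F * D) *ᵥ v) := by
    intro u v
    unfold Cfsg.sympForm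
    rw [← Matrix.vecMul_transpose, ← Matrix.dotProduct_mulVec, Matrix.mulVec_mulVec,
      Matrix.mulVec_mulVec]
  constructor
  · intro hD x y
    rw [← symp_eq_BsP, ← symp_eq_BsP, key, hD]
    rfl
  · intro h
    ext a b
    have h1 := h (Pi.single a 1) (Pi.single b 1)
    rw [← symp_eq_BsP, ← symp_eq_BsP, key] at h1
    unfold Cfsg.sympForm at h1
    simpa [Matrix.mulVec_single_one] using h1

theorem iso_pres (M : Matrix (Unit ⊕ (Fin m ⊕ Fin m)) (Unit ⊕ (Fin m ⊕ Fin m)) F)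
    (hM : ∀ x, quadFormOdd m F (M *ᵥ x) = quadFormOdd m F x)
    (x y : Unit ⊕ (Fin m ⊕ Fin m) → F) :
    BsO m F (M *ᵥ x) (M *ᵥ y) = BsO m F x y := by
  have h1 := odd_add m F (M *ᵥ x) (M *ᵥ y)
  rw [← Matrix.mulVec_add, hM, hM, hM, odd_add] at h1
  linear_combination -h1

theorem col_apply (M : Matrix (Unit ⊕ (Fin m ⊕ Fin m)) (Unit ⊕ (Fin m ⊕ Fin m)) F)
    (i a : Unit ⊕ (Fin m ⊕ Fin m)) : (M *ᵥ Pi.single i 1) a = M a i := by
  rw [Matrix.mulVec_single_one]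
  rfl

theorem single_inl_comp :
    (Pi.single (Sum.inl ()) (1 : F) : Unit ⊕ (Fin m ⊕ Fin m) → F) ∘ Sum.inr = 0 := by
  funext k
  simp

theorem iso_col [CharP F 2] (g : GL (Unit ⊕ (Fin m ⊕ Fin m)) F)
    (hg : g ∈ isometryGroup F (quadFormOdd m F)) :
    (∀ k, (g : Matrix (Unit ⊕ (Fin m ⊕ Fin m)) (Unit ⊕ (Fin m ⊕ Fin m)) F) (.inr k) (.inl ()) = 0)
      ∧ (g : Matrix (Unit ⊕ (Fin m ⊕ Fin m)) (Unit ⊕ (Fin m ⊕ Fin m)) F) (.inl ()) (.inl ()) = 1 := by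
  have h2 : (2 : F) = 0 := CharTwo.two_eq_zero
  have hM := (mem_iso _ g).1 hg
  have hpres := iso_pres m _ hM
  have hsurj : ∀ z, ∃ y, (g : Matrix (Unit ⊕ (Fin m ⊕ Fin m)) (Unit ⊕ (Fin m ⊕ Fin m)) F) *ᵥ y
      = z := fun z =>
    ⟨((g⁻¹ : GL (Unit ⊕ (Fin m ⊕ Fin m)) F) :
      Matrix (Unit ⊕ (Fin m ⊕ Fin m)) (Unit ⊕ (Fin m ⊕ Fin m)) F) *ᵥ z, by
      rw [Matrix.mulVec_mulVec, ← Units.val_mul, mul_inv_cancel, Units.val_one,
        Matrix.one_mulVec]⟩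
  have h0 : ∀ z, BsO m F ((g : Matrix (Unit ⊕ (Fin m ⊕ Fin m)) (Unit ⊕ (Fin m ⊕ Fin m)) F)
      *ᵥ Pi.single (Sum.inl ()) 1) z = 0 := by
    intro z
    obtain ⟨y, rfl⟩ := hsurj z
    rw [hpres, BsO_eq, single_inl_comp, map_zero, LinearMap.zero_apply, h2]
    ring
  have hcr : ((g : Matrix (Unit ⊕ (Fin m ⊕ Fin m)) (Unit ⊕ (Fin m ⊕ Fin m)) F)
      *ᵥ Pi.single (Sum.inl ()) 1) ∘ Sum.inr = 0 := by
    apply plus_sep m F
    intro w
    have h3 := h0 (Sum.elim 0 w)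
    rw [BsO_eq] at h3
    simpa using h3
  constructor
  · intro k
    have h5 : ((g : Matrix (Unit ⊕ (Fin m ⊕ Fin m)) (Unit ⊕ (Fin m ⊕ Fin m)) F)
        *ᵥ Pi.single (Sum.inl ()) 1) (Sum.inr k) = 0 := congrFun hcr k
    rw [col_apply] at h5
    exact h5
  · have h1 := hM (Pi.single (Sum.inl ()) 1)
    rw [Qo_eq, hcr, Qo_eq, single_inl_comp, Qp_zero, col_apply] at h1
    apply sq_inj
    simpa using h1

theorem row_sq [CharP F 2] (g : GL (Unit ⊕ (Fin m ⊕ Fin m)) F)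
    (hg : g ∈ isometryGroup F (quadFormOdd m F)) (l : Fin m ⊕ Fin m) :
    (g : Matrix (Unit ⊕ (Fin m ⊕ Fin m)) (Unit ⊕ (Fin m ⊕ Fin m)) F) (.inl ()) (.inr l) ^ 2
      + quadFormPlus m F (fun k =>
        (g : Matrix (Unit ⊕ (Fin m ⊕ Fin m)) (Unit ⊕ (Fin m ⊕ Fin m)) F) (.inr k) (.inr l)) = 0 := by
  have hM := (mem_iso _ g).1 hg
  have h1 := hM (Pi.single (Sum.inr l) 1)
  rw [odd_single_inr, Qo_eq, col_apply] at h1
  rw [← h1]
  congr 2
  funext k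
  exact (col_apply m _ _ _).symm

theorem D_mem [CharP F 2] (g : GL (Unit ⊕ (Fin m ⊕ Fin m)) F)
    (hg : g ∈ isometryGroup F (quadFormOdd m F)) :
    ((g : Matrix (Unit ⊕ (Fin m ⊕ Fin m)) (Unit ⊕ (Fin m ⊕ Fin m)) F).submatrix Sum.inr Sum.inr)
      ∈ Matrix.symplecticGroup (Fin m) F := by
  have h2 : (2 : F) = 0 := CharTwo.two_eq_zero
  have hM := (mem_iso _ g).1 hg
  have hpres := iso_pres m _ hM
  rw [mem_symp_iff]
  intro x y
  have hD : ∀ x : Fin m ⊕ Fin m → F,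
      ((g : Matrix (Unit ⊕ (Fin m ⊕ Fin m)) (Unit ⊕ (Fin m ⊕ Fin m)) F) *ᵥ (Sum.elim 0 x))
        ∘ Sum.inr
      = ((g : Matrix (Unit ⊕ (Fin m ⊕ Fin m)) (Unit ⊕ (Fin m ⊕ Fin m)) F).submatrix
        Sum.inr Sum.inr) *ᵥ x := by
    intro x
    funext k
    simp [Matrix.mulVec, dotProduct, Fintype.sum_sum_type]
  have h3 := hpres (Sum.elim 0 x) (Sum.elim 0 y)
  rw [BsO_eq, BsO_eq, hD, hD, Sum.elim_comp_inr, Sum.elim_comp_inr] at h3
  simp only [h2, zero_mul, zero_add] at h3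
  exact h3

/-- The homomorphism to the symplectic group. -/
noncomputable def toSp [CharP F 2] :
    isometryGroup F (quadFormOdd m F) →* Matrix.symplecticGroup (Fin m) F :=
  MonoidHom.mk' (fun g => ⟨((g : GL (Unit ⊕ (Fin m ⊕ Fin m)) F) :
      Matrix (Unit ⊕ (Fin m ⊕ Fin m)) (Unit ⊕ (Fin m ⊕ Fin m)) F).submatrix Sum.inr Sum.inr,
      D_mem m g.1 g.2⟩) (by
    intro g g'
    apply Subtype.ext
    ext k l
    have h0 := (iso_col m g.1 g.2).1 k
    simp only [Subgroup.coe_mul, Units.val_mul, Matrix.submatrix_apply, Matrix.mul_apply,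
      Fintype.sum_sum_type, Submonoid.coe_mul, Fintype.sum_unique]
    rw [show (default : Unit) = () from rfl, h0, zero_mul, zero_add])

theorem toSp_coe [CharP F 2] (g : isometryGroup F (quadFormOdd m F)) :
    ((toSp m g : Matrix.symplecticGroup (Fin m) F) :
      Matrix (Fin m ⊕ Fin m) (Fin m ⊕ Fin m) F)
      = ((g : GL (Unit ⊕ (Fin m ⊕ Fin m)) F) :
      Matrix (Unit ⊕ (Fin m ⊕ Fin m)) (Unit ⊕ (Fin m ⊕ Fin m)) F).submatrix Sum.inr Sum.inr :=
  rfl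

theorem toSp_inj [CharP F 2] : Function.Injective (toSp (F := F) m) := by
  intro g g' h
  have hD := congrArg Subtype.val h
  rw [toSp_coe, toSp_coe] at hD
  have hD' : ∀ k l, (g.1 : Matrix (Unit ⊕ (Fin m ⊕ Fin m)) (Unit ⊕ (Fin m ⊕ Fin m)) F)
      (.inr k) (.inr l)
      = (g'.1 : Matrix (Unit ⊕ (Fin m ⊕ Fin m)) (Unit ⊕ (Fin m ⊕ Fin m)) F) (.inr k) (.inr l) :=
    fun k l => congrFun (congrFun hD k) l
  apply Subtype.ext
  apply Units.ext
  ext a c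
  rcases a with ⟨⟩ | k <;> rcases c with ⟨⟩ | l
  · rw [(iso_col m g.1 g.2).2, (iso_col m g'.1 g'.2).2]
  · apply sq_inj
    have h1 := row_sq m g.1 g.2 l
    have h2 := row_sq m g'.1 g'.2 l
    have h3 : (fun k => (g.1 : Matrix (Unit ⊕ (Fin m ⊕ Fin m)) (Unit ⊕ (Fin m ⊕ Fin m)) F)
        (.inr k) (.inr l))
        = (fun k => (g'.1 : Matrix (Unit ⊕ (Fin m ⊕ Fin m)) (Unit ⊕ (Fin m ⊕ Fin m)) F)
        (.inr k) (.inr l)) := funext fun k => hD' k l
    rw [h3] at h1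
    linear_combination h1 - h2
  · rw [(iso_col m g.1 g.2).1, (iso_col m g'.1 g'.2).1]
  · exact hD' k l

theorem toSp_surj [Fintype F] [CharP F 2] : Function.Surjective (toSp (F := F) m) := by
  classical
  rintro ⟨D, hD⟩
  have h2 : (2 : F) = 0 := CharTwo.two_eq_zero
  have hD' := (mem_symp_iff m D).1 hD
  have hsq : ∀ l : Fin m ⊕ Fin m, ∃ r : F, quadFormPlus m F (fun k => D k l) = r * r :=
    fun l => isSquare_of_charTwo' _
  choose b hb using hsq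
  obtain ⟨M, hMdef⟩ : ∃ M : Matrix (Unit ⊕ (Fin m ⊕ Fin m)) (Unit ⊕ (Fin m ⊕ Fin m)) F,
      M = Matrix.fromBlocks (1 : Matrix Unit Unit F) (Matrix.of fun _ l => b l) 0 D := ⟨_, rfl⟩
  have ht0 : M *ᵥ Pi.single (Sum.inl ()) 1 = Pi.single (Sum.inl ()) 1 := by
    funext a
    rw [col_apply, hMdef]
    rcases a with ⟨⟩ | k
    · simp
    · simp
  have ht1 : ∀ l, M *ᵥ Pi.single (Sum.inr l) 1
      = Sum.elim (fun _ : Unit => b l) (fun k => D k l) := by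
    intro l
    funext a
    rw [col_apply, hMdef]
    rcases a with ⟨⟩ | k
    · simp
    · simp
  have hs1 : ∀ l : Fin m ⊕ Fin m, (Pi.single (Sum.inr l) (1 : F) : Unit ⊕ (Fin m ⊕ Fin m) → F)
      = Sum.elim (0 : Unit → F) (Pi.single l 1) := by
    intro l
    funext a
    rcases a with ⟨⟩ | k
    · simp
    · by_cases hkl : k = l
      · subst hkl
        simp
      · simp [hkl]
  have hs0 : (Pi.single (Sum.inl ()) (1 : F) : Unit ⊕ (Fin m ⊕ Fin m) → F)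
      = Sum.elim (fun _ : Unit => (1 : F)) (0 : Fin m ⊕ Fin m → F) := by
    funext a
    rcases a with ⟨⟩ | k
    · simp
    · simp
  have hcol : ∀ l : Fin m ⊕ Fin m, (fun k => D k l) = D *ᵥ Pi.single l 1 := by
    intro l
    funext k
    rw [Matrix.mulVec_single_one]
    rfl
  have hq : ∀ i, quadFormOdd m F (M *ᵥ Pi.single i 1) = quadFormOdd m F (Pi.single i 1) := by
    rintro (⟨⟩ | l)
    · rw [ht0]
    · rw [ht1, odd_single_inr, Qo_eq, Sum.elim_comp_inr, hb l]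
      show b l ^ 2 + b l * b l = 0
      linear_combination (b l * b l) * h2
  have hbb : ∀ i j, BsO m F (M *ᵥ Pi.single i 1) (M *ᵥ Pi.single j 1)
      = BsO m F (Pi.single i 1) (Pi.single j 1) := by
    rintro (⟨⟩ | k) (⟨⟩ | l)
    · rw [ht0]
    · rw [ht0, ht1, hs0, hs1, BsO_eq, BsO_eq]
      simp only [Sum.elim_comp_inr, map_zero, LinearMap.zero_apply, h2]
      ring
    · rw [ht0, ht1, hs0, hs1, BsO_eq, BsO_eq]
      simp only [Sum.elim_comp_inr, map_zero, LinearMap.zero_apply, h2]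
      ring
    · rw [ht1, ht1, hs1, hs1, BsO_eq, BsO_eq]
      simp only [Sum.elim_comp_inr, h2]
      rw [hcol k, hcol l, hD']
      simp
  have hMx : ∀ x : Unit ⊕ (Fin m ⊕ Fin m) → F,
      M *ᵥ x = ∑ i, x i • (M *ᵥ Pi.single i 1) := by
    intro x
    funext a
    simp only [Finset.sum_apply, Pi.smul_apply, col_apply, smul_eq_mul]
    simp [Matrix.mulVec, dotProduct, mul_comm]
  have hx : ∀ x : Unit ⊕ (Fin m ⊕ Fin m) → F,
      ∑ i, x i • (Pi.single i 1 : Unit ⊕ (Fin m ⊕ Fin m) → F) = x := by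
    intro x
    funext j
    simp [Finset.sum_apply, Pi.single_apply]
  have hQ : ∀ x, quadFormOdd m F (M *ᵥ x) = quadFormOdd m F x := by
    intro x
    have h3 := gram_sum (BsO m F) (quadFormOdd m F) (BsO m F) (quadFormOdd m F) (odd_add m F)
      (odd_smul m F) (odd_add m F) (odd_smul m F) (fun i => M *ᵥ Pi.single i 1)
      (fun i => Pi.single i 1) hq hbb x Finset.univ
    rw [hMx, h3, hx]
  have hU : IsUnit M := by
    rw [Matrix.isUnit_iff_isUnit_det, hMdef, Matrix.det_fromBlocks_zero₂₁, Matrix.det_one,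
      one_mul]
    exact SymplecticGroup.symplectic_det hD
  refine ⟨⟨hU.unit, (mem_iso _ _).2 (fun x => by
    rw [IsUnit.unit_spec]
    exact hQ x)⟩, ?_⟩
  apply Subtype.ext
  rw [toSp_coe]
  show (hU.unit : Matrix (Unit ⊕ (Fin m ⊕ Fin m)) (Unit ⊕ (Fin m ⊕ Fin m)) F).submatrix
    Sum.inr Sum.inr = D
  rw [IsUnit.unit_spec, hMdef]
  ext k l
  simp

end


/-- In characteristic 2, O_{2m+1}(q) is isomorphic to Sp_{2m}(q). -/
theorem result {F : Type*} [Field F] [Fintype F] [CharP F 2] (m : ℕ) : Nonempty (Cfsg.isometryGroup F (Cfsg.quadFormOdd m F) ≃* Matrix.symplecticGroup (Fin m) F) := by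
  exact ⟨MulEquiv.ofBijective (toSp m) ⟨toSp_inj m, toSp_surj m⟩⟩


end Cfsg.Agent.S0304
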