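import Cfsg.Statements.S0305
import Mathlib
import Cfsg.Agent.S0444

set_option autoImplicit false
open Cfsg

namespace Cfsg.Agent.S0305

open Matrix

theorem dih_of_top {G : Type*} [Group G] (x y : G) (hx : orderOf x = 2) (hy : orderOf y = 2)
    (hxy : x ≠ y) (n : ℕ) (hn0 : n ≠ 0) (hn : orderOf (x * y) = n)
    (htop : Subgroup.closure ({x, y} : Set G) = ⊤) : Nonempty (G ≃* DihedralGroup n) := by
  subst hn
  have : NeZero (orderOf (x * y)) := ⟨hn0⟩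
  obtain ⟨e⟩ := Cfsg.Agent.S0444.dihedral_of_involutions x y hx hy hxy
  exact ⟨(Subgroup.topEquiv.symm.trans (MulEquiv.subgroupCongr htop.symm)).trans e⟩

section
variable {F : Type*} [Field F]

theorem sum2 (f : Fin 1 ⊕ Fin 1 → F) : ∑ k, f k = f (Sum.inl 0) + f (Sum.inr 0) := by
  rw [Fintype.sum_sum_type, Fin.sum_univ_one, Fin.sum_univ_one]

theorem qf (w : Fin 1 ⊕ Fin 1 → F) :
    Cfsg.quadFormPlus 1 F w = w (Sum.inl 0) * w (Sum.inr 0) := by
  unfold Cfsg.quadFormPlus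
  exact Fin.sum_univ_one _

theorem mv (A : Matrix (Fin 1 ⊕ Fin 1) (Fin 1 ⊕ Fin 1) F) (u : Fin 1 ⊕ Fin 1 → F)
    (k : Fin 1 ⊕ Fin 1) :
    (A *ᵥ u) k = A k (Sum.inl 0) * u (Sum.inl 0) + A k (Sum.inr 0) * u (Sum.inr 0) :=
  sum2 (fun l => A k l * u l)

theorem mul4 (A B : Matrix (Fin 1 ⊕ Fin 1) (Fin 1 ⊕ Fin 1) F) (k l : Fin 1 ⊕ Fin 1) :
    (A * B) k l = A k (Sum.inl 0) * B (Sum.inl 0) l + A k (Sum.inr 0) * B (Sum.inr 0) l := by
  rw [Matrix.mul_apply]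
  exact sum2 _

theorem ext4 {A B : Matrix (Fin 1 ⊕ Fin 1) (Fin 1 ⊕ Fin 1) F}
    (h00 : A (Sum.inl 0) (Sum.inl 0) = B (Sum.inl 0) (Sum.inl 0))
    (h01 : A (Sum.inl 0) (Sum.inr 0) = B (Sum.inl 0) (Sum.inr 0))
    (h10 : A (Sum.inr 0) (Sum.inl 0) = B (Sum.inr 0) (Sum.inl 0))
    (h11 : A (Sum.inr 0) (Sum.inr 0) = B (Sum.inr 0) (Sum.inr 0)) : A = B := by
  ext k l
  rcases k with k | k <;> rcases l with l | l <;>
    rw [Subsingleton.elim k 0, Subsingleton.elim l 0] <;> assumption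

def m4 (a b c d : F) : Matrix (Fin 1 ⊕ Fin 1) (Fin 1 ⊕ Fin 1) F :=
  Matrix.fromBlocks (fun _ _ => a) (fun _ _ => b) (fun _ _ => c) (fun _ _ => d)

theorem m4_00 (a b c d : F) : m4 a b c d (Sum.inl 0) (Sum.inl 0) = a := rfl
theorem m4_01 (a b c d : F) : m4 a b c d (Sum.inl 0) (Sum.inr 0) = b := rfl
theorem m4_10 (a b c d : F) : m4 a b c d (Sum.inr 0) (Sum.inl 0) = c := rfl
theorem m4_11 (a b c d : F) : m4 a b c d (Sum.inr 0) (Sum.inr 0) = d := rfl

theorem m4_eq {A : Matrix (Fin 1 ⊕ Fin 1) (Fin 1 ⊕ Fin 1) F} {a b c d : F}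
    (h00 : A (Sum.inl 0) (Sum.inl 0) = a) (h01 : A (Sum.inl 0) (Sum.inr 0) = b)
    (h10 : A (Sum.inr 0) (Sum.inl 0) = c) (h11 : A (Sum.inr 0) (Sum.inr 0) = d) :
    A = m4 a b c d := ext4 h00 h01 h10 h11

theorem m4_mul (a b c d a' b' c' d' : F) :
    m4 a b c d * m4 a' b' c' d'
      = m4 (a * a' + b * c') (a * b' + b * d') (c * a' + d * c') (c * b' + d * d') := by
  apply ext4 <;> rw [mul4] <;> rfl

theorem m4_one : m4 (1 : F) 0 0 1 = 1 := by
  apply ext4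
  · rw [m4_00, Matrix.one_apply_eq]
  · rw [m4_01, Matrix.one_apply_ne (by simp)]
  · rw [m4_10, Matrix.one_apply_ne (by simp)]
  · rw [m4_11, Matrix.one_apply_eq]

noncomputable def dGL (a : Fˣ) : GL (Fin 1 ⊕ Fin 1) F :=
  ⟨m4 (a : F) 0 0 ((a⁻¹ : Fˣ) : F), m4 ((a⁻¹ : Fˣ) : F) 0 0 (a : F),
    by rw [m4_mul]; simp [m4_one], by rw [m4_mul]; simp [m4_one]⟩

theorem dGL_val (a : Fˣ) : (dGL a).1 = m4 (a : F) 0 0 ((a⁻¹ : Fˣ) : F) := rfl

noncomputable def sGL : GL (Fin 1 ⊕ Fin 1) F :=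
  ⟨m4 (0 : F) 1 1 0, m4 (0 : F) 1 1 0, by rw [m4_mul]; simp [m4_one],
    by rw [m4_mul]; simp [m4_one]⟩

theorem sGL_val : (sGL : GL (Fin 1 ⊕ Fin 1) F).1 = m4 (0 : F) 1 1 0 := rfl

theorem dGL_mul (a b : Fˣ) : dGL (a * b) = dGL a * dGL b := by
  apply Units.ext
  rw [Units.val_mul, dGL_val, dGL_val, dGL_val, m4_mul, mul_inv, Units.val_mul, Units.val_mul]
  congr 1 <;> ring

noncomputable def dHom : Fˣ →* GL (Fin 1 ⊕ Fin 1) F where
  toFun := dGL
  map_one' := by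
    apply Units.ext
    rw [dGL_val]
    simp [m4_one]
  map_mul' := dGL_mul

theorem mem_iff' (g : GL (Fin 1 ⊕ Fin 1) F) :
    g ∈ Cfsg.isometryGroup F (Cfsg.quadFormPlus 1 F) ↔
      ∀ x y : F, (g.1 (Sum.inl 0) (Sum.inl 0) * x + g.1 (Sum.inl 0) (Sum.inr 0) * y)
        * (g.1 (Sum.inr 0) (Sum.inl 0) * x + g.1 (Sum.inr 0) (Sum.inr 0) * y) = x * y := by
  constructor
  · intro h x y
    have h1 : Cfsg.quadFormPlus 1 F (g.1 *ᵥ (Sum.elim (fun _ : Fin 1 => x) (fun _ : Fin 1 => y)))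
        = Cfsg.quadFormPlus 1 F (Sum.elim (fun _ : Fin 1 => x) (fun _ : Fin 1 => y)) :=
      h (Sum.elim (fun _ : Fin 1 => x) (fun _ : Fin 1 => y))
        (Sum.elim (fun _ : Fin 1 => x) (fun _ : Fin 1 => y))
    rw [qf, qf, mv, mv] at h1
    exact h1
  · intro h
    show ∀ u v : Fin 1 ⊕ Fin 1 → F,
      Cfsg.quadFormPlus 1 F (g.1 *ᵥ u) = Cfsg.quadFormPlus 1 F u
    intro u v
    rw [qf, qf, mv, mv]
    exact h (u (Sum.inl 0)) (u (Sum.inr 0))

theorem dGL_mem (a : Fˣ) : dGL a ∈ Cfsg.isometryGroup F (Cfsg.quadFormPlus 1 F) := by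
  rw [mem_iff']
  intro x y
  rw [dGL_val, m4_00, m4_01, m4_10, m4_11]
  have h : (a : F) * ((a⁻¹ : Fˣ) : F) = 1 := Units.mul_inv a
  linear_combination (x * y) * h

theorem sGL_mem : (sGL : GL (Fin 1 ⊕ Fin 1) F) ∈ Cfsg.isometryGroup F (Cfsg.quadFormPlus 1 F) := by
  rw [mem_iff']
  intro x y
  rw [sGL_val, m4_00, m4_01, m4_10, m4_11]
  ring

noncomputable def sG : Cfsg.isometryGroup F (Cfsg.quadFormPlus 1 F) := ⟨sGL, sGL_mem⟩

noncomputable def dHomG : Fˣ →* Cfsg.isometryGroup F (Cfsg.quadFormPlus 1 F) :=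
  (dHom (F := F)).codRestrict _ dGL_mem

theorem dHomG_injective :
    Function.Injective (dHomG : Fˣ →* Cfsg.isometryGroup F (Cfsg.quadFormPlus 1 F)) := by
  intro a b h
  have h1 := congrArg (fun g : Cfsg.isometryGroup F (Cfsg.quadFormPlus 1 F) =>
    g.1.1 (Sum.inl 0) (Sum.inl 0)) h
  exact Units.ext h1

theorem sG_mul_self : (sG : Cfsg.isometryGroup F (Cfsg.quadFormPlus 1 F)) * sG = 1 := by
  apply Subtype.ext
  apply Units.ext
  show (sGL : GL (Fin 1 ⊕ Fin 1) F).1 * (sGL : GL (Fin 1 ⊕ Fin 1) F).1 = 1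
  rw [sGL_val, m4_mul]
  simp [m4_one]

theorem sG_conj (a : Fˣ) :
    (sG : Cfsg.isometryGroup F (Cfsg.quadFormPlus 1 F)) * dHomG a * sG = dHomG a⁻¹ := by
  apply Subtype.ext
  apply Units.ext
  show (sGL : GL (Fin 1 ⊕ Fin 1) F).1 * (dGL a).1 * (sGL : GL (Fin 1 ⊕ Fin 1) F).1
    = (dGL a⁻¹).1
  rw [sGL_val, dGL_val, dGL_val, m4_mul, m4_mul]
  simp

theorem cases_G (g : Cfsg.isometryGroup F (Cfsg.quadFormPlus 1 F)) :
    (∃ a : Fˣ, g = dHomG a) ∨ (∃ b : Fˣ, g = dHomG b * sG) := by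
  have h := (mem_iff' g.1).1 g.2
  have h1 : g.1.1 (Sum.inl 0) (Sum.inl 0) * g.1.1 (Sum.inr 0) (Sum.inl 0) = 0 := by
    have := h 1 0
    linear_combination this
  have h2 : g.1.1 (Sum.inl 0) (Sum.inr 0) * g.1.1 (Sum.inr 0) (Sum.inr 0) = 0 := by
    have := h 0 1
    linear_combination this
  have h3 : g.1.1 (Sum.inl 0) (Sum.inl 0) * g.1.1 (Sum.inr 0) (Sum.inr 0)
      + g.1.1 (Sum.inl 0) (Sum.inr 0) * g.1.1 (Sum.inr 0) (Sum.inl 0) = 1 := by
    have := h 1 1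
    linear_combination this - h1 - h2
  rcases mul_eq_zero.1 h1 with h0 | h0
  · right
    rw [h0, zero_mul, zero_add] at h3
    have h11 : g.1.1 (Sum.inr 0) (Sum.inr 0) = 0 :=
      (mul_eq_zero.1 h2).resolve_left (left_ne_zero_of_mul_eq_one h3)
    refine ⟨Units.mkOfMulEqOne _ _ h3, ?_⟩
    apply Subtype.ext
    apply Units.ext
    show g.1.1 = (dGL (Units.mkOfMulEqOne _ _ h3)).1 * (sGL : GL (Fin 1 ⊕ Fin 1) F).1
    rw [dGL_val, sGL_val, m4_mul]
    apply m4_eq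
    · rw [h0]; ring
    · show g.1.1 (Sum.inl 0) (Sum.inr 0) = g.1.1 (Sum.inl 0) (Sum.inr 0) * 1 + 0 * 0
      ring
    · show g.1.1 (Sum.inr 0) (Sum.inl 0) = 0 * 0 + g.1.1 (Sum.inr 0) (Sum.inl 0) * 1
      ring
    · rw [h11]; ring
  · left
    rw [h0, mul_zero, add_zero] at h3
    have h01 : g.1.1 (Sum.inl 0) (Sum.inr 0) = 0 :=
      (mul_eq_zero.1 h2).resolve_right (right_ne_zero_of_mul_eq_one h3)
    refine ⟨Units.mkOfMulEqOne _ _ h3, ?_⟩
    apply Subtype.ext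
    apply Units.ext
    show g.1.1 = (dGL (Units.mkOfMulEqOne _ _ h3)).1
    rw [dGL_val]
    exact m4_eq rfl h01 h0 rfl

end


/-- GO^+_2(q) is dihedral of order 2(q-1). -/
theorem result {F : Type*} [Field F] [Fintype F] {q : ℕ} (hF : Fintype.card F = q) : Nonempty (Cfsg.isometryGroup F (Cfsg.quadFormPlus 1 F) ≃* DihedralGroup (q - 1)) := by
  classical
  have hq2 : 2 ≤ q := by rw [← hF]; exact Fintype.one_lt_card
  have hcardU : Nat.card Fˣ = q - 1 := by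
    rw [Nat.card_units, Nat.card_eq_fintype_card, hF]
  have hs1 : (sG : Cfsg.isometryGroup F (Cfsg.quadFormPlus 1 F)) ≠ 1 := by
    intro h
    have h1 := congrArg (fun g : Cfsg.isometryGroup F (Cfsg.quadFormPlus 1 F) =>
      g.1.1 (Sum.inl 0) (Sum.inl 0)) h
    have h2 : (0 : F) = (1 : Matrix (Fin 1 ⊕ Fin 1) (Fin 1 ⊕ Fin 1) F) (Sum.inl 0) (Sum.inl 0) :=
      h1
    rw [Matrix.one_apply_eq] at h2
    exact zero_ne_one h2
  rcases Nat.lt_or_ge q 3 with hq3 | hq3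
  · have hq : q = 2 := by omega
    subst hq
    have hsub : Subsingleton Fˣ := (Nat.card_eq_one_iff_unique.1 (by omega)).1
    have hd1 : ∀ a : Fˣ, (dHomG a : Cfsg.isometryGroup F (Cfsg.quadFormPlus 1 F)) = 1 := by
      intro a
      rw [Subsingleton.elim a 1, map_one]
    have hG2 : Nat.card (Cfsg.isometryGroup F (Cfsg.quadFormPlus 1 F)) = 2 := by
      rw [Nat.card_eq_two_iff]
      refine ⟨1, sG, fun h => hs1 h.symm, ?_⟩
      apply Set.eq_univ_of_forall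
      intro g
      rw [Set.mem_insert_iff, Set.mem_singleton_iff]
      rcases cases_G g with ⟨a, rfl⟩ | ⟨b, rfl⟩
      · left
        exact hd1 a
      · right
        rw [hd1 b, one_mul]
    have hD2 : Nat.card (DihedralGroup (2 - 1)) = 2 :=
      (DihedralGroup.nat_card).trans (by norm_num)
    exact ⟨mulEquivOfPrimeCardEq (p := 2) hG2 hD2⟩
  · obtain ⟨ζ, hζ⟩ := IsCyclic.exists_generator (α := Fˣ)
    have hordζ : orderOf ζ = q - 1 := by
      rw [orderOf_eq_card_of_forall_mem_zpowers hζ, hcardU]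
    have hζ1 : ζ ≠ 1 := by
      intro h
      rw [h, orderOf_one] at hordζ
      omega
    have hxy : (sG : Cfsg.isometryGroup F (Cfsg.quadFormPlus 1 F)) ≠ dHomG ζ * sG := by
      intro h
      have h2 : (1 : Cfsg.isometryGroup F (Cfsg.quadFormPlus 1 F)) * sG = dHomG ζ * sG := by
        rw [one_mul]; exact h
      have h1 : (dHomG ζ : Cfsg.isometryGroup F (Cfsg.quadFormPlus 1 F)) = 1 :=
        (mul_right_cancel h2).symm
      exact hζ1 (dHomG_injective (h1.trans (map_one dHomG).symm))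
    have hx : orderOf (sG : Cfsg.isometryGroup F (Cfsg.quadFormPlus 1 F)) = 2 :=
      orderOf_eq_prime (by rw [sq]; exact sG_mul_self) hs1
    have hyy : (dHomG ζ * sG : Cfsg.isometryGroup F (Cfsg.quadFormPlus 1 F)) * (dHomG ζ * sG)
        = 1 := by
      calc (dHomG ζ * sG : Cfsg.isometryGroup F (Cfsg.quadFormPlus 1 F)) * (dHomG ζ * sG)
          = dHomG ζ * (sG * dHomG ζ * sG) := by group
        _ = dHomG ζ * dHomG ζ⁻¹ := by rw [sG_conj]
        _ = 1 := by rw [← map_mul, mul_inv_cancel, map_one]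
    have hy1 : (dHomG ζ * sG : Cfsg.isometryGroup F (Cfsg.quadFormPlus 1 F)) ≠ 1 := by
      intro h
      have h1 := congrArg (fun g : Cfsg.isometryGroup F (Cfsg.quadFormPlus 1 F) =>
        g.1.1 (Sum.inl 0) (Sum.inl 0)) h
      have h3 : ((dGL ζ).1 * (sGL : GL (Fin 1 ⊕ Fin 1) F).1) (Sum.inl 0) (Sum.inl 0)
          = (1 : Matrix (Fin 1 ⊕ Fin 1) (Fin 1 ⊕ Fin 1) F) (Sum.inl 0) (Sum.inl 0) := h1
      rw [dGL_val, sGL_val, m4_mul, m4_00, Matrix.one_apply_eq] at h3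
      simp at h3
    have hy : orderOf (dHomG ζ * sG : Cfsg.isometryGroup F (Cfsg.quadFormPlus 1 F)) = 2 :=
      orderOf_eq_prime (by rw [sq]; exact hyy) hy1
    have hprod : (sG : Cfsg.isometryGroup F (Cfsg.quadFormPlus 1 F)) * (dHomG ζ * sG)
        = dHomG ζ⁻¹ := by
      rw [← mul_assoc, sG_conj]
    have hord : orderOf ((sG : Cfsg.isometryGroup F (Cfsg.quadFormPlus 1 F)) * (dHomG ζ * sG))
        = q - 1 := by
      rw [hprod, orderOf_injective dHomG dHomG_injective, orderOf_inv, hordζ]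
    have htop : Subgroup.closure
        ({sG, dHomG ζ * sG} : Set (Cfsg.isometryGroup F (Cfsg.quadFormPlus 1 F))) = ⊤ := by
      rw [Subgroup.eq_top_iff']
      intro g
      have hs_mem : (sG : Cfsg.isometryGroup F (Cfsg.quadFormPlus 1 F)) ∈ Subgroup.closure
          ({sG, dHomG ζ * sG} : Set (Cfsg.isometryGroup F (Cfsg.quadFormPlus 1 F))) :=
        Subgroup.subset_closure (Set.mem_insert _ _)
      have hy_mem : (dHomG ζ * sG : Cfsg.isometryGroup F (Cfsg.quadFormPlus 1 F)) ∈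
          Subgroup.closure
            ({sG, dHomG ζ * sG} : Set (Cfsg.isometryGroup F (Cfsg.quadFormPlus 1 F))) :=
        Subgroup.subset_closure (Set.mem_insert_of_mem _ rfl)
      have hd_mem : (dHomG ζ : Cfsg.isometryGroup F (Cfsg.quadFormPlus 1 F)) ∈ Subgroup.closure
          ({sG, dHomG ζ * sG} : Set (Cfsg.isometryGroup F (Cfsg.quadFormPlus 1 F))) := by
        have h2 := Subgroup.mul_mem _ hy_mem hs_mem
        rwa [mul_assoc, sG_mul_self, mul_one] at h2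
      have hall : ∀ a : Fˣ, (dHomG a : Cfsg.isometryGroup F (Cfsg.quadFormPlus 1 F)) ∈
          Subgroup.closure
            ({sG, dHomG ζ * sG} : Set (Cfsg.isometryGroup F (Cfsg.quadFormPlus 1 F))) := by
        intro a
        obtain ⟨k, rfl⟩ := Subgroup.mem_zpowers_iff.1 (hζ a)
        rw [map_zpow]
        exact Subgroup.zpow_mem _ hd_mem k
      rcases cases_G g with ⟨a, rfl⟩ | ⟨b, rfl⟩
      · exact hall a
      · exact Subgroup.mul_mem _ (hall b) hs_mem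
    exact dih_of_top _ _ hx hy hxy (q - 1) (by omega) hord htop

end Cfsg.Agent.S0305
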