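import Cfsg.Statements.S0306
import Mathlib
import Cfsg.Agent.S0305

set_option autoImplicit false
open Cfsg

namespace Cfsg.Agent.S0306

open Matrix

local notation "I2" => (Fin 0 ⊕ Fin 0) ⊕ Fin 2

theorem dih_of_hom {G N : Type*} [Group G] [Group N] [IsCyclic N] (ρ : N →* G)
    (hρ : Function.Injective ρ) (s : G) (hs1 : s ≠ 1) (hss : s * s = 1)
    (hconj : ∀ z : N, s * ρ z * s = ρ z⁻¹)
    (hne : ∀ z : N, ρ z ≠ s)
    (hcases : ∀ g : G, (∃ z : N, g = ρ z) ∨ (∃ z : N, g = ρ z * s))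
    (n : ℕ) (hn : Nat.card N = n) (hn2 : 2 ≤ n) : Nonempty (G ≃* DihedralGroup n) := by
  obtain ⟨ζ, hζ⟩ := IsCyclic.exists_generator (α := N)
  have hordζ : orderOf ζ = n := by
    rw [orderOf_eq_card_of_forall_mem_zpowers hζ, hn]
  have hxy : s ≠ ρ ζ * s := by
    intro h
    have h2 : (1 : G) * s = ρ ζ * s := by rw [one_mul]; exact h
    have h1 : ρ ζ = 1 := (mul_right_cancel h2).symm
    have h3 : ζ = 1 := hρ (h1.trans (map_one ρ).symm)
    rw [h3, orderOf_one] at hordζ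
    omega
  have hx : orderOf s = 2 := orderOf_eq_prime (by rw [sq]; exact hss) hs1
  have hyy : (ρ ζ * s) * (ρ ζ * s) = 1 := by
    calc (ρ ζ * s) * (ρ ζ * s) = ρ ζ * (s * ρ ζ * s) := by group
      _ = ρ ζ * ρ ζ⁻¹ := by rw [hconj]
      _ = 1 := by rw [← map_mul, mul_inv_cancel, map_one]
  have hy1 : ρ ζ * s ≠ 1 := by
    intro h
    have h2 : ρ ζ * s = s * s := h.trans hss.symm
    exact hne ζ (mul_right_cancel h2)
  have hy : orderOf (ρ ζ * s) = 2 := orderOf_eq_prime (by rw [sq]; exact hyy) hy1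
  have hprod : s * (ρ ζ * s) = ρ ζ⁻¹ := by rw [← mul_assoc, hconj]
  have hord : orderOf (s * (ρ ζ * s)) = n := by
    rw [hprod, orderOf_injective ρ hρ, orderOf_inv, hordζ]
  have htop : Subgroup.closure ({s, ρ ζ * s} : Set G) = ⊤ := by
    rw [Subgroup.eq_top_iff']
    intro g
    have hs_mem : s ∈ Subgroup.closure ({s, ρ ζ * s} : Set G) :=
      Subgroup.subset_closure (Set.mem_insert _ _)
    have hy_mem : ρ ζ * s ∈ Subgroup.closure ({s, ρ ζ * s} : Set G) :=
      Subgroup.subset_closure (Set.mem_insert_of_mem _ rfl)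
    have hd_mem : ρ ζ ∈ Subgroup.closure ({s, ρ ζ * s} : Set G) := by
      have h2 := Subgroup.mul_mem _ hy_mem hs_mem
      have h3 : ρ ζ * s * s = ρ ζ := by rw [mul_assoc, hss, mul_one]
      rw [h3] at h2
      exact h2
    have hall : ∀ z : N, ρ z ∈ Subgroup.closure ({s, ρ ζ * s} : Set G) := by
      intro z
      obtain ⟨k, rfl⟩ := Subgroup.mem_zpowers_iff.1 (hζ z)
      rw [map_zpow]
      exact Subgroup.zpow_mem _ hd_mem k
    rcases hcases g with ⟨z, rfl⟩ | ⟨z, rfl⟩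
    · exact hall z
    · exact Subgroup.mul_mem _ (hall z) hs_mem
  exact Cfsg.Agent.S0305.dih_of_top _ _ hx hy hxy n (by omega) hord htop

theorem fin2_cases (k : Fin 2) : k = 0 ∨ k = 1 := by
  revert k
  decide

section mats
variable {F : Type*} [Field F]

theorem sum2 (f : I2 → F) : ∑ k, f k = f (Sum.inr 0) + f (Sum.inr 1) := by
  rw [Fintype.sum_sum_type, Fin.sum_univ_two, Fintype.sum_empty, zero_add]

theorem qf (a b : F) (v : I2 → F) :
    Cfsg.quadFormMinus 0 F a b v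
      = v (Sum.inr 0) ^ 2 + a * v (Sum.inr 0) * v (Sum.inr 1) + b * v (Sum.inr 1) ^ 2 := by
  unfold Cfsg.quadFormMinus
  rw [Fin.sum_univ_zero, zero_add]

theorem mv (A : Matrix I2 I2 F) (u : I2 → F) (k : I2) :
    (A *ᵥ u) k = A k (Sum.inr 0) * u (Sum.inr 0) + A k (Sum.inr 1) * u (Sum.inr 1) :=
  sum2 (fun l => A k l * u l)

theorem mul4 (A B : Matrix I2 I2 F) (k l : I2) :
    (A * B) k l = A k (Sum.inr 0) * B (Sum.inr 0) l + A k (Sum.inr 1) * B (Sum.inr 1) l := by
  rw [Matrix.mul_apply]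
  exact sum2 _

theorem ext4 {A B : Matrix I2 I2 F}
    (h00 : A (Sum.inr 0) (Sum.inr 0) = B (Sum.inr 0) (Sum.inr 0))
    (h01 : A (Sum.inr 0) (Sum.inr 1) = B (Sum.inr 0) (Sum.inr 1))
    (h10 : A (Sum.inr 1) (Sum.inr 0) = B (Sum.inr 1) (Sum.inr 0))
    (h11 : A (Sum.inr 1) (Sum.inr 1) = B (Sum.inr 1) (Sum.inr 1)) : A = B := by
  ext k l
  rcases k with k | k
  · exact isEmptyElim k
  rcases l with l | l
  · exact isEmptyElim l
  rcases fin2_cases k with rfl | rfl <;> rcases fin2_cases l with rfl | rfl <;> assumption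

def vec (x y : F) : I2 → F :=
  fun k => Sum.elim (fun _ : Fin 0 ⊕ Fin 0 => (0 : F)) (fun i : Fin 2 => ![x, y] i) k

theorem vec_0 (x y : F) : vec x y (Sum.inr 0) = x := rfl
theorem vec_1 (x y : F) : vec x y (Sum.inr 1) = y := rfl

def m4 (x y z w : F) : Matrix I2 I2 F :=
  fun k l => Sum.elim (fun _ : Fin 0 ⊕ Fin 0 => (0 : F))
    (fun i : Fin 2 => Sum.elim (fun _ : Fin 0 ⊕ Fin 0 => (0 : F))
      (fun j : Fin 2 => ![![x, y], ![z, w]] i j) l) k

theorem m4_00 (x y z w : F) : m4 x y z w (Sum.inr 0) (Sum.inr 0) = x := rfl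
theorem m4_01 (x y z w : F) : m4 x y z w (Sum.inr 0) (Sum.inr 1) = y := rfl
theorem m4_10 (x y z w : F) : m4 x y z w (Sum.inr 1) (Sum.inr 0) = z := rfl
theorem m4_11 (x y z w : F) : m4 x y z w (Sum.inr 1) (Sum.inr 1) = w := rfl

theorem m4_eq {A : Matrix I2 I2 F} {x y z w : F}
    (h00 : A (Sum.inr 0) (Sum.inr 0) = x) (h01 : A (Sum.inr 0) (Sum.inr 1) = y)
    (h10 : A (Sum.inr 1) (Sum.inr 0) = z) (h11 : A (Sum.inr 1) (Sum.inr 1) = w) :
    A = m4 x y z w := ext4 h00 h01 h10 h11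

theorem m4_mul (x y z w x' y' z' w' : F) :
    m4 x y z w * m4 x' y' z' w'
      = m4 (x * x' + y * z') (x * y' + y * w') (z * x' + w * z') (z * y' + w * w') := by
  apply ext4 <;> rw [mul4] <;> rfl

theorem m4_one : m4 (1 : F) 0 0 1 = 1 := by
  apply ext4
  · rw [m4_00, Matrix.one_apply_eq]
  · rw [m4_01, Matrix.one_apply_ne (by simp)]
  · rw [m4_10, Matrix.one_apply_ne (by simp)]
  · rw [m4_11, Matrix.one_apply_eq]

theorem mem_iff' (a b : F) (g : GL I2 F) :
    g ∈ Cfsg.isometryGroup F (Cfsg.quadFormMinus 0 F a b) ↔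
      ∀ x y : F,
        (g.1 (Sum.inr 0) (Sum.inr 0) * x + g.1 (Sum.inr 0) (Sum.inr 1) * y) ^ 2
          + a * (g.1 (Sum.inr 0) (Sum.inr 0) * x + g.1 (Sum.inr 0) (Sum.inr 1) * y)
              * (g.1 (Sum.inr 1) (Sum.inr 0) * x + g.1 (Sum.inr 1) (Sum.inr 1) * y)
          + b * (g.1 (Sum.inr 1) (Sum.inr 0) * x + g.1 (Sum.inr 1) (Sum.inr 1) * y) ^ 2
        = x ^ 2 + a * x * y + b * y ^ 2 := by
  constructor
  · intro h x y
    have h1 : Cfsg.quadFormMinus 0 F a b (g.1 *ᵥ vec x y)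
        = Cfsg.quadFormMinus 0 F a b (vec x y) := h (vec x y) (vec x y)
    rw [qf, qf, mv, mv] at h1
    exact h1
  · intro h
    show ∀ u v : I2 → F,
      Cfsg.quadFormMinus 0 F a b (g.1 *ᵥ u) = Cfsg.quadFormMinus 0 F a b u
    intro u v
    rw [qf, qf, mv, mv]
    exact h (u (Sum.inr 0)) (u (Sum.inr 1))

def sMat (a : F) : Matrix I2 I2 F := m4 1 a 0 (-1)

theorem sMat_00 (a : F) : sMat a (Sum.inr 0) (Sum.inr 0) = 1 := rfl
theorem sMat_01 (a : F) : sMat a (Sum.inr 0) (Sum.inr 1) = a := rfl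
theorem sMat_10 (a : F) : sMat a (Sum.inr 1) (Sum.inr 0) = 0 := rfl
theorem sMat_11 (a : F) : sMat a (Sum.inr 1) (Sum.inr 1) = -1 := rfl

theorem sMat_mul_self (a : F) : sMat a * sMat a = 1 := by
  unfold sMat
  rw [m4_mul]
  have h : m4 ((1 : F) * 1 + a * 0) (1 * a + a * -1) (0 * 1 + -1 * 0) (0 * a + -1 * -1)
      = m4 1 0 0 1 := by
    congr 1 <;> ring
  rw [h, m4_one]

noncomputable def sGL (a : F) : GL I2 F := ⟨sMat a, sMat a, sMat_mul_self a, sMat_mul_self a⟩

theorem sGL_val (a : F) : (sGL a).1 = sMat a := rfl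

theorem sGL_mem (a b : F) : sGL a ∈ Cfsg.isometryGroup F (Cfsg.quadFormMinus 0 F a b) := by
  rw [mem_iff']
  intro x y
  rw [sGL_val, sMat_00, sMat_01, sMat_10, sMat_11]
  ring

end mats

section field
variable {F : Type*} [Field F] [Fintype F] (a b : F) [Fact (∀ r : F, r ^ 2 ≠ -b + a * r)]

theorem finK : Finite (QuadraticAlgebra F (-b) a) :=
  Finite.of_equiv (F × F) (QuadraticAlgebra.equivProd (-b) a).symm

theorem cardK : Nat.card (QuadraticAlgebra F (-b) a) = Fintype.card F * Fintype.card F := by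
  rw [Nat.card_congr (QuadraticAlgebra.equivProd (-b) a), Nat.card_prod,
    Nat.card_eq_fintype_card]

theorem frob_eq_star (w : QuadraticAlgebra F (-b) a) : w ^ Fintype.card F = star w := by
  haveI : Finite (QuadraticAlgebra F (-b) a) := finK a b
  have hord : orderOf (FiniteField.frobeniusAlgHom F (QuadraticAlgebra F (-b) a)) = 2 :=
    (FiniteField.orderOf_frobeniusAlgHom F (QuadraticAlgebra F (-b) a)).trans
      (QuadraticAlgebra.finrank_eq_two (-b) a)
  have hσ : ∀ v : QuadraticAlgebra F (-b) a,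
      FiniteField.frobeniusAlgHom F (QuadraticAlgebra F (-b) a) v = v ^ Fintype.card F :=
    fun v => rfl
  have hsum : (QuadraticAlgebra.omega : QuadraticAlgebra F (-b) a) + star QuadraticAlgebra.omega
      = algebraMap F _ a := by
    apply QuadraticAlgebra.ext <;> simp
  have hmul : (QuadraticAlgebra.omega : QuadraticAlgebra F (-b) a) * star QuadraticAlgebra.omega
      = algebraMap F _ b := by
    apply QuadraticAlgebra.ext <;> simp
  have hneg : algebraMap F (QuadraticAlgebra F (-b) a) (-b) + algebraMap F _ b = 0 := by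
    rw [← map_add, neg_add_cancel, map_zero]
  have ht : FiniteField.frobeniusAlgHom F (QuadraticAlgebra F (-b) a) QuadraticAlgebra.omega
        * FiniteField.frobeniusAlgHom F (QuadraticAlgebra F (-b) a) QuadraticAlgebra.omega
      = algebraMap F _ (-b) + algebraMap F _ a
        * FiniteField.frobeniusAlgHom F (QuadraticAlgebra F (-b) a) QuadraticAlgebra.omega := by
    rw [← map_mul, QuadraticAlgebra.omega_mul_omega_eq_algebraMap, map_add, map_mul,
      AlgHom.commutes, AlgHom.commutes]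
  have hprod : (FiniteField.frobeniusAlgHom F (QuadraticAlgebra F (-b) a) QuadraticAlgebra.omega
        - QuadraticAlgebra.omega)
      * (FiniteField.frobeniusAlgHom F (QuadraticAlgebra F (-b) a) QuadraticAlgebra.omega
        - star QuadraticAlgebra.omega) = 0 := by
    linear_combination ht
      - FiniteField.frobeniusAlgHom F (QuadraticAlgebra F (-b) a) QuadraticAlgebra.omega * hsum
      + hmul + hneg
  rcases mul_eq_zero.1 hprod with h | h
  · exfalso
    have hid : FiniteField.frobeniusAlgHom F (QuadraticAlgebra F (-b) a)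
        = AlgHom.id F (QuadraticAlgebra F (-b) a) :=
      QuadraticAlgebra.algHom_ext (sub_eq_zero.1 h)
    rw [hid] at hord
    have h1 : orderOf (AlgHom.id F (QuadraticAlgebra F (-b) a)) = 1 := orderOf_one
    omega
  · have hdec : w = algebraMap F _ w.re + algebraMap F _ w.im * QuadraticAlgebra.omega := by
      apply QuadraticAlgebra.ext <;> simp
    have hst : star w = algebraMap F _ w.re
        + algebraMap F _ w.im * star (QuadraticAlgebra.omega : QuadraticAlgebra F (-b) a) := by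
      apply QuadraticAlgebra.ext <;> simp <;> ring
    rw [← hσ, hst, ← sub_eq_zero.1 h]
    conv_lhs => rw [hdec]
    rw [map_add, map_mul, AlgHom.commutes, AlgHom.commutes]

theorem norm_eq_one_iff (z : QuadraticAlgebra F (-b) a) :
    QuadraticAlgebra.norm z = 1 ↔ z ^ (Fintype.card F + 1) = 1 := by
  have h1 : z ^ (Fintype.card F + 1) = algebraMap F _ (QuadraticAlgebra.norm z) := by
    rw [pow_succ, frob_eq_star a b, QuadraticAlgebra.algebraMap_norm_eq_mul_star]
    exact mul_comm _ _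
  rw [h1]
  constructor
  · intro h
    rw [h, map_one]
  · intro h
    have h' : algebraMap F (QuadraticAlgebra F (-b) a) (QuadraticAlgebra.norm z)
        = algebraMap F (QuadraticAlgebra F (-b) a) 1 := by rw [h, map_one]
    exact QuadraticAlgebra.algebraMap_injective h'

noncomputable def rotMat (z : QuadraticAlgebra F (-b) a) : Matrix I2 I2 F :=
  m4 z.re (-b * z.im) z.im (z.re + a * z.im)

theorem rotMat_00 (z : QuadraticAlgebra F (-b) a) :
    rotMat a b z (Sum.inr 0) (Sum.inr 0) = z.re := rfl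
theorem rotMat_01 (z : QuadraticAlgebra F (-b) a) :
    rotMat a b z (Sum.inr 0) (Sum.inr 1) = -b * z.im := rfl
theorem rotMat_10 (z : QuadraticAlgebra F (-b) a) :
    rotMat a b z (Sum.inr 1) (Sum.inr 0) = z.im := rfl
theorem rotMat_11 (z : QuadraticAlgebra F (-b) a) :
    rotMat a b z (Sum.inr 1) (Sum.inr 1) = z.re + a * z.im := rfl

theorem rotMat_mul (z w : QuadraticAlgebra F (-b) a) :
    rotMat a b (z * w) = rotMat a b z * rotMat a b w := by
  unfold rotMat
  rw [m4_mul]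
  apply ext4 <;>
    simp only [m4_00, m4_01, m4_10, m4_11, QuadraticAlgebra.re_mul, QuadraticAlgebra.im_mul] <;>
    ring

theorem rotMat_one : rotMat a b (1 : QuadraticAlgebra F (-b) a) = 1 := by
  rw [← m4_one]
  apply m4_eq
  · rfl
  · show -b * (0 : F) = 0
    ring
  · rfl
  · show (1 : F) + a * 0 = 1
    ring

noncomputable def rotHom : QuadraticAlgebra F (-b) a →* Matrix I2 I2 F where
  toFun := rotMat a b
  map_one' := rotMat_one a b
  map_mul' := rotMat_mul a b

noncomputable def rho0 : (QuadraticAlgebra F (-b) a)ˣ →* GL I2 F := Units.map (rotHom a b)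

theorem rho0_val (z : (QuadraticAlgebra F (-b) a)ˣ) :
    (rho0 a b z).1 = rotMat a b (z : QuadraticAlgebra F (-b) a) := rfl

theorem rot_mem (z : (QuadraticAlgebra F (-b) a)ˣ)
    (hz : QuadraticAlgebra.norm (z : QuadraticAlgebra F (-b) a) = 1) :
    rho0 a b z ∈ Cfsg.isometryGroup F (Cfsg.quadFormMinus 0 F a b) := by
  rw [mem_iff']
  intro x y
  rw [rho0_val, rotMat_00, rotMat_01, rotMat_10, rotMat_11]
  rw [QuadraticAlgebra.norm_def] at hz
  linear_combination (x ^ 2 + a * x * y + b * y ^ 2) * hz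

theorem sMat_conj (z : QuadraticAlgebra F (-b) a) :
    sMat a * rotMat a b z * sMat a = rotMat a b (star z) := by
  unfold sMat rotMat
  rw [m4_mul, m4_mul]
  apply ext4 <;>
    simp only [m4_00, m4_01, m4_10, m4_11, QuadraticAlgebra.re_star, QuadraticAlgebra.im_star] <;>
    ring

noncomputable def NN : Subgroup (QuadraticAlgebra F (-b) a)ˣ :=
  (powMonoidHom (Fintype.card F + 1) :
    (QuadraticAlgebra F (-b) a)ˣ →* (QuadraticAlgebra F (-b) a)ˣ).ker

theorem mem_NN (z : (QuadraticAlgebra F (-b) a)ˣ) :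
    z ∈ NN a b ↔ QuadraticAlgebra.norm (z : QuadraticAlgebra F (-b) a) = 1 := by
  rw [norm_eq_one_iff a b, ← Units.val_pow_eq_pow_val, Units.val_eq_one]
  exact MonoidHom.mem_ker

theorem card_NN : Nat.card (NN a b) = Fintype.card F + 1 := by
  haveI := finK a b
  have hc : Nat.card (QuadraticAlgebra F (-b) a)ˣ = Fintype.card F * Fintype.card F - 1 := by
    rw [Nat.card_units, cardK]
  have h1 : 1 ≤ Fintype.card F := Fintype.card_pos
  obtain ⟨r, hr⟩ : ∃ r, Fintype.card F = r + 1 := ⟨Fintype.card F - 1, by omega⟩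
  have hc' : Nat.card (QuadraticAlgebra F (-b) a)ˣ = (r + 1 + 1) * r := by
    rw [hc, hr]
    have : (r + 1) * (r + 1) = (r + 1 + 1) * r + 1 := by ring
    omega
  show Nat.card ((powMonoidHom (Fintype.card F + 1) :
    (QuadraticAlgebra F (-b) a)ˣ →* (QuadraticAlgebra F (-b) a)ˣ).ker) = Fintype.card F + 1
  rw [IsCyclic.card_powMonoidHom_ker, hc', hr]
  exact Nat.gcd_eq_right (Dvd.intro r rfl)

noncomputable def rho : NN a b →* Cfsg.isometryGroup F (Cfsg.quadFormMinus 0 F a b) :=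
  ((rho0 a b).comp (NN a b).subtype).codRestrict _
    (fun z => rot_mem a b z.1 ((mem_NN a b z.1).1 z.2))

theorem rho_injective : Function.Injective (rho a b) := by
  intro z z' h
  have h00 := congrArg (fun g : Cfsg.isometryGroup F (Cfsg.quadFormMinus 0 F a b) =>
    g.1.1 (Sum.inr 0) (Sum.inr 0)) h
  have h10 := congrArg (fun g : Cfsg.isometryGroup F (Cfsg.quadFormMinus 0 F a b) =>
    g.1.1 (Sum.inr 1) (Sum.inr 0)) h
  apply Subtype.ext
  apply Units.ext
  exact QuadraticAlgebra.ext h00 h10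

noncomputable def sG : Cfsg.isometryGroup F (Cfsg.quadFormMinus 0 F a b) :=
  ⟨sGL a, sGL_mem a b⟩

theorem sG_mul_self : sG a b * sG a b = 1 := by
  apply Subtype.ext
  apply Units.ext
  exact sMat_mul_self a

theorem star_eq_inv (z : NN a b) :
    star ((z.1 : (QuadraticAlgebra F (-b) a)ˣ) : QuadraticAlgebra F (-b) a)
      = (((z⁻¹ : NN a b).1 : (QuadraticAlgebra F (-b) a)ˣ) : QuadraticAlgebra F (-b) a) := by
  have h1 : (z.1 : (QuadraticAlgebra F (-b) a)ˣ) ^ (Fintype.card F + 1) = 1 :=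
    MonoidHom.mem_ker.1 z.2
  have h2 : ((z.1 : (QuadraticAlgebra F (-b) a)ˣ) : QuadraticAlgebra F (-b) a)
      ^ (Fintype.card F + 1) = 1 := by
    rw [← Units.val_pow_eq_pow_val, h1, Units.val_one]
  rw [pow_succ, frob_eq_star a b] at h2
  show star ((z.1 : (QuadraticAlgebra F (-b) a)ˣ) : QuadraticAlgebra F (-b) a)
    = (((z.1)⁻¹ : (QuadraticAlgebra F (-b) a)ˣ) : QuadraticAlgebra F (-b) a)
  rw [Units.val_inv_eq_inv_val]
  exact eq_inv_of_mul_eq_one_left h2

theorem sG_conj (z : NN a b) : sG a b * rho a b z * sG a b = rho a b z⁻¹ := by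
  apply Subtype.ext
  apply Units.ext
  show sMat a * rotMat a b ((z.1 : (QuadraticAlgebra F (-b) a)ˣ) : QuadraticAlgebra F (-b) a)
      * sMat a
    = rotMat a b (((z⁻¹ : NN a b).1 : (QuadraticAlgebra F (-b) a)ˣ) : QuadraticAlgebra F (-b) a)
  rw [sMat_conj, star_eq_inv]

theorem key_ne
    (hab : ∀ z₁ z₂ : F, z₁ ^ 2 + a * z₁ * z₂ + b * z₂ ^ 2 = 0 → z₁ = 0 ∧ z₂ = 0) :
    ¬ (a = 0 ∧ (-1 : F) = 1) := by
  rintro ⟨ha0, hm⟩
  have h2 : (2 : F) = 0 := by linear_combination (-1 : F) * hm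
  have hinj : Function.Injective (fun x : F => x ^ 2) := by
    intro x y hxy
    have hxy' : x ^ 2 = y ^ 2 := hxy
    have h3 : (x - y) ^ 2 = 0 := by linear_combination hxy' + (y ^ 2 - x * y) * h2
    exact sub_eq_zero.1 ((pow_eq_zero_iff (by norm_num : (2 : ℕ) ≠ 0)).1 h3)
  obtain ⟨β, hβ⟩ := (Finite.injective_iff_surjective.1 hinj) (-b)
  have hβ' : β ^ 2 = -b := hβ
  have h4 := (hab β 1 (by linear_combination hβ' + β * ha0)).2
  exact one_ne_zero h4

theorem sG_ne_one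
    (hab : ∀ z₁ z₂ : F, z₁ ^ 2 + a * z₁ * z₂ + b * z₂ ^ 2 = 0 → z₁ = 0 ∧ z₂ = 0) :
    sG a b ≠ 1 := by
  intro h
  have h01 := congrArg (fun g : Cfsg.isometryGroup F (Cfsg.quadFormMinus 0 F a b) =>
    g.1.1 (Sum.inr 0) (Sum.inr 1)) h
  have h11 := congrArg (fun g : Cfsg.isometryGroup F (Cfsg.quadFormMinus 0 F a b) =>
    g.1.1 (Sum.inr 1) (Sum.inr 1)) h
  have h01' : a = (1 : Matrix I2 I2 F) (Sum.inr 0) (Sum.inr 1) := h01
  have h11' : (-1 : F) = (1 : Matrix I2 I2 F) (Sum.inr 1) (Sum.inr 1) := h11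
  rw [Matrix.one_apply_ne (by simp)] at h01'
  rw [Matrix.one_apply_eq] at h11'
  exact key_ne a b hab ⟨h01', h11'⟩

theorem rho_ne_s
    (hab : ∀ z₁ z₂ : F, z₁ ^ 2 + a * z₁ * z₂ + b * z₂ ^ 2 = 0 → z₁ = 0 ∧ z₂ = 0)
    (z : NN a b) : rho a b z ≠ sG a b := by
  intro h
  have h01 := congrArg (fun g : Cfsg.isometryGroup F (Cfsg.quadFormMinus 0 F a b) =>
    g.1.1 (Sum.inr 0) (Sum.inr 1)) h
  have h10 := congrArg (fun g : Cfsg.isometryGroup F (Cfsg.quadFormMinus 0 F a b) =>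
    g.1.1 (Sum.inr 1) (Sum.inr 0)) h
  have h00 := congrArg (fun g : Cfsg.isometryGroup F (Cfsg.quadFormMinus 0 F a b) =>
    g.1.1 (Sum.inr 0) (Sum.inr 0)) h
  have h11 := congrArg (fun g : Cfsg.isometryGroup F (Cfsg.quadFormMinus 0 F a b) =>
    g.1.1 (Sum.inr 1) (Sum.inr 1)) h
  have h01' : -b * ((z.1 : (QuadraticAlgebra F (-b) a)ˣ) : QuadraticAlgebra F (-b) a).im = a :=
    h01
  have h10' : ((z.1 : (QuadraticAlgebra F (-b) a)ˣ) : QuadraticAlgebra F (-b) a).im = 0 := h10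
  have h00' : ((z.1 : (QuadraticAlgebra F (-b) a)ˣ) : QuadraticAlgebra F (-b) a).re = 1 := h00
  have h11' : ((z.1 : (QuadraticAlgebra F (-b) a)ˣ) : QuadraticAlgebra F (-b) a).re
      + a * ((z.1 : (QuadraticAlgebra F (-b) a)ˣ) : QuadraticAlgebra F (-b) a).im = -1 := h11
  refine key_ne a b hab ⟨?_, ?_⟩
  · rw [h10', mul_zero] at h01'
    exact h01'.symm
  · rw [h10', mul_zero, add_zero, h00'] at h11'
    exact h11'.symm

theorem classify_aux
    (hab : ∀ z₁ z₂ : F, z₁ ^ 2 + a * z₁ * z₂ + b * z₂ ^ 2 = 0 → z₁ = 0 ∧ z₂ = 0)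
    (p s r t : F)
    (h : ∀ x y : F, (p * x + s * y) ^ 2 + a * (p * x + s * y) * (r * x + t * y)
      + b * (r * x + t * y) ^ 2 = x ^ 2 + a * x * y + b * y ^ 2) :
    p ^ 2 + a * p * r + b * r ^ 2 = 1 ∧
      ((s = -b * r ∧ t = p + a * r) ∨ (s = a * p + b * r ∧ t = -p)) := by
  have h1 : p ^ 2 + a * p * r + b * r ^ 2 = 1 := by
    have := h 1 0
    linear_combination this
  have h2 : s ^ 2 + a * s * t + b * t ^ 2 = b := by
    have := h 0 1
    linear_combination this
  have h3 : 2 * p * s + a * (p * t + r * s) + 2 * b * r * t = a := by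
    have := h 1 1
    linear_combination this - h1 - h2
  refine ⟨h1, ?_⟩
  have htr : 2 * ((p + a * r) * s + b * r * t) + a * (p * t - r * s) = a := by
    linear_combination h3
  have hn : ((p + a * r) * s + b * r * t) ^ 2
      + a * ((p + a * r) * s + b * r * t) * (p * t - r * s) + b * (p * t - r * s) ^ 2 = b := by
    linear_combination (s ^ 2 + a * s * t + b * t ^ 2) * h1 + h2
  have hprod : ((⟨(p + a * r) * s + b * r * t, p * t - r * s⟩ : QuadraticAlgebra F (-b) a)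
        - QuadraticAlgebra.omega)
      * ((⟨(p + a * r) * s + b * r * t, p * t - r * s⟩ : QuadraticAlgebra F (-b) a)
        - star QuadraticAlgebra.omega) = 0 := by
    apply QuadraticAlgebra.ext
    · simp only [QuadraticAlgebra.re_mul, QuadraticAlgebra.re_sub, QuadraticAlgebra.im_sub,
        QuadraticAlgebra.re_star, QuadraticAlgebra.im_star, QuadraticAlgebra.omega_re,
        QuadraticAlgebra.omega_im, QuadraticAlgebra.re_zero]
      linear_combination ((p + a * r) * s + b * r * t) * htr - hn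
    · simp only [QuadraticAlgebra.im_mul, QuadraticAlgebra.re_sub, QuadraticAlgebra.im_sub,
        QuadraticAlgebra.re_star, QuadraticAlgebra.im_star, QuadraticAlgebra.omega_re,
        QuadraticAlgebra.omega_im, QuadraticAlgebra.im_zero]
      linear_combination (p * t - r * s) * htr
  rcases mul_eq_zero.1 hprod with h0 | h0
  · left
    have hX : (p + a * r) * s + b * r * t = 0 :=
      congrArg QuadraticAlgebra.re (sub_eq_zero.1 h0)
    have hY : p * t - r * s = 1 := congrArg QuadraticAlgebra.im (sub_eq_zero.1 h0)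
    constructor
    · linear_combination (-s) * h1 + p * hX - b * r * hY
    · linear_combination (-t) * h1 + (p + a * r) * hY + r * hX
  · right
    have hX : (p + a * r) * s + b * r * t = 0 + a * 1 :=
      congrArg QuadraticAlgebra.re (sub_eq_zero.1 h0)
    have hY : p * t - r * s = -1 := congrArg QuadraticAlgebra.im (sub_eq_zero.1 h0)
    constructor
    · linear_combination (-s) * h1 + p * hX - b * r * hY
    · linear_combination (-t) * h1 + (p + a * r) * hY + r * hX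

theorem cases_mat
    (hab : ∀ z₁ z₂ : F, z₁ ^ 2 + a * z₁ * z₂ + b * z₂ ^ 2 = 0 → z₁ = 0 ∧ z₂ = 0)
    (A : Matrix I2 I2 F)
    (h : ∀ x y : F,
        (A (Sum.inr 0) (Sum.inr 0) * x + A (Sum.inr 0) (Sum.inr 1) * y) ^ 2
          + a * (A (Sum.inr 0) (Sum.inr 0) * x + A (Sum.inr 0) (Sum.inr 1) * y)
              * (A (Sum.inr 1) (Sum.inr 0) * x + A (Sum.inr 1) (Sum.inr 1) * y)
          + b * (A (Sum.inr 1) (Sum.inr 0) * x + A (Sum.inr 1) (Sum.inr 1) * y) ^ 2
        = x ^ 2 + a * x * y + b * y ^ 2) :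
    ∃ w : QuadraticAlgebra F (-b) a, QuadraticAlgebra.norm w = 1 ∧
      (A = rotMat a b w ∨ A = rotMat a b w * sMat a) := by
  obtain ⟨h1, hc⟩ := classify_aux a b hab _ _ _ _ h
  refine ⟨⟨A (Sum.inr 0) (Sum.inr 0), A (Sum.inr 1) (Sum.inr 0)⟩, ?_, ?_⟩
  · have h5 : A (Sum.inr 0) (Sum.inr 0) * A (Sum.inr 0) (Sum.inr 0)
        + a * A (Sum.inr 0) (Sum.inr 0) * A (Sum.inr 1) (Sum.inr 0)
        - -b * A (Sum.inr 1) (Sum.inr 0) * A (Sum.inr 1) (Sum.inr 0) = 1 := by
      linear_combination h1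
    exact (QuadraticAlgebra.norm_def _).trans h5
  · rcases hc with ⟨hs, ht⟩ | ⟨hs, ht⟩
    · left
      show A = m4 (A (Sum.inr 0) (Sum.inr 0)) (-b * A (Sum.inr 1) (Sum.inr 0))
        (A (Sum.inr 1) (Sum.inr 0)) (A (Sum.inr 0) (Sum.inr 0) + a * A (Sum.inr 1) (Sum.inr 0))
      exact m4_eq rfl hs rfl ht
    · right
      show A = m4 (A (Sum.inr 0) (Sum.inr 0)) (-b * A (Sum.inr 1) (Sum.inr 0))
        (A (Sum.inr 1) (Sum.inr 0)) (A (Sum.inr 0) (Sum.inr 0) + a * A (Sum.inr 1) (Sum.inr 0))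
        * m4 1 a 0 (-1)
      rw [m4_mul]
      apply m4_eq
      · ring
      · linear_combination hs
      · ring
      · linear_combination ht

theorem cases_G
    (hab : ∀ z₁ z₂ : F, z₁ ^ 2 + a * z₁ * z₂ + b * z₂ ^ 2 = 0 → z₁ = 0 ∧ z₂ = 0)
    (g : Cfsg.isometryGroup F (Cfsg.quadFormMinus 0 F a b)) :
    (∃ z : NN a b, g = rho a b z) ∨ (∃ z : NN a b, g = rho a b z * sG a b) := by
  obtain ⟨w, hw, hc⟩ := cases_mat a b hab g.1.1 ((mem_iff' a b g.1).1 g.2)
  have hw0 : w ≠ 0 := by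
    intro h0
    rw [h0, QuadraticAlgebra.norm_zero] at hw
    exact zero_ne_one hw
  have hmem : Units.mk0 w hw0 ∈ NN a b := (mem_NN a b _).2 hw
  rcases hc with h | h
  · left
    exact ⟨⟨Units.mk0 w hw0, hmem⟩, Subtype.ext (Units.ext h)⟩
  · right
    exact ⟨⟨Units.mk0 w hw0, hmem⟩, Subtype.ext (Units.ext h)⟩

end field

/-- GO^-_2(q) is dihedral of order 2(q+1). -/
theorem result {F : Type*} [Field F] [Fintype F] {q : ℕ} (hF : Fintype.card F = q) (a b : F) (hab : ∀ z₁ z₂ : F, z₁ ^ 2 + a * z₁ * z₂ + b * z₂ ^ 2 = 0 → z₁ = 0 ∧ z₂ = 0) : Nonempty (Cfsg.isometryGroup F (Cfsg.quadFormMinus 0 F a b) ≃* DihedralGroup (q + 1)) := by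
  subst hF
  haveI hfact : Fact (∀ r : F, r ^ 2 ≠ -b + a * r) := ⟨by
    intro r hr
    have h := (hab r (-1) (by linear_combination hr)).2
    have h1 : (1 : F) = 0 := by linear_combination (-1 : F) * h
    exact one_ne_zero h1⟩
  haveI : Finite (QuadraticAlgebra F (-b) a) := finK a b
  have h2 : 2 ≤ Fintype.card F + 1 := by
    have := Fintype.card_pos (α := F)
    omega
  exact dih_of_hom (rho a b) (rho_injective a b) (sG a b) (sG_ne_one a b hab) (sG_mul_self a b)
    (sG_conj a b) (rho_ne_s a b hab) (cases_G a b hab) (Fintype.card F + 1) (card_NN a b) h2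

end Cfsg.Agent.S0306
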