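import Cfsg.Statements.S0307
import Cfsg.Agent.Helper2.SLCard

set_option autoImplicit false
open Cfsg

namespace Cfsg.Agent.S0307

theorem cyc_equiv (Q : Type*) [Group Q] [IsCyclic Q] (d : ℕ) (h : Nat.card Q = d) :
    Nonempty (Q ≃* Multiplicative (ZMod d)) := by
  subst h
  exact ⟨(zmodCyclicMulEquiv inferInstance).symm⟩

theorem det_scalar {F : Type*} [Field F] (n : ℕ) (u : Fˣ) :
    Matrix.GeneralLinearGroup.det (Matrix.GeneralLinearGroup.scalar (Fin n) u) = u ^ n := by
  apply Units.ext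
  rw [Matrix.GeneralLinearGroup.val_det_apply, Matrix.GeneralLinearGroup.coe_scalar,
    Units.val_pow_eq_pow_val, Matrix.scalar_apply, Matrix.det_diagonal, Finset.prod_const,
    Finset.card_univ, Fintype.card_fin]

theorem det_toGL {F : Type*} [Field F] (n : ℕ) (S : Matrix.SpecialLinearGroup (Fin n) F) :
    Matrix.GeneralLinearGroup.det (Matrix.SpecialLinearGroup.toGL S) = 1 := by
  apply Units.ext
  rw [Matrix.GeneralLinearGroup.val_det_apply, Matrix.SpecialLinearGroup.coe_GL_coe_matrix]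
  simp


/-- PSL_n(q) is normal in PGL_n(q) with cyclic quotient of order gcd(n, q-1): the image of the natural map PSL_n → PGL_n is the kernel of a surjective homomorphism onto the cyclic group of that order. -/
theorem result {F : Type*} [Field F] [Fintype F] {q : ℕ} (hF : Fintype.card F = q) (n : ℕ) (hn : 1 ≤ n) : ∃ g : Matrix.ProjGenLinGroup (Fin n) F →* Multiplicative (ZMod (Nat.gcd n (q - 1))), Function.Surjective g ∧ g.ker = (Matrix.ProjectiveSpecialLinearGroup.toPGL : Matrix.ProjectiveSpecialLinearGroup (Fin n) F →* Matrix.ProjGenLinGroup (Fin n) F).range := by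
  classical
  have : Nonempty (Fin n) := ⟨⟨0, by omega⟩⟩
  obtain ⟨P, hP⟩ : ∃ P : Subgroup Fˣ, P = (powMonoidHom n : Fˣ →* Fˣ).range := ⟨_, rfl⟩
  have hcard : Nat.card (Fˣ ⧸ P) = Nat.gcd n (q - 1) := by
    have h1 := Subgroup.card_mul_index (powMonoidHom n : Fˣ →* Fˣ).ker
    rw [Subgroup.index_ker, ← hP, IsCyclic.card_powMonoidHom_ker, Nat.card_units,
      Nat.card_eq_fintype_card (α := F), hF] at h1
    have h2 := Subgroup.card_mul_index P
    rw [Nat.card_units, Nat.card_eq_fintype_card (α := F), hF] at h2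
    have hPpos : 0 < Nat.card P := Nat.card_pos
    have h3 : Nat.card P * P.index = Nat.card P * (q - 1).gcd n :=
      h2.trans (h1.symm.trans (mul_comm _ _))
    rw [← Subgroup.index_eq_card, Nat.eq_of_mul_eq_mul_left hPpos h3, Nat.gcd_comm]
  have hcyc : IsCyclic (Fˣ ⧸ P) :=
    isCyclic_of_surjective (QuotientGroup.mk' P) (QuotientGroup.mk'_surjective P)
  obtain ⟨e⟩ := cyc_equiv (Fˣ ⧸ P) _ hcard
  let g0 : GL (Fin n) F →* Multiplicative (ZMod (Nat.gcd n (q - 1))) :=
    e.toMonoidHom.comp ((QuotientGroup.mk' P).comp Matrix.GeneralLinearGroup.det)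
  have hg0 : ∀ A : GL (Fin n) F, g0 A = 1 ↔
      ∃ u : Fˣ, u ^ n = Matrix.GeneralLinearGroup.det A := by
    intro A
    show e (QuotientGroup.mk' P (Matrix.GeneralLinearGroup.det A)) = 1 ↔ _
    rw [MulEquiv.map_eq_one_iff, QuotientGroup.mk'_apply, QuotientGroup.eq_one_iff, hP]
    exact Iff.rfl
  have hle : Subgroup.center (GL (Fin n) F) ≤ g0.ker := by
    intro z hz
    rw [Matrix.GeneralLinearGroup.center_eq_range_scalar] at hz
    obtain ⟨u, rfl⟩ := hz
    rw [MonoidHom.mem_ker, hg0]
    exact ⟨u, (det_scalar n u).symm⟩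
  let g : Matrix.ProjGenLinGroup (Fin n) F →* Multiplicative (ZMod (Nat.gcd n (q - 1))) :=
    QuotientGroup.lift (Subgroup.center (GL (Fin n) F)) g0 hle
  have hg_mk : ∀ A : GL (Fin n) F, g (Matrix.ProjGenLinGroup.mk A) = g0 A := fun A => rfl
  refine ⟨g, ?_, ?_⟩
  · intro y
    obtain ⟨x, hx⟩ := e.surjective y
    obtain ⟨u, rfl⟩ := QuotientGroup.mk'_surjective P x
    obtain ⟨A, rfl⟩ := Matrix.GeneralLinearGroup.det_surjective (n := Fin n) (R := F) u
    exact ⟨Matrix.ProjGenLinGroup.mk A, hx⟩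
  · ext x
    induction x using Matrix.ProjGenLinGroup.induction_on with
    | mk A =>
      rw [MonoidHom.mem_ker, hg_mk, hg0, MonoidHom.mem_range]
      constructor
      · rintro ⟨u, hu⟩
        have hr : ((u⁻¹ : Fˣ) : F) ^ n * (A : Matrix (Fin n) (Fin n) F).det = 1 := by
          have h1 : (u⁻¹) ^ n * Matrix.GeneralLinearGroup.det A = 1 := by
            rw [← hu, ← mul_pow, inv_mul_cancel, one_pow]
          have h2 := congrArg Units.val h1
          rwa [Units.val_mul, Units.val_pow_eq_pow_val, Matrix.GeneralLinearGroup.val_det_apply,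
            Units.val_one] at h2
        have hdet : (((u⁻¹ : Fˣ) : F) • (A : Matrix (Fin n) (Fin n) F)).det = 1 := by
          rw [Matrix.det_smul, Fintype.card_fin]
          exact hr
        refine ⟨QuotientGroup.mk ⟨((u⁻¹ : Fˣ) : F) • (A : Matrix (Fin n) (Fin n) F), hdet⟩, ?_⟩
        change Matrix.ProjGenLinGroup.mk (Matrix.SpecialLinearGroup.toGL
          ⟨((u⁻¹ : Fˣ) : F) • (A : Matrix (Fin n) (Fin n) F), hdet⟩) = Matrix.ProjGenLinGroup.mk A
        rw [Matrix.ProjGenLinGroup.mk_eq_mk_iff]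
        refine ⟨u, Units.ext ?_⟩
        rw [Units.val_mul, Matrix.GeneralLinearGroup.coe_scalar]
        show (((u⁻¹ : Fˣ) : F) • (A : Matrix (Fin n) (Fin n) F)) * Matrix.scalar (Fin n) (u : F)
          = (A : Matrix (Fin n) (Fin n) F)
        rw [Matrix.scalar_apply, ← Matrix.smul_one_eq_diagonal, Matrix.smul_mul, Matrix.mul_smul,
          Matrix.mul_one, smul_smul, Units.inv_mul, one_smul]
      · rintro ⟨s, hs⟩
        induction s using QuotientGroup.induction_on with
        | H S =>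
          change Matrix.ProjGenLinGroup.mk (Matrix.SpecialLinearGroup.toGL S)
            = Matrix.ProjGenLinGroup.mk A at hs
          rw [Matrix.ProjGenLinGroup.mk_eq_mk_iff] at hs
          obtain ⟨u, hu⟩ := hs
          refine ⟨u, ?_⟩
          rw [← hu, map_mul, det_toGL, one_mul, det_scalar]

end Cfsg.Agent.S0307
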