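import Cfsg.Statements.S0312
import Cfsg.Agent.Helper2.BN3

set_option autoImplicit false
open Cfsg

namespace Cfsg.Agent.S0312

/-- Every standard parabolic subgroup of a group with a (B,N)-pair equals its own normaliser. -/
theorem result {G : Type*} [Group G] (P : Cfsg.BNPair G) {J : Set G}
    (hJ : J ⊆ P.S) : Subgroup.normalizer (P.parabolic J : Set G) = P.parabolic J := by
  apply le_antisymm
  · intro g hg
    obtain ⟨n, hn, hgn⟩ := Helper2.BN.bruhat_exists_N P g
    obtain ⟨b1, hb1, b2, hb2, e⟩ := (Helper2.BN.mem_dc P).1 hgn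
    have hb1N : b1 ∈ Subgroup.normalizer (P.parabolic J : Set G) :=
      Subgroup.le_normalizer (Helper2.BN.B_le_parabolic P J hb1)
    have hb2N : b2 ∈ Subgroup.normalizer (P.parabolic J : Set G) :=
      Subgroup.le_normalizer (Helper2.BN.B_le_parabolic P J hb2)
    have hnN : n ∈ Subgroup.normalizer (P.parabolic J : Set G) := by
      have : n = b1⁻¹ * g * b2⁻¹ := by rw [e]; group
      rw [this]
      exact Subgroup.mul_mem _ (Subgroup.mul_mem _ (Subgroup.inv_mem _ hb1N) hg)
        (Subgroup.inv_mem _ hb2N)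
    have hn' : n ∈ P.parabolic J :=
      Helper2.BN.mem_of_conj_mem P (P.parabolic J) (Helper2.BN.B_le_parabolic P J) hn
        (fun b hb => (Subgroup.mem_set_normalizer_iff.1 hnN b).1 (Helper2.BN.B_le_parabolic P J hb))
    rw [e]
    exact Subgroup.mul_mem _ (Subgroup.mul_mem _ (Helper2.BN.B_le_parabolic P J hb1) hn')
      (Helper2.BN.B_le_parabolic P J hb2)
  · exact Subgroup.le_normalizer

end Cfsg.Agent.S0312
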