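import Cfsg.Statements.S0313
import Cfsg.Agent.Helper2.BN3

set_option autoImplicit false
open Cfsg

namespace Cfsg.Agent.S0313

/-- Two standard parabolic subgroups of a group with a (B,N)-pair which are conjugate in `G` coincide. -/
theorem result {G : Type*} [Group G] (P : Cfsg.BNPair G) {J K : Set G}
    (hJ : J ⊆ P.S) (hK : K ⊆ P.S) (g : G)
    (h : (P.parabolic J).map (MulAut.conj g).toMonoidHom = P.parabolic K) :
    P.parabolic J = P.parabolic K := by
  have hmap : ∀ x ∈ P.parabolic J, g * x * g⁻¹ ∈ P.parabolic K := by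
    intro x hx
    rw [← h]
    exact Subgroup.mem_map.2 ⟨x, hx, rfl⟩
  obtain ⟨n, hn, hgn⟩ := Helper2.BN.bruhat_exists_N P g
  obtain ⟨b1, hb1, b2, hb2, e⟩ := (Helper2.BN.mem_dc P).1 hgn
  have hb1K := Helper2.BN.B_le_parabolic P K hb1
  have hb2J := Helper2.BN.B_le_parabolic P J hb2
  have hnK : n ∈ P.parabolic K := by
    apply Helper2.BN.mem_of_conj_mem P (P.parabolic K) (Helper2.BN.B_le_parabolic P K) hn
    intro b hb
    have h1 := hmap (b2⁻¹ * b * b2) (Subgroup.mul_mem _ (Subgroup.mul_mem _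
      (Subgroup.inv_mem _ hb2J) (Helper2.BN.B_le_parabolic P J hb)) hb2J)
    have e2 : n * b * n⁻¹ = b1⁻¹ * (g * (b2⁻¹ * b * b2) * g⁻¹) * b1 := by rw [e]; group
    rw [e2]
    exact Subgroup.mul_mem _ (Subgroup.mul_mem _ (Subgroup.inv_mem _ hb1K) h1) hb1K
  have hgK : g ∈ P.parabolic K := by
    rw [e]
    exact Subgroup.mul_mem _ (Subgroup.mul_mem _ hb1K hnK) (Helper2.BN.B_le_parabolic P K hb2)
  apply le_antisymm
  · intro x hx
    have h1 := hmap x hx
    have e2 : x = g⁻¹ * (g * x * g⁻¹) * g := by group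
    rw [e2]
    exact Subgroup.mul_mem _ (Subgroup.mul_mem _ (Subgroup.inv_mem _ hgK) h1) hgK
  · intro y hy
    have h1 : g * y * g⁻¹ ∈ P.parabolic K :=
      Subgroup.mul_mem _ (Subgroup.mul_mem _ hgK hy) (Subgroup.inv_mem _ hgK)
    rw [← h] at h1
    obtain ⟨x, hx, hxy⟩ := Subgroup.mem_map.1 h1
    have hxy' : g * x * g⁻¹ = g * y * g⁻¹ := hxy
    have : x = y := by
      have e3 : x = g⁻¹ * (g * x * g⁻¹) * g := by group
      rw [e3, hxy']; group
    rw [← this]; exact hx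

end Cfsg.Agent.S0313
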