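import Cfsg.Statements.S0316
import Cfsg.Agent.Helper2.BN3

set_option autoImplicit false
open Cfsg

namespace Cfsg.Agent.S0316

/-- The map `J ↦ P_J` is a lattice isomorphism from the power set of the set of distinguished generators onto the
subgroups containing `B`. -/
theorem result {G : Type*} [Group G] (P : Cfsg.BNPair G) :
    ∃ e : Set P.S ≃o {M : Subgroup G // P.B ≤ M},
      ∀ J : Set P.S, ((e J : {M : Subgroup G // P.B ≤ M}) : Subgroup G) = P.parabolic (Subtype.val '' J) := by
  have himg : ∀ J : Set P.S, Subtype.val '' J ⊆ P.S := by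
    rintro J x ⟨y, _, rfl⟩
    exact y.2
  let f : Set P.S → {M : Subgroup G // P.B ≤ M} := fun J =>
    ⟨P.parabolic (Subtype.val '' J), Helper2.BN.B_le_parabolic P _⟩
  have hle : ∀ J K : Set P.S, f J ≤ f K ↔ J ≤ K := by
    intro J K
    constructor
    · intro hJK s hs
      have h1 : (s : G) ∈ P.parabolic (Subtype.val '' K) :=
        hJK (Helper2.BN.subset_parabolic P ⟨s, hs, rfl⟩)
      obtain ⟨t, ht, hts⟩ := Helper2.BN.mem_J_of_mem_parabolic P (himg K) s.2 h1
      have : t = s := Subtype.ext hts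
      rw [← this]; exact ht
    · intro hJK
      exact Helper2.BN.parabolic_mono P (Set.image_mono hJK)
  have hsurj : Function.Surjective f := by
    rintro ⟨M, hM⟩
    refine ⟨{s : P.S | (s : G) ∈ M}, ?_⟩
    apply Subtype.ext
    show P.parabolic (Subtype.val '' {s : P.S | (s : G) ∈ M}) = M
    have e : Subtype.val '' {s : P.S | (s : G) ∈ M} = P.S ∩ (M : Set G) := by
      ext x
      constructor
      · rintro ⟨y, hy, rfl⟩
        exact ⟨y.2, hy⟩
      · rintro ⟨hx1, hx2⟩
        exact ⟨⟨x, hx1⟩, hx2, rfl⟩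
    rw [e]
    exact (Helper2.BN.eq_parabolic_of_B_le P M hM).symm
  exact ⟨OrderIso.ofSurjective (OrderEmbedding.ofMapLEIff f hle) hsurj, fun J => rfl⟩

end Cfsg.Agent.S0316
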