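import Cfsg.Statements.S0321
import Cfsg.Agent.Helper2.BN3

set_option autoImplicit false
open Cfsg

namespace Cfsg.Agent.S0321

/-- For `n ∈ N` not in `B`, the union `B ∪ B n B` is (the underlying set of) a subgroup exactly when `n` agrees
modulo `B ⊓ N` with one of the distinguished representatives; thus the distinguished involutions are
determined by `B` and `N`. -/
theorem result {G : Type*} [Group G] (P : Cfsg.BNPair G) {n : G}
    (hn : n ∈ P.N) (hnB : n ∉ P.B) :
    (∃ H : Subgroup G, (H : Set G) = (P.B : Set G) ∪ DoubleCoset.doubleCoset n (P.B : Set G) P.B) ↔ ∃ s ∈ P.S, s⁻¹ * n ∈ P.B := by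
  constructor
  · rintro ⟨H, hH⟩
    have hB : P.B ≤ H := by
      intro b hb
      have : b ∈ (H : Set G) := by rw [hH]; exact Or.inl hb
      exact this
    have hnH : n ∈ H := by
      have : n ∈ (H : Set G) := by rw [hH]; exact Or.inr (Helper2.BN.self_mem_dc P n)
      exact this
    obtain ⟨k, hk⟩ := Helper2.BN.reduced_mem' P H hB hn
      (fun b hb => H.mul_mem (H.mul_mem hnH (hB hb)) (H.inv_mem hnH))
    cases k with
    | zero => exact absurd hk.1 hnB
    | succ k =>
      obtain ⟨s, hs, m, hm, e⟩ := (Helper2.BN.mem_W_succ P).1 hk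
      refine ⟨s, hs.1, ?_⟩
      have hsH : s ∈ (H : Set G) := hs.2
      rw [hH] at hsH
      rcases hsH with hsB | hsn
      · exact absurd hsB (Helper2.BN.S_not_mem_B P hs.1)
      · exact Helper2.BN.bruhat_unique P (P.subset hs.1) hn (Helper2.BN.mem_dc_symm P hsn)
  · rintro ⟨s, hs, hsn⟩
    refine ⟨P.parabolic {s}, ?_⟩
    have h1 : n ∈ Helper2.BN.dc P s := by
      have e : n = s * (s⁻¹ * n) := by group
      rw [e]; exact Helper2.BN.dc_mul_right P hsn (Helper2.BN.self_mem_dc P s)
    ext g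
    rw [SetLike.mem_coe, Helper2.BN.mem_parabolic_singleton P hs g]
    show g ∈ P.B ∨ g ∈ Helper2.BN.dc P s ↔ g ∈ P.B ∨ g ∈ Helper2.BN.dc P n
    rw [Helper2.BN.dc_eq_of_mem P h1]

end Cfsg.Agent.S0321
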