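import Cfsg.Statements.S0322
import Cfsg.Agent.Helper2.BN1

set_option autoImplicit false
open Cfsg

namespace Cfsg.Agent.S0322

open Helper2.BN in
theorem rank_one_cases {G : Type*} [Group G] (P : Cfsg.BNPair G) {s : G} (hS : P.S = {s}) (g : G) :
    g ∈ P.B ∨ g ∈ dc P s := by
  have hs : s ∈ P.S := by rw [hS]; rfl
  obtain ⟨n, hn, hg⟩ := bruhat_exists P g
  rw [hS, Subgroup.mem_closure_singleton] at hn
  obtain ⟨k, rfl⟩ := hn
  have hsq : ∀ j : ℤ, (s * s) ^ j ∈ P.B := fun j => P.B.zpow_mem (P.sq_mem s hs) j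
  rcases Int.even_or_odd' k with ⟨j, rfl | rfl⟩
  · left
    have e : s ^ (2 * j) = (s * s) ^ j := by rw [zpow_mul, zpow_two]
    rw [e] at hg
    exact (mem_dc_of_mem_B P (hsq j)).1 hg
  · right
    have e : s ^ (2 * j + 1) = (s * s) ^ j * s := by rw [zpow_add, zpow_mul, zpow_two, zpow_one]
    rw [e] at hg
    exact (mem_dc_B_mul P (hsq j)).1 hg

/-- A group with a (B,N)-pair of rank one acts doubly transitively on the left cosets of `B`. -/
theorem result {G : Type*} [Group G] (P : Cfsg.BNPair G) (h : P.rank = 1) : MulAction.IsMultiplyPretransitive G (G ⧸ P.B) 2 := by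
  have hS : ∃ s : G, P.S = {s} := by
    unfold Cfsg.BNPair.rank at h
    obtain ⟨x, hx⟩ := Nat.card_eq_one_iff_exists.1 h
    refine ⟨x.1, ?_⟩
    ext y
    constructor
    · intro hy
      have := hx ⟨y, hy⟩
      exact congrArg Subtype.val this
    · intro hy
      rw [Set.mem_singleton_iff] at hy
      rw [hy]; exact x.2
  obtain ⟨s, hS⟩ := hS
  rw [MulAction.is_two_pretransitive_iff]
  intro a b c d hab hcd
  induction a using QuotientGroup.induction_on with | H x => ?_
  induction b using QuotientGroup.induction_on with | H y => ?_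
  induction c using QuotientGroup.induction_on with | H z => ?_
  induction d using QuotientGroup.induction_on with | H w => ?_
  have hxy : x⁻¹ * y ∉ P.B := fun hh => hab (QuotientGroup.eq.2 hh)
  have hzw : z⁻¹ * w ∉ P.B := fun hh => hcd (QuotientGroup.eq.2 hh)
  have h1 := (rank_one_cases P hS (x⁻¹ * y)).resolve_left hxy
  have h2 := (rank_one_cases P hS (z⁻¹ * w)).resolve_left hzw
  obtain ⟨b1, hb1, b2, hb2, e1⟩ := (Helper2.BN.mem_dc P).1 h1
  obtain ⟨b3, hb3, b4, hb4, e2⟩ := (Helper2.BN.mem_dc P).1 h2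
  refine ⟨z * b3 * b1⁻¹ * x⁻¹, ?_, ?_⟩
  · rw [MulAction.Quotient.smul_mk, smul_eq_mul, QuotientGroup.eq]
    have : (z * b3 * b1⁻¹ * x⁻¹ * x)⁻¹ * z = b1 * b3⁻¹ := by group
    rw [this]
    exact P.B.mul_mem hb1 (P.B.inv_mem hb3)
  · rw [MulAction.Quotient.smul_mk, smul_eq_mul, QuotientGroup.eq]
    have e1' : y = x * (b1 * s * b2) := by rw [← e1]; group
    have e2' : w = z * (b3 * s * b4) := by rw [← e2]; group
    have : (z * b3 * b1⁻¹ * x⁻¹ * y)⁻¹ * w = b2⁻¹ * b4 := by rw [e1', e2']; group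
    rw [this]
    exact P.B.mul_mem (P.B.inv_mem hb2) hb4

end Cfsg.Agent.S0322
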