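import Cfsg.Statements.S0323

set_option autoImplicit false
open scoped Pointwise
open Cfsg

namespace Cfsg.Agent.S0323

/-- A doubly transitive action on a set with at least three points yields a (B,N)-pair of rank one:
`B` is the stabiliser of a point `x`, `N` the setwise stabiliser of a pair `{x, y}`. -/
theorem result {G Ω : Type*} [Group G] [MulAction G Ω]
    (h2 : MulAction.IsMultiplyPretransitive G Ω 2) {x y z : Ω} (hxy : x ≠ y) (hyz : y ≠ z) (hxz : x ≠ z) :
    ∃ P : Cfsg.BNPair G, P.B = MulAction.stabilizer G x ∧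
      P.N = MulAction.stabilizer G ({x, y} : Set Ω) ∧ P.rank = 1 := by
  have h2' := fun {a b c d : Ω} (hab : a ≠ b) (hcd : c ≠ d) =>
    (MulAction.is_two_pretransitive_iff (G := G) (α := Ω)).1 h2 hab hcd
  obtain ⟨s, hsx, hsy⟩ := h2' hxy hxy.symm
  -- membership in `N`
  have hN : ∀ n : G, n ∈ MulAction.stabilizer G ({x, y} : Set Ω) ↔
      (n • x = x ∧ n • y = y) ∨ (n • x = y ∧ n • y = x) := by
    intro n
    rw [MulAction.mem_stabilizer_iff, Set.smul_set_insert, Set.smul_set_singleton,
      Set.pair_eq_pair_iff]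
  have hsN : s ∈ MulAction.stabilizer G ({x, y} : Set Ω) := (hN s).2 (Or.inr ⟨hsx, hsy⟩)
  have hsinvx : s⁻¹ • x = y := by rw [inv_smul_eq_iff, hsy]
  have hsinvy : s⁻¹ • y = x := by rw [inv_smul_eq_iff, hsx]
  -- elements moving `x` lie in `B n B` for every `n` moving `x`
  have hdc : ∀ g n : G, g • x ≠ x → n • x ≠ x →
      g ∈ DoubleCoset.doubleCoset n (MulAction.stabilizer G x : Set G) (MulAction.stabilizer G x) := by
    intro g n hg hn
    obtain ⟨b1, hb1x, hb1⟩ := h2' (Ne.symm hn) (Ne.symm hg)
    refine DoubleCoset.mem_doubleCoset.2 ⟨b1, hb1x, (b1 * n)⁻¹ * g, ?_, by group⟩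
    rw [SetLike.mem_coe, MulAction.mem_stabilizer_iff, mul_smul, inv_smul_eq_iff, mul_smul, hb1]
  refine ⟨{ B := MulAction.stabilizer G x
            N := MulAction.stabilizer G ({x, y} : Set Ω)
            S := {s}
            sup_eq_top := ?_
            conj_mem := ?_
            subset := ?_
            sq_mem := ?_
            inj := ?_
            closure_sup := ?_
            mul_mem_union := ?_
            conj_ne := ?_ }, rfl, rfl, ?_⟩
  · -- `B ⊔ N = ⊤`
    rw [eq_top_iff]
    intro g _
    by_cases hg : g • x = x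
    · exact (le_sup_left : MulAction.stabilizer G x ≤ _) hg
    · obtain ⟨b, hbx, hb⟩ := h2' (Ne.symm hg) hxy
      have hc : s⁻¹ * b * g ∈ MulAction.stabilizer G x := by
        rw [MulAction.mem_stabilizer_iff, mul_smul, mul_smul, hb, hsinvy]
      have e : g = b⁻¹ * s * (s⁻¹ * b * g) := by group
      rw [e]
      refine Subgroup.mul_mem _ (Subgroup.mul_mem _ ?_ ?_) ?_
      · exact (le_sup_left : MulAction.stabilizer G x ≤ _) (Subgroup.inv_mem _ hbx)
      · exact (le_sup_right : MulAction.stabilizer G ({x, y} : Set Ω) ≤ _) hsN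
      · exact (le_sup_left : MulAction.stabilizer G x ≤ _) hc
  · -- normality of `B ⊓ N` in `N`
    intro n hn t ht
    have htx : t • x = x := ht.1
    have hty : t • y = y := by
      rcases (hN t).1 ht.2 with h | h
      · exact h.2
      · exact absurd (htx.symm.trans h.1) hxy
    rw [MulAction.mem_stabilizer_iff, mul_smul, mul_smul]
    rcases (hN n).1 hn with h | h
    · have : n⁻¹ • x = x := by rw [inv_smul_eq_iff, h.1]
      rw [this, htx, h.1]
    · have : n⁻¹ • x = y := by rw [inv_smul_eq_iff, h.2]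
      rw [this, hty, h.2]
  · -- `S ⊆ N`
    intro t ht
    rw [Set.mem_singleton_iff] at ht
    rw [ht]; exact hsN
  · -- squares
    intro t ht
    rw [Set.mem_singleton_iff] at ht
    rw [ht, MulAction.mem_stabilizer_iff, mul_smul, hsx, hsy]
  · -- injectivity
    intro t ht t' ht' _
    rw [Set.mem_singleton_iff] at ht ht'
    rw [ht, ht']
  · -- `⟨S⟩ (B ⊓ N) = N`
    apply le_antisymm
    · apply sup_le
      · rw [Subgroup.closure_le, Set.singleton_subset_iff]; exact hsN
      · exact inf_le_right
    · intro n hn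
      rcases (hN n).1 hn with h | h
      · exact (le_sup_right : MulAction.stabilizer G x ⊓ MulAction.stabilizer G ({x, y} : Set Ω) ≤ _)
          ⟨h.1, hn⟩
      · have h1 : s⁻¹ * n ∈ MulAction.stabilizer G x ⊓ MulAction.stabilizer G ({x, y} : Set Ω) := by
          refine ⟨?_, Subgroup.mul_mem _ (Subgroup.inv_mem _ hsN) hn⟩
          show (s⁻¹ * n) • x = x
          rw [mul_smul, h.1, hsinvy]
        have e : n = s * (s⁻¹ * n) := by group
        rw [e]
        refine Subgroup.mul_mem _ ?_ ?_
        · exact (le_sup_left : Subgroup.closure {s} ≤ _) (Subgroup.subset_closure rfl)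
        · exact (le_sup_right : MulAction.stabilizer G x ⊓ MulAction.stabilizer G ({x, y} : Set Ω) ≤ _) h1
  · -- the double coset axiom
    intro t ht n hn b hb
    rw [Set.mem_singleton_iff] at ht
    rw [ht]
    have hbx : b • x = x := hb
    rcases (hN n).1 hn with h | h
    · left
      refine DoubleCoset.mem_doubleCoset.2 ⟨1, Subgroup.one_mem _, n⁻¹ * b * n, ?_, by group⟩
      rw [SetLike.mem_coe, MulAction.mem_stabilizer_iff, mul_smul, mul_smul, h.1, hbx,
        inv_smul_eq_iff, h.1]
    · by_cases hw : (s * b * n) • x = x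
      · left
        have hsn : (s * n) • x = x := by rw [mul_smul, h.1, hsy]
        refine DoubleCoset.mem_doubleCoset.2 ⟨(s * b * n) * (s * n)⁻¹, ?_, 1, Subgroup.one_mem _,
          by group⟩
        rw [SetLike.mem_coe, MulAction.mem_stabilizer_iff, mul_smul, inv_smul_eq_iff.2 hsn.symm, hw]
      · right
        exact hdc _ _ hw (by rw [h.1]; exact hxy.symm)
  · -- `s B s ≠ B`
    intro t ht
    rw [Set.mem_singleton_iff] at ht
    rw [ht]
    intro heq
    obtain ⟨b, hbx, hby⟩ := h2' hxy hxz
    have h1 : s * b * s ∈ (fun b : G => s * b * s) '' (MulAction.stabilizer G x : Set G) :=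
      ⟨b, hbx, rfl⟩
    rw [heq] at h1
    have h2 : (s * b * s) • x = x := h1
    rw [mul_smul, mul_smul, hsx, hby] at h2
    have h3 : z = y := by
      rw [← hsinvx, ← h2, inv_smul_smul]
    exact hyz h3.symm
  · -- rank
    show Nat.card ({s} : Set G) = 1
    simp

end Cfsg.Agent.S0323
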