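import Cfsg.Statements.S0326
import Mathlib

set_option autoImplicit false
open Cfsg

namespace Cfsg.Agent.S0326

/-- The Suzuki–Tits ovoid over a finite field with `q` elements has `q² + 1` points. -/
theorem result {F : Type*} [Field F] [Fintype F] (m : ℕ) :
    Nat.card (Cfsg.suzukiOvoid F m) = Fintype.card F ^ 2 + 1 := by
  classical
  let w : Option (F × F) → (Fin 4 → F) := fun o => o.elim ![1, 0, 0, 0]
    (fun p => ![p.1 * p.2 + p.1 ^ (2 ^ (m + 1) + 2) + p.2 ^ (2 ^ (m + 1)), p.2, p.1, 1])
  have hw : ∀ o, w o ≠ 0 := by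
    intro o h
    rcases o with _ | ⟨x, y⟩
    · have := congrFun h 0
      simp [w] at this
    · have := congrFun h 3
      simp [w] at this
  let φ : Option (F × F) → Cfsg.suzukiOvoid F m := fun o =>
    ⟨Projectivization.mk F (w o) (hw o), by
      refine ⟨w o, hw o, rfl, ?_⟩
      rcases o with _ | ⟨x, y⟩
      · left; rfl
      · right; exact ⟨x, y, rfl⟩⟩
  have hinj : Function.Injective φ := by
    intro o1 o2 h
    have h' : Projectivization.mk F (w o1) (hw o1) = Projectivization.mk F (w o2) (hw o2) :=
      congrArg Subtype.val h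
    rw [Projectivization.mk_eq_mk_iff'] at h'
    obtain ⟨a, ha⟩ := h'
    rcases o1 with _ | ⟨x1, y1⟩ <;> rcases o2 with _ | ⟨x2, y2⟩
    · rfl
    · have h3 : a = 0 := by
        have := congrFun ha 3
        simpa [w] using this
      have h0 := congrFun ha 0
      simp [w, h3] at h0
    · have h3 := congrFun ha 3
      simp [w] at h3
    · have h3 : a = 1 := by
        have := congrFun ha 3
        simpa [w] using this
      have h1 : y2 = y1 := by
        have := congrFun ha 1
        simpa [w, h3] using this
      have h2 : x2 = x1 := by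
        have := congrFun ha 2
        simpa [w, h3] using this
      rw [h1, h2]
  have hsurj : Function.Surjective φ := by
    rintro ⟨p, v, hv, rfl, hv' | ⟨x, y, rfl⟩⟩
    · subst hv'
      exact ⟨none, rfl⟩
    · exact ⟨some (x, y), rfl⟩
  rw [← Nat.card_congr (Equiv.ofBijective φ ⟨hinj, hsurj⟩), Nat.card_eq_fintype_card,
    Fintype.card_option, Fintype.card_prod, sq]

end Cfsg.Agent.S0326
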