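import Cfsg.Statements.S0684
import Mathlib

set_option autoImplicit false
open Cfsg

namespace Cfsg.Agent.S0684

/-- geometric sums of a fixed-point-free element of finite order vanish -/
theorem geom_zero {G V : Type*} [Group G] [AddCommGroup V] [DistribMulAction G V]
    (hfix : ∀ g : G, ∀ v : V, g • v = v → v ≠ 0 → g = 1)
    (q : ℕ) (x : G) (hx1 : x ≠ 1) (hxq : x ^ q = 1) (v : V) :
    ∑ i ∈ Finset.range q, x ^ i • v = 0 := by
  by_contra hne
  apply hx1
  apply hfix x _ _ hne
  rw [Finset.smul_sum]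
  have h1 := Finset.sum_range_succ (fun i => x ^ i • v) q
  have h2 := Finset.sum_range_succ' (fun i => x ^ i • v) q
  rw [h1] at h2
  simp only [hxq, one_smul, pow_zero] at h2
  have h3 : ∑ i ∈ Finset.range q, x ^ i • v = ∑ i ∈ Finset.range q, x ^ (i + 1) • v :=
    add_right_cancel h2
  rw [h3]
  apply Finset.sum_congr rfl
  intro i _
  rw [pow_succ', mul_smul]

/-- two commuting fixed-point-free elements of prime order `q` not generating the same subgroup
force `q • v = 0` -/
theorem prime_smul_zero {G V : Type*} [Group G] [AddCommGroup V] [DistribMulAction G V]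
    (hfix : ∀ g : G, ∀ v : V, g • v = v → v ≠ 0 → g = 1)
    (q : ℕ) (a b : G) (hab : Commute a b)
    (ha1 : ∀ j : ℕ, j ≠ 0 → j < q → a ^ j ≠ 1) (haq : a ^ q = 1) (hbq : b ^ q = 1)
    (hb : ∀ i : ℕ, a ^ i * b ≠ 1) (v : V) : q • v = 0 := by
  have h1 : ∀ i : ℕ, ∑ j ∈ Finset.range q, (a ^ i * b) ^ j • v = 0 := fun i =>
    geom_zero hfix q (a ^ i * b) (hb i)
      (by rw [(hab.pow_left i).mul_pow, ← pow_mul, mul_comm i q, pow_mul, haq, one_pow, hbq,
        one_mul]) v
  have h2 : ∑ i ∈ Finset.range q, ∑ j ∈ Finset.range q, (a ^ i * b) ^ j • v = 0 :=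
    Finset.sum_eq_zero (fun i _ => h1 i)
  rw [Finset.sum_comm] at h2
  have h3 : ∀ j : ℕ, ∑ i ∈ Finset.range q, (a ^ i * b) ^ j • v
      = ∑ i ∈ Finset.range q, (a ^ j) ^ i • (b ^ j • v) := fun j =>
    Finset.sum_congr rfl (fun i _ => by
      rw [(hab.pow_left i).mul_pow, mul_smul, ← pow_mul, ← pow_mul, mul_comm i j])
  rw [Finset.sum_eq_single 0] at h2
  · simpa using h2
  · intro j hj hj0
    rw [h3]
    exact geom_zero hfix q (a ^ j) (ha1 j hj0 (Finset.mem_range.1 hj))
      (by rw [← pow_mul, mul_comm, pow_mul, haq, one_pow]) _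
  · intro h0
    have hq : q = 0 := by
      by_contra hq
      exact h0 (Finset.mem_range.2 (Nat.pos_of_ne_zero hq))
    subst hq
    simp

/-- no nontrivial element of order `p` acts without fixed points on a nontrivial `p`-group -/
theorem no_p_elt {p : ℕ} [Fact p.Prime] {V : Type*} [AddCommGroup V] [Module (ZMod p) V]
    [Finite V] {G : Type*} [Group G] [DistribMulAction G V]
    (hfix : ∀ g : G, ∀ v : V, g • v = v → v ≠ 0 → g = 1) (v₀ : V) (hv₀ : v₀ ≠ 0)
    (x : G) (hxp : x ^ p = 1) : x = 1 := by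
  by_contra hx1
  have hp : p.Prime := Fact.out
  have ho : orderOf x = p := orderOf_eq_prime hxp hx1
  have hP : IsPGroup p (Subgroup.zpowers x) :=
    IsPGroup.of_card (n := 1) (by rw [Nat.card_zpowers, ho, pow_one])
  have h1 := hP.card_modEq_card_fixedPoints V
  have h2 : MulAction.fixedPoints (Subgroup.zpowers x) V = {0} := by
    ext v
    rw [MulAction.mem_fixedPoints, Set.mem_singleton_iff]
    constructor
    · intro h
      by_contra hv
      exact hx1 (hfix x v (h ⟨x, Subgroup.mem_zpowers x⟩) hv)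
    · rintro rfl g
      exact smul_zero g
  rw [h2] at h1
  have h3 : Nat.card ({0} : Set V) = 1 := by
    rw [Nat.card_coe_set_eq, Set.ncard_singleton]
  rw [h3] at h1
  have h4 : p ∣ Nat.card V := by
    have h5 : addOrderOf v₀ = p := by
      apply addOrderOf_eq_prime _ hv₀
      rw [← Nat.cast_smul_eq_nsmul (ZMod p) p v₀, ZMod.natCast_self, zero_smul]
    rw [← h5]
    exact addOrderOf_dvd_natCard v₀
  have h6 : Nat.card V % p = 1 % p := h1
  rw [Nat.mod_eq_zero_of_dvd h4, Nat.mod_eq_of_lt hp.one_lt] at h6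
  exact absurd h6 (by norm_num)

/-- a finite abelian group in which elements of prime order are unique up to powers is cyclic -/
theorem cyc_of_uniqueC {A : Type*} [CommGroup A] [Finite A]
    (hU : ∀ q : ℕ, q.Prime → ∀ a b : A, a ≠ 1 → a ^ q = 1 → b ^ q = 1 →
      b ∈ Subgroup.zpowers a) :
    IsCyclic A := by
  obtain ⟨g, hg⟩ : ∃ g : A, orderOf g = Monoid.exponent A :=
    Monoid.exists_orderOf_eq_exponent Monoid.ExponentExists.of_finite
  have hm0 : 0 < orderOf g := orderOf_pos g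
  have key : ∀ n : ℕ, ∀ a : A, orderOf a = n → a ∈ Subgroup.zpowers g := by
    intro n
    induction n using Nat.strong_induction_on with
    | _ n ih =>
      intro a han
      by_cases ha1 : a = 1
      · rw [ha1]; exact Subgroup.one_mem _
      have hn1 : orderOf a ≠ 1 := fun h => ha1 (orderOf_eq_one_iff.1 h)
      obtain ⟨q, hq, hqd⟩ : ∃ q : ℕ, q.Prime ∧ q ∣ orderOf a :=
        ⟨_, Nat.minFac_prime hn1, Nat.minFac_dvd _⟩
      have hoq : orderOf (a ^ q) = orderOf a / q := orderOf_pow_of_dvd hq.ne_zero hqd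
      have hlt : orderOf (a ^ q) < n := by
        rw [hoq, ← han]
        exact Nat.div_lt_self (orderOf_pos a) hq.one_lt
      have hmem : a ^ q ∈ Subgroup.zpowers g := ih _ hlt (a ^ q) rfl
      obtain ⟨k, hk⟩ := Subgroup.mem_zpowers_iff.1 hmem
      have hqm : q ∣ orderOf g := by
        rw [hg]; exact hqd.trans (Monoid.order_dvd_exponent a)
      obtain ⟨m', hm'⟩ := hqm
      have hm'0 : m' ≠ 0 := by
        rintro rfl
        rw [mul_zero] at hm'
        exact hm0.ne' hm'
      have ham : a ^ (q * m') = 1 := by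
        rw [← hm', hg]; exact Monoid.pow_exponent_eq_one a
      have h1 : g ^ (k * (m' : ℤ)) = 1 := by
        rw [zpow_mul, hk, zpow_natCast, ← pow_mul, ham]
      have h2 : ((orderOf g : ℕ) : ℤ) ∣ k * (m' : ℤ) := orderOf_dvd_iff_zpow_eq_one.2 h1
      rw [hm'] at h2
      have h3 : (q : ℤ) ∣ k := by
        have h4 : (q : ℤ) * (m' : ℤ) ∣ k * (m' : ℤ) := by exact_mod_cast h2
        exact (mul_dvd_mul_iff_right (by exact_mod_cast hm'0)).1 h4
      obtain ⟨j, hj⟩ := h3
      have hbq : (a * g ^ (-j)) ^ q = 1 := by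
        rw [mul_pow, ← hk, hj, ← zpow_natCast (g ^ (-j)) q, ← zpow_mul, ← zpow_add]
        have h0 : (q : ℤ) * j + -j * (q : ℤ) = 0 := by ring
        rw [h0, zpow_zero]
      have hc1 : g ^ m' ≠ 1 := by
        apply pow_ne_one_of_lt_orderOf hm'0
        rw [hm']
        calc m' = 1 * m' := (one_mul _).symm
          _ < q * m' := Nat.mul_lt_mul_of_pos_right hq.one_lt (Nat.pos_of_ne_zero hm'0)
      have hcq : (g ^ m') ^ q = 1 := by
        rw [← pow_mul, mul_comm, ← hm', pow_orderOf_eq_one]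
      have hb := hU q hq (g ^ m') (a * g ^ (-j)) hc1 hcq hbq
      have hle : Subgroup.zpowers (g ^ m') ≤ Subgroup.zpowers g :=
        Subgroup.zpowers_le.2 (Subgroup.pow_mem _ (Subgroup.mem_zpowers g) m')
      have h6 : a * g ^ (-j) * g ^ j ∈ Subgroup.zpowers g :=
        Subgroup.mul_mem _ (hle hb) (Subgroup.zpow_mem _ (Subgroup.mem_zpowers g) j)
      rwa [mul_assoc, ← zpow_add, neg_add_cancel, zpow_zero, mul_one] at h6
  exact ⟨⟨g, fun a => Subgroup.mem_zpowers_iff.1 (key _ a rfl)⟩⟩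

/-- the same for a group with commutativity as a hypothesis -/
theorem cyc_of_unique {A : Type*} [Group A] [Finite A] (hcomm : ∀ a b : A, a * b = b * a)
    (hU : ∀ q : ℕ, q.Prime → ∀ a b : A, a ≠ 1 → a ^ q = 1 → b ^ q = 1 →
      b ∈ Subgroup.zpowers a) :
    IsCyclic A := by
  letI : CommGroup A := { ‹Group A› with mul_comm := hcomm }
  exact cyc_of_uniqueC hU

/-- a group acting freely on an invariant subset has order dividing its size -/
theorem free_dvd {G X : Type*} [Group G] [MulAction G X]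
    (T : Set X) (hT : ∀ g : G, ∀ x ∈ T, g • x ∈ T)
    (hfree : ∀ g : G, ∀ x ∈ T, g • x = x → g = 1) :
    Nat.card G ∣ Nat.card T := by
  let S : SubMulAction G X :=
    { carrier := T
      smul_mem' := by
        intro g x hx
        exact hT g x hx }
  have hfree' : ∀ t : S, MulAction.stabilizer G t = ⊥ := by
    intro t
    rw [Subgroup.eq_bot_iff_forall]
    intro a ha
    have h1 : a • (t : X) = (t : X) := congrArg Subtype.val (MulAction.mem_stabilizer_iff.1 ha)
    exact hfree a t.1 t.2 h1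
  have heq := MulAction.selfEquivOrbitsQuotientProd hfree'
  have hc2 : Nat.card S = Nat.card (Quotient (MulAction.orbitRel G S)) * Nat.card G := by
    rw [Nat.card_congr heq, Nat.card_prod]
  have hc3 : Nat.card S = Nat.card T :=
    Nat.card_congr ⟨fun t => ⟨t.1, t.2⟩, fun t => ⟨t.1, t.2⟩, fun _ => rfl, fun _ => rfl⟩
  rw [← hc3, hc2]
  exact Dvd.intro_left _ rfl

/-- Point stabiliser of a sharply doubly transitive group not of semilinear type: a maximal normal abelian subgroup `A` of a linear group `H` that is regular on non-zero vectors and has no irreducible cyclic normal subgroup is cyclic and reducible, and the order of `A` divides `p ^ k - 1` for `k` the dimension of a minimal `A`-invariant subspace. -/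
theorem result {p : ℕ} [Fact p.Prime] {V : Type*} [AddCommGroup V] [Module (ZMod p) V] [Finite V] (H : Subgroup (V ≃ₗ[ZMod p] V)) (hreg : ∀ v w : V, v ≠ 0 → w ≠ 0 → ∃! h : H, (h : V ≃ₗ[ZMod p] V) v = w) (hI : ∀ A : Subgroup H, A.Normal → IsCyclic A → ∃ W : Submodule (ZMod p) V, W ≠ ⊥ ∧ W ≠ ⊤ ∧ ∀ a ∈ A, ∀ v ∈ W, ((a : H) : V ≃ₗ[ZMod p] V) v ∈ W) (A : Subgroup H) (hAn : A.Normal) (hAc : IsMulCommutative A) (hAmax : ∀ B : Subgroup H, B.Normal → IsMulCommutative B → A ≤ B → B = A) : IsCyclic A ∧ ∃ W : Submodule (ZMod p) V, W ≠ ⊥ ∧ W ≠ ⊤ ∧ (∀ a ∈ A, ∀ v ∈ W, ((a : H) : V ≃ₗ[ZMod p] V) v ∈ W) ∧ (∀ W' : Submodule (ZMod p) V, W' ≤ W → (∀ a ∈ A, ∀ v ∈ W', ((a : H) : V ≃ₗ[ZMod p] V) v ∈ W') → W' = ⊥ ∨ W' = W) ∧ Nat.card A ∣ p ^ Module.finrank (ZMod p) W - 1 := by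
  classical
  have hp : p.Prime := Fact.out
  haveI : Finite (V ≃ₗ[ZMod p] V) :=
    Finite.of_injective (fun f => (f : V → V)) DFunLike.coe_injective
  have hfixH : ∀ h : H, ∀ v : V, ((h : H) : V ≃ₗ[ZMod p] V) v = v → v ≠ 0 → h = 1 := by
    intro h v hv hv0
    exact (hreg v v hv0 hv0).unique hv (by simp)
  have hfixA : ∀ a : A, ∀ v : V, a • v = v → v ≠ 0 → a = 1 := by
    intro a v hv hv0
    exact Subtype.ext (hfixH a.1 v hv hv0)
  obtain ⟨W₁, hW₁, -, -⟩ := hI ⊥ inferInstance inferInstance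
  obtain ⟨v₀, -, hv₀⟩ := (Submodule.ne_bot_iff W₁).1 hW₁
  have hcyc : IsCyclic A := by
    apply cyc_of_unique (fun a b => hAc.is_comm.comm a b)
    intro q hq a b ha1 haq hbq
    by_contra hb
    have hoa : orderOf a = q := by
      haveI : Fact q.Prime := ⟨hq⟩
      exact orderOf_eq_prime haq ha1
    have h1 : q • v₀ = 0 :=
      prime_smul_zero hfixA q a b (hAc.is_comm.comm a b)
        (fun j hj0 hjq => pow_ne_one_of_lt_orderOf hj0 (by rw [hoa]; exact hjq)) haq hbq
        (fun i hi => hb (by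
          rw [eq_inv_of_mul_eq_one_right hi]
          exact Subgroup.inv_mem _ (Subgroup.pow_mem _ (Subgroup.mem_zpowers a) i))) v₀
    have h2 : (q : ZMod p) • v₀ = 0 := by rw [Nat.cast_smul_eq_nsmul]; exact h1
    have h3 : (q : ZMod p) = 0 := by
      rcases smul_eq_zero.1 h2 with h | h
      · exact h
      · exact absurd h hv₀
    have h4 : p ∣ q := (ZMod.natCast_eq_zero_iff q p).1 h3
    have h5 : p = q := (Nat.prime_dvd_prime_iff_eq hp hq).1 h4
    subst h5
    exact ha1 (no_p_elt hfixA v₀ hv₀ a haq)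
  refine ⟨hcyc, ?_⟩
  obtain ⟨W₀, hW₀b, hW₀t, hW₀inv⟩ := hI A hAn hcyc
  let s : Set (Submodule (ZMod p) V) := {W | W ≠ ⊥ ∧ W ≤ W₀ ∧
    ∀ a ∈ A, ∀ v ∈ W, ((a : H) : V ≃ₗ[ZMod p] V) v ∈ W}
  obtain ⟨W, hWs, hWmin⟩ := (measure (fun W : Submodule (ZMod p) V =>
    Module.finrank (ZMod p) W)).wf.has_min s ⟨W₀, hW₀b, le_refl _, hW₀inv⟩
  obtain ⟨hWb, hWle, hWinv⟩ := hWs
  haveI : Module.Finite (ZMod p) V := Module.Finite.of_finite
  refine ⟨W, hWb, ?_, hWinv, ?_, ?_⟩
  · rintro rfl
    exact hW₀t (top_le_iff.1 hWle)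
  · intro W' hW'le hW'inv
    by_cases hW'b : W' = ⊥
    · exact Or.inl hW'b
    · right
      by_contra hne
      have hlt : W' < W := lt_of_le_of_ne hW'le hne
      exact hWmin W' ⟨hW'b, hW'le.trans hWle, hW'inv⟩ (Submodule.finrank_lt_finrank_of_lt hlt)
  · have hdvd := free_dvd (G := A) (X := V) {w : V | w ∈ W ∧ w ≠ 0}
      (fun a w hw => ⟨hWinv a.1 a.2 w hw.1, fun h0 => hw.2 (by
        have h00 : ((a : H) : V ≃ₗ[ZMod p] V) w = 0 := h0
        simpa using h00)⟩)
      (fun a w hw hfix => hfixA a w hfix hw.2)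
    have hcardW : Nat.card W = p ^ Module.finrank (ZMod p) W := by
      rw [Module.natCard_eq_pow_finrank (K := ZMod p) (V := W), Nat.card_zmod]
    have hT : Nat.card {w : V | w ∈ W ∧ w ≠ 0} + 1 = Nat.card W := by
      have h1 : (W : Set V) = insert 0 {w : V | w ∈ W ∧ w ≠ 0} := by
        ext w
        simp only [Set.mem_insert_iff, Set.mem_setOf_eq, SetLike.mem_coe]
        constructor
        · intro hw
          by_cases h0 : w = 0
          · exact Or.inl h0
          · exact Or.inr ⟨hw, h0⟩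
        · rintro (rfl | ⟨hw, -⟩)
          · exact W.zero_mem
          · exact hw
      have h2 : Nat.card W = (W : Set V).ncard := Nat.card_coe_set_eq (W : Set V)
      rw [h2, h1, Set.ncard_insert_of_notMem (fun h => h.2 rfl) (Set.toFinite _),
        Nat.card_coe_set_eq]
    rw [← hcardW, ← hT, Nat.add_sub_cancel]
    exact hdvd

end Cfsg.Agent.S0684
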