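import Cfsg.Statements.S0339
import Cfsg.Agent.S0684
import Cfsg.Agent.Lead.Frobenius
import Cfsg.Agent.Helper1.Frob
import Mathlib

set_option autoImplicit false
open Cfsg

namespace Cfsg.Agent.S0339

/-- a transitive normal subgroup with nontrivial point stabilizers but trivial two-point stabilizers
gives (by Frobenius' theorem) a regular normal subgroup of the whole group -/
theorem lemX {G Ω : Type*} [Group G] [MulAction G Ω] [Finite G]
    (hreg : ∀ M : Subgroup G, M.Normal → MulAction.IsPretransitive M Ω →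
      ∃ a : Ω, MulAction.stabilizer M a ≠ ⊥)
    (hfa : ∀ g : G, (∀ y : Ω, g • y = y) → g = 1)
    (N : Subgroup G) (hNn : N.Normal) (hNt : ∀ y z : Ω, ∃ n ∈ N, n • y = z)
    (h2 : ∀ n ∈ N, ∀ a b : Ω, a ≠ b → n • a = a → n • b = b → n = 1) : False := by
  classical
  haveI : MulAction.IsPretransitive N Ω := ⟨fun y z => by
    obtain ⟨n, hn, h⟩ := hNt y z
    exact ⟨⟨n, hn⟩, h⟩⟩
  obtain ⟨a, ha⟩ := hreg N hNn inferInstance
  obtain ⟨n₀, hn₀N, hn₀a, hn₀1⟩ : ∃ n₀ : G, n₀ ∈ N ∧ n₀ • a = a ∧ n₀ ≠ 1 := by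
    by_contra hcon
    push_neg at hcon
    apply ha
    rw [Subgroup.eq_bot_iff_forall]
    intro x hx
    exact Subtype.ext (hcon x.1 x.2 (MulAction.mem_stabilizer_iff.1 hx))
  obtain ⟨c, hc⟩ : ∃ c : Ω, c ≠ a := by
    by_contra hcon
    push_neg at hcon
    apply hn₀1
    apply hfa
    intro y
    rw [hcon y]; exact hn₀a
  obtain ⟨C, hCmem⟩ : ∃ C : Subgroup N, ∀ x : N, x ∈ C ↔ (x : G) • a = a :=
    ⟨(MulAction.stabilizer G a).subgroupOf N, fun x => by
      rw [Subgroup.mem_subgroupOf]; exact MulAction.mem_stabilizer_iff⟩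
  have hC : Cfsg.IsFrobeniusComplement C := by
    refine ⟨?_, ?_, ?_⟩
    · intro h
      have h0 : (⟨n₀, hn₀N⟩ : N) ∈ C := (hCmem _).2 hn₀a
      rw [h, Subgroup.mem_bot] at h0
      exact hn₀1 (congrArg Subtype.val h0)
    · intro h
      obtain ⟨n, hn, hnc⟩ := hNt a c
      have h0 : (⟨n, hn⟩ : N) ∈ C := by rw [h]; exact Subgroup.mem_top _
      have h1 : n • a = a := (hCmem _).1 h0
      exact hc (hnc.symm.trans h1)
    · intro g hg
      rw [Subgroup.eq_bot_iff_forall]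
      intro x hx
      obtain ⟨hx1, hx2⟩ := Subgroup.mem_inf.1 hx
      have hxa : (x : G) • a = a := (hCmem x).1 hx1
      have hx2' : g⁻¹ * x * g ∈ C := (Cfsg.Agent.Helper1.mem_conj_smul_iff g x C).1 hx2
      have h0 : ((g : G)⁻¹ * (x : G) * (g : G)) • a = a := (hCmem _).1 hx2'
      rw [mul_smul, mul_smul, inv_smul_eq_iff] at h0
      have hga : (g : G) • a ≠ a := fun h => hg ((hCmem g).2 h)
      exact Subtype.ext (h2 x.1 x.2 a ((g : G) • a) (Ne.symm hga) hxa h0)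
  obtain ⟨M, hMset, hMn, hMc⟩ := Cfsg.Agent.Lead.frobenius_kernel C hC
  have hMmem : ∀ x : N, x ∈ M → x ≠ 1 → ∀ y : Ω, (x : G) • y ≠ y := by
    intro x hx hx1 y hy
    have hx' : x ∈ Cfsg.frobeniusKernel C := by rw [← hMset]; exact hx
    rcases hx' with h | h
    · exact hx1 h
    · obtain ⟨n, hn, hny⟩ := hNt a y
      apply h ⟨n, hn⟩
      rw [Cfsg.Agent.Helper1.mem_conj_smul_iff, hCmem]
      show (n⁻¹ * (x : G) * n) • a = a
      rw [mul_smul, mul_smul, hny, hy, ← hny, inv_smul_smul]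
  have hMmem' : ∀ x : N, (x = 1 ∨ ∀ y : Ω, (x : G) • y ≠ y) → x ∈ M := by
    intro x hx
    have h0 : x ∈ Cfsg.frobeniusKernel C := by
      rcases hx with h | h
      · exact Or.inl h
      · right
        intro g hg
        rw [Cfsg.Agent.Helper1.mem_conj_smul_iff, hCmem] at hg
        have h1 : ((g : G)⁻¹ * (x : G) * (g : G)) • a = a := hg
        rw [mul_smul, mul_smul, inv_smul_eq_iff] at h1
        exact h ((g : G) • a) h1
    rw [← hMset] at h0; exact h0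
  obtain ⟨M', hM'mem⟩ : ∃ M' : Subgroup G, ∀ x : G, x ∈ M' ↔ ∃ hx : x ∈ N, (⟨x, hx⟩ : N) ∈ M :=
    ⟨M.map N.subtype, fun x => ⟨by
      rintro ⟨m, hm, rfl⟩
      exact ⟨m.2, hm⟩, by
      rintro ⟨hx, hm⟩
      exact ⟨⟨x, hx⟩, hm, rfl⟩⟩⟩
  have hM'n : M'.Normal := by
    constructor
    intro x hx g
    obtain ⟨hxN, hxM⟩ := (hM'mem x).1 hx
    have hgN : g * x * g⁻¹ ∈ N := hNn.conj_mem x hxN g
    refine (hM'mem _).2 ⟨hgN, hMmem' _ ?_⟩
    by_cases hx1 : x = 1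
    · left
      apply Subtype.ext
      show g * x * g⁻¹ = 1
      rw [hx1]; group
    · right
      intro y hy
      have hy' : (g * x * g⁻¹) • y = y := hy
      have h0 := hMmem ⟨x, hxN⟩ hxM (fun h => hx1 (by simpa using congrArg Subtype.val h)) (g⁻¹ • y)
      apply h0
      show x • g⁻¹ • y = g⁻¹ • y
      rw [mul_smul, mul_smul] at hy'
      rw [eq_inv_smul_iff]; exact hy'
  haveI : MulAction.IsPretransitive M' Ω := by
    have key : ∀ y : Ω, ∃ m ∈ M', m • a = y := by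
      intro y
      obtain ⟨n, hn, hny⟩ := hNt a y
      obtain ⟨⟨m, s⟩, hms, -⟩ := Subgroup.IsComplement.existsUnique hMc (⟨n, hn⟩ : N)
      have hms' : (m : N) * (s : N) = ⟨n, hn⟩ := hms
      refine ⟨((m : N) : G), (hM'mem _).2 ⟨(m : N).2, m.2⟩, ?_⟩
      have hs : ((s : N) : G) • a = a := (hCmem _).1 s.2
      have h0 : (((m : N) : G) * ((s : N) : G)) = n := congrArg Subtype.val hms'
      rw [← hny, ← h0, mul_smul, hs]
    constructor
    intro y z
    obtain ⟨m₁, hm₁, h1⟩ := key y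
    obtain ⟨m₂, hm₂, h2'⟩ := key z
    refine ⟨⟨m₂ * m₁⁻¹, M'.mul_mem hm₂ (M'.inv_mem hm₁)⟩, ?_⟩
    show (m₂ * m₁⁻¹) • y = z
    rw [mul_smul, ← h1, inv_smul_smul, h2']
  obtain ⟨b, hb⟩ := hreg M' hM'n inferInstance
  apply hb
  rw [Subgroup.eq_bot_iff_forall]
  intro x hx
  have hxb : (x : G) • b = b := MulAction.mem_stabilizer_iff.1 hx
  obtain ⟨hxN, hxM⟩ := (hM'mem x.1).1 x.2
  by_contra hx1
  exact hMmem ⟨x.1, hxN⟩ hxM (fun h => hx1 (Subtype.ext (by simpa using congrArg Subtype.val h))) b hxb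

/-- a regular subgroup `M ≤ N`, normal in `N`, where point stabilizers of `N` are transitive on the
remaining points, is normal in `G`; this contradicts the absence of regular normal subgroups -/
theorem lemR {G Ω : Type*} [Group G] [MulAction G Ω] [Finite G]
    (hfa : ∀ g : G, (∀ y : Ω, g • y = y) → g = 1)
    (hreg : ∀ M : Subgroup G, M.Normal → MulAction.IsPretransitive M Ω →
      ∃ a : Ω, MulAction.stabilizer M a ≠ ⊥)
    (N : Subgroup G) (hNn : N.Normal)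
    (hT : ∀ a b c : Ω, b ≠ a → c ≠ a → ∃ s ∈ N, s • a = a ∧ s • b = c) (a : Ω)
    (M : Subgroup G) (hMN : M ≤ N) (hMn : ∀ n ∈ N, ∀ m ∈ M, n * m * n⁻¹ ∈ M)
    (hMt : ∀ y z : Ω, ∃ m ∈ M, m • y = z) (hMr : ∀ m ∈ M, ∀ y : Ω, m • y = y → m = 1) :
    False := by
  classical
  have hconj : ∀ m ∈ M, m ≠ 1 → ∀ m' ∈ M, m' ≠ 1 → ∃ s ∈ N, s * m * s⁻¹ = m' := by
    intro m hm hm1 m' hm' hm'1
    have h1 : m • a ≠ a := fun h => hm1 (hMr m hm a h)
    have h2 : m' • a ≠ a := fun h => hm'1 (hMr m' hm' a h)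
    obtain ⟨s, hs, hsa, hsm⟩ := hT a (m • a) (m' • a) h1 h2
    refine ⟨s, hs, ?_⟩
    have h3 : (m'⁻¹ * (s * m * s⁻¹)) • a = a := by
      rw [mul_smul, mul_smul, mul_smul, inv_smul_eq_iff.2 hsa.symm, hsm, inv_smul_smul]
    have h4 := hMr _ (M.mul_mem (M.inv_mem hm') (hMn s hs m hm)) a h3
    calc s * m * s⁻¹ = m' * (m'⁻¹ * (s * m * s⁻¹)) := by group
      _ = m' := by rw [h4, mul_one]
  have hab : ∀ m ∈ M, ∀ m' ∈ M, m * m' = m' * m := by
    by_cases hbot : ∀ m ∈ M, m = 1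
    · intro m hm m' hm'
      rw [hbot m hm, hbot m' hm']
    push_neg at hbot
    obtain ⟨y₀, hy₀M, hy₀1⟩ := hbot
    have hcard : Nat.card M ≠ 1 := by
      intro h
      rw [Subgroup.card_eq_one] at h
      rw [h, Subgroup.mem_bot] at hy₀M
      exact hy₀1 hy₀M
    obtain ⟨p, hp, hpd⟩ := Nat.exists_prime_and_dvd hcard
    haveI : Fact p.Prime := ⟨hp⟩
    obtain ⟨y, hy⟩ := exists_prime_orderOf_dvd_card' (G := M) p hpd
    have hy1 : (y : G) ≠ 1 := by
      intro h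
      have h0 : y = 1 := Subtype.ext h
      rw [h0, orderOf_one] at hy
      exact hp.ne_one hy.symm
    have hyp : (y : G) ^ p = 1 := by
      have h0 := pow_orderOf_eq_one y
      rw [hy] at h0
      exact congrArg Subtype.val h0
    have hpow : ∀ m ∈ M, m ^ p = 1 := by
      intro m hm
      by_cases hm1 : m = 1
      · rw [hm1, one_pow]
      · obtain ⟨s, hs, rfl⟩ := hconj y.1 y.2 hy1 m hm hm1
        rw [conj_pow, hyp]; group
    have hPG : IsPGroup p M := fun g => ⟨1, by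
      rw [pow_one]
      exact Subtype.ext (hpow g.1 g.2)⟩
    haveI : Nontrivial M := ⟨⟨⟨y₀, hy₀M⟩, 1, fun h => hy₀1 (congrArg Subtype.val h)⟩⟩
    haveI := hPG.center_nontrivial
    obtain ⟨z, hz⟩ := exists_ne (1 : Subgroup.center M)
    have hzM : ((z : M) : G) ∈ M := (z : M).2
    have hz1 : ((z : M) : G) ≠ 1 := fun h => hz (Subtype.ext (Subtype.ext h))
    have hzc : ∀ m ∈ M, ((z : M) : G) * m = m * ((z : M) : G) := by
      intro m hm
      have h0 := Subgroup.mem_center_iff.1 z.2 ⟨m, hm⟩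
      exact (congrArg Subtype.val h0).symm
    intro m hm m' hm'
    by_cases hm1 : m = 1
    · rw [hm1, one_mul, mul_one]
    obtain ⟨s, hs, rfl⟩ := hconj _ hzM hz1 m hm hm1
    have h5 : s⁻¹ * m' * s ∈ M := by
      have h0 := hMn s⁻¹ (N.inv_mem hs) m' hm'
      simpa using h0
    have h6 := hzc _ h5
    calc s * ((z : M) : G) * s⁻¹ * m' = s * (((z : M) : G) * (s⁻¹ * m' * s)) * s⁻¹ := by group
      _ = s * ((s⁻¹ * m' * s) * ((z : M) : G)) * s⁻¹ := by rw [h6]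
      _ = m' * (s * ((z : M) : G) * s⁻¹) := by group
  have hcent : ∀ c : G, (∀ m ∈ M, c * m = m * c) → c ∈ M := by
    intro c hc
    obtain ⟨m, hm, hmc⟩ := hMt a (c • a)
    have h1 : m⁻¹ * c = 1 := by
      apply hfa
      intro y
      obtain ⟨m', hm', rfl⟩ := hMt a y
      have e1 : m⁻¹ * c * m' = m' * m⁻¹ * c := by
        rw [mul_assoc, hc m' hm', ← mul_assoc, hab m⁻¹ (M.inv_mem hm) m' hm']
      rw [← mul_smul, e1, mul_smul, mul_smul, ← hmc, inv_smul_smul]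
    have h2 : c = m := by
      calc c = m * (m⁻¹ * c) := by group
        _ = m := by rw [h1, mul_one]
    rw [h2]; exact hm
  have hnorm : ∀ g : G, ∀ m ∈ M, g * m * g⁻¹ ∈ M := by
    intro g m hm
    by_cases hm1 : m = 1
    · rw [hm1]; simp [M.one_mem]
    by_cases hex : ∃ m₀ ∈ M, m₀ ≠ 1 ∧ g * m₀ * g⁻¹ ∈ M
    · obtain ⟨m₀, hm₀, hm₀1, hgm₀⟩ := hex
      obtain ⟨s, hs, rfl⟩ := hconj m₀ hm₀ hm₀1 m hm hm1
      have h1 := hMn (g * s * g⁻¹) (hNn.conj_mem s hs g) _ hgm₀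
      have e : g * (s * m₀ * s⁻¹) * g⁻¹
          = g * s * g⁻¹ * (g * m₀ * g⁻¹) * (g * s * g⁻¹)⁻¹ := by group
      rw [e]; exact h1
    · exfalso
      push_neg at hex
      have hw : g * m * g⁻¹ ∉ M := hex m hm hm1
      apply hw
      apply hcent
      intro m' hm'
      have hwN : g * m * g⁻¹ ∈ N := hNn.conj_mem m (hMN hm) g
      have hn' : g⁻¹ * m' * g ∈ N := by
        have h0 := hNn.conj_mem m' (hMN hm') g⁻¹
        simpa using h0
      have hm₃ : m * ((g⁻¹ * m' * g) * m⁻¹ * (g⁻¹ * m' * g)⁻¹) ∈ M :=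
        M.mul_mem hm (hMn _ hn' _ (M.inv_mem hm))
      have hu : g * (m * ((g⁻¹ * m' * g) * m⁻¹ * (g⁻¹ * m' * g)⁻¹)) * g⁻¹ ∈ M := by
        have h1 : (g * m * g⁻¹) * m' * (g * m * g⁻¹)⁻¹ * m'⁻¹ ∈ M :=
          M.mul_mem (hMn _ hwN m' hm') (M.inv_mem hm')
        have e : g * (m * ((g⁻¹ * m' * g) * m⁻¹ * (g⁻¹ * m' * g)⁻¹)) * g⁻¹
            = (g * m * g⁻¹) * m' * (g * m * g⁻¹)⁻¹ * m'⁻¹ := by group
        rw [e]; exact h1
      have hm₃1 : m * ((g⁻¹ * m' * g) * m⁻¹ * (g⁻¹ * m' * g)⁻¹) = 1 := by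
        by_contra h
        exact hex _ hm₃ h hu
      calc g * m * g⁻¹ * m'
          = g * (m * ((g⁻¹ * m' * g) * m⁻¹ * (g⁻¹ * m' * g)⁻¹)) * g⁻¹ * (m' * (g * m * g⁻¹)) := by
            group
        _ = m' * (g * m * g⁻¹) := by rw [hm₃1]; group
  haveI : MulAction.IsPretransitive M Ω := ⟨fun y z => by
    obtain ⟨m, hm, h⟩ := hMt y z
    exact ⟨⟨m, hm⟩, h⟩⟩
  obtain ⟨b, hb⟩ := hreg M ⟨fun m hm g => hnorm g m hm⟩ inferInstance
  apply hb
  rw [Subgroup.eq_bot_iff_forall]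
  intro x hx
  exact Subtype.ext (hMr x.1 x.2 b (MulAction.mem_stabilizer_iff.1 hx))

/-- A non-trivial normal subgroup of a Zassenhaus group is itself a Zassenhaus group on the same set. -/
theorem result {G Ω : Type*} [Group G] [MulAction G Ω] [Finite Ω]
    (hZ : Cfsg.IsZassenhausGroup G Ω) (N : Subgroup G) [N.Normal] (hN : N ≠ ⊥) :
    Cfsg.IsZassenhausGroup N Ω := by
  classical
  obtain ⟨hfaith, h2, h3, hfix, hreg⟩ := hZ
  haveI := hfaith
  have hNn : N.Normal := inferInstance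
  have hfa : ∀ g : G, (∀ y : Ω, g • y = y) → g = 1 := fun g hg =>
    FaithfulSMul.eq_of_smul_eq_smul (α := Ω) (fun y => by rw [hg y, one_smul])
  haveI : Finite G := by
    apply Finite.of_injective (fun g : G => fun y : Ω => g • y)
    intro g g' h
    exact FaithfulSMul.eq_of_smul_eq_smul (α := Ω) (fun y => congrFun h y)
  have h2' : ∀ a b c d : Ω, a ≠ b → c ≠ d → ∃ g : G, g • a = c ∧ g • b = d :=
    fun a b c d hab hcd => MulAction.is_two_pretransitive_iff.1 h2 hab hcd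
  obtain ⟨n₁, hn₁N, hn₁⟩ : ∃ n₁ ∈ N, n₁ ≠ 1 := by
    by_contra hcon
    push_neg at hcon
    exact hN ((Subgroup.eq_bot_iff_forall N).2 hcon)
  obtain ⟨a₁, ha₁⟩ : ∃ a₁ : Ω, n₁ • a₁ ≠ a₁ := by
    by_contra hcon
    push_neg at hcon
    exact hn₁ (hfa n₁ hcon)
  have hNt : ∀ y z : Ω, ∃ n ∈ N, n • y = z := by
    intro y z
    by_cases hyz : y = z
    · exact ⟨1, N.one_mem, by rw [one_smul, hyz]⟩
    · obtain ⟨g, hg1, hg2⟩ := h2' a₁ (n₁ • a₁) y z (Ne.symm ha₁) hyz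
      refine ⟨g * n₁ * g⁻¹, hNn.conj_mem n₁ hn₁N g, ?_⟩
      rw [mul_smul, mul_smul, ← hg1, inv_smul_smul, hg2]
  have hP4 : ∃ n ∈ N, n ≠ 1 ∧ ∃ a b : Ω, a ≠ b ∧ n • a = a ∧ n • b = b := by
    by_contra hcon
    push_neg at hcon
    exact lemX hreg hfa N hNn hNt (fun n hn a b hab ha hb => by
      by_contra hn1
      exact hcon n hn hn1 a b hab ha hb)
  obtain ⟨n₀, hn₀N, hn₀1, a₀, b₀, hab₀, hn₀a, hn₀b⟩ := hP4
  have hst : ∀ a b : Ω, a ≠ b → ∃ x ∈ N, x ≠ 1 ∧ x • a = a ∧ x • b = b := by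
    intro a b hab
    obtain ⟨g, hg1, hg2⟩ := h2' a₀ b₀ a b hab₀ hab
    refine ⟨g * n₀ * g⁻¹, hNn.conj_mem n₀ hn₀N g, ?_, ?_, ?_⟩
    · intro h
      apply hn₀1
      calc n₀ = g⁻¹ * (g * n₀ * g⁻¹) * g := by group
        _ = 1 := by rw [h]; group
    · rw [mul_smul, mul_smul, ← hg1, inv_smul_smul, hn₀a]
    · rw [mul_smul, mul_smul, ← hg2, inv_smul_smul, hn₀b]
  have hT : ∀ a b c : Ω, b ≠ a → c ≠ a → ∃ s ∈ N, s • a = a ∧ s • b = c := by
    intro a b c hba hca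
    by_contra hcon
    push_neg at hcon
    obtain ⟨x, hxN, hx1, hxa, hxb⟩ := hst a b (Ne.symm hba)
    obtain ⟨g, hga, hgb⟩ := h2' a b a c (Ne.symm hba) (Ne.symm hca)
    have hP : ∀ p ∈ Subgroup.zpowers x, p ∈ N ∧ p • a = a ∧ p • b = b := by
      intro p hp
      obtain ⟨k, rfl⟩ := Subgroup.mem_zpowers_iff.1 hp
      exact ⟨N.zpow_mem hxN k,
        MulAction.mem_stabilizer_iff.1
          (Subgroup.zpow_mem _ (MulAction.mem_stabilizer_iff.2 hxa) k),
        MulAction.mem_stabilizer_iff.1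
          (Subgroup.zpow_mem _ (MulAction.mem_stabilizer_iff.2 hxb) k)⟩
    have hinvfix : ∀ s : G, s • a = a → s⁻¹ • a = a := fun s hs => by
      rw [inv_smul_eq_iff, hs]
    have hd1 : Nat.card (Subgroup.zpowers x) ∣
        Nat.card {y : Ω | ∃ s ∈ N, s • a = a ∧ s • c = y} := by
      apply Cfsg.Agent.S0684.free_dvd (G := Subgroup.zpowers x) (X := Ω)
      · rintro p y ⟨s, hs, hsa, rfl⟩
        obtain ⟨hpN, hpa, -⟩ := hP p.1 p.2
        refine ⟨(p : G) * s, N.mul_mem hpN hs, ?_, mul_smul _ _ _⟩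
        rw [mul_smul, hsa, hpa]
      · rintro p y ⟨s, hs, hsa, rfl⟩ hfix'
        obtain ⟨hpN, hpa, hpb⟩ := hP p.1 p.2
        have hya : s • c ≠ a := by
          intro h
          apply hca
          have h' : s⁻¹ • (s • c) = s⁻¹ • a := by rw [h]
          rw [inv_smul_smul, hinvfix s hsa] at h'
          exact h'
        have hyb : s • c ≠ b := by
          intro h
          apply hcon s⁻¹ (N.inv_mem hs) (hinvfix s hsa)
          rw [← h, inv_smul_smul]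
        exact Subtype.ext
          (h3 p.1 a b (s • c) (Ne.symm hba) (Ne.symm hyb) (Ne.symm hya) hpa hpb hfix')
    have hd2 : Nat.card (Subgroup.zpowers x) ∣
        Nat.card {y : Ω | (∃ s ∈ N, s • a = a ∧ s • b = y) ∧ y ≠ b} := by
      apply Cfsg.Agent.S0684.free_dvd (G := Subgroup.zpowers x) (X := Ω)
      · rintro p y ⟨⟨s, hs, hsa, rfl⟩, hyb⟩
        obtain ⟨hpN, hpa, hpb⟩ := hP p.1 p.2
        refine ⟨⟨(p : G) * s, N.mul_mem hpN hs, ?_, mul_smul _ _ _⟩, ?_⟩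
        · rw [mul_smul, hsa, hpa]
        · intro h
          apply hyb
          have h' : (p : G) • (s • b) = (p : G) • b := by rw [hpb]; exact h
          exact smul_left_cancel _ h'
      · rintro p y ⟨⟨s, hs, hsa, rfl⟩, hyb⟩ hfix'
        obtain ⟨hpN, hpa, hpb⟩ := hP p.1 p.2
        have hya : s • b ≠ a := by
          intro h
          apply hba
          have h' : s⁻¹ • (s • b) = s⁻¹ • a := by rw [h]
          rw [inv_smul_smul, hinvfix s hsa] at h'
          exact h'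
        exact Subtype.ext
          (h3 p.1 a b (s • b) (Ne.symm hba) (Ne.symm hyb) (Ne.symm hya) hpa hpb hfix')
    have hcard1 : Nat.card {y : Ω | ∃ s ∈ N, s • a = a ∧ s • b = y} =
        Nat.card {y : Ω | ∃ s ∈ N, s • a = a ∧ s • c = y} := by
      apply Nat.card_congr
      refine ⟨fun y => ⟨g • y.1, ?_⟩, fun y => ⟨g⁻¹ • y.1, ?_⟩, fun y => ?_, fun y => ?_⟩
      · obtain ⟨s, hs, hsa, hsy⟩ := y.2
        refine ⟨g * s * g⁻¹, hNn.conj_mem s hs g, ?_, ?_⟩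
        · rw [mul_smul, mul_smul, hinvfix g hga, hsa, hga]
        · rw [mul_smul, mul_smul, ← hgb, inv_smul_smul, hsy]
      · obtain ⟨s, hs, hsa, hsy⟩ := y.2
        refine ⟨g⁻¹ * s * g, ?_, ?_, ?_⟩
        · have h0 := hNn.conj_mem s hs g⁻¹
          simpa using h0
        · rw [mul_smul, mul_smul, hga, hsa, hinvfix g hga]
        · rw [mul_smul, mul_smul, hgb, hsy]
      · exact Subtype.ext (inv_smul_smul g y.1)
      · exact Subtype.ext (smul_inv_smul g y.1)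
    have hcard2 : Nat.card {y : Ω | (∃ s ∈ N, s • a = a ∧ s • b = y) ∧ y ≠ b} + 1 =
        Nat.card {y : Ω | ∃ s ∈ N, s • a = a ∧ s • b = y} := by
      have h1 : {y : Ω | ∃ s ∈ N, s • a = a ∧ s • b = y} =
          insert b {y : Ω | (∃ s ∈ N, s • a = a ∧ s • b = y) ∧ y ≠ b} := by
        ext y
        simp only [Set.mem_insert_iff, Set.mem_setOf_eq]
        constructor
        · intro hy
          by_cases h0 : y = b
          · exact Or.inl h0
          · exact Or.inr ⟨hy, h0⟩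
        · rintro (h0 | ⟨hy, -⟩)
          · rw [h0]; exact ⟨1, N.one_mem, one_smul _ _, one_smul _ _⟩
          · exact hy
      rw [Nat.card_coe_set_eq, Nat.card_coe_set_eq, h1,
        Set.ncard_insert_of_notMem (by simp) (Set.toFinite _)]
    have hdvd1 : Nat.card (Subgroup.zpowers x) ∣ 1 := by
      rw [← hcard1, ← hcard2] at hd1
      exact (Nat.dvd_add_right hd2).1 hd1
    have hord : orderOf x = 1 := by
      rw [← Nat.card_zpowers]; exact Nat.dvd_one.1 hdvd1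
    exact hx1 (orderOf_eq_one_iff.1 hord)
  have h2N : ∀ a b c d : Ω, a ≠ b → c ≠ d → ∃ n ∈ N, n • a = c ∧ n • b = d := by
    intro a b c d hab hcd
    obtain ⟨n, hn, hnc⟩ := hNt a c
    have hne : n • b ≠ c := by
      intro h
      rw [← hnc] at h
      exact hab (smul_left_cancel n h).symm
    obtain ⟨s, hs, hsc, hsd⟩ := hT c (n • b) d hne (Ne.symm hcd)
    refine ⟨s * n, N.mul_mem hs hn, ?_, ?_⟩
    · rw [mul_smul, hnc, hsc]
    · rw [mul_smul, hsd]
  refine ⟨?_, ?_, ?_, ?_, ?_⟩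
  · exact ⟨fun {n₁ n₂} h => Subtype.ext (FaithfulSMul.eq_of_smul_eq_smul (α := Ω) h)⟩
  · exact MulAction.is_two_pretransitive_iff.2 (fun {a b c d} hab hcd => by
      obtain ⟨n, hn, h1, h2''⟩ := h2N a b c d hab hcd
      exact ⟨⟨n, hn⟩, h1, h2''⟩)
  · exact fun g a b c hab hbc hac ha hb hc => Subtype.ext (h3 g.1 a b c hab hbc hac ha hb hc)
  · exact ⟨⟨n₀, hn₀N⟩, fun h => hn₀1 (congrArg Subtype.val h), a₀, b₀, hab₀, hn₀a, hn₀b⟩
  · intro M hMnorm hMtrans
    by_contra hcon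
    push_neg at hcon
    apply lemR hfa hreg N hNn hT a₀ (M.map N.subtype)
    · rintro x ⟨m, -, rfl⟩
      exact m.2
    · rintro n hn x ⟨m, hm, rfl⟩
      exact ⟨⟨n, hn⟩ * m * ⟨n, hn⟩⁻¹, hMnorm.conj_mem m hm ⟨n, hn⟩, rfl⟩
    · intro y z
      obtain ⟨m, hm⟩ := hMtrans.exists_smul_eq y z
      exact ⟨((m : N) : G), ⟨(m : N), m.2, rfl⟩, hm⟩
    · rintro x ⟨m, hm, rfl⟩ y hy
      have h0 : (⟨m, hm⟩ : M) ∈ MulAction.stabilizer M y := MulAction.mem_stabilizer_iff.2 hy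
      rw [hcon y, Subgroup.mem_bot] at h0
      have h1 : m = 1 := congrArg Subtype.val h0
      rw [h1]; rfl

end Cfsg.Agent.S0339
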