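import Cfsg.Statements.S0353
import Cfsg.Agent.Helper2.Steiner
import Cfsg.Agent.S0352

set_option autoImplicit false
open Cfsg

namespace Cfsg.Agent.S0353

/-- In an S(5, 8, 24), the symmetric difference of two blocks meeting in four points is a block. -/
theorem result {α : Type*} [Fintype α] [DecidableEq α] (hα : Fintype.card α = 24) {B : Set (Finset α)} (hB : Cfsg.IsSteinerSystem 5 8 B) {b c : Finset α} (hb : b ∈ B) (hc : c ∈ B) (h4 : (b ∩ c).card = 4) : symmDiff b c ∈ B := by
  have hcases : ∀ x y : Finset α, x ∈ B → y ∈ B → x ≠ y →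
      (x ∩ y).card = 0 ∨ (x ∩ y).card = 2 ∨ (x ∩ y).card = 4 :=
    fun x y hx hy hxy => Cfsg.Agent.S0352.result hα hB hx hy hxy
  have h44 : ∀ x y : Finset α, x ∈ B → y ∈ B → x ≠ y → ∀ U : Finset α, U ⊆ x ∩ y →
      U.card = 4 → x ∩ y = U := by
    intro x y hx hy hxy U hU hUc
    have hle := Finset.card_le_card hU
    rcases hcases x y hx hy hxy with h | h | h
    · omega
    · omega
    · exact (Finset.eq_of_subset_of_card_le hU (by omega)).symm
  have h34 : ∀ x y : Finset α, x ∈ B → y ∈ B → x ≠ y → ∀ U : Finset α, U ⊆ x ∩ y →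
      U.card = 3 → (x ∩ y).card = 4 := by
    intro x y hx hy hxy U hU hUc
    have hle := Finset.card_le_card hU
    rcases hcases x y hx hy hxy with h | h | h <;> omega
  have hb8 : b.card = 8 := hB.1 b hb
  have hc8 : c.card = 8 := hB.1 c hc
  have hbc : b ≠ c := by
    intro h
    rw [h, Finset.inter_self] at h4
    omega
  have hbc4 : (b \ c).card = 4 := by
    have := Finset.card_sdiff_add_card_inter b c
    omega
  have hcb4 : (c \ b).card = 4 := by
    have := Finset.card_sdiff_add_card_inter c b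
    rw [Finset.inter_comm] at this
    omega
  obtain ⟨p, hp⟩ : (c \ b).Nonempty := Finset.card_pos.1 (by omega)
  rw [Finset.mem_sdiff] at hp
  obtain ⟨hpc, hpb⟩ := hp
  have hpbc : p ∉ b \ c := fun h => hpb (Finset.mem_sdiff.1 h).1
  have hT : (insert p (b \ c)).card = 5 := by
    have := Finset.card_insert_of_notMem hpbc
    omega
  obtain ⟨d, ⟨hd, hTd⟩, -⟩ := hB.2 _ hT
  have hpd : p ∈ d := hTd (Finset.mem_insert_self _ _)
  have hbcd : b \ c ⊆ d := fun x hx => hTd (Finset.mem_insert_of_mem hx)
  have hdb : d ≠ b := fun h => hpb (by rw [← h]; exact hpd)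
  have hdb_eq : d ∩ b = b \ c := h44 d b hd hb hdb (b \ c)
    (fun x hx => Finset.mem_inter.2 ⟨hbcd hx, (Finset.mem_sdiff.1 hx).1⟩) hbc4
  have D1 : ∀ x, x ∈ d → x ∈ b → x ∉ c := by
    intro x hxd hxb
    have : x ∈ d ∩ b := Finset.mem_inter.2 ⟨hxd, hxb⟩
    rw [hdb_eq] at this
    exact (Finset.mem_sdiff.1 this).2
  obtain ⟨q, hq⟩ : (b \ c).Nonempty := Finset.card_pos.1 (by omega)
  have hdc : d ≠ c := fun h => (Finset.mem_sdiff.1 hq).2 (by rw [← h]; exact hbcd hq)
  have hpdc : p ∈ d ∩ c := Finset.mem_inter.2 ⟨hpd, hpc⟩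
  have hdc_sub : d ∩ c ⊆ c \ b := by
    intro x hx
    rw [Finset.mem_inter] at hx
    rw [Finset.mem_sdiff]
    exact ⟨hx.2, fun hxb => D1 x hx.1 hxb hx.2⟩
  have hsd : symmDiff b c = (b \ c) ∪ (c \ b) := by
    ext x
    rw [Finset.mem_symmDiff, Finset.mem_union, Finset.mem_sdiff, Finset.mem_sdiff]
  have hdisj : Disjoint (b \ c) (c \ b) :=
    Finset.disjoint_left.2 (fun x hx hx' => (Finset.mem_sdiff.1 hx).2 (Finset.mem_sdiff.1 hx').1)
  have hsd8 : (symmDiff b c).card = 8 := by
    have := Finset.card_union_of_disjoint hdisj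
    rw [hsd]
    omega
  have hd8 : d.card = 8 := hB.1 d hd
  rcases hcases d c hd hc hdc with h0 | h2 | h4'
  · rw [Finset.card_eq_zero] at h0
    rw [h0] at hpdc
    exact absurd hpdc (Finset.notMem_empty _)
  · exfalso
    have hdisj2 : Disjoint (d ∩ b) (d ∩ c) :=
      Finset.disjoint_left.2 (fun x hx hx' =>
        D1 x (Finset.mem_inter.1 hx).1 (Finset.mem_inter.1 hx).2 (Finset.mem_inter.1 hx').2)
    have hR : (d \ (b ∪ c)).card = 2 := by
      have e1 := Finset.card_sdiff_add_card_inter d (b ∪ c)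
      have e2 := Finset.card_union_of_disjoint hdisj2
      rw [← Finset.inter_union_distrib_left] at e2
      rw [hdb_eq] at e2
      omega
    obtain ⟨r, hr⟩ : (d \ (b ∪ c)).Nonempty := Finset.card_pos.1 (by omega)
    have hr' := hr
    rw [Finset.mem_sdiff, Finset.mem_union, not_or] at hr'
    obtain ⟨hrd, hrb, hrc⟩ := hr'
    obtain ⟨Y, hY, hY3⟩ := Finset.exists_subset_card_eq (show 3 ≤ (b ∩ c).card by omega)
    have hYb : ∀ y ∈ Y, y ∈ b := fun y hy => (Finset.mem_inter.1 (hY hy)).1
    have hYc : ∀ y ∈ Y, y ∈ c := fun y hy => (Finset.mem_inter.1 (hY hy)).2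
    have hrbc : r ∉ b ∩ c := fun h => hrb (Finset.mem_inter.1 h).1
    have hTe : (insert r (b ∩ c)).card = 5 := by
      have := Finset.card_insert_of_notMem hrbc
      omega
    obtain ⟨e, ⟨he, hTe'⟩, -⟩ := hB.2 _ hTe
    have hre : r ∈ e := hTe' (Finset.mem_insert_self _ _)
    have hbce : b ∩ c ⊆ e := fun x hx => hTe' (Finset.mem_insert_of_mem hx)
    have heb : e ≠ b := fun h => hrb (by rw [← h]; exact hre)
    have hec : e ≠ c := fun h => hrc (by rw [← h]; exact hre)
    have heb_eq : e ∩ b = b ∩ c := h44 e b he hb heb (b ∩ c)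
      (fun x hx => Finset.mem_inter.2 ⟨hbce hx, (Finset.mem_inter.1 hx).1⟩) h4
    have hec_eq : e ∩ c = b ∩ c := h44 e c he hc hec (b ∩ c)
      (fun x hx => Finset.mem_inter.2 ⟨hbce hx, (Finset.mem_inter.1 hx).2⟩) h4
    have hed_sub : e ∩ d ⊆ d \ (b ∪ c) := by
      intro x hx
      rw [Finset.mem_inter] at hx
      rw [Finset.mem_sdiff, Finset.mem_union, not_or]
      refine ⟨hx.2, ?_, ?_⟩
      · intro hxb
        have : x ∈ e ∩ b := Finset.mem_inter.2 ⟨hx.1, hxb⟩
        rw [heb_eq] at this
        exact D1 x hx.2 hxb (Finset.mem_inter.1 this).2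
      · intro hxc
        have : x ∈ e ∩ c := Finset.mem_inter.2 ⟨hx.1, hxc⟩
        rw [hec_eq] at this
        exact D1 x hx.2 (Finset.mem_inter.1 this).1 hxc
    obtain ⟨y0, hy0⟩ : Y.Nonempty := Finset.card_pos.1 (by omega)
    have hed : e ≠ d := by
      intro h
      have hy0e : y0 ∈ e := hbce (hY hy0)
      rw [h] at hy0e
      exact D1 y0 hy0e (hYb y0 hy0) (hYc y0 hy0)
    have hRe : d \ (b ∪ c) ⊆ e := by
      have hle := Finset.card_le_card hed_sub
      have hred : r ∈ e ∩ d := Finset.mem_inter.2 ⟨hre, hrd⟩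
      have hpos : 0 < (e ∩ d).card := Finset.card_pos.2 ⟨r, hred⟩
      have h2' : (e ∩ d).card = 2 := by
        rcases hcases e d he hd hed with h | h | h <;> omega
      have := Finset.eq_of_subset_of_card_le hed_sub (by omega)
      rw [← this]
      exact Finset.inter_subset_left
    have hpr : p ≠ r := fun h => hrc (by rw [← h]; exact hpc)
    have hpY : p ∉ Y := fun h => hpb (hYb p h)
    have hrY : r ∉ Y := fun h => hrb (hYb r h)
    have hpY4 : (insert p Y).card = 4 := by
      have := Finset.card_insert_of_notMem hpY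
      omega
    have hrY4 : (insert r Y).card = 4 := by
      have := Finset.card_insert_of_notMem hrY
      omega
    have hp_ins : p ∉ insert r Y := by
      rw [Finset.mem_insert, not_or]
      exact ⟨hpr, hpY⟩
    have hTf : (insert p (insert r Y)).card = 5 := by
      have := Finset.card_insert_of_notMem hp_ins
      omega
    obtain ⟨f, ⟨hf, hTf'⟩, -⟩ := hB.2 _ hTf
    have hpf : p ∈ f := hTf' (Finset.mem_insert_self _ _)
    have hrf : r ∈ f := hTf' (Finset.mem_insert_of_mem (Finset.mem_insert_self _ _))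
    have hYf : ∀ y ∈ Y, y ∈ f :=
      fun y hy => hTf' (Finset.mem_insert_of_mem (Finset.mem_insert_of_mem hy))
    have hfb : f ≠ b := fun h => hpb (by rw [← h]; exact hpf)
    have hfc : f ≠ c := fun h => hrc (by rw [← h]; exact hrf)
    have hpe : p ∉ e := by
      intro h
      have : p ∈ e ∩ c := Finset.mem_inter.2 ⟨h, hpc⟩
      rw [hec_eq] at this
      exact hpb (Finset.mem_inter.1 this).1
    have hfe : f ≠ e := fun h => hpe (by rw [← h]; exact hpf)
    have hfd : f ≠ d := by
      intro h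
      have hy0f : y0 ∈ f := hYf y0 hy0
      rw [h] at hy0f
      exact D1 y0 hy0f (hYb y0 hy0) (hYc y0 hy0)
    have hY_sub : Y ⊆ f ∩ b := fun y hy => Finset.mem_inter.2 ⟨hYf y hy, hYb y hy⟩
    have hfb4 : (f ∩ b).card = 4 := h34 f b hf hb hfb Y hY_sub hY3
    have hfc_eq : f ∩ c = insert p Y := h44 f c hf hc hfc (insert p Y) (by
      intro x hx
      rw [Finset.mem_insert] at hx
      rcases hx with hx | hx
      · rw [hx]; exact Finset.mem_inter.2 ⟨hpf, hpc⟩
      · exact Finset.mem_inter.2 ⟨hYf x hx, hYc x hx⟩) hpY4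
    have hfe_eq : f ∩ e = insert r Y := h44 f e hf he hfe (insert r Y) (by
      intro x hx
      rw [Finset.mem_insert] at hx
      rcases hx with hx | hx
      · rw [hx]; exact Finset.mem_inter.2 ⟨hrf, hre⟩
      · exact Finset.mem_inter.2 ⟨hYf x hx, hbce (hY hx)⟩) hrY4
    have ha1 : ((f ∩ b) \ Y).card = 1 := by
      have := Finset.card_sdiff_of_subset hY_sub
      omega
    obtain ⟨a, ha⟩ := Finset.card_eq_one.1 ha1
    have ha' : a ∈ (f ∩ b) \ Y := by rw [ha]; exact Finset.mem_singleton_self a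
    rw [Finset.mem_sdiff, Finset.mem_inter] at ha'
    obtain ⟨⟨haf, hab⟩, haY⟩ := ha'
    have hac : a ∉ c := by
      intro h
      have : a ∈ f ∩ c := Finset.mem_inter.2 ⟨haf, h⟩
      rw [hfc_eq, Finset.mem_insert] at this
      rcases this with h' | h'
      · exact hpb (by rw [← h']; exact hab)
      · exact haY h'
    have had : a ∈ d := hbcd (Finset.mem_sdiff.2 ⟨hab, hac⟩)
    have hap : a ≠ p := fun h => hpb (by rw [← h]; exact hab)
    have har : a ≠ r := fun h => hrb (by rw [← h]; exact hab)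
    have hfd_eq : f ∩ d = {a, p, r} := by
      apply Finset.Subset.antisymm
      · intro z hz
        rw [Finset.mem_inter] at hz
        obtain ⟨hzf, hzd⟩ := hz
        rw [Finset.mem_insert, Finset.mem_insert, Finset.mem_singleton]
        by_cases hzb : z ∈ b
        · left
          have hzY : z ∉ Y := fun h => D1 z hzd hzb (hYc z h)
          have : z ∈ (f ∩ b) \ Y := Finset.mem_sdiff.2 ⟨Finset.mem_inter.2 ⟨hzf, hzb⟩, hzY⟩
          rw [ha] at this
          exact Finset.mem_singleton.1 this
        · by_cases hzc : z ∈ c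
          · right; left
            have : z ∈ f ∩ c := Finset.mem_inter.2 ⟨hzf, hzc⟩
            rw [hfc_eq, Finset.mem_insert] at this
            rcases this with h' | h'
            · exact h'
            · exact absurd (hYb z h') hzb
          · right; right
            have hzR : z ∈ d \ (b ∪ c) := by
              rw [Finset.mem_sdiff, Finset.mem_union, not_or]
              exact ⟨hzd, hzb, hzc⟩
            have : z ∈ f ∩ e := Finset.mem_inter.2 ⟨hzf, hRe hzR⟩
            rw [hfe_eq, Finset.mem_insert] at this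
            rcases this with h' | h'
            · exact h'
            · exact absurd (hYb z h') hzb
      · intro z hz
        rw [Finset.mem_insert, Finset.mem_insert, Finset.mem_singleton] at hz
        rcases hz with hz | hz | hz
        · rw [hz]; exact Finset.mem_inter.2 ⟨haf, had⟩
        · rw [hz]; exact Finset.mem_inter.2 ⟨hpf, hpd⟩
        · rw [hz]; exact Finset.mem_inter.2 ⟨hrf, hrd⟩
    have h3 : (f ∩ d).card = 3 := Finset.card_eq_three.2 ⟨a, p, r, hap, har, hpr, hfd_eq⟩
    rcases hcases f d hf hd hfd with h | h | h <;> omega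
  · have hdc_eq : d ∩ c = c \ b := Finset.eq_of_subset_of_card_le hdc_sub (by omega)
    have hsub : symmDiff b c ⊆ d := by
      rw [hsd]
      apply Finset.union_subset hbcd
      rw [← hdc_eq]
      exact Finset.inter_subset_left
    have := Finset.eq_of_subset_of_card_le hsub (by omega)
    rw [this]
    exact hd

end Cfsg.Agent.S0353
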