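import Cfsg.Statements.S0354
import Cfsg.Agent.Helper2.Steiner

set_option autoImplicit false
open Cfsg

namespace Cfsg.Agent.S0354

/-- In an S(5, 8, 24), each block is disjoint from exactly 30 blocks. -/
theorem result {α : Type*} [Fintype α] [DecidableEq α] (hα : Fintype.card α = 24) {B : Set (Finset α)} (hB : Cfsg.IsSteinerSystem 5 8 B) {b : Finset α} (hb : b ∈ B) : {c : Finset α | c ∈ B ∧ Disjoint b c}.ncard = 30 := by
  have h0 : ∑ c ∈ (Cfsg.Agent.Helper2.Steiner.blocks B).erase b, ((b ∩ c).card).choose 0 = 758 :=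
    Cfsg.Agent.Helper2.Steiner.inter_sum_erase_val hB hb 0 (by norm_num) 758
      (by rw [hα]; decide) (by decide)
  have h1 : ∑ c ∈ (Cfsg.Agent.Helper2.Steiner.blocks B).erase b, ((b ∩ c).card).choose 1 = 2016 :=
    Cfsg.Agent.Helper2.Steiner.inter_sum_erase_val hB hb 1 (by norm_num) 2016
      (by rw [hα]; decide) (by decide)
  have h2 : ∑ c ∈ (Cfsg.Agent.Helper2.Steiner.blocks B).erase b, ((b ∩ c).card).choose 2 = 2128 :=
    Cfsg.Agent.Helper2.Steiner.inter_sum_erase_val hB hb 2 (by norm_num) 2128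
      (by rw [hα]; decide) (by decide)
  have h3 : ∑ c ∈ (Cfsg.Agent.Helper2.Steiner.blocks B).erase b, ((b ∩ c).card).choose 3 = 1120 :=
    Cfsg.Agent.Helper2.Steiner.inter_sum_erase_val hB hb 3 (by norm_num) 1120
      (by rw [hα]; decide) (by decide)
  have h4 : ∑ c ∈ (Cfsg.Agent.Helper2.Steiner.blocks B).erase b, ((b ∩ c).card).choose 4 = 280 :=
    Cfsg.Agent.Helper2.Steiner.inter_sum_erase_val hB hb 4 (by norm_num) 280
      (by rw [hα]; decide) (by decide)
  have hd := Cfsg.Agent.Helper2.Steiner.disjoint_count hB hb (le_refl 5)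
  rw [Cfsg.Agent.Helper2.Steiner.disjoint_ncard hB hb (by norm_num)]
  omega

end Cfsg.Agent.S0354
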