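import Cfsg.Statements.S0357
import Cfsg.Agent.Helper2.Steiner

set_option autoImplicit false
open Cfsg

namespace Cfsg.Agent.S0357

/-- In a Steiner system S(5, 6, 12), the complement of every block is again a block. -/
theorem result {α : Type*} [Fintype α] [DecidableEq α] (hα : Fintype.card α = 12) {B : Set (Finset α)} (hB : Cfsg.IsSteinerSystem 5 6 B) {b : Finset α} (hb : b ∈ B) : bᶜ ∈ B := by
  have h0 : ∑ c ∈ (Cfsg.Agent.Helper2.Steiner.blocks B).erase b, ((b ∩ c).card).choose 0 = 131 :=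
    Cfsg.Agent.Helper2.Steiner.inter_sum_erase_val hB hb 0 (by norm_num) 131
      (by rw [hα]; decide) (by decide)
  have h1 : ∑ c ∈ (Cfsg.Agent.Helper2.Steiner.blocks B).erase b, ((b ∩ c).card).choose 1 = 390 :=
    Cfsg.Agent.Helper2.Steiner.inter_sum_erase_val hB hb 1 (by norm_num) 390
      (by rw [hα]; decide) (by decide)
  have h2 : ∑ c ∈ (Cfsg.Agent.Helper2.Steiner.blocks B).erase b, ((b ∩ c).card).choose 2 = 435 :=
    Cfsg.Agent.Helper2.Steiner.inter_sum_erase_val hB hb 2 (by norm_num) 435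
      (by rw [hα]; decide) (by decide)
  have h3 : ∑ c ∈ (Cfsg.Agent.Helper2.Steiner.blocks B).erase b, ((b ∩ c).card).choose 3 = 220 :=
    Cfsg.Agent.Helper2.Steiner.inter_sum_erase_val hB hb 3 (by norm_num) 220
      (by rw [hα]; decide) (by decide)
  have h4 : ∑ c ∈ (Cfsg.Agent.Helper2.Steiner.blocks B).erase b, ((b ∩ c).card).choose 4 = 45 :=
    Cfsg.Agent.Helper2.Steiner.inter_sum_erase_val hB hb 4 (by norm_num) 45
      (by rw [hα]; decide) (by decide)
  have hd := Cfsg.Agent.Helper2.Steiner.disjoint_count hB hb (le_refl 5)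
  have hF : (((Cfsg.Agent.Helper2.Steiner.blocks B).erase b).filter
      (fun c => (b ∩ c).card = 0)).card = 1 := by omega
  obtain ⟨c, hc⟩ := Finset.card_pos.1 (by rw [hF]; exact Nat.one_pos)
  rw [Finset.mem_filter, Finset.mem_erase, Cfsg.Agent.Helper2.Steiner.mem_blocks] at hc
  have hsub : c ⊆ bᶜ := by
    intro x hx
    rw [Finset.mem_compl]
    intro hxb
    have : x ∈ b ∩ c := Finset.mem_inter.2 ⟨hxb, hx⟩
    rw [Finset.card_eq_zero.1 hc.2] at this
    exact Finset.notMem_empty _ this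
  have hcard : bᶜ.card ≤ c.card := by
    have e1 := Finset.card_compl b
    have e2 := hB.1 b hb
    have e3 := hB.1 c hc.1.2
    omega
  have := Finset.eq_of_subset_of_card_le hsub hcard
  rw [← this]
  exact hc.1.2

end Cfsg.Agent.S0357
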