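import Cfsg.Statements.S0370
import Cfsg.Agent.Helper28.GolayPerm

set_option autoImplicit false
open Cfsg

namespace Cfsg.Agent.S0370

open Cfsg.Agent.Helper28.Golay

def f (i : Nat) : Nat := if i < 23 then (i + 1) % 23 else 23

theorem hf : ∀ p : GolayPt, idx (Equiv.optionCongr (Equiv.addRight (1 : ZMod 23)) p) = f (idx p) := by
  decide +kernel

theorem hB : (B.all fun b => isCW (permMask f b)) = true := by decide +kernel

/-- The permutation x ↦ x + 1 of the residues modulo 23, fixing the extra point, lies in the group of the length-24 code. -/
theorem result : Equiv.optionCongr (Equiv.addRight (1 : ZMod 23)) ∈ Cfsg.M24 := by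
  exact mem_M24_of_table _ f hf hB

end Cfsg.Agent.S0370
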