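import Cfsg.Statements.S0371
import Cfsg.Agent.Helper28.GolayPerm

set_option autoImplicit false
open Cfsg

namespace Cfsg.Agent.S0371

open Cfsg.Agent.Helper28.Golay

def f (k i : Nat) : Nat := if i < 23 then (k * i) % 23 else 23

theorem hf (u : (ZMod 23)ˣ) (p : GolayPt) :
    idx (Equiv.optionCongr (Units.mulLeft u) p) = f (u : ZMod 23).val (idx p) := by
  cases p with
  | none => rfl
  | some x =>
    show ((u : ZMod 23) * x).val = f (u : ZMod 23).val x.val
    rw [f, if_pos (ZMod.val_lt x), ZMod.val_mul]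

theorem hB : ∀ k ∈ [1, 2, 3, 4, 6, 8, 9, 12, 13, 16, 18],
    (B.all fun b => isCW (permMask (f k) b)) = true := by decide +kernel

theorem hsq : ∀ r : ZMod 23, r ≠ 0 → (r * r).val ∈ [1, 2, 3, 4, 6, 8, 9, 12, 13, 16, 18] := by
  decide +kernel

/-- Multiplication by a nonzero square residue modulo 23, fixing the extra point, lies in the group of the length-24 code. -/
theorem result (u : (ZMod 23)ˣ) (hu : IsSquare u) : Equiv.optionCongr (Units.mulLeft u) ∈ Cfsg.M24 := by
  obtain ⟨r, rfl⟩ := hu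
  have h1 : ((r * r : (ZMod 23)ˣ) : ZMod 23).val ∈ [1, 2, 3, 4, 6, 8, 9, 12, 13, 16, 18] := by
    rw [Units.val_mul]
    haveI : Fact (1 < 23) := ⟨by norm_num⟩
    exact hsq _ r.ne_zero
  exact mem_M24_of_table _ (f ((r * r : (ZMod 23)ˣ) : ZMod 23).val) (hf _) (hB _ h1)

end Cfsg.Agent.S0371
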