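import Cfsg.Statements.S0372
import Cfsg.Agent.Helper28.GolayPerm

set_option autoImplicit false
open Cfsg

namespace Cfsg.Agent.S0372

open Cfsg.Agent.Helper28.Golay

def f (i : Nat) : Nat :=
  [23, 22, 11, 15, 17, 9, 19, 13, 20, 5, 16, 2, 21, 7, 18, 3, 10, 4, 14, 6, 8, 12, 1, 0].getD i 0

theorem hf : ∀ p : GolayPt, idx (projInv p) = f (idx p) := by
  decide +kernel

theorem hB : (B.all fun b => isCW (permMask f b)) = true := by decide +kernel

/-- The involution x ↦ -1/x of the projective line over ZMod 23 lies in the group of the length-24 code. -/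
theorem result : Cfsg.projInv ∈ Cfsg.M24 := by
  exact mem_M24_of_table _ f hf hB

end Cfsg.Agent.S0372
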