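import Cfsg.Statements.S0373
import Cfsg.Agent.Helper28.GolayPerm

set_option autoImplicit false
open Cfsg

namespace Cfsg.Agent.S0373

open Cfsg.Agent.Helper28.Golay

def f (i : Nat) : Nat :=
  [0, 18, 6, 3, 2, 21, 1, 5, 16, 12, 7, 19, 8, 9, 17, 15, 13, 11, 4, 22, 10, 20, 14, 23].getD i 0

theorem hf' : ∀ p : GolayPt, idx (cubeTwistFun p) = f (idx p) := by
  decide +kernel

theorem hf (p : GolayPt) : idx (cubeTwist p) = f (idx p) := hf' p

theorem hB : (B.all fun b => isCW (permMask f b)) = true := by decide +kernel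

/-- The cube-twist permutation (squares t ↦ t^3/9, non-squares t ↦ 9t^3, extra point fixed) lies in the group of the length-24 code. -/
theorem result : Cfsg.cubeTwist ∈ Cfsg.M24 := by
  exact mem_M24_of_table _ f hf hB

end Cfsg.Agent.S0373
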