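import Cfsg.Statements.S0399
import Cfsg.Agent.Helper27.Co2Main
import Cfsg.Agent.Helper27.Co1Simple
-- import your own Cfsg.Agent.* helpers here

set_option autoImplicit false
open Cfsg

namespace Cfsg.Agent.S0399

/-- Automorphism group of the lattice modulo its centre is simple of order 4157776806543360000. -/
theorem result : Cfsg.IsCo1 (Cfsg.Co0 ⧸ Subgroup.center Cfsg.Co0) := by
  exact ⟨Cfsg.Agent.Helper27.co1_simple_of Cfsg.Agent.Helper27.co2A Cfsg.Agent.Helper27.co2A_norm
    (Cfsg.Agent.Helper27.co2_simple Cfsg.Agent.Helper27.co2A Cfsg.Agent.Helper27.co2A_norm),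
    Cfsg.Agent.Helper27.co1_card⟩

end Cfsg.Agent.S0399
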