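import Cfsg.Statements.S0415
import Mathlib

set_option autoImplicit false
open Cfsg

namespace Cfsg.Agent.S0415

/-- Sharply 4-transitive action, in concrete form. -/
structure S4T (G Ω : Type*) [Group G] [MulAction G Ω] : Prop where
  ex : ∀ a b c d a' b' c' d' : Ω, [a, b, c, d].Nodup → [a', b', c', d'].Nodup →
    ∃ g : G, g • a = a' ∧ g • b = b' ∧ g • c = c' ∧ g • d = d'
  uniq : ∀ (g : G) (a b c d : Ω), [a, b, c, d].Nodup →
    g • a = a → g • b = b → g • c = c → g • d = d → g = 1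

theorem S4T.of_sharp {G Ω : Type*} [Group G] [MulAction G Ω]
    (h4 : MulAction.IsMultiplyPretransitive G Ω 4)
    (hsharp : ∀ x : Fin 4 ↪ Ω, MulAction.stabilizer G x = ⊥) : S4T G Ω := by
  have emb : ∀ a b c d : Ω, [a, b, c, d].Nodup →
      ∃ x : Fin 4 ↪ Ω, x 0 = a ∧ x 1 = b ∧ x 2 = c ∧ x 3 = d := by
    intro a b c d h
    exact ⟨⟨fun i : Fin 4 => [a, b, c, d].get i, List.nodup_iff_injective_get.mp h⟩,
      rfl, rfl, rfl, rfl⟩
  constructor
  · intro a b c d a' b' c' d' h h'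
    obtain ⟨x, hx0, hx1, hx2, hx3⟩ := emb a b c d h
    obtain ⟨y, hy0, hy1, hy2, hy3⟩ := emb a' b' c' d' h'
    obtain ⟨g, hg⟩ := MulAction.exists_smul_eq G x y
    refine ⟨g, ?_, ?_, ?_, ?_⟩
    · rw [← hx0, ← hy0, ← hg]; rfl
    · rw [← hx1, ← hy1, ← hg]; rfl
    · rw [← hx2, ← hy2, ← hg]; rfl
    · rw [← hx3, ← hy3, ← hg]; rfl
  · intro g a b c d h ha hb hc hd
    obtain ⟨x, hx0, hx1, hx2, hx3⟩ := emb a b c d h
    have hmem : g ∈ MulAction.stabilizer G x := by
      rw [MulAction.mem_stabilizer_iff]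
      ext i
      rw [Function.Embedding.smul_apply]
      fin_cases i
      · show g • x 0 = x 0
        rw [hx0, ha]
      · show g • x 1 = x 1
        rw [hx1, hb]
      · show g • x 2 = x 2
        rw [hx2, hc]
      · show g • x 3 = x 3
        rw [hx3, hd]
    rw [hsharp x] at hmem
    exact Subgroup.mem_bot.mp hmem

section core

variable {G Ω : Type*} [Group G] [MulAction G Ω]

theorem nd4 {a b c d : Ω} (h1 : a ≠ b) (h2 : a ≠ c) (h3 : a ≠ d) (h4 : b ≠ c) (h5 : b ≠ d)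
    (h6 : c ≠ d) : [a, b, c, d].Nodup := by
  simp only [List.nodup_cons, List.mem_cons, List.not_mem_nil, or_false, not_or, List.nodup_nil,
    and_true, not_false_eq_true]
  exact ⟨⟨h1, h2, h3⟩, ⟨h4, h5⟩, h6⟩

theorem S4T.eq4 (hS : S4T G Ω) (g g' : G) (a b c d : Ω) (h : [a, b, c, d].Nodup)
    (ha : g • a = g' • a) (hb : g • b = g' • b) (hc : g • c = g' • c) (hd : g • d = g' • d) :
    g = g' := by
  have h1 := hS.uniq (g'⁻¹ * g) a b c d h (by rw [mul_smul, ha, inv_smul_smul])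
    (by rw [mul_smul, hb, inv_smul_smul]) (by rw [mul_smul, hc, inv_smul_smul])
    (by rw [mul_smul, hd, inv_smul_smul])
  exact (inv_mul_eq_one.mp h1).symm


set_option maxHeartbeats 1600000 in
theorem case3 [Fintype Ω] [DecidableEq Ω] (hS : S4T G Ω)
    (p1 p2 p3 p4 e : Ω) (hnd : [p1, p2, p3, p4, e].Nodup) (t s : G)
    (ht1 : t • p1 = p2) (ht2 : t • p2 = p1) (ht3 : t • p3 = p3) (ht4 : t • p4 = p4)
    (hte : t • e = e)
    (hs1 : s • p1 = p1) (hs2 : s • p2 = p2) (hs3 : s • p3 = p4) (hs4 : s • p4 = p3) :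
    Fintype.card Ω ≤ 11 ∧ Fintype.card Ω % 2 = 1 ∧ Fintype.card Ω % 3 = 2 := by
  have inj : ∀ (g : G) (x y : Ω), g • x = g • y → x = y := fun g x y h => MulAction.injective g h
  have d12 : p1 ≠ p2 := by grind
  have d13 : p1 ≠ p3 := by grind
  have d14 : p1 ≠ p4 := by grind
  have d1e : p1 ≠ e := by grind
  have d23 : p2 ≠ p3 := by grind
  have d24 : p2 ≠ p4 := by grind
  have d2e : p2 ≠ e := by grind
  have d34 : p3 ≠ p4 := by grind
  have d3e : p3 ≠ e := by grind
  have d4e : p4 ≠ e := by grind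
  have nd1234 : [p1, p2, p3, p4].Nodup := by grind
  have tt : t * t = 1 := hS.uniq _ p1 p2 p3 p4 nd1234 (by rw [mul_smul, ht1, ht2])
    (by rw [mul_smul, ht2, ht1]) (by rw [mul_smul, ht3, ht3]) (by rw [mul_smul, ht4, ht4])
  have ss : s * s = 1 := hS.uniq _ p1 p2 p3 p4 nd1234 (by rw [mul_smul, hs1, hs1])
    (by rw [mul_smul, hs2, hs2]) (by rw [mul_smul, hs3, hs4]) (by rw [mul_smul, hs4, hs3])
  have st : s * t = t * s := hS.eq4 _ _ p1 p2 p3 p4 nd1234
    (by rw [mul_smul, mul_smul, ht1, hs2, hs1, ht1]) (by rw [mul_smul, mul_smul, ht2, hs1, hs2, ht2])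
    (by rw [mul_smul, mul_smul, ht3, hs3, ht4]) (by rw [mul_smul, mul_smul, ht4, hs4, ht3])
  have t1 : t ≠ 1 := by
    intro h
    rw [h, one_smul] at ht1
    exact d12 ht1
  have fix3 : ∀ x, t • x = x → x = p3 ∨ x = p4 ∨ x = e := by
    intro x hx
    by_contra hcon
    push Not at hcon
    obtain ⟨h3, h4, he⟩ := hcon
    exact t1 (hS.uniq t p3 p4 e x (by grind) ht3 ht4 hte hx)
  have hse : s • e = e := by
    have h1 : t • (s • e) = s • e := by rw [← mul_smul, ← st, mul_smul, hte]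
    rcases fix3 _ h1 with h | h | h
    · exact absurd (inj s e p4 (by rw [h, hs4])) (Ne.symm d4e)
    · exact absurd (inj s e p3 (by rw [h, hs3])) (Ne.symm d3e)
    · exact h
  -- uniqueness of the involution with fixed points p3, p4, e
  have U3 : ∀ u : G, u * u = 1 → u ≠ 1 → u • p3 = p3 → u • p4 = p4 → u • e = e → u = t := by
    intro u uu u1 u3 u4 ue
    have hq1 : u • p1 ≠ p1 := fun h => u1 (hS.uniq u p3 p4 e p1 (by grind) u3 u4 ue h)
    have hq3 : u • p1 ≠ p3 := fun h => d13 (inj u p1 p3 (by rw [h, u3]))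
    have hq4 : u • p1 ≠ p4 := fun h => d14 (inj u p1 p4 (by rw [h, u4]))
    obtain ⟨g, g3, g4, g1, g2⟩ := hS.ex p3 p4 p1 p2 p3 p4 p1 (u • p1) (by grind) (by grind)
    have huq : u • (u • p1) = p1 := by rw [← mul_smul, uu, one_smul]
    have hgi3 : g⁻¹ • p3 = p3 := by rw [inv_smul_eq_iff, g3]
    have hgi4 : g⁻¹ • p4 = p4 := by rw [inv_smul_eq_iff, g4]
    have hgi1 : g⁻¹ • p1 = p1 := by rw [inv_smul_eq_iff, g1]
    have hgiq : g⁻¹ • (u • p1) = p2 := by rw [inv_smul_eq_iff, g2]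
    have hconj : g * t * g⁻¹ = u := hS.eq4 _ _ p3 p4 p1 (u • p1) (by grind)
      (by rw [mul_smul, mul_smul, hgi3, ht3, g3, u3])
      (by rw [mul_smul, mul_smul, hgi4, ht4, g4, u4])
      (by rw [mul_smul, mul_smul, hgi1, ht1, g2])
      (by rw [mul_smul, mul_smul, hgiq, ht2, g1, huq])
    have hge : u • (g • e) = g • e := by
      rw [← hconj, mul_smul, mul_smul, inv_smul_smul, hte]
    have hge' : g • e = e := by
      by_contra hne
      have h3' : g • e ≠ p3 := fun h => d3e (inj g e p3 (by rw [h, g3])).symm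
      have h4' : g • e ≠ p4 := fun h => d4e (inj g e p4 (by rw [h, g4])).symm
      exact u1 (hS.uniq u p3 p4 e (g • e) (by grind) u3 u4 ue hge)
    have hg1 : g = 1 := hS.uniq g p3 p4 p1 e (by grind) g3 g4 g1 hge'
    rw [← hconj, hg1]; simp
  have commT : ∀ g : G, t • (g⁻¹ • p3) = g⁻¹ • p3 → t • (g⁻¹ • p4) = g⁻¹ • p4 →
      t • (g⁻¹ • e) = g⁻¹ • e → g * t = t * g := by
    intro g h3 h4 he
    have h := U3 (g * t * g⁻¹) (by
        have : g * t * g⁻¹ * (g * t * g⁻¹) = g * (t * t) * g⁻¹ := by group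
        rw [this, tt]; group)
      (by
        intro h
        apply t1
        have : t = g⁻¹ * (g * t * g⁻¹) * g := by group
        rw [this, h]; group)
      (by rw [mul_smul, mul_smul, h3, smul_inv_smul])
      (by rw [mul_smul, mul_smul, h4, smul_inv_smul])
      (by rw [mul_smul, mul_smul, he, smul_inv_smul])
    have : g * t = (g * t * g⁻¹) * g := by group
    rw [this, h]
  -- regularity of the three point stabiliser
  have Rex : ∀ x y, x ≠ p3 → x ≠ p4 → x ≠ e → y ≠ p3 → y ≠ p4 → y ≠ e →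
      ∃ h : G, h • p3 = p3 ∧ h • p4 = p4 ∧ h • e = e ∧ h • x = y :=
    fun x y hx3 hx4 hxe hy3 hy4 hye => hS.ex p3 p4 e x p3 p4 e y (by grind) (by grind)
  have Runiq : ∀ h h' : G, h • p3 = p3 → h • p4 = p4 → h • e = e → h' • p3 = p3 → h' • p4 = p4 →
      h' • e = e → ∀ x, x ≠ p3 → x ≠ p4 → x ≠ e → h • x = h' • x → h = h' :=
    fun h h' h3 h4 he h3' h4' he' x hx3 hx4 hxe hx =>
      hS.eq4 h h' p3 p4 e x (by grind) (by rw [h3, h3']) (by rw [h4, h4']) (by rw [he, he']) hx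
  -- an element commuting with a nontrivial `r` fixing `p1` and commuting with `t`
  have Key4 : ∀ r y : G, r ≠ 1 → r • p1 = p1 → r * t = t * r → y • p3 = p3 → y • p4 = p4 →
      y • e = e → r * y = y * r → y • p1 = p1 ∨ y • p1 = p2 := by
    intro r y r1 rp1 rt y3 y4 ye ry
    by_contra hcon
    push Not at hcon
    obtain ⟨hy1, hy2⟩ := hcon
    have rp2 : r • p2 = p2 := by rw [← ht1, ← mul_smul, rt, mul_smul, rp1]
    have ryp : r • (y • p1) = y • p1 := by rw [← mul_smul, ry, mul_smul, rp1]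
    have rtyp : r • (t • (y • p1)) = t • (y • p1) := by rw [← mul_smul, rt, mul_smul, ryp]
    have hty1 : t • (y • p1) ≠ p1 := fun h => hy2 (inj t _ _ (by rw [h, ht2]))
    have hty2 : t • (y • p1) ≠ p2 := fun h => hy1 (inj t _ _ (by rw [h, ht1]))
    have htyy : t • (y • p1) ≠ y • p1 := by
      intro h
      rcases fix3 _ h with h' | h' | h'
      · exact d13 (inj y p1 p3 (by rw [h', y3]))
      · exact d14 (inj y p1 p4 (by rw [h', y4]))
      · exact d1e (inj y p1 e (by rw [h', ye]))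
    exact r1 (hS.uniq r p1 p2 (y • p1) (t • (y • p1)) (by grind) rp1 rp2 ryp rtyp)
  -- the sets attached to an involution permuting p3, p4, e
  have Wlem : ∀ w : G, w * w = 1 →
      (w • p3 = p3 ∨ w • p3 = p4 ∨ w • p3 = e) → (w • p4 = p3 ∨ w • p4 = p4 ∨ w • p4 = e) →
      (w • e = p3 ∨ w • e = p4 ∨ w • e = e) → (w • p3 ≠ p3 ∨ w • p4 ≠ p4 ∨ w • e ≠ e) →
      ∃ I : Finset Ω, (Finset.univ \ {p3, p4, e} : Finset Ω).card ≤ 2 * I.card ∧
        ∀ x ∈ I, x ≠ p3 ∧ x ≠ p4 ∧ x ≠ e ∧ ∃ y : G, y • p3 = p3 ∧ y • p4 = p4 ∧ y • e = e ∧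
          w * y * w = y⁻¹ ∧ y • p1 = x := by
    intro w ww w3 w4 we wne
    have winv : w⁻¹ = w := inv_eq_of_mul_eq_one_right ww
    have wwx : ∀ x : Ω, w • (w • x) = x := fun x => by rw [← mul_smul, ww, one_smul]
    have wΔ : ∀ a, a ≠ p3 → a ≠ p4 → a ≠ e → w • a ≠ p3 ∧ w • a ≠ p4 ∧ w • a ≠ e := by
      intro a a3 a4 ae
      refine ⟨?_, ?_, ?_⟩
      · intro h
        have h' : a = w • p3 := by rw [← h, wwx]
        rcases w3 with h3 | h3 | h3
        · exact a3 (h'.trans h3)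
        · exact a4 (h'.trans h3)
        · exact ae (h'.trans h3)
      · intro h
        have h' : a = w • p4 := by rw [← h, wwx]
        rcases w4 with h3 | h3 | h3
        · exact a3 (h'.trans h3)
        · exact a4 (h'.trans h3)
        · exact ae (h'.trans h3)
      · intro h
        have h' : a = w • e := by rw [← h, wwx]
        rcases we with h3 | h3 | h3
        · exact a3 (h'.trans h3)
        · exact a4 (h'.trans h3)
        · exact ae (h'.trans h3)
    have wfix : ∃ z, (z = p3 ∨ z = p4 ∨ z = e) ∧ w • z = z := by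
      have i34 := inj w p3 p4
      have i3e := inj w p3 e
      have i4e := inj w p4 e
      have h3 := wwx p3
      have h4 := wwx p4
      have he := wwx e
      grind
    have hy : ∀ a : Ω, ∃ y : G, a ≠ p3 → a ≠ p4 → a ≠ e →
        (y • p3 = p3 ∧ y • p4 = p4 ∧ y • e = e ∧ y • a = w • a) := by
      intro a
      by_cases h : a ≠ p3 ∧ a ≠ p4 ∧ a ≠ e
      · obtain ⟨h3, h4, he⟩ := h
        obtain ⟨hw3, hw4, hwe⟩ := wΔ a h3 h4 he
        obtain ⟨y, hy⟩ := Rex a (w • a) h3 h4 he hw3 hw4 hwe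
        exact ⟨y, fun _ _ _ => hy⟩
      · exact ⟨1, fun h3 h4 he => absurd ⟨h3, h4, he⟩ h⟩
    choose yf hyf using hy
    have conjfix : ∀ y : G, y • p3 = p3 → y • p4 = p4 → y • e = e →
        (w * y * w) • p3 = p3 ∧ (w * y * w) • p4 = p4 ∧ (w * y * w) • e = e := by
      intro y y3 y4 ye
      have hz : ∀ z, (z = p3 ∨ z = p4 ∨ z = e) → (w * y * w) • z = z := by
        intro z hz
        have hwz : y • (w • z) = w • z := by
          rcases hz with rfl | rfl | rfl
          · rcases w3 with h | h | h <;> rw [h] <;> assumption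
          · rcases w4 with h | h | h <;> rw [h] <;> assumption
          · rcases we with h | h | h <;> rw [h] <;> assumption
        rw [mul_smul, mul_smul, hwz, wwx]
      exact ⟨hz p3 (Or.inl rfl), hz p4 (Or.inr (Or.inl rfl)), hz e (Or.inr (Or.inr rfl))⟩
    have hinvy : ∀ a, a ≠ p3 → a ≠ p4 → a ≠ e → w * yf a * w = (yf a)⁻¹ := by
      intro a a3 a4 ae
      obtain ⟨y3, y4, ye, ya⟩ := hyf a a3 a4 ae
      obtain ⟨c3, c4, ce⟩ := conjfix (yf a) y3 y4 ye
      obtain ⟨hw3, hw4, hwe⟩ := wΔ a a3 a4 ae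
      apply Runiq _ _ c3 c4 ce (by rw [inv_smul_eq_iff, y3]) (by rw [inv_smul_eq_iff, y4])
        (by rw [inv_smul_eq_iff, ye]) (w • a) hw3 hw4 hwe
      rw [mul_smul, mul_smul, wwx, ya, wwx, eq_inv_smul_iff, ya]
    refine ⟨(Finset.univ \ {p3, p4, e}).image (fun a => yf a • p1), ?_, ?_⟩
    · apply Finset.card_le_mul_card_image
      intro x hx
      by_contra hgt
      push Not at hgt
      obtain ⟨a, ha, b, hb, c, hc, hab, hac, hbc⟩ := Finset.two_lt_card.mp hgt
      simp only [Finset.mem_filter, Finset.mem_sdiff, Finset.mem_univ, true_and,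
        Finset.mem_insert, Finset.mem_singleton, not_or] at ha hb hc
      obtain ⟨⟨a3, a4, ae⟩, hax⟩ := ha
      obtain ⟨⟨b3, b4, be⟩, hbx⟩ := hb
      obtain ⟨⟨c3, c4, ce⟩, hcx⟩ := hc
      obtain ⟨ya3, ya4, yae, yaa⟩ := hyf a a3 a4 ae
      obtain ⟨yb3, yb4, ybe, ybb⟩ := hyf b b3 b4 be
      obtain ⟨yc3, yc4, yce, ycc⟩ := hyf c c3 c4 ce
      have eab : yf b = yf a :=
        Runiq _ _ yb3 yb4 ybe ya3 ya4 yae p1 d13 d14 d1e (by rw [hbx, hax])
      have eac : yf c = yf a :=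
        Runiq _ _ yc3 yc4 yce ya3 ya4 yae p1 d13 d14 d1e (by rw [hcx, hax])
      rw [eab] at ybb
      rw [eac] at ycc
      obtain ⟨z, hz, hwz⟩ := wfix
      have hyz : yf a • z = z := by rcases hz with rfl | rfl | rfl <;> assumption
      have hza : z ≠ a := by rcases hz with rfl | rfl | rfl <;> [exact Ne.symm a3; exact Ne.symm a4; exact Ne.symm ae]
      have hzb : z ≠ b := by rcases hz with rfl | rfl | rfl <;> [exact Ne.symm b3; exact Ne.symm b4; exact Ne.symm be]
      have hzc : z ≠ c := by rcases hz with rfl | rfl | rfl <;> [exact Ne.symm c3; exact Ne.symm c4; exact Ne.symm ce]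
      have h1 : w * yf a = 1 := hS.uniq _ z a b c (nd4 hza hzb hzc hab hac hbc)
        (by rw [mul_smul, hyz, hwz]) (by rw [mul_smul, yaa, wwx]) (by rw [mul_smul, ybb, wwx])
        (by rw [mul_smul, ycc, wwx])
      have h2 : yf a = w := by rw [← winv]; exact eq_inv_of_mul_eq_one_right h1
      rw [h2] at ya3 ya4 yae
      rcases wne with h | h | h
      · exact h ya3
      · exact h ya4
      · exact h yae
    · intro x hx
      obtain ⟨a, ha, rfl⟩ := Finset.mem_image.mp hx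
      simp only [Finset.mem_sdiff, Finset.mem_univ, true_and,
        Finset.mem_insert, Finset.mem_singleton, not_or] at ha
      obtain ⟨a3, a4, ae⟩ := ha
      obtain ⟨y3, y4, ye, ya⟩ := hyf a a3 a4 ae
      refine ⟨?_, ?_, ?_, yf a, y3, y4, ye, hinvy a a3 a4 ae, rfl⟩
      · intro h; exact d13 (inj (yf a) p1 p3 (by rw [h, y3]))
      · intro h; exact d14 (inj (yf a) p1 p4 (by rw [h, y4]))
      · intro h; exact d1e (inj (yf a) p1 e (by rw [h, ye]))
  -- the three involutions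
  obtain ⟨w2, w24, w2e, w23, w21⟩ := hS.ex p4 e p3 p1 e p4 p3 p1 (by grind) (by grind)
  obtain ⟨w3, w33, w3e, w34, w31⟩ := hS.ex p3 e p4 p1 e p3 p4 p1 (by grind) (by grind)
  have w2w2 : w2 * w2 = 1 := hS.uniq _ p4 e p3 p1 (by grind) (by rw [mul_smul, w24, w2e])
    (by rw [mul_smul, w2e, w24]) (by rw [mul_smul, w23, w23]) (by rw [mul_smul, w21, w21])
  have w3w3 : w3 * w3 = 1 := hS.uniq _ p3 e p4 p1 (by grind) (by rw [mul_smul, w33, w3e])
    (by rw [mul_smul, w3e, w33]) (by rw [mul_smul, w34, w34]) (by rw [mul_smul, w31, w31])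
  have w2inv : w2⁻¹ = w2 := inv_eq_of_mul_eq_one_right w2w2
  have w3inv : w3⁻¹ = w3 := inv_eq_of_mul_eq_one_right w3w3
  have w2t : w2 * t = t * w2 :=
    commT w2 (by rw [w2inv, w23, ht3]) (by rw [w2inv, w24, hte]) (by rw [w2inv, w2e, ht4])
  have w3t : w3 * t = t * w3 :=
    commT w3 (by rw [w3inv, w33, hte]) (by rw [w3inv, w34, ht4]) (by rw [w3inv, w3e, ht3])
  obtain ⟨I1, hI1c, hI1⟩ := Wlem s ss (Or.inr (Or.inl hs3)) (Or.inl hs4) (Or.inr (Or.inr hse))
    (Or.inl (by rw [hs3]; exact d34.symm))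
  obtain ⟨I2, hI2c, hI2⟩ := Wlem w2 w2w2 (Or.inl w23) (Or.inr (Or.inr w24)) (Or.inr (Or.inl w2e))
    (Or.inr (Or.inl (by rw [w24]; exact d4e.symm)))
  obtain ⟨I3, hI3c, hI3⟩ := Wlem w3 w3w3 (Or.inr (Or.inr w33)) (Or.inr (Or.inl w34)) (Or.inl w3e)
    (Or.inl (by rw [w33]; exact d3e.symm))
  have inter : ∀ (w w' : G) (I I' : Finset Ω), w * w = 1 → w' * w' = 1 → w • p1 = p1 →
      w' • p1 = p1 → w * t = t * w → w' * t = t * w' → w * w' ≠ 1 →
      (∀ x ∈ I, x ≠ p3 ∧ x ≠ p4 ∧ x ≠ e ∧ ∃ y : G, y • p3 = p3 ∧ y • p4 = p4 ∧ y • e = e ∧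
          w * y * w = y⁻¹ ∧ y • p1 = x) →
      (∀ x ∈ I', x ≠ p3 ∧ x ≠ p4 ∧ x ≠ e ∧ ∃ y : G, y • p3 = p3 ∧ y • p4 = p4 ∧ y • e = e ∧
          w' * y * w' = y⁻¹ ∧ y • p1 = x) →
      ∀ x, x ∈ I → x ∈ I' → x = p1 ∨ x = p2 := by
    intro w w' I I' ww ww' wp1 wp1' wt wt' hne hI hI' x hx hx'
    obtain ⟨-, -, -, y, y3, y4, ye, hy, hyx⟩ := hI x hx
    obtain ⟨-, -, -, y', y3', y4', ye', hy', hyx'⟩ := hI' x hx'
    have e' : y' = y := Runiq _ _ y3' y4' ye' y3 y4 ye p1 d13 d14 d1e (by rw [hyx, hyx'])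
    rw [e'] at hy'
    have hcomm : (w * w') * y = y * (w * w') := by
      have h1 : w' * y = y⁻¹ * w' := by
        have : w' * y = (w' * y * w') * w' := by rw [mul_assoc (w' * y), ww', mul_one]
        rw [this, hy']
      have h2 : w * y⁻¹ = y * w := by
        have : w * y⁻¹ = w * (w * y * w) := by rw [hy]
        rw [this, ← mul_assoc, ← mul_assoc, ww, one_mul]
      rw [mul_assoc, h1, ← mul_assoc, h2, mul_assoc]
    have h3 := Key4 (w * w') y hne (by rw [mul_smul, wp1', wp1])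
      (by rw [mul_assoc, wt', ← mul_assoc, wt, mul_assoc]) y3 y4 ye hcomm
    rw [hyx] at h3
    exact h3
  have h12 := inter s w2 I1 I2 ss w2w2 hs1 w21 st w2t (by
    intro h
    have h' : (s * w2) • p3 = p3 := by rw [h, one_smul]
    rw [mul_smul, w23, hs3] at h'
    exact d34 h'.symm) hI1 hI2
  have h13 := inter s w3 I1 I3 ss w3w3 hs1 w31 st w3t (by
    intro h
    have h' : (s * w3) • p4 = p4 := by rw [h, one_smul]
    rw [mul_smul, w34, hs4] at h'
    exact d34 h') hI1 hI3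
  have h23 := inter w2 w3 I2 I3 w2w2 w3w3 w21 w31 w2t w3t (by
    intro h
    have h' : (w2 * w3) • p4 = p4 := by rw [h, one_smul]
    rw [mul_smul, w34, w24] at h'
    exact d4e h'.symm) hI2 hI3
  -- counting
  have hΔcard : (Finset.univ \ {p3, p4, e} : Finset Ω).card = Fintype.card Ω - 3 := by
    rw [Finset.card_univ_sdiff]
    congr 1
    rw [Finset.card_eq_three]; exact ⟨p3, p4, e, d34, d3e, d4e, rfl⟩
  have hsub : ∀ I : Finset Ω, (∀ x ∈ I, x ≠ p3 ∧ x ≠ p4 ∧ x ≠ e ∧ ∃ y : G, y • p3 = p3 ∧ y • p4 = p4 ∧ y • e = e) →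
      I \ {p1, p2} ⊆ (Finset.univ \ {p3, p4, e}) \ {p1, p2} := by
    intro I hI x hx
    obtain ⟨hxI, hx12⟩ := Finset.mem_sdiff.mp hx
    obtain ⟨x3, x4, xe, -⟩ := hI x hxI
    refine Finset.mem_sdiff.mpr ⟨Finset.mem_sdiff.mpr ⟨Finset.mem_univ _, ?_⟩, hx12⟩
    simp only [Finset.mem_insert, Finset.mem_singleton, not_or]
    exact ⟨x3, x4, xe⟩
  have hTcard : ((Finset.univ \ {p3, p4, e} : Finset Ω) \ {p1, p2}).card
      = (Finset.univ \ {p3, p4, e} : Finset Ω).card - 2 := by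
    rw [Finset.card_sdiff_of_subset, Finset.card_pair d12]
    intro x hx
    simp only [Finset.mem_insert, Finset.mem_singleton] at hx
    simp only [Finset.mem_sdiff, Finset.mem_univ, true_and, Finset.mem_insert,
      Finset.mem_singleton, not_or]
    rcases hx with rfl | rfl
    · exact ⟨d13, d14, d1e⟩
    · exact ⟨d23, d24, d2e⟩
  have hJ : ∀ I : Finset Ω, I.card - 2 ≤ (I \ {p1, p2}).card := by
    intro I
    have := Finset.le_card_sdiff ({p1, p2} : Finset Ω) I
    rwa [Finset.card_pair d12] at this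
  have hdisj : ∀ I I' : Finset Ω, (∀ x, x ∈ I → x ∈ I' → x = p1 ∨ x = p2) →
      Disjoint (I \ {p1, p2}) (I' \ {p1, p2}) := by
    intro I I' h
    rw [Finset.disjoint_left]
    intro x hx hx'
    obtain ⟨hxI, hx12⟩ := Finset.mem_sdiff.mp hx
    obtain ⟨hxI', -⟩ := Finset.mem_sdiff.mp hx'
    apply hx12
    simp only [Finset.mem_insert, Finset.mem_singleton]
    exact h x hxI hxI'
  have hunion : (I1 \ {p1, p2}).card + (I2 \ {p1, p2}).card + (I3 \ {p1, p2}).card
      ≤ ((Finset.univ \ {p3, p4, e} : Finset Ω) \ {p1, p2}).card := by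
    have hd12 := hdisj I1 I2 h12
    have hd13 := hdisj I1 I3 h13
    have hd23 := hdisj I2 I3 h23
    have hd : Disjoint (I1 \ {p1, p2} ∪ I2 \ {p1, p2}) (I3 \ {p1, p2}) :=
      Finset.disjoint_union_left.mpr ⟨hd13, hd23⟩
    rw [← Finset.card_union_of_disjoint hd12, ← Finset.card_union_of_disjoint hd]
    apply Finset.card_le_card
    apply Finset.union_subset (Finset.union_subset ?_ ?_) ?_
    · exact hsub I1 (fun x hx => by
        obtain ⟨a, b, c, y, y3, y4, ye, -⟩ := hI1 x hx; exact ⟨a, b, c, y, y3, y4, ye⟩)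
    · exact hsub I2 (fun x hx => by
        obtain ⟨a, b, c, y, y3, y4, ye, -⟩ := hI2 x hx; exact ⟨a, b, c, y, y3, y4, ye⟩)
    · exact hsub I3 (fun x hx => by
        obtain ⟨a, b, c, y, y3, y4, ye, -⟩ := hI3 x hx; exact ⟨a, b, c, y, y3, y4, ye⟩)
  have hle : Fintype.card Ω ≤ 11 := by
    have j1 := hJ I1
    have j2 := hJ I2
    have j3 := hJ I3
    omega
  -- parity
  have hpar : Fintype.card Ω % 2 = 1 := by
    haveI : Fact (Nat.Prime 2) := ⟨Nat.prime_two⟩
    have h1 := Equiv.Perm.card_compl_support_modEq (p := 2) (n := 1)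
      (σ := (MulAction.toPerm t : Equiv.Perm Ω)) (by
        rw [pow_one, sq]
        ext x
        simp only [Equiv.Perm.coe_mul, Function.comp_apply, MulAction.toPerm_apply,
          Equiv.Perm.coe_one, id_eq]
        rw [← mul_smul, tt, one_smul])
    have h2 : (MulAction.toPerm t : Equiv.Perm Ω).supportᶜ = {p3, p4, e} := by
      ext x
      simp only [Finset.mem_compl, Equiv.Perm.mem_support, MulAction.toPerm_apply, not_not,
        Finset.mem_insert, Finset.mem_singleton]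
      constructor
      · exact fix3 x
      · rintro (rfl | rfl | rfl) <;> assumption
    rw [h2, Finset.card_eq_three.mpr ⟨p3, p4, e, d34, d3e, d4e, rfl⟩] at h1
    have h3 := h1.symm
    unfold Nat.ModEq at h3
    omega
  -- an element of order 3
  have rp1 : (s * w2) • p1 = p1 := by rw [mul_smul, w21, hs1]
  have r3 : (s * w2) • p3 = p4 := by rw [mul_smul, w23, hs3]
  have r4 : (s * w2) • p4 = e := by rw [mul_smul, w24, hse]
  have re : (s * w2) • e = p3 := by rw [mul_smul, w2e, hs4]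
  have rt : (s * w2) * t = t * (s * w2) := by rw [mul_assoc, w2t, ← mul_assoc, st, mul_assoc]
  have rrr : (s * w2) * (s * w2) * (s * w2) = 1 := hS.uniq _ p3 p4 e p1
    (nd4 d34 d3e d13.symm d4e d14.symm d1e.symm)
    (by rw [mul_smul, mul_smul, r3, r4, re]) (by rw [mul_smul, mul_smul, r4, re, r3])
    (by rw [mul_smul, mul_smul, re, r3, r4]) (by rw [mul_smul, mul_smul, rp1, rp1, rp1])
  have r1 : s * w2 ≠ 1 := by
    intro h
    rw [h, one_smul] at r3
    exact d34 r3
  have rp2 : (s * w2) • p2 = p2 := by rw [← ht1, ← mul_smul, rt, mul_smul, rp1]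
  have rfix : ∀ x, (s * w2) • x = x → x = p1 ∨ x = p2 := by
    intro x hx
    have x3 : x ≠ p3 := by rintro rfl; rw [r3] at hx; exact d34 hx.symm
    have x4 : x ≠ p4 := by rintro rfl; rw [r4] at hx; exact d4e hx.symm
    have xe : x ≠ e := by rintro rfl; rw [re] at hx; exact d3e hx
    obtain ⟨h, h3, h4, he, hx1⟩ := Rex p1 x d13 d14 d1e x3 x4 xe
    have ri3 : (s * w2)⁻¹ • p3 = e := by rw [inv_smul_eq_iff, re]
    have ri4 : (s * w2)⁻¹ • p4 = p3 := by rw [inv_smul_eq_iff, r3]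
    have rie : (s * w2)⁻¹ • e = p4 := by rw [inv_smul_eq_iff, r4]
    have ri1 : (s * w2)⁻¹ • p1 = p1 := by rw [inv_smul_eq_iff, rp1]
    have hc : (s * w2) * h * (s * w2)⁻¹ = h := Runiq _ _
      (by rw [mul_smul, mul_smul, ri3, he, re]) (by rw [mul_smul, mul_smul, ri4, h3, r3])
      (by rw [mul_smul, mul_smul, rie, h4, r4]) h3 h4 he p1 d13 d14 d1e
      (by rw [mul_smul, mul_smul, ri1, hx1, hx])
    have hcomm : (s * w2) * h = h * (s * w2) := by
      have : (s * w2) * h = ((s * w2) * h * (s * w2)⁻¹) * (s * w2) := by group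
      rw [this, hc]
    have h5 := Key4 (s * w2) h r1 rp1 rt h3 h4 he hcomm
    rw [hx1] at h5
    exact h5
  have hmod3 : Fintype.card Ω % 3 = 2 := by
    haveI : Fact (Nat.Prime 3) := ⟨Nat.prime_three⟩
    have h1 := Equiv.Perm.card_compl_support_modEq (p := 3) (n := 1)
      (σ := (MulAction.toPerm (s * w2) : Equiv.Perm Ω)) (by
        rw [pow_one, pow_succ, sq]
        ext x
        simp only [Equiv.Perm.coe_mul, Function.comp_apply, MulAction.toPerm_apply,
          Equiv.Perm.coe_one, id_eq]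
        rw [← mul_smul, ← mul_smul, rrr, one_smul])
    have h2 : (MulAction.toPerm (s * w2) : Equiv.Perm Ω).supportᶜ = {p1, p2} := by
      ext x
      simp only [Finset.mem_compl, Equiv.Perm.mem_support, MulAction.toPerm_apply, not_not,
        Finset.mem_insert, Finset.mem_singleton]
      constructor
      · exact rfix x
      · rintro (rfl | rfl) <;> assumption
    rw [h2, Finset.card_pair d12] at h1
    have h3 := h1.symm
    unfold Nat.ModEq at h3
    omega
  exact ⟨hle, hpar, hmod3⟩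


set_option maxHeartbeats 1600000 in
theorem case2 [Finite Ω] (hS : S4T G Ω)
    (p1 p2 p3 p4 : Ω) (hnd : [p1, p2, p3, p4].Nodup) (t s : G)
    (ht1 : t • p1 = p2) (ht2 : t • p2 = p1) (ht3 : t • p3 = p3) (ht4 : t • p4 = p4)
    (hs1 : s • p1 = p1) (hs2 : s • p2 = p2) (hs3 : s • p3 = p4) (hs4 : s • p4 = p3)
    (hf : ∀ x, t • x = x → x = p3 ∨ x = p4)
    (x5 y : Ω) (h51 : x5 ≠ p1) (h52 : x5 ≠ p2) (h53 : x5 ≠ p3) (h54 : x5 ≠ p4) :
    y = p1 ∨ y = p2 ∨ y = p3 ∨ y = p4 ∨ y = x5 ∨ y = t • x5 := by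
  have inj : ∀ (g : G) (x y : Ω), g • x = g • y → x = y := fun g x y h => MulAction.injective g h
  have d12 : p1 ≠ p2 := by grind
  have d13 : p1 ≠ p3 := by grind
  have d14 : p1 ≠ p4 := by grind
  have d23 : p2 ≠ p3 := by grind
  have d24 : p2 ≠ p4 := by grind
  have d34 : p3 ≠ p4 := by grind
  have tt : t * t = 1 := hS.uniq _ p1 p2 p3 p4 hnd (by rw [mul_smul, ht1, ht2])
    (by rw [mul_smul, ht2, ht1]) (by rw [mul_smul, ht3, ht3]) (by rw [mul_smul, ht4, ht4])
  have ttx : ∀ z : Ω, t • (t • z) = z := fun z => by rw [← mul_smul, tt, one_smul]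
  have ss : s * s = 1 := hS.uniq _ p1 p2 p3 p4 hnd (by rw [mul_smul, hs1, hs1])
    (by rw [mul_smul, hs2, hs2]) (by rw [mul_smul, hs3, hs4]) (by rw [mul_smul, hs4, hs3])
  have st : s * t = t * s := hS.eq4 _ _ p1 p2 p3 p4 hnd
    (by rw [mul_smul, mul_smul, ht1, hs2, hs1, ht1]) (by rw [mul_smul, mul_smul, ht2, hs1, hs2, ht2])
    (by rw [mul_smul, mul_smul, ht3, hs3, ht4]) (by rw [mul_smul, mul_smul, ht4, hs4, ht3])
  -- involutions have at most two fixed points
  have F2 : ∀ u : G, u * u = 1 → u ≠ 1 → ∀ q1 q2 q3 : Ω, u • q1 = q1 → u • q2 = q2 →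
      u • q3 = q3 → q1 ≠ q2 → q1 ≠ q3 → q2 ≠ q3 → False := by
    intro u uu u1 q1 q2 q3 hq1 hq2 hq3 h12 h13 h23
    have hex : ∃ a : Ω, u • a ≠ a := by
      by_contra hcon
      push Not at hcon
      exact u1 (hS.uniq u p1 p2 p3 p4 hnd (hcon _) (hcon _) (hcon _) (hcon _))
    obtain ⟨a, ha⟩ := hex
    have hua : u • (u • a) = a := by rw [← mul_smul, uu, one_smul]
    have a1 : a ≠ q1 := by rintro rfl; exact ha hq1
    have a2 : a ≠ q2 := by rintro rfl; exact ha hq2
    have b1 : u • a ≠ q1 := fun h => a1 (inj u a q1 (by rw [h, hq1]))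
    have b2 : u • a ≠ q2 := fun h => a2 (inj u a q2 (by rw [h, hq2]))
    obtain ⟨g, ga, gb, g1, g2⟩ := hS.ex a (u • a) q1 q2 p1 p2 p3 p4
      (nd4 (Ne.symm ha) a1 a2 b1 b2 h12) hnd
    have gi1 : g⁻¹ • p1 = a := by rw [inv_smul_eq_iff, ga]
    have gi2 : g⁻¹ • p2 = u • a := by rw [inv_smul_eq_iff, gb]
    have gi3 : g⁻¹ • p3 = q1 := by rw [inv_smul_eq_iff, g1]
    have gi4 : g⁻¹ • p4 = q2 := by rw [inv_smul_eq_iff, g2]
    have hconj : g * u * g⁻¹ = t := hS.eq4 _ _ p1 p2 p3 p4 hnd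
      (by rw [mul_smul, mul_smul, gi1, gb, ht1])
      (by rw [mul_smul, mul_smul, gi2, hua, ga, ht2])
      (by rw [mul_smul, mul_smul, gi3, hq1, g1, ht3])
      (by rw [mul_smul, mul_smul, gi4, hq2, g2, ht4])
    have h3 : t • (g • q3) = g • q3 := by
      rw [← hconj, mul_smul, mul_smul, inv_smul_smul, hq3]
    rcases hf _ h3 with h | h
    · exact h13 (inj g q1 q3 (by rw [h, g1]))
    · exact h23 (inj g q2 q3 (by rw [h, g2]))
  -- fixed point free elements of the two point stabiliser are involutions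
  have FPF : ∀ x : G, x • p3 = p3 → x • p4 = p4 → (∀ c, x • c = c → c = p3 ∨ c = p4) →
      x * x = 1 := by
    intro x x3 x4 xf
    have hx1 : x • p1 ≠ p1 := fun h => by
      rcases xf p1 h with h | h
      · exact d13 h
      · exact d14 h
    have hx13 : x • p1 ≠ p3 := fun h => d13 (inj x p1 p3 (by rw [h, x3]))
    have hx14 : x • p1 ≠ p4 := fun h => d14 (inj x p1 p4 (by rw [h, x4]))
    have ndu : [p3, p4, p1, x • p1].Nodup :=
      nd4 d34 d13.symm hx13.symm d14.symm hx14.symm (Ne.symm hx1)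
    obtain ⟨u, u3, u4, u1, u2⟩ := hS.ex p3 p4 p1 (x • p1) p3 p4 (x • p1) p1 ndu
      (nd4 d34 hx13.symm d13.symm hx14.symm d14.symm hx1)
    have uu : u * u = 1 := hS.uniq _ p3 p4 p1 (x • p1) ndu (by rw [mul_smul, u3, u3])
      (by rw [mul_smul, u4, u4]) (by rw [mul_smul, u1, u2]) (by rw [mul_smul, u2, u1])
    obtain ⟨y, hydef⟩ : ∃ y, y = u * x := ⟨_, rfl⟩
    have y1 : y • p1 = p1 := by rw [hydef, mul_smul, u2]
    have y3 : y • p3 = p3 := by rw [hydef, mul_smul, x3, u3]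
    have y4 : y • p4 = p4 := by rw [hydef, mul_smul, x4, u4]
    by_cases hy : y = 1
    · have hxu : x = u := by
        have h1 : x = u⁻¹ := eq_inv_of_mul_eq_one_right (by rw [← hydef]; exact hy)
        rw [h1]; exact inv_eq_of_mul_eq_one_right uu
      rw [hxu]; exact uu
    · exfalso
      have ymove : ∀ c, c ≠ p1 → c ≠ p3 → c ≠ p4 → y • c ≠ c := fun c c1 c3 c4 h =>
        hy (hS.uniq y p3 p4 p1 c
          (nd4 d34 d13.symm (Ne.symm c3) d14.symm (Ne.symm c4) (Ne.symm c1)) y3 y4 y1 h)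
      have yc3 : ∀ c, c ≠ p3 → y • c ≠ p3 := fun c c3 h => c3 (inj y c p3 (by rw [h, y3]))
      have yc4 : ∀ c, c ≠ p4 → y • c ≠ p4 := fun c c4 h => c4 (inj y c p4 (by rw [h, y4]))
      have hv : ∀ c : Ω, ∃ v : G, c ≠ p1 → c ≠ p3 → c ≠ p4 →
          (v • p3 = p3 ∧ v • p4 = p4 ∧ v • c = y • c ∧ v • (y • c) = c) := by
        intro c
        by_cases h : c ≠ p1 ∧ c ≠ p3 ∧ c ≠ p4
        · obtain ⟨c1, c3, c4⟩ := h
          obtain ⟨v, hv⟩ := hS.ex p3 p4 c (y • c) p3 p4 (y • c) c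
            (nd4 d34 (Ne.symm c3) (yc3 c c3).symm (Ne.symm c4) (yc4 c c4).symm
              (Ne.symm (ymove c c1 c3 c4)))
            (nd4 d34 (yc3 c c3).symm (Ne.symm c3) (yc4 c c4).symm (Ne.symm c4)
              (ymove c c1 c3 c4))
          exact ⟨v, fun _ _ _ => hv⟩
        · exact ⟨1, fun h1 h3 h4 => absurd ⟨h1, h3, h4⟩ h⟩
      choose v hv using hv
      have vv : ∀ c, c ≠ p1 → c ≠ p3 → c ≠ p4 → v c * v c = 1 := by
        intro c c1 c3 c4
        obtain ⟨v3, v4, vc, vyc⟩ := hv c c1 c3 c4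
        exact hS.uniq _ p3 p4 c (y • c)
          (nd4 d34 (Ne.symm c3) (yc3 c c3).symm (Ne.symm c4) (yc4 c c4).symm
              (Ne.symm (ymove c c1 c3 c4)))
          (by rw [mul_smul, v3, v3]) (by rw [mul_smul, v4, v4])
          (by rw [mul_smul, vc, vyc]) (by rw [mul_smul, vyc, vc])
      have v1 : ∀ c, c ≠ p1 → c ≠ p3 → c ≠ p4 → v c • p1 ≠ p1 := by
        intro c c1 c3 c4 h
        obtain ⟨v3, v4, vc, vyc⟩ := hv c c1 c3 c4
        have hne : v c ≠ 1 := by
          intro h1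
          rw [h1, one_smul] at vc
          exact ymove c c1 c3 c4 vc.symm
        exact F2 (v c) (vv c c1 c3 c4) hne p3 p4 p1 v3 v4 h d34 d13.symm d14.symm
      have v13 : ∀ c, c ≠ p1 → c ≠ p3 → c ≠ p4 → v c • p1 ≠ p3 := fun c c1 c3 c4 h =>
        d13 (inj (v c) p1 p3 (by rw [h, (hv c c1 c3 c4).1]))
      have v14 : ∀ c, c ≠ p1 → c ≠ p3 → c ≠ p4 → v c • p1 ≠ p4 := fun c c1 c3 c4 h =>
        d14 (inj (v c) p1 p4 (by rw [h, (hv c c1 c3 c4).2.1]))
      have γinj : Function.Injective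
          (fun c : {c : Ω // c ≠ p1 ∧ c ≠ p3 ∧ c ≠ p4} =>
            (⟨v c.1 • p1, v1 c.1 c.2.1 c.2.2.1 c.2.2.2, v13 c.1 c.2.1 c.2.2.1 c.2.2.2,
              v14 c.1 c.2.1 c.2.2.1 c.2.2.2⟩ : {c : Ω // c ≠ p1 ∧ c ≠ p3 ∧ c ≠ p4})) := by
        rintro ⟨c, c1, c3, c4⟩ ⟨c', c1', c3', c4'⟩ h
        have hb : v c • p1 = v c' • p1 := congrArg Subtype.val h
        obtain ⟨v3, v4, vc, vyc⟩ := hv c c1 c3 c4
        obtain ⟨v3', v4', vc', vyc'⟩ := hv c' c1' c3' c4'
        have hvb : v c • (v c • p1) = p1 := by rw [← mul_smul, vv c c1 c3 c4, one_smul]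
        have hvb' : v c' • (v c' • p1) = p1 := by rw [← mul_smul, vv c' c1' c3' c4', one_smul]
        have hveq : v c = v c' := hS.eq4 _ _ p3 p4 p1 (v c • p1)
          (nd4 d34 d13.symm (v13 c c1 c3 c4).symm d14.symm (v14 c c1 c3 c4).symm
            (v1 c c1 c3 c4).symm)
          (by rw [v3, v3']) (by rw [v4, v4']) hb (by rw [hvb, hb, hvb'])
        by_contra hne
        have hcc : c ≠ c' := fun h => hne (Subtype.ext h)
        have hyv : y = v c := hS.eq4 _ _ p3 p4 c c'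
          (nd4 d34 (Ne.symm c3) (Ne.symm c3') (Ne.symm c4) (Ne.symm c4') hcc)
          (by rw [y3, v3]) (by rw [y4, v4]) vc.symm (by rw [hveq, vc'])
        exact v1 c c1 c3 c4 (by rw [← hyv, y1])
      have γsurj := Finite.injective_iff_surjective.mp γinj
      obtain ⟨⟨c, c1, c3, c4⟩, hc⟩ := γsurj ⟨x • p1, hx1, hx13, hx14⟩
      have hc' : v c • p1 = x • p1 := congrArg Subtype.val hc
      obtain ⟨v3, v4, vc, vyc⟩ := hv c c1 c3 c4
      have hvu : v c = u := hS.eq4 _ _ p3 p4 p1 (x • p1) ndu (by rw [v3, u3]) (by rw [v4, u4])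
        (by rw [hc', u1]) (by rw [← hc', ← mul_smul, vv c c1 c3 c4, one_smul, hc', u2])
      have hxc : x • c = c := by
        apply inj u
        rw [← mul_smul, ← hydef, ← vc, hvu]
      rcases xf c hxc with h | h
      · exact c3 h
      · exact c4 h
  -- the group K
  have tmove : ∀ x, x ≠ p3 → x ≠ p4 → t • x ≠ x := fun x x3 x4 h => by
    rcases hf x h with h | h
    · exact x3 h
    · exact x4 h
  have tx3 : ∀ x, x ≠ p3 → t • x ≠ p3 := fun x x3 h => x3 (inj t x p3 (by rw [h, ht3]))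
  have tx4 : ∀ x, x ≠ p4 → t • x ≠ p4 := fun x x4 h => x4 (inj t x p4 (by rw [h, ht4]))
  have ndx : ∀ x, x ≠ p3 → x ≠ p4 → [p3, p4, x, t • x].Nodup := fun x x3 x4 =>
    nd4 d34 (Ne.symm x3) (tx3 x x3).symm (Ne.symm x4) (tx4 x x4).symm (Ne.symm (tmove x x3 x4))
  have Kex : ∀ x y : Ω, x ≠ p3 → x ≠ p4 → y ≠ p3 → y ≠ p4 →
      ∃ k : G, k • p3 = p3 ∧ k • p4 = p4 ∧ k * t = t * k ∧ k • x = y := by
    intro x y x3 x4 y3 y4
    obtain ⟨k, k3, k4, kx, ktx⟩ := hS.ex p3 p4 x (t • x) p3 p4 y (t • y) (ndx x x3 x4)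
      (ndx y y3 y4)
    refine ⟨k, k3, k4, ?_, kx⟩
    exact hS.eq4 _ _ p3 p4 x (t • x) (ndx x x3 x4)
      (by rw [mul_smul, mul_smul, ht3, k3, ht3]) (by rw [mul_smul, mul_smul, ht4, k4, ht4])
      (by rw [mul_smul, mul_smul, ktx, kx]) (by rw [mul_smul, mul_smul, ttx, ktx, ttx, kx])
  have Kuniq : ∀ k k' : G, k • p3 = p3 → k • p4 = p4 → k * t = t * k → k' • p3 = p3 →
      k' • p4 = p4 → k' * t = t * k' → ∀ x, x ≠ p3 → x ≠ p4 → k • x = k' • x → k = k' := by
    intro k k' k3 k4 kt k3' k4' kt' x x3 x4 hx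
    exact hS.eq4 _ _ p3 p4 x (t • x) (ndx x x3 x4) (by rw [k3, k3']) (by rw [k4, k4']) hx
      (by rw [← mul_smul, ← mul_smul, kt, kt', mul_smul, mul_smul, hx])
  have Ksq : ∀ k : G, k • p3 = p3 → k • p4 = p4 → k * t = t * k → k * k = 1 := by
    intro k k3 k4 kt
    by_cases h1 : k = 1
    · rw [h1, one_mul]
    · apply FPF k k3 k4
      intro c hc
      by_contra hcon
      push Not at hcon
      exact h1 (Kuniq k 1 k3 k4 kt (one_smul _ _) (one_smul _ _) (by rw [one_mul, mul_one]) c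
        hcon.1 hcon.2 (by rw [hc, one_smul]))
  have Kcomm : ∀ k k' : G, k • p3 = p3 → k • p4 = p4 → k * t = t * k → k' • p3 = p3 →
      k' • p4 = p4 → k' * t = t * k' → k * k' = k' * k := by
    intro k k' k3 k4 kt k3' k4' kt'
    have h := Ksq (k * k') (by rw [mul_smul, k3', k3]) (by rw [mul_smul, k4', k4])
      (by rw [mul_assoc, kt', ← mul_assoc, kt, mul_assoc])
    have e1 : (k * k')⁻¹ = k * k' := inv_eq_of_mul_eq_one_right h
    have e2 : k⁻¹ = k := inv_eq_of_mul_eq_one_right (Ksq k k3 k4 kt)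
    have e3 : k'⁻¹ = k' := inv_eq_of_mul_eq_one_right (Ksq k' k3' k4' kt')
    rw [← e1, mul_inv_rev, e2, e3]
  -- fixed points of s
  have s1 : s ≠ 1 := by
    intro h
    rw [h, one_smul] at hs3
    exact d34 hs3
  have sfix : ∀ x, s • x = x → x = p1 ∨ x = p2 := by
    intro x hx
    by_contra hcon
    push Not at hcon
    exact F2 s ss s1 p1 p2 x hs1 hs2 hx d12 (Ne.symm hcon.1) (Ne.symm hcon.2)
  have Ccase : ∀ k : G, k • p3 = p3 → k • p4 = p4 → k * t = t * k → s * k = k * s →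
      k = 1 ∨ k = t := by
    intro k k3 k4 kt sk
    have h1 : s • (k • p1) = k • p1 := by rw [← mul_smul, sk, mul_smul, hs1]
    rcases sfix _ h1 with h | h
    · left
      exact Kuniq k 1 k3 k4 kt (one_smul _ _) (one_smul _ _) (by rw [one_mul, mul_one]) p1
        d13 d14 (by rw [h, one_smul])
    · right
      exact Kuniq k t k3 k4 kt ht3 ht4 rfl p1 d13 d14 (by rw [h, ht1])
  have sK : ∀ k : G, k • p3 = p3 → k • p4 = p4 → k * t = t * k →
      (s * k * s) • p3 = p3 ∧ (s * k * s) • p4 = p4 ∧ (s * k * s) * t = t * (s * k * s) := by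
    intro k k3 k4 kt
    refine ⟨by rw [mul_smul, mul_smul, hs3, k4, hs4], by rw [mul_smul, mul_smul, hs4, k3, hs3], ?_⟩
    calc s * k * s * t = s * k * (s * t) := by simp only [mul_assoc]
      _ = s * k * (t * s) := by rw [st]
      _ = s * (k * t) * s := by simp only [mul_assoc]
      _ = s * (t * k) * s := by rw [kt]
      _ = (s * t) * k * s := by simp only [mul_assoc]
      _ = t * s * k * s := by rw [st]
      _ = t * (s * k * s) := by simp only [mul_assoc]
  have Kdich : ∀ k : G, k • p3 = p3 → k • p4 = p4 → k * t = t * k → k ≠ 1 → k ≠ t →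
      s * k * s = k * t := by
    intro k k3 k4 kt k1 kne
    obtain ⟨c3, c4, ct⟩ := sK k k3 k4 kt
    have m3 : (k * (s * k * s)) • p3 = p3 := by rw [mul_smul, c3, k3]
    have m4 : (k * (s * k * s)) • p4 = p4 := by rw [mul_smul, c4, k4]
    have mt : (k * (s * k * s)) * t = t * (k * (s * k * s)) := by
      rw [mul_assoc, ct, ← mul_assoc, kt, mul_assoc]
    have hc := Kcomm (s * k * s) k c3 c4 ct k3 k4 kt
    have ms : s * (k * (s * k * s)) = (k * (s * k * s)) * s := by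
      calc s * (k * (s * k * s)) = (s * k * s) * k * s := by simp only [mul_assoc]
        _ = k * (s * k * s) * s := by rw [hc]
    have hk := Ksq k k3 k4 kt
    rcases Ccase _ m3 m4 mt ms with h | h
    · exfalso
      have e : s * k * s = k := by
        have h' : s * k * s = k⁻¹ := eq_inv_of_mul_eq_one_right h
        rw [h']; exact inv_eq_of_mul_eq_one_right hk
      have sk : s * k = k * s := by
        calc s * k = s * k * (s * s) := by rw [ss, mul_one]
          _ = (s * k * s) * s := by simp only [mul_assoc]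
          _ = k * s := by rw [e]
      rcases Ccase k k3 k4 kt sk with h | h
      · exact k1 h
      · exact kne h
    · calc s * k * s = (k * k) * (s * k * s) := by rw [hk, one_mul]
        _ = k * (k * (s * k * s)) := by simp only [mul_assoc]
        _ = k * t := by rw [h]
  by_contra hcon
  push Not at hcon
  obtain ⟨y1, y2, y3, y4, y5, y6⟩ := hcon
  obtain ⟨k, k3, k4, kt, kx⟩ := Kex p1 x5 d13 d14 h53 h54
  obtain ⟨k', k3', k4', kt', ky⟩ := Kex p1 y d13 d14 y3 y4
  have k1 : k ≠ 1 := by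
    rintro rfl
    rw [one_smul] at kx
    exact h51 kx.symm
  have kne : k ≠ t := by
    rintro rfl
    rw [ht1] at kx
    exact h52 kx.symm
  have k1' : k' ≠ 1 := by
    rintro rfl
    rw [one_smul] at ky
    exact y1 ky.symm
  have kne' : k' ≠ t := by
    rintro rfl
    rw [ht1] at ky
    exact y2 ky.symm
  have e := Kdich k k3 k4 kt k1 kne
  have e' := Kdich k' k3' k4' kt' k1' kne'
  have sk : s * k = k * t * s := by
    calc s * k = s * k * (s * s) := by rw [ss, mul_one]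
      _ = (s * k * s) * s := by simp only [mul_assoc]
      _ = k * t * s := by rw [e]
  have sk' : s * k' = k' * t * s := by
    calc s * k' = s * k' * (s * s) := by rw [ss, mul_one]
      _ = (s * k' * s) * s := by simp only [mul_assoc]
      _ = k' * t * s := by rw [e']
  have ms : s * (k * k') = (k * k') * s := by
    calc s * (k * k') = (s * k) * k' := by rw [mul_assoc]
      _ = k * t * s * k' := by rw [sk]
      _ = k * t * (s * k') := by simp only [mul_assoc]
      _ = k * t * (k' * t * s) := by rw [sk']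
      _ = k * (t * k') * t * s := by simp only [mul_assoc]
      _ = k * (k' * t) * t * s := by rw [kt']
      _ = k * k' * (t * t) * s := by simp only [mul_assoc]
      _ = k * k' * s := by rw [tt, mul_one]
  have hk := Ksq k k3 k4 kt
  rcases Ccase (k * k') (by rw [mul_smul, k3', k3]) (by rw [mul_smul, k4', k4])
    (by rw [mul_assoc, kt', ← mul_assoc, kt, mul_assoc]) ms with h | h
  · have hkk : k' = k := by
      have h1 : k' = k⁻¹ := eq_inv_of_mul_eq_one_right h
      rw [h1]; exact inv_eq_of_mul_eq_one_right hk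
    rw [hkk, kx] at ky
    exact y5 ky.symm
  · have hkk : k' = k * t := by
      calc k' = (k * k) * k' := by rw [hk, one_mul]
        _ = k * (k * k') := by rw [mul_assoc]
        _ = k * t := by rw [h]
    have hy : y = t • x5 := by rw [← ky, hkk, kt, mul_smul, kx]
    exact y6 hy


theorem jordan [Finite Ω] (hS : S4T G Ω) (h4 : 4 ≤ Nat.card Ω) :
    Nat.card Ω = 4 ∨ Nat.card Ω = 5 ∨ Nat.card Ω = 6 ∨ Nat.card Ω = 11 := by
  classical
  haveI := Fintype.ofFinite Ω
  rw [Nat.card_eq_fintype_card] at h4 ⊢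
  obtain ⟨f⟩ : Nonempty (Fin 4 ↪ Ω) :=
    Function.Embedding.nonempty_of_card_le (by simpa using h4)
  obtain ⟨p1, p2, p3, p4, d12, d13, d14, d23, d24, d34⟩ : ∃ p1 p2 p3 p4 : Ω,
      p1 ≠ p2 ∧ p1 ≠ p3 ∧ p1 ≠ p4 ∧ p2 ≠ p3 ∧ p2 ≠ p4 ∧ p3 ≠ p4 :=
    ⟨f 0, f 1, f 2, f 3, f.injective.ne (by decide), f.injective.ne (by decide),
      f.injective.ne (by decide), f.injective.ne (by decide), f.injective.ne (by decide),
      f.injective.ne (by decide)⟩
  have hnd := nd4 d12 d13 d14 d23 d24 d34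
  obtain ⟨t, ht1, ht2, ht3, ht4⟩ := hS.ex p1 p2 p3 p4 p2 p1 p3 p4 hnd
    (nd4 d12.symm d23 d24 d13 d14 d34)
  obtain ⟨s, hs1, hs2, hs3, hs4⟩ := hS.ex p1 p2 p3 p4 p1 p2 p4 p3 hnd
    (nd4 d12 d14 d13 d24 d23 d34.symm)
  by_cases hfix : ∃ e, e ≠ p3 ∧ e ≠ p4 ∧ t • e = e
  · obtain ⟨e, e3, e4, hte⟩ := hfix
    have e1 : e ≠ p1 := by
      rintro rfl
      rw [ht1] at hte
      exact d12 hte.symm
    have e2 : e ≠ p2 := by
      rintro rfl
      rw [ht2] at hte
      exact d12 hte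
    have h := case3 hS p1 p2 p3 p4 e (by grind) t s ht1 ht2 ht3 ht4 hte hs1 hs2 hs3 hs4
    omega
  · push Not at hfix
    have hf : ∀ x, t • x = x → x = p3 ∨ x = p4 := by
      intro x hx
      by_contra hcon
      push Not at hcon
      exact hfix x hcon.1 hcon.2 hx
    by_cases h5 : ∃ x5, x5 ≠ p1 ∧ x5 ≠ p2 ∧ x5 ≠ p3 ∧ x5 ≠ p4
    · obtain ⟨x5, h51, h52, h53, h54⟩ := h5
      have hsub : (Finset.univ : Finset Ω) ⊆ [p1, p2, p3, p4, x5, t • x5].toFinset := by
        intro y _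
        have := case2 hS p1 p2 p3 p4 hnd t s ht1 ht2 ht3 ht4 hs1 hs2 hs3 hs4 hf x5 y
          h51 h52 h53 h54
        simpa using this
      have hcard := Finset.card_le_card hsub
      have hlen := List.toFinset_card_le [p1, p2, p3, p4, x5, t • x5]
      rw [Finset.card_univ] at hcard
      simp only [List.length_cons, List.length_nil] at hlen
      omega
    · push Not at h5
      have hsub : (Finset.univ : Finset Ω) ⊆ [p1, p2, p3, p4].toFinset := by
        intro y _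
        have := h5 y
        simp only [List.toFinset_cons, List.toFinset_nil, Finset.mem_insert,
          Finset.mem_singleton, insert_empty_eq]
        tauto
      have hcard := Finset.card_le_card hsub
      have hlen := List.toFinset_card_le [p1, p2, p3, p4]
      rw [Finset.card_univ] at hcard
      simp only [List.length_cons, List.length_nil] at hlen
      omega

end core

/-- Degrees of sharply 4-transitive permutation groups are 4, 5, 6, 11. -/
theorem result {α : Type*} [Fintype α] [DecidableEq α] (G : Subgroup (Equiv.Perm α)) (h4 : 4 ≤ Fintype.card α) [MulAction.IsMultiplyPretransitive G α 4] (hsharp : ∀ x : Fin 4 ↪ α, MulAction.stabilizer G x = ⊥) : Fintype.card α = 4 ∨ Fintype.card α = 5 ∨ Fintype.card α = 6 ∨ Fintype.card α = 11 := by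
  have hS : S4T G α := S4T.of_sharp inferInstance hsharp
  have h := jordan hS (by rw [Nat.card_eq_fintype_card]; exact h4)
  rwa [Nat.card_eq_fintype_card] at h

end Cfsg.Agent.S0415
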