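import Cfsg.Statements.S0416
import Mathlib
import Cfsg.Agent.S0415

set_option autoImplicit false
open Cfsg

namespace Cfsg.Agent.S0416

open MulAction SubMulAction

/-- Sharply `k`-transitive actions. -/
def Sharp (G Ω : Type*) [Group G] [MulAction G Ω] (k : ℕ) : Prop :=
  IsMultiplyPretransitive G Ω k ∧ ∀ x : Fin k ↪ Ω, stabilizer G x = ⊥

theorem Sharp.stab {G Ω : Type*} [Group G] [MulAction G Ω] [Finite Ω] {k : ℕ}
    (h : Sharp G Ω (k + 1)) (hc : k + 1 ≤ Nat.card Ω) (a : Ω) :
    Sharp (stabilizer G a) (ofStabilizer G a) k := by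
  obtain ⟨h1, h2⟩ := h
  have := h1
  have : IsPretransitive G Ω := is_one_pretransitive_iff.mp
    (isMultiplyPretransitive_of_le (m := 1) (n := k + 1) (by omega) hc)
  refine ⟨ofStabilizer.isMultiplyPretransitive.mp h1, ?_⟩
  intro x
  rw [eq_bot_iff]
  intro g hg
  rw [mem_stabilizer_iff] at hg
  have hmem : (g : G) ∈ stabilizer G (ofStabilizer.snoc x) := by
    rw [mem_stabilizer_iff]
    ext i
    rw [Function.Embedding.smul_apply]
    rcases Fin.eq_castSucc_or_eq_last i with ⟨i, rfl⟩ | rfl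
    · rw [ofStabilizer.snoc_castSucc]
      have := congrArg (fun y => ((y i : ofStabilizer G a) : Ω)) hg
      simp only [Function.Embedding.smul_apply] at this
      exact this
    · rw [ofStabilizer.snoc_last]
      exact g.2
  rw [h2] at hmem
  exact Subtype.ext (Subgroup.mem_bot.mp hmem)

theorem five {G Ω : Type*} [Group G] [MulAction G Ω] [Finite Ω]
    (h : Sharp G Ω 5) (hc : 5 ≤ Nat.card Ω) :
    Nat.card Ω = 5 ∨ Nat.card Ω = 6 ∨ Nat.card Ω = 7 ∨ Nat.card Ω = 12 := by
  have hpos : 0 < Nat.card Ω := by omega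
  obtain ⟨a⟩ : Nonempty Ω := (Nat.card_pos_iff.mp hpos).1
  have hst := Sharp.stab (k := 4) h hc a
  have hcard := nat_card_ofStabilizer_eq G a
  have hJ := Cfsg.Agent.S0415.jordan (Cfsg.Agent.S0415.S4T.of_sharp hst.1 hst.2) (by omega)
  omega

/-- Degrees of sharply 5-transitive permutation groups are 5, 6, 7, 12. -/
theorem result {α : Type*} [Fintype α] [DecidableEq α] (G : Subgroup (Equiv.Perm α)) (h5 : 5 ≤ Fintype.card α) [MulAction.IsMultiplyPretransitive G α 5] (hsharp : ∀ x : Fin 5 ↪ α, MulAction.stabilizer G x = ⊥) : Fintype.card α = 5 ∨ Fintype.card α = 6 ∨ Fintype.card α = 7 ∨ Fintype.card α = 12 := by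
  have hS : Sharp G α 5 := ⟨inferInstance, hsharp⟩
  have h := five hS (by rw [Nat.card_eq_fintype_card]; exact h5)
  rwa [Nat.card_eq_fintype_card] at h

end Cfsg.Agent.S0416
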