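import Cfsg.Statements.S0417
import Mathlib
import Cfsg.Agent.S0416

set_option autoImplicit false
open Cfsg

namespace Cfsg.Agent.S0417

open MulAction SubMulAction

universe u v

section six

variable {G : Type u} {Ω : Type v} [Group G] [MulAction G Ω]

theorem nd6_iff {a b c d e f : Ω} : [a, b, c, d, e, f].Nodup ↔
    (a ≠ b ∧ a ≠ c ∧ a ≠ d ∧ a ≠ e ∧ a ≠ f) ∧ (b ≠ c ∧ b ≠ d ∧ b ≠ e ∧ b ≠ f) ∧
      (c ≠ d ∧ c ≠ e ∧ c ≠ f) ∧ (d ≠ e ∧ d ≠ f) ∧ e ≠ f := by
  simp only [List.nodup_cons, List.mem_cons, List.not_mem_nil, or_false, not_or, List.nodup_nil,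
    and_true, not_false_eq_true, ne_eq]

theorem nd4_iff {a b c d : Ω} : [a, b, c, d].Nodup ↔
    (a ≠ b ∧ a ≠ c ∧ a ≠ d) ∧ (b ≠ c ∧ b ≠ d) ∧ c ≠ d := by
  simp only [List.nodup_cons, List.mem_cons, List.not_mem_nil, or_false, not_or, List.nodup_nil,
    and_true, not_false_eq_true, ne_eq]

theorem nd6 {a b c d e f : Ω} (h1 : a ≠ b) (h2 : a ≠ c) (h3 : a ≠ d) (h4 : a ≠ e) (h5 : a ≠ f)
    (h6 : b ≠ c) (h7 : b ≠ d) (h8 : b ≠ e) (h9 : b ≠ f) (h10 : c ≠ d) (h11 : c ≠ e)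
    (h12 : c ≠ f) (h13 : d ≠ e) (h14 : d ≠ f) (h15 : e ≠ f) : [a, b, c, d, e, f].Nodup :=
  nd6_iff.mpr ⟨⟨h1, h2, h3, h4, h5⟩, ⟨h6, h7, h8, h9⟩, ⟨h10, h11, h12⟩, ⟨h13, h14⟩, h15⟩

theorem nd4 {a b c d : Ω} (h1 : a ≠ b) (h2 : a ≠ c) (h3 : a ≠ d) (h4 : b ≠ c) (h5 : b ≠ d)
    (h6 : c ≠ d) : [a, b, c, d].Nodup :=
  nd4_iff.mpr ⟨⟨h1, h2, h3⟩, ⟨h4, h5⟩, h6⟩

theorem emb6 (a b c d e f : Ω) (h : [a, b, c, d, e, f].Nodup) :
    ∃ x : Fin 6 ↪ Ω, x 0 = a ∧ x 1 = b ∧ x 2 = c ∧ x 3 = d ∧ x 4 = e ∧ x 5 = f :=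
  ⟨⟨fun i : Fin 6 => [a, b, c, d, e, f].get i, List.nodup_iff_injective_get.mp h⟩,
    rfl, rfl, rfl, rfl, rfl, rfl⟩

theorem ex6 (h : Cfsg.Agent.S0416.Sharp G Ω 6) (a1 a2 a3 a4 a5 a6 b1 b2 b3 b4 b5 b6 : Ω)
    (ha : [a1, a2, a3, a4, a5, a6].Nodup) (hb : [b1, b2, b3, b4, b5, b6].Nodup) :
    ∃ g : G, g • a1 = b1 ∧ g • a2 = b2 ∧ g • a3 = b3 ∧ g • a4 = b4 ∧ g • a5 = b5 ∧
      g • a6 = b6 := by
  obtain ⟨x, hx0, hx1, hx2, hx3, hx4, hx5⟩ := emb6 a1 a2 a3 a4 a5 a6 ha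
  obtain ⟨y, hy0, hy1, hy2, hy3, hy4, hy5⟩ := emb6 b1 b2 b3 b4 b5 b6 hb
  have := h.1
  obtain ⟨g, hg⟩ := MulAction.exists_smul_eq G x y
  refine ⟨g, ?_, ?_, ?_, ?_, ?_, ?_⟩
  · rw [← hx0, ← hy0, ← hg]; rfl
  · rw [← hx1, ← hy1, ← hg]; rfl
  · rw [← hx2, ← hy2, ← hg]; rfl
  · rw [← hx3, ← hy3, ← hg]; rfl
  · rw [← hx4, ← hy4, ← hg]; rfl
  · rw [← hx5, ← hy5, ← hg]; rfl

theorem uniqFin (h : Cfsg.Agent.S0416.Sharp G Ω 6) (g : G) (s : Finset Ω) (hs : 6 ≤ s.card)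
    (hfix : ∀ x ∈ s, g • x = x) : g = 1 := by
  obtain ⟨f⟩ : Nonempty (Fin 6 ↪ s) :=
    Function.Embedding.nonempty_of_card_le (by simpa using hs)
  have hmem : g ∈ stabilizer G (f.trans (Function.Embedding.subtype _)) := by
    rw [mem_stabilizer_iff]
    ext i
    rw [Function.Embedding.smul_apply]
    exact hfix _ (f i).2
  rw [h.2] at hmem
  exact Subgroup.mem_bot.mp hmem

theorem uniq6 (h : Cfsg.Agent.S0416.Sharp G Ω 6) (g : G) (a1 a2 a3 a4 a5 a6 : Ω)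
    (ha : [a1, a2, a3, a4, a5, a6].Nodup) (h1 : g • a1 = a1) (h2 : g • a2 = a2)
    (h3 : g • a3 = a3) (h4 : g • a4 = a4) (h5 : g • a5 = a5) (h6 : g • a6 = a6) : g = 1 := by
  obtain ⟨x, hx0, hx1, hx2, hx3, hx4, hx5⟩ := emb6 a1 a2 a3 a4 a5 a6 ha
  have hmem : g ∈ stabilizer G x := by
    rw [mem_stabilizer_iff]
    ext i
    rw [Function.Embedding.smul_apply]
    fin_cases i
    · show g • x 0 = x 0
      rw [hx0, h1]
    · show g • x 1 = x 1
      rw [hx1, h2]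
    · show g • x 2 = x 2
      rw [hx2, h3]
    · show g • x 3 = x 3
      rw [hx3, h4]
    · show g • x 4 = x 4
      rw [hx4, h5]
    · show g • x 5 = x 5
      rw [hx5, h6]
  rw [h.2] at hmem
  exact Subgroup.mem_bot.mp hmem

theorem eq6 (h : Cfsg.Agent.S0416.Sharp G Ω 6) (g g' : G) (a1 a2 a3 a4 a5 a6 : Ω)
    (ha : [a1, a2, a3, a4, a5, a6].Nodup) (h1 : g • a1 = g' • a1) (h2 : g • a2 = g' • a2)
    (h3 : g • a3 = g' • a3) (h4 : g • a4 = g' • a4) (h5 : g • a5 = g' • a5)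
    (h6 : g • a6 = g' • a6) : g = g' := by
  have hh := uniq6 h (g'⁻¹ * g) a1 a2 a3 a4 a5 a6 ha (by rw [mul_smul, h1, inv_smul_smul])
    (by rw [mul_smul, h2, inv_smul_smul]) (by rw [mul_smul, h3, inv_smul_smul])
    (by rw [mul_smul, h4, inv_smul_smul]) (by rw [mul_smul, h5, inv_smul_smul])
    (by rw [mul_smul, h6, inv_smul_smul])
  exact (inv_mul_eq_one.mp hh).symm

set_option maxHeartbeats 1600000 in
theorem no13 [Fintype Ω] [DecidableEq Ω] (hS : Cfsg.Agent.S0416.Sharp G Ω 6)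
    (hcard : Fintype.card Ω = 13) : False := by
  have inj : ∀ (g : G) (x y : Ω), g • x = g • y → x = y := fun g x y h => MulAction.injective g h
  obtain ⟨f⟩ : Nonempty (Fin 6 ↪ Ω) :=
    Function.Embedding.nonempty_of_card_le (by simp [hcard])
  obtain ⟨a1, a2, b1, b2, b3, b4, hnd⟩ : ∃ a1 a2 b1 b2 b3 b4 : Ω,
      [a1, a2, b1, b2, b3, b4].Nodup :=
    ⟨f 0, f 1, f 2, f 3, f 4, f 5, by simp [f.injective.eq_iff]⟩
  obtain ⟨⟨da12, da1b1, da1b2, da1b3, da1b4⟩, ⟨da2b1, da2b2, da2b3, da2b4⟩, ⟨db12, db13, db14⟩,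
    ⟨db23, db24⟩, db34⟩ := nd6_iff.mp hnd
  obtain ⟨x, x1, x2, x3, x4, x5, x6⟩ := ex6 hS a1 a2 b1 b2 b3 b4 a2 a1 b1 b2 b3 b4 hnd
    (by apply nd6 <;> first | assumption | exact Ne.symm (by assumption))
  have xx : x * x = 1 := uniq6 hS _ a1 a2 b1 b2 b3 b4 hnd (by rw [mul_smul, x1, x2])
    (by rw [mul_smul, x2, x1]) (by rw [mul_smul, x3, x3]) (by rw [mul_smul, x4, x4])
    (by rw [mul_smul, x5, x5]) (by rw [mul_smul, x6, x6])
  have x_ne : x ≠ 1 := by
    intro h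
    rw [h, one_smul] at x1
    exact da12 x1
  -- parity
  have hmemfix : ∀ z, z ∈ (MulAction.toPerm x : Equiv.Perm Ω).supportᶜ ↔ x • z = z := by
    intro z
    simp [Equiv.Perm.mem_support]
  have hpar : ((MulAction.toPerm x : Equiv.Perm Ω).supportᶜ).card % 2 = 1 := by
    have : Fact (Nat.Prime 2) := ⟨Nat.prime_two⟩
    have h1 := Equiv.Perm.card_compl_support_modEq (p := 2) (n := 1)
      (σ := (MulAction.toPerm x : Equiv.Perm Ω)) (by
        rw [pow_one, sq]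
        ext z
        simp only [Equiv.Perm.coe_mul, Function.comp_apply, MulAction.toPerm_apply,
          Equiv.Perm.coe_one, id_eq]
        rw [← mul_smul, xx, one_smul])
    rw [hcard] at h1
    unfold Nat.ModEq at h1
    omega
  have hsub : ([b1, b2, b3, b4].toFinset : Finset Ω) ⊆
      (MulAction.toPerm x : Equiv.Perm Ω).supportᶜ := by
    intro z hz
    rw [hmemfix]
    simp only [List.toFinset_cons, List.toFinset_nil, Finset.mem_insert, Finset.mem_singleton,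
      insert_empty_eq] at hz
    rcases hz with rfl | rfl | rfl | rfl <;> assumption
  have hc4 : ([b1, b2, b3, b4].toFinset : Finset Ω).card = 4 :=
    List.toFinset_card_of_nodup (by apply nd4 <;> first | assumption | exact Ne.symm (by assumption))
  have hlt : ([b1, b2, b3, b4].toFinset : Finset Ω).card <
      ((MulAction.toPerm x : Equiv.Perm Ω).supportᶜ).card := by
    have := Finset.card_le_card hsub
    omega
  obtain ⟨b5, hb5, hb5'⟩ := Finset.exists_mem_notMem_of_card_lt_card hlt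
  rw [hmemfix] at hb5
  simp only [List.toFinset_cons, List.toFinset_nil, Finset.mem_insert, Finset.mem_singleton,
      insert_empty_eq, not_or] at hb5'
  obtain ⟨b51, b52, b53, b54⟩ := hb5'
  have b5a1 : b5 ≠ a1 := by
    rintro rfl
    rw [x1] at hb5
    exact da12 hb5.symm
  have b5a2 : b5 ≠ a2 := by
    rintro rfl
    rw [x2] at hb5
    exact da12 hb5
  have fixx : ∀ z, x • z = z → z = b1 ∨ z = b2 ∨ z = b3 ∨ z = b4 ∨ z = b5 := by
    intro z hz
    by_contra hcon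
    push Not at hcon
    obtain ⟨z1, z2, z3, z4, z5⟩ := hcon
    exact x_ne (uniq6 hS x b1 b2 b3 b4 b5 z (by apply nd6 <;> first | assumption | exact Ne.symm (by assumption)) x3 x4 x5 x6 hb5 hz)
  -- the element of order 5
  have ndb6 : [b1, b2, b3, b4, b5, a1].Nodup := by apply nd6 <;> first | assumption | exact Ne.symm (by assumption)
  obtain ⟨g, g1, g2, g3, g4, g5, g6⟩ := ex6 hS b1 b2 b3 b4 b5 a1 b2 b3 b4 b5 b1 a1 ndb6
    (by apply nd6 <;> first | assumption | exact Ne.symm (by assumption))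
  have g_ne : g ≠ 1 := by
    intro h
    rw [h, one_smul] at g1
    exact db12 g1
  have gpow5 : g * g * g * g * g = 1 := uniq6 hS _ b1 b2 b3 b4 b5 a1 ndb6
    (by simp only [mul_smul, g1, g2, g3, g4, g5]) (by simp only [mul_smul, g1, g2, g3, g4, g5])
    (by simp only [mul_smul, g1, g2, g3, g4, g5]) (by simp only [mul_smul, g1, g2, g3, g4, g5])
    (by simp only [mul_smul, g1, g2, g3, g4, g5]) (by simp only [mul_smul, g6])
  have gi1 : g⁻¹ • b2 = b1 := by rw [inv_smul_eq_iff, g1]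
  have gi2 : g⁻¹ • b3 = b2 := by rw [inv_smul_eq_iff, g2]
  have gi3 : g⁻¹ • b4 = b3 := by rw [inv_smul_eq_iff, g3]
  have gi4 : g⁻¹ • b5 = b4 := by rw [inv_smul_eq_iff, g4]
  have gi5 : g⁻¹ • b1 = b5 := by rw [inv_smul_eq_iff, g5]
  obtain ⟨x', hx'⟩ : ∃ x', x' = g * x * g⁻¹ := ⟨_, rfl⟩
  have x'1 : x' • b1 = b1 := by rw [hx', mul_smul, mul_smul, gi5, hb5, g5]
  have x'2 : x' • b2 = b2 := by rw [hx', mul_smul, mul_smul, gi1, x3, g1]
  have x'3 : x' • b3 = b3 := by rw [hx', mul_smul, mul_smul, gi2, x4, g2]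
  have x'4 : x' • b4 = b4 := by rw [hx', mul_smul, mul_smul, gi3, x5, g3]
  have x'5 : x' • b5 = b5 := by rw [hx', mul_smul, mul_smul, gi4, x6, g4]
  have x'x' : x' * x' = 1 := by
    have e : g * x * g⁻¹ * (g * x * g⁻¹) = g * (x * x) * g⁻¹ := by group
    rw [hx', e, xx]
    group
  have x'_ne : x' ≠ 1 := by
    intro h
    apply x_ne
    have e : x = g⁻¹ * (g * x * g⁻¹) * g := by group
    rw [e, ← hx', h]
    group
  have c_ne1 : x' • a1 ≠ a1 := fun h =>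
    x'_ne (uniq6 hS x' b1 b2 b3 b4 b5 a1 ndb6 x'1 x'2 x'3 x'4 x'5 h)
  have cb1 : x' • a1 ≠ b1 := fun h => da1b1 (inj x' a1 b1 (by rw [h, x'1]))
  have cb2 : x' • a1 ≠ b2 := fun h => da1b2 (inj x' a1 b2 (by rw [h, x'2]))
  have cb3 : x' • a1 ≠ b3 := fun h => da1b3 (inj x' a1 b3 (by rw [h, x'3]))
  have cb4 : x' • a1 ≠ b4 := fun h => da1b4 (inj x' a1 b4 (by rw [h, x'4]))
  have ndc : [b1, b2, b3, b4, a1, x' • a1].Nodup := by apply nd6 <;> first | assumption | exact Ne.symm (by assumption)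
  obtain ⟨h, h1, h2, h3, h4, h5, h6⟩ := ex6 hS b1 b2 b3 b4 a1 a2 b1 b2 b3 b4 a1 (x' • a1)
    (by apply nd6 <;> first | assumption | exact Ne.symm (by assumption)) ndc
  have hi1 : h⁻¹ • b1 = b1 := by rw [inv_smul_eq_iff, h1]
  have hi2 : h⁻¹ • b2 = b2 := by rw [inv_smul_eq_iff, h2]
  have hi3 : h⁻¹ • b3 = b3 := by rw [inv_smul_eq_iff, h3]
  have hi4 : h⁻¹ • b4 = b4 := by rw [inv_smul_eq_iff, h4]
  have hi5 : h⁻¹ • a1 = a1 := by rw [inv_smul_eq_iff, h5]
  have hi6 : h⁻¹ • (x' • a1) = a2 := by rw [inv_smul_eq_iff, h6]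
  have x'c : x' • (x' • a1) = a1 := by rw [← mul_smul, x'x', one_smul]
  have hconj : h * x * h⁻¹ = x' := eq6 hS _ _ b1 b2 b3 b4 a1 (x' • a1) ndc
    (by rw [mul_smul, mul_smul, hi1, x3, h1, x'1]) (by rw [mul_smul, mul_smul, hi2, x4, h2, x'2])
    (by rw [mul_smul, mul_smul, hi3, x5, h3, x'3]) (by rw [mul_smul, mul_smul, hi4, x6, h4, x'4])
    (by rw [mul_smul, mul_smul, hi5, x1, h6]) (by rw [mul_smul, mul_smul, hi6, x2, h5, x'c])
  have hb5fix : x' • (h • b5) = h • b5 := by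
    rw [← hconj, mul_smul, mul_smul, inv_smul_smul, hb5]
  have hb5eq : h • b5 = b5 := by
    by_contra hne
    have n1 : h • b5 ≠ b1 := fun e => b51 (inj h b5 b1 (by rw [e, h1]))
    have n2 : h • b5 ≠ b2 := fun e => b52 (inj h b5 b2 (by rw [e, h2]))
    have n3 : h • b5 ≠ b3 := fun e => b53 (inj h b5 b3 (by rw [e, h3]))
    have n4 : h • b5 ≠ b4 := fun e => b54 (inj h b5 b4 (by rw [e, h4]))
    exact x'_ne (uniq6 hS x' b1 b2 b3 b4 b5 (h • b5) (by apply nd6 <;> first | assumption | exact Ne.symm (by assumption)) x'1 x'2 x'3 x'4 x'5 hb5fix)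
  have h_one : h = 1 := uniq6 hS h b1 b2 b3 b4 b5 a1 ndb6 h1 h2 h3 h4 hb5eq h5
  have hxx' : x' = x := by
    rw [← hconj, h_one]
    simp
  have gx : g * x = x * g := by
    have e : g * x = (g * x * g⁻¹) * g := by group
    rw [e, ← hx', hxx']
  have ga2 : g • a2 = a2 := by rw [← x1, ← mul_smul, gx, mul_smul, g6]
  -- fixed points of g
  have hmemg : ∀ z, z ∈ (MulAction.toPerm g : Equiv.Perm Ω).supportᶜ ↔ g • z = z := by
    intro z
    simp [Equiv.Perm.mem_support]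
  have hmod : ((MulAction.toPerm g : Equiv.Perm Ω).supportᶜ).card % 5 = 3 := by
    have : Fact (Nat.Prime 5) := ⟨by norm_num⟩
    have h1 := Equiv.Perm.card_compl_support_modEq (p := 5) (n := 1)
      (σ := (MulAction.toPerm g : Equiv.Perm Ω)) (by
        rw [pow_one]
        ext z
        simp only [pow_succ, pow_zero, one_mul, Equiv.Perm.coe_mul, Function.comp_apply,
          MulAction.toPerm_apply, Equiv.Perm.coe_one, id_eq]
        rw [← mul_smul, ← mul_smul, ← mul_smul, ← mul_smul, gpow5, one_smul])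
    rw [hcard] at h1
    unfold Nat.ModEq at h1
    omega
  have hsub2 : ({a1, a2} : Finset Ω) ⊆ (MulAction.toPerm g : Equiv.Perm Ω).supportᶜ := by
    intro z hz
    rw [hmemg]
    simp only [Finset.mem_insert, Finset.mem_singleton] at hz
    rcases hz with rfl | rfl <;> assumption
  have hlt2 : ({a1, a2} : Finset Ω).card <
      ((MulAction.toPerm g : Equiv.Perm Ω).supportᶜ).card := by
    have := Finset.card_le_card hsub2
    rw [Finset.card_pair da12] at this ⊢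
    omega
  obtain ⟨c, hc, hc'⟩ := Finset.exists_mem_notMem_of_card_lt_card hlt2
  rw [hmemg] at hc
  simp only [Finset.mem_insert, Finset.mem_singleton, not_or] at hc'
  obtain ⟨ca1, ca2⟩ := hc'
  have gxc : g • (x • c) = x • c := by rw [← mul_smul, gx, mul_smul, hc]
  have xc_ne : x • c ≠ c := by
    intro e
    rcases fixx c e with rfl | rfl | rfl | rfl | rfl
    · rw [g1] at hc
      exact db12 hc.symm
    · rw [g2] at hc
      exact db23 hc.symm
    · rw [g3] at hc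
      exact db34 hc.symm
    · rw [g4] at hc
      exact b54 hc
    · rw [g5] at hc
      exact b51 hc.symm
  have xc1 : x • c ≠ a1 := fun e => ca2 (inj x c a2 (by rw [e, x2]))
  have xc2 : x • c ≠ a2 := fun e => ca1 (inj x c a1 (by rw [e, x1]))
  have hsub3 : ([a1, a2, c, x • c].toFinset : Finset Ω) ⊆
      (MulAction.toPerm g : Equiv.Perm Ω).supportᶜ := by
    intro z hz
    rw [hmemg]
    simp only [List.toFinset_cons, List.toFinset_nil, Finset.mem_insert, Finset.mem_singleton,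
      insert_empty_eq] at hz
    rcases hz with rfl | rfl | rfl | rfl <;> assumption
  have hc4' : ([a1, a2, c, x • c].toFinset : Finset Ω).card = 4 :=
    List.toFinset_card_of_nodup (by apply nd4 <;> first | assumption | exact Ne.symm (by assumption))
  have h6 : 6 ≤ ((MulAction.toPerm g : Equiv.Perm Ω).supportᶜ).card := by
    have := Finset.card_le_card hsub3
    omega
  exact g_ne (uniqFin hS g _ h6 (fun z hz => (hmemg z).mp hz))

end six

theorem main (k : ℕ) (hk : 6 ≤ k) : ∀ (G : Type u) (Ω : Type v) [Group G] [MulAction G Ω]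
    [Finite Ω], Cfsg.Agent.S0416.Sharp G Ω k → k ≤ Nat.card Ω →
    Nat.card Ω = k ∨ Nat.card Ω = k + 1 ∨ Nat.card Ω = k + 2 := by
  induction k, hk using Nat.le_induction with
  | base =>
    intro G Ω _ _ _ h hc
    have hpos : 0 < Nat.card Ω := by omega
    obtain ⟨a⟩ : Nonempty Ω := (Nat.card_pos_iff.mp hpos).1
    have hst := Cfsg.Agent.S0416.Sharp.stab (k := 5) h hc a
    have hcard := nat_card_ofStabilizer_eq G a
    have h5 := Cfsg.Agent.S0416.five hst (by omega)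
    by_cases h13 : Nat.card Ω = 13
    · exfalso
      classical
      have := Fintype.ofFinite Ω
      exact no13 h (by rw [← Nat.card_eq_fintype_card]; exact h13)
    · omega
  | succ k hk ih =>
    intro G Ω _ _ _ h hc
    have hpos : 0 < Nat.card Ω := by omega
    obtain ⟨a⟩ : Nonempty Ω := (Nat.card_pos_iff.mp hpos).1
    have hst := Cfsg.Agent.S0416.Sharp.stab h hc a
    have hcard := nat_card_ofStabilizer_eq G a
    have := ih _ _ hst (by omega)
    omega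

/-- For k ≥ 6, sharply k-transitive groups have degree k, k+1 or k+2. -/
theorem result {α : Type*} [Fintype α] [DecidableEq α] (G : Subgroup (Equiv.Perm α)) (k : ℕ) (hk : 6 ≤ k) (hn : k ≤ Fintype.card α) [MulAction.IsMultiplyPretransitive G α k] (hsharp : ∀ x : Fin k ↪ α, MulAction.stabilizer G x = ⊥) : Fintype.card α = k ∨ Fintype.card α = k + 1 ∨ Fintype.card α = k + 2 := by
  have h := main k hk G α ⟨inferInstance, hsharp⟩ (by rw [Nat.card_eq_fintype_card]; exact hn)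
  rwa [Nat.card_eq_fintype_card] at h

end Cfsg.Agent.S0417
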