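import Mathlib
import Cfsg.Statements.S0418
import Cfsg.Agent.Helper17.SharpSimple

set_option autoImplicit false
open Cfsg

namespace Cfsg.Agent.S0418

open MulAction Cfsg.Agent.Helper17.SharpSimple

/-- A sharply 4-transitive group of degree 11 is simple of order 7920. -/
theorem result {α : Type*} [Fintype α] [DecidableEq α] (hα : Fintype.card α = 11) (G : Subgroup (Equiv.Perm α)) [MulAction.IsMultiplyPretransitive G α 4] (hsharp : ∀ x : Fin 4 ↪ α, MulAction.stabilizer G x = ⊥) : Cfsg.IsM11 G := by
  have hcard : Nat.card G = 7920 := by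
    rw [card_of_sharp G 4 (by rw [hα]; norm_num) hsharp, hα]
    rfl
  haveI h2 : IsMultiplyPretransitive G α 2 :=
    isMultiplyPretransitive_of_le (n := 4) (by norm_num)
      (by rw [Nat.card_eq_fintype_card, hα]; norm_num)
  refine ⟨simple_of_perm G (by omega) 720 (by rw [hcard]) (by norm_num) (by norm_num) ?_ ?_,
    hcard⟩
  · intro e n he hen hn
    have hle : e ≤ 10 := Nat.le_of_dvd (by norm_num) he
    interval_cases e <;> omega
  · intro N hN hbot
    have := dvd_card_of_normal G N hN hbot
    rwa [hα] at this

end Cfsg.Agent.S0418
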