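import Mathlib
import Cfsg.Statements.S0419
import Cfsg.Agent.Helper17.SharpSimple

set_option autoImplicit false
open Cfsg

namespace Cfsg.Agent.S0419

open MulAction Cfsg.Agent.Helper17.SharpSimple

/-- A sharply 5-transitive group of degree 12 is simple of order 95040. -/
theorem result {α : Type*} [Fintype α] [DecidableEq α] (hα : Fintype.card α = 12) (G : Subgroup (Equiv.Perm α)) [MulAction.IsMultiplyPretransitive G α 5] (hsharp : ∀ x : Fin 5 ↪ α, MulAction.stabilizer G x = ⊥) : Cfsg.IsM12 G := by
  have hcard : Nat.card G = 95040 := by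
    rw [card_of_sharp G 5 (by rw [hα]; norm_num) hsharp, hα]
    rfl
  refine ⟨simple_of_perm G (by omega) 8640 (by rw [hcard]) (by norm_num) (by norm_num) ?_ ?_,
    hcard⟩
  · intro e n he hen hn
    have hle : e ≤ 10 := Nat.le_of_dvd (by norm_num) he
    interval_cases e <;> omega
  · intro N hN hbot
    exact eleven_dvd_of_normal hα G N hN hbot

end Cfsg.Agent.S0419
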