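import Cfsg.Statements.S0439
import Mathlib

set_option autoImplicit false
open Cfsg

namespace Cfsg.Agent.S0439

open Equiv Equiv.Perm

theorem swap_mul_swap_pow {α : Type*} [DecidableEq α] [Fintype α] (a b c d : α) (hab : a ≠ b) (hcd : c ≠ d) :
    (swap a b * swap c d) ^ 2 = 1 ∨ (swap a b * swap c d) ^ 3 = 1 := by
  have three : ∀ x y z : α, x ≠ y → x ≠ z → y ≠ z → (swap x y * swap x z) ^ 3 = 1 := by
    intro x y z hxy hxz hyz
    have h := (isThreeCycle_swap_mul_swap_same hxy hxz hyz).orderOf
    rw [← h]; exact pow_orderOf_eq_one _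
  by_cases h1 : a = c
  · subst h1
    by_cases h2 : b = d
    · subst h2
      left; simp
    · right; exact three a b d hab hcd h2
  · by_cases h2 : a = d
    · subst h2
      rw [swap_comm c a]
      by_cases h3 : b = c
      · subst h3
        left; rw [swap_comm a b]; simp
      · right; exact three a b c hab h1 h3
    · by_cases h3 : b = c
      · subst h3
        right
        rw [swap_comm a b]
        exact three b a d (Ne.symm hab) hcd h2
      · by_cases h4 : b = d
        · subst h4
          right
          rw [swap_comm a b, swap_comm c b]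
          exact three b a c (Ne.symm hab) (Ne.symm hcd) h1
        · left
          have hdisj : Perm.Disjoint (swap a b) (swap c d) := by
            apply disjoint_swap_swap
            simp [hab, h1, h2, h3, h4, hcd]
          rw [hdisj.commute.mul_pow, pow_two, pow_two, swap_mul_self, swap_mul_self, one_mul]

/-- In the symmetric group of degree n ≥ 2, the set of transpositions is a conjugacy class of 3-transpositions which generates the group. -/
theorem result (n : ℕ) (hn : 2 ≤ n) : Cfsg.IsThreeTranspositionClass {σ : Equiv.Perm (Fin n) | σ.IsSwap} := by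
  refine ⟨⟨?_, ?_⟩, ?_, ?_⟩
  · intro d hd
    exact IsSwap.orderOf hd
  · rintro d ⟨a, b, hab, rfl⟩ e ⟨c, d', hcd, rfl⟩
    exact swap_mul_swap_pow a b c d' hab hcd
  · have h01 : (⟨0, by omega⟩ : Fin n) ≠ ⟨1, by omega⟩ := by
      intro h; simp [Fin.ext_iff] at h
    refine ⟨swap ⟨0, by omega⟩ ⟨1, by omega⟩, ⟨_, _, h01, rfl⟩, ?_⟩
    ext σ
    constructor
    · rintro ⟨a, b, hab, rfl⟩
      exact isConj_swap h01 hab
    · intro h
      have h : IsConj (swap (⟨0, by omega⟩ : Fin n) ⟨1, by omega⟩) σ := h
      rw [isConj_iff] at h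
      obtain ⟨c, rfl⟩ := h
      rw [← swap_apply_apply]
      exact ⟨_, _, fun h => h01 (c.injective h), rfl⟩
  · exact closure_isSwap

end Cfsg.Agent.S0439
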