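import Cfsg.Statements.S0440
import Mathlib
import Cfsg.Agent.S0766
import Cfsg.Agent.S0765
import Cfsg.Agent.S0271
import Cfsg.Agent.S0764
import Cfsg.Agent.S2585
-- import your own Cfsg.Agent.* helpers here

set_option autoImplicit false
open Cfsg

namespace Cfsg.Agent.S0440

open Matrix

theorem mat_ext {n : Type*} [Fintype n] [DecidableEq n] {R : Type*} [CommRing R]
    (M M' : Matrix n n R) (h : ∀ v, M *ᵥ v = M' *ᵥ v) : M = M' := by
  ext i j
  have h1 := congrFun (h (Pi.single j 1)) i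
  rw [Matrix.mulVec_single_one, Matrix.mulVec_single_one] at h1
  exact h1

/-- `g` acts as the symplectic transvection with centre `w` (over the field with two elements). -/
def IsT (n : ℕ) (g : Matrix (Fin n ⊕ Fin n) (Fin n ⊕ Fin n) (ZMod 2))
    (w : Fin n ⊕ Fin n → ZMod 2) : Prop :=
  ∀ v, g *ᵥ v = v + Cfsg.sympForm n (ZMod 2) v w • w

theorem isT_transv (n : ℕ) (w : Fin n ⊕ Fin n → ZMod 2) :
    IsT n (Cfsg.sympTransvection n w 1) w := by
  intro v
  rw [S0766.transv_mulVec, one_mul]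

theorem isT_unique (n : ℕ) (g g' : Matrix (Fin n ⊕ Fin n) (Fin n ⊕ Fin n) (ZMod 2))
    (w : Fin n ⊕ Fin n → ZMod 2) (h : IsT n g w) (h' : IsT n g' w) : g = g' :=
  mat_ext g g' (fun v => by rw [h v, h' v])

theorem z2_cases : ∀ c : ZMod 2, c = 0 ∨ c = 1 := by decide
theorem z2_eq_one : ∀ c : ZMod 2, c ≠ 0 → c = 1 := by decide
theorem z2_neg : ∀ c : ZMod 2, -c = c := by decide
theorem z2_add_self : ∀ c : ZMod 2, c + c = 0 := by decide

theorem symm2 (n : ℕ) (u v : Fin n ⊕ Fin n → ZMod 2) :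
    Cfsg.sympForm n (ZMod 2) u v = Cfsg.sympForm n (ZMod 2) v u := by
  rw [← S0766.sB_apply, ← S0766.sB_apply, ← (S0766.sB_alt n (ZMod 2)).neg_eq v u, z2_neg]

theorem exists_pair (n : ℕ) (w : Fin n ⊕ Fin n → ZMod 2) (hw : w ≠ 0) :
    ∃ v, Cfsg.sympForm n (ZMod 2) v w = 1 := by
  by_contra hno
  push Not at hno
  apply hw
  apply (S0766.sB_nondeg n (ZMod 2)).2 w
  intro v
  rw [S0766.sB_apply]
  by_contra h1
  exact hno v (z2_eq_one _ h1)

theorem rank_of_isT (n : ℕ) (g : Matrix (Fin n ⊕ Fin n) (Fin n ⊕ Fin n) (ZMod 2))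
    (w : Fin n ⊕ Fin n → ZMod 2) (h : IsT n g w) (hw : w ≠ 0) : (g - 1).rank = 1 := by
  have hN : ∀ v, (g - 1) *ᵥ v = Cfsg.sympForm n (ZMod 2) v w • w := by
    intro v
    rw [Matrix.sub_mulVec, Matrix.one_mulVec, h v, add_sub_cancel_left]
  have hrange : LinearMap.range (g - 1).mulVecLin = Submodule.span (ZMod 2) {w} := by
    apply le_antisymm
    · rintro _ ⟨v, rfl⟩
      rw [Matrix.mulVecLin_apply, hN]
      exact Submodule.smul_mem _ _ (Submodule.mem_span_singleton_self w)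
    · rw [Submodule.span_le, Set.singleton_subset_iff]
      obtain ⟨v₀, hv₀⟩ := exists_pair n w hw
      refine ⟨v₀, ?_⟩
      rw [Matrix.mulVecLin_apply, hN, hv₀, one_smul]
  show Module.finrank (ZMod 2) (LinearMap.range (g - 1).mulVecLin) = 1
  rw [hrange, finrank_span_singleton hw]

theorem isT_of_rank (n : ℕ) (g : Matrix (Fin n ⊕ Fin n) (Fin n ⊕ Fin n) (ZMod 2))
    (hg : g ∈ Matrix.symplecticGroup (Fin n) (ZMod 2)) (hr : (g - 1).rank = 1) :
    ∃ w, w ≠ 0 ∧ IsT n g w := by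
  have hgJ : g.transpose * Matrix.J (Fin n) (ZMod 2) * g = Matrix.J (Fin n) (ZMod 2) :=
    SymplecticGroup.mem_iff'.mp hg
  have hr' : Module.finrank (ZMod 2) (LinearMap.range (g - 1).mulVecLin) = 1 := hr
  obtain ⟨a, ha0, ha⟩ := finrank_eq_one_iff'.mp hr'
  obtain ⟨u₀, hu₀⟩ := a.2
  have hw : (a : Fin n ⊕ Fin n → ZMod 2) ≠ 0 := fun h => ha0 (Subtype.ext h)
  have hδ : ∀ v, ∃ c : ZMod 2, g *ᵥ v = v + c • (a : Fin n ⊕ Fin n → ZMod 2) := by
    intro v
    obtain ⟨c, hc⟩ := ha ⟨(g - 1).mulVecLin v, LinearMap.mem_range_self _ v⟩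
    refine ⟨c, ?_⟩
    have h1 := congrArg Subtype.val hc
    simp only [Submodule.coe_smul, Matrix.mulVecLin_apply, Matrix.sub_mulVec,
      Matrix.one_mulVec] at h1
    rw [h1]
    abel
  have hu₀' : g *ᵥ u₀ = u₀ + (a : Fin n ⊕ Fin n → ZMod 2) := by
    have h1 := hu₀
    rw [Matrix.mulVecLin_apply, Matrix.sub_mulVec, Matrix.one_mulVec] at h1
    rw [← h1]
    abel
  have key : ∀ v (c : ZMod 2), g *ᵥ v = v + c • (a : Fin n ⊕ Fin n → ZMod 2) →
      c * Cfsg.sympForm n (ZMod 2) u₀ a + Cfsg.sympForm n (ZMod 2) a v = 0 := by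
    intro v c hc
    have h1 := S2585.symp_inv g hgJ u₀ v
    rw [hu₀', hc, ← S0766.sB_apply, ← S0766.sB_apply] at h1
    simp only [map_add, map_smul, LinearMap.add_apply, LinearMap.smul_apply, smul_eq_mul,
      (S0766.sB_alt n (ZMod 2)).self_eq_zero] at h1
    rw [← S0766.sB_apply, ← S0766.sB_apply]
    linear_combination h1
  obtain ⟨v₁, hv₁⟩ := exists_pair n a hw
  have hκ : Cfsg.sympForm n (ZMod 2) u₀ a = 1 := by
    obtain ⟨c₁, hc₁⟩ := hδ v₁
    have h1 := key v₁ c₁ hc₁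
    rw [symm2 n a v₁, hv₁] at h1
    apply z2_eq_one
    intro h0
    rw [h0, mul_zero, zero_add] at h1
    exact one_ne_zero h1
  refine ⟨a, hw, fun v => ?_⟩
  obtain ⟨c, hc⟩ := hδ v
  have h1 := key v c hc
  rw [hκ, mul_one, symm2 n a v] at h1
  have hc' : c = Cfsg.sympForm n (ZMod 2) v a := by
    have h2 := z2_add_self (Cfsg.sympForm n (ZMod 2) v a)
    linear_combination h1 - h2
  rw [hc, hc']

theorem isT_conj (n : ℕ) (A T : Matrix.symplecticGroup (Fin n) (ZMod 2))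
    (w : Fin n ⊕ Fin n → ZMod 2)
    (h : IsT n (T : Matrix (Fin n ⊕ Fin n) (Fin n ⊕ Fin n) (ZMod 2)) w) :
    IsT n ((A * T * A⁻¹ : Matrix.symplecticGroup (Fin n) (ZMod 2)) :
        Matrix (Fin n ⊕ Fin n) (Fin n ⊕ Fin n) (ZMod 2))
      ((A : Matrix (Fin n ⊕ Fin n) (Fin n ⊕ Fin n) (ZMod 2)) *ᵥ w) := by
  intro v
  have hAJ := SymplecticGroup.mem_iff'.mp A.2
  have hAA : (A : Matrix (Fin n ⊕ Fin n) (Fin n ⊕ Fin n) (ZMod 2)) *ᵥ
      (((A⁻¹ : Matrix.symplecticGroup (Fin n) (ZMod 2)) :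
        Matrix (Fin n ⊕ Fin n) (Fin n ⊕ Fin n) (ZMod 2)) *ᵥ v) = v := by
    rw [Matrix.mulVec_mulVec, ← Submonoid.coe_mul, mul_inv_cancel]
    simp
  have h1 : ((A * T * A⁻¹ : Matrix.symplecticGroup (Fin n) (ZMod 2)) :
        Matrix (Fin n ⊕ Fin n) (Fin n ⊕ Fin n) (ZMod 2)) *ᵥ v
      = (A : Matrix (Fin n ⊕ Fin n) (Fin n ⊕ Fin n) (ZMod 2)) *ᵥ
        ((T : Matrix (Fin n ⊕ Fin n) (Fin n ⊕ Fin n) (ZMod 2)) *ᵥ
          (((A⁻¹ : Matrix.symplecticGroup (Fin n) (ZMod 2)) :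
            Matrix (Fin n ⊕ Fin n) (Fin n ⊕ Fin n) (ZMod 2)) *ᵥ v)) := by
    rw [Matrix.mulVec_mulVec, Matrix.mulVec_mulVec]
    rfl
  rw [h1, h _, Matrix.mulVec_add, Matrix.mulVec_smul, hAA]
  congr 2
  have h2 := S2585.symp_inv (A : Matrix (Fin n ⊕ Fin n) (Fin n ⊕ Fin n) (ZMod 2)) hAJ
    (((A⁻¹ : Matrix.symplecticGroup (Fin n) (ZMod 2)) :
      Matrix (Fin n ⊕ Fin n) (Fin n ⊕ Fin n) (ZMod 2)) *ᵥ v) w
  rw [hAA] at h2
  exact h2.symm


/-- In the symplectic group in dimension 2n ≥ 2 over the field with two elements, the elements g for which g - 1 has rank one (the symplectic transvections) form a conjugacy class of 3-transpositions generating the group. -/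
theorem result (n : ℕ) (hn : 1 ≤ n) : Cfsg.IsThreeTranspositionClass {g : Matrix.symplecticGroup (Fin n) (ZMod 2) | ((g : Matrix (Fin n ⊕ Fin n) (Fin n ⊕ Fin n) (ZMod 2)) - 1).rank = 1} := by
  classical
  have hchar : ∀ g : Matrix.symplecticGroup (Fin n) (ZMod 2),
      ((g : Matrix (Fin n ⊕ Fin n) (Fin n ⊕ Fin n) (ZMod 2)) - 1).rank = 1 ↔
        ∃ w, w ≠ 0 ∧ IsT n (g : Matrix (Fin n ⊕ Fin n) (Fin n ⊕ Fin n) (ZMod 2)) w :=
    fun g => ⟨fun h => isT_of_rank n _ g.2 h, fun ⟨w, hw, h⟩ => rank_of_isT n _ w h hw⟩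
  have hsq : ∀ (g : Matrix.symplecticGroup (Fin n) (ZMod 2)) (w : Fin n ⊕ Fin n → ZMod 2),
      IsT n (g : Matrix (Fin n ⊕ Fin n) (Fin n ⊕ Fin n) (ZMod 2)) w → g * g = 1 := by
    intro g w h
    apply Subtype.ext
    apply mat_ext
    intro v
    have hww : Cfsg.sympForm n (ZMod 2) w w = 0 := by
      rw [← S0766.sB_apply]
      exact (S0766.sB_alt n (ZMod 2)).self_eq_zero w
    rw [Submonoid.coe_mul, ← Matrix.mulVec_mulVec, h v, Matrix.mulVec_add, Matrix.mulVec_smul,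
      h v, h w, hww, zero_smul, add_zero]
    simp only [OneMemClass.coe_one, Matrix.one_mulVec]
    rw [add_assoc, ← add_smul, z2_add_self, zero_smul, add_zero]
  refine ⟨⟨?_, ?_⟩, ?_, ?_⟩
  · intro d hd
    obtain ⟨w, hw, hT⟩ := (hchar d).mp hd
    have h1 : d ^ 2 = 1 := by
      rw [pow_two]
      exact hsq d w hT
    have h2 : d ≠ 1 := by
      intro h
      have hd' : ((d : Matrix (Fin n ⊕ Fin n) (Fin n ⊕ Fin n) (ZMod 2)) - 1).rank = 1 := hd
      rw [h] at hd'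
      simp at hd'
    exact orderOf_eq_prime h1 h2
  · intro d hd e he
    obtain ⟨u, hu, hTu⟩ := (hchar d).mp hd
    obtain ⟨w, hw, hTw⟩ := (hchar e).mp he
    have hdd := hsq d u hTu
    have hee := hsq e w hTw
    have hdinv : d⁻¹ = d := inv_eq_of_mul_eq_one_right hdd
    have heinv : e⁻¹ = e := inv_eq_of_mul_eq_one_right hee
    have hc1 := isT_conj n d e w hTw
    have hc2 := isT_conj n e d u hTu
    rw [hTu w] at hc1
    rw [hTw u] at hc2
    rcases z2_cases (Cfsg.sympForm n (ZMod 2) u w) with h0 | h1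
    · left
      have h0' : Cfsg.sympForm n (ZMod 2) w u = 0 := by rw [symm2, h0]
      rw [h0', zero_smul, add_zero] at hc1
      have h3 : d * e * d⁻¹ = e := Subtype.ext (isT_unique n _ _ w hc1 hTw)
      rw [hdinv] at h3
      rw [pow_two]
      calc d * e * (d * e) = (d * e * d) * e := by group
        _ = e * e := by rw [h3]
        _ = 1 := hee
    · right
      have h1' : Cfsg.sympForm n (ZMod 2) w u = 1 := by rw [symm2, h1]
      rw [h1', one_smul] at hc1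
      rw [h1, one_smul] at hc2
      rw [add_comm w u] at hc1
      have h3 : d * e * d⁻¹ = e * d * e⁻¹ := Subtype.ext (isT_unique n _ _ _ hc1 hc2)
      rw [hdinv, heinv] at h3
      calc (d * e) ^ 3 = (d * e * d) * (e * d * e) := by
            rw [pow_succ, pow_two]
            simp only [mul_assoc]
        _ = (e * d * e) * (e * d * e) := by rw [h3]
        _ = e * d * (e * e) * d * e := by group
        _ = e * (d * d) * e := by rw [hee]; group
        _ = 1 := by rw [hdd, mul_one, hee]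
  · have hn' : 0 < n := hn
    obtain ⟨w₀, hw₀⟩ : ∃ w₀ : Fin n ⊕ Fin n → ZMod 2, w₀ ≠ 0 :=
      ⟨Pi.single (Sum.inl ⟨0, hn'⟩) 1, by
        intro h
        have h5 := congrFun h (Sum.inl ⟨0, hn'⟩)
        simp at h5⟩
    obtain ⟨d₀, hd₀⟩ : ∃ d₀ : Matrix.symplecticGroup (Fin n) (ZMod 2),
        IsT n (d₀ : Matrix (Fin n ⊕ Fin n) (Fin n ⊕ Fin n) (ZMod 2)) w₀ :=
      ⟨⟨Cfsg.sympTransvection n w₀ 1, S0764.result n w₀ 1⟩, isT_transv n w₀⟩
    refine ⟨d₀, (hchar d₀).mpr ⟨w₀, hw₀, hd₀⟩, ?_⟩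
    ext g
    show _ ↔ IsConj d₀ g
    rw [isConj_iff]
    constructor
    · intro hg
      obtain ⟨w, hw, hT⟩ := (hchar g).mp hg
      obtain ⟨A, hA⟩ := S0271.result n w₀ w hw₀ hw
      refine ⟨A, ?_⟩
      have h1 := isT_conj n A d₀ w₀ hd₀
      rw [hA] at h1
      exact Subtype.ext (isT_unique n _ _ w h1 hT)
    · rintro ⟨A, rfl⟩
      have h1 := isT_conj n A d₀ w₀ hd₀
      refine (hchar _).mpr ⟨_, ?_, h1⟩
      intro h0
      apply hw₀
      have h2 : ((A⁻¹ : Matrix.symplecticGroup (Fin n) (ZMod 2)) :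
          Matrix (Fin n ⊕ Fin n) (Fin n ⊕ Fin n) (ZMod 2)) *ᵥ
          ((A : Matrix (Fin n ⊕ Fin n) (Fin n ⊕ Fin n) (ZMod 2)) *ᵥ w₀) = w₀ := by
        rw [Matrix.mulVec_mulVec, ← Submonoid.coe_mul, inv_mul_cancel]
        simp
      rw [← h2, h0, Matrix.mulVec_zero]
  · rw [eq_top_iff, ← S0765.result n]
    apply (Subgroup.closure_le _).mpr
    rintro A ⟨w, c, hA⟩
    rcases z2_cases c with rfl | rfl
    · have h5 : A = 1 := by
        apply Subtype.ext
        rw [hA]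
        simp [Cfsg.sympTransvection]
      rw [h5]
      exact Subgroup.one_mem _
    · by_cases hw : w = 0
      · have h5 : A = 1 := by
          apply Subtype.ext
          rw [hA, hw]
          simp [Cfsg.sympTransvection]
        rw [h5]
        exact Subgroup.one_mem _
      · apply Subgroup.subset_closure
        refine (hchar A).mpr ⟨w, hw, ?_⟩
        rw [hA]
        exact isT_transv n w


end Cfsg.Agent.S0440
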