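import Cfsg.Statements.S0442

set_option autoImplicit false
open Cfsg

namespace Cfsg.Agent.S0442

theorem conj_pow_inv {G : Type*} [Group G] (a b : G) (ha : a * a = 1) (hb : b * b = 1) (n : ℕ) :
    a * (a * b) ^ n * a⁻¹ = ((a * b) ^ n)⁻¹ := by
  have ha' : a⁻¹ = a := inv_eq_of_mul_eq_one_left ha
  have hb' : b⁻¹ = b := inv_eq_of_mul_eq_one_left hb
  rw [← conj_pow, ← inv_pow]
  congr 1
  rw [mul_inv_rev, ha', hb', ← mul_assoc, ha, one_mul]

theorem pow_mul_self {G : Type*} [Group G] (a b : G) (ha : a * a = 1) (hb : b * b = 1) (n : ℕ) :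
    (a * b) ^ n * a = a * ((a * b) ^ n)⁻¹ := by
  have ha' : a⁻¹ = a := inv_eq_of_mul_eq_one_left ha
  have h := conj_pow_inv a b ha hb n
  -- a x a⁻¹ = x⁻¹  ⟹  x a = a x⁻¹
  have h2 : (a * (a * b) ^ n * a⁻¹)⁻¹ = (a * b) ^ n := by rw [h, inv_inv]
  rw [mul_inv_rev, mul_inv_rev, inv_inv, ha'] at h2
  -- h2 : a * (x⁻¹ * a) = x
  calc (a * b) ^ n * a = (a * (((a * b) ^ n)⁻¹ * a)) * a := by rw [h2]
    _ = a * ((a * b) ^ n)⁻¹ * (a * a) := by simp only [mul_assoc]
    _ = a * ((a * b) ^ n)⁻¹ := by rw [ha, mul_one]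

theorem even_case {G : Type*} [Group G] (a b : G) (ha : a * a = 1) (hb : b * b = 1) (m : ℕ)
    (hx : (a * b) ^ (2 * m) = 1) : Commute ((a * b) ^ m) a := by
  have h := pow_mul_self a b ha hb m
  have hinv : ((a * b) ^ m)⁻¹ = (a * b) ^ m := by
    apply inv_eq_of_mul_eq_one_left
    rw [← pow_add, ← two_mul]; exact hx
  rw [hinv] at h
  exact h

theorem odd_case {G : Type*} [Group G] (a b g : G) (ha : a * a = 1) (hb : b * b = 1)
    (hag : a * g = g * b) (m : ℕ) (hx : (a * b) ^ (2 * m + 1) = 1) :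
    Commute (g * (a * b) ^ m) a := by
  have ha' : a⁻¹ = a := inv_eq_of_mul_eq_one_left ha
  have hb' : b⁻¹ = b := inv_eq_of_mul_eq_one_left hb
  have h := pow_mul_self a b ha hb m
  -- x^(2m) = x⁻¹ = b a
  have h2m : (a * b) ^ m * (a * b) ^ m = b * a := by
    have : (a * b) ^ m * (a * b) ^ m * (a * b) = 1 := by
      rw [← pow_add, ← pow_succ, ← two_mul]; exact hx
    have e := eq_inv_of_mul_eq_one_left this
    rw [e, mul_inv_rev, ha', hb']
  -- key : a * x⁻ᵐ = b * xᵐ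
  have key : a * ((a * b) ^ m)⁻¹ = b * (a * b) ^ m := by
    have : a = b * ((a * b) ^ m * (a * b) ^ m) := by
      rw [h2m, ← mul_assoc, hb, one_mul]
    calc a * ((a * b) ^ m)⁻¹ = b * ((a * b) ^ m * (a * b) ^ m) * ((a * b) ^ m)⁻¹ := by rw [← this]
      _ = b * (a * b) ^ m := by rw [mul_assoc, mul_assoc, mul_inv_cancel, mul_one]
  show g * (a * b) ^ m * a = a * (g * (a * b) ^ m)
  calc g * (a * b) ^ m * a = g * ((a * b) ^ m * a) := by rw [mul_assoc]
    _ = g * (b * (a * b) ^ m) := by rw [h, key]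
    _ = (g * b) * (a * b) ^ m := by rw [mul_assoc]
    _ = (a * g) * (a * b) ^ m := by rw [hag]
    _ = a * (g * (a * b) ^ m) := by rw [mul_assoc]

/-- A standard trick for producing elements of an involution centraliser: for an involution a and an element g, let b be the conjugate g⁻¹ * a * g. If a * b has odd order 2m + 1 then g * (a * b) ^ m commutes with a; if a * b has even order 2m then (a * b) ^ m and (a * (g * a * g⁻¹)) ^ m commute with a. -/
theorem result {G : Type*} [Group G] (a g : G) (ha : orderOf a = 2) : (∀ m : ℕ, orderOf (a * (g⁻¹ * a * g)) = 2 * m + 1 → Commute (g * (a * (g⁻¹ * a * g)) ^ m) a) ∧ (∀ m : ℕ, orderOf (a * (g⁻¹ * a * g)) = 2 * m → Commute ((a * (g⁻¹ * a * g)) ^ m) a ∧ Commute ((a * (g * a * g⁻¹)) ^ m) a) := by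
  have ha2 : a * a = 1 := by
    have := pow_orderOf_eq_one a
    rwa [ha, pow_two] at this
  have ha' : a⁻¹ = a := inv_eq_of_mul_eq_one_left ha2
  have hb2 : (g⁻¹ * a * g) * (g⁻¹ * a * g) = 1 := by
    calc (g⁻¹ * a * g) * (g⁻¹ * a * g) = g⁻¹ * a * (g * g⁻¹) * a * g := by simp only [mul_assoc]
      _ = g⁻¹ * (a * a) * g := by rw [mul_inv_cancel, mul_one]; simp only [mul_assoc]
      _ = 1 := by rw [ha2, mul_one, inv_mul_cancel]
  have hc2 : (g * a * g⁻¹) * (g * a * g⁻¹) = 1 := by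
    calc (g * a * g⁻¹) * (g * a * g⁻¹) = g * a * (g⁻¹ * g) * a * g⁻¹ := by simp only [mul_assoc]
      _ = g * (a * a) * g⁻¹ := by rw [inv_mul_cancel, mul_one]; simp only [mul_assoc]
      _ = 1 := by rw [ha2, mul_one, mul_inv_cancel]
  have hag : a * g = g * (g⁻¹ * a * g) := by
    simp only [mul_assoc, mul_inv_cancel_left]
  refine ⟨fun m hm => ?_, fun m hm => ⟨?_, ?_⟩⟩
  · apply odd_case a _ g ha2 hb2 hag m
    rw [← hm]; exact pow_orderOf_eq_one _
  · apply even_case a _ ha2 hb2 m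
    rw [← hm]; exact pow_orderOf_eq_one _
  · apply even_case a _ ha2 hc2 m
    -- a * (g a g⁻¹) = g * (a * (g⁻¹ a g))⁻¹ * g⁻¹
    have hconj : a * (g * a * g⁻¹) = g * (a * (g⁻¹ * a * g))⁻¹ * g⁻¹ := by
      rw [mul_inv_rev, mul_inv_rev, mul_inv_rev, inv_inv, ha']
      simp only [mul_assoc, mul_inv_cancel_left]
    rw [hconj, conj_pow, inv_pow, ← hm, pow_orderOf_eq_one, inv_one, mul_one, mul_inv_cancel]

end Cfsg.Agent.S0442
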