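import Cfsg.Statements.S0443

set_option autoImplicit false
open Cfsg

namespace Cfsg.Agent.S0443

/-- Two definitions of a 2-central involution agree: an element t of order 2 of a finite group lies in the centre of some Sylow 2-subgroup if and only if its centraliser contains some Sylow 2-subgroup. -/
theorem result {G : Type*} [Group G] [Finite G] (t : G) (ht : orderOf t = 2) : Cfsg.IsTwoCentralInvolution t ↔ ∃ P : Sylow 2 G, (P : Subgroup G) ≤ Subgroup.centralizer ({t} : Set G) := by
  have : Fact (Nat.Prime 2) := ⟨Nat.prime_two⟩
  constructor
  · rintro ⟨-, P, -, hcomm⟩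
    refine ⟨P, fun x hx => ?_⟩
    rw [Subgroup.mem_centralizer_iff]
    intro y hy
    rw [Set.mem_singleton_iff] at hy
    subst hy
    exact (hcomm x hx).symm
  · rintro ⟨P, hP⟩
    refine ⟨ht, P, ?_, ?_⟩
    · -- t ∈ P by maximality
      have hz : IsPGroup 2 (Subgroup.zpowers t) := by
        apply IsPGroup.of_card (n := 1)
        rw [Nat.card_zpowers, ht, pow_one]
      have hnorm : Subgroup.zpowers t ≤ Subgroup.normalizer ((P : Subgroup G) : Set G) := by
        rw [Subgroup.zpowers_le]
        have hc : t ∈ Subgroup.centralizer ((P : Subgroup G) : Set G) := by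
          rw [Subgroup.mem_centralizer_iff]
          intro x hx
          have := hP hx
          rw [Subgroup.mem_centralizer_iff] at this
          exact (this t rfl).symm
        exact Subgroup.centralizer_le_normalizer _ hc
      have hsup : IsPGroup 2 ((P : Subgroup G) ⊔ Subgroup.zpowers t : Subgroup G) :=
        IsPGroup.to_sup_of_normal_left' P.isPGroup' hz hnorm
      have heq := P.is_maximal' hsup le_sup_left
      have : Subgroup.zpowers t ≤ (P : Subgroup G) := by
        rw [← heq]; exact le_sup_right
      exact Subgroup.zpowers_le.mp this
    · intro x hx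
      have := hP hx
      rw [Subgroup.mem_centralizer_iff] at this
      exact (this t rfl).symm

end Cfsg.Agent.S0443
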