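import Mathlib
import Cfsg.Statements.S0445
import Cfsg.Agent.Helper2.SLCard

set_option autoImplicit false
open Cfsg

namespace Cfsg.Agent.S0445

/-- Shape of the matrices commuting with the transvection `1 + E₀₁`. -/
def P (g : Matrix (Fin 5) (Fin 5) (ZMod 2)) : Prop :=
  (∀ a : Fin 5, a ≠ 0 → g a 0 = 0) ∧ (∀ b : Fin 5, b ≠ 1 → g 1 b = 0) ∧ g 0 0 = g 1 1

theorem comm_iff (g : Matrix (Fin 5) (Fin 5) (ZMod 2)) :
    g * Matrix.transvection 0 1 1 = Matrix.transvection 0 1 1 * g ↔ P g := by
  constructor
  · intro h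
    refine ⟨fun a ha => ?_, fun b hb => ?_, ?_⟩
    · have h' := congrFun (congrFun h a) 1
      rw [Matrix.mul_transvection_apply_same,
        Matrix.transvection_mul_apply_of_ne _ _ _ _ ha] at h'
      simpa using h'
    · have h' := congrFun (congrFun h 0) b
      rw [Matrix.transvection_mul_apply_same,
        Matrix.mul_transvection_apply_of_ne _ _ _ _ hb] at h'
      simpa using h'
    · have h' := congrFun (congrFun h 0) 1
      rw [Matrix.transvection_mul_apply_same, Matrix.mul_transvection_apply_same] at h'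
      simpa using h'
  · rintro ⟨h1, h2, h3⟩
    ext a b
    by_cases ha : a = 0
    · subst ha
      by_cases hb : b = 1
      · subst hb
        rw [Matrix.transvection_mul_apply_same, Matrix.mul_transvection_apply_same, h3]
      · rw [Matrix.transvection_mul_apply_same,
          Matrix.mul_transvection_apply_of_ne _ _ _ _ hb, h2 b hb, mul_zero, add_zero]
    · by_cases hb : b = 1
      · subst hb
        rw [Matrix.mul_transvection_apply_same,
          Matrix.transvection_mul_apply_of_ne _ _ _ _ ha, h1 a ha, mul_zero, add_zero]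
      · rw [Matrix.mul_transvection_apply_of_ne _ _ _ _ hb,
          Matrix.transvection_mul_apply_of_ne _ _ _ _ ha]

theorem det4 (M : Matrix (Fin 4) (Fin 4) (ZMod 2)) (h : ∀ j : Fin 4, j ≠ 0 → M 0 j = 0) :
    M.det = M 0 0 * (M.submatrix Fin.succ Fin.succ).det := by
  rw [Matrix.det_succ_row_zero, Finset.sum_eq_single (0 : Fin 4)]
  · rw [Fin.val_zero, pow_zero, one_mul, Fin.succAbove_zero]
  · intro j _ hj
    rw [h j hj, mul_zero, zero_mul]
  · intro habs
    exact absurd (Finset.mem_univ _) habs

theorem det5 (M : Matrix (Fin 5) (Fin 5) (ZMod 2)) (h : ∀ i : Fin 5, i ≠ 0 → M i 0 = 0) :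
    M.det = M 0 0 * (M.submatrix Fin.succ Fin.succ).det := by
  rw [Matrix.det_succ_column_zero, Finset.sum_eq_single (0 : Fin 5)]
  · rw [Fin.val_zero, pow_zero, one_mul, Fin.succAbove_zero]
  · intro i _ hi
    rw [h i hi, mul_zero, zero_mul]
  · intro habs
    exact absurd (Finset.mem_univ _) habs

theorem det_eq (g : Matrix (Fin 5) (Fin 5) (ZMod 2)) (h : P g) :
    g.det = g 0 0 * (g 1 1 *
      (g.submatrix (fun i : Fin 3 => i.succ.succ) (fun j : Fin 3 => j.succ.succ)).det) := by
  obtain ⟨h1, h2, h3⟩ := h
  rw [det5 g h1, det4 (g.submatrix Fin.succ Fin.succ)]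
  · rfl
  · intro j hj
    show g 1 j.succ = 0
    apply h2
    intro hh
    apply hj
    have h5 : (1 : Fin 5) = Fin.succ (0 : Fin 4) := rfl
    rw [h5] at hh
    exact Fin.succ_injective _ hh

/-- The matrix with first row `(1, u)`, second row `(0, 1, 0, 0, 0)` and remaining rows
`(0, w i, B i)`. -/
def build (u : Fin 4 → ZMod 2) (w : Fin 3 → ZMod 2) (B : Matrix (Fin 3) (Fin 3) (ZMod 2)) :
    Matrix (Fin 5) (Fin 5) (ZMod 2) :=
  Matrix.of (Matrix.vecCons (Matrix.vecCons (1 : ZMod 2) u)
    (Matrix.vecCons (Matrix.vecCons (0 : ZMod 2) (Matrix.vecCons (1 : ZMod 2) (fun _ : Fin 3 => 0)))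
      (fun i : Fin 3 => Matrix.vecCons (0 : ZMod 2) (Matrix.vecCons (w i) (B i)))))

theorem build_P (u : Fin 4 → ZMod 2) (w : Fin 3 → ZMod 2) (B : Matrix (Fin 3) (Fin 3) (ZMod 2)) :
    P (build u w B) := by
  refine ⟨?_, ?_, rfl⟩
  · intro a ha
    induction a using Fin.cases with
    | zero => exact absurd rfl ha
    | succ a =>
      induction a using Fin.cases with
      | zero => rfl
      | succ a => rfl
  · intro b hb
    induction b using Fin.cases with
    | zero => rfl
    | succ b =>
      induction b using Fin.cases with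
      | zero => exact absurd rfl hb
      | succ b => rfl

theorem build_det (u : Fin 4 → ZMod 2) (w : Fin 3 → ZMod 2)
    (B : Matrix (Fin 3) (Fin 3) (ZMod 2)) : (build u w B).det = B.det := by
  rw [det_eq _ (build_P u w B)]
  have h0 : build u w B 0 0 = 1 := rfl
  have h1 : build u w B 1 1 = 1 := rfl
  have h2 : (build u w B).submatrix (fun i : Fin 3 => i.succ.succ)
      (fun j : Fin 3 => j.succ.succ) = B := by
    ext i j
    rfl
  rw [h0, h1, h2, one_mul, one_mul]

theorem build_inj {u u' : Fin 4 → ZMod 2} {w w' : Fin 3 → ZMod 2}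
    {B B' : Matrix (Fin 3) (Fin 3) (ZMod 2)}
    (h : build u w B = build u' w' B') : u = u' ∧ w = w' ∧ B = B' := by
  refine ⟨funext fun j => ?_, funext fun i => ?_, ?_⟩
  · exact congrFun (congrFun h 0) j.succ
  · exact congrFun (congrFun h i.succ.succ) 1
  · ext i j
    exact congrFun (congrFun h i.succ.succ) j.succ.succ

theorem recon (g : Matrix (Fin 5) (Fin 5) (ZMod 2)) (h : P g) (h00 : g 0 0 = 1) :
    g = build (fun j => g 0 j.succ) (fun i => g i.succ.succ 1)
      (g.submatrix (fun i : Fin 3 => i.succ.succ) (fun j : Fin 3 => j.succ.succ)) := by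
  obtain ⟨h1, h2, h3⟩ := h
  have h11 : g 1 1 = 1 := h3.symm.trans h00
  ext i j
  induction i using Fin.cases with
  | zero =>
    induction j using Fin.cases with
    | zero => exact h00
    | succ j => rfl
  | succ i =>
    induction i using Fin.cases with
    | zero =>
      induction j using Fin.cases with
      | zero => exact h1 1 (by decide)
      | succ j =>
        induction j using Fin.cases with
        | zero => exact h11
        | succ j =>
          refine h2 j.succ.succ ?_
          intro hh
          have hv := congrArg Fin.val hh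
          simp at hv
    | succ i =>
      induction j using Fin.cases with
      | zero => exact h1 i.succ.succ (Fin.succ_ne_zero _)
      | succ j =>
        induction j using Fin.cases with
        | zero => rfl
        | succ j => rfl

theorem mem_iff (s : Matrix.SpecialLinearGroup (Fin 5) (ZMod 2))
    (hs : (s : Matrix (Fin 5) (Fin 5) (ZMod 2)) = Matrix.transvection 0 1 1)
    (g : Matrix.SpecialLinearGroup (Fin 5) (ZMod 2)) :
    g ∈ Subgroup.centralizer ({s} : Set (Matrix.SpecialLinearGroup (Fin 5) (ZMod 2))) ↔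
      P g.1 := by
  rw [Subgroup.mem_centralizer_iff]
  constructor
  · intro h
    have h' := h s (Set.mem_singleton s)
    have h'' := congrArg Subtype.val h'
    rw [Matrix.SpecialLinearGroup.coe_mul, Matrix.SpecialLinearGroup.coe_mul, hs] at h''
    exact (comm_iff g.1).mp h''.symm
  · intro h t ht
    rw [Set.mem_singleton_iff] at ht
    subst ht
    apply Subtype.ext
    rw [Matrix.SpecialLinearGroup.coe_mul, Matrix.SpecialLinearGroup.coe_mul, hs]
    exact ((comm_iff g.1).mpr h).symm

theorem card_SL3 : Nat.card (Matrix.SpecialLinearGroup (Fin 3) (ZMod 2)) = 168 := by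
  have h := Cfsg.Agent.Helper2.SLCard.card_SL_mul (ZMod 2) 3 (by norm_num)
  rw [Matrix.card_GL_field] at h
  have h2 : Fintype.card (ZMod 2) = 2 := ZMod.card 2
  rw [h2, Fin.prod_univ_three] at h
  norm_num at h
  rw [Nat.card_eq_fintype_card]
  exact h

/-- In the special linear group of dimension 5 over the field with two elements, the centraliser of a transvection has order 21504 = 2 ^ 7 · 168 (it is an extension of an extraspecial group of order 2 ^ 7 by the simple group of order 168). -/
theorem result (s : Matrix.SpecialLinearGroup (Fin 5) (ZMod 2)) (hs : (s : Matrix (Fin 5) (Fin 5) (ZMod 2)) = Matrix.transvection 0 1 1) : Nat.card (Subgroup.centralizer ({s} : Set (Matrix.SpecialLinearGroup (Fin 5) (ZMod 2)))) = 21504 := by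
  classical
  let f : (Fin 4 → ZMod 2) × (Fin 3 → ZMod 2) × Matrix.SpecialLinearGroup (Fin 3) (ZMod 2) →
      Subgroup.centralizer ({s} : Set (Matrix.SpecialLinearGroup (Fin 5) (ZMod 2))) :=
    fun x => ⟨⟨build x.1 x.2.1 x.2.2.1, by rw [build_det]; exact x.2.2.2⟩,
      (mem_iff s hs _).mpr (build_P _ _ _)⟩
  have hinj : Function.Injective f := by
    rintro ⟨u, w, B⟩ ⟨u', w', B'⟩ h
    have h1 : build u w B.1 = build u' w' B'.1 :=
      congrArg (fun x : Subgroup.centralizer
        ({s} : Set (Matrix.SpecialLinearGroup (Fin 5) (ZMod 2))) => x.1.1) h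
    obtain ⟨e1, e2, e3⟩ := build_inj h1
    have e4 : B = B' := Subtype.ext e3
    rw [e1, e2, e4]
  have hsurj : Function.Surjective f := by
    rintro ⟨g, hg⟩
    have hP := (mem_iff s hs g).mp hg
    have hdet := g.2
    rw [det_eq g.1 hP] at hdet
    have key : ∀ a b c : ZMod 2, a * (b * c) = 1 → a = 1 ∧ c = 1 := by decide
    obtain ⟨h00, hB⟩ := key _ _ _ hdet
    refine ⟨(fun j => g.1 0 j.succ, fun i => g.1 i.succ.succ 1,
      ⟨g.1.submatrix (fun i : Fin 3 => i.succ.succ) (fun j : Fin 3 => j.succ.succ), hB⟩), ?_⟩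
    apply Subtype.ext
    apply Subtype.ext
    exact (recon g.1 hP h00).symm
  have hcard := Nat.card_congr (Equiv.ofBijective f ⟨hinj, hsurj⟩)
  rw [← hcard, Nat.card_prod, Nat.card_prod, card_SL3]
  simp [Nat.card_eq_fintype_card, ZMod.card]

end Cfsg.Agent.S0445
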