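import Cfsg.Statements.S0481

set_option autoImplicit false
open Cfsg
open scoped Pointwise

namespace Cfsg.Agent.S0481

/-- Large extraspecial subgroups: let z be an involution of a finite group G whose centraliser C contains a normal 2-subgroup Q with centre of order 2 and all squares central, such that every element of G centralising Q lies in Q. Then C contains a Sylow 2-subgroup of G, and any involution of G whose centraliser contains a Sylow 2-subgroup of G is conjugate to z. -/
theorem result {G : Type*} [Group G] [Finite G] (z : G) (hz : orderOf z = 2) (Q : Subgroup G) (hQC : Q ≤ Subgroup.centralizer ({z} : Set G)) (hQn : ∀ g ∈ Subgroup.centralizer ({z} : Set G), ∀ q ∈ Q, g * q * g⁻¹ ∈ Q) (hQ2 : IsPGroup 2 Q) (hZ : Nat.card (Subgroup.center Q) = 2) (hsq : ∀ x : Q, x ^ 2 ∈ Subgroup.center Q) (hlarge : Subgroup.centralizer (Q : Set G) ≤ Q) : (∃ P : Sylow 2 G, (P : Subgroup G) ≤ Subgroup.centralizer ({z} : Set G)) ∧ ∀ u : G, orderOf u = 2 → (∃ P : Sylow 2 G, (P : Subgroup G) ≤ Subgroup.centralizer ({u} : Set G)) → IsConj z u := by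
  have : Fact (Nat.Prime 2) := ⟨Nat.prime_two⟩
  have hz1 : z ≠ 1 := by
    intro h; rw [h, orderOf_one] at hz; omega
  -- z centralizes Q
  have hzC : z ∈ Subgroup.centralizer (Q : Set G) := by
    rw [Subgroup.mem_centralizer_iff]
    intro q hq
    have := hQC hq
    rw [Subgroup.mem_centralizer_iff] at this
    exact (this z rfl).symm
  have hzQ : z ∈ Q := hlarge hzC
  -- every element centralizing Q is 1 or z
  have claimA : ∀ w ∈ Subgroup.centralizer (Q : Set G), w = 1 ∨ w = z := by
    intro w hw
    have hwQ : w ∈ Q := hlarge hw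
    have hwc : (⟨w, hwQ⟩ : Q) ∈ Subgroup.center Q := by
      rw [Subgroup.mem_center_iff]
      intro q
      rw [Subgroup.mem_centralizer_iff] at hw
      apply Subtype.ext
      exact hw q q.2
    have hzc : (⟨z, hzQ⟩ : Q) ∈ Subgroup.center Q := by
      rw [Subgroup.mem_center_iff]
      intro q
      rw [Subgroup.mem_centralizer_iff] at hzC
      apply Subtype.ext
      exact hzC q q.2
    obtain ⟨y, hy1, hy2⟩ := (Nat.card_eq_two_iff' (1 : Subgroup.center Q)).mp hZ
    by_cases hw1 : w = 1
    · exact Or.inl hw1
    · right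
      have e1 : (⟨⟨w, hwQ⟩, hwc⟩ : Subgroup.center Q) = y := by
        apply hy2
        intro h
        apply hw1
        have := congrArg (fun t : Subgroup.center Q => ((t : Q) : G)) h
        simpa using this
      have e2 : (⟨⟨z, hzQ⟩, hzc⟩ : Subgroup.center Q) = y := by
        apply hy2
        intro h
        apply hz1
        have := congrArg (fun t : Subgroup.center Q => ((t : Q) : G)) h
        simpa using this
      have := congrArg (fun t : Subgroup.center Q => ((t : Q) : G)) (e1.trans e2.symm)
      simpa using this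
  -- key: a Sylow 2-subgroup containing Q is centralized by z
  obtain ⟨P, hQP⟩ := hQ2.exists_le_sylow
  have hzP : z ∈ (P : Subgroup G) := hQP hzQ
  have hPcent : ∀ c : G, c ∈ Subgroup.centralizer ((P : Subgroup G) : Set G) → c = 1 ∨ c = z := by
    intro c hc
    apply claimA
    exact Subgroup.centralizer_le hQP hc
  have hPz : (P : Subgroup G) ≤ Subgroup.centralizer ({z} : Set G) := by
    have hP : IsPGroup 2 (P : Subgroup G) := P.isPGroup'
    have hne : (P : Subgroup G) ≠ ⊥ := fun h => hz1 (by rw [h] at hzP; exact Subgroup.mem_bot.mp hzP)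
    haveI : Nontrivial (P : Subgroup G) := (Subgroup.nontrivial_iff_ne_bot _).mpr hne
    haveI : Nontrivial (Subgroup.center (P : Subgroup G)) := hP.center_nontrivial
    obtain ⟨c, hc⟩ := exists_ne (1 : Subgroup.center (P : Subgroup G))
    have hcG : ((c : (P : Subgroup G)) : G) ∈ Subgroup.centralizer ((P : Subgroup G) : Set G) := by
      rw [Subgroup.mem_centralizer_iff]
      intro x hx
      have := Subgroup.mem_center_iff.mp c.2 ⟨x, hx⟩
      exact congrArg Subtype.val this
    have hcz : ((c : (P : Subgroup G)) : G) = z := by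
      rcases hPcent _ hcG with h | h
      · exfalso; apply hc
        apply Subtype.ext; apply Subtype.ext; simpa using h
      · exact h
    intro x hx
    rw [Subgroup.mem_centralizer_iff]
    intro y hy
    rw [Set.mem_singleton_iff] at hy
    subst hy
    rw [← hcz]
    rw [Subgroup.mem_centralizer_iff] at hcG
    exact (hcG x hx).symm
  refine ⟨⟨P, hPz⟩, ?_⟩
  rintro u hu ⟨P', hP'⟩
  have hu1 : u ≠ 1 := by
    intro h; rw [h, orderOf_one] at hu; omega
  obtain ⟨g, hg⟩ := MulAction.exists_smul_eq G P' P
  -- g u g⁻¹ centralizes P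
  have hconj : g * u * g⁻¹ ∈ Subgroup.centralizer ((P : Subgroup G) : Set G) := by
    rw [Subgroup.mem_centralizer_iff]
    intro x hx
    have hx' : x ∈ ((g • P' : Sylow 2 G) : Subgroup G) := by rw [hg]; exact hx
    rw [Sylow.coe_subgroup_smul, Subgroup.mem_pointwise_smul_iff_inv_smul_mem] at hx'
    have hx'' : g⁻¹ * x * g ∈ (P' : Subgroup G) := by
      simpa [MulAut.smul_def] using hx'
    have := hP' hx''
    rw [Subgroup.mem_centralizer_iff] at this
    have h2 := this u rfl
    -- h2 : u * (g⁻¹ * x * g) = g⁻¹ * x * g * u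
    calc x * (g * u * g⁻¹) = g * ((g⁻¹ * x * g) * u) * g⁻¹ := by
          simp only [mul_assoc, mul_inv_cancel_left]
      _ = g * (u * (g⁻¹ * x * g)) * g⁻¹ := by rw [h2]
      _ = g * u * g⁻¹ * x := by
          simp only [mul_assoc, mul_inv_cancel_left, mul_inv_cancel, mul_one]
  rcases hPcent _ hconj with h | h
  · exfalso; apply hu1
    have : u = g⁻¹ * (g * u * g⁻¹) * g := by
      simp only [mul_assoc, inv_mul_cancel_left, inv_mul_cancel, mul_one]
    rw [this, h, mul_one, inv_mul_cancel]
  · exact (isConj_iff.mpr ⟨g, h⟩).symm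

end Cfsg.Agent.S0481
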