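import Mathlib
import Cfsg.Statements.S0493
import Cfsg.Agent.Helper4.SimpleSmall

set_option autoImplicit false
open Cfsg

namespace Cfsg.Agent.S0493

open Cfsg.Agent.Helper4

theorem not_84 {G : Type*} [Group G] [Finite G] [IsSimpleGroup G] : Nat.card G ≠ 84 := by
  intro h
  haveI : Fact (Nat.Prime 7) := ⟨by norm_num⟩
  obtain ⟨P⟩ : Nonempty (Sylow 7 G) := inferInstance
  obtain ⟨k, hk⟩ := P.2.exists_card_eq
  have hdvd : Nat.card (P : Subgroup G) ∣ 84 := h ▸ Subgroup.card_subgroup_dvd_card _
  have hne : (P : Subgroup G) ≠ ⊥ := P.ne_bot_of_dvd_card (by rw [h]; norm_num)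
  have hk1 : k = 1 := by
    rw [hk] at hdvd
    rcases k with _ | _ | k
    · exfalso; apply hne; rw [← Subgroup.card_eq_one, hk]; rfl
    · rfl
    · exfalso
      have h49 : 7 ^ 2 ∣ 84 := (pow_dvd_pow 7 (by omega)).trans hdvd
      norm_num at h49
  rw [hk1, pow_one] at hk
  have hidx : (P : Subgroup G).index = 12 := by
    have := Subgroup.card_mul_index (P : Subgroup G)
    rw [hk, h] at this; omega
  have h1 := card_sylow_modEq_one 7 G
  have h2 := P.card_dvd_index
  rw [hidx] at h2
  have hone : Nat.card (Sylow 7 G) = 1 := by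
    have hle : Nat.card (Sylow 7 G) ≤ 12 := Nat.le_of_dvd (by norm_num) h2
    unfold Nat.ModEq at h1
    generalize Nat.card (Sylow 7 G) = m at h1 h2 hle ⊢
    interval_cases m <;> omega
  exact card_sylow_ne_one P (by rw [hk]; norm_num) (by rw [hk, h]; norm_num) hone

/-- A finite simple group of order at most 100 that is not cyclic has order 60. -/
theorem result {G : Type*} [Group G] [Finite G] [IsSimpleGroup G]
    (hG : ¬ IsCyclic G) (h : Nat.card G ≤ 100) : Nat.card G = 60 := by
  have hpq := card_ne_prime_pow_mul hG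
  have hsq := sq_minFac_dvd hG
  have h4 : 2 ∣ Nat.card G → 4 ∣ Nat.card G := by
    intro h2
    have hm : (Nat.card G).minFac = 2 := (Nat.minFac_eq_two_iff _).2 h2
    rw [hm] at hsq
    exact hsq
  have h84 : Nat.card G ≠ 84 := not_84
  have hpos : 0 < Nat.card G := Nat.card_pos
  clear hsq
  generalize Nat.card G = n at h hpq h4 h84 hpos ⊢
  interval_cases n
  · exact absurd (by norm_num) (hpq 2 3 0 0 (by norm_num) (by norm_num))
  · exact absurd (by norm_num) (hpq 2 3 1 0 (by norm_num) (by norm_num))
  · exact absurd (by norm_num) (hpq 3 2 1 0 (by norm_num) (by norm_num))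
  · exact absurd (by norm_num) (hpq 2 3 2 0 (by norm_num) (by norm_num))
  · exact absurd (by norm_num) (hpq 5 2 1 0 (by norm_num) (by norm_num))
  · exact absurd (by norm_num) (hpq 2 3 1 1 (by norm_num) (by norm_num))
  · exact absurd (by norm_num) (hpq 7 2 1 0 (by norm_num) (by norm_num))
  · exact absurd (by norm_num) (hpq 2 3 3 0 (by norm_num) (by norm_num))
  · exact absurd (by norm_num) (hpq 3 2 2 0 (by norm_num) (by norm_num))
  · exact absurd (by norm_num) (hpq 2 5 1 1 (by norm_num) (by norm_num))
  · exact absurd (by norm_num) (hpq 11 2 1 0 (by norm_num) (by norm_num))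
  · exact absurd (by norm_num) (hpq 2 3 2 1 (by norm_num) (by norm_num))
  · exact absurd (by norm_num) (hpq 13 2 1 0 (by norm_num) (by norm_num))
  · exact absurd (by norm_num) (hpq 2 7 1 1 (by norm_num) (by norm_num))
  · exact absurd (by norm_num) (hpq 3 5 1 1 (by norm_num) (by norm_num))
  · exact absurd (by norm_num) (hpq 2 3 4 0 (by norm_num) (by norm_num))
  · exact absurd (by norm_num) (hpq 17 2 1 0 (by norm_num) (by norm_num))
  · exact absurd (by norm_num) (hpq 2 3 1 2 (by norm_num) (by norm_num))
  · exact absurd (by norm_num) (hpq 19 2 1 0 (by norm_num) (by norm_num))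
  · exact absurd (by norm_num) (hpq 2 5 2 1 (by norm_num) (by norm_num))
  · exact absurd (by norm_num) (hpq 3 7 1 1 (by norm_num) (by norm_num))
  · exact absurd (by norm_num) (hpq 2 11 1 1 (by norm_num) (by norm_num))
  · exact absurd (by norm_num) (hpq 23 2 1 0 (by norm_num) (by norm_num))
  · exact absurd (by norm_num) (hpq 2 3 3 1 (by norm_num) (by norm_num))
  · exact absurd (by norm_num) (hpq 5 2 2 0 (by norm_num) (by norm_num))
  · exact absurd (by norm_num) (hpq 2 13 1 1 (by norm_num) (by norm_num))
  · exact absurd (by norm_num) (hpq 3 2 3 0 (by norm_num) (by norm_num))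
  · exact absurd (by norm_num) (hpq 2 7 2 1 (by norm_num) (by norm_num))
  · exact absurd (by norm_num) (hpq 29 2 1 0 (by norm_num) (by norm_num))
  · exact absurd (h4 (by decide)) (by decide)
  · exact absurd (by norm_num) (hpq 31 2 1 0 (by norm_num) (by norm_num))
  · exact absurd (by norm_num) (hpq 2 3 5 0 (by norm_num) (by norm_num))
  · exact absurd (by norm_num) (hpq 3 11 1 1 (by norm_num) (by norm_num))
  · exact absurd (by norm_num) (hpq 2 17 1 1 (by norm_num) (by norm_num))
  · exact absurd (by norm_num) (hpq 5 7 1 1 (by norm_num) (by norm_num))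
  · exact absurd (by norm_num) (hpq 2 3 2 2 (by norm_num) (by norm_num))
  · exact absurd (by norm_num) (hpq 37 2 1 0 (by norm_num) (by norm_num))
  · exact absurd (by norm_num) (hpq 2 19 1 1 (by norm_num) (by norm_num))
  · exact absurd (by norm_num) (hpq 3 13 1 1 (by norm_num) (by norm_num))
  · exact absurd (by norm_num) (hpq 2 5 3 1 (by norm_num) (by norm_num))
  · exact absurd (by norm_num) (hpq 41 2 1 0 (by norm_num) (by norm_num))
  · exact absurd (h4 (by decide)) (by decide)
  · exact absurd (by norm_num) (hpq 43 2 1 0 (by norm_num) (by norm_num))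
  · exact absurd (by norm_num) (hpq 2 11 2 1 (by norm_num) (by norm_num))
  · exact absurd (by norm_num) (hpq 3 5 2 1 (by norm_num) (by norm_num))
  · exact absurd (by norm_num) (hpq 2 23 1 1 (by norm_num) (by norm_num))
  · exact absurd (by norm_num) (hpq 47 2 1 0 (by norm_num) (by norm_num))
  · exact absurd (by norm_num) (hpq 2 3 4 1 (by norm_num) (by norm_num))
  · exact absurd (by norm_num) (hpq 7 2 2 0 (by norm_num) (by norm_num))
  · exact absurd (by norm_num) (hpq 2 5 1 2 (by norm_num) (by norm_num))
  · exact absurd (by norm_num) (hpq 3 17 1 1 (by norm_num) (by norm_num))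
  · exact absurd (by norm_num) (hpq 2 13 2 1 (by norm_num) (by norm_num))
  · exact absurd (by norm_num) (hpq 53 2 1 0 (by norm_num) (by norm_num))
  · exact absurd (by norm_num) (hpq 2 3 1 3 (by norm_num) (by norm_num))
  · exact absurd (by norm_num) (hpq 5 11 1 1 (by norm_num) (by norm_num))
  · exact absurd (by norm_num) (hpq 2 7 3 1 (by norm_num) (by norm_num))
  · exact absurd (by norm_num) (hpq 3 19 1 1 (by norm_num) (by norm_num))
  · exact absurd (by norm_num) (hpq 2 29 1 1 (by norm_num) (by norm_num))
  · exact absurd (by norm_num) (hpq 59 2 1 0 (by norm_num) (by norm_num))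
  · rfl
  · exact absurd (by norm_num) (hpq 61 2 1 0 (by norm_num) (by norm_num))
  · exact absurd (by norm_num) (hpq 2 31 1 1 (by norm_num) (by norm_num))
  · exact absurd (by norm_num) (hpq 3 7 2 1 (by norm_num) (by norm_num))
  · exact absurd (by norm_num) (hpq 2 3 6 0 (by norm_num) (by norm_num))
  · exact absurd (by norm_num) (hpq 5 13 1 1 (by norm_num) (by norm_num))
  · exact absurd (h4 (by decide)) (by decide)
  · exact absurd (by norm_num) (hpq 67 2 1 0 (by norm_num) (by norm_num))
  · exact absurd (by norm_num) (hpq 2 17 2 1 (by norm_num) (by norm_num))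
  · exact absurd (by norm_num) (hpq 3 23 1 1 (by norm_num) (by norm_num))
  · exact absurd (h4 (by decide)) (by decide)
  · exact absurd (by norm_num) (hpq 71 2 1 0 (by norm_num) (by norm_num))
  · exact absurd (by norm_num) (hpq 2 3 3 2 (by norm_num) (by norm_num))
  · exact absurd (by norm_num) (hpq 73 2 1 0 (by norm_num) (by norm_num))
  · exact absurd (by norm_num) (hpq 2 37 1 1 (by norm_num) (by norm_num))
  · exact absurd (by norm_num) (hpq 3 5 1 2 (by norm_num) (by norm_num))
  · exact absurd (by norm_num) (hpq 2 19 2 1 (by norm_num) (by norm_num))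
  · exact absurd (by norm_num) (hpq 7 11 1 1 (by norm_num) (by norm_num))
  · exact absurd (h4 (by decide)) (by decide)
  · exact absurd (by norm_num) (hpq 79 2 1 0 (by norm_num) (by norm_num))
  · exact absurd (by norm_num) (hpq 2 5 4 1 (by norm_num) (by norm_num))
  · exact absurd (by norm_num) (hpq 3 2 4 0 (by norm_num) (by norm_num))
  · exact absurd (by norm_num) (hpq 2 41 1 1 (by norm_num) (by norm_num))
  · exact absurd (by norm_num) (hpq 83 2 1 0 (by norm_num) (by norm_num))
  · exact absurd rfl h84
  · exact absurd (by norm_num) (hpq 5 17 1 1 (by norm_num) (by norm_num))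
  · exact absurd (by norm_num) (hpq 2 43 1 1 (by norm_num) (by norm_num))
  · exact absurd (by norm_num) (hpq 3 29 1 1 (by norm_num) (by norm_num))
  · exact absurd (by norm_num) (hpq 2 11 3 1 (by norm_num) (by norm_num))
  · exact absurd (by norm_num) (hpq 89 2 1 0 (by norm_num) (by norm_num))
  · exact absurd (h4 (by decide)) (by decide)
  · exact absurd (by norm_num) (hpq 7 13 1 1 (by norm_num) (by norm_num))
  · exact absurd (by norm_num) (hpq 2 23 2 1 (by norm_num) (by norm_num))
  · exact absurd (by norm_num) (hpq 3 31 1 1 (by norm_num) (by norm_num))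
  · exact absurd (by norm_num) (hpq 2 47 1 1 (by norm_num) (by norm_num))
  · exact absurd (by norm_num) (hpq 5 19 1 1 (by norm_num) (by norm_num))
  · exact absurd (by norm_num) (hpq 2 3 5 1 (by norm_num) (by norm_num))
  · exact absurd (by norm_num) (hpq 97 2 1 0 (by norm_num) (by norm_num))
  · exact absurd (by norm_num) (hpq 2 7 1 2 (by norm_num) (by norm_num))
  · exact absurd (by norm_num) (hpq 3 11 2 1 (by norm_num) (by norm_num))
  · exact absurd (by norm_num) (hpq 2 5 2 2 (by norm_num) (by norm_num))

end Cfsg.Agent.S0493
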