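import Cfsg.Statements.S0495
import Mathlib
import Cfsg.Agent.Helper29.Zas.P7
import Cfsg.Agent.Helper29.Zas.PSL

set_option autoImplicit false
open Cfsg

namespace Cfsg.Agent.S0495

theorem result {G : Type*} [Group G] [Finite G] [IsSimpleGroup G]
    (h : Nat.card G = 168) {F : Type*} [Field F] [Fintype F] (hF : Fintype.card F = 7) :
    Nonempty (G ≃* Matrix.ProjectiveSpecialLinearGroup (Fin 2) F) := by
  obtain ⟨hs, hc⟩ := Cfsg.Agent.Helper29.Zas.psl_simple_card (F := F) 7 hF (by decide) (by norm_num)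
  haveI := hs
  have hc' : Nat.card (Matrix.ProjectiveSpecialLinearGroup (Fin 2) F) = 168 := by omega
  exact Cfsg.Agent.Helper29.Zas.iso7 h hc'

end Cfsg.Agent.S0495
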