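import Cfsg.Statements.S0497
import Mathlib
import Cfsg.Agent.Helper17.L27.A5Pres

set_option autoImplicit false
open Cfsg

namespace Cfsg.Agent.S0497

theorem fact_aux (p k m : ℕ) (hp : p.Prime) (hm : ¬ p ∣ m) (hm0 : m ≠ 0) :
    (p ^ k * m).factorization p = k := by
  rw [Nat.factorization_mul (pow_ne_zero _ hp.ne_zero) hm0, Nat.Prime.factorization_pow hp]
  simp [Nat.factorization_eq_zero_of_not_dvd hm]

instance fact2 : Fact (Nat.Prime 2) := ⟨by norm_num⟩
instance fact3 : Fact (Nat.Prime 3) := ⟨by norm_num⟩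
instance fact5 : Fact (Nat.Prime 5) := ⟨by norm_num⟩

section
variable {G : Type*} [Group G] [Finite G] [IsSimpleGroup G]

theorem perm_inj (H : Subgroup G) (hH : H ≠ ⊤) :
    Function.Injective (MulAction.toPermHom G (G ⧸ H)) := by
  have hker : (MulAction.toPermHom G (G ⧸ H)).ker = ⊥ := by
    rw [← Subgroup.normalCore_eq_ker]
    rcases IsSimpleGroup.eq_bot_or_eq_top_of_normal H.normalCore inferInstance with h' | h'
    · exact h'
    · exfalso
      apply hH
      rw [eq_top_iff, ← h']
      exact Subgroup.normalCore_le H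
  exact (MonoidHom.ker_eq_bot_iff _).mp hker

theorem index_ge (h : Nat.card G = 360) (H : Subgroup G) (hH : H ≠ ⊤) : 6 ≤ H.index := by
  classical
  have hinj := perm_inj H hH
  have hdvd : 360 ∣ (H.index).factorial := by
    have h1 : Nat.card G ∣ Nat.card (Equiv.Perm (G ⧸ H)) := by
      have := Subgroup.card_subgroup_dvd_card (MulAction.toPermHom G (G ⧸ H)).range
      rwa [← Nat.card_congr (MonoidHom.ofInjective hinj).toEquiv] at this
    rw [h, Nat.card_perm, ← Subgroup.index_eq_card] at h1
    exact h1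
  by_contra hlt
  have hlt' : H.index < 6 := by omega
  generalize H.index = k at hdvd hlt'
  interval_cases k <;> revert hdvd <;> decide

theorem iso_of_index (h : Nat.card G = 360) (H : Subgroup G) (hk : H.index = 6) :
    Nonempty (G ≃* alternatingGroup (Fin 6)) := by
  classical
  have hH : H ≠ ⊤ := by
    intro h'
    rw [h', Subgroup.index_top] at hk
    omega
  have hinj := perm_inj H hH
  have hcard6 : Nat.card (G ⧸ H) = 6 := by
    rw [← Subgroup.index_eq_card]
    exact hk
  have e : (G ⧸ H) ≃ Fin 6 := Finite.equivFinOfCardEq hcard6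
  let ψ : G →* Equiv.Perm (Fin 6) :=
    (e.permCongrHom.toMonoidHom).comp (MulAction.toPermHom G (G ⧸ H))
  have hψ : Function.Injective ψ := by
    intro a b hab
    apply hinj
    exact e.permCongrHom.injective hab
  have hrange : Nat.card ψ.range = 360 := by
    rw [← Nat.card_congr (MonoidHom.ofInjective hψ).toEquiv, h]
  have hidx : ψ.range.index = 2 := by
    have h1 := Subgroup.card_mul_index ψ.range
    rw [hrange, Nat.card_perm, Nat.card_fin] at h1
    have h720 : Nat.factorial 6 = 720 := by decide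
    omega
  have heq := Equiv.Perm.eq_alternatingGroup_of_index_eq_two hidx
  exact ⟨(MonoidHom.ofInjective hψ).trans (MulEquiv.subgroupCongr heq)⟩

theorem no_burnside {p : ℕ} [Fact p.Prime]
    (P : Sylow p G) (h1 : Nat.card (P : Subgroup G) ≠ 1)
    (h2 : Nat.card (P : Subgroup G) ≠ Nat.card G)
    (hP : Subgroup.normalizer (P : Set G) ≤ Subgroup.centralizer (P : Set G)) : False := by
  have hK := MonoidHom.ker_transferSylow_isComplement' P hP
  have hKcard := hK.card_mul_card
  rcases IsSimpleGroup.eq_bot_or_eq_top_of_normal _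
    (MonoidHom.normal_ker (MonoidHom.transferSylow P hP)) with h' | h'
  · rw [h', Subgroup.card_bot, one_mul] at hKcard
    exact h2 hKcard
  · rw [h', Subgroup.card_top] at hKcard
    have hpos : 0 < Nat.card G := Nat.card_pos
    exact h1 (Nat.eq_of_mul_eq_mul_left hpos (hKcard.trans (mul_one _).symm))

theorem card_syl3 (h : Nat.card G = 360) (P : Sylow 3 G) :
    Nat.card (P : Subgroup G) = 9 := by
  have h1 := Sylow.card_eq_multiplicity P
  rw [h] at h1
  have e : (360 : ℕ) = 3 ^ 2 * 40 := by norm_num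
  rw [e, fact_aux 3 2 40 (by norm_num) (by norm_num) (by norm_num)] at h1
  simpa using h1

theorem card_syl5 (h : Nat.card G = 360) (P : Sylow 5 G) :
    Nat.card (P : Subgroup G) = 5 := by
  have h1 := Sylow.card_eq_multiplicity P
  rw [h] at h1
  have e : (360 : ℕ) = 5 ^ 1 * 72 := by norm_num
  rw [e, fact_aux 5 1 72 (by norm_num) (by norm_num) (by norm_num)] at h1
  simpa using h1

theorem card_syl2 (h : Nat.card G = 360) (P : Sylow 2 G) :
    Nat.card (P : Subgroup G) = 8 := by
  have h1 := Sylow.card_eq_multiplicity P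
  rw [h] at h1
  have e : (360 : ℕ) = 2 ^ 3 * 45 := by norm_num
  rw [e, fact_aux 2 3 45 (by norm_num) (by norm_num) (by norm_num)] at h1
  simpa using h1

theorem norm_ne_top {p : ℕ} [Fact p.Prime] (P : Sylow p G)
    (h1 : Nat.card (P : Subgroup G) ≠ 1) (h2 : Nat.card (P : Subgroup G) ≠ Nat.card G) :
    Subgroup.normalizer (P : Set G) ≠ ⊤ := by
  intro hN'
  have hnorm : (P : Subgroup G).Normal := Subgroup.normalizer_eq_top_iff.mp hN'
  rcases IsSimpleGroup.eq_bot_or_eq_top_of_normal (P : Subgroup G) hnorm with h' | h'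
  · rw [h', Subgroup.card_bot] at h1
    exact h1 rfl
  · rw [h', Subgroup.card_top] at h2
    exact h2 rfl

theorem n3 (h : Nat.card G = 360) (P : Sylow 3 G) :
    Nat.card (Sylow 3 G) = 10 ∧ Nat.card (Subgroup.normalizer (P : Set G)) = 36 := by
  have hP9 := card_syl3 h P
  have hPidx : (P : Subgroup G).index = 40 := by
    have := Subgroup.card_mul_index (P : Subgroup G)
    rw [hP9, h] at this
    omega
  have h1 := card_sylow_modEq_one 3 G
  have h2 := P.card_dvd_index
  rw [hPidx] at h2
  have h3 := P.card_eq_index_normalizer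
  have hNne : Subgroup.normalizer (P : Set G) ≠ ⊤ :=
    norm_ne_top P (by rw [hP9]; norm_num) (by rw [hP9, h]; norm_num)
  have h4 := index_ge h _ hNne
  rw [← h3] at h4
  have hNcard := Subgroup.card_mul_index (Subgroup.normalizer (P : Set G))
  rw [← h3, h] at hNcard
  have hle : Nat.card (Sylow 3 G) ≤ 40 := Nat.le_of_dvd (by norm_num) h2
  have hcases : Nat.card (Sylow 3 G) = 10 ∨ Nat.card (Sylow 3 G) = 40 := by
    unfold Nat.ModEq at h1
    generalize Nat.card (Sylow 3 G) = m at h1 h2 hle h4 ⊢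
    interval_cases m <;> omega
  rcases hcases with h10 | h40
  · refine ⟨h10, ?_⟩
    rw [h10] at hNcard
    omega
  · exfalso
    rw [h40] at hNcard
    have hN9 : Nat.card (Subgroup.normalizer (P : Set G)) = 9 := by omega
    have hPN : (P : Subgroup G) = Subgroup.normalizer (P : Set G) :=
      Subgroup.eq_of_le_of_card_ge Subgroup.le_normalizer (by rw [hN9, hP9])
    have hcomm := IsPGroup.commutative_of_card_eq_prime_sq (p := 3) (G := (P : Subgroup G))
      (by rw [hP9]; norm_num)
    have hP : Subgroup.normalizer (P : Set G) ≤ Subgroup.centralizer (P : Set G) := by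
      intro x hx
      rw [← hPN] at hx
      rw [Subgroup.mem_centralizer_iff]
      intro y hy
      have := hcomm ⟨y, hy⟩ ⟨x, hx⟩
      exact congrArg Subtype.val this
    exact no_burnside P (by rw [hP9]; norm_num) (by rw [hP9, h]; norm_num) hP

theorem n5 (h : Nat.card G = 360) (Z : Sylow 5 G) :
    Nat.card (Sylow 5 G) = 36 ∨ (Subgroup.normalizer (Z : Set G)).index = 6 := by
  have hZ5 := card_syl5 h Z
  have hZidx : (Z : Subgroup G).index = 72 := by
    have := Subgroup.card_mul_index (Z : Subgroup G)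
    rw [hZ5, h] at this
    omega
  have h1 := card_sylow_modEq_one 5 G
  have h2 := Z.card_dvd_index
  rw [hZidx] at h2
  have h3 := Z.card_eq_index_normalizer
  have hNne : Subgroup.normalizer (Z : Set G) ≠ ⊤ :=
    norm_ne_top Z (by rw [hZ5]; norm_num) (by rw [hZ5, h]; norm_num)
  have h4 := index_ge h _ hNne
  rw [← h3] at h4 ⊢
  have hle : Nat.card (Sylow 5 G) ≤ 72 := Nat.le_of_dvd (by norm_num) h2
  unfold Nat.ModEq at h1
  generalize Nat.card (Sylow 5 G) = m at h1 h2 hle h4 ⊢
  interval_cases m <;> omega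

theorem stab_card (h : Nat.card G = 360) (ω : Sylow 3 G) :
    Nat.card (MulAction.stabilizer G ω) = 36 := by
  rw [Sylow.stabilizer_eq_normalizer]
  exact (n3 h ω).2

end
section
variable {G : Type*} [Group G] [Finite G] [IsSimpleGroup G]

theorem ti (h : Nat.card G = 360) (P Q : Sylow 3 G) (hPQ : P ≠ Q) :
    (P : Subgroup G) ⊓ (Q : Subgroup G) = ⊥ := by
  classical
  by_contra hD
  obtain ⟨D, hDdef⟩ : ∃ D : Subgroup G, D = (P : Subgroup G) ⊓ (Q : Subgroup G) := ⟨_, rfl⟩
  rw [← hDdef] at hD
  have hP9 := card_syl3 h P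
  have hQ9 := card_syl3 h Q
  have hDP : D ≤ (P : Subgroup G) := hDdef ▸ inf_le_left
  have hDQ : D ≤ (Q : Subgroup G) := hDdef ▸ inf_le_right
  have hcP := IsPGroup.commutative_of_card_eq_prime_sq (p := 3) (G := (P : Subgroup G))
    (by rw [hP9]; norm_num)
  have hcQ := IsPGroup.commutative_of_card_eq_prime_sq (p := 3) (G := (Q : Subgroup G))
    (by rw [hQ9]; norm_num)
  obtain ⟨H, hHdef⟩ : ∃ H : Subgroup G, H = Subgroup.centralizer (D : Set G) := ⟨_, rfl⟩
  have hPH : (P : Subgroup G) ≤ H := by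
    rw [hHdef]
    intro x hx
    rw [Subgroup.mem_centralizer_iff]
    intro y hy
    have := hcP ⟨y, hDP hy⟩ ⟨x, hx⟩
    exact congrArg Subtype.val this
  have hQH : (Q : Subgroup G) ≤ H := by
    rw [hHdef]
    intro x hx
    rw [Subgroup.mem_centralizer_iff]
    intro y hy
    have := hcQ ⟨y, hDQ hy⟩ ⟨x, hx⟩
    exact congrArg Subtype.val this
  have hHne : H ≠ ⊤ := by
    intro hH
    have hDn : D.Normal := by
      refine ⟨fun d hd g => ?_⟩
      have hg : g ∈ Subgroup.centralizer (D : Set G) := by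
        rw [← hHdef, hH]
        trivial
      have := (Subgroup.mem_centralizer_iff.mp hg) d hd
      rw [← this, mul_inv_cancel_right]
      exact hd
    rcases IsSimpleGroup.eq_bot_or_eq_top_of_normal D hDn with h' | h'
    · exact hD h'
    · have hle : Nat.card D ≤ Nat.card (P : Subgroup G) := Subgroup.card_le_of_le hDP
      rw [h', Subgroup.card_top, h, hP9] at hle
      omega
  have h6 := index_ge h H hHne
  have hHc := Subgroup.card_mul_index H
  rw [h] at hHc
  have h9H : 9 ∣ Nat.card H := hP9 ▸ Subgroup.card_dvd_of_le hPH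
  obtain ⟨P', hP'⟩ : ∃ P' : Sylow 3 H, P' = P.subtype hPH := ⟨_, rfl⟩
  obtain ⟨Q', hQ'⟩ : ∃ Q' : Sylow 3 H, Q' = Q.subtype hQH := ⟨_, rfl⟩
  have hne' : P' ≠ Q' := by
    intro heq
    apply hPQ
    have h1 : (P' : Subgroup H) = (Q' : Subgroup H) := by rw [heq]
    rw [hP', hQ', Sylow.coe_subtype, Sylow.coe_subtype, Subgroup.subgroupOf_inj] at h1
    rw [inf_eq_left.mpr hPH, inf_eq_left.mpr hQH] at h1
    exact Sylow.ext h1
  have hn1 := card_sylow_modEq_one 3 H
  have hn2 := P'.card_dvd_index
  have hP'9 : Nat.card (P' : Subgroup H) = 9 := by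
    rw [hP', Sylow.coe_subtype, Nat.card_congr (Subgroup.subgroupOfEquivOfLe hPH).toEquiv, hP9]
  have hP'idx := Subgroup.card_mul_index (P' : Subgroup H)
  rw [hP'9] at hP'idx
  have hn3 : Nat.card (Sylow 3 H) ≠ 1 := by
    intro hone
    haveI : Subsingleton (Sylow 3 H) := (Nat.card_eq_one_iff_unique.1 hone).1
    exact hne' (Subsingleton.elim _ _)
  have hH36 : Nat.card H = 36 ∧ Nat.card (Sylow 3 H) = 4 := by
    obtain ⟨m, hm⟩ := h9H
    have hidx : (P' : Subgroup H).index = m := by
      rw [hm] at hP'idx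
      omega
    rw [hidx] at hn2
    have hm40 : m * H.index = 40 := by
      rw [hm] at hHc
      nlinarith
    have hmle : m ≤ 6 := by
      by_contra hc
      have h7 : 7 ≤ m := by omega
      have := Nat.mul_le_mul h7 h6
      rw [hm40] at this
      omega
    have hmpos : 0 < m := by
      rcases Nat.eq_zero_or_pos m with h0 | h0
      · rw [h0] at hm40
        omega
      · exact h0
    have hnle : Nat.card (Sylow 3 H) ≤ m := Nat.le_of_dvd hmpos hn2
    unfold Nat.ModEq at hn1
    generalize Nat.card (Sylow 3 H) = n at hn1 hn2 hn3 hnle ⊢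
    generalize H.index = k at hm40 h6
    rw [hm]
    interval_cases m <;> interval_cases n <;> omega
  obtain ⟨hH36, hn4⟩ := hH36
  have hNP' : Nat.card (Subgroup.normalizer (P' : Set H)) = 9 := by
    have e1 := P'.card_eq_index_normalizer
    have e2 := Subgroup.card_mul_index (Subgroup.normalizer (P' : Set H))
    rw [← e1, hn4, hH36] at e2
    omega
  have hPN' : (P' : Subgroup H) = Subgroup.normalizer (P' : Set H) :=
    Subgroup.eq_of_le_of_card_ge Subgroup.le_normalizer (by rw [hNP', hP'9])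
  have hcP' := IsPGroup.commutative_of_card_eq_prime_sq (p := 3) (G := (P' : Subgroup H))
    (by rw [hP'9]; norm_num)
  have hBurn : Subgroup.normalizer (P' : Set H) ≤ Subgroup.centralizer (P' : Set H) := by
    intro x hx
    rw [← hPN'] at hx
    rw [Subgroup.mem_centralizer_iff]
    intro y hy
    have := hcP' ⟨y, hy⟩ ⟨x, hx⟩
    exact congrArg Subtype.val this
  have hK := MonoidHom.ker_transferSylow_isComplement' P' hBurn
  have hKcard := hK.card_mul_card
  rw [hP'9, hH36] at hKcard
  obtain ⟨K, hKdef⟩ : ∃ K : Subgroup H, K = (MonoidHom.transferSylow P' hBurn).ker := ⟨_, rfl⟩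
  have hKn : K.Normal := by
    rw [hKdef]
    exact MonoidHom.normal_ker _
  have hK4 : Nat.card K = 4 := by
    rw [hKdef]
    omega
  obtain ⟨T, hTdef⟩ : ∃ T : Subgroup G, T = K.map H.subtype := ⟨_, rfl⟩
  have hT4 : Nat.card T = 4 := by
    rw [hTdef, Subgroup.card_map_of_injective H.subtype_injective]
    exact hK4
  obtain ⟨M, hMdef⟩ : ∃ M : Subgroup G, M = Subgroup.normalizer (T : Set G) := ⟨_, rfl⟩
  have hHT : H ≤ M := by
    have h1 := Subgroup.le_normalizer_map (H := K) H.subtype
    have h2 : Subgroup.normalizer (K : Set H) = ⊤ := Subgroup.normalizer_eq_top_iff.mpr hKn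
    rw [h2, ← MonoidHom.range_eq_map, Subgroup.range_subtype] at h1
    rw [hMdef, hTdef]
    exact h1
  have hTp : IsPGroup 2 T := IsPGroup.of_card (n := 2) (by rw [hT4]; norm_num)
  obtain ⟨S, hTS⟩ := hTp.exists_le_sylow
  have hS8 := card_syl2 h S
  have hTSn : (T.subgroupOf (S : Subgroup G)).Normal := by
    apply Subgroup.normal_of_index_eq_two
    have e1 := Subgroup.card_mul_index (T.subgroupOf (S : Subgroup G))
    rw [Nat.card_congr (Subgroup.subgroupOfEquivOfLe hTS).toEquiv, hT4, hS8] at e1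
    omega
  have hST : (S : Subgroup G) ≤ M := by
    rw [hMdef]
    exact (Subgroup.normal_subgroupOf_iff_le_normalizer hTS).mp hTSn
  have d1 : 36 ∣ Nat.card M := hH36 ▸ Subgroup.card_dvd_of_le hHT
  have d2 : 8 ∣ Nat.card M := hS8 ▸ Subgroup.card_dvd_of_le hST
  have hMc := Subgroup.card_mul_index M
  rw [h] at hMc
  have hMtop : M = ⊤ := by
    by_contra hne
    have h6' := index_ge h M hne
    have d3 : 72 ∣ Nat.card M := by omega
    obtain ⟨c, hc⟩ := d3
    rw [hc] at hMc
    rcases Nat.eq_zero_or_pos c with h0 | h0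
    · rw [h0] at hMc
      simp at hMc
    · have := Nat.mul_le_mul (Nat.mul_le_mul_left 72 h0) h6'
      rw [hMc] at this
      omega
  have hTn : T.Normal := by
    apply Subgroup.normalizer_eq_top_iff.mp
    rw [← hMdef]
    exact hMtop
  rcases IsSimpleGroup.eq_bot_or_eq_top_of_normal T hTn with h' | h'
  · rw [h', Subgroup.card_bot] at hT4
    omega
  · rw [h', Subgroup.card_top, h] at hT4
    omega

theorem free (h : Nat.card G = 360) (ω ω' : Sylow 3 G) (hne : ω ≠ ω') (y : G)
    (hy : y ∈ (ω : Subgroup G)) (hfix : y • ω' = ω') : y = 1 := by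
  have hstab : y ∈ MulAction.stabilizer G ω' := hfix
  have hz : Subgroup.zpowers y ≤ MulAction.stabilizer G ω' := by
    rw [Subgroup.zpowers_le]
    exact hstab
  have hfp : ω' ∈ MulAction.fixedPoints (Subgroup.zpowers y) (Sylow 3 G) := by
    intro g
    exact hz g.2
  have hle : Subgroup.zpowers y ≤ (ω : Subgroup G) := by
    rw [Subgroup.zpowers_le]
    exact hy
  have hp : IsPGroup 3 (Subgroup.zpowers y) := IsPGroup.to_le ω.2 hle
  rw [hp.sylow_mem_fixedPoints_iff] at hfp
  have hy' : y ∈ (ω' : Subgroup G) := hfp (Subgroup.mem_zpowers y)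
  have hmem : y ∈ (ω : Subgroup G) ⊓ (ω' : Subgroup G) := ⟨hy, hy'⟩
  rw [ti h ω ω' hne] at hmem
  exact Subgroup.mem_bot.mp hmem

theorem smul_self (ω : Sylow 3 G) (y : G) (hy : y ∈ (ω : Subgroup G)) : y • ω = ω :=
  Sylow.smul_eq_iff_mem_normalizer.mpr (Subgroup.le_normalizer hy)

theorem two_stab (h : Nat.card G = 360) (ω ω' : Sylow 3 G) (hne : ω ≠ ω') :
    Nat.card ↥(MulAction.stabilizer G ω ⊓ MulAction.stabilizer G ω') ≤ 4 := by
  have hN := stab_card h ω
  have hP9 := card_syl3 h ω
  have hPN : (ω : Subgroup G) ≤ MulAction.stabilizer G ω := fun y hy => smul_self ω y hy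
  let f : ↥(ω : Subgroup G) × ↥(MulAction.stabilizer G ω ⊓ MulAction.stabilizer G ω') →
      ↥(MulAction.stabilizer G ω) :=
    fun p => ⟨p.1.1 * p.2.1, mul_mem (hPN p.1.2) p.2.2.1⟩
  have hf : Function.Injective f := by
    rintro ⟨⟨y, hy⟩, ⟨c, hc⟩⟩ ⟨⟨y', hy'⟩, ⟨c', hc'⟩⟩ heq
    have heq' : y * c = y' * c' := congrArg Subtype.val heq
    have hmem : y'⁻¹ * y ∈ (ω : Subgroup G) := mul_mem (inv_mem hy') hy
    have hyc : y'⁻¹ * y = c' * c⁻¹ := by
      rw [inv_mul_eq_iff_eq_mul, ← mul_assoc, ← heq', mul_inv_cancel_right]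
    have hfix : (y'⁻¹ * y) • ω' = ω' := by
      rw [hyc]
      exact (mul_mem hc'.2 (inv_mem hc.2) : c' * c⁻¹ ∈ MulAction.stabilizer G ω')
    have h1 := free h ω ω' hne _ hmem hfix
    have hyy : y = y' := by
      rw [inv_mul_eq_one] at h1
      exact h1.symm
    subst hyy
    have hcc : c = c' := mul_left_cancel heq'
    subst hcc
    rfl
  have hle := Nat.card_le_card_of_injective f hf
  rw [Nat.card_prod, hP9, hN] at hle
  omega

theorem fpf_card (h : Nat.card G = 360) (s : Finset G)
    (hs : ∀ g ∈ s, ∀ ω : Sylow 3 G, g • ω ≠ ω) : s.card ≤ 144 := by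
  classical
  haveI : Fintype G := Fintype.ofFinite G
  haveI : Fintype (Sylow 3 G) := Fintype.ofFinite _
  obtain ⟨ω₀⟩ : Nonempty (Sylow 3 G) := inferInstance
  have hΩ : Fintype.card (Sylow 3 G) = 10 := by
    rw [← Nat.card_eq_fintype_card]
    exact (n3 h ω₀).1
  let Fx : G → Finset (Sylow 3 G) := fun g => Finset.univ.filter (fun ω => g • ω = ω)
  have S1 : ∑ g : G, (Fx g).card = 360 := by
    have e1 : ∀ g : G, (Fx g).card = ∑ ω : Sylow 3 G, if g • ω = ω then 1 else 0 := by
      intro g
      exact Finset.card_filter _ _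
    simp_rw [e1]
    rw [Finset.sum_comm]
    have e2 : ∀ ω : Sylow 3 G, (∑ g : G, if g • ω = ω then 1 else 0) = 36 := by
      intro ω
      rw [← Finset.card_filter]
      rw [← Nat.subtype_card (Finset.univ.filter (fun g : G => g • ω = ω))
        (p := fun g => g ∈ MulAction.stabilizer G ω) (by intro x; simp)]
      exact stab_card h ω
    simp_rw [e2]
    rw [Finset.sum_const, Finset.card_univ, hΩ]
    rfl
  have S2 : ∑ g : G, (Fx g).offDiag.card ≤ 360 := by
    have e1 : ∀ g : G, (Fx g).offDiag.card =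
        ∑ p ∈ (Finset.univ : Finset (Sylow 3 G)).offDiag,
          if (g • p.1 = p.1 ∧ g • p.2 = p.2) then 1 else 0 := by
      intro g
      rw [← Finset.card_filter]
      congr 1
      ext ⟨a, b⟩
      simp only [Finset.mem_offDiag, Finset.mem_filter, Finset.mem_univ, true_and, Fx]
      tauto
    simp_rw [e1]
    rw [Finset.sum_comm]
    have e2 : ∀ p ∈ (Finset.univ : Finset (Sylow 3 G)).offDiag,
        (∑ g : G, if (g • p.1 = p.1 ∧ g • p.2 = p.2) then 1 else 0) ≤ 4 := by
      intro p hp
      rw [← Finset.card_filter]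
      have hne : p.1 ≠ p.2 := (Finset.mem_offDiag.mp hp).2.2
      rw [← Nat.subtype_card (Finset.univ.filter (fun g : G => g • p.1 = p.1 ∧ g • p.2 = p.2))
        (p := fun g => g ∈ MulAction.stabilizer G p.1 ⊓ MulAction.stabilizer G p.2)
        (by intro x; simp [Subgroup.mem_inf])]
      exact two_stab h p.1 p.2 hne
    refine (Finset.sum_le_sum e2).trans ?_
    rw [Finset.sum_const, Finset.offDiag_card, Finset.card_univ, hΩ]
    rfl
  have h1s : (1 : G) ∉ s := by
    intro h1
    exact hs 1 h1 ω₀ (one_smul _ _)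
  have hpt : ∀ g : G, 2 * (Fx g).card + ((if g = 1 then 72 else 0) + (if g ∈ s then 2 else 0)) ≤
      (Fx g).offDiag.card + 2 := by
    intro g
    rw [Finset.offDiag_card]
    have hle : (Fx g).card ≤ 10 := by
      have := Finset.card_le_univ (Fx g)
      rw [hΩ] at this
      exact this
    by_cases hg1 : g = 1
    · subst hg1
      have h10 : (Fx 1).card = 10 := by
        have hu : Fx 1 = Finset.univ := by
          ext ω
          simp [Fx]
        rw [hu, Finset.card_univ, hΩ]
      rw [h10, if_pos rfl, if_neg h1s]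
    · rw [if_neg hg1]
      by_cases hgs : g ∈ s
      · have h0 : (Fx g).card = 0 := by
          rw [Finset.card_eq_zero, Finset.filter_eq_empty_iff]
          intro ω _
          exact hs g hgs ω
        rw [h0, if_pos hgs]
      · rw [if_neg hgs]
        generalize (Fx g).card = a at hle ⊢
        interval_cases a <;> simp
  have hsum := Finset.sum_le_sum (fun g (_ : g ∈ (Finset.univ : Finset G)) => hpt g)
  simp only [Finset.sum_add_distrib, ← Finset.mul_sum] at hsum
  have c1 : ∑ g : G, (if g = 1 then 72 else 0) = 72 := by simp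
  have c2 : ∑ g : G, (if g ∈ s then 2 else 0) = 2 * s.card := by
    rw [← Finset.sum_filter]
    simp [mul_comm]
  have c3 : ∑ _g : G, 2 = 720 := by
    rw [Finset.sum_const, Finset.card_univ, ← Nat.card_eq_fintype_card, h]
    rfl
  rw [S1, c1, c2, c3] at hsum
  omega

theorem e5_card (h : Nat.card G = 360) (h5 : Nat.card (Sylow 5 G) = 36) :
    ∃ E : Finset G, (∀ x ∈ E, orderOf x = 5) ∧ 144 ≤ E.card := by
  classical
  haveI : Fintype G := Fintype.ofFinite G
  haveI : Fintype (Sylow 5 G) := Fintype.ofFinite _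
  let t : Sylow 5 G → Finset G :=
    fun Z => (Finset.univ.filter (fun x : G => x ∈ (Z : Subgroup G))).erase 1
  have ht_card : ∀ Z : Sylow 5 G, (t Z).card = 4 := by
    intro Z
    have hZ5 := card_syl5 h Z
    have h1 : (Finset.univ.filter (fun x : G => x ∈ (Z : Subgroup G))).card = 5 := by
      rw [← Nat.subtype_card (Finset.univ.filter (fun x : G => x ∈ (Z : Subgroup G)))
        (p := fun x => x ∈ (Z : Subgroup G)) (by intro x; simp)]
      exact hZ5
    show ((Finset.univ.filter (fun x : G => x ∈ (Z : Subgroup G))).erase 1).card = 4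
    rw [Finset.card_erase_of_mem (by simp [one_mem]), h1]
  have ht_ord : ∀ Z : Sylow 5 G, ∀ x ∈ t Z, orderOf x = 5 := by
    intro Z x hx
    have hx' : x ∈ (Finset.univ.filter (fun x : G => x ∈ (Z : Subgroup G))).erase 1 := hx
    rw [Finset.mem_erase, Finset.mem_filter] at hx'
    obtain ⟨hx1, -, hxZ⟩ := hx'
    have hZ5 := card_syl5 h Z
    have hdvd : orderOf x ∣ 5 := by
      have := orderOf_dvd_natCard (⟨x, hxZ⟩ : (Z : Subgroup G))
      rwa [Subgroup.orderOf_mk, hZ5] at this
    rcases (Nat.dvd_prime (by norm_num : Nat.Prime 5)).mp hdvd with h1 | h5'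
    · exact absurd (orderOf_eq_one_iff.mp h1) hx1
    · exact h5'
  have hmemZ : ∀ Z : Sylow 5 G, ∀ x ∈ t Z, x ∈ (Z : Subgroup G) := by
    intro Z x hx
    have hx' : x ∈ (Finset.univ.filter (fun x : G => x ∈ (Z : Subgroup G))).erase 1 := hx
    rw [Finset.mem_erase, Finset.mem_filter] at hx'
    exact hx'.2.2
  have hdisj : ((Finset.univ : Finset (Sylow 5 G)) : Set (Sylow 5 G)).PairwiseDisjoint t := by
    intro Z _ Z' _ hZZ'
    show Disjoint (t Z) (t Z')
    rw [Finset.disjoint_left]
    intro x hx hx'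
    apply hZZ'
    have key : ∀ W : Sylow 5 G, x ∈ t W → (W : Subgroup G) = Subgroup.zpowers x := by
      intro W hW
      have hord := ht_ord W x hW
      have hle : Subgroup.zpowers x ≤ (W : Subgroup G) := by
        rw [Subgroup.zpowers_le]
        exact hmemZ W x hW
      exact (Subgroup.eq_of_le_of_card_ge hle
        (le_of_eq (by rw [Nat.card_zpowers, hord, card_syl5 h W]))).symm
    exact Sylow.ext ((key Z hx).trans (key Z' hx').symm)
  refine ⟨Finset.univ.biUnion t, ?_, ?_⟩
  · intro x hx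
    obtain ⟨Z, -, hxZ⟩ := Finset.mem_biUnion.mp hx
    exact ht_ord Z x hxZ
  · rw [Finset.card_biUnion hdisj]
    simp only [ht_card]
    rw [Finset.sum_const, Finset.card_univ, ← Nat.card_eq_fintype_card, h5]
    norm_num

theorem fpf_order (h : Nat.card G = 360) (h5 : Nat.card (Sylow 5 G) = 36)
    (g : G) (hg : ∀ ω : Sylow 3 G, g • ω ≠ ω) : orderOf g = 5 := by
  classical
  by_contra hne
  obtain ⟨E, hE5, hEcard⟩ := e5_card h h5
  have hE_fpf : ∀ x ∈ E, ∀ ω : Sylow 3 G, x • ω ≠ ω := by
    intro x hx ω hfix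
    have hx5 : orderOf x = 5 := hE5 x hx
    have hmem : x ∈ MulAction.stabilizer G ω := hfix
    have hdvd : orderOf x ∣ Nat.card (MulAction.stabilizer G ω) := by
      have := orderOf_dvd_natCard (⟨x, hmem⟩ : MulAction.stabilizer G ω)
      rwa [Subgroup.orderOf_mk] at this
    rw [hx5, stab_card h ω] at hdvd
    omega
  have hgE : g ∉ E := fun hgE => hne (hE5 g hgE)
  have hc := fpf_card h (insert g E) (by
    intro x hx
    rcases Finset.mem_insert.mp hx with rfl | hx
    · exact hg
    · exact hE_fpf x hx)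
  rw [Finset.card_insert_of_notMem hgE] at hc
  omega

end
section
variable {G : Type*} [Group G] [Finite G] [IsSimpleGroup G]

theorem core_trivial (h : Nat.card G = 360) (u : G) (hu : ∀ ω : Sylow 3 G, u • ω = ω) :
    u = 1 := by
  obtain ⟨ω⟩ : Nonempty (Sylow 3 G) := inferInstance
  have hP9 := card_syl3 h ω
  have hNne : Subgroup.normalizer (ω : Set G) ≠ ⊤ :=
    norm_ne_top ω (by rw [hP9]; norm_num) (by rw [hP9, h]; norm_num)
  have hcore : (Subgroup.normalizer (ω : Set G)).normalCore = ⊥ := by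
    rcases IsSimpleGroup.eq_bot_or_eq_top_of_normal
      (Subgroup.normalizer (ω : Set G)).normalCore inferInstance with h' | h'
    · exact h'
    · exfalso
      apply hNne
      rw [eq_top_iff, ← h']
      exact Subgroup.normalCore_le _
  have hmem : u ∈ (Subgroup.normalizer (ω : Set G)).normalCore := by
    show ∀ b : G, b * u * b⁻¹ ∈ Subgroup.normalizer (ω : Set G)
    intro b
    rw [← Sylow.smul_eq_iff_mem_normalizer, mul_smul, mul_smul, hu, smul_inv_smul]
  rw [hcore] at hmem
  exact Subgroup.mem_bot.mp hmem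

theorem exp3 (h : Nat.card G = 360) (ω : Sylow 3 G) (y : G) (hy : y ∈ (ω : Subgroup G)) :
    y ^ 3 = 1 := by
  classical
  by_contra hy3
  have hP9 := card_syl3 h ω
  have hdvd : orderOf y ∣ 9 := by
    have := orderOf_dvd_natCard (⟨y, hy⟩ : (ω : Subgroup G))
    rwa [Subgroup.orderOf_mk, hP9] at this
  have ho9 : orderOf y = 9 := by
    have hle : orderOf y ≤ 9 := Nat.le_of_dvd (by norm_num) hdvd
    have hpos : 0 < orderOf y := Nat.pos_of_dvd_of_pos hdvd (by norm_num)
    have h3 : ¬ orderOf y ∣ 3 := fun hd => hy3 (orderOf_dvd_iff_pow_eq_one.mp hd)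
    generalize orderOf y = n at hdvd hle hpos h3 ⊢
    interval_cases n <;> omega
  haveI hcyc : IsCyclic (ω : Subgroup G) :=
    isCyclic_of_orderOf_eq_card (⟨y, hy⟩ : (ω : Subgroup G))
      (by rw [Subgroup.orderOf_mk, ho9, hP9])
  have haut : Nat.card (MulAut (ω : Subgroup G)) = 6 := by
    rw [IsCyclic.card_mulAut, hP9]
    decide
  have hN36 : Nat.card (Subgroup.normalizer ((ω : Subgroup G) : Set G)) = 36 := (n3 h ω).2
  obtain ⟨φ, hφ⟩ : ∃ φ : Subgroup.normalizer ((ω : Subgroup G) : Set G) →* MulAut (ω : Subgroup G),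
      φ = Subgroup.normalizerMonoidHom (ω : Subgroup G) := ⟨_, rfl⟩
  have hker_even : 2 ∣ Nat.card φ.ker := by
    have e1 := Subgroup.card_mul_index φ.ker
    rw [Subgroup.index_ker, hN36] at e1
    have e2 : Nat.card φ.range ∣ 6 := haut ▸ Subgroup.card_subgroup_dvd_card φ.range
    have hle : Nat.card φ.range ≤ 6 := Nat.le_of_dvd (by norm_num) e2
    generalize Nat.card φ.range = r at e1 e2 hle
    generalize Nat.card φ.ker = c at e1 ⊢
    interval_cases r <;> omega
  obtain ⟨u', hu'⟩ := exists_prime_orderOf_dvd_card' (G := φ.ker) 2 hker_even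
  obtain ⟨u, hudef⟩ : ∃ u : G,
      u = ((u' : Subgroup.normalizer ((ω : Subgroup G) : Set G)) : G) := ⟨_, rfl⟩
  have hu2 : orderOf u = 2 := by
    rw [hudef, Subgroup.orderOf_coe, Subgroup.orderOf_coe]
    exact hu'
  have huN : u ∈ Subgroup.normalizer ((ω : Subgroup G) : Set G) := by
    rw [hudef]
    exact (u' : Subgroup.normalizer ((ω : Subgroup G) : Set G)).2
  have hkereq : φ.ker = (Subgroup.centralizer ((ω : Subgroup G) : Set G)).subgroupOf
      (Subgroup.normalizer ((ω : Subgroup G) : Set G)) := by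
    rw [hφ]
    exact Subgroup.normalizerMonoidHom_ker _
  have hkmem : ∀ v : Subgroup.normalizer ((ω : Subgroup G) : Set G), v ∈ φ.ker →
      (v : G) ∈ Subgroup.centralizer ((ω : Subgroup G) : Set G) := by
    intro v hv
    rw [hkereq, Subgroup.mem_subgroupOf] at hv
    exact hv
  have huC : u ∈ Subgroup.centralizer ((ω : Subgroup G) : Set G) := by
    rw [hudef]
    exact hkmem _ u'.2
  have huω : u • ω = ω := Sylow.smul_eq_iff_mem_normalizer.mpr huN
  have hex : ∃ β : Sylow 3 G, β ≠ ω ∧ u • β = β := by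
    by_contra hno
    push Not at hno
    have hpg : IsPGroup 2 (Subgroup.zpowers u) :=
      IsPGroup.of_card (n := 1) (by rw [Nat.card_zpowers, hu2, pow_one])
    have hfp := hpg.card_modEq_card_fixedPoints (Sylow 3 G)
    have hset : MulAction.fixedPoints (Subgroup.zpowers u) (Sylow 3 G) = {ω} := by
      ext β
      simp only [MulAction.mem_fixedPoints, Set.mem_singleton_iff]
      constructor
      · intro hβ
        by_contra hne
        exact hno β hne (hβ ⟨u, Subgroup.mem_zpowers u⟩)
      · intro hβω g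
        have hz : Subgroup.zpowers u ≤ MulAction.stabilizer G β := by
          rw [Subgroup.zpowers_le, hβω]
          exact huω
        exact hz g.2
    have hcard1 : Nat.card (MulAction.fixedPoints (Subgroup.zpowers u) (Sylow 3 G)) = 1 := by
      rw [hset]
      simp
    rw [hcard1, (n3 h ω).1] at hfp
    exact absurd hfp (by decide)
  obtain ⟨β, hβne, hβ⟩ := hex
  have hcomm : ∀ y' ∈ (ω : Subgroup G), u • (y' • β) = y' • β := by
    intro y' hy'
    have hc := (Subgroup.mem_centralizer_iff.mp huC) y' hy'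
    rw [← mul_smul, ← hc, mul_smul, hβ]
  haveI : Fintype (Sylow 3 G) := Fintype.ofFinite _
  haveI : Fintype (ω : Subgroup G) := Fintype.ofFinite _
  have hΩ : Fintype.card (Sylow 3 G) = 10 := by
    rw [← Nat.card_eq_fintype_card]
    exact (n3 h ω).1
  have hP9' : Fintype.card (ω : Subgroup G) = 9 := by
    rw [← Nat.card_eq_fintype_card]
    exact hP9
  have hinj : Function.Injective (fun y' : (ω : Subgroup G) => (y' : G) • β) := by
    intro a b hab
    have hab' : (a : G) • β = (b : G) • β := hab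
    have hfix : ((b : G)⁻¹ * (a : G)) • β = β := by
      rw [mul_smul, hab', inv_smul_smul]
    have h1 := free h ω β hβne.symm _ (mul_mem (inv_mem b.2) a.2) hfix
    rw [inv_mul_eq_one] at h1
    exact Subtype.ext h1.symm
  have hnot : ω ∉ Finset.image (fun y' : (ω : Subgroup G) => (y' : G) • β) Finset.univ := by
    intro hmem
    obtain ⟨y', -, hy'⟩ := Finset.mem_image.mp hmem
    apply hβne
    have e1 : (y' : G)⁻¹ • ((y' : G) • β) = (y' : G)⁻¹ • ω := congrArg _ hy'
    rw [inv_smul_smul] at e1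
    exact e1.trans (smul_self ω _ (inv_mem y'.2))
  have hScard : (insert ω (Finset.image (fun y' : (ω : Subgroup G) => (y' : G) • β)
      Finset.univ)).card = 10 := by
    rw [Finset.card_insert_of_notMem hnot, Finset.card_image_of_injective _ hinj,
      Finset.card_univ, hP9']
  have hSuniv := Finset.eq_univ_of_card _ (hScard.trans hΩ.symm)
  have hall : ∀ ω' : Sylow 3 G, u • ω' = ω' := by
    intro ω'
    have hm : ω' ∈ insert ω (Finset.image (fun y' : (ω : Subgroup G) => (y' : G) • β)
        Finset.univ) := by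
      rw [hSuniv]
      exact Finset.mem_univ _
    rcases Finset.mem_insert.mp hm with hm | hm
    · rw [hm]
      exact huω
    · obtain ⟨y', -, hy'⟩ := Finset.mem_image.mp hm
      rw [← hy']
      exact hcomm y' y'.2
  have hu1 := core_trivial h u hall
  rw [hu1, orderOf_one] at hu2
  omega

theorem exists_good (h : Nat.card G = 360) (x : G) (hx2 : x * x = 1)
    (ω₀ γ : Sylow 3 G) (hfix : x • ω₀ = ω₀) (hγ : x • γ ≠ γ) :
    ∃ y ∈ (γ : Subgroup G), y ≠ 1 ∧ ∀ ω : Sylow 3 G, (x * y) • ω ≠ ω := by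
  classical
  by_contra hno
  push Not at hno
  haveI : Fintype (Sylow 3 G) := Fintype.ofFinite _
  haveI : Fintype (γ : Subgroup G) := Fintype.ofFinite _
  have hΩ : Fintype.card (Sylow 3 G) = 10 := by
    rw [← Nat.card_eq_fintype_card]
    exact (n3 h γ).1
  have hP9' : Fintype.card (γ : Subgroup G) = 9 := by
    rw [← Nat.card_eq_fintype_card]
    exact card_syl3 h γ
  have h' : ∀ y : (γ : Subgroup G), ∃ β : Sylow 3 G, y ≠ 1 → (x * (y : G)) • β = β := by
    intro y
    by_cases hy : y = 1
    · exact ⟨γ, fun hne => absurd hy hne⟩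
    · obtain ⟨β, hβ⟩ := hno y y.2 (fun h1 => hy (Subtype.ext h1))
      exact ⟨β, fun _ => hβ⟩
  choose w hw using h'
  have hγω₀ : γ ≠ ω₀ := fun e => hγ (by rw [e]; exact hfix)
  have hxγω₀ : x • γ ≠ ω₀ := by
    intro e
    apply hγω₀
    have e2 : x • γ = x • ω₀ := by rw [e, hfix]
    exact MulAction.injective x e2
  have key : ∀ y : (γ : Subgroup G), y ≠ 1 →
      w y ≠ γ ∧ w y ≠ x • γ ∧ w y ≠ ω₀ ∧ (y : G) • w y = x • w y := by
    intro y hy
    have hwy := hw y hy
    have hyx : (y : G) • w y = x • w y := by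
      have e1 : x • ((x * (y : G)) • w y) = x • w y := by rw [hwy]
      rw [← mul_smul, ← mul_assoc, hx2, one_mul] at e1
      exact e1
    have hne1 : (y : G) ≠ 1 := fun e => hy (Subtype.ext e)
    have h1 : w y ≠ γ := by
      intro e
      rw [e, mul_smul, smul_self γ _ y.2] at hwy
      exact hγ hwy
    refine ⟨h1, ?_, ?_, hyx⟩
    · intro e
      apply h1
      have e2 : (y : G) • w y = γ := by
        rw [hyx, e, ← mul_smul, hx2, one_smul]
      have e3 : (y : G)⁻¹ • ((y : G) • w y) = (y : G)⁻¹ • γ := congrArg _ e2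
      rw [inv_smul_smul] at e3
      exact e3.trans (smul_self γ _ (inv_mem y.2))
    · intro e
      apply hne1
      have e2 : (y : G) • ω₀ = ω₀ := by
        have e4 := hyx
        rw [e, hfix] at e4
        exact e4
      exact free h γ ω₀ hγω₀ _ y.2 e2
  have m1 : x • γ ∈ (Finset.univ : Finset (Sylow 3 G)).erase γ :=
    Finset.mem_erase.mpr ⟨hγ, Finset.mem_univ _⟩
  have m2 : ω₀ ∈ ((Finset.univ : Finset (Sylow 3 G)).erase γ).erase (x • γ) :=
    Finset.mem_erase.mpr ⟨hxγω₀.symm, Finset.mem_erase.mpr ⟨hγω₀.symm, Finset.mem_univ _⟩⟩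
  have hA : ((Finset.univ : Finset (γ : Subgroup G)).erase 1).card = 8 := by
    rw [Finset.card_erase_of_mem (Finset.mem_univ _), Finset.card_univ, hP9']
  have hT : ((((Finset.univ : Finset (Sylow 3 G)).erase γ).erase (x • γ)).erase ω₀).card = 7 := by
    rw [Finset.card_erase_of_mem m2, Finset.card_erase_of_mem m1,
      Finset.card_erase_of_mem (Finset.mem_univ _), Finset.card_univ, hΩ]
  have hle : ((Finset.univ : Finset (γ : Subgroup G)).erase 1).card ≤
      ((((Finset.univ : Finset (Sylow 3 G)).erase γ).erase (x • γ)).erase ω₀).card := by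
    apply Finset.card_le_card_of_injOn w
    · intro y hyA
      have hyA' : y ∈ (Finset.univ : Finset (γ : Subgroup G)).erase 1 := hyA
      have hy : y ≠ 1 := (Finset.mem_erase.mp hyA').1
      obtain ⟨k1, k2, k3, -⟩ := key y hy
      exact Finset.mem_coe.mpr (Finset.mem_erase.mpr ⟨k3, Finset.mem_erase.mpr
        ⟨k2, Finset.mem_erase.mpr ⟨k1, Finset.mem_univ _⟩⟩⟩)
    · intro y hyA y' hy'A hww
      have hyA' : y ∈ (Finset.univ : Finset (γ : Subgroup G)).erase 1 := hyA
      have hy'A' : y' ∈ (Finset.univ : Finset (γ : Subgroup G)).erase 1 := hy'A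
      have hy : y ≠ 1 := (Finset.mem_erase.mp hyA').1
      have hy' : y' ≠ 1 := (Finset.mem_erase.mp hy'A').1
      obtain ⟨k1, -, -, k4⟩ := key y hy
      obtain ⟨-, -, -, k4'⟩ := key y' hy'
      have e : (y : G) • w y = (y' : G) • w y := by
        rw [k4, hww, k4']
      have hfx : ((y' : G)⁻¹ * (y : G)) • w y = w y := by
        rw [mul_smul, e, inv_smul_smul]
      have h1 := free h γ (w y) (Ne.symm k1) _ (mul_mem (inv_mem y'.2) y.2) hfx
      rw [inv_mul_eq_one] at h1
      exact Subtype.ext h1.symm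
  rw [hA, hT] at hle
  omega

end

theorem no30 {X : Type*} [Group X] [Finite X] (hX : Nat.card X = 30) (x y : X)
    (hx : orderOf x = 2) (hy : y ^ 3 = 1) (hz : (x * y) ^ 5 = 1) : False := by
  obtain ⟨P⟩ : Nonempty (Sylow 2 X) := inferInstance
  have hP2 : Nat.card (P : Subgroup X) = 2 := by
    have h1 := Sylow.card_eq_multiplicity P
    rw [hX] at h1
    have e : (30 : ℕ) = 2 ^ 1 * 15 := by norm_num
    rw [e, fact_aux 2 1 15 (by norm_num) (by norm_num) (by norm_num)] at h1
    simpa using h1
  have hmin : (Nat.card X).minFac = 2 := by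
    rw [hX]
    norm_num
  have hcyc : IsCyclic (P : Subgroup X) := isCyclic_of_prime_card hP2
  have hc := IsCyclic.isComplement' hmin hcyc
  have hcard := hc.card_mul_card
  rw [hP2, hX] at hcard
  obtain ⟨L, hL⟩ : ∃ L : Subgroup X, Nat.card L * 2 = 30 := ⟨_, hcard⟩
  have hL15 : Nat.card L = 15 := by omega
  have hidx : L.index = 2 := by
    have := Subgroup.card_mul_index L
    rw [hL15, hX] at this
    omega
  have hsq : ∀ a : X, a * a ∈ L := fun a => Subgroup.mul_self_mem_of_index_two hidx a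
  have hyL : y ∈ L := by
    have e : (y * y) * (y * y) = y := by
      calc (y * y) * (y * y) = y ^ 3 * y := by
            simp only [pow_succ, pow_zero, one_mul, mul_assoc]
        _ = y := by rw [hy, one_mul]
    rw [← e]
    exact hsq (y * y)
  have hzL : x * y ∈ L := by
    have e : ((x * y) * (x * y) * (x * y)) * ((x * y) * (x * y) * (x * y)) = x * y := by
      calc ((x * y) * (x * y) * (x * y)) * ((x * y) * (x * y) * (x * y))
          = (x * y) ^ 5 * (x * y) := by
            simp only [pow_succ, pow_zero, one_mul, mul_assoc]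
        _ = x * y := by rw [hz, one_mul]
    rw [← e]
    exact hsq _
  have hxL : x ∈ L := by
    have e : x = (x * y) * y⁻¹ := by group
    rw [e]
    exact L.mul_mem hzL (L.inv_mem hyL)
  have hdvd : orderOf x ∣ Nat.card L := by
    have := orderOf_dvd_natCard (⟨x, hxL⟩ : L)
    rwa [Subgroup.orderOf_mk] at this
  rw [hx, hL15] at hdvd
  omega

section
variable {G : Type*} [Group G] [Finite G] [IsSimpleGroup G]

theorem exists_index6 (h : Nat.card G = 360) : ∃ H : Subgroup G, H.index = 6 := by
  classical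
  obtain ⟨Z⟩ : Nonempty (Sylow 5 G) := inferInstance
  rcases n5 h Z with h5 | h6
  swap
  · exact ⟨_, h6⟩
  obtain ⟨x, hx⟩ := exists_prime_orderOf_dvd_card' (G := G) 2 (by rw [h]; norm_num)
  have hx2p : x ^ 2 = 1 := by
    have := pow_orderOf_eq_one x
    rw [hx] at this
    exact this
  have hx2 : x * x = 1 := by
    rw [← pow_two]
    exact hx2p
  have hx1 : x ≠ 1 := by
    intro e
    rw [e, orderOf_one] at hx
    omega
  obtain ⟨ω₀, hω₀⟩ : ∃ ω₀ : Sylow 3 G, x • ω₀ = ω₀ := by
    by_contra hno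
    push Not at hno
    have := fpf_order h h5 x hno
    omega
  obtain ⟨γ, hγ⟩ : ∃ γ : Sylow 3 G, x • γ ≠ γ := by
    by_contra hno
    push Not at hno
    exact hx1 (core_trivial h x hno)
  obtain ⟨y, hyγ, hy1, hfpf⟩ := exists_good h x hx2 ω₀ γ hω₀ hγ
  have hz5 : orderOf (x * y) = 5 := fpf_order h h5 (x * y) hfpf
  have hy3 : y ^ 3 = 1 := exp3 h γ y hyγ
  have hz : (x * y) ^ 5 = 1 := by
    rw [← hz5]
    exact pow_orderOf_eq_one _
  have hoy : orderOf y = 3 := orderOf_eq_prime hy3 hy1
  obtain ⟨K, hKdef⟩ : ∃ K : Subgroup G, K = Subgroup.closure ({x, y} : Set G) := ⟨_, rfl⟩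
  have hxK : x ∈ K := by
    rw [hKdef]
    exact Subgroup.subset_closure (by simp)
  have hyK : y ∈ K := by
    rw [hKdef]
    exact Subgroup.subset_closure (by simp)
  have hgen : Subgroup.closure ({(⟨x, hxK⟩ : K), ⟨y, hyK⟩} : Set K) = ⊤ := by
    subst hKdef
    have := Subgroup.closure_closure_coe_preimage (k := ({x, y} : Set G))
    convert this using 2
    ext z
    simp only [Set.mem_insert_iff, Set.mem_singleton_iff, Set.mem_preimage]
    constructor
    · rintro (rfl | rfl)
      · left; rfl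
      · right; rfl
    · rintro (h | h)
      · left; exact Subtype.ext h
      · right; exact Subtype.ext h
  have hle : Nat.card K ≤ 60 :=
    (Cfsg.Agent.Helper17.L27.card_le_A5 (⟨x, hxK⟩ : K) ⟨y, hyK⟩ hgen
      (Subtype.ext (by simpa using hx2p)) (Subtype.ext (by simpa using hy3))
      (Subtype.ext (by simpa using hz))).2
  have d2 : 2 ∣ Nat.card K := by
    have := orderOf_dvd_natCard (⟨x, hxK⟩ : K)
    rwa [Subgroup.orderOf_mk, hx] at this
  have d3 : 3 ∣ Nat.card K := by
    have := orderOf_dvd_natCard (⟨y, hyK⟩ : K)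
    rwa [Subgroup.orderOf_mk, hoy] at this
  have d5 : 5 ∣ Nat.card K := by
    have := orderOf_dvd_natCard (⟨x * y, K.mul_mem hxK hyK⟩ : K)
    rwa [Subgroup.orderOf_mk, hz5] at this
  have hpos : 0 < Nat.card K := Nat.card_pos
  have hK : Nat.card K = 30 ∨ Nat.card K = 60 := by omega
  rcases hK with h30 | h60
  · exfalso
    exact no30 h30 (⟨x, hxK⟩ : K) ⟨y, hyK⟩ (by rw [Subgroup.orderOf_mk]; exact hx)
      (Subtype.ext (by simpa using hy3)) (Subtype.ext (by simpa using hz))
  · refine ⟨K, ?_⟩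
    have := Subgroup.card_mul_index K
    rw [h60, h] at this
    omega

end

theorem result {G : Type*} [Group G] [Finite G] [IsSimpleGroup G]
    (h : Nat.card G = 360) : Nonempty (G ≃* alternatingGroup (Fin 6)) := by
  obtain ⟨H, hH⟩ := exists_index6 h
  exact iso_of_index h H hH

end Cfsg.Agent.S0497
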