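import Cfsg.Statements.S0498
import Mathlib
import Cfsg.Agent.Helper29.Zas.P11
import Cfsg.Agent.Helper29.Zas.P13
import Cfsg.Agent.Helper29.Zas.PSL

set_option autoImplicit false
open Cfsg

namespace Cfsg.Agent.S0498

theorem result {G : Type*} [Group G] [Finite G] [IsSimpleGroup G] (p : ℕ)
    (hp : p = 11 ∨ p = 13) (h : 2 * Nat.card G = p * (p ^ 2 - 1)) {F : Type*} [Field F] [Fintype F]
    (hF : Fintype.card F = p) : Nonempty (G ≃* Matrix.ProjectiveSpecialLinearGroup (Fin 2) F) := by
  rcases hp with rfl | rfl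
  · obtain ⟨hs, hc⟩ := Cfsg.Agent.Helper29.Zas.psl_simple_card (F := F) 11 hF (by decide) (by norm_num)
    haveI := hs
    have hc' : Nat.card (Matrix.ProjectiveSpecialLinearGroup (Fin 2) F) = 660 := by omega
    have h' : Nat.card G = 660 := by norm_num at h; omega
    exact Cfsg.Agent.Helper29.Zas.iso11 h' hc'
  · obtain ⟨hs, hc⟩ := Cfsg.Agent.Helper29.Zas.psl_simple_card (F := F) 13 hF (by decide) (by norm_num)
    haveI := hs
    have hc' : Nat.card (Matrix.ProjectiveSpecialLinearGroup (Fin 2) F) = 1092 := by omega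
    have h' : Nat.card G = 1092 := by norm_num at h; omega
    exact Cfsg.Agent.Helper29.Zas.iso13 h' hc'

end Cfsg.Agent.S0498
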