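-- S0505: proof by helper7
import Cfsg.Statements.S0505
import Mathlib
import Cfsg.Agent.Helper7.CharP
import Cfsg.Agent.Helper23.PSolv

set_option autoImplicit false
open Cfsg

namespace Cfsg.Agent.S0505

/-- Let G be a finite group of even order in which the centralizer of every involution is solvable and has trivial
core (no nontrivial normal subgroup of odd order). Then G is of characteristic 2 type. -/
theorem result {G : Type*} [Group G] [Finite G]
    (h2 : Even (Nat.card G))
    (hs : ∀ t : G, orderOf t = 2 → Group.IsSolvable (Subgroup.centralizer ({t} : Set G)))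
    (hc : ∀ t : G, orderOf t = 2 → Cfsg.oddCore (Subgroup.centralizer ({t} : Set G)) = ⊥) :
    Cfsg.IsCharacteristicTwoType G := by
  have : Fact (Nat.Prime 2) := ⟨Nat.prime_two⟩
  refine ⟨h2, ?_⟩
  intro T hT hT1
  have h : ∀ t : G, orderOf t = 2 →
      Cfsg.generalizedFittingSubgroup ↥(Subgroup.centralizer ({t} : Set G)) =
        Cfsg.pCore 2 ↥(Subgroup.centralizer ({t} : Set G)) := by
    intro t ht
    have hsol : Group.IsSolvable ↥(Subgroup.centralizer ({t} : Set G)) := hs t ht
    apply Cfsg.Agent.Helper7.generalizedFitting_eq_pCore_of_trivial 2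
    · intro K hK
      exact Cfsg.Agent.Helper7.IsComponent.not_isSolvable hK inferInstance
    · intro q hq hq2
      have h1 : Cfsg.pCore q ↥(Subgroup.centralizer ({t} : Set G)) ≤
          Cfsg.oddCore ↥(Subgroup.centralizer ({t} : Set G)) := by
        apply Cfsg.Agent.Helper23.le_pPrimeCore (p := 2) (Cfsg.Agent.Helper1.pCore_normal q _)
        have : Fact q.Prime := ⟨hq⟩
        obtain ⟨n, hn⟩ := (Cfsg.Agent.Helper1.pCore_isPGroup q
          ↥(Subgroup.centralizer ({t} : Set G))).exists_card_eq
        rw [hn]
        exact Nat.Coprime.pow_left n ((Nat.coprime_primes hq Nat.prime_two).mpr hq2)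
      rw [hc t ht] at h1
      exact le_bot_iff.mp h1
  have h3 := Cfsg.Agent.Helper7.generalizedFitting_normalizer_eq_pCore_of_centralizers 2 h T hT hT1
  exact Cfsg.Agent.Helper7.centralizer_pCore_le_of_generalizedFitting_eq 2 h3

end Cfsg.Agent.S0505
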