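-- S0514: dihedral Sylow 2-subgroups: involution centralizers have a normal 2-complement.
import Mathlib
import Cfsg.Statements.S0514
import Cfsg.Agent.Helper9.Dihedral
import Cfsg.Agent.Helper1.Frobenius
import Cfsg.Agent.Helper16.NPC

set_option autoImplicit false
open Cfsg

namespace Cfsg.Agent.S0514

/-- In a finite group whose Sylow 2-subgroups are dihedral of order at least 4, the centralizer of any involution has a
normal subgroup of odd order whose index in the centralizer is a power of 2. -/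
theorem result {X : Type*} [Group X] [Finite X]
    (S : Sylow 2 X) (n : ℕ) (hn : 2 ≤ n) (hS : Nonempty ((S : Subgroup X) ≃* DihedralGroup n)) (t : X)
    (ht : orderOf t = 2) :
    ∃ N : Subgroup (Subgroup.centralizer ({t} : Set X)), N.Normal ∧ Odd (Nat.card N) ∧ ∃ k : ℕ, N.index = 2 ^ k := by
  haveI : Fact (Nat.Prime 2) := ⟨Nat.prime_two⟩
  obtain ⟨eS⟩ := hS
  have hloc : Cfsg.Agent.Helper1.LocalP 2 ↥(Subgroup.centralizer ({t} : Set X)) := by
    intro Q' hQ' g hg hgo
    rw [Subgroup.mem_centralizer_iff]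
    intro q' hq'
    have hgt : (g : X) * t = t * (g : X) := by
      have h0 := g.2
      rw [Subgroup.mem_centralizer_iff] at h0
      exact (h0 t (Set.mem_singleton t)).symm
    have hx : Odd (orderOf (g : X)) := by
      rw [Subgroup.orderOf_coe]; exact Nat.coprime_two_right.1 hgo
    obtain ⟨Q, hQdef⟩ : ∃ Q : Subgroup X,
        Q = Q'.map (Subgroup.centralizer ({t} : Set X)).subtype := ⟨_, rfl⟩
    have hQmem : ∀ q ∈ Q, ∃ q₁ : ↥(Subgroup.centralizer ({t} : Set X)), q₁ ∈ Q' ∧ (q₁ : X) = q := by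
      intro q hq
      rw [hQdef] at hq
      obtain ⟨q₁, h1, h2⟩ := Subgroup.mem_map.1 hq
      exact ⟨q₁, h1, h2⟩
    have hmemQ : ∀ q₁ ∈ Q', (q₁ : X) ∈ Q := by
      intro q₁ h
      rw [hQdef]
      exact Subgroup.mem_map.2 ⟨q₁, h, rfl⟩
    have hQ2 : IsPGroup 2 Q := by
      rw [hQdef]; exact hQ'.map _
    have hT2 : IsPGroup 2 (Subgroup.zpowers t) :=
      IsPGroup.of_card (n := 1) (by rw [Nat.card_zpowers, ht, pow_one])
    have hQt : ∀ q ∈ Q, q * t = t * q := by
      intro q hq
      obtain ⟨q₁, -, rfl⟩ := hQmem q hq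
      have h0 := q₁.2
      rw [Subgroup.mem_centralizer_iff] at h0
      exact (h0 t (Set.mem_singleton t)).symm
    have hQnorm : Q ≤ Subgroup.normalizer ((Subgroup.zpowers t : Subgroup X) : Set X) := by
      intro q hq
      apply Cfsg.Agent.Helper9.mem_normalizer_of_conj_le
      intro y hy
      obtain ⟨k, rfl⟩ := Subgroup.mem_zpowers_iff.1 hy
      have hc : Commute q (t ^ k) := (show Commute q t from hQt q hq).zpow_right k
      rw [hc.eq, mul_inv_cancel_right]
      exact hy
    have hQ1 : IsPGroup 2 ↥(Q ⊔ Subgroup.zpowers t) :=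
      IsPGroup.to_sup_of_normal_right' hQ2 hT2 hQnorm
    obtain ⟨S', hS'⟩ := hQ1.exists_le_sylow
    have e' : ↥(S' : Subgroup X) ≃* DihedralGroup n := (Sylow.equiv S' S).trans eS
    obtain ⟨a, haS, hinv, hmul⟩ :=
      Cfsg.Agent.Helper9.dihlike_of_equiv (S' : Subgroup X) n (by omega) e'
    have hxQ1 : ∀ y ∈ Q ⊔ Subgroup.zpowers t,
        (g : X) * y * (g : X)⁻¹ ∈ Q ⊔ Subgroup.zpowers t := by
      have hle : Q ⊔ Subgroup.zpowers t ≤
          (Q ⊔ Subgroup.zpowers t).comap (MulAut.conj (g : X)).toMonoidHom := by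
        apply sup_le
        · intro q hq
          obtain ⟨q₁, hq₁, rfl⟩ := hQmem q hq
          rw [Subgroup.mem_comap, MulEquiv.coe_toMonoidHom, MulAut.conj_apply]
          apply Subgroup.mem_sup_left
          exact hmemQ (g * q₁ * g⁻¹) ((Subgroup.mem_normalizer_iff.1 hg q₁).1 hq₁)
        · rw [Subgroup.zpowers_le, Subgroup.mem_comap, MulEquiv.coe_toMonoidHom,
            MulAut.conj_apply]
          apply Subgroup.mem_sup_right
          rw [hgt, mul_inv_cancel_right]
          exact Subgroup.mem_zpowers t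
      intro y hy
      have h0 := hle hy
      rwa [Subgroup.mem_comap, MulEquiv.coe_toMonoidHom, MulAut.conj_apply] at h0
    have ht1 : t ≠ 1 := by
      intro h; rw [h, orderOf_one] at ht; omega
    have hfin := Cfsg.Agent.Helper9.dih_centralizes_fix (S' : Subgroup X) S'.isPGroup' a hinv hmul
      (Q ⊔ Subgroup.zpowers t) hS' (g : X) hxQ1 hx t
      (Subgroup.mem_sup_right (Subgroup.mem_zpowers t)) ht1 hgt
    have h1 := hfin (q' : X) (Subgroup.mem_sup_left (hmemQ q' hq'))
    apply Subtype.ext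
    exact h1.symm
  obtain ⟨N, k, hN, hcop, hk⟩ :=
    Cfsg.Agent.Helper16.npc_exists (Cfsg.Agent.Helper1.npc_of_local hloc)
  exact ⟨N, hN, Nat.coprime_two_right.1 hcop, k, hk⟩

end Cfsg.Agent.S0514
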