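import Cfsg.Statements.S0521
import Cfsg.Agent.Helper23.SolvPSolv
import Cfsg.Agent.Helper16.BaerSuzuki
import Cfsg.Agent.S0043

set_option autoImplicit false
open Cfsg

namespace Cfsg.Agent.S0521

open Cfsg.Agent.Helper23
open scoped commutatorElement

section T

variable {Y : Type*} [Group Y]

theorem zpow_congr_of_dvd {r : Y} {p : ℕ} (hr : r ^ p = 1) {a b : ℤ} (h : (p : ℤ) ∣ a - b) :
    r ^ a = r ^ b := by
  obtain ⟨q, hq⟩ := h
  have : a = b + p * q := by linarith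
  rw [this, zpow_add, zpow_mul, zpow_natCast, hr, one_zpow, mul_one]

theorem eq_one_of_pow_coprime {w : Y} {m n : ℕ} (h1 : w ^ m = 1) (h2 : w ^ n = 1)
    (h : m.Coprime n) : w = 1 := by
  have hd : orderOf w ∣ Nat.gcd m n :=
    Nat.dvd_gcd (orderOf_dvd_of_pow_eq_one h1) (orderOf_dvd_of_pow_eq_one h2)
  rw [h.gcd_eq_one, Nat.dvd_one] at hd
  exact orderOf_eq_one_iff.mp hd

theorem conj_mul_conj (a b v : Y) : (a * b) * v * (a * b)⁻¹ = a * (b * v * b⁻¹) * a⁻¹ := by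
  group

theorem closure_ind_fin [Finite Y] (s : Set Y) (P : Y → Prop) (h1 : P 1) (hs : ∀ g ∈ s, P g)
    (hmul : ∀ a b, P a → P b → P (a * b)) : ∀ g ∈ Subgroup.closure s, P g := by
  have hpow : ∀ a, P a → ∀ n : ℕ, P (a ^ n) := by
    intro a ha n
    induction n with
    | zero => rw [pow_zero]; exact h1
    | succ n ih => rw [pow_succ]; exact hmul _ _ ih ha
  intro g hg
  refine Subgroup.closure_induction (p := fun g _ => P g) ?_ ?_ ?_ ?_ hg
  · intro x hx; exact hs x hx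
  · exact h1
  · intro x y _ _ hx hy; exact hmul x y hx hy
  · intro x _ hx
    have h2 : x ^ (orderOf x - 1) * x = 1 := by
      rw [← pow_succ, Nat.sub_add_cancel (orderOf_pos x), pow_orderOf_eq_one]
    have h3 : x⁻¹ = x ^ (orderOf x - 1) := (eq_inv_of_mul_eq_one_left h2).symm
    rw [h3]; exact hpow x hx _

theorem fix_gen {p : ℕ} [hp : Fact p.Prime] {x r : Y} {a : ℕ} (hx : x ^ (p ^ a) = 1)
    (hr : r ^ p = 1) {s : ℤ} (hs : x * r * x⁻¹ = r ^ s) : x * r * x⁻¹ = r := by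
  by_cases hr1 : r = 1
  · rw [hr1]; simp
  have hord : orderOf r = p := orderOf_eq_prime hr hr1
  have hind : ∀ n : ℕ, x ^ n * r * (x ^ n)⁻¹ = r ^ (s ^ n) := by
    intro n
    induction n with
    | zero => simp
    | succ n ih =>
      rw [pow_succ', conj_mul_conj, ih, ← conj_zpow, hs, ← zpow_mul, pow_succ']
  have h1 := hind (p ^ a)
  rw [hx, one_mul, inv_one, mul_one] at h1
  have h2 : r ^ (s ^ (p ^ a) - 1) = 1 := by
    rw [zpow_sub, zpow_one, ← h1, mul_inv_cancel]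
  have h3 : (p : ℤ) ∣ s ^ (p ^ a) - 1 := by
    have h := orderOf_dvd_iff_zpow_eq_one.mpr h2
    rwa [hord] at h
  have h4 : ((s : ℤ) : ZMod p) = 1 := by
    have h := (ZMod.intCast_zmod_eq_zero_iff_dvd _ p).mpr h3
    rw [Int.cast_sub, Int.cast_pow, Int.cast_one, ZMod.pow_card_pow] at h
    exact sub_eq_zero.mp h
  have h5 : (p : ℤ) ∣ s - 1 := by
    apply (ZMod.intCast_zmod_eq_zero_iff_dvd _ p).mp
    rw [Int.cast_sub, Int.cast_one, h4, sub_self]
  rw [hs, zpow_congr_of_dvd hr h5, zpow_one]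

theorem conj_pow_formula {x r r' : Y} {α : ℤ} (h1 : x * r * x⁻¹ = r)
    (h2 : x * r' * x⁻¹ = r ^ α * r') :
    ∀ n : ℕ, x ^ n * r' * (x ^ n)⁻¹ = r ^ ((n : ℤ) * α) * r' := by
  have e2 : ∀ R : Y, x * (R * r') * x⁻¹ = (x * R * x⁻¹) * (x * r' * x⁻¹) := fun R => by group
  intro n
  induction n with
  | zero => simp
  | succ n ih =>
    rw [pow_succ', conj_mul_conj, ih, e2, ← conj_zpow, h1, h2, ← mul_assoc, ← zpow_add]
    congr 2
    push_cast; ring

theorem case_c [Finite Y] {p : ℕ} [hp : Fact p.Prime] (hodd : Odd (Nat.card Y)) {x x' r r' : Y}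
    (hrr' : r * r' = r' * r) (hr : r ^ p = 1) (hr' : r' ^ p = 1)
    (hxr : x * r * x⁻¹ = r) (hx'r' : x' * r' * x'⁻¹ = r')
    {α β : ℤ} (hα : x * r' * x⁻¹ = r ^ α * r') (hβ : x' * r * x'⁻¹ = r' ^ β * r)
    (hα1 : r ^ α ≠ 1) (hβ1 : r' ^ β ≠ 1) : False := by
  have hpα : ((α : ℤ) : ZMod p) ≠ 0 := by
    intro h0
    have hdvd : (p : ℤ) ∣ α - 0 := by
      rw [sub_zero]; exact (ZMod.intCast_zmod_eq_zero_iff_dvd α p).mp h0
    exact hα1 (by rw [zpow_congr_of_dvd hr hdvd, zpow_zero])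
  have hpβ : ((β : ℤ) : ZMod p) ≠ 0 := by
    intro h0
    have hdvd : (p : ℤ) ∣ β - 0 := by
      rw [sub_zero]; exact (ZMod.intCast_zmod_eq_zero_iff_dvd β p).mp h0
    exact hβ1 (by rw [zpow_congr_of_dvd hr' hdvd, zpow_zero])
  obtain ⟨i, hi⟩ : ∃ i : ℕ, r ^ ((i : ℤ) * α) = r := by
    refine ⟨((α : ZMod p)⁻¹).val, ?_⟩
    have e : ((((α : ZMod p)⁻¹).val : ℕ) : ZMod p) = (α : ZMod p)⁻¹ := ZMod.natCast_zmod_val _
    have hdvd : (p : ℤ) ∣ ((((α : ZMod p)⁻¹).val : ℕ) : ℤ) * α - 1 := by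
      apply (ZMod.intCast_zmod_eq_zero_iff_dvd _ p).mp
      rw [Int.cast_sub, Int.cast_mul, Int.cast_natCast, e, inv_mul_cancel₀ hpα, Int.cast_one,
        sub_self]
    rw [zpow_congr_of_dvd hr hdvd, zpow_one]
  obtain ⟨j, hj⟩ : ∃ j : ℕ, r' ^ ((j : ℤ) * β) = r'⁻¹ := by
    refine ⟨(-(β : ZMod p)⁻¹).val, ?_⟩
    have e : (((-(β : ZMod p)⁻¹).val : ℕ) : ZMod p) = -(β : ZMod p)⁻¹ := ZMod.natCast_zmod_val _
    have hdvd : (p : ℤ) ∣ (((-(β : ZMod p)⁻¹).val : ℕ) : ℤ) * β - (-1) := by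
      apply (ZMod.intCast_zmod_eq_zero_iff_dvd _ p).mp
      rw [Int.cast_sub, Int.cast_mul, Int.cast_natCast, e, Int.cast_neg, Int.cast_one, neg_mul,
        inv_mul_cancel₀ hpβ, sub_neg_eq_add, neg_add_cancel]
    rw [zpow_congr_of_dvd hr' hdvd, zpow_neg, zpow_one]
  have hxc : Commute x r := mul_inv_eq_iff_eq_mul.mp hxr
  have hA1 : x ^ i * r * (x ^ i)⁻¹ = r := mul_inv_eq_iff_eq_mul.mpr (hxc.pow_left i).eq
  have hA2 : x ^ i * r' * (x ^ i)⁻¹ = r * r' := by
    rw [conj_pow_formula hxr hα i, hi]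
  have hx'c : Commute x' r' := mul_inv_eq_iff_eq_mul.mp hx'r'
  have hB1 : x' ^ j * r' * (x' ^ j)⁻¹ = r' := mul_inv_eq_iff_eq_mul.mpr (hx'c.pow_left j).eq
  have hB2 : x' ^ j * r * (x' ^ j)⁻¹ = r'⁻¹ * r := by
    rw [conj_pow_formula hx'r' hβ j, hj]
  generalize x ^ i = A at hA1 hA2
  generalize x' ^ j = B at hB1 hB2
  have ht1 : (A * B * A) * r * (A * B * A)⁻¹ = r'⁻¹ := by
    have e : (A * B * A) * r * (A * B * A)⁻¹ = A * (B * (A * r * A⁻¹) * B⁻¹) * A⁻¹ := by group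
    have e2 : A * (r'⁻¹ * r) * A⁻¹ = (A * r' * A⁻¹)⁻¹ * (A * r * A⁻¹) := by group
    rw [e, hA1, hB2, e2, hA1, hA2, mul_inv_rev, inv_mul_cancel_right]
  have ht2 : (A * B * A) * r' * (A * B * A)⁻¹ = r := by
    have e : (A * B * A) * r' * (A * B * A)⁻¹ = A * (B * (A * r' * A⁻¹) * B⁻¹) * A⁻¹ := by
      group
    have e2 : B * (r * r') * B⁻¹ = (B * r * B⁻¹) * (B * r' * B⁻¹) := by group
    have e3 : r'⁻¹ * r * r' = r := by rw [mul_assoc, hrr', inv_mul_cancel_left]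
    rw [e, hA2, e2, hB2, hB1, e3, hA1]
  generalize A * B * A = t at ht1 ht2
  have ht3 : (t * t) * r * (t * t)⁻¹ = r⁻¹ := by
    have e2 : t * r'⁻¹ * t⁻¹ = (t * r' * t⁻¹)⁻¹ := by group
    rw [conj_mul_conj, ht1, e2, ht2]
  have ht4 : (t * t) * r⁻¹ * (t * t)⁻¹ = r := by
    rw [← conj_inv, ht3, inv_inv]
  have hk : ∀ k : ℕ, (t * t) ^ k * r * ((t * t) ^ k)⁻¹ = r ∨
      (t * t) ^ k * r * ((t * t) ^ k)⁻¹ = r⁻¹ := by
    intro k
    induction k with
    | zero => left; simp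
    | succ k ih =>
      rcases ih with h | h
      · right; rw [pow_succ', conj_mul_conj, h, ht3]
      · left; rw [pow_succ', conj_mul_conj, h, ht4]
  obtain ⟨m, hm⟩ := Odd.of_dvd_nat hodd (orderOf_dvd_natCard t)
  have htt : (t * t) ^ (m + 1) = t := by
    rw [← pow_two, ← pow_mul, show 2 * (m + 1) = (2 * m + 1) + 1 by ring, pow_succ, ← hm,
      pow_orderOf_eq_one, one_mul]
  have h5 := hk (m + 1)
  rw [htt, ht1] at h5
  have hxr' : x * r' * x⁻¹ = r' := by
    rcases h5 with h | h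
    · have h6 : r' = r⁻¹ := by rw [← h, inv_inv]
      have e : x * r⁻¹ * x⁻¹ = (x * r * x⁻¹)⁻¹ := by group
      rw [h6, e, hxr]
    · have h6 : r' = r := inv_injective h
      rw [h6]; exact hxr
  rw [hxr'] at hα
  exact hα1 (mul_right_cancel (show r ^ α * r' = 1 * r' by rw [one_mul]; exact hα.symm))

theorem case_a [Finite Y] {p : ℕ} {x x' r r' d : Y} (hr' : r' ^ p = 1)
    (hxr : x * r * x⁻¹ = r) (hxr' : x * r' * x⁻¹ = r') (hx'r' : x' * r' * x'⁻¹ = r')
    {β : ℤ} (hβ : x' * r * x'⁻¹ = r' ^ β * r) (hd : d ∈ Subgroup.closure ({x, x'} : Set Y))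
    {m : ℕ} (hdm : d ^ m = 1) (hm : m.Coprime p) : d * r * d⁻¹ = r ∧ d * r' * d⁻¹ = r' := by
  have hP : ∀ g ∈ Subgroup.closure ({x, x'} : Set Y),
      g * r' * g⁻¹ = r' ∧ ∃ j : ℤ, g * r * g⁻¹ = r' ^ j * r := by
    refine closure_ind_fin _ (fun g => g * r' * g⁻¹ = r' ∧ ∃ j : ℤ, g * r * g⁻¹ = r' ^ j * r)
      ?_ ?_ ?_
    · exact ⟨by simp, 0, by simp⟩
    · rintro g (rfl | rfl)
      · exact ⟨hxr', 0, by rw [zpow_zero, one_mul]; exact hxr⟩
      · exact ⟨hx'r', β, hβ⟩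
    · rintro a b ⟨ha1, j1, ha2⟩ ⟨hb1, j2, hb2⟩
      refine ⟨by rw [conj_mul_conj, hb1, ha1], j1 + j2, ?_⟩
      have e2 : ∀ R : Y, a * (R * r) * a⁻¹ = (a * R * a⁻¹) * (a * r * a⁻¹) := fun R => by group
      rw [conj_mul_conj, hb2, e2, ← conj_zpow, ha1, ha2, ← mul_assoc, ← zpow_add, add_comm]
  obtain ⟨h1, j, h2⟩ := hP d hd
  have h3 := conj_pow_formula h1 h2 m
  rw [hdm, one_mul, inv_one, mul_one] at h3
  have h4 : r' ^ ((m : ℤ) * j) = 1 :=
    (mul_right_cancel (show 1 * r = r' ^ ((m : ℤ) * j) * r by rw [one_mul]; exact h3)).symm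
  have h5 : (r' ^ j) ^ m = 1 := by
    rw [← zpow_natCast, ← zpow_mul, mul_comm]; exact h4
  have h6 : (r' ^ j) ^ p = 1 := by
    rw [← zpow_natCast, ← zpow_mul, mul_comm, zpow_mul, zpow_natCast, hr', one_zpow]
  have h7 := eq_one_of_pow_coprime h5 h6 hm
  rw [h7, one_mul] at h2
  exact ⟨h2, h1⟩

theorem lemma_T' [Finite Y] {p : ℕ} [hp : Fact p.Prime] (hodd : Odd (Nat.card Y))
    (V : Subgroup Y) (hVc : ∀ a ∈ V, ∀ b ∈ V, a * b = b * a)
    (hVp : ∀ v ∈ V, v ^ p = 1) {x x' r r' : Y} (hr : r ∈ V) (hr' : r' ∈ V)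
    (hx : ∀ v ∈ V, ∃ k : ℤ, x * v * x⁻¹ = r ^ k * v)
    (hx' : ∀ v ∈ V, ∃ k : ℤ, x' * v * x'⁻¹ = r' ^ k * v)
    {a a' : ℕ} (hxp : x ^ (p ^ a) = 1) (hx'p : x' ^ (p ^ a') = 1)
    {d : Y} (hd : d ∈ Subgroup.closure ({x, x'} : Set Y)) {m : ℕ} (hdm : d ^ m = 1)
    (hm : m.Coprime p) : ∀ v ∈ V, d * v * d⁻¹ = v := by
  obtain ⟨s, hs⟩ := hx r hr
  have hxr : x * r * x⁻¹ = r :=
    fix_gen hxp (hVp r hr) (s := s + 1) (by rw [hs, zpow_add, zpow_one])
  obtain ⟨s', hs'⟩ := hx' r' hr'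
  have hx'r' : x' * r' * x'⁻¹ = r' :=
    fix_gen hx'p (hVp r' hr') (s := s' + 1) (by rw [hs', zpow_add, zpow_one])
  obtain ⟨α, hα⟩ := hx r' hr'
  obtain ⟨β, hβ⟩ := hx' r hr
  have hcent : d * r * d⁻¹ = r ∧ d * r' * d⁻¹ = r' := by
    by_cases hα1 : r ^ α = 1
    · rw [hα1, one_mul] at hα
      exact case_a (hVp r' hr') hxr hα hx'r' hβ hd hdm hm
    · by_cases hβ1 : r' ^ β = 1
      · rw [hβ1, one_mul] at hβ
        have hd' : d ∈ Subgroup.closure ({x', x} : Set Y) := by rw [Set.pair_comm]; exact hd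
        exact (case_a (hVp r hr) hx'r' hβ hxr hα hd' hdm hm).symm
      · exact (case_c hodd (hVc r hr r' hr') (hVp r hr) (hVp r' hr') hxr hx'r' hα hβ hα1
          hβ1).elim
  have hV0 : Subgroup.closure ({r, r'} : Set Y) ≤ V := by
    rw [Subgroup.closure_le]
    rintro g (rfl | rfl)
    · exact hr
    · exact hr'
  have hP2 : ∀ g ∈ Subgroup.closure ({x, x'} : Set Y), ∀ v ∈ V,
      g * v * g⁻¹ * v⁻¹ ∈ Subgroup.closure ({r, r'} : Set Y) := by
    refine closure_ind_fin _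
      (fun g => ∀ v ∈ V, g * v * g⁻¹ * v⁻¹ ∈ Subgroup.closure ({r, r'} : Set Y)) ?_ ?_ ?_
    · intro v hv
      have : (1 : Y) * v * 1⁻¹ * v⁻¹ = 1 := by group
      rw [this]; exact Subgroup.one_mem _
    · rintro g (rfl | rfl) v hv
      · obtain ⟨k, hk⟩ := hx v hv
        rw [hk, mul_inv_cancel_right]
        exact Subgroup.zpow_mem _ (Subgroup.subset_closure (by simp)) k
      · obtain ⟨k, hk⟩ := hx' v hv
        rw [hk, mul_inv_cancel_right]
        exact Subgroup.zpow_mem _ (Subgroup.subset_closure (by simp)) k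
    · intro g h hg hh v hv
      have hu := hh v hv
      have e : g * h * v * (g * h)⁻¹ * v⁻¹
          = (g * (h * v * h⁻¹ * v⁻¹) * g⁻¹ * (h * v * h⁻¹ * v⁻¹)⁻¹) * (h * v * h⁻¹ * v⁻¹)
            * (g * v * g⁻¹ * v⁻¹) := by group
      rw [e]
      exact Subgroup.mul_mem _ (Subgroup.mul_mem _ (hg _ (hV0 hu)) hu) (hg v hv)
  have hdV0 : ∀ w ∈ Subgroup.closure ({r, r'} : Set Y), d * w * d⁻¹ = w := by
    have hle : Subgroup.closure ({r, r'} : Set Y) ≤ Subgroup.centralizer ({d} : Set Y) := by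
      rw [Subgroup.closure_le]
      rintro g (rfl | rfl)
      · rw [SetLike.mem_coe, Subgroup.mem_centralizer_iff]
        rintro h rfl
        exact mul_inv_eq_iff_eq_mul.mp hcent.1
      · rw [SetLike.mem_coe, Subgroup.mem_centralizer_iff]
        rintro h rfl
        exact mul_inv_eq_iff_eq_mul.mp hcent.2
    intro w hw
    exact mul_inv_eq_iff_eq_mul.mpr (Subgroup.mem_centralizer_iff.mp (hle hw) d rfl)
  intro v hv
  have hw := hP2 d hd v hv
  have h1 : d * v * d⁻¹ = (d * v * d⁻¹ * v⁻¹) ^ (1 : ℤ) * v := by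
    rw [zpow_one, inv_mul_cancel_right]
  have h2 := conj_pow_formula (hdV0 _ hw) h1 m
  rw [hdm, one_mul, inv_one, mul_one] at h2
  have h3 : (d * v * d⁻¹ * v⁻¹) ^ m = 1 := by
    have h := (mul_right_cancel (show 1 * v = (d * v * d⁻¹ * v⁻¹) ^ ((m : ℤ) * 1) * v by
      rw [one_mul]; exact h2)).symm
    rwa [mul_one, zpow_natCast] at h
  have h4 := eq_one_of_pow_coprime h3 (hVp _ (hV0 hw)) hm
  rw [h1, h4, one_zpow, one_mul]

theorem exists_gen (V : Subgroup Y) (z : Y) :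
    ∃ r ∈ V, ∀ g ∈ V, g ∈ Subgroup.zpowers z → ∃ k : ℤ, g = r ^ k := by
  haveI : IsCyclic ↥(Subgroup.zpowers z ⊓ V) := Subgroup.isCyclic_of_le inf_le_left
  obtain ⟨g₀, hg₀⟩ := IsCyclic.exists_generator (α := ↥(Subgroup.zpowers z ⊓ V))
  refine ⟨g₀.1, (Subgroup.mem_inf.mp g₀.2).2, ?_⟩
  intro g hgV hgz
  obtain ⟨k, hk⟩ := Subgroup.mem_zpowers_iff.mp (hg₀ ⟨g, Subgroup.mem_inf.mpr ⟨hgz, hgV⟩⟩)
  refine ⟨k, ?_⟩
  have := congrArg Subtype.val hk
  rw [Subgroup.coe_zpow] at this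
  exact this.symm

theorem lemma_T [Finite Y] {p : ℕ} [hp : Fact p.Prime] (hodd : Odd (Nat.card Y))
    (V : Subgroup Y) (hVn : V.Normal) (hVc : ∀ a ∈ V, ∀ b ∈ V, a * b = b * a)
    (hVp : ∀ v ∈ V, v ^ p = 1) {x x' z z' : Y}
    (hx : ∀ v ∈ V, x * v * x⁻¹ * v⁻¹ ∈ Subgroup.zpowers z)
    (hx' : ∀ v ∈ V, x' * v * x'⁻¹ * v⁻¹ ∈ Subgroup.zpowers z')
    {a a' : ℕ} (hxp : x ^ (p ^ a) = 1) (hx'p : x' ^ (p ^ a') = 1)
    {d : Y} (hd : d ∈ Subgroup.closure ({x, x'} : Set Y)) {m : ℕ} (hdm : d ^ m = 1)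
    (hm : m.Coprime p) : ∀ v ∈ V, d * v * d⁻¹ = v := by
  obtain ⟨r, hr, hrg⟩ := exists_gen V z
  obtain ⟨r', hr', hrg'⟩ := exists_gen V z'
  have hcm : ∀ g : Y, ∀ v ∈ V, g * v * g⁻¹ * v⁻¹ ∈ V := fun g v hv =>
    V.mul_mem (hVn.conj_mem v hv g) (V.inv_mem hv)
  refine lemma_T' hodd V hVc hVp hr hr' ?_ ?_ hxp hx'p hd hdm hm
  · intro v hv
    obtain ⟨k, hk⟩ := hrg _ (hcm x v hv) (hx v hv)
    exact ⟨k, by rw [← hk, inv_mul_cancel_right]⟩
  · intro v hv
    obtain ⟨k, hk⟩ := hrg' _ (hcm x' v hv) (hx' v hv)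
    exact ⟨k, by rw [← hk, inv_mul_cancel_right]⟩

end T

theorem exists_p'_elt {G : Type*} [Group G] [Finite G] {p : ℕ} [hp : Fact p.Prime]
    (H : Subgroup G) (h : ¬ IsPGroup p H) :
    ∃ d ∈ H, ∃ m : ℕ, m.Coprime p ∧ d ^ m = 1 ∧ d ≠ 1 := by
  unfold IsPGroup at h
  push Not at h
  obtain ⟨g, hg⟩ := h
  have hn : orderOf (g : G) ≠ 0 := (orderOf_pos (g : G)).ne'
  refine ⟨(g : G) ^ (p ^ ((orderOf (g : G)).factorization p)), H.pow_mem g.2 _,
    ordCompl[p] (orderOf (g : G)), ?_, ?_, ?_⟩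
  · exact (Nat.coprime_ordCompl hp.out hn).symm
  · rw [← pow_mul, Nat.ordProj_mul_ordCompl_eq_self, pow_orderOf_eq_one]
  · intro h1
    apply hg ((orderOf (g : G)).factorization p)
    apply Subtype.ext
    rw [Subgroup.coe_pow, h1, Subgroup.coe_one]

theorem core {G : Type*} [Group G] [Finite G] [Group.IsSolvable G] {p : ℕ} [hp : Fact p.Prime]
    (hodd : Odd (Nat.card G)) (hbot : pPrimeCore p G = ⊥) (S : Sylow p G) (z : G)
    (hz : ∀ a ∈ (S : Subgroup G), ∀ b ∈ (S : Subgroup G),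
      a * b * a⁻¹ * b⁻¹ ∈ Subgroup.zpowers z) :
    (S : Subgroup G) ≤ pCore p G := by
  intro x hxS
  by_contra hxP
  have hPn : (pCore p G).Normal := pCore_normal_fin p
  have hPp : IsPGroup p (pCore p G) := pCore_isPGroup p
  have hPS : pCore p G ≤ S := le_sylow_of_normal hPn hPp S
  have hHH := hall_higman (isPSolvable_of_isSolvable p G) hbot
  have hBS : ¬ ∀ g h : G,
      IsPGroup p (Subgroup.closure ({g * x * g⁻¹, h * x * h⁻¹} : Set G)) :=
    fun hall => hxP (Helper16.mem_pCore_of_pairs x hall)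
  push Not at hBS
  obtain ⟨g, h, hnp⟩ := hBS
  obtain ⟨d, hd, m, hm, hdm, hd1⟩ := exists_p'_elt _ hnp
  obtain ⟨a, ha⟩ := S.2 ⟨x, hxS⟩
  have hxa : x ^ p ^ a = 1 := congrArg Subtype.val ha
  have hconj_comm : ∀ (c : G) (N : Subgroup G), N.Normal → N ≤ pCore p G → ∀ v ∈ N,
      (c * x * c⁻¹) * v * (c * x * c⁻¹)⁻¹ * v⁻¹ ∈ Subgroup.zpowers (c * z * c⁻¹) := by
    intro c N hNn hNP v hv
    have hu : c⁻¹ * v * c ∈ N := by
      have := hNn.conj_mem v hv c⁻¹
      rwa [inv_inv] at this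
    obtain ⟨k, hk⟩ := Subgroup.mem_zpowers_iff.mp (hz x hxS _ (hPS (hNP hu)))
    refine Subgroup.mem_zpowers_iff.mpr ⟨k, ?_⟩
    rw [conj_zpow, hk]; group
  have hconj_pow : ∀ c : G, (c * x * c⁻¹) ^ p ^ a = 1 := by
    intro c; rw [conj_pow, hxa]; group
  have hcl : ∀ n : ℕ, ∀ N : Subgroup G, N.Normal → N ≤ pCore p G → Nat.card N ≤ n →
      ∀ v ∈ N, d * v * d⁻¹ = v := by
    intro n
    induction n with
    | zero =>
      intro N _ _ hcard
      have := Nat.card_pos (α := N)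
      omega
    | succ n ih =>
      intro N hNn hNP hcard
      by_cases hN : N = ⊥
      · intro v hv
        rw [hN, Subgroup.mem_bot] at hv
        rw [hv]; group
      obtain ⟨M, -, hM⟩ := exists_maximal_ge_of_wellFoundedGT
        (fun M : Subgroup G => M.Normal ∧ M < N) ⊥ ⟨inferInstance, bot_lt_iff_ne_bot.mpr hN⟩
      obtain ⟨hMn, hMN⟩ := hM.prop
      haveI := hMn
      have hMcard : Nat.card M ≤ n := by
        have : Nat.card M < Nat.card N :=
          lt_of_not_ge (fun hge => hMN.ne (Subgroup.eq_of_le_of_card_ge hMN.le hge))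
        omega
      have hdM := ih M hMn (hMN.le.trans hNP) hMcard
      have hπs := QuotientGroup.mk'_surjective M
      have hker : ∀ u : G, QuotientGroup.mk' M u = 1 ↔ u ∈ M := fun u => by
        rw [QuotientGroup.mk'_apply, QuotientGroup.eq_one_iff]
      haveI : Group.IsSolvable (G ⧸ M) := Group.isSolvable_of_surjective hπs
      have hoddY : Odd (Nat.card (G ⧸ M)) :=
        Odd.of_dvd_nat hodd (Subgroup.card_quotient_dvd_card M)
      haveI hVn : (N.map (QuotientGroup.mk' M)).Normal := hNn.map _ hπs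
      have hVne : N.map (QuotientGroup.mk' M) ≠ ⊥ := by
        intro hbot
        apply hMN.not_ge
        intro v hv
        have : QuotientGroup.mk' M v ∈ N.map (QuotientGroup.mk' M) :=
          Subgroup.mem_map_of_mem _ hv
        rw [hbot, Subgroup.mem_bot] at this
        exact (hker v).mp this
      have hVmin : ∀ K' : Subgroup (G ⧸ M), K'.Normal → K' ≤ N.map (QuotientGroup.mk' M) →
          K' = ⊥ ∨ K' = N.map (QuotientGroup.mk' M) := by
        intro K' hK'n hK'V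
        have hKn : (K'.comap (QuotientGroup.mk' M)).Normal := hK'n.comap _
        have hKN : K'.comap (QuotientGroup.mk' M) ≤ N := by
          intro u hu
          obtain ⟨v, hv, hvu⟩ := Subgroup.mem_map.mp (hK'V (Subgroup.mem_comap.mp hu))
          have h1 : v⁻¹ * u ∈ M := QuotientGroup.eq.mp hvu
          have h2 : u = v * (v⁻¹ * u) := by group
          rw [h2]; exact N.mul_mem hv (hMN.le h1)
        have hmap : (K'.comap (QuotientGroup.mk' M)).map (QuotientGroup.mk' M) = K' :=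
          Subgroup.map_comap_eq_self_of_surjective hπs K'
        by_cases hKeq : K'.comap (QuotientGroup.mk' M) = N
        · right; rw [← hmap, hKeq]
        · left
          have hlt : K'.comap (QuotientGroup.mk' M) < N := lt_of_le_of_ne hKN hKeq
          have hMK : M ≤ K'.comap (QuotientGroup.mk' M) := fun u hu =>
            Subgroup.mem_comap.mpr (by rw [(hker u).mpr hu]; exact K'.one_mem)
          have hKM : K'.comap (QuotientGroup.mk' M) ≤ M := hM.le_of_ge ⟨hKn, hlt⟩ hMK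
          rw [← hmap, eq_bot_iff]
          rintro _ ⟨u, hu, rfl⟩
          exact Subgroup.mem_bot.mpr ((hker u).mpr (hKM hu))
      obtain ⟨hVcomm, q, hq, hVq⟩ := S0043.result (N.map (QuotientGroup.mk' M)) hVne hVmin
      have hVp' : IsPGroup p (N.map (QuotientGroup.mk' M)) := (hPp.to_le hNP).map _
      have hqp : q = p := by
        obtain ⟨v, hv, hv1⟩ : ∃ v ∈ N.map (QuotientGroup.mk' M), v ≠ 1 := by
          by_contra hcon
          push Not at hcon
          exact hVne ((Subgroup.eq_bot_iff_forall _).mpr hcon)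
        obtain ⟨k, hk⟩ := hVp' ⟨v, hv⟩
        have hk' : v ^ p ^ k = 1 := congrArg Subtype.val hk
        by_contra hne
        have hcop : q.Coprime (p ^ k) :=
          Nat.Coprime.pow_right k ((Nat.coprime_primes hq hp.out).mpr hne)
        exact hv1 (eq_one_of_pow_coprime (hVq v hv) hk' hcop)
      rw [hqp] at hVq
      have hVc : ∀ a ∈ N.map (QuotientGroup.mk' M), ∀ b ∈ N.map (QuotientGroup.mk' M),
          a * b = b * a := by
        intro a ha b hb
        exact congrArg Subtype.val (hVcomm.is_comm.comm ⟨a, ha⟩ ⟨b, hb⟩)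
      have hTx : ∀ c : G, ∀ v' ∈ N.map (QuotientGroup.mk' M),
          QuotientGroup.mk' M (c * x * c⁻¹) * v' * (QuotientGroup.mk' M (c * x * c⁻¹))⁻¹ * v'⁻¹
            ∈ Subgroup.zpowers (QuotientGroup.mk' M (c * z * c⁻¹)) := by
        rintro c _ ⟨v, hv, rfl⟩
        have h1 := hconj_comm c N hNn hNP v hv
        have h2 : QuotientGroup.mk' M ((c * x * c⁻¹) * v * (c * x * c⁻¹)⁻¹ * v⁻¹) ∈
            (Subgroup.zpowers (c * z * c⁻¹)).map (QuotientGroup.mk' M) :=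
          Subgroup.mem_map_of_mem _ h1
        rw [MonoidHom.map_zpowers] at h2
        simpa only [map_mul, map_inv] using h2
      have hTp : ∀ c : G, (QuotientGroup.mk' M (c * x * c⁻¹)) ^ p ^ a = 1 := by
        intro c; rw [← map_pow, hconj_pow c, map_one]
      have hdY : QuotientGroup.mk' M d ∈ Subgroup.closure
          ({QuotientGroup.mk' M (g * x * g⁻¹), QuotientGroup.mk' M (h * x * h⁻¹)} :
            Set (G ⧸ M)) := by
        have := Subgroup.mem_map_of_mem (QuotientGroup.mk' M) hd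
        rwa [MonoidHom.map_closure, Set.image_pair] at this
      have hT := lemma_T hoddY (N.map (QuotientGroup.mk' M)) hVn hVc hVq (hTx g) (hTx h)
        (hTp g) (hTp h) hdY (by rw [← map_pow, hdm, map_one]) hm
      intro v hv
      have hw : d * v * d⁻¹ * v⁻¹ ∈ M := by
        rw [← hker]
        have := hT (QuotientGroup.mk' M v) (Subgroup.mem_map_of_mem _ hv)
        rw [map_mul, map_mul, map_mul, map_inv, map_inv, this, mul_inv_cancel]
      have h1 : d * v * d⁻¹ = (d * v * d⁻¹ * v⁻¹) ^ (1 : ℤ) * v := by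
        rw [zpow_one, inv_mul_cancel_right]
      have h2 := conj_pow_formula (hdM _ hw) h1 m
      rw [hdm, one_mul, inv_one, mul_one] at h2
      have h3 : (d * v * d⁻¹ * v⁻¹) ^ m = 1 := by
        have h := (mul_right_cancel (show 1 * v = (d * v * d⁻¹ * v⁻¹) ^ ((m : ℤ) * 1) * v by
          rw [one_mul]; exact h2)).symm
        rwa [mul_one, zpow_natCast] at h
      obtain ⟨k, hk⟩ := hPp ⟨_, hNP (hMN.le hw)⟩
      have hk' : (d * v * d⁻¹ * v⁻¹) ^ p ^ k = 1 := congrArg Subtype.val hk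
      have h4 := eq_one_of_pow_coprime h3 hk' (Nat.Coprime.pow_right k hm)
      rw [h1, h4, one_zpow, one_mul]
  have hdP := hcl (Nat.card (pCore p G)) (pCore p G) hPn le_rfl le_rfl
  have hdc : d ∈ Subgroup.centralizer (pCore p G : Set G) := by
    rw [Subgroup.mem_centralizer_iff]
    intro u hu
    exact (mul_inv_eq_iff_eq_mul.mp (hdP u hu)).symm
  obtain ⟨k, hk⟩ := hPp ⟨d, hHH hdc⟩
  have hk' : d ^ p ^ k = 1 := congrArg Subtype.val hk
  exact hd1 (eq_one_of_pow_coprime hdm hk' (Nat.Coprime.pow_right k hm))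

/-- Let X be a finite solvable group of odd order, p a prime and S a Sylow p-subgroup of X whose commutator subgroup is
cyclic. Then the product of the largest normal subgroup of X of order prime to p with S is a normal subgroup of X. -/
theorem result {X : Type*} [Group X] [Finite X] [Group.IsSolvable X]
    (hX : Odd (Nat.card X)) (p : ℕ) [Fact p.Prime] (S : Sylow p X) (hS : IsCyclic (commutator (S : Subgroup X))) :
    (Cfsg.pPrimeCore p X ⊔ (S : Subgroup X)).Normal := by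
  haveI hKn : (pPrimeCore p X).Normal := pPrimeCore_normal_fin p
  have hπs : Function.Surjective (QuotientGroup.mk' (pPrimeCore p X)) :=
    QuotientGroup.mk'_surjective _
  haveI : Group.IsSolvable (X ⧸ pPrimeCore p X) := Group.isSolvable_of_surjective hπs
  have hoddQ : Odd (Nat.card (X ⧸ pPrimeCore p X)) :=
    Odd.of_dvd_nat hX (Subgroup.card_quotient_dvd_card _)
  obtain ⟨g₀, hg₀⟩ := IsCyclic.exists_generator (α := ↥(commutator ↥(S : Subgroup X)))
  have hz₀ : ∀ a ∈ (S : Subgroup X), ∀ b ∈ (S : Subgroup X),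
      a * b * a⁻¹ * b⁻¹ ∈ Subgroup.zpowers (((g₀ : ↥(S : Subgroup X)) : X)) := by
    intro a ha b hb
    have hmem : ⁅(⟨a, ha⟩ : ↥(S : Subgroup X)), ⟨b, hb⟩⁆ ∈ commutator ↥(S : Subgroup X) := by
      rw [commutator_def]
      exact Subgroup.commutator_mem_commutator (Subgroup.mem_top _) (Subgroup.mem_top _)
    obtain ⟨k, hk⟩ := Subgroup.mem_zpowers_iff.mp (hg₀ ⟨_, hmem⟩)
    refine Subgroup.mem_zpowers_iff.mpr ⟨k, ?_⟩
    have := congrArg (fun t : ↥(commutator ↥(S : Subgroup X)) => ((t : ↥(S : Subgroup X)) : X)) hk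
    simpa [commutatorElement_def] using this
  have hSbar : ((S.mapSurjective hπs : Sylow p (X ⧸ pPrimeCore p X)) : Subgroup (X ⧸ pPrimeCore p X))
      = (S : Subgroup X).map (QuotientGroup.mk' (pPrimeCore p X)) := Sylow.coe_mapSurjective hπs S
  have hcore := core hoddQ (pPrimeCore_quotient_pPrimeCore p) (S.mapSurjective hπs)
    (QuotientGroup.mk' (pPrimeCore p X) ((g₀ : ↥(S : Subgroup X)) : X)) (by
      intro a ha b hb
      rw [hSbar] at ha hb
      obtain ⟨a₀, ha₀, rfl⟩ := Subgroup.mem_map.mp ha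
      obtain ⟨b₀, hb₀, rfl⟩ := Subgroup.mem_map.mp hb
      have h2 : QuotientGroup.mk' (pPrimeCore p X) (a₀ * b₀ * a₀⁻¹ * b₀⁻¹) ∈
          (Subgroup.zpowers (((g₀ : ↥(S : Subgroup X)) : X))).map
            (QuotientGroup.mk' (pPrimeCore p X)) :=
        Subgroup.mem_map_of_mem _ (hz₀ a₀ ha₀ b₀ hb₀)
      rw [MonoidHom.map_zpowers] at h2
      simpa only [map_mul, map_inv] using h2)
  have heq : pPrimeCore p X ⊔ (S : Subgroup X)
      = (pCore p (X ⧸ pPrimeCore p X)).comap (QuotientGroup.mk' (pPrimeCore p X)) := by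
    apply le_antisymm
    · apply sup_le
      · intro u hu
        rw [Subgroup.mem_comap]
        have : QuotientGroup.mk' (pPrimeCore p X) u = 1 := by
          rw [QuotientGroup.mk'_apply, QuotientGroup.eq_one_iff]; exact hu
        rw [this]; exact Subgroup.one_mem _
      · intro s hs
        rw [Subgroup.mem_comap]
        apply hcore
        rw [hSbar]
        exact Subgroup.mem_map_of_mem _ hs
    · intro u hu
      have h1 : QuotientGroup.mk' (pPrimeCore p X) u ∈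
          ((S.mapSurjective hπs : Sylow p (X ⧸ pPrimeCore p X)) :
            Subgroup (X ⧸ pPrimeCore p X)) :=
        le_sylow_of_normal (pCore_normal_fin p) (pCore_isPGroup p) _ (Subgroup.mem_comap.mp hu)
      rw [hSbar] at h1
      obtain ⟨s, hs, hsu⟩ := Subgroup.mem_map.mp h1
      have h2 : s⁻¹ * u ∈ pPrimeCore p X := QuotientGroup.eq.mp hsu
      have h3 : u = s * (s⁻¹ * u) := by group
      rw [h3]
      exact Subgroup.mul_mem _ ((le_sup_right : (S : Subgroup X) ≤ _) hs)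
        ((le_sup_left : pPrimeCore p X ≤ _) h2)
  rw [heq]
  exact (pCore_normal_fin p).comap _

end Cfsg.Agent.S0521
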