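import Cfsg.Statements.S0526
import Cfsg.Agent.Helper3.Supersolv2

set_option autoImplicit false
open Cfsg
open scoped commutatorElement

namespace Cfsg.Agent.S0526

open Cfsg.Agent.Helper3

universe u

/-- commutators centralize a generator of a cyclic normal subgroup -/
theorem comm_commute_gen {Q : Type u} [Group Q] (c : Q) (hN : (Subgroup.zpowers c).Normal)
    (a b : Q) : Commute ⁅a, b⁆ c := by
  -- conjugation by x sends c to a power of c
  have key : ∀ x : Q, ∃ i : ℤ, MulAut.conj x c = c ^ i := by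
    intro x
    have h1 : x * c * x⁻¹ ∈ Subgroup.zpowers c := hN.conj_mem c (Subgroup.mem_zpowers c) x
    obtain ⟨i, hi⟩ := Subgroup.mem_zpowers_iff.mp h1
    exact ⟨i, by rw [hi]; simp⟩
  obtain ⟨i, hi⟩ := key a⁻¹
  obtain ⟨j, hj⟩ := key b⁻¹
  have h1 : MulAut.conj (a⁻¹ * b⁻¹) c = c ^ (i * j) := by
    rw [map_mul, MulAut.mul_apply, hj, map_zpow, hi, ← zpow_mul]
  have h2 : MulAut.conj (b⁻¹ * a⁻¹) c = c ^ (i * j) := by
    rw [map_mul, MulAut.mul_apply, hi, map_zpow, hj, ← zpow_mul, mul_comm]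
  have h3 : a⁻¹ * b⁻¹ * c * (a⁻¹ * b⁻¹)⁻¹ = b⁻¹ * a⁻¹ * c * (b⁻¹ * a⁻¹)⁻¹ := by
    have := h1.trans h2.symm
    rw [MulAut.conj_apply, MulAut.conj_apply] at this
    exact this
  show ⁅a, b⁆ * c = c * ⁅a, b⁆
  rw [commutatorElement_def]
  have h4 : c = (b⁻¹ * a⁻¹)⁻¹ * (a⁻¹ * b⁻¹ * c * (a⁻¹ * b⁻¹)⁻¹) * (b⁻¹ * a⁻¹) := by
    rw [h3]; simp [mul_assoc]
  calc a * b * a⁻¹ * b⁻¹ * c = ((b⁻¹ * a⁻¹)⁻¹ * (a⁻¹ * b⁻¹ * c * (a⁻¹ * b⁻¹)⁻¹) * (b⁻¹ * a⁻¹)) * (a * b * a⁻¹ * b⁻¹) := by
        simp [mul_assoc]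
    _ = c * (a * b * a⁻¹ * b⁻¹) := by rw [← h4]

theorem commutator_le_centralizer_cyclic {Q : Type u} [Group Q] (c : Q)
    (hN : (Subgroup.zpowers c).Normal) :
    commutator Q ≤ Subgroup.centralizer (Subgroup.zpowers c : Set Q) := by
  rw [commutator_eq_closure, Subgroup.closure_le]
  rintro x ⟨a, b, rfl⟩
  show ⁅a, b⁆ ∈ Subgroup.centralizer (Subgroup.zpowers c : Set Q)
  rw [Subgroup.mem_centralizer_iff]
  intro h hh
  obtain ⟨k, rfl⟩ := Subgroup.mem_zpowers_iff.mp hh
  exact (((comm_commute_gen c hN a b).zpow_right k).eq).symm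

theorem comm_step {G : Type u} [Group G] (K : Subgroup G) [K.Normal] (g : G)
    (hN : (K ⊔ Subgroup.zpowers g).Normal) : ⁅K ⊔ Subgroup.zpowers g, commutator G⁆ ≤ K := by
  rw [Subgroup.commutator_le]
  intro x hx d hd
  rw [← QuotientGroup.eq_one_iff, ← QuotientGroup.mk'_apply, map_commutatorElement]
  have hK : K.map (QuotientGroup.mk' K) = ⊥ := by
    rw [eq_bot_iff]
    rintro _ ⟨k, hk, rfl⟩
    exact Subgroup.mem_bot.mpr ((QuotientGroup.eq_one_iff k).mpr hk)
  have hmap : (K ⊔ Subgroup.zpowers g).map (QuotientGroup.mk' K)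
      = Subgroup.zpowers (QuotientGroup.mk' K g) := by
    rw [Subgroup.map_sup, MonoidHom.map_zpowers, hK, bot_sup_eq]
  have hN' : (Subgroup.zpowers (QuotientGroup.mk' K g)).Normal := by
    rw [← hmap]; exact hN.map _ (QuotientGroup.mk'_surjective K)
  have hx' : QuotientGroup.mk' K x ∈ Subgroup.zpowers (QuotientGroup.mk' K g) := by
    rw [← hmap]; exact Subgroup.mem_map_of_mem _ hx
  have hd' : QuotientGroup.mk' K d ∈ commutator (G ⧸ K) := by
    have h1 : QuotientGroup.mk' K d ∈ (commutator G).map (QuotientGroup.mk' K) :=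
      Subgroup.mem_map_of_mem _ hd
    rw [_root_.commutator_def, Subgroup.map_commutator] at h1
    rw [_root_.commutator_def]
    exact Subgroup.commutator_mono le_top le_top h1
  have hc := commutator_le_centralizer_cyclic _ hN' hd'
  rw [Subgroup.mem_centralizer_iff] at hc
  exact commutatorElement_eq_one_iff_mul_comm.mpr (hc _ hx')

theorem lcs_bot {G : Type u} [Group G] {K : Subgroup G} (h : SSReach K) :
    ∀ j, (commutator G).lowerCentralSeries j ≤ K →
      ∃ m, (commutator G).lowerCentralSeries m = ⊥ := by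
  induction h with
  | bot => exact fun j hj => ⟨j, le_bot_iff.mp hj⟩
  | step K g hK hN ih =>
    intro j hj
    haveI := hK.normal
    apply ih (j + 1)
    rw [Subgroup.lowerCentralSeries_succ]
    exact (Subgroup.commutator_mono hj le_rfl).trans (comm_step K g hN)

/-- In a finite supersolvable group the commutator subgroup is nilpotent. -/
theorem result {G : Type*} [Group G] [Finite G] (hG : Cfsg.IsSupersolvable G) : Group.IsNilpotent (commutator G) := by
  rw [Subgroup.isNilpotent_iff_lowerCentralSeries]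
  exact lcs_bot (isSupersolvable_iff_reach.mp hG) 0 le_top

end Cfsg.Agent.S0526
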