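import Cfsg.Statements.S0527
import Cfsg.Agent.Helper3.Supersolv2

set_option autoImplicit false
open Cfsg

namespace Cfsg.Agent.S0527

open Cfsg.Agent.Helper3

/-- In a finite supersolvable group the index of any maximal subgroup is a prime number. -/
theorem result {G : Type*} [Group G] [Finite G] (hG : Cfsg.IsSupersolvable G) (M : Subgroup G) (hM : IsCoatom M) : M.index.Prime := by
  exact coatom_index_prime _ G rfl hG M hM

end Cfsg.Agent.S0527
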