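import Cfsg.Statements.S0531
import Cfsg.Agent.Helper3.Supersolv2

set_option autoImplicit false
open Cfsg

namespace Cfsg.Agent.S0531

open Cfsg.Agent.Helper3

universe u

theorem card_comap_mk {G : Type u} [Group G] [Finite G] (N : Subgroup G) [N.Normal]
    (H' : Subgroup (G ⧸ N)) :
    Nat.card (H'.comap (QuotientGroup.mk' N)) = Nat.card H' * Nat.card N := by
  have h1 := Subgroup.card_mul_index (H'.comap (QuotientGroup.mk' N))
  rw [Subgroup.index_comap_of_surjective H' (QuotientGroup.mk'_surjective N)] at h1
  have h2 := Subgroup.card_mul_index H'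
  have h3 := Subgroup.card_eq_card_quotient_mul_card_subgroup N
  have hpos : 0 < H'.index := Nat.pos_of_ne_zero Subgroup.index_ne_zero_of_finite
  have : Nat.card (H'.comap (QuotientGroup.mk' N)) * H'.index
      = (Nat.card H' * Nat.card N) * H'.index := by
    rw [h1, h3, ← h2]; ring
  exact Nat.eq_of_mul_eq_mul_right hpos this

theorem clt : ∀ (n : ℕ) (G : Type u) [Group G] [Finite G], Nat.card G = n →
    Cfsg.IsSupersolvable G → ∀ d, d ∣ Nat.card G → ∃ H : Subgroup G, Nat.card H = d := by
  intro n
  induction n using Nat.strong_induction_on with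
  | _ n ih =>
    intro G _ _ hn hG d hd
    by_cases htop : (⊤ : Subgroup G) = ⊥
    · have hc : Nat.card G = 1 := by rw [← Subgroup.card_top, htop, Subgroup.card_bot]
      rw [hc, Nat.dvd_one] at hd
      exact ⟨⊥, by rw [Subgroup.card_bot, hd]⟩
    · obtain ⟨N, hNn, hNp⟩ := exists_normal_prime_card_of_nontrivial hG htop
      haveI := hNn
      have hN0 := ne_bot_of_prime_card N hNp
      have hcard : Nat.card (G ⧸ N) < n := hn ▸ card_quotient_lt N hN0
      have hmul := Subgroup.card_eq_card_quotient_mul_card_subgroup N
      have hQ := isSupersolvable_quotient hG N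
      by_cases hpd : Nat.card N ∣ d
      · obtain ⟨d', rfl⟩ := hpd
        have hd' : d' ∣ Nat.card (G ⧸ N) := by
          rw [hmul, mul_comm (Nat.card (G ⧸ N))] at hd
          exact Nat.dvd_of_mul_dvd_mul_left hNp.pos hd
        obtain ⟨H', hH'⟩ := ih _ hcard (G ⧸ N) rfl hQ d' hd'
        exact ⟨H'.comap (QuotientGroup.mk' N), by rw [card_comap_mk, hH', mul_comm]⟩
      · have hcop : Nat.Coprime d (Nat.card N) :=
          (Nat.Coprime.symm ((Nat.Prime.coprime_iff_not_dvd hNp).mpr hpd))
        have hd' : d ∣ Nat.card (G ⧸ N) := by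
          rw [hmul] at hd
          exact hcop.dvd_of_dvd_mul_right hd
        obtain ⟨H', hH'⟩ := ih _ hcard (G ⧸ N) rfl hQ d hd'
        have hHc : Nat.card (H'.comap (QuotientGroup.mk' N)) = d * Nat.card N := by
          rw [card_comap_mk, hH']
        by_cases hHtop : H'.comap (QuotientGroup.mk' N) = ⊤
        · have hGc : Nat.card G = d * Nat.card N := by
            rw [← hHc, hHtop, Subgroup.card_top]
          have hidx : N.index = d := by
            have h1 := Subgroup.card_mul_index N
            rw [hGc, mul_comm d] at h1
            exact Nat.eq_of_mul_eq_mul_left hNp.pos h1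
          have hc : Nat.Coprime (Nat.card N) N.index := by rw [hidx]; exact hcop.symm
          obtain ⟨K, hK⟩ := Subgroup.exists_right_complement'_of_coprime hc
          refine ⟨K, ?_⟩
          have h2 := hK.card_mul_card
          rw [hGc, mul_comm d] at h2
          exact Nat.eq_of_mul_eq_mul_left hNp.pos h2
        · have hlt : Nat.card (H'.comap (QuotientGroup.mk' N)) < n := by
            rw [← hn]
            refine lt_of_le_of_ne (Subgroup.card_le_card_group _) ?_
            intro h
            exact hHtop ((Subgroup.card_eq_iff_eq_top _).mp h)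
          obtain ⟨K, hK⟩ := ih _ hlt (H'.comap (QuotientGroup.mk' N)) rfl
            (isSupersolvable_subgroup hG _) d (by rw [hHc]; exact dvd_mul_right d _)
          exact ⟨K.map (Subgroup.subtype _), by rw [Subgroup.card_subtype]; exact hK⟩

/-- A finite supersolvable group has a subgroup of each order dividing its order. -/
theorem result {G : Type*} [Group G] [Finite G] (hG : Cfsg.IsSupersolvable G) : Cfsg.HasSubgroupOfEveryOrder G := by
  intro d hd
  exact clt _ G rfl hG d hd

end Cfsg.Agent.S0531
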