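import Cfsg.Statements.S0529
import Cfsg.Agent.Helper3.Supersolv2
import Cfsg.Agent.S0531

set_option autoImplicit false
open Cfsg

namespace Cfsg.Agent.S0529

open Cfsg.Agent.Helper3

universe u

theorem sylow_normal_pq {K : Type u} [Group K] [Finite K] (p q : ℕ) [hp : Fact p.Prime]
    (hq : q.Prime) (hqp : q < p) (hK : Nat.card K = p * q) (P : Sylow p K) :
    (P : Subgroup K).Normal := by
  have h1 : Nat.card (Sylow p K) ≡ 1 [MOD p] := card_sylow_modEq_one p K
  have h2 : Nat.card (Sylow p K) ∣ (P : Subgroup K).index := P.card_dvd_index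
  have h3 : p ∣ Nat.card (P : Subgroup K) :=
    P.dvd_card_of_dvd_card (by rw [hK]; exact dvd_mul_right _ _)
  have h4 : (P : Subgroup K).index ∣ q := by
    obtain ⟨c, hc⟩ := h3
    have := Subgroup.card_mul_index (P : Subgroup K)
    rw [hK, hc, mul_assoc] at this
    have := Nat.eq_of_mul_eq_mul_left hp.out.pos this
    exact Dvd.intro_left c this
  have h5 : Nat.card (Sylow p K) ∣ q := h2.trans h4
  have h6 : Nat.card (Sylow p K) = 1 := by
    rcases (Nat.dvd_prime hq).mp h5 with h | h
    · exact h
    · exfalso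
      rw [h] at h1
      have := Nat.ModEq.eq_of_lt_of_lt h1 hqp hp.out.one_lt
      exact hq.one_lt.ne' this
  rw [Sylow.card_eq_index_normalizer P] at h6
  exact Subgroup.normalizer_eq_top_iff.mp (Subgroup.index_eq_one.mp h6)

theorem sylow_card_pq {K : Type u} [Group K] [Finite K] (p q : ℕ) [hp : Fact p.Prime]
    (hq : q.Prime) (hqp : q < p) (hK : Nat.card K = p * q) (P : Sylow p K) :
    Nat.card (P : Subgroup K) = p := by
  have hnd : ¬ p ∣ q := fun h => absurd (Nat.le_of_dvd hq.pos h) (not_le.mpr hqp)
  rw [Sylow.card_eq_multiplicity, hK, Nat.factorization_mul hp.out.ne_zero hq.ne_zero,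
    Finsupp.add_apply, hp.out.factorization_self, Nat.factorization_eq_zero_of_not_dvd hnd,
    pow_one]

theorem exists_normal_card_max : ∀ (n : ℕ) (G : Type u) [Group G] [Finite G],
    Nat.card G = n → IsSupersolvable G →
    ∀ p : ℕ, p.Prime → p ∣ Nat.card G → (∀ q : ℕ, q.Prime → q ∣ Nat.card G → q ≤ p) →
    ∃ N : Subgroup G, N.Normal ∧ Nat.card N = p := by
  intro n
  induction n using Nat.strong_induction_on with
  | _ n ih =>
    intro G _ _ hn hG p hp hpd hmax
    haveI : Fact p.Prime := ⟨hp⟩
    have htop : (⊤ : Subgroup G) ≠ ⊥ := by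
      intro h
      have hc : Nat.card G = 1 := by rw [← Subgroup.card_top, h, Subgroup.card_bot]
      rw [hc] at hpd
      exact hp.one_lt.ne' (Nat.dvd_one.mp hpd)
    obtain ⟨N₀, hN₀n, hN₀p⟩ := exists_normal_prime_card_of_nontrivial hG htop
    haveI := hN₀n
    by_cases hqp : Nat.card N₀ = p
    · exact ⟨N₀, hN₀n, hqp⟩
    · have hmul := Subgroup.card_eq_card_quotient_mul_card_subgroup N₀
      have hq_le : Nat.card N₀ ≤ p := hmax _ hN₀p (Subgroup.card_subgroup_dvd_card N₀)
      have hq_lt : Nat.card N₀ < p := lt_of_le_of_ne hq_le hqp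
      have hN0 := ne_bot_of_prime_card N₀ hN₀p
      have hcard : Nat.card (G ⧸ N₀) < n := hn ▸ card_quotient_lt N₀ hN0
      have hpd' : p ∣ Nat.card (G ⧸ N₀) := by
        rw [hmul] at hpd
        rcases (Nat.Prime.dvd_mul hp).mp hpd with h | h
        · exact h
        · exfalso
          have := (Nat.prime_dvd_prime_iff_eq hp hN₀p).mp h
          exact hqp this.symm
      have hmax' : ∀ q : ℕ, q.Prime → q ∣ Nat.card (G ⧸ N₀) → q ≤ p := fun q hq hqd =>
        hmax q hq (by rw [hmul]; exact dvd_mul_of_dvd_left hqd _)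
      obtain ⟨K', hK'n, hK'c⟩ :=
        ih _ hcard (G ⧸ N₀) rfl (isSupersolvable_quotient hG N₀) p hp hpd' hmax'
      haveI hKn : (K'.comap (QuotientGroup.mk' N₀)).Normal := hK'n.comap _
      have hKc : Nat.card (K'.comap (QuotientGroup.mk' N₀)) = p * Nat.card N₀ := by
        rw [Cfsg.Agent.S0531.card_comap_mk, hK'c]
      obtain ⟨P⟩ : Nonempty (Sylow p (K'.comap (QuotientGroup.mk' N₀))) := inferInstance
      have hPn := sylow_normal_pq p (Nat.card N₀) hN₀p hq_lt hKc P
      haveI := Sylow.characteristic_of_normal P hPn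
      refine ⟨(P : Subgroup (K'.comap (QuotientGroup.mk' N₀))).map (Subgroup.subtype _),
        ConjAct.normal_of_characteristic_of_normal, ?_⟩
      rw [Subgroup.card_subtype]
      exact sylow_card_pq p (Nat.card N₀) hN₀p hq_lt hKc P

theorem chain : ∀ (n : ℕ) (G : Type u) [Group G] [Finite G], Nat.card G = n →
    IsSupersolvable G →
    ∃ (m : ℕ) (H : Fin (m + 1) → Subgroup G), H 0 = ⊥ ∧ H (Fin.last m) = ⊤ ∧
      (∀ i, (H i).Normal) ∧
      (∀ i : Fin m, H i.castSucc ≤ H i.succ ∧ ((H i.castSucc).relIndex (H i.succ)).Prime) ∧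
      ∀ i j : Fin m, i ≤ j →
        (H j.castSucc).relIndex (H j.succ) ≤ (H i.castSucc).relIndex (H i.succ) := by
  intro n
  induction n using Nat.strong_induction_on with
  | _ n ih =>
    intro G _ _ hn hG
    by_cases htop : (⊤ : Subgroup G) = ⊥
    · exact ⟨0, fun _ => ⊥, rfl, htop.symm, fun _ => Subgroup.normal_bot, fun i => i.elim0,
        fun i => i.elim0⟩
    · have hcard1 : 1 < Nat.card G := by
        rw [← Subgroup.card_top]; exact (Subgroup.one_lt_card_iff_ne_bot _).mpr htop
      have hne : (Nat.card G).primeFactors.Nonempty := Nat.nonempty_primeFactors.mpr hcard1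
      have hpmem := Finset.max'_mem _ hne
      have hp : ((Nat.card G).primeFactors.max' hne).Prime := (Nat.mem_primeFactors.mp hpmem).1
      have hpd : (Nat.card G).primeFactors.max' hne ∣ Nat.card G :=
        (Nat.mem_primeFactors.mp hpmem).2.1
      have hmax : ∀ q : ℕ, q.Prime → q ∣ Nat.card G → q ≤ (Nat.card G).primeFactors.max' hne :=
        fun q hq hqd =>
          Finset.le_max' _ q (Nat.mem_primeFactors.mpr ⟨hq, hqd, Nat.card_pos.ne'⟩)
      obtain ⟨N, hNn, hNc⟩ := exists_normal_card_max _ G rfl hG _ hp hpd hmax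
      haveI := hNn
      have hN0 : N ≠ ⊥ := ne_bot_of_prime_card N (hNc ▸ hp)
      have hcard : Nat.card (G ⧸ N) < n := hn ▸ card_quotient_lt N hN0
      obtain ⟨m, H', h0, hl, hnorm, hsteps, hmono⟩ :=
        ih _ hcard (G ⧸ N) rfl (isSupersolvable_quotient hG N)
      obtain ⟨H, hH0, hHs⟩ : ∃ H : Fin (m + 2) → Subgroup G, H 0 = ⊥ ∧
          ∀ i : Fin (m + 1), H i.succ = (H' i).comap (QuotientGroup.mk' N) :=
        ⟨Fin.cons ⊥ (fun i => (H' i).comap (QuotientGroup.mk' N)), Fin.cons_zero _ _,
          fun i => Fin.cons_succ _ _ _⟩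
      have hr0 : (H (0 : Fin (m + 1)).castSucc).relIndex (H (0 : Fin (m + 1)).succ)
          = (Nat.card G).primeFactors.max' hne := by
        rw [Fin.castSucc_zero, hH0, hHs, h0, MonoidHom.comap_bot, QuotientGroup.ker_mk',
          Subgroup.relIndex_bot_left, hNc]
      have hrs : ∀ j : Fin m, (H j.succ.castSucc).relIndex (H j.succ.succ)
          = (H' j.castSucc).relIndex (H' j.succ) := by
        intro j
        rw [← Fin.succ_castSucc, hHs, hHs, Subgroup.relIndex_comap,
          Subgroup.map_comap_eq_self_of_surjective (QuotientGroup.mk'_surjective N)]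
      have hprime : ∀ j : Fin (m + 1), ((H j.castSucc).relIndex (H j.succ)).Prime := by
        intro j
        induction j using Fin.cases with
        | zero => rw [hr0]; exact hp
        | succ j => rw [hrs]; exact (hsteps j).2
      refine ⟨m + 1, H, hH0, ?_, ?_, ?_, ?_⟩
      · rw [← Fin.succ_last, hHs, hl, Subgroup.comap_top]
      · intro i
        induction i using Fin.cases with
        | zero => rw [hH0]; exact Subgroup.normal_bot
        | succ i => rw [hHs]; exact (hnorm i).comap _
      · intro i
        refine ⟨?_, hprime i⟩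
        induction i using Fin.cases with
        | zero => rw [Fin.castSucc_zero, hH0]; exact bot_le
        | succ j =>
          rw [← Fin.succ_castSucc, hHs, hHs]; exact Subgroup.comap_mono (hsteps j).1
      · intro i j
        induction i using Fin.cases with
        | zero =>
          intro _
          rw [hr0]
          exact hmax _ (hprime j)
            ((Subgroup.relIndex_dvd_card _ _).trans (Subgroup.card_subgroup_dvd_card _))
        | succ i =>
          induction j using Fin.cases with
          | zero => intro hij; exact absurd hij (by simp)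
          | succ j =>
            intro hij
            rw [hrs, hrs]
            exact hmono i j (Fin.succ_le_succ_iff.mp hij)

/-- A finite supersolvable group has a chain of normal subgroups, from the trivial subgroup to the whole group, in which every step has prime index and the primes occurring are non-increasing as one goes up the chain. -/
theorem result {G : Type*} [Group G] [Finite G] (hG : Cfsg.IsSupersolvable G) : ∃ (n : ℕ) (H : Fin (n + 1) → Subgroup G), H 0 = ⊥ ∧ H (Fin.last n) = ⊤ ∧ (∀ i, (H i).Normal) ∧ (∀ i : Fin n, H i.castSucc ≤ H i.succ ∧ ((H i.castSucc).relIndex (H i.succ)).Prime) ∧ ∀ i j : Fin n, i ≤ j → (H j.castSucc).relIndex (H j.succ) ≤ (H i.castSucc).relIndex (H i.succ) := by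
  exact chain _ G rfl hG

end Cfsg.Agent.S0529
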