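import Cfsg.Statements.S0530
import Cfsg.Agent.Helper3.Supersolv2

set_option autoImplicit false
open Cfsg

namespace Cfsg.Agent.S0530

open Cfsg.Agent.Helper3

universe u

theorem trivial_ss {G : Type u} [Group G] (h : (⊤ : Subgroup G) = ⊥) : IsSupersolvable G := by
  rw [isSupersolvable_iff_reach, h]; exact SSReach.bot

theorem zpowers_central_normal {G : Type u} [Group G] (z : G) (hz : z ∈ Subgroup.center G) :
    (Subgroup.zpowers z).Normal := by
  constructor
  intro m hm x
  have : x * m * x⁻¹ = m := by
    have hmc : m ∈ Subgroup.center G := (Subgroup.zpowers_le.mpr hz) hm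
    rw [Subgroup.mem_center_iff] at hmc
    rw [hmc x]; simp
  rw [this]; exact hm

theorem pgroup_ss (p : ℕ) [Fact p.Prime] : ∀ (m : ℕ) (G : Type u) [Group G] [Finite G],
    Nat.card G = m → IsPGroup p G → IsSupersolvable G := by
  intro m
  induction m using Nat.strong_induction_on with
  | _ m ih =>
    intro G _ _ hm hG
    by_cases htop : (⊤ : Subgroup G) = ⊥
    · exact trivial_ss htop
    · haveI : Nontrivial G := by
        by_contra hnt
        rw [not_nontrivial_iff_subsingleton] at hnt
        exact htop (Subsingleton.elim _ _)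
      haveI := hG.center_nontrivial
      obtain ⟨z, hz⟩ := exists_ne (1 : Subgroup.center G)
      have hz1 : (z : G) ≠ 1 := fun h => hz (Subtype.ext h)
      haveI hN := zpowers_central_normal (z : G) z.2
      have hN0 : Subgroup.zpowers (z : G) ≠ ⊥ := by
        intro h
        apply hz1
        have := Subgroup.mem_zpowers (z : G)
        rw [h] at this
        exact Subgroup.mem_bot.mp this
      have hcard : Nat.card (G ⧸ Subgroup.zpowers (z : G)) < m := hm ▸ card_quotient_lt _ hN0
      have := ih _ hcard (G ⧸ Subgroup.zpowers (z : G)) rfl (hG.to_quotient _)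
      exact isSupersolvable_of_cyclic_normal (Subgroup.zpowers (z : G)) this

theorem normal_zpowers {G : Type u} [Group G] (P : Subgroup G) (hP : P.index = 2) (t : G)
    (ht : t ∉ P) (y : G) (hy : ∀ x ∈ P, x * y = y * x)
    (hy' : ∀ x ∈ P, x * (t * y * t⁻¹) = (t * y * t⁻¹) * x)
    (hty : t * y * t⁻¹ ∈ Subgroup.zpowers y) : (Subgroup.zpowers y).Normal := by
  have key : ∀ g : G, g * y * g⁻¹ ∈ Subgroup.zpowers y := by
    intro g
    by_cases hg : g ∈ P
    · have : g * y * g⁻¹ = y := by rw [hy g hg]; simp
      rw [this]; exact Subgroup.mem_zpowers y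
    · have hgt : g * t⁻¹ ∈ P := by
        rw [Subgroup.mul_mem_iff_of_index_two hP]
        constructor
        · intro h; exact absurd h hg
        · intro h; exact absurd (inv_mem_iff.mp h) ht
      have : g * y * g⁻¹ = (g * t⁻¹) * (t * y * t⁻¹) * (g * t⁻¹)⁻¹ := by simp [mul_assoc]
      rw [this, hy' _ hgt, mul_inv_cancel_right]
      exact hty
  constructor
  intro m hm g
  obtain ⟨k, rfl⟩ := Subgroup.mem_zpowers_iff.mp hm
  have : g * y ^ k * g⁻¹ = (g * y * g⁻¹) ^ k := by
    have e1 : g * y ^ k * g⁻¹ = MulAut.conj g (y ^ k) := by simp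
    rw [e1, map_zpow]; simp
  rw [this]
  exact zpow_mem (key g) k

theorem main (p : ℕ) [hp : Fact p.Prime] (hp2 : p ≠ 2) : ∀ (n : ℕ) (G : Type u) [Group G]
    [Finite G], Nat.card G = 2 * p ^ n → IsSupersolvable G := by
  intro n
  induction n using Nat.strong_induction_on with
  | _ n ih =>
    intro G _ _ hG
    rcases Nat.eq_zero_or_pos n with rfl | hn
    · rw [pow_zero, mul_one] at hG
      haveI : Fact (Nat.Prime 2) := ⟨Nat.prime_two⟩
      haveI : IsCyclic G := isCyclic_of_prime_card hG
      rw [isSupersolvable_iff_reach]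
      exact ssReach_of_isCyclic ⊤
    · obtain ⟨P, hP⟩ := Sylow.exists_subgroup_card_pow_prime p (n := n) (G := G)
        (by rw [hG]; exact dvd_mul_left _ _)
      have hidx : P.index = 2 := by
        have := Subgroup.card_mul_index P
        rw [hP, hG, mul_comm 2] at this
        exact Nat.eq_of_mul_eq_mul_left (pow_pos hp.out.pos n) this
      haveI hPn : P.Normal := Subgroup.normal_of_index_eq_two hidx
      have hPp : IsPGroup p P := IsPGroup.of_card hP
      haveI : Nontrivial P := by
        rw [← Finite.one_lt_card_iff_nontrivial, hP]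
        exact Nat.one_lt_pow hn.ne' hp.out.one_lt
      haveI := hPp.center_nontrivial
      obtain ⟨z, hz⟩ := exists_ne (1 : Subgroup.center P)
      obtain ⟨t, ht⟩ := exists_prime_orderOf_dvd_card' (G := G) 2
        (by rw [hG]; exact dvd_mul_right _ _)
      have htP : t ∉ P := by
        intro h
        have h1 : orderOf (⟨t, h⟩ : P) ∣ Nat.card P := orderOf_dvd_natCard _
        rw [Subgroup.orderOf_mk, ht, hP] at h1
        have := (Nat.prime_dvd_prime_iff_eq Nat.prime_two hp.out).mp
          (Nat.Prime.dvd_of_dvd_pow Nat.prime_two h1)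
        exact hp2 this.symm
      have ht2 : t * t = 1 := by rw [← pow_two, ← ht]; exact pow_orderOf_eq_one t
      set Z : Subgroup G := (Subgroup.center P).map P.subtype with hZ
      haveI hZn : Z.Normal := ConjAct.normal_of_characteristic_of_normal
      have hZcent : ∀ y ∈ Z, ∀ x ∈ P, x * y = y * x := by
        rintro _ ⟨c, hc, rfl⟩ x hx
        have := Subgroup.mem_center_iff.mp hc ⟨x, hx⟩
        exact congrArg Subtype.val this
      have hZcomm : ∀ a ∈ Z, ∀ b ∈ Z, a * b = b * a := by
        intro a ha b hb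
        exact hZcent b hb a (Subgroup.map_subtype_le _ ha)
      have hzZ : ((z : P) : G) ∈ Z := Subgroup.mem_map_of_mem _ z.2
      have hz1 : ((z : P) : G) ≠ 1 := by
        intro h
        apply hz
        apply Subtype.ext
        apply Subtype.ext
        exact h
      have hy : ∃ y ∈ Z, y ≠ 1 ∧ t * y * t⁻¹ ∈ Subgroup.zpowers y := by
        set z0 : G := ((z : P) : G) with hz0
        have hconj : t * z0 * t⁻¹ ∈ Z := hZn.conj_mem z0 hzZ t
        by_cases hw : z0 * (t * z0 * t⁻¹) = 1
        · refine ⟨z0, hzZ, hz1, ?_⟩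
          have : t * z0 * t⁻¹ = z0⁻¹ := by
            rw [eq_inv_iff_mul_eq_one, ← hZcomm _ hzZ _ hconj]; exact hw
          rw [this]; exact inv_mem (Subgroup.mem_zpowers z0)
        · refine ⟨z0 * (t * z0 * t⁻¹), mul_mem hzZ hconj, hw, ?_⟩
          have : t * (z0 * (t * z0 * t⁻¹)) * t⁻¹ = z0 * (t * z0 * t⁻¹) := by
            calc t * (z0 * (t * z0 * t⁻¹)) * t⁻¹
                = (t * z0 * t⁻¹) * (t * t * z0 * (t * t)⁻¹) := by simp [mul_assoc]
              _ = (t * z0 * t⁻¹) * z0 := by rw [ht2]; simp
              _ = z0 * (t * z0 * t⁻¹) := hZcomm _ hconj _ hzZ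
          rw [this]; exact Subgroup.mem_zpowers _
      obtain ⟨y, hyZ, hy1, hty⟩ := hy
      have hN : (Subgroup.zpowers y).Normal :=
        normal_zpowers P hidx t htP y (hZcent y hyZ) (hZcent _ (hZn.conj_mem y hyZ t)) hty
      haveI := hN
      have hN0 : Subgroup.zpowers y ≠ ⊥ := by
        intro h
        apply hy1
        have := Subgroup.mem_zpowers y
        rw [h] at this
        exact Subgroup.mem_bot.mp this
      have hNP : Subgroup.zpowers y ≤ P :=
        Subgroup.zpowers_le.mpr (Subgroup.map_subtype_le _ hyZ)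
      have hdvd : Nat.card (Subgroup.zpowers y) ∣ p ^ n := hP ▸ Subgroup.card_dvd_of_le hNP
      obtain ⟨k, hkn, hk⟩ := (Nat.dvd_prime_pow hp.out).mp hdvd
      have hk0 : k ≠ 0 := by
        rintro rfl
        rw [pow_zero] at hk
        exact hN0 ((Subgroup.eq_bot_iff_card _).mpr hk)
      have hq : Nat.card (G ⧸ Subgroup.zpowers y) = 2 * p ^ (n - k) := by
        have h1 := Subgroup.card_eq_card_quotient_mul_card_subgroup (Subgroup.zpowers y)
        rw [hG, hk] at h1
        have h2 : p ^ n = p ^ (n - k) * p ^ k := by rw [← pow_add, Nat.sub_add_cancel hkn]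
        rw [h2, ← mul_assoc] at h1
        exact (Nat.eq_of_mul_eq_mul_right (pow_pos hp.out.pos k) h1).symm
      have := ih (n - k) (by omega) (G ⧸ Subgroup.zpowers y) hq
      exact isSupersolvable_of_cyclic_normal (Subgroup.zpowers y) this

/-- A finite group whose order is twice a prime power is supersolvable. -/
theorem result {G : Type*} [Group G] [Finite G] (p n : ℕ) (hp : p.Prime) (hG : Nat.card G = 2 * p ^ n) : Cfsg.IsSupersolvable G := by
  haveI : Fact p.Prime := ⟨hp⟩
  by_cases hp2 : p = 2
  · subst hp2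
    have : IsPGroup 2 G := IsPGroup.of_card (n := n + 1) (by rw [hG, pow_succ, mul_comm])
    exact pgroup_ss 2 _ G rfl this
  · exact main p hp2 n G hG

end Cfsg.Agent.S0530
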