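import Cfsg.Statements.S0532
import Mathlib

set_option autoImplicit false
open Cfsg

namespace Cfsg.Agent.S0532

universe u

theorem hasSub_of_mulEquiv {A B : Type u} [Group A] [Group B] (e : A ≃* B)
    (hA : Cfsg.HasSubgroupOfEveryOrder A) : Cfsg.HasSubgroupOfEveryOrder B := by
  intro d hd
  rw [← Nat.card_congr e.toEquiv] at hd
  obtain ⟨K, hK⟩ := hA d hd
  exact ⟨K.map e.toMonoidHom, by rw [Subgroup.card_map_of_injective e.injective]; exact hK⟩

theorem pgroup_le_of_index {G : Type u} [Group G] [Finite G] (p q : ℕ) [hp : Fact p.Prime]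
    (hq : q.Prime) (hpq : p ≠ q) (M : Subgroup G) [M.Normal] (hM : M.index = q)
    (P : Subgroup G) (hP : IsPGroup p P) : P ≤ M := by
  intro x hx
  obtain ⟨k, hk⟩ := hP ⟨x, hx⟩
  have hk' : x ^ p ^ k = 1 := by
    have := congrArg Subtype.val hk
    simpa using this
  have h1 : (QuotientGroup.mk' M x) ^ p ^ k = 1 := by rw [← map_pow, hk', map_one]
  have h2 : (QuotientGroup.mk' M x) ^ q = 1 := by
    rw [← hM, Subgroup.index_eq_card]; exact pow_card_eq_one'
  have h3 := pow_gcd_eq_one.mpr ⟨h1, h2⟩
  have hcop : Nat.Coprime (p ^ k) q :=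
    Nat.Coprime.pow_left k ((Nat.coprime_primes hp.out hq).mpr hpq)
  rw [hcop.gcd_eq_one, pow_one] at h3
  exact (QuotientGroup.eq_one_iff x).mp h3

theorem main : ∀ (n : ℕ) (G : Type u) [Group G] [Finite G], Nat.card G = n →
    (∀ H : Subgroup G, Cfsg.HasSubgroupOfEveryOrder H) → ∀ (p : ℕ) [Fact p.Prime],
    p ∣ Nat.card G → (∀ q : ℕ, q.Prime → q ∣ Nat.card G → q ≤ p) → ∀ P : Sylow p G,
    (P : Subgroup G).Normal := by
  intro n
  induction n using Nat.strong_induction_on with
  | _ n ih =>
    intro G _ _ hn h p hp hdvd hmax P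
    have hcard1 : Nat.card G ≠ 1 := by
      intro h1
      rw [h1] at hdvd
      exact hp.out.one_lt.ne' (Nat.dvd_one.mp hdvd)
    have hq : (Nat.card G).minFac.Prime := Nat.minFac_prime hcard1
    have hqd : (Nat.card G).minFac ∣ Nat.card G := Nat.minFac_dvd _
    by_cases hqp : (Nat.card G).minFac = p
    · -- G is a p-group
      have hidx : (P : Subgroup G).index = 1 := by
        rw [Nat.eq_one_iff_not_exists_prime_dvd]
        intro r hr hrd
        have hrG : r ∣ Nat.card G := hrd.trans (Subgroup.index_dvd_card _)
        have h1 : r ≤ p := hmax r hr hrG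
        have h2 : p ≤ r := hqp ▸ Nat.minFac_le_of_dvd hr.two_le hrG
        have : r = p := le_antisymm h1 h2
        rw [this] at hrd
        exact P.not_dvd_index hrd
      rw [Subgroup.index_eq_one.mp hidx]
      infer_instance
    · have hpq : p ≠ (Nat.card G).minFac := fun h => hqp h.symm
      -- subgroup of index q
      have hG : Cfsg.HasSubgroupOfEveryOrder G :=
        hasSub_of_mulEquiv Subgroup.topEquiv (h ⊤)
      obtain ⟨c, hc⟩ := hqd
      obtain ⟨M, hM⟩ := hG c (Dvd.intro_left _ hc.symm)
      have hMidx : M.index = (Nat.card G).minFac := by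
        have h1 := Subgroup.card_mul_index M
        have hcpos : 0 < c := by
          rcases Nat.eq_zero_or_pos c with h0 | h0
          · rw [h0, mul_zero] at hc
            exact absurd hc Nat.card_pos.ne'
          · exact h0
        rw [hM] at h1
        have : c * M.index = c * (Nat.card G).minFac := by rw [h1, mul_comm]; exact hc
        exact Nat.eq_of_mul_eq_mul_left hcpos this
      haveI hMn : M.Normal := Subgroup.normal_of_index_eq_minFac_card hMidx
      have hPM : (P : Subgroup G) ≤ M :=
        pgroup_le_of_index p _ hq hpq M hMidx (P : Subgroup G) P.isPGroup'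
      have hMlt : Nat.card M < n := by
        rw [← hn, hM, hc]
        have := hq.two_le
        have hcpos : 0 < c := by
          rcases Nat.eq_zero_or_pos c with h0 | h0
          · rw [h0, mul_zero] at hc
            exact absurd hc Nat.card_pos.ne'
          · exact h0
        nlinarith
      have hMh : ∀ H : Subgroup M, Cfsg.HasSubgroupOfEveryOrder H := by
        intro H
        exact hasSub_of_mulEquiv (Subgroup.equivMapOfInjective H M.subtype M.subtype_injective).symm
          (h (H.map M.subtype))
      have hpM : p ∣ Nat.card M := by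
        rw [hM]
        rw [hc] at hdvd
        rcases (Nat.Prime.dvd_mul hp.out).mp hdvd with h1 | h1
        · exact absurd ((Nat.prime_dvd_prime_iff_eq hp.out hq).mp h1) hpq
        · exact h1
      have hmaxM : ∀ r : ℕ, r.Prime → r ∣ Nat.card M → r ≤ p := fun r hr hrd =>
        hmax r hr (hrd.trans (Subgroup.card_subgroup_dvd_card M))
      have hN := ih _ hMlt M rfl hMh p hpM hmaxM (P.subtype hPM)
      haveI := Sylow.characteristic_of_normal (P.subtype hPM) hN
      have hfin : (((P.subtype hPM : Sylow p M) : Subgroup M).map M.subtype).Normal :=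
        ConjAct.normal_of_characteristic_of_normal
      have heq : ((P.subtype hPM : Sylow p M) : Subgroup M).map M.subtype = (P : Subgroup G) := by
        rw [Sylow.coe_subtype, Subgroup.subgroupOf_map_subtype, inf_of_le_left hPM]
      rw [heq] at hfin
      exact hfin

/-- If each subgroup of a finite group satisfies the converse of Lagrange's theorem, then a Sylow subgroup for the largest prime dividing the group order is normal. -/
theorem result {G : Type*} [Group G] [Finite G] (h : ∀ H : Subgroup G, Cfsg.HasSubgroupOfEveryOrder H) (p : ℕ) [Fact p.Prime] (hdvd : p ∣ Nat.card G) (hmax : ∀ q : ℕ, q.Prime → q ∣ Nat.card G → q ≤ p) (P : Sylow p G) : (P : Subgroup G).Normal := by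
  exact main _ G rfl h p hdvd hmax P

end Cfsg.Agent.S0532
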