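import Cfsg.Statements.S0533
import Cfsg.Agent.S0532
import Cfsg.Agent.S0530
import Cfsg.Agent.S0540
import Cfsg.Agent.Helper3.ElemAb
import Cfsg.Agent.Helper3.Supersolv
import Cfsg.Agent.Helper3.Supersolv2
import Cfsg.Agent.Helper19.PCenter

set_option autoImplicit false
open Cfsg
open scoped Pointwise

namespace Cfsg.Agent.S0533

open Cfsg.Agent.Helper3

universe u

theorem exists_cyclic_over {T : Type u} [Group T] (V N : Subgroup T) [V.Normal] [N.Normal]
    {K : Subgroup T} (hK : SSReach K) :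
    N ⊓ K ≤ V ∨ ∃ h ∈ N, h ∉ V ∧ (V ⊔ Subgroup.zpowers h).Normal := by
  induction hK with
  | bot => left; rw [inf_bot_eq]; exact bot_le
  | step K g hK hN ih =>
    rcases ih with ih | ih
    · by_cases hL : N ⊓ (K ⊔ Subgroup.zpowers g) ≤ V
      · exact Or.inl hL
      · right
        haveI := hK.normal
        obtain ⟨h, hh, hle⟩ := cyc_step K g (N ⊓ (K ⊔ Subgroup.zpowers g)) inf_le_right
        have hKL : K ⊓ (N ⊓ (K ⊔ Subgroup.zpowers g)) ≤ V := by
          refine le_trans ?_ ih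
          exact le_inf (inf_le_right.trans inf_le_left) inf_le_left
        have hLle : N ⊓ (K ⊔ Subgroup.zpowers g) ≤ V ⊔ Subgroup.zpowers h :=
          hle.trans (sup_le_sup_right hKL _)
        refine ⟨h, hh.1, ?_, ?_⟩
        · intro hV
          apply hL
          refine hLle.trans (sup_le le_rfl ?_)
          rw [Subgroup.zpowers_le]; exact hV
        · have heq : V ⊔ Subgroup.zpowers h = V ⊔ (N ⊓ (K ⊔ Subgroup.zpowers g)) := by
            apply le_antisymm
            · apply sup_le le_sup_left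
              refine le_trans ?_ le_sup_right
              rw [Subgroup.zpowers_le]; exact hh
            · exact sup_le le_sup_left hLle
          rw [heq]
          haveI := hN
          infer_instance
    · exact Or.inr ih

theorem hered_sub {G : Type u} [Group G]
    (h : ∀ H : Subgroup G, Cfsg.HasSubgroupOfEveryOrder H)
    (M : Subgroup G) : ∀ H : Subgroup M, Cfsg.HasSubgroupOfEveryOrder H := fun H =>
  Cfsg.Agent.S0532.hasSub_of_mulEquiv
    (Subgroup.equivMapOfInjective H M.subtype M.subtype_injective).symm (h (H.map M.subtype))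

theorem eq_of_prime_step {G : Type u} [Group G] [Finite G] (A B C : Subgroup G) (p : ℕ)
    (hp : p.Prime) (hAB : A ≤ B) (hBC : B ≤ C) (hcard : Nat.card C = p * Nat.card A)
    (hne : A ≠ B) : B = C := by
  obtain ⟨m, hm⟩ := Subgroup.card_dvd_of_le hAB
  have h2 : Nat.card B ∣ Nat.card C := Subgroup.card_dvd_of_le hBC
  have hApos : 0 < Nat.card A := Nat.card_pos
  have hmp : m ∣ p := by
    rw [hm, hcard, mul_comm p] at h2
    exact Nat.dvd_of_mul_dvd_mul_left hApos h2
  rcases (Nat.dvd_prime hp).mp hmp with h1 | h1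
  · exfalso
    apply hne
    apply Subgroup.eq_of_le_of_card_ge hAB
    rw [hm, h1, mul_one]
  · apply Subgroup.eq_of_le_of_card_ge hBC
    rw [hcard, hm, h1, mul_comm]

theorem central_of_minimal {G : Type u} [Group G] [Finite G] (p : ℕ) [Fact p.Prime]
    (P V N : Subgroup G) [P.Normal] [V.Normal] [N.Normal] (hP : IsPGroup p P)
    (hVN : V < N) (hNP : N ≤ P)
    (hmin : ∀ C : Subgroup G, C.Normal → V < C → C ≤ N → C = N) :
    ∀ n ∈ N, ∀ y ∈ P, y * n * y⁻¹ * n⁻¹ ∈ V := by
  haveI hPbar : (P.map (QuotientGroup.mk' V)).Normal :=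
    Subgroup.Normal.map inferInstance _ (QuotientGroup.mk'_surjective V)
  have hPp : IsPGroup p ↥(P.map (QuotientGroup.mk' V)) := hP.map _
  obtain ⟨n₁, hn₁N, hn₁V⟩ := SetLike.exists_of_lt hVN
  have hNbarP : N.map (QuotientGroup.mk' V) ≤ P.map (QuotientGroup.mk' V) :=
    Subgroup.map_mono hNP
  haveI hN'n : ((N.map (QuotientGroup.mk' V)).subgroupOf (P.map (QuotientGroup.mk' V))).Normal := by
    haveI : (N.map (QuotientGroup.mk' V)).Normal :=
      Subgroup.Normal.map inferInstance _ (QuotientGroup.mk'_surjective V)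
    infer_instance
  have hN'ne : (N.map (QuotientGroup.mk' V)).subgroupOf (P.map (QuotientGroup.mk' V)) ≠ ⊥ := by
    intro h0
    have hmem : (⟨QuotientGroup.mk' V n₁, hNbarP (Subgroup.mem_map_of_mem _ hn₁N)⟩ :
        ↥(P.map (QuotientGroup.mk' V))) ∈
        (N.map (QuotientGroup.mk' V)).subgroupOf (P.map (QuotientGroup.mk' V)) :=
      Subgroup.mem_subgroupOf.mpr (Subgroup.mem_map_of_mem _ hn₁N)
    rw [h0, Subgroup.mem_bot] at hmem
    have h1 : QuotientGroup.mk' V n₁ = 1 := congrArg Subtype.val hmem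
    exact hn₁V ((QuotientGroup.eq_one_iff n₁).mp h1)
  have hpd : p ∣ Nat.card
      ↥((N.map (QuotientGroup.mk' V)).subgroupOf (P.map (QuotientGroup.mk' V))) := by
    rcases (hPp.to_subgroup _).card_eq_or_dvd with h1 | h1
    · exact absurd (Subgroup.eq_bot_of_card_eq _ h1) hN'ne
    · exact h1
  obtain ⟨b, hbN, hb1, hbc⟩ := Cfsg.Agent.Helper19.exists_mem_center_of_normal hPp _ hpd
  obtain ⟨n₀, hn₀N, hn₀⟩ := Subgroup.mem_map.mp (Subgroup.mem_subgroupOf.mp hbN)
  have hn₀V : n₀ ∉ V := by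
    intro hv
    have h1 : (b : G ⧸ V) = 1 := by
      rw [← hn₀]; exact (QuotientGroup.eq_one_iff n₀).mpr hv
    exact hb1 (Subtype.ext h1)
  have hbcent : (b : G ⧸ V) ∈ Subgroup.centralizer
      ((P.map (QuotientGroup.mk' V) : Subgroup (G ⧸ V)) : Set (G ⧸ V)) := by
    rw [Subgroup.mem_centralizer_iff]
    intro z hz
    have h1 := Subgroup.mem_center_iff.mp hbc ⟨z, hz⟩
    exact congrArg Subtype.val h1
  have hCn : (N ⊓ (Subgroup.centralizer
      ((P.map (QuotientGroup.mk' V) : Subgroup (G ⧸ V)) : Set (G ⧸ V))).comap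
        (QuotientGroup.mk' V)).Normal := inferInstance
  have hVC : V < N ⊓ (Subgroup.centralizer
      ((P.map (QuotientGroup.mk' V) : Subgroup (G ⧸ V)) : Set (G ⧸ V))).comap
        (QuotientGroup.mk' V) := by
    apply lt_of_le_of_ne
    · apply le_inf hVN.le
      intro v hv
      have h1 : QuotientGroup.mk' V v = 1 := (QuotientGroup.eq_one_iff v).mpr hv
      rw [Subgroup.mem_comap, h1]
      exact one_mem _
    · intro heq
      apply hn₀V
      rw [heq]
      exact Subgroup.mem_inf.mpr ⟨hn₀N, Subgroup.mem_comap.mpr (by rw [hn₀]; exact hbcent)⟩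
  have hCeq := hmin _ hCn hVC inf_le_left
  intro n hn y hy
  have hnC : n ∈ N ⊓ (Subgroup.centralizer
      ((P.map (QuotientGroup.mk' V) : Subgroup (G ⧸ V)) : Set (G ⧸ V))).comap
        (QuotientGroup.mk' V) := by rw [hCeq]; exact hn
  have h1 := Subgroup.mem_centralizer_iff.mp (Subgroup.mem_comap.mp hnC.2)
    (QuotientGroup.mk' V y) (Subgroup.mem_map_of_mem _ hy)
  apply (QuotientGroup.eq_one_iff _).mp
  show QuotientGroup.mk' V (y * n * y⁻¹ * n⁻¹) = 1
  rw [map_mul, map_mul, map_mul, map_inv, map_inv, h1]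
  group

theorem ssReach_of_below {G : Type u} [Group G] [Finite G] (p : ℕ) [Fact p.Prime]
    (P K D : Subgroup G) [P.Normal] [D.Normal] (hP : IsPGroup p P)
    (hPK : ∀ g : G, ∃ y ∈ P, ∃ k ∈ K, g = y * k)
    (hDP : D ≤ P)
    (hss : ∀ N : Subgroup G, N.Normal → N ≤ D → Cfsg.IsSupersolvable ↥(N ⊔ K)) :
    SSReach D := by
  haveI : Nonempty {V : Subgroup G // V ≤ D ∧ SSReach V} := ⟨⟨⊥, bot_le, SSReach.bot⟩⟩
  obtain ⟨⟨V, hVD, hV⟩, hmaxV⟩ := Finite.exists_max
    (fun V : {V : Subgroup G // V ≤ D ∧ SSReach V} => Nat.card (V : Subgroup G))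
  by_cases hVeq : V = D
  · rw [← hVeq]; exact hV
  exfalso
  haveI hVn : V.Normal := hV.normal
  have hVlt : V < D := lt_of_le_of_ne hVD hVeq
  haveI : Nonempty {N : Subgroup G // N.Normal ∧ V < N ∧ N ≤ D} :=
    ⟨⟨D, inferInstance, hVlt, le_rfl⟩⟩
  obtain ⟨⟨N, hNn, hVN, hND⟩, hminN⟩ := Finite.exists_min
    (fun N : {N : Subgroup G // N.Normal ∧ V < N ∧ N ≤ D} => Nat.card (N : Subgroup G))
  haveI := hNn
  have hmin : ∀ C : Subgroup G, C.Normal → V < C → C ≤ N → C = N := by
    intro C hCn hVC hCN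
    have h1 := hminN ⟨C, hCn, hVC, hCN.trans hND⟩
    exact Subgroup.eq_of_le_of_card_ge hCN h1
  have hcent := central_of_minimal p P V N hP hVN (hND.trans hDP) hmin
  have hHss := hss N hNn hND
  have hreach := isSupersolvable_iff_reach.mp hHss
  rcases exists_cyclic_over (V.subgroupOf (N ⊔ K)) (N.subgroupOf (N ⊔ K)) hreach with
    h1 | ⟨h', hh'N, hh'V, hXn⟩
  · rw [inf_top_eq] at h1
    obtain ⟨n₁, hn₁N, hn₁V⟩ := SetLike.exists_of_lt hVN
    have h2 : (⟨n₁, Subgroup.mem_sup_left hn₁N⟩ : ↥(N ⊔ K)) ∈ V.subgroupOf (N ⊔ K) :=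
      h1 (Subgroup.mem_subgroupOf.mpr hn₁N)
    exact hn₁V (Subgroup.mem_subgroupOf.mp h2)
  have hxN : (h' : G) ∈ N := Subgroup.mem_subgroupOf.mp hh'N
  have hxV : (h' : G) ∉ V := fun hv => hh'V (Subgroup.mem_subgroupOf.mpr hv)
  have hVH : V ≤ N ⊔ K := hVN.le.trans le_sup_left
  have hX2 : (Subgroup.zpowers h').map (N ⊔ K).subtype = Subgroup.zpowers (h' : G) :=
    MonoidHom.map_zpowers _ _
  have hXmap : (V.subgroupOf (N ⊔ K) ⊔ Subgroup.zpowers h').map (N ⊔ K).subtype =
      V ⊔ Subgroup.zpowers (h' : G) := by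
    rw [Subgroup.map_sup, Subgroup.subgroupOf_map_subtype, hX2, inf_of_le_left hVH]
  have hXnormal : (V ⊔ Subgroup.zpowers (h' : G)).Normal := by
    constructor
    intro z hz g
    obtain ⟨y, hy, k, hk, rfl⟩ := hPK g
    have h1 : k * z * k⁻¹ ∈ V ⊔ Subgroup.zpowers (h' : G) := by
      rw [← hXmap] at hz ⊢
      obtain ⟨z', hz', rfl⟩ := Subgroup.mem_map.mp hz
      have h2 := hXn.conj_mem z' hz' ⟨k, Subgroup.mem_sup_right hk⟩
      exact Subgroup.mem_map.mpr ⟨_, h2, rfl⟩
    have h2 : V ⊔ Subgroup.zpowers (h' : G) ≤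
        (V ⊔ Subgroup.zpowers (h' : G)).comap (MulAut.conj y).toMonoidHom := by
      apply sup_le
      · intro v hv
        rw [Subgroup.mem_comap]
        exact Subgroup.mem_sup_left (hVn.conj_mem v hv y)
      · rw [Subgroup.zpowers_le, Subgroup.mem_comap]
        have e : (MulAut.conj y).toMonoidHom (h' : G) =
            (y * h' * y⁻¹ * (h' : G)⁻¹) * h' := by simp
        rw [e]
        exact mul_mem (Subgroup.mem_sup_left (hcent _ hxN y hy))
          (Subgroup.mem_sup_right (Subgroup.mem_zpowers _))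
    have h3 := h2 h1
    rw [Subgroup.mem_comap] at h3
    have e : y * k * z * (y * k)⁻¹ = (MulAut.conj y).toMonoidHom (k * z * k⁻¹) := by
      simp [mul_assoc]
    rw [e]; exact h3
  have hXD : V ⊔ Subgroup.zpowers (h' : G) ≤ D :=
    sup_le hVD ((Subgroup.zpowers_le.mpr hxN).trans hND)
  have hXreach : SSReach (V ⊔ Subgroup.zpowers (h' : G)) := SSReach.step V _ hV hXnormal
  have hle := hmaxV ⟨_, hXD, hXreach⟩
  have heq : V ⊔ Subgroup.zpowers (h' : G) ≤ V :=
    (Subgroup.eq_of_le_of_card_ge le_sup_left hle).ge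
  exact hxV (heq (Subgroup.mem_sup_right (Subgroup.mem_zpowers _)))

theorem main : ∀ (n : ℕ) (G : Type u) [Group G] [Finite G], Nat.card G = n →
    (∀ H : Subgroup G, Cfsg.HasSubgroupOfEveryOrder H) → Cfsg.IsSupersolvable G := by
  intro n
  induction n using Nat.strong_induction_on with
  | _ n ih =>
  intro G _ _ hn h
  have hsub : ∀ H : Subgroup G, H ≠ ⊤ → Cfsg.IsSupersolvable H := by
    intro H hH
    have hlt : Nat.card H < n := by
      rw [← hn]
      exact lt_of_le_of_ne (Subgroup.card_le_card_group H)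
        (fun heq => hH ((Subgroup.card_eq_iff_eq_top H).mp heq))
    exact ih _ hlt H rfl (hered_sub h H)
  by_cases hcard1 : Nat.card G = 1
  · apply Cfsg.Agent.S0530.trivial_ss
    haveI : Subsingleton G := (Nat.card_eq_one_iff_unique.mp hcard1).1
    exact Subsingleton.elim _ _
  have hpf : (Nat.card G).primeFactors.Nonempty := by
    rw [Nat.nonempty_primeFactors]
    have := Nat.card_pos (α := G)
    omega
  obtain ⟨p, hpmem, hpmax⟩ := Finset.exists_max_image (Nat.card G).primeFactors id hpf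
  have hp : p.Prime := Nat.prime_of_mem_primeFactors hpmem
  have hpd : p ∣ Nat.card G := Nat.dvd_of_mem_primeFactors hpmem
  haveI : Fact p.Prime := ⟨hp⟩
  have hmax : ∀ q : ℕ, q.Prime → q ∣ Nat.card G → q ≤ p := fun q hq hqd =>
    hpmax q (Nat.mem_primeFactors.mpr ⟨hq, hqd, Nat.card_pos.ne'⟩)
  obtain ⟨P⟩ : Nonempty (Sylow p G) := inferInstance
  haveI hPn : (P : Subgroup G).Normal := Cfsg.Agent.S0532.result h p hpd hmax P
  by_cases hPtop : (P : Subgroup G) = ⊤
  · have hG : IsPGroup p G := by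
      intro g
      obtain ⟨k, hk⟩ := P.isPGroup' ⟨g, hPtop ▸ Subgroup.mem_top g⟩
      exact ⟨k, by simpa using congrArg Subtype.val hk⟩
    exact Cfsg.Agent.S0530.pgroup_ss p _ G rfl hG
  have hGclt : Cfsg.HasSubgroupOfEveryOrder G :=
    Cfsg.Agent.S0532.hasSub_of_mulEquiv Subgroup.topEquiv (h ⊤)
  obtain ⟨K, hK⟩ := hGclt (P : Subgroup G).index (Subgroup.index_dvd_card _)
  obtain ⟨c, hc⟩ := hpd
  obtain ⟨M, hM⟩ := hGclt c (Dvd.intro_left _ hc.symm)
  have hcpos : 0 < c := by
    rcases Nat.eq_zero_or_pos c with h0 | h0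
    · rw [h0, mul_zero] at hc; exact absurd hc Nat.card_pos.ne'
    · exact h0
  have hcop : (Nat.card (P : Subgroup G)).Coprime (Nat.card K) := by
    rw [hK]; exact P.card_coprime_index
  have hPKbot : (P : Subgroup G) ⊓ K = ⊥ := (Subgroup.disjoint_of_coprime_natCard hcop).eq_bot
  have hcompl : Subgroup.IsComplement' (P : Subgroup G) K :=
    Subgroup.isComplement'_of_coprime (by rw [hK]; exact Subgroup.card_mul_index _) hcop
  have hPKdec : ∀ g : G, ∃ y ∈ (P : Subgroup G), ∃ k ∈ K, g = y * k := by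
    intro g
    have hg : g ∈ (((P : Subgroup G) ⊔ K : Subgroup G) : Set G) := by
      rw [hcompl.sup_eq_top]; trivial
    rw [Subgroup.normal_mul] at hg
    obtain ⟨y, hy, k, hk, rfl⟩ := Set.mem_mul.mp hg
    exact ⟨y, hy, k, hk, rfl⟩
  have hPM : ¬ (P : Subgroup G) ≤ M := by
    intro hle
    obtain ⟨e, he⟩ : Nat.card (P : Subgroup G) ∣ c := hM ▸ Subgroup.card_dvd_of_le hle
    have h2 := Subgroup.card_mul_index (P : Subgroup G)
    have h3 : (P : Subgroup G).index = p * e := by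
      have hPpos : 0 < Nat.card (P : Subgroup G) := Nat.card_pos
      apply Nat.eq_of_mul_eq_mul_left hPpos
      rw [h2, hc, he]; ring
    exact P.not_dvd_index (h3 ▸ dvd_mul_right p e)
  obtain ⟨x₀, hx₀P, hx₀M⟩ := SetLike.not_le_iff_exists.mp hPM
  have hMPtop : M ⊔ (P : Subgroup G) = ⊤ := by
    apply eq_of_prime_step M (M ⊔ (P : Subgroup G)) ⊤ p hp le_sup_left le_top
    · rw [Subgroup.card_top, hM, hc]
    · intro heq
      apply hx₀M
      rw [heq]
      exact Subgroup.mem_sup_right hx₀P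
  have hcardP : Nat.card (P : Subgroup G) = p * Nat.card ↥(M ⊓ (P : Subgroup G)) := by
    have h1 := card_mul_card_eq_of_le_normalizer M (P : Subgroup G)
      Subgroup.le_normalizer_of_normal
    rw [hMPtop, Subgroup.card_top, hM, hc] at h1
    apply Nat.eq_of_mul_eq_mul_left hcpos
    rw [h1]; ring
  have hDP : M ⊓ (P : Subgroup G) ≤ (P : Subgroup G) := inf_le_right
  have hDnM : M ≤ Subgroup.normalizer ((M ⊓ (P : Subgroup G) : Subgroup G) : Set G) := by
    intro m hm
    apply Cfsg.Agent.S0540.mem_normalizer_of_smul_le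
    intro y hy
    obtain ⟨d, hd, rfl⟩ := (Subgroup.mem_smul_pointwise_iff_exists _ _ _).mp hy
    exact Subgroup.mem_inf.mpr ⟨M.mul_mem (M.mul_mem hm hd.1) (M.inv_mem hm),
      hPn.conj_mem d hd.2 m⟩
  have hDnP : (P : Subgroup G) ≤
      Subgroup.normalizer ((M ⊓ (P : Subgroup G) : Subgroup G) : Set G) := by
    rw [← Subgroup.normal_subgroupOf_iff_le_normalizer hDP]
    apply Subgroup.normal_of_index_eq_minFac_card
    have hcardD' : Nat.card ↥((M ⊓ (P : Subgroup G)).subgroupOf (P : Subgroup G)) =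
        Nat.card ↥(M ⊓ (P : Subgroup G)) :=
      Nat.card_congr (Subgroup.subgroupOfEquivOfLe hDP).toEquiv
    have h1 := Subgroup.card_mul_index ((M ⊓ (P : Subgroup G)).subgroupOf (P : Subgroup G))
    rw [hcardD', hcardP] at h1
    have hDpos : 0 < Nat.card ↥(M ⊓ (P : Subgroup G)) := Nat.card_pos
    have hidx : ((M ⊓ (P : Subgroup G)).subgroupOf (P : Subgroup G)).index = p := by
      apply Nat.eq_of_mul_eq_mul_left hDpos
      rw [h1]; ring
    rw [hidx]
    have hk : Nat.card (P : Subgroup G) = p ^ (Nat.card G).factorization p :=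
      P.card_eq_multiplicity
    have hne : (Nat.card G).factorization p ≠ 0 :=
      (hp.factorization_pos_of_dvd Nat.card_pos.ne' (Dvd.intro c hc.symm)).ne'
    rw [hk, hp.pow_minFac hne]
  haveI hDn : (M ⊓ (P : Subgroup G)).Normal := by
    apply Subgroup.normalizer_eq_top_iff.mp
    rw [eq_top_iff, ← hMPtop]
    exact sup_le hDnM hDnP
  have hx₀D : x₀ ∉ M ⊓ (P : Subgroup G) := fun hx => hx₀M hx.1
  have hDx₀ : (M ⊓ (P : Subgroup G)) ⊔ Subgroup.zpowers x₀ = (P : Subgroup G) := by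
    apply eq_of_prime_step (M ⊓ (P : Subgroup G)) _ (P : Subgroup G) p hp le_sup_left
      (sup_le hDP (Subgroup.zpowers_le.mpr hx₀P)) hcardP
    intro heq
    apply hx₀D
    rw [heq]
    exact Subgroup.mem_sup_right (Subgroup.mem_zpowers x₀)
  have hDKtop : ∀ N : Subgroup G, N.Normal → N ≤ M ⊓ (P : Subgroup G) → N ⊔ K ≠ ⊤ := by
    intro N hNn hND htop
    haveI := hNn
    have hg : x₀ ∈ ((N ⊔ K : Subgroup G) : Set G) := by rw [htop]; trivial
    rw [Subgroup.normal_mul] at hg
    obtain ⟨d, hd, k, hk, hdk⟩ := Set.mem_mul.mp hg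
    have hkP : k ∈ (P : Subgroup G) := by
      have h1 : k = d⁻¹ * x₀ := by rw [← hdk]; group
      rw [h1]
      exact mul_mem (inv_mem (hND hd).2) hx₀P
    have hk1 : k = 1 := by
      have h1 : k ∈ (P : Subgroup G) ⊓ K := ⟨hkP, hk⟩
      rw [hPKbot] at h1
      exact Subgroup.mem_bot.mp h1
    apply hx₀D
    rw [← hdk, hk1, mul_one]
    exact hND hd
  have hDreach : SSReach (M ⊓ (P : Subgroup G)) :=
    ssReach_of_below p (P : Subgroup G) K (M ⊓ (P : Subgroup G)) P.isPGroup' hPKdec hDP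
      (fun N hNn hND => hsub (N ⊔ K) (hDKtop N hNn hND))
  have hPreach : SSReach (P : Subgroup G) := by
    have h1 := SSReach.step (M ⊓ (P : Subgroup G)) x₀ hDreach (by rw [hDx₀]; exact hPn)
    rwa [hDx₀] at h1
  have hKtop : K ≠ ⊤ := by
    intro hKt
    have h1 : x₀ ∈ (P : Subgroup G) ⊓ K := ⟨hx₀P, hKt ▸ Subgroup.mem_top x₀⟩
    rw [hPKbot, Subgroup.mem_bot] at h1
    apply hx₀M
    rw [h1]; exact one_mem M
  have hKss := hsub K hKtop
  have hGP : Cfsg.IsSupersolvable (G ⧸ (P : Subgroup G)) := by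
    apply isSupersolvable_of_surjective hKss
      ((QuotientGroup.mk' (P : Subgroup G)).comp K.subtype)
    intro q
    obtain ⟨g, rfl⟩ := QuotientGroup.mk'_surjective (P : Subgroup G) q
    obtain ⟨y, hy, k, hk, rfl⟩ := hPKdec g
    refine ⟨⟨k, hk⟩, ?_⟩
    have hy1 : QuotientGroup.mk' (P : Subgroup G) y = 1 := (QuotientGroup.eq_one_iff y).mpr hy
    show QuotientGroup.mk' (P : Subgroup G) k = QuotientGroup.mk' (P : Subgroup G) (y * k)
    rw [map_mul, hy1, one_mul]
  apply isSupersolvable_of_ker (QuotientGroup.mk' (P : Subgroup G))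
    (QuotientGroup.mk'_surjective _) ?_ hGP
  rw [QuotientGroup.ker_mk']
  exact hPreach

/-- If every subgroup of a finite group has subgroups of all orders dividing its order, then the group is supersolvable. -/
theorem result {G : Type*} [Group G] [Finite G] (h : ∀ H : Subgroup G, Cfsg.HasSubgroupOfEveryOrder H) : Cfsg.IsSupersolvable G := by
  exact main _ G rfl h

end Cfsg.Agent.S0533
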