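import Cfsg.Statements.S0534
import Cfsg.Agent.S0003
import Cfsg.Agent.S0531
import Cfsg.Agent.S0530
import Cfsg.Agent.Helper3.Supersolv
import Cfsg.Agent.Helper3.Subnormal

set_option autoImplicit false
open Cfsg

namespace Cfsg.Agent.S0534

open Cfsg.Agent.Helper3

universe u

theorem comm_ss : ∀ (n : ℕ) (A : Type u) [CommGroup A] [Finite A], Nat.card A = n →
    Cfsg.IsSupersolvable A := by
  intro n
  induction n using Nat.strong_induction_on with
  | _ n ih =>
  intro A _ _ hn
  by_cases htop : (⊤ : Subgroup A) = ⊥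
  · exact Cfsg.Agent.S0530.trivial_ss htop
  obtain ⟨g, hg⟩ : ∃ g : A, g ≠ 1 := by
    by_contra hcon
    apply htop
    rw [eq_bot_iff]
    intro x _
    rw [Subgroup.mem_bot]
    by_contra hx
    exact hcon ⟨x, hx⟩
  have hne : Subgroup.zpowers g ≠ ⊥ := by
    intro h0
    apply hg
    have h1 : g ∈ Subgroup.zpowers g := Subgroup.mem_zpowers g
    rw [h0, Subgroup.mem_bot] at h1
    exact h1
  have hlt : Nat.card (A ⧸ Subgroup.zpowers g) < n := hn ▸ card_quot_lt_of_ne_bot _ hne
  have hq := ih _ hlt (A ⧸ Subgroup.zpowers g) rfl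
  exact isSupersolvable_of_cyclic_normal (Subgroup.zpowers g) hq

theorem nt_split (n a d : ℕ) (hn : n ≠ 0) (ha : a ≠ 0)
    (hexp : ∀ p : ℕ, p.Prime → p ∣ n → a.factorization p + 1 = n.factorization p)
    (hd : d ∣ n * a) :
    ∃ m b : ℕ, d = m * b ∧ m.Coprime (n / m) ∧ m ∣ n ∧ b ∣ a := by
  classical
  have hd0 : d ≠ 0 := by
    intro h
    rw [h, zero_dvd_iff] at hd
    exact (mul_ne_zero hn ha) hd
  obtain ⟨f, hf⟩ : ∃ f : ℕ →₀ ℕ,
      f = n.factorization.filter (fun p => n.factorization p ≤ d.factorization p) := ⟨_, rfl⟩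
  have hfp : ∀ p, f p =
      if n.factorization p ≤ d.factorization p then n.factorization p else 0 := by
    intro p; rw [hf, Finsupp.filter_apply]
  have hfprime : ∀ p ∈ f.support, p.Prime := by
    intro p hp
    rw [Finsupp.mem_support_iff, hfp] at hp
    have h1 : n.factorization p ≠ 0 := by
      intro h0
      apply hp
      simp [h0]
    by_contra hnp
    exact h1 ((Nat.factorization_eq_zero_iff n p).mpr (Or.inl hnp))
  have hmf : (f.prod (· ^ ·)).factorization = f := Nat.prod_pow_factorization_eq_self hfprime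
  have hm0 : f.prod (· ^ ·) ≠ 0 := by
    rw [Finsupp.prod]
    exact Finset.prod_ne_zero_iff.mpr (fun p hp => pow_ne_zero _ (hfprime p hp).ne_zero)
  obtain ⟨m, hm⟩ : ∃ m : ℕ, m = f.prod (· ^ ·) := ⟨_, rfl⟩
  rw [← hm] at hmf hm0
  have hmn : m ∣ n := by
    rw [← Nat.factorization_le_iff_dvd hm0 hn, hmf]
    intro p
    rw [hfp]
    split_ifs
    · exact le_rfl
    · exact Nat.zero_le _
  have hmd : m ∣ d := by
    rw [← Nat.factorization_le_iff_dvd hm0 hd0, hmf]
    intro p
    rw [hfp]
    split_ifs with hc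
    · exact hc
    · exact Nat.zero_le _
  have hdeq : d = m * (d / m) := (Nat.mul_div_cancel' hmd).symm
  have hb0 : d / m ≠ 0 := by
    intro h0
    rw [h0, mul_zero] at hdeq
    exact hd0 hdeq
  have hnm0 : n / m ≠ 0 := by
    intro h0
    have h1 := Nat.mul_div_cancel' hmn
    rw [h0, mul_zero] at h1
    exact hn h1.symm
  refine ⟨m, d / m, hdeq, ?_, hmn, ?_⟩
  · apply Nat.coprime_of_dvd
    intro p hp hpm hpnm
    have h1 : 0 < m.factorization p := hp.factorization_pos_of_dvd hm0 hpm
    have h2 : 0 < (n / m).factorization p := hp.factorization_pos_of_dvd hnm0 hpnm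
    rw [Nat.factorization_div hmn, Finsupp.tsub_apply, hmf, hfp] at h2
    rw [hmf, hfp] at h1
    split_ifs at h1 h2 with hc
    · omega
    · omega
  · rw [← Nat.factorization_le_iff_dvd hb0 ha, Nat.factorization_div hmd, hmf]
    intro p
    rw [Finsupp.tsub_apply, hfp]
    have hdle : d.factorization p ≤ n.factorization p + a.factorization p := by
      have h1 := (Nat.factorization_le_iff_dvd hd0 (mul_ne_zero hn ha)).mpr hd p
      rw [Nat.factorization_mul hn ha, Finsupp.add_apply] at h1
      exact h1
    split_ifs with hc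
    · omega
    · have h1 : n.factorization p ≠ 0 := by omega
      have hpp : p.Prime := by
        by_contra hnp
        exact h1 ((Nat.factorization_eq_zero_iff n p).mpr (Or.inl hnp))
      have hpn : p ∣ n := by
        by_contra hnd
        exact h1 ((Nat.factorization_eq_zero_iff n p).mpr (Or.inr (Or.inl hnd)))
      have h3 := hexp p hpp hpn
      omega

/-- Let G be a finite solvable group and A a finite abelian group such that every prime dividing the order of A divides the order of G and, for each prime p dividing the order of G, the exponent of p in the order of A is one less than its exponent in the order of G. Then G × A has a subgroup of every order dividing its order. -/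
theorem result {G A : Type*} [Group G] [CommGroup A] [Finite G] [Finite A] [Group.IsSolvable G] (hA : ∀ p : ℕ, p.Prime → p ∣ Nat.card A → p ∣ Nat.card G) (hexp : ∀ p : ℕ, p.Prime → p ∣ Nat.card G → (Nat.card A).factorization p + 1 = (Nat.card G).factorization p) : Cfsg.HasSubgroupOfEveryOrder (G × A) := by
  intro d hd
  rw [Nat.card_prod] at hd
  obtain ⟨m, b, hdeq, hcop, hmn, hba⟩ := nt_split (Nat.card G) (Nat.card A) d
    Nat.card_pos.ne' Nat.card_pos.ne' hexp hd
  obtain ⟨H, hH⟩ := Cfsg.Agent.S0003.result (G := G) m (Nat.card G / m)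
    (Nat.mul_div_cancel' hmn).symm hcop
  obtain ⟨B, hB⟩ := Cfsg.Agent.S0531.clt _ A rfl (comm_ss _ A rfl) b hba
  refine ⟨H.prod B, ?_⟩
  rw [Nat.card_congr (Subgroup.prodEquiv H B).toEquiv, Nat.card_prod, hH, hB, hdeq]

end Cfsg.Agent.S0534
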