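import Cfsg.Statements.S0535
import Cfsg.Agent.S0019
import Cfsg.Agent.Helper24.CharBurnside
import Cfsg.Agent.Helper15.CD

set_option autoImplicit false
open Cfsg

namespace Cfsg.Agent.S0535

universe u

theorem prod_of_coprime_index {G : Type u} [Group G] [Finite G] (H K : Subgroup G)
    (hc : H.index.Coprime K.index) : ∀ g : G, ∃ x ∈ H, ∃ y ∈ K, g = x * y := by
  have h1 : H.index * K.index ∣ (H ⊓ K).index :=
    Nat.Coprime.mul_dvd_of_dvd_of_dvd hc (Subgroup.index_dvd_of_le inf_le_left)
      (Subgroup.index_dvd_of_le inf_le_right)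
  have h2 : (H ⊓ K).index = H.index * K.index :=
    le_antisymm Subgroup.index_inf_le
      (Nat.le_of_dvd (Nat.pos_of_ne_zero Subgroup.index_ne_zero_of_finite) h1)
  have e1 := Subgroup.card_mul_index H
  have e2 := Subgroup.card_mul_index K
  have e3 := Subgroup.card_mul_index (H ⊓ K)
  have hle := Cfsg.Agent.Helper15.card_mul_card_le H K
  have hsupG : Nat.card ↥(H ⊔ K) ≤ Nat.card G := Subgroup.card_le_card_group _
  have key : Nat.card H * Nat.card K = Nat.card G * Nat.card ↥(H ⊓ K) := by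
    have hpos : 0 < H.index * K.index :=
      Nat.mul_pos (Nat.pos_of_ne_zero Subgroup.index_ne_zero_of_finite)
        (Nat.pos_of_ne_zero Subgroup.index_ne_zero_of_finite)
    apply Nat.eq_of_mul_eq_mul_right hpos
    calc Nat.card H * Nat.card K * (H.index * K.index)
        = (Nat.card H * H.index) * (Nat.card K * K.index) := by ring
      _ = Nat.card G * Nat.card G := by rw [e1, e2]
      _ = Nat.card G * (Nat.card ↥(H ⊓ K) * (H ⊓ K).index) := by rw [e3]
      _ = Nat.card G * Nat.card ↥(H ⊓ K) * (H.index * K.index) := by rw [h2]; ring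
  have hsup : Nat.card ↥(H ⊔ K) = Nat.card G := by
    have hpos : 0 < Nat.card ↥(H ⊓ K) := Nat.card_pos
    have : Nat.card G * Nat.card ↥(H ⊓ K) ≤ Nat.card ↥(H ⊔ K) * Nat.card ↥(H ⊓ K) := key ▸ hle
    exact le_antisymm hsupG (Nat.le_of_mul_le_mul_right this hpos)
  have hEq : Nat.card H * Nat.card K = Nat.card ↥(H ⊔ K) * Nat.card ↥(H ⊓ K) := by
    rw [hsup, key]
  have hset := Cfsg.Agent.Helper15.coe_sup_eq_mul_of_card_eq H K hEq
  have htop : H ⊔ K = ⊤ := (Subgroup.card_eq_iff_eq_top _).mp hsup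
  intro g
  have hg : g ∈ ((H ⊔ K : Subgroup G) : Set G) := by rw [htop]; trivial
  rw [hset] at hg
  obtain ⟨x, hx, y, hy, rfl⟩ := Set.mem_mul.mp hg
  exact ⟨x, hx, y, hy, rfl⟩

theorem card_two_primes (n : ℕ) (hn : n ≠ 0) (h : n.primeFactors.card ≤ 2) :
    ∃ p q a b : ℕ, p.Prime ∧ q.Prime ∧ n = p ^ a * q ^ b := by
  have hprod : n = ∏ p ∈ n.primeFactors, p ^ n.factorization p :=
    (Nat.prod_factorization_pow_eq_self hn).symm.trans
      (Nat.prod_factorization_eq_prod_primeFactors _)
  have hcases : n.primeFactors.card = 0 ∨ n.primeFactors.card = 1 ∨ n.primeFactors.card = 2 := by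
    omega
  rcases hcases with h0 | h1 | h2
  · rw [Finset.card_eq_zero] at h0
    rw [h0, Finset.prod_empty] at hprod
    exact ⟨2, 2, 0, 0, Nat.prime_two, Nat.prime_two, by rw [hprod]; rfl⟩
  · obtain ⟨x, hx⟩ := Finset.card_eq_one.mp h1
    have hxp : x.Prime := Nat.prime_of_mem_primeFactors (hx ▸ Finset.mem_singleton_self x)
    rw [hx, Finset.prod_singleton] at hprod
    exact ⟨x, x, n.factorization x, 0, hxp, hxp, by rw [pow_zero, mul_one]; exact hprod⟩
  · obtain ⟨x, y, hxy, hs⟩ := Finset.card_eq_two.mp h2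
    have hxp : x.Prime := Nat.prime_of_mem_primeFactors (hs ▸ Finset.mem_insert_self x {y})
    have hyp : y.Prime := Nat.prime_of_mem_primeFactors
      (hs ▸ Finset.mem_insert_of_mem (Finset.mem_singleton_self y))
    rw [hs, Finset.prod_pair hxy] at hprod
    exact ⟨x, y, n.factorization x, n.factorization y, hxp, hyp, hprod⟩

/-- the hypothesis of the statement -/
def Hyp (G : Type u) [Group G] : Prop :=
  ∀ H : Subgroup G, H ≠ ⊥ → ∀ p : ℕ, p.Prime → p ∣ Nat.card H →
    ∃ K : Subgroup H, K ≠ ⊤ ∧ ∃ k : ℕ, K.index = p ^ k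

theorem hyp_subgroup {G : Type u} [Group G] (h : Hyp G) (M : Subgroup G) : Hyp M := by
  intro H hH p hp hpd
  have hH' : H.map M.subtype ≠ ⊥ := by
    intro hb
    apply hH
    rw [eq_bot_iff]
    intro x hx
    have := Subgroup.mem_map_of_mem M.subtype hx
    rw [hb, Subgroup.mem_bot] at this
    rw [Subgroup.mem_bot]
    exact Subtype.ext this
  have hcard : Nat.card (H.map M.subtype) = Nat.card H := Subgroup.card_subtype M H
  obtain ⟨K₀, hK₀, k, hk⟩ := h (H.map M.subtype) hH' p hp (hcard ▸ hpd)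
  have hsurj : Function.Surjective
      (Subgroup.equivMapOfInjective H M.subtype M.subtype_injective).toMonoidHom :=
    (Subgroup.equivMapOfInjective H M.subtype M.subtype_injective).surjective
  refine ⟨K₀.comap (Subgroup.equivMapOfInjective H M.subtype M.subtype_injective).toMonoidHom,
    ?_, k, ?_⟩
  · intro htop
    apply hK₀
    rw [← Subgroup.map_comap_eq_self_of_surjective hsurj K₀, htop,
      Subgroup.map_top_of_surjective _ hsurj]
  · rw [Subgroup.index_comap_of_surjective K₀ hsurj]; exact hk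

theorem exists_sub_of_prime {G : Type u} [Group G] [Finite G] (h : Hyp G) (p : ℕ)
    (hp : p.Prime) (hpd : p ∣ Nat.card G) :
    ∃ K : Subgroup G, K ≠ ⊤ ∧ ∃ k : ℕ, K.index = p ^ k := by
  have htop : (⊤ : Subgroup G) ≠ ⊥ := by
    intro hb
    have hc : Nat.card G = 1 := by rw [← Subgroup.card_top, hb, Subgroup.card_bot]
    rw [hc] at hpd
    exact hp.one_lt.ne' (Nat.dvd_one.mp hpd)
  obtain ⟨K₀, hK₀, k, hk⟩ := h ⊤ htop p hp (by rw [Subgroup.card_top]; exact hpd)
  have hsurj : Function.Surjective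
      (Subgroup.topEquiv.symm : G ≃* (⊤ : Subgroup G)).toMonoidHom :=
    (Subgroup.topEquiv.symm : G ≃* (⊤ : Subgroup G)).surjective
  refine ⟨K₀.comap (Subgroup.topEquiv.symm : G ≃* (⊤ : Subgroup G)).toMonoidHom, ?_, k, ?_⟩
  · intro ht
    apply hK₀
    rw [← Subgroup.map_comap_eq_self_of_surjective hsurj K₀, ht,
      Subgroup.map_top_of_surjective _ hsurj]
  · rw [Subgroup.index_comap_of_surjective K₀ hsurj]; exact hk

theorem main : ∀ (n : ℕ) (G : Type u) [Group G] [Finite G], Nat.card G = n → Hyp G →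
    Group.IsSolvable G := by
  intro n
  induction n using Nat.strong_induction_on with
  | _ n ih =>
    intro G _ _ hn h
    have hsub : ∀ K : Subgroup G, K ≠ ⊤ → Group.IsSolvable K := by
      intro K hK
      have hlt : Nat.card K < n := by
        rw [← hn]
        exact lt_of_le_of_ne (Subgroup.card_le_card_group K)
          (fun hc => hK ((Subgroup.card_eq_iff_eq_top K).mp hc))
      exact ih _ hlt K rfl (hyp_subgroup h K)
    by_cases hc : (Nat.card G).primeFactors.card ≤ 2
    · obtain ⟨p, q, a, b, hp, hq, hcard⟩ := card_two_primes (Nat.card G) Nat.card_pos.ne' hc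
      exact Cfsg.Agent.Helper24.isSolvable_of_card_prime_pow_mul p q a b hp hq hcard
    · push Not at hc
      obtain ⟨p, q, r, hp, hq, hr, hpq, hpr, hqr⟩ := Finset.two_lt_card_iff.mp hc
      have hp' := Nat.mem_primeFactors.mp hp
      have hq' := Nat.mem_primeFactors.mp hq
      have hr' := Nat.mem_primeFactors.mp hr
      obtain ⟨Kp, hKp, kp, hkp⟩ := exists_sub_of_prime h p hp'.1 hp'.2.1
      obtain ⟨Kq, hKq, kq, hkq⟩ := exists_sub_of_prime h q hq'.1 hq'.2.1
      obtain ⟨Kr, hKr, kr, hkr⟩ := exists_sub_of_prime h r hr'.1 hr'.2.1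
      have cpq : Kp.index.Coprime Kq.index := by
        rw [hkp, hkq]; exact Nat.Coprime.pow _ _ ((Nat.coprime_primes hp'.1 hq'.1).mpr hpq)
      have cpr : Kp.index.Coprime Kr.index := by
        rw [hkp, hkr]; exact Nat.Coprime.pow _ _ ((Nat.coprime_primes hp'.1 hr'.1).mpr hpr)
      have cqr : Kq.index.Coprime Kr.index := by
        rw [hkq, hkr]; exact Nat.Coprime.pow _ _ ((Nat.coprime_primes hq'.1 hr'.1).mpr hqr)
      exact Cfsg.Agent.S0019.result Kp Kq Kr (hsub Kp hKp) (hsub Kq hKq) (hsub Kr hKr)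
        (prod_of_coprime_index Kp Kq cpq) (prod_of_coprime_index Kp Kr cpr) cqr

/-- Suppose that for every nontrivial subgroup H of a finite group and every prime p dividing the order of H there is a proper subgroup of H whose index in H is a power of p. Then the group is solvable. -/
theorem result {G : Type*} [Group G] [Finite G] (h : ∀ H : Subgroup G, H ≠ ⊥ → ∀ p : ℕ, p.Prime → p ∣ Nat.card H → ∃ K : Subgroup H, K ≠ ⊤ ∧ ∃ k : ℕ, K.index = p ^ k) : Group.IsSolvable G := by
  exact main _ G rfl h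

end Cfsg.Agent.S0535
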