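import Cfsg.Statements.S0537
import Mathlib
import Cfsg.Agent.Helper8.Schmidt3

set_option autoImplicit false
open Cfsg

namespace Cfsg.Agent.S0537

open Cfsg.Agent.Helper8

/-- A finite non-abelian group in which every proper subgroup is abelian is either of prime-power order, or is generated by a cyclic Sylow p-subgroup and a normal Sylow q-subgroup that is elementary abelian, for distinct primes p and q. -/
theorem result {G : Type*} [Group G] [Finite G] (hna : ¬ IsMulCommutative G) (h : ∀ H : Subgroup G, H ≠ ⊤ → IsMulCommutative H) : (∃ p : ℕ, p.Prime ∧ IsPGroup p G) ∨ ∃ p q : ℕ, p.Prime ∧ q.Prime ∧ p ≠ q ∧ ∃ (P : Sylow p G) (Q : Sylow q G), IsCyclic P ∧ (Q : Subgroup G).Normal ∧ Cfsg.IsElementaryAbelian q (Q : Subgroup G) ∧ (P : Subgroup G) ⊔ Q = ⊤ := by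
  classical
  have hncomm : ¬ ∀ a b : G, a * b = b * a := fun hc => hna (isMulCommutative_iff.mpr hc)
  have hsubcomm : ∀ H : Subgroup G, H ≠ ⊤ → ∀ a ∈ H, ∀ b ∈ H, a * b = b * a := by
    intro H hH
    exact isMulCommutative_iff_of_setLike.mp (h H hH)
  have hsubnil : ∀ H : Subgroup G, H ≠ ⊤ → Group.IsNilpotent H := by
    intro H hH
    exact isNilpotent_of_comm (fun a b => Subtype.ext (hsubcomm H hH a a.2 b b.2))
  by_cases hnil : Group.IsNilpotent G
  · left
    by_contra hcon
    push Not at hcon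
    apply hncomm
    haveI := hnil
    have hcent : Subgroup.center G = ⊤ := by
      apply eq_top_of_exists_sylow_le
      intro r hrF
      obtain ⟨T⟩ : Nonempty (Sylow r G) := inferInstance
      refine ⟨T, ?_⟩
      have hTn : (T : Subgroup G).Normal := inferInstance
      have hTne : (T : Subgroup G) ≠ ⊤ := by
        intro htop
        apply hcon r hrF.out
        intro g
        obtain ⟨k, hk⟩ := pelem_of_mem T.isPGroup'
          (htop ▸ Subgroup.mem_top g : g ∈ (T : Subgroup G))
        exact ⟨k, hk⟩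
      intro t ht
      rw [Subgroup.mem_center_iff]
      intro g
      obtain ⟨e, m, u, v, hord, hm, hu, hv, hdec, hue, hvm⟩ :=
        exists_decomp g (orderOf_pos g).ne' r hrF.out
      have huT : u ∈ (T : Subgroup G) := mem_sylow_of_normal T hTn hue
      have h1 : u * t = t * u := hsubcomm _ hTne u huT t ht
      obtain ⟨j, hj⟩ := pelem_of_mem T.isPGroup' ht
      have h2 : v * t = t * v := by
        apply comm_of_coprime_nilpotent (N := G) v t
        exact Nat.Coprime.coprime_dvd_left (orderOf_dvd_of_pow_eq_one hvm)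
          (Nat.Coprime.coprime_dvd_right (orderOf_dvd_of_pow_eq_one hj)
            (Nat.Coprime.pow_right j
              (Nat.Coprime.symm ((Nat.Prime.coprime_iff_not_dvd hrF.out).mpr hm))))
      rw [hdec, mul_assoc, h1, ← mul_assoc, h2, mul_assoc]
    intro a b
    have ha : a ∈ Subgroup.center G := hcent ▸ Subgroup.mem_top a
    exact (Subgroup.mem_center_iff.mp ha b).symm
  · right
    obtain ⟨p, q, hp, hq, hpq, P, Q, hc, hQn, hsup, hPn, -⟩ := schmidt hnil hsubnil
    haveI : Fact p.Prime := ⟨hp⟩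
    haveI : Fact q.Prime := ⟨hq⟩
    refine ⟨p, q, hp, hq, hpq, P, Q, hc, hQn, ?_, hsup⟩
    have hQtop : (Q : Subgroup G) ≠ ⊤ := by
      intro htop
      apply hnil
      have hpg : IsPGroup q G := by
        intro g
        obtain ⟨k, hk⟩ := pelem_of_mem Q.isPGroup'
          (htop ▸ Subgroup.mem_top g : g ∈ (Q : Subgroup G))
        exact ⟨k, hk⟩
      exact hpg.isNilpotent
    refine ⟨h _ hQtop, ?_⟩
    have hQcomm := hsubcomm _ hQtop
    have hdisj : ∀ a ∈ (P : Subgroup G), a ∈ (Q : Subgroup G) → a = 1 := by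
      intro a haP haQ
      obtain ⟨j, hj⟩ := pelem_of_mem P.isPGroup' haP
      obtain ⟨k, hk⟩ := pelem_of_mem Q.isPGroup' haQ
      have h4 := Nat.dvd_gcd (orderOf_dvd_of_pow_eq_one hj) (orderOf_dvd_of_pow_eq_one hk)
      rw [Nat.Coprime.gcd_eq_one
        (Nat.Coprime.pow j k ((Nat.coprime_primes hp hq).mpr hpq))] at h4
      exact orderOf_eq_one_iff.mp (Nat.dvd_one.mp h4)
    let Ω : Subgroup G :=
      { carrier := {a | a ∈ (Q : Subgroup G) ∧ a ^ q = 1}
        mul_mem' := by
          rintro a b ⟨ha, ha'⟩ ⟨hb, hb'⟩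
          refine ⟨Subgroup.mul_mem _ ha hb, ?_⟩
          rw [(show Commute a b from hQcomm a ha b hb).mul_pow, ha', hb', one_mul]
        one_mem' := ⟨Subgroup.one_mem _, one_pow _⟩
        inv_mem' := by
          rintro a ⟨ha, ha'⟩
          exact ⟨Subgroup.inv_mem _ ha, by rw [inv_pow, ha', inv_one]⟩ }
    have hΩmem : ∀ a, a ∈ Ω ↔ a ∈ (Q : Subgroup G) ∧ a ^ q = 1 := fun a => Iff.rfl
    have hΩn : Ω.Normal := by
      constructor
      intro a ha g
      rw [hΩmem] at ha ⊢
      exact ⟨hQn.conj_mem a ha.1 g, by rw [conj_pow, ha.2, mul_one, mul_inv_cancel]⟩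
    have hΩQ : Ω ≤ (Q : Subgroup G) := fun a ha => ((hΩmem a).mp ha).1
    by_cases hPΩ : (P : Subgroup G) ⊔ Ω = ⊤
    · intro y hy
      have hy' : y ∈ (P : Subgroup G) ⊔ Ω := hPΩ ▸ Subgroup.mem_top y
      obtain ⟨a, ha, w, hw, hyw⟩ := Subgroup.mem_sup_of_normal_right.mp hy'
      have ha1 : a = 1 := by
        apply hdisj a ha
        have e : a = y * w⁻¹ := by rw [← hyw]; group
        rw [e]; exact Subgroup.mul_mem _ hy (Subgroup.inv_mem _ (hΩQ hw))
      rw [← hyw, ha1, one_mul]
      exact ((hΩmem w).mp hw).2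
    · exfalso
      have hPΩcomm := hsubcomm _ hPΩ
      have hxz : ∀ x ∈ (P : Subgroup G), ∀ z ∈ Ω, x * z = z * x := fun x hx z hz =>
        hPΩcomm x (le_sup_left (b := Ω) hx) z (le_sup_right (a := (P : Subgroup G)) hz)
      have key : ∀ k : ℕ, ∀ x ∈ (P : Subgroup G), ∀ y ∈ (Q : Subgroup G),
          y ^ (q ^ k) = 1 → x * y = y * x := by
        intro k
        induction k with
        | zero =>
          intro x hx y hy hyk
          rw [pow_zero, pow_one] at hyk
          rw [hyk, mul_one, one_mul]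
        | succ k ih =>
          intro x hx y hy hyk
          have hyq : (y ^ q) ^ (q ^ k) = 1 := by rw [← pow_mul, ← pow_succ']; exact hyk
          have hyqQ : y ^ q ∈ (Q : Subgroup G) := Subgroup.pow_mem _ hy q
          have h1 : x * y ^ q = y ^ q * x := ih x hx (y ^ q) hyqQ hyq
          obtain ⟨z, hz⟩ : ∃ z, z = y⁻¹ * (x * y * x⁻¹) := ⟨_, rfl⟩
          have hzQ : z ∈ (Q : Subgroup G) := by
            rw [hz]; exact Subgroup.mul_mem _ (Subgroup.inv_mem _ hy) (hQn.conj_mem y hy x)
          have hxyx : x * y * x⁻¹ = y * z := by rw [hz]; group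
          have hzq : z ^ q = 1 := by
            have e1 : (x * y * x⁻¹) ^ q = y ^ q := by
              rw [conj_pow, h1, mul_inv_cancel_right]
            rw [hxyx, (show Commute y z from hQcomm y hy z hzQ).mul_pow] at e1
            exact mul_left_cancel (a := y ^ q) (by rw [e1, mul_one])
          have hzΩ : z ∈ Ω := (hΩmem z).mpr ⟨hzQ, hzq⟩
          have hxy : x * y = y * z * x := by rw [← hxyx, inv_mul_cancel_right]
          have h2 := conj_pow_aux x y z hxy (hxz x hx z hzΩ) (orderOf x)
          rw [pow_orderOf_eq_one x, one_mul, mul_one] at h2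
          have hzx : z ^ orderOf x = 1 :=
            mul_left_cancel (a := y) (by rw [← h2, mul_one])
          obtain ⟨j, hj⟩ := pelem_of_mem P.isPGroup' hx
          have h4 := Nat.dvd_gcd (orderOf_dvd_of_pow_eq_one hzx) (orderOf_dvd_of_pow_eq_one hzq)
          have hcop : (orderOf x).Coprime q :=
            Nat.Coprime.coprime_dvd_left (orderOf_dvd_of_pow_eq_one hj)
              (Nat.Coprime.pow_left j ((Nat.coprime_primes hp hq).mpr hpq))
          rw [Nat.Coprime.gcd_eq_one hcop] at h4
          have hz1 : z = 1 := orderOf_eq_one_iff.mp (Nat.dvd_one.mp h4)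
          rw [hz1, mul_one] at hxy
          exact hxy
      apply hPn
      constructor
      intro a ha g
      have hg : g ∈ (P : Subgroup G) ⊔ (Q : Subgroup G) := hsup ▸ Subgroup.mem_top g
      obtain ⟨b, hb, c, hc', rfl⟩ := Subgroup.mem_sup_of_normal_right.mp hg
      obtain ⟨k, hk⟩ := pelem_of_mem Q.isPGroup' hc'
      have h1 := key k a ha c hc' hk
      have e : b * c * a * (b * c)⁻¹ = b * a * b⁻¹ := by
        calc b * c * a * (b * c)⁻¹ = b * (c * a) * c⁻¹ * b⁻¹ := by group
          _ = b * (a * c) * c⁻¹ * b⁻¹ := by rw [h1]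
          _ = b * a * b⁻¹ := by group
      rw [e]
      exact Subgroup.mul_mem _ (Subgroup.mul_mem _ hb ha) (Subgroup.inv_mem _ hb)

end Cfsg.Agent.S0537
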