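import Cfsg.Statements.S0541
import Cfsg.Agent.Helper3.Zipper

set_option autoImplicit false
open Cfsg
open scoped Pointwise

namespace Cfsg.Agent.S0541

open Cfsg.Agent.Helper3

universe u

/-- conjugates of `Z` contained in `T` -/
def conjs {G : Type u} [Group G] (Z T : Subgroup G) : Set (Subgroup G) :=
  {B | (∃ g : G, B = MulAut.conj g • Z) ∧ B ≤ T}

theorem mem_normalizer_of_smul_le {G : Type u} [Group G] [Finite G] (H : Subgroup G) (g : G)
    (h : MulAut.conj g • H ≤ H) : g ∈ Subgroup.normalizer (H : Set G) := by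
  rw [Subgroup.mem_normalizer_iff_map_conj_eq]
  have hcard : Nat.card H ≤ Nat.card (MulAut.conj g • H : Subgroup G) := by
    have : Nat.card (H.map (MulAut.conj g).toMonoidHom) = Nat.card H :=
      Subgroup.card_map_of_injective (MulAut.conj g).injective
    exact this.ge
  exact Subgroup.eq_of_le_of_card_ge h hcard

theorem conj_smul_smul {G : Type u} [Group G] (a b : G) (Z : Subgroup G) :
    MulAut.conj a • MulAut.conj b • Z = MulAut.conj (a * b) • Z := by
  rw [smul_smul, ← map_mul]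

/-- Let Z and Y be subgroups of a finite group G and p a prime. Suppose that for every g in G the subgroup generated by the conjugates of g Z g⁻¹ under Y is a p-group. Then there is a Sylow p-subgroup P of G such that Y normalizes the subgroup generated by all conjugates of Z contained in P. -/
theorem result {G : Type*} [Group G] [Finite G] (p : ℕ) [Fact p.Prime] (Z Y : Subgroup G) (h : ∀ g : G, IsPGroup p ↥(⨆ y ∈ Y, MulAut.conj (y * g) • Z)) : ∃ P : Sylow p G, Y ≤ Subgroup.normalizer ((⨆ g ∈ {g : G | MulAut.conj g • Z ≤ (P : Subgroup G)}, MulAut.conj g • Z : Subgroup G) : Set G) := by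
  haveI : Nonempty {T : Subgroup G // IsPGroup p T ∧ Y ≤ Subgroup.normalizer (T : Set G) ∧
      T = sSup (conjs Z T)} := by
    refine ⟨⟨⊥, IsPGroup.of_bot, ?_, ?_⟩⟩
    · rw [Subgroup.normalizer_eq_top_iff.mpr Subgroup.normal_bot]; exact le_top
    · exact le_antisymm bot_le (sSup_le (fun B hB => hB.2))
  obtain ⟨⟨T, hTp, hTY, hTgen⟩, hmax⟩ := Finite.exists_max
    (fun T : {T : Subgroup G // IsPGroup p T ∧ Y ≤ Subgroup.normalizer (T : Set G) ∧
      T = sSup (conjs Z T)} => Nat.card (T : Subgroup G))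
  have hmax' : ∀ T' : Subgroup G, IsPGroup p T' → Y ≤ Subgroup.normalizer (T' : Set G) →
      T' = sSup (conjs Z T') → Nat.card T' ≤ Nat.card T := fun T' a b c => hmax ⟨T', a, b, c⟩
  obtain ⟨P, hTP⟩ := hTp.exists_le_sylow
  have hsub : conjs Z (P : Subgroup G) ⊆ conjs Z T := by
    by_contra hns
    have hss : conjs Z T ⊂ conjs Z (P : Subgroup G) :=
      ⟨fun B hB => ⟨hB.1, hB.2.trans hTP⟩, hns⟩
    obtain ⟨X, hXS, hX0, hXn⟩ := zipper_rel (P : Subgroup G) (conjs Z (P : Subgroup G))
      (conjs Z T) (fun B hB => hB.2)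
      (fun B _ => isSubnormal_of_isPGroup P.isPGroup' _)
      (fun B hB v hv => by
        obtain ⟨⟨g, rfl⟩, hBP⟩ := hB
        refine ⟨⟨v * g, conj_smul_smul v g Z⟩, ?_⟩
        have h1 : MulAut.conj v • MulAut.conj g • Z ≤ MulAut.conj v • (P : Subgroup G) :=
          Subgroup.pointwise_smul_le_pointwise_smul_iff.mpr hBP
        rwa [Subgroup.conj_smul_eq_self_of_mem hv] at h1) hss
    rw [← hTgen] at hXn
    obtain ⟨⟨g, rfl⟩, hXP⟩ := hXS
    -- L
    have hLp := h g
    have hLn : (⨆ y ∈ Y, MulAut.conj (y * g) • Z) ≤ Subgroup.normalizer (T : Set G) := by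
      apply iSup₂_le
      intro y hy x hx
      rw [← conj_smul_smul] at hx
      obtain ⟨x', hx', rfl⟩ := (Subgroup.mem_smul_pointwise_iff_exists _ _ _).mp hx
      rw [MulAut.smul_def, MulAut.conj_apply]
      exact mul_mem (mul_mem (hTY hy) (hXn hx')) (inv_mem (hTY hy))
    have hTLp : IsPGroup p (T ⊔ (⨆ y ∈ Y, MulAut.conj (y * g) • Z) : Subgroup G) :=
      IsPGroup.to_sup_of_normal_left' hTp hLp hLn
    have hYL : Y ≤ Subgroup.normalizer (((⨆ y ∈ Y, MulAut.conj (y * g) • Z) : Subgroup G) : Set G) := by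
      intro y' hy'
      apply mem_normalizer_of_smul_le
      show (⨆ y ∈ Y, MulAut.conj (y * g) • Z).map (MulAut.conj y').toMonoidHom ≤ _
      rw [Subgroup.map_le_iff_le_comap]
      apply iSup₂_le
      intro y hy
      rw [← Subgroup.map_le_iff_le_comap]
      have e : (MulAut.conj (y * g) • Z).map (MulAut.conj y').toMonoidHom
          = MulAut.conj (y' * y * g) • Z := by
        show MulAut.conj y' • MulAut.conj (y * g) • Z = _
        rw [conj_smul_smul, mul_assoc]
      rw [e]
      exact le_iSup₂ (f := fun y (_ : y ∈ Y) => MulAut.conj (y * g) • Z) (y' * y) (mul_mem hy' hy)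
    have hYTL : Y ≤ Subgroup.normalizer ((T ⊔ (⨆ y ∈ Y, MulAut.conj (y * g) • Z) : Subgroup G) : Set G) :=
      (le_inf hTY hYL).trans (normalizer_inf_le_sup _ _)
    have hgen : T ⊔ (⨆ y ∈ Y, MulAut.conj (y * g) • Z)
        = sSup (conjs Z (T ⊔ (⨆ y ∈ Y, MulAut.conj (y * g) • Z))) := by
      apply le_antisymm
      · apply sup_le
        · have hsub' : conjs Z T ⊆ conjs Z (T ⊔ (⨆ y ∈ Y, MulAut.conj (y * g) • Z)) :=
            fun B hB => ⟨hB.1, hB.2.trans le_sup_left⟩
          calc T = sSup (conjs Z T) := hTgen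
            _ ≤ _ := sSup_le_sSup hsub'
        · apply iSup₂_le
          intro y hy
          apply le_sSup
          refine ⟨⟨y * g, rfl⟩, ?_⟩
          exact le_trans (le_iSup₂ (f := fun y (_ : y ∈ Y) => MulAut.conj (y * g) • Z) y hy)
            le_sup_right
      · exact sSup_le (fun B hB => hB.2)
    have hcard := hmax' _ hTLp hYTL hgen
    have hEq : T = T ⊔ (⨆ y ∈ Y, MulAut.conj (y * g) • Z) :=
      Subgroup.eq_of_le_of_card_ge le_sup_left hcard
    apply hX0
    refine ⟨⟨g, rfl⟩, ?_⟩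
    have h1 : MulAut.conj g • Z ≤ (⨆ y ∈ Y, MulAut.conj (y * g) • Z) := by
      have := le_iSup₂ (f := fun y (_ : y ∈ Y) => MulAut.conj (y * g) • Z) 1 (one_mem Y)
      simpa using this
    rw [hEq]
    exact h1.trans le_sup_right
  refine ⟨P, ?_⟩
  have hW : (⨆ g ∈ {g : G | MulAut.conj g • Z ≤ (P : Subgroup G)}, MulAut.conj g • Z : Subgroup G)
      = T := by
    apply le_antisymm
    · apply iSup₂_le
      intro g hg
      exact (hsub ⟨⟨g, rfl⟩, hg⟩).2
    · rw [hTgen]
      apply sSup_le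
      rintro B ⟨⟨g, rfl⟩, hB⟩
      exact le_iSup₂ (f := fun g (_ : g ∈ {g : G | MulAut.conj g • Z ≤ (P : Subgroup G)}) =>
        MulAut.conj g • Z) g (hB.trans hTP)
  rw [hW]
  exact hTY

end Cfsg.Agent.S0541
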