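import Cfsg.Statements.S0544
import Mathlib

set_option autoImplicit false
open Cfsg

namespace Cfsg.Agent.S0544

theorem card_quot_dvd {G : Type*} [Group G] [Finite G] (L : Subgroup G) :
    Nat.card (↥(Subgroup.normalizer (L : Set G)) ⧸ L.subgroupOf (Subgroup.normalizer (L : Set G))) ∣ L.index := by
  have h : L.relIndex (Subgroup.normalizer (L : Set G)) * (Subgroup.normalizer (L : Set G)).index = L.index :=
    Subgroup.relIndex_mul_index Subgroup.le_normalizer
  exact Dvd.intro _ h


theorem nilp_of_embed {G : Type*} [Group G] [Finite G] {ι : Type*} [Finite ι] (L : ι → Subgroup G)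
    (pr : ι → ℕ) (hpr : ∀ i, (pr i).Prime) (hL : ∀ i, ∃ k, (L i).index = pr i ^ k) (D : Subgroup G)
    (hD : ∀ i, D ≤ Subgroup.normalizer (L i : Set G)) (htriv : D ⊓ ⨅ i, L i = ⊥) :
    Group.IsNilpotent D := by
  classical
  have hnil : ∀ i, Group.IsNilpotent (↥(Subgroup.normalizer (L i : Set G)) ⧸ (L i).subgroupOf (Subgroup.normalizer (L i : Set G))) := by
    intro i
    haveI : Fact (pr i).Prime := ⟨hpr i⟩
    obtain ⟨k, hk⟩ := hL i
    have hdvd := card_quot_dvd (L i)
    rw [hk] at hdvd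
    obtain ⟨m, -, hm⟩ := (Nat.dvd_prime_pow (hpr i)).1 hdvd
    exact (IsPGroup.of_card hm).isNilpotent
  obtain ⟨f, hf⟩ : ∃ f : ↥D →* ∀ i, (↥(Subgroup.normalizer (L i : Set G)) ⧸ (L i).subgroupOf (Subgroup.normalizer (L i : Set G))),
      ∀ (x : ↥D) (i : ι), f x i = QuotientGroup.mk (Subgroup.inclusion (hD i) x) :=
    ⟨MonoidHom.pi (fun i => (QuotientGroup.mk' _).comp (Subgroup.inclusion (hD i))), fun x i => rfl⟩
  have hinj : Function.Injective f := by
    rw [injective_iff_map_eq_one]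
    intro x hx
    have hx' : ∀ i, (x : G) ∈ L i := by
      intro i
      have h1 : f x i = 1 := by rw [hx]; rfl
      rw [hf, QuotientGroup.eq_one_iff] at h1
      exact Subgroup.mem_subgroupOf.1 h1
    have hx'' : (x : G) ∈ D ⊓ ⨅ i, L i := ⟨x.2, Subgroup.mem_iInf.2 hx'⟩
    rw [htriv, Subgroup.mem_bot] at hx''
    exact Subtype.ext hx''
  haveI := hnil
  exact Subgroup.isNilpotent_of_ker_le_center f (by rw [(MonoidHom.ker_eq_bot_iff f).2 hinj]; exact bot_le)

/-- In a finite solvable group the intersection of the normalizers of the members of a Hall complement system is a nilpotent subgroup. -/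
theorem result {G : Type*} [Group G] [Finite G] [Group.IsSolvable G] (K : Nat.Primes → Subgroup G) (hK : Cfsg.IsComplementSystem K) : Group.IsNilpotent (Cfsg.systemNormalizer K) := by
  classical
  have hn : Nat.card G ≠ 0 := Nat.card_pos.ne'
  have hA : ∀ q : Nat.Primes, ¬ ((q : ℕ) ∣ Nat.card (K q)) := by
    intro q hq
    have h1 : Nat.card (K q) * (K q).index = Nat.card G := Subgroup.card_mul_index (K q)
    have h2 : (K q).index = (q : ℕ) ^ (Nat.card G).factorization q := hK q
    apply Nat.pow_succ_factorization_not_dvd hn q.2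
    calc (q : ℕ) ^ ((Nat.card G).factorization q + 1)
        = (q : ℕ) * (q : ℕ) ^ (Nat.card G).factorization q := pow_succ' _ _
      _ ∣ Nat.card (K q) * (K q).index := by rw [h2]; exact Nat.mul_dvd_mul_right hq _
      _ = Nat.card G := h1
  have hD : ∀ i : ↥((Nat.card G).primeFactors), Cfsg.systemNormalizer K ≤
      Subgroup.normalizer ((K ⟨i.1, Nat.prime_of_mem_primeFactors i.2⟩ : Subgroup G) : Set G) := by
    intro i
    unfold Cfsg.systemNormalizer
    exact iInf_le (fun p : Nat.Primes => Subgroup.normalizer ((K p : Subgroup G) : Set G)) _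
  have htriv : Cfsg.systemNormalizer K ⊓ ⨅ i : ↥((Nat.card G).primeFactors), K ⟨i.1, Nat.prime_of_mem_primeFactors i.2⟩ = ⊥ := by
    rw [eq_bot_iff]
    intro x hx0
    have hx := (Subgroup.mem_inf.1 hx0).2
    rw [Subgroup.mem_bot]
    by_contra hx1
    have ho : orderOf x ≠ 1 := fun h => hx1 (orderOf_eq_one_iff.1 h)
    obtain ⟨q, hq, hqx⟩ := Nat.exists_prime_and_dvd ho
    have hqn : q ∈ (Nat.card G).primeFactors :=
      Nat.mem_primeFactors.2 ⟨hq, hqx.trans (orderOf_dvd_natCard x), hn⟩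
    have hxq : x ∈ K ⟨q, hq⟩ := Subgroup.mem_iInf.1 hx ⟨q, hqn⟩
    exact hA ⟨q, hq⟩ (hqx.trans (Subgroup.orderOf_dvd_natCard _ hxq))
  exact nilp_of_embed (fun i : ↥((Nat.card G).primeFactors) => K ⟨i.1, Nat.prime_of_mem_primeFactors i.2⟩)
    (fun i => i.1) (fun i => Nat.prime_of_mem_primeFactors i.2) (fun i => ⟨_, hK _⟩)
    (Cfsg.systemNormalizer K) hD htriv

end Cfsg.Agent.S0544
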