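import Cfsg.Statements.S0546
import Cfsg.Agent.Helper3.SysNorm

set_option autoImplicit false
open Cfsg

namespace Cfsg.Agent.S0546

open Cfsg.Agent.Helper3
open scoped commutatorElement

universe u

theorem systemNormalizer_eq_top_of_comm {Q : Type u} [Group Q] (hc : ∀ a b : Q, a * b = b * a)
    (K : Nat.Primes → Subgroup Q) : Cfsg.systemNormalizer K = ⊤ := by
  refine eq_top_iff.mpr fun y _ => Subgroup.mem_iInf.mpr fun p => ?_
  rw [Subgroup.mem_normalizer_iff]
  intro h
  rw [hc y h, mul_inv_cancel_right]

theorem systemNormalizer_ne_bot {Q : Type u} [Group Q] [Finite Q] [Group.IsSolvable Q]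
    [Nontrivial Q] (K : Nat.Primes → Subgroup Q) (hK : Cfsg.IsComplementSystem K) :
    Cfsg.systemNormalizer K ≠ ⊥ := by
  intro h
  have h1 := systemNormalizer_map K hK (commutator Q)
  rw [h, Subgroup.map_bot] at h1
  have hc : ∀ a b : Q ⧸ commutator Q, a * b = b * a := by
    intro a b
    obtain ⟨x, rfl⟩ := QuotientGroup.mk'_surjective _ a
    obtain ⟨y, rfl⟩ := QuotientGroup.mk'_surjective _ b
    rw [← map_mul, ← map_mul]
    apply (QuotientGroup.eq).mpr
    have : (x * y)⁻¹ * (y * x) = ⁅y⁻¹, x⁻¹⁆ := by
      rw [commutatorElement_def]; group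
    rw [this, commutator_def]
    exact Subgroup.commutator_mem_commutator (Subgroup.mem_top _) (Subgroup.mem_top _)
  rw [systemNormalizer_eq_top_of_comm hc] at h1
  have hsub : Subsingleton (Q ⧸ commutator Q) :=
    Subgroup.subsingleton_iff.mp (subsingleton_iff_bot_eq_top.mp h1.symm)
  have htop : commutator Q = ⊤ := QuotientGroup.subgroup_eq_top_of_subsingleton _ hsub
  exact (Group.IsSolvable.commutator_lt_top_of_nontrivial Q).ne htop

/-- The normal closure of a system normalizer of a finite solvable group is the whole group. -/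
theorem result {G : Type*} [Group G] [Finite G] [Group.IsSolvable G] (K : Nat.Primes → Subgroup G) (hK : Cfsg.IsComplementSystem K) : Subgroup.normalClosure ((Cfsg.systemNormalizer K : Subgroup G) : Set G) = ⊤ := by
  rcases subsingleton_or_nontrivial
    (G ⧸ Subgroup.normalClosure ((Cfsg.systemNormalizer K : Subgroup G) : Set G)) with hs | hn
  · exact QuotientGroup.subgroup_eq_top_of_subsingleton _ hs
  · exfalso
    apply systemNormalizer_ne_bot _ (complSystem_map K hK
      (Subgroup.normalClosure ((Cfsg.systemNormalizer K : Subgroup G) : Set G)))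
    rw [systemNormalizer_map K hK, Subgroup.map_eq_bot_iff, QuotientGroup.ker_mk']
    exact Subgroup.le_normalClosure

end Cfsg.Agent.S0546
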