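import Cfsg.Statements.S0549
import Mathlib

set_option autoImplicit false
open Cfsg
open scoped Pointwise

namespace Cfsg.Agent.S0549

theorem sup_top_of_normal {G : Type*} [Group G] (U : Subgroup G) (hU : IsCoatom U) (hcore : U.normalCore = ⊥)
    (K : Subgroup G) [K.Normal] (hK : K ≠ ⊥) : U ⊔ K = ⊤ := by
  apply hU.2
  refine lt_of_le_of_ne le_sup_left ?_
  intro h
  apply hK
  have : K ≤ U := by rw [h]; exact le_sup_right
  have := Subgroup.normal_le_normalCore.mpr this
  rw [hcore] at this
  exact le_bot_iff.mp this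

/-- Let U be a maximal subgroup of a finite group G whose normal core is trivial, and N a nontrivial normal subgroup with centralizer C. Then C ∩ U = 1, and either C = 1 or C is a minimal normal subgroup of G. -/
theorem result {G : Type*} [Group G] [Finite G] (U : Subgroup G) (hU : IsCoatom U) (hcore : U.normalCore = ⊥) (N : Subgroup G) [N.Normal] (hN : N ≠ ⊥) : Subgroup.centralizer (N : Set G) ⊓ U = ⊥ ∧ (Subgroup.centralizer (N : Set G) = ⊥ ∨ (Subgroup.centralizer (N : Set G) ≠ ⊥ ∧ ∀ K : Subgroup G, K.Normal → K ≤ Subgroup.centralizer (N : Set G) → K = ⊥ ∨ K = Subgroup.centralizer (N : Set G))) := by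
  have hUN := sup_top_of_normal U hU hcore N hN
  have hCU : Subgroup.centralizer (N : Set G) ⊓ U = ⊥ := by
    rw [eq_bot_iff, ← hcore]
    rintro x ⟨hxC, hxU⟩ b
    have hb : b ∈ ((U ⊔ N : Subgroup G) : Set G) := by rw [hUN]; trivial
    rw [Subgroup.mul_normal] at hb
    obtain ⟨u, hu, n, hn, rfl⟩ := Set.mem_mul.mp hb
    have h1 : n * x = x * n := (Subgroup.mem_centralizer_iff.mp hxC) n hn
    have h2 : u * n * x * (u * n)⁻¹ = u * x * u⁻¹ := by
      calc u * n * x * (u * n)⁻¹ = u * (n * x) * n⁻¹ * u⁻¹ := by simp [mul_assoc]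
        _ = u * x * u⁻¹ := by rw [h1]; simp [mul_assoc]
    rw [h2]
    exact mul_mem (mul_mem hu hxU) (inv_mem hu)
  refine ⟨hCU, ?_⟩
  by_cases hC : Subgroup.centralizer (N : Set G) = ⊥
  · left; exact hC
  · right
    refine ⟨hC, fun K hK hKC => ?_⟩
    by_cases hK0 : K = ⊥
    · left; exact hK0
    · right
      haveI := hK
      have hUK := sup_top_of_normal U hU hcore K hK0
      apply le_antisymm hKC
      intro c hc
      have hb : c ∈ ((U ⊔ K : Subgroup G) : Set G) := by rw [hUK]; trivial
      rw [Subgroup.mul_normal] at hb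
      obtain ⟨u, hu, k, hk, rfl⟩ := Set.mem_mul.mp hb
      have huC : u ∈ Subgroup.centralizer (N : Set G) := by
        have : u = u * k * k⁻¹ := by simp
        rw [this]
        exact mul_mem hc (inv_mem (hKC hk))
      have : u ∈ Subgroup.centralizer (N : Set G) ⊓ U := ⟨huC, hu⟩
      rw [hCU] at this
      rw [Subgroup.mem_bot.mp this, one_mul]
      exact hk

end Cfsg.Agent.S0549
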