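import Cfsg.Statements.S0550
import Mathlib

set_option autoImplicit false
open Cfsg
open scoped Pointwise

namespace Cfsg.Agent.S0550

theorem exists_mul_of_sup_top {G : Type*} [Group G] (B U : Subgroup G) [B.Normal]
    (hBU' : B ⊔ U = ⊤) (g : G) : ∃ b ∈ B, ∃ u ∈ U, g = b * u := by
  have hg : g ∈ ((B ⊔ U : Subgroup G) : Set G) := by rw [hBU']; trivial
  rw [Subgroup.normal_mul] at hg
  obtain ⟨b, hb, u, hu, rfl⟩ := hg
  exact ⟨b, hb, u, hu, rfl⟩

theorem inf_eq_bot_of_min {G : Type*} [Group G] (A B : Subgroup G) [A.Normal] [B.Normal]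
    (hA : A ≠ ⊥) (hAmin : ∀ K : Subgroup G, K.Normal → K ≤ A → K = ⊥ ∨ K = A)
    (hBmin : ∀ K : Subgroup G, K.Normal → K ≤ B → K = ⊥ ∨ K = B) (hAB : A ≠ B) : A ⊓ B = ⊥ := by
  rcases hAmin (A ⊓ B) inferInstance inf_le_left with h | h
  · exact h
  · exfalso
    have hle : A ≤ B := inf_eq_left.mp h
    rcases hBmin A inferInstance hle with h' | h'
    · exact hA h'
    · exact hAB h'

theorem sup_eq_top_of_core {G : Type*} [Group G] (U : Subgroup G) (hU : IsCoatom U)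
    (hcore : U.normalCore = ⊥) (N : Subgroup G) [N.Normal] (hN : N ≠ ⊥) :
    ¬ N ≤ U ∧ N ⊔ U = ⊤ := by
  have h1 : ¬ N ≤ U := by
    intro h
    have h2 : N ≤ U.normalCore := Subgroup.normal_le_normalCore.mpr h
    rw [hcore] at h2
    exact hN (le_bot_iff.mp h2)
  refine ⟨h1, hU.2 _ (lt_of_le_of_ne le_sup_right ?_)⟩
  intro h
  exact h1 (h ▸ le_sup_left)

/-- `A ∩ U = 1`. -/
theorem inf_U_eq_bot {G : Type*} [Group G] (U : Subgroup G) (A B : Subgroup G) [A.Normal] [B.Normal]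
    (hcomm : ∀ a ∈ A, ∀ b ∈ B, a * b = b * a) (hBU' : B ⊔ U = ⊤)
    (hAmin : ∀ K : Subgroup G, K.Normal → K ≤ A → K = ⊥ ∨ K = A) (hAU : ¬ A ≤ U) :
    A ⊓ U = ⊥ := by
  have hn : (A ⊓ U).Normal := by
    refine ⟨fun x hx g => ?_⟩
    obtain ⟨b, hb, u, hu, rfl⟩ := exists_mul_of_sup_top B U hBU' g
    have hA' : u * x * u⁻¹ ∈ A := (inferInstance : A.Normal).conj_mem x hx.1 u
    have hU' : u * x * u⁻¹ ∈ U := U.mul_mem (U.mul_mem hu hx.2) (U.inv_mem hu)
    have h1 : b * u * x * (b * u)⁻¹ = u * x * u⁻¹ := by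
      have h2 := hcomm _ hA' b hb
      calc b * u * x * (b * u)⁻¹ = b * (u * x * u⁻¹) * b⁻¹ := by group
        _ = (u * x * u⁻¹) * b * b⁻¹ := by rw [← h2]
        _ = u * x * u⁻¹ := by group
    rw [h1]
    exact ⟨hA', hU'⟩
  rcases hAmin (A ⊓ U) hn inf_le_left with h | h
  · exact h
  · exact absurd (inf_eq_left.mp h) hAU

/-- `C_G(A) = B`. -/
theorem centralizer_eq {G : Type*} [Group G] (U : Subgroup G) (hcore : U.normalCore = ⊥)
    (A B : Subgroup G) [A.Normal] [B.Normal]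
    (hcomm : ∀ a ∈ A, ∀ b ∈ B, a * b = b * a) (hAU' : A ⊔ U = ⊤) (hBU' : B ⊔ U = ⊤) :
    Subgroup.centralizer (A : Set G) = B := by
  have hCU : Subgroup.centralizer (A : Set G) ⊓ U = ⊥ := by
    have hn : (Subgroup.centralizer (A : Set G) ⊓ U).Normal := by
      refine ⟨fun x hx g => ?_⟩
      obtain ⟨a, ha, u, hu, rfl⟩ := exists_mul_of_sup_top A U hAU' g
      have hC' : u * x * u⁻¹ ∈ Subgroup.centralizer (A : Set G) :=
        (inferInstance : (Subgroup.centralizer (A : Set G)).Normal).conj_mem x hx.1 u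
      have hU' : u * x * u⁻¹ ∈ U := U.mul_mem (U.mul_mem hu hx.2) (U.inv_mem hu)
      have h1 : a * u * x * (a * u)⁻¹ = u * x * u⁻¹ := by
        have h2 := (Subgroup.mem_centralizer_iff.mp hC') a ha
        calc a * u * x * (a * u)⁻¹ = a * (u * x * u⁻¹) * a⁻¹ := by group
          _ = (u * x * u⁻¹) * a * a⁻¹ := by rw [h2]
          _ = u * x * u⁻¹ := by group
      rw [h1]
      exact ⟨hC', hU'⟩
    have h3 : Subgroup.centralizer (A : Set G) ⊓ U ≤ U.normalCore :=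
      Subgroup.normal_le_normalCore.mpr inf_le_right
    rw [hcore] at h3
    exact le_bot_iff.mp h3
  apply le_antisymm
  · intro c hc
    obtain ⟨b, hb, u, hu, rfl⟩ := exists_mul_of_sup_top B U hBU' c
    have hbC : b ∈ Subgroup.centralizer (A : Set G) := by
      rw [Subgroup.mem_centralizer_iff]
      intro a ha
      exact hcomm a ha b hb
    have huC : u ∈ Subgroup.centralizer (A : Set G) := by
      have h4 := Subgroup.mul_mem _ (Subgroup.inv_mem _ hbC) hc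
      rwa [inv_mul_cancel_left] at h4
    have hu1 : u ∈ Subgroup.centralizer (A : Set G) ⊓ U := ⟨huC, hu⟩
    rw [hCU, Subgroup.mem_bot] at hu1
    rw [hu1, mul_one]
    exact hb
  · intro b hb
    rw [Subgroup.mem_centralizer_iff]
    intro a ha
    exact hcomm a ha b hb

/-- `A ≅ (A ⊔ B) ∩ U` when `U` complements the normal subgroup `B` and `A ∩ B = 1`. -/
theorem compl_iso {G : Type*} [Group G] (A B U : Subgroup G) [A.Normal] [B.Normal]
    (hAB : A ⊓ B = ⊥) (hBU : B ⊓ U = ⊥) (hBU' : B ⊔ U = ⊤) :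
    Nonempty (A ≃* ↥((A ⊔ B) ⊓ U)) := by
  have hdec : ∀ g : G, ∃ b : G, ∃ u : G, b ∈ B ∧ u ∈ U ∧ g = b * u := by
    intro g
    obtain ⟨b, hb, u, hu, h⟩ := exists_mul_of_sup_top B U hBU' g
    exact ⟨b, u, hb, hu, h⟩
  choose bf uf hbf huf hbu using hdec
  have huniq : ∀ (b b' u u' : G), b ∈ B → b' ∈ B → u ∈ U → u' ∈ U → b * u = b' * u' →
      u = u' := by
    intro b b' u u' hb hb' hu hu' h
    have h1 : b'⁻¹ * b = u' * u⁻¹ := by
      rw [inv_mul_eq_iff_eq_mul, ← mul_assoc, ← h, mul_assoc, mul_inv_cancel, mul_one]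
    have h2 : u' * u⁻¹ ∈ B ⊓ U :=
      ⟨h1 ▸ B.mul_mem (B.inv_mem hb') hb, U.mul_mem hu' (U.inv_mem hu)⟩
    rw [hBU, Subgroup.mem_bot] at h2
    exact (mul_inv_eq_one.mp h2).symm
  have hmul : ∀ g g' : G, uf (g * g') = uf g * uf g' := by
    intro g g'
    refine huniq (bf (g * g')) (bf g * (uf g * bf g' * (uf g)⁻¹)) _ _ (hbf _)
      (B.mul_mem (hbf g) ((inferInstance : B.Normal).conj_mem _ (hbf g') _)) (huf _)
      (U.mul_mem (huf g) (huf g')) ?_
    rw [← hbu (g * g')]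
    have e1 := hbu g
    have e2 := hbu g'
    calc g * g' = (bf g * uf g) * (bf g' * uf g') := by rw [← e1, ← e2]
      _ = bf g * (uf g * bf g' * (uf g)⁻¹) * (uf g * uf g') := by group
  have hfD : ∀ a : A, uf (a : G) ∈ (A ⊔ B) ⊓ U := by
    intro a
    refine ⟨?_, huf _⟩
    have h1 : uf (a : G) = (bf (a : G))⁻¹ * a := by
      rw [eq_inv_mul_iff_mul_eq]; exact (hbu _).symm
    rw [h1]
    exact Subgroup.mul_mem _ (Subgroup.inv_mem _ (Subgroup.mem_sup_right (hbf _)))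
      (Subgroup.mem_sup_left a.2)
  let f : A →* ↥((A ⊔ B) ⊓ U) :=
    MonoidHom.mk' (fun a => ⟨uf (a : G), hfD a⟩) (fun a a' => Subtype.ext (hmul a a'))
  have hf : ∀ a : A, ((f a : ↥((A ⊔ B) ⊓ U)) : G) = uf (a : G) := fun a => rfl
  have hinj : Function.Injective f := by
    rw [injective_iff_map_eq_one]
    intro a ha
    have h1 : uf (a : G) = 1 := by rw [← hf a, ha]; rfl
    have h2 : (a : G) = bf (a : G) := by
      have h3 := hbu (a : G)
      rw [h1, mul_one] at h3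
      exact h3
    have h4 : (a : G) ∈ A ⊓ B := ⟨a.2, h2 ▸ hbf _⟩
    rw [hAB, Subgroup.mem_bot] at h4
    exact Subtype.ext h4
  have hsurj : Function.Surjective f := by
    rintro ⟨d, hdAB, hdU⟩
    have hd : d ∈ ((A ⊔ B : Subgroup G) : Set G) := hdAB
    rw [Subgroup.normal_mul] at hd
    obtain ⟨a, ha, b, hb, rfl⟩ := hd
    refine ⟨⟨a, ha⟩, Subtype.ext ?_⟩
    show uf a = a * b
    have hconj : (a * b) * b⁻¹ * (a * b)⁻¹ ∈ B :=
      (inferInstance : B.Normal).conj_mem _ (B.inv_mem hb) _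
    refine huniq (bf a) ((a * b) * b⁻¹ * (a * b)⁻¹) _ _ (hbf a) hconj (huf a) hdU ?_
    rw [← hbu a]
    group
  exact ⟨MulEquiv.ofBijective f ⟨hinj, hsurj⟩⟩

/-- Let U be a maximal subgroup with trivial normal core in a finite group G, and A ≠ B two minimal normal subgroups. Then A is the centralizer of B and B that of A, U complements each of them, A and B are non-abelian, and A, B and (A ⊔ B) ∩ U are pairwise isomorphic. -/
theorem result {G : Type*} [Group G] [Finite G] (U : Subgroup G) (hU : IsCoatom U) (hcore : U.normalCore = ⊥) (A B : Subgroup G) [A.Normal] [B.Normal] (hA : A ≠ ⊥) (hB : B ≠ ⊥) (hAmin : ∀ K : Subgroup G, K.Normal → K ≤ A → K = ⊥ ∨ K = A) (hBmin : ∀ K : Subgroup G, K.Normal → K ≤ B → K = ⊥ ∨ K = B) (hAB : A ≠ B) : Subgroup.centralizer (B : Set G) = A ∧ Subgroup.centralizer (A : Set G) = B ∧ Subgroup.IsComplement' A U ∧ Subgroup.IsComplement' B U ∧ ¬ IsMulCommutative A ∧ Nonempty (A ≃* B) ∧ Nonempty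 (A ≃* ↥((A ⊔ B) ⊓ U)) := by
  have hinf : A ⊓ B = ⊥ := inf_eq_bot_of_min A B hA hAmin hBmin hAB
  have hinf' : B ⊓ A = ⊥ := by rw [inf_comm]; exact hinf
  have hcomm : ∀ a ∈ A, ∀ b ∈ B, a * b = b * a := fun a ha b hb =>
    (Subgroup.commute_of_normal_of_disjoint A B inferInstance inferInstance
      (disjoint_iff.mpr hinf) a b ha hb).eq
  have hcomm' : ∀ b ∈ B, ∀ a ∈ A, b * a = a * b := fun b hb a ha => (hcomm a ha b hb).symm
  obtain ⟨hAU, hAU'⟩ := sup_eq_top_of_core U hU hcore A hA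
  obtain ⟨hBU, hBU'⟩ := sup_eq_top_of_core U hU hcore B hB
  have hAUbot : A ⊓ U = ⊥ := inf_U_eq_bot U A B hcomm hBU' hAmin hAU
  have hBUbot : B ⊓ U = ⊥ := inf_U_eq_bot U B A hcomm' hAU' hBmin hBU
  have hCA : Subgroup.centralizer (A : Set G) = B := centralizer_eq U hcore A B hcomm hAU' hBU'
  have hCB : Subgroup.centralizer (B : Set G) = A := centralizer_eq U hcore B A hcomm' hBU' hAU'
  have hcA : Subgroup.IsComplement' A U := by
    apply Subgroup.isComplement'_of_disjoint_and_mul_eq_univ (disjoint_iff.mpr hAUbot)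
    rw [← Subgroup.normal_mul, hAU', Subgroup.coe_top]
  have hcB : Subgroup.IsComplement' B U := by
    apply Subgroup.isComplement'_of_disjoint_and_mul_eq_univ (disjoint_iff.mpr hBUbot)
    rw [← Subgroup.normal_mul, hBU', Subgroup.coe_top]
  have hnab : ¬ IsMulCommutative A := by
    intro hc
    apply hA
    rw [eq_bot_iff, ← hinf]
    intro a ha
    refine ⟨ha, ?_⟩
    show a ∈ B
    rw [← hCA, Subgroup.mem_centralizer_iff]
    intro a' ha'
    exact congrArg Subtype.val (mul_comm' (⟨a', ha'⟩ : A) ⟨a, ha⟩)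
  obtain ⟨e1⟩ := compl_iso A B U hinf hBUbot hBU'
  obtain ⟨e2⟩ := compl_iso B A U hinf' hAUbot hAU'
  have hsup : B ⊔ A = A ⊔ B := sup_comm B A
  exact ⟨hCB, hCA, hcA, hcB, hnab,
    ⟨e1.trans ((MulEquiv.subgroupCongr (by rw [hsup])).trans e2.symm)⟩, ⟨e1⟩⟩

end Cfsg.Agent.S0550
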