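import Cfsg.Statements.S0583
import Mathlib

set_option autoImplicit false
open Cfsg

namespace Cfsg.Agent.S0583

theorem le_lcs_map {G : Type*} [Group G] (M N : Subgroup G) (hMN : M ≤ N) (hK : ⁅M, N⁆ = M) (n : ℕ) :
    M ≤ N.lowerCentralSeries n := by
  induction n with
  | zero =>
    rw [Subgroup.lowerCentralSeries_zero]
    exact hMN
  | succ n ih =>
    rw [Subgroup.lowerCentralSeries_succ]
    calc M = ⁅M, N⁆ := hK.symm
      _ ≤ ⁅N.lowerCentralSeries n, N⁆ := Subgroup.commutator_mono ih le_rfl

theorem nilp_centralizes {G : Type*} [Group G] (M : Subgroup G) [M.Normal] (hM : M ≠ ⊥)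
    (hmin : ∀ K : Subgroup G, K.Normal → K ≤ M → K = ⊥ ∨ K = M)
    (N : Subgroup G) (hN : N.Normal) (hnil : Group.IsNilpotent N) :
    N ≤ Subgroup.centralizer (M : Set G) := by
  haveI := hN
  rw [← Subgroup.commutator_eq_bot_iff_le_centralizer, Subgroup.commutator_comm]
  have hKn : (⁅M, N⁆ : Subgroup G).Normal := Subgroup.commutator_normal M N
  rcases hmin _ hKn (Subgroup.commutator_le_left M N) with h | h
  · exact h
  · exfalso
    have hMN : M ≤ N := by
      rw [← h]; exact Subgroup.commutator_le_right M N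
    obtain ⟨n, hn⟩ := (Subgroup.isNilpotent_iff_lowerCentralSeries N).mp hnil
    have := le_lcs_map M N hMN h n
    rw [hn] at this
    exact hM (le_bot_iff.mp this)

/-- In a finite group the Fitting subgroup is contained in the centralizer of each minimal normal subgroup. -/
theorem result {G : Type*} [Group G] [Finite G] (M : Subgroup G) [M.Normal] (hM : M ≠ ⊥) (hmin : ∀ K : Subgroup G, K.Normal → K ≤ M → K = ⊥ ∨ K = M) : Cfsg.fittingSubgroup G ≤ Subgroup.centralizer (M : Set G) := by
  unfold Cfsg.fittingSubgroup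
  apply sSup_le
  rintro N ⟨hN, hnil⟩
  exact nilp_centralizes M hM hmin N hN hnil

end Cfsg.Agent.S0583
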