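import Cfsg.Statements.S0551
import Cfsg.Agent.S0004
import Cfsg.Agent.S0549
import Cfsg.Agent.S0583
import Cfsg.Agent.Helper3.ElemAb

set_option autoImplicit false
open Cfsg
open scoped Pointwise

namespace Cfsg.Agent.S0551

open Cfsg.Agent.Helper3

universe u

theorem map_subtype_conj' {G : Type u} [Group G] (V : Subgroup G) (v : V) (B' : Subgroup V) :
    (MulAut.conj v • B').map V.subtype = MulAut.conj (v : G) • (B'.map V.subtype) := by
  show (B'.map (MulAut.conj v).toMonoidHom).map V.subtype
    = (B'.map V.subtype).map (MulAut.conj (v : G)).toMonoidHom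
  rw [Subgroup.map_map, Subgroup.map_map]
  congr 1

theorem mem_normalizer_of_smul_le' {G : Type u} [Group G] [Finite G] (H : Subgroup G) (g : G)
    (h : MulAut.conj g • H ≤ H) : g ∈ Subgroup.normalizer (H : Set G) := by
  rw [Subgroup.mem_normalizer_iff_map_conj_eq]
  have hcard : Nat.card H ≤ Nat.card (MulAut.conj g • H : Subgroup G) := by
    have : Nat.card (H.map (MulAut.conj g).toMonoidHom) = Nat.card H :=
      Subgroup.card_map_of_injective (MulAut.conj g).injective
    exact this.ge
  exact Subgroup.eq_of_le_of_card_ge h hcard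

theorem smul_le_normalizer {G : Type u} [Group G] [Finite G] (x : G) (H A : Subgroup G)
    (h : H ≤ Subgroup.normalizer (A : Set G)) :
    MulAut.conj x • H ≤ Subgroup.normalizer ((MulAut.conj x • A : Subgroup G) : Set G) := by
  intro y hy
  obtain ⟨h', hh', rfl⟩ := (Subgroup.mem_smul_pointwise_iff_exists _ _ _).mp hy
  apply mem_normalizer_of_smul_le'
  have e0 : (MulAut.conj x • h') * x = x * h' := by
    rw [MulAut.smul_def, MulAut.conj_apply, inv_mul_cancel_right]
  have h2 : MulAut.conj h' • A = A := Subgroup.mem_normalizer_iff_map_conj_eq.mp (h hh')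
  have e : MulAut.conj (MulAut.conj x • h') • (MulAut.conj x • A)
      = MulAut.conj x • (MulAut.conj h' • A) := by
    rw [smul_smul, smul_smul, ← map_mul, ← map_mul, e0]
  rw [e, h2]

/-- In a finite solvable group all core-free maximal subgroups are conjugate. -/
theorem result {G : Type*} [Group G] [Finite G] [Group.IsSolvable G] (U V : Subgroup G) (hU : IsCoatom U) (hV : IsCoatom V) (hUc : U.normalCore = ⊥) (hVc : V.normalCore = ⊥) : ∃ g : G, MulAut.conj g • U = V := by
  haveI : Nontrivial G := by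
    by_contra h
    rw [not_nontrivial_iff_subsingleton] at h
    exact hU.1 (Subsingleton.elim _ _)
  obtain ⟨N, p, k, hNn, hNc, hp, hk, hNcard⟩ := Cfsg.Agent.Helper1.minimal_normal_data (G := G)
  haveI := hNn
  haveI : Fact p.Prime := ⟨hp⟩
  have hN0 : N ≠ ⊥ := by
    intro h
    rw [h, Subgroup.card_bot] at hNcard
    exact (Nat.one_lt_pow hk.ne' hp.one_lt).ne hNcard
  have hNleC : N ≤ Subgroup.centralizer (N : Set G) :=
    Subgroup.le_centralizer_iff_isMulCommutative.mpr hNc
  obtain ⟨hCU, hCor⟩ := Cfsg.Agent.S0549.result U hU hUc N hN0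
  obtain ⟨hCV, -⟩ := Cfsg.Agent.S0549.result V hV hVc N hN0
  have hC : Subgroup.centralizer (N : Set G) = N := by
    rcases hCor with h | ⟨-, hmin⟩
    · exact absurd (le_bot_iff.mp (h ▸ hNleC)) hN0
    · rcases hmin N hNn hNleC with h | h
      · exact absurd h hN0
      · exact h.symm
  have hNmin : ∀ K : Subgroup G, K.Normal → K ≤ N → K = ⊥ ∨ K = N := by
    rcases hCor with h | ⟨-, hmin⟩
    · exact absurd (le_bot_iff.mp (h ▸ hNleC)) hN0
    · intro K hK hKN
      have := hmin K hK (hKN.trans hNleC)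
      rwa [hC] at this
  rw [hC] at hCU hCV
  have hUN : U ⊔ N = ⊤ := Cfsg.Agent.S0549.sup_top_of_normal U hU hUc N hN0
  have hVN : V ⊔ N = ⊤ := Cfsg.Agent.S0549.sup_top_of_normal V hV hVc N hN0
  have huniq : ∀ K : Subgroup G, K.Normal → K ≠ ⊥ → N ≤ K := by
    intro K hK hK0
    haveI := hK
    rcases hNmin (K ⊓ N) inferInstance inf_le_right with h | h
    · exfalso
      apply hK0
      have hKC : K ≤ Subgroup.centralizer (N : Set G) := by
        intro x hx
        rw [Subgroup.mem_centralizer_iff]
        intro n hn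
        exact ((Subgroup.commute_of_normal_of_disjoint K N hK hNn (disjoint_iff.mpr h) x n hx
          hn).eq).symm
      rw [hC] at hKC
      rw [← le_bot_iff, ← h]
      exact le_inf le_rfl hKC
    · rw [← h]; exact inf_le_left
  have hcardW : ∀ W : Subgroup G, W ⊔ N = ⊤ → N ⊓ W = ⊥ → Nat.card W * Nat.card N = Nat.card G := by
    intro W hWN hNW
    have := card_mul_card_eq_of_le_normalizer W N Subgroup.le_normalizer_of_normal
    rw [hWN, inf_comm W N, hNW, Subgroup.card_top, Subgroup.card_bot, mul_one] at this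
    exact this
  have hcardU := hcardW U hUN hCU
  have hcardV := hcardW V hVN hCV
  have hNpos : 0 < Nat.card N := Nat.card_pos
  have hUV : Nat.card U = Nat.card V := Nat.eq_of_mul_eq_mul_right hNpos (hcardU.trans hcardV.symm)
  by_cases hNtop : N = ⊤
  · have hU0 : U = ⊥ := by
      rw [← hCU, hNtop, top_inf_eq]
    have hV0 : V = ⊥ := by
      rw [← hCV, hNtop, top_inf_eq]
    exact ⟨1, by rw [map_one, one_smul, hU0, hV0]⟩
  · haveI : Nontrivial (G ⧸ N) := by
      by_contra h
      rw [not_nontrivial_iff_subsingleton] at h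
      apply hNtop
      rw [eq_top_iff]
      intro g _
      have : (QuotientGroup.mk g : G ⧸ N) = 1 := Subsingleton.elim _ _
      exact (QuotientGroup.eq_one_iff g).mp this
    obtain ⟨Lb, q, j, hLbn, -, hq, hj, hLbcard⟩ :=
      Cfsg.Agent.Helper1.minimal_normal_data (G := G ⧸ N)
    haveI : Fact q.Prime := ⟨hq⟩
    haveI hLn : (Lb.comap (QuotientGroup.mk' N)).Normal := hLbn.comap _
    have hNL : N ≤ Lb.comap (QuotientGroup.mk' N) := by
      intro n hn
      rw [Subgroup.mem_comap, QuotientGroup.mk'_apply, (QuotientGroup.eq_one_iff n).mpr hn]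
      exact one_mem _
    have hLcard : Nat.card (Lb.comap (QuotientGroup.mk' N)) = p ^ k * q ^ j := by
      rw [Cfsg.Agent.Helper1.card_comap_mk, hNcard, hLbcard]
    have hqp : q ≠ p := by
      intro hqp
      rw [hqp] at hLcard
      have hLp : IsPGroup p (Lb.comap (QuotientGroup.mk' N)) :=
        IsPGroup.of_card (n := k + j) (by rw [hLcard, pow_add])
      have hLnil : Group.IsNilpotent (Lb.comap (QuotientGroup.mk' N)) := hLp.isNilpotent
      have hLC := Cfsg.Agent.S0583.nilp_centralizes N hN0 hNmin _ hLn hLnil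
      rw [hC] at hLC
      have := Subgroup.card_le_of_le hLC
      rw [hLcard, hNcard] at this
      have h2 : 1 < p ^ j := Nat.one_lt_pow hj.ne' hp.one_lt
      have h3 : 0 < p ^ k := pow_pos hp.pos k
      nlinarith
    have hQ : ∀ W : Subgroup G, W ⊔ N = ⊤ → N ⊓ W = ⊥ →
        Nat.card ↥(Lb.comap (QuotientGroup.mk' N) ⊓ W) = q ^ j := by
      intro W hWN hNW
      have hsup : (Lb.comap (QuotientGroup.mk' N) ⊓ W) ⊔ N = Lb.comap (QuotientGroup.mk' N) := by
        apply le_antisymm (sup_le inf_le_left hNL)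
        intro l hl
        have hg : l ∈ ((W ⊔ N : Subgroup G) : Set G) := by rw [hWN]; trivial
        rw [Subgroup.mul_normal] at hg
        obtain ⟨w, hw, n, hn, rfl⟩ := Set.mem_mul.mp hg
        have hwL : w ∈ Lb.comap (QuotientGroup.mk' N) := by
          have : w = w * n * n⁻¹ := by simp
          rw [this]; exact mul_mem hl (inv_mem (hNL hn))
        exact mul_mem (Subgroup.mem_sup_left ⟨hwL, hw⟩) (Subgroup.mem_sup_right hn)
      have hinf : (Lb.comap (QuotientGroup.mk' N) ⊓ W) ⊓ N = ⊥ := by
        rw [eq_bot_iff, ← hNW]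
        exact fun x hx => ⟨hx.2, hx.1.2⟩
      have := card_mul_card_eq_of_le_normalizer (Lb.comap (QuotientGroup.mk' N) ⊓ W) N
        Subgroup.le_normalizer_of_normal
      rw [hsup, hinf, Subgroup.card_bot, mul_one, hLcard, hNcard] at this
      have h3 : p ^ k * Nat.card ↥(Lb.comap (QuotientGroup.mk' N) ⊓ W) = p ^ k * q ^ j := by
        rw [← this, mul_comm]
      exact Nat.eq_of_mul_eq_mul_left (pow_pos hp.pos k) h3
    have hQU := hQ U hUN hCU
    have hQV := hQ V hVN hCV
    have hcop : (q ^ j).Coprime (p ^ k) := Nat.Coprime.pow _ _ ((Nat.coprime_primes hq hp).mpr hqp)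
    have hcsub : ∀ W : Subgroup G,
        Nat.card ↥((Lb.comap (QuotientGroup.mk' N) ⊓ W).subgroupOf (Lb.comap (QuotientGroup.mk' N)))
          = Nat.card ↥(Lb.comap (QuotientGroup.mk' N) ⊓ W) := fun W =>
      Nat.card_congr (Subgroup.subgroupOfEquivOfLe
        (inf_le_left : Lb.comap (QuotientGroup.mk' N) ⊓ W ≤ Lb.comap (QuotientGroup.mk' N))).toEquiv
    obtain ⟨x, hx⟩ := Cfsg.Agent.S0004.result (G := ↥(Lb.comap (QuotientGroup.mk' N))) (q ^ j) (p ^ k)
      (by rw [hLcard, mul_comm]) hcop
      ((Lb.comap (QuotientGroup.mk' N) ⊓ U).subgroupOf (Lb.comap (QuotientGroup.mk' N)))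
      ((Lb.comap (QuotientGroup.mk' N) ⊓ V).subgroupOf (Lb.comap (QuotientGroup.mk' N)))
      (by rw [hcsub, hQU]) (by rw [hcsub, hQV])
    have hx' : MulAut.conj (x : G) • (Lb.comap (QuotientGroup.mk' N) ⊓ U)
        = Lb.comap (QuotientGroup.mk' N) ⊓ V := by
      have := congrArg (Subgroup.map (Subgroup.subtype (Lb.comap (QuotientGroup.mk' N)))) hx
      rw [map_subtype_conj', Subgroup.subgroupOf_map_subtype, Subgroup.subgroupOf_map_subtype,
        inf_of_le_left inf_le_left, inf_of_le_left inf_le_left] at this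
      exact this
    refine ⟨(x : G), ?_⟩
    by_contra hne
    have hVQ : V ≤ Subgroup.normalizer ((Lb.comap (QuotientGroup.mk' N) ⊓ V : Subgroup G) : Set G) := by
      have : ((Lb.comap (QuotientGroup.mk' N) ⊓ V).subgroupOf V).Normal := by
        rw [Subgroup.inf_subgroupOf_right]; infer_instance
      exact (Subgroup.normal_subgroupOf_iff_le_normalizer inf_le_right).mp this
    have hUQ : U ≤ Subgroup.normalizer ((Lb.comap (QuotientGroup.mk' N) ⊓ U : Subgroup G) : Set G) := by
      have : ((Lb.comap (QuotientGroup.mk' N) ⊓ U).subgroupOf U).Normal := by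
        rw [Subgroup.inf_subgroupOf_right]; infer_instance
      exact (Subgroup.normal_subgroupOf_iff_le_normalizer inf_le_right).mp this
    have hU'Q : MulAut.conj (x : G) • U ≤
        Subgroup.normalizer ((Lb.comap (QuotientGroup.mk' N) ⊓ V : Subgroup G) : Set G) := by
      have := smul_le_normalizer (x : G) U (Lb.comap (QuotientGroup.mk' N) ⊓ U) hUQ
      rwa [hx'] at this
    have hsupVU : V ⊔ MulAut.conj (x : G) • U = ⊤ := by
      by_contra hns
      have hle : V ⊔ MulAut.conj (x : G) • U = V := by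
        by_contra hne2
        exact hns (hV.2 _ (lt_of_le_of_ne le_sup_left (Ne.symm hne2)))
      have hU'V : MulAut.conj (x : G) • U ≤ V := by rw [← hle]; exact le_sup_right
      have hcard' : Nat.card V ≤ Nat.card (MulAut.conj (x : G) • U : Subgroup G) := by
        have : Nat.card (U.map (MulAut.conj (x : G)).toMonoidHom) = Nat.card U :=
          Subgroup.card_map_of_injective (MulAut.conj (x : G)).injective
        rw [← hUV]; exact this.ge
      exact hne (Subgroup.eq_of_le_of_card_ge hU'V hcard')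
    have hQn : (Lb.comap (QuotientGroup.mk' N) ⊓ V).Normal := by
      rw [← Subgroup.normalizer_eq_top_iff, eq_top_iff, ← hsupVU]
      exact sup_le hVQ hU'Q
    have hQ0 : Lb.comap (QuotientGroup.mk' N) ⊓ V ≠ ⊥ := by
      intro h
      rw [h, Subgroup.card_bot] at hQV
      exact (Nat.one_lt_pow hj.ne' hq.one_lt).ne hQV
    have hNQ := huniq _ hQn hQ0
    apply hN0
    rw [← le_bot_iff, ← hCV]
    exact le_inf le_rfl (hNQ.trans inf_le_right)

end Cfsg.Agent.S0551
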