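import Cfsg.Statements.S0552
import Cfsg.Agent.S0044
import Cfsg.Agent.Helper1.Fitting

set_option autoImplicit false
open Cfsg

namespace Cfsg.Agent.S0552

/-- Let σ be an automorphism of a finite solvable group G fixing every element of the Fitting subgroup. If σ is not the identity then the order of σ and the order of G have a common prime factor. -/
theorem result {G : Type*} [Group G] [Finite G] [Group.IsSolvable G] (σ : G ≃* G) (hσ : ∀ x ∈ Cfsg.fittingSubgroup G, σ x = x) (hne : σ ≠ MulEquiv.refl G) : ¬ (orderOf σ).Coprime (Nat.card G) := by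
  intro hcop
  apply hne
  ext g
  haveI hFn : (Cfsg.fittingSubgroup G).Normal := Cfsg.Agent.Helper1.fitting_normal G
  have hzC : σ g * g⁻¹ ∈ Subgroup.centralizer (Cfsg.fittingSubgroup G : Set G) := by
    rw [Subgroup.mem_centralizer_iff]
    intro x hx
    have h1 : g⁻¹ * x * g ∈ Cfsg.fittingSubgroup G := by
      have h0 := hFn.conj_mem x hx g⁻¹
      rwa [inv_inv] at h0
    have h2 := hσ _ h1
    rw [map_mul, map_mul, map_inv, hσ x hx] at h2
    calc x * (σ g * g⁻¹) = σ g * ((σ g)⁻¹ * x * σ g) * g⁻¹ := by group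
      _ = σ g * (g⁻¹ * x * g) * g⁻¹ := by rw [h2]
      _ = σ g * g⁻¹ * x := by group
  have hzF : σ g * g⁻¹ ∈ Cfsg.fittingSubgroup G := Cfsg.Agent.S0044.result hzC
  have hσz : σ (σ g * g⁻¹) = σ g * g⁻¹ := hσ _ hzF
  have hpow : ∀ k : ℕ, (σ ^ k) g = (σ g * g⁻¹) ^ k * g := by
    intro k
    induction k with
    | zero => simp
    | succ k ih =>
      rw [pow_succ', MulAut.mul_apply, ih, map_mul, map_pow, hσz, pow_succ, mul_assoc,
        inv_mul_cancel_right]
  have h1 := hpow (orderOf σ)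
  rw [pow_orderOf_eq_one, MulAut.one_apply] at h1
  have hz1 : (σ g * g⁻¹) ^ orderOf σ = 1 := by
    have h2 : (σ g * g⁻¹) ^ orderOf σ * g = 1 * g := by rw [one_mul]; exact h1.symm
    exact mul_right_cancel h2
  have hz2 : (σ g * g⁻¹) ^ Nat.card G = 1 := pow_card_eq_one'
  have hz3 := pow_gcd_eq_one.mpr ⟨hz1, hz2⟩
  rw [hcop.gcd_eq_one, pow_one] at hz3
  show σ g = g
  exact mul_inv_eq_one.mp hz3

end Cfsg.Agent.S0552
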