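import Cfsg.Statements.S0553
import Mathlib

set_option autoImplicit false
open Cfsg
open scoped commutatorElement

namespace Cfsg.Agent.S0553

universe u

/-- Index of `T` in `TN` equals index of `T ∩ N` in `N` (for `N` normal, finite group). -/
theorem relIndex_sup_eq {K : Type*} [Group K] [Finite K] (T N : Subgroup K) [N.Normal] :
    T.relIndex (T ⊔ N) = T.relIndex N := by
  have e1 : Nat.card (T ⊓ N : Subgroup K) * (T ⊓ N).relIndex N = Nat.card N := by
    have := Subgroup.relIndex_mul_relIndex (⊥ : Subgroup K) (T ⊓ N) N bot_le inf_le_right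
    rwa [Subgroup.relIndex_bot_left, Subgroup.relIndex_bot_left] at this
  have e2 : Nat.card (T ⊓ N : Subgroup K) * (T ⊓ N).relIndex T = Nat.card T := by
    have := Subgroup.relIndex_mul_relIndex (⊥ : Subgroup K) (T ⊓ N) T bot_le inf_le_left
    rwa [Subgroup.relIndex_bot_left, Subgroup.relIndex_bot_left] at this
  have e3 : Nat.card T * T.relIndex (T ⊔ N) = Nat.card (T ⊔ N : Subgroup K) := by
    have := Subgroup.relIndex_mul_relIndex (⊥ : Subgroup K) T (T ⊔ N) bot_le le_sup_left
    rwa [Subgroup.relIndex_bot_left, Subgroup.relIndex_bot_left] at this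
  have e4 : Nat.card N * N.relIndex (T ⊔ N) = Nat.card (T ⊔ N : Subgroup K) := by
    have := Subgroup.relIndex_mul_relIndex (⊥ : Subgroup K) N (T ⊔ N) bot_le le_sup_right
    rwa [Subgroup.relIndex_bot_left, Subgroup.relIndex_bot_left] at this
  rw [Subgroup.relIndex_sup_right] at e4
  rw [Subgroup.inf_relIndex_right] at e1
  rw [Subgroup.inf_relIndex_left] at e2
  have ha : 0 < Nat.card (T ⊓ N : Subgroup K) := Nat.card_pos
  have hT : 0 < Nat.card T := Nat.card_pos
  have hy : 0 < N.relIndex T := by
    rcases Nat.eq_zero_or_pos (N.relIndex T) with h | h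
    · rw [h, mul_zero] at e2; omega
    · exact h
  have h1 : Nat.card (T ⊓ N : Subgroup K) * N.relIndex T * T.relIndex (T ⊔ N)
      = Nat.card (T ⊓ N : Subgroup K) * N.relIndex T * T.relIndex N := by
    calc Nat.card (T ⊓ N : Subgroup K) * N.relIndex T * T.relIndex (T ⊔ N)
        = Nat.card T * T.relIndex (T ⊔ N) := by rw [e2]
      _ = Nat.card N * N.relIndex T := by rw [e3, e4]
      _ = Nat.card (T ⊓ N : Subgroup K) * T.relIndex N * N.relIndex T := by rw [e1]
      _ = Nat.card (T ⊓ N : Subgroup K) * N.relIndex T * T.relIndex N := by ring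
  exact Nat.eq_of_mul_eq_mul_left (Nat.mul_pos ha hy) h1

/-- Preimages of maximal subgroups of a quotient are maximal. -/
theorem isCoatom_comap_mk {G : Type u} [Group G] (N : Subgroup G) [N.Normal]
    (M' : Subgroup (G ⧸ N)) (hM' : IsCoatom M') :
    IsCoatom (M'.comap (QuotientGroup.mk' N)) := by
  have hsurj : Function.Surjective (QuotientGroup.mk' N) := QuotientGroup.mk'_surjective N
  refine ⟨?_, ?_⟩
  · intro htop
    apply hM'.1
    apply Subgroup.comap_injective hsurj
    rw [htop, Subgroup.comap_top]
  · intro K hK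
    have hker : (QuotientGroup.mk' N).ker ≤ K := by
      refine le_trans ?_ hK.le
      exact Subgroup.ker_le_comap _ _
    have hle : M' ≤ K.map (QuotientGroup.mk' N) := by
      rw [← Subgroup.map_comap_eq_self_of_surjective hsurj M']
      exact Subgroup.map_mono hK.le
    have hne : M' ≠ K.map (QuotientGroup.mk' N) := by
      intro heq
      have : K ≤ M'.comap (QuotientGroup.mk' N) := by
        rw [heq]; exact Subgroup.le_comap_map _ _
      exact (lt_irrefl _ (lt_of_lt_of_le hK this))
    have htop : K.map (QuotientGroup.mk' N) = ⊤ := hM'.2 _ (lt_of_le_of_ne hle hne)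
    have := Subgroup.comap_map_eq_self hker
    rw [htop, Subgroup.comap_top] at this
    exact this.symm

/-- A nontrivial finite solvable group has a nontrivial normal `p`-subgroup for some prime `p`. -/
theorem exists_normal_pSubgroup {G : Type u} [Group G] [Finite G] [Group.IsSolvable G]
    [Nontrivial G] : ∃ (p : ℕ) (M : Subgroup G), p.Prime ∧ M.Normal ∧ IsPGroup p M ∧ M ≠ ⊥ := by
  classical
  have hsol : ∃ n : ℕ, derivedSeries G n = ⊥ := (Group.isSolvable_def G).mp inferInstance
  have hn0 : derivedSeries G (Nat.find hsol) = ⊥ := Nat.find_spec hsol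
  have hpos : Nat.find hsol ≠ 0 := by
    intro h0
    rw [h0, derivedSeries_zero] at hn0
    exact top_ne_bot hn0
  obtain ⟨m, hm⟩ := Nat.exists_eq_succ_of_ne_zero hpos
  have hA : derivedSeries G m ≠ ⊥ := Nat.find_min hsol (by omega : m < Nat.find hsol)
  have hcomm : ⁅derivedSeries G m, derivedSeries G m⁆ = ⊥ := by
    rw [← derivedSeries_succ, ← Nat.succ_eq_add_one, ← hm]; exact hn0
  have hAab : ∀ a ∈ derivedSeries G m, ∀ b ∈ derivedSeries G m, a * b = b * a := by
    intro a ha b hb
    have : ⁅a, b⁆ ∈ ⁅derivedSeries G m, derivedSeries G m⁆ :=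
      Subgroup.commutator_mem_commutator ha hb
    rw [hcomm, Subgroup.mem_bot] at this
    exact commutatorElement_eq_one_iff_mul_comm.mp this
  have hcardA : Nat.card (derivedSeries G m) ≠ 1 :=
    fun h => hA ((Subgroup.eq_bot_iff_card _).mpr h)
  obtain ⟨p, hp, hpd⟩ := Nat.exists_prime_and_dvd hcardA
  haveI : Fact p.Prime := ⟨hp⟩
  obtain ⟨x, hx⟩ := exists_prime_orderOf_dvd_card' p hpd
  let M : Subgroup G :=
    { carrier := {a | a ∈ derivedSeries G m ∧ a ^ p = 1}
      one_mem' := ⟨one_mem _, one_pow _⟩
      mul_mem' := by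
        rintro a b ⟨ha, ha'⟩ ⟨hb, hb'⟩
        refine ⟨mul_mem ha hb, ?_⟩
        have hc : Commute a b := hAab a ha b hb
        rw [hc.mul_pow, ha', hb', one_mul]
      inv_mem' := by
        rintro a ⟨ha, ha'⟩
        exact ⟨inv_mem ha, by rw [inv_pow, ha', inv_one]⟩ }
  refine ⟨p, M, hp, ?_, ?_, ?_⟩
  · constructor
    rintro a ⟨ha, ha'⟩ g
    refine ⟨(inferInstance : (derivedSeries G m).Normal).conj_mem a ha g, ?_⟩
    rw [conj_pow, ha', mul_one, mul_inv_cancel]
  · rintro ⟨a, ha, ha'⟩
    refine ⟨1, ?_⟩
    apply Subtype.ext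
    simp [ha']
  · intro hbot
    have hxp : (x : G) ^ p = 1 := by
      have := pow_orderOf_eq_one x
      rw [hx] at this
      exact_mod_cast congrArg Subtype.val this
    have hxM : (x : G) ∈ M := ⟨x.2, hxp⟩
    rw [hbot, Subgroup.mem_bot] at hxM
    have hx1 : x = 1 := Subtype.ext hxM
    rw [hx1, orderOf_one] at hx
    exact hp.one_lt.ne hx

theorem main : ∀ (n : ℕ) (G : Type u) [Group G] [Finite G] [Group.IsSolvable G] [Nontrivial G],
    Nat.card G = n →
    (∀ M : Subgroup G, IsCoatom M → (Nat.card M).Coprime M.index) →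
    ∃ p : ℕ, p.Prime ∧ p ∣ Nat.card G ∧ ∀ P : Sylow p G, (P : Subgroup G).Normal := by
  intro n
  induction n using Nat.strong_induction_on with
  | _ n ih =>
    intro G _ _ _ _ hn h
    obtain ⟨p, M, hp, hMn, hMp, hMne⟩ := exists_normal_pSubgroup (G := G)
    haveI := hMn
    haveI : Fact p.Prime := ⟨hp⟩
    by_cases hcase : ∃ X : Subgroup G, IsCoatom X ∧ ¬ M ≤ X
    · obtain ⟨X, hX, hMX⟩ := hcase
      have hsup : X ⊔ M = ⊤ :=
        hX.2 _ (lt_of_le_of_ne le_sup_left (fun h' => hMX (h' ▸ le_sup_right)))
      have hidx : X.index = X.relIndex M := by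
        rw [← Subgroup.relIndex_top_right, ← hsup, relIndex_sup_eq]
      have hdvd : X.index ∣ Nat.card M := by rw [hidx]; exact Subgroup.relIndex_dvd_card _ _
      obtain ⟨a, ha⟩ := hMp.exists_card_eq
      have hdvd' := hdvd
      rw [ha] at hdvd'
      obtain ⟨b, hb, hXb⟩ := (Nat.dvd_prime_pow hp).mp hdvd'
      have hb0 : b ≠ 0 := by
        intro hb0; rw [hb0, pow_zero] at hXb
        exact hX.1 (Subgroup.index_eq_one.mp hXb)
      have hpX : p ∣ X.index := by rw [hXb]; exact dvd_pow_self p hb0
      have hpnX : ¬ p ∣ Nat.card X := by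
        intro hpc
        have h1 : p ∣ Nat.gcd (Nat.card X) X.index := Nat.dvd_gcd hpc hpX
        rw [(h X hX)] at h1
        exact hp.one_lt.ne' (Nat.dvd_one.mp h1)
      have hMidx : ¬ p ∣ M.index := by
        obtain ⟨c, hc⟩ := hdvd
        have e1 := Subgroup.card_mul_index M
        have e2 := Subgroup.card_mul_index X
        have hpos : 0 < X.index := Nat.pos_of_ne_zero Subgroup.index_ne_zero_of_finite
        have h3 : c * M.index = Nat.card X := by
          apply Nat.eq_of_mul_eq_mul_left hpos
          calc X.index * (c * M.index) = (X.index * c) * M.index := by ring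
            _ = Nat.card M * M.index := by rw [hc]
            _ = Nat.card G := e1
            _ = Nat.card X * X.index := e2.symm
            _ = X.index * Nat.card X := by ring
        intro hpm
        exact hpnX (h3 ▸ Dvd.dvd.mul_left hpm c)
      refine ⟨p, hp, (hpX.trans X.index_dvd_card), ?_⟩
      intro P
      have hMP : M ≤ (P : Subgroup G) := hMp.le_sylow_of_normal P
      have hPM : (P : Subgroup G) = M := (hMp.toSylow hMidx).is_maximal' P.isPGroup' hMP
      rw [hPM]; exact hMn
    · push_neg at hcase
      have hMtop : M ≠ ⊤ := by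
        obtain ⟨X, hX, -⟩ := (eq_top_or_exists_le_coatom (⊥ : Subgroup G)).resolve_left bot_ne_top
        intro h'
        exact hX.1 (top_le_iff.mp (h' ▸ hcase X hX))
      haveI : Nontrivial (G ⧸ M) := by
        rw [nontrivial_iff_exists_ne 1]
        by_contra hall
        push_neg at hall
        apply hMtop
        rw [eq_top_iff]
        intro g _
        have := hall (QuotientGroup.mk' M g)
        rwa [QuotientGroup.mk'_apply, QuotientGroup.eq_one_iff] at this
      have hsurj := QuotientGroup.mk'_surjective M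
      have hcard : Nat.card (G ⧸ M) < n := by
        have h2 := Subgroup.card_mul_index M
        have h3 : M.index = Nat.card (G ⧸ M) := rfl
        have hidx : 0 < M.index := Nat.pos_of_ne_zero (Subgroup.index_ne_zero_of_finite)
        have hcardM : 1 < Nat.card M := (Subgroup.one_lt_card_iff_ne_bot _).mpr hMne
        rw [← h3, ← hn, ← h2]
        nlinarith
      obtain ⟨q, hq, hqd, hQ⟩ := ih _ hcard (G ⧸ M) rfl (by
        intro X' hX'
        have hX := isCoatom_comap_mk M X' hX'
        have hc := h _ hX
        rw [Subgroup.index_comap_of_surjective _ hsurj] at hc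
        have hd : Nat.card X' ∣ Nat.card (X'.comap (QuotientGroup.mk' M)) := by
          have := Subgroup.card_map_dvd (H := X'.comap (QuotientGroup.mk' M)) (QuotientGroup.mk' M)
          rwa [Subgroup.map_comap_eq_self_of_surjective hsurj] at this
        exact Nat.Coprime.coprime_dvd_left hd hc)
      haveI : Fact q.Prime := ⟨hq⟩
      refine ⟨q, hq, hqd.trans ?_, ?_⟩
      · rw [← Subgroup.index_eq_card]; exact M.index_dvd_card
      · intro R
        have hR' := hQ (R.mapSurjective hsurj)
        rw [Sylow.coe_mapSurjective] at hR'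
        have hQn : ((R : Subgroup G) ⊔ M).Normal := by
          have := hR'.comap (QuotientGroup.mk' M)
          rwa [Subgroup.comap_map_eq, QuotientGroup.ker_mk'] at this
        have hfr := Sylow.normalizer_sup_eq_top' R (le_sup_left : (R : Subgroup G) ≤ (R : Subgroup G) ⊔ M)
        by_contra hRn
        have hN : Subgroup.normalizer ((R : Subgroup G) : Set G) ≠ ⊤ :=
          fun h' => hRn (Subgroup.normalizer_eq_top_iff.mp h')
        obtain ⟨X, hX, hNX⟩ := (eq_top_or_exists_le_coatom _).resolve_left hN
        have : (⊤ : Subgroup G) ≤ X := by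
          rw [← hfr]
          exact sup_le hNX (sup_le (Subgroup.le_normalizer.trans hNX) (hcase X hX))
        exact hX.1 (top_le_iff.mp this)

/-- Let G be a nontrivial finite solvable group in which every maximal subgroup has order coprime to its index. Then for some prime p dividing the order of G the Sylow p-subgroups of G are normal. -/
theorem result {G : Type*} [Group G] [Finite G] [Group.IsSolvable G] [Nontrivial G] (h : ∀ M : Subgroup G, IsCoatom M → (Nat.card M).Coprime M.index) : ∃ p : ℕ, p.Prime ∧ p ∣ Nat.card G ∧ ∀ P : Sylow p G, (P : Subgroup G).Normal := by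
  exact main _ G rfl h

end Cfsg.Agent.S0553
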