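import Cfsg.Statements.S0554
import Cfsg.Agent.Helper1.Hall
import Cfsg.Agent.Helper3.Subnormal

set_option autoImplicit false
open Cfsg
open scoped Pointwise

namespace Cfsg.Agent.S0554

universe u

/-- the product set of a list of subgroups -/
def prodSet {G : Type u} [Group G] (L : List (Subgroup G)) : Set G :=
  (L.map (fun H => (H : Set G))).prod

theorem mem_prodSet_nil {G : Type u} [Group G] (g : G) :
    g ∈ prodSet ([] : List (Subgroup G)) ↔ g = 1 := by
  simp [prodSet]

theorem mem_prodSet_cons {G : Type u} [Group G] (H : Subgroup G) (L : List (Subgroup G)) (g : G) :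
    g ∈ prodSet (H :: L) ↔ ∃ h ∈ H, ∃ y ∈ prodSet L, h * y = g := by
  simp [prodSet, Set.mem_mul]

theorem one_mem_prodSet {G : Type u} [Group G] (L : List (Subgroup G)) : (1 : G) ∈ prodSet L := by
  induction L with
  | nil => exact (mem_prodSet_nil 1).mpr rfl
  | cons H L ih => exact (mem_prodSet_cons H L 1).mpr ⟨1, one_mem _, 1, ih, mul_one 1⟩

theorem absorb {G : Type u} [Group G] (N : Subgroup G) [hN : N.Normal] (L : List (Subgroup G))
    (H₀ : Subgroup G) (hH₀ : H₀ ∈ L) (hNH : N ≤ H₀) :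
    ∀ x ∈ prodSet L, ∀ n ∈ N, x * n ∈ prodSet L := by
  induction L with
  | nil => exact absurd hH₀ (List.not_mem_nil)
  | cons H L ih =>
    intro x hx n hn
    obtain ⟨h, hh, y, hy, rfl⟩ := (mem_prodSet_cons H L x).mp hx
    rcases List.mem_cons.mp hH₀ with heq | hmem
    · refine (mem_prodSet_cons H L _).mpr ⟨h * (y * n * y⁻¹), ?_, y, hy, by group⟩
      exact mul_mem hh (heq ▸ hNH (hN.conj_mem n hn y))
    · exact (mem_prodSet_cons H L _).mpr ⟨h, hh, y * n, ih hmem y hy n hn, by rw [mul_assoc]⟩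

theorem lift_prodSet {G : Type u} {G' : Type u} [Group G] [Group G'] (f : G →* G')
    (L : List (Subgroup G)) :
    ∀ g : G, f g ∈ prodSet (L.map (Subgroup.map f)) → ∃ x ∈ prodSet L, f x = f g := by
  induction L with
  | nil =>
    intro g hg
    rw [List.map_nil, mem_prodSet_nil] at hg
    exact ⟨1, one_mem_prodSet _, by rw [map_one, hg]⟩
  | cons H L ih =>
    intro g hg
    rw [List.map_cons, mem_prodSet_cons] at hg
    obtain ⟨h', hh', y', hy', he⟩ := hg
    obtain ⟨h, hh, rfl⟩ := Subgroup.mem_map.mp hh'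
    have hy'' : f (h⁻¹ * g) ∈ prodSet (L.map (Subgroup.map f)) := by
      have : f (h⁻¹ * g) = y' := by rw [map_mul, map_inv, ← he, inv_mul_cancel_left]
      rw [this]; exact hy'
    obtain ⟨y, hy, hfy⟩ := ih (h⁻¹ * g) hy''
    refine ⟨h * y, (mem_prodSet_cons H L _).mpr ⟨h, hh, y, hy, rfl⟩, ?_⟩
    rw [map_mul, hfy, map_mul, map_inv, mul_inv_cancel_left]

theorem main : ∀ (n : ℕ) (G : Type u) [Group G] [Finite G] [Group.IsSolvable G],
    Nat.card G = n → ∀ L : List (Subgroup G),
    (∀ q : ℕ, q.Prime → q ∣ Nat.card G → ∃ H ∈ L, ∃ P : Sylow q G, (P : Subgroup G) = H) →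
    ∀ g : G, g ∈ prodSet L := by
  intro n
  induction n using Nat.strong_induction_on with
  | _ n ih =>
  intro G _ _ _ hn L hL g
  by_cases hG : Nontrivial G
  · obtain ⟨N, q, k, hNn, hNc, hq, hk, hcard⟩ := Cfsg.Agent.Helper1.minimal_normal_data (G := G)
    haveI := hNn
    haveI : Fact q.Prime := ⟨hq⟩
    have hqd : q ∣ Nat.card G :=
      (dvd_pow_self q hk.ne').trans (hcard ▸ Subgroup.card_subgroup_dvd_card N)
    obtain ⟨H₀, hH₀L, P, hPH₀⟩ := hL q hq hqd
    have hNP : N ≤ H₀ := hPH₀ ▸ (IsPGroup.of_card hcard).le_sylow_of_normal P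
    have hNne : N ≠ ⊥ := by
      intro h0
      rw [h0, Subgroup.card_bot] at hcard
      exact (Nat.one_lt_pow hk.ne' hq.one_lt).ne hcard
    have hlt : Nat.card (G ⧸ N) < n := hn ▸ Cfsg.Agent.Helper3.card_quot_lt_of_ne_bot N hNne
    have key := ih _ hlt (G ⧸ N) rfl (L.map (Subgroup.map (QuotientGroup.mk' N))) (by
      intro r hr hrd
      have hrG : r ∣ Nat.card G := hrd.trans (Subgroup.card_quotient_dvd_card N)
      obtain ⟨H, hHL, P, hPH⟩ := hL r hr hrG
      haveI : Fact r.Prime := ⟨hr⟩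
      refine ⟨H.map (QuotientGroup.mk' N), List.mem_map_of_mem hHL,
        P.mapSurjective (QuotientGroup.mk'_surjective N), ?_⟩
      rw [Sylow.coe_mapSurjective, hPH]) (QuotientGroup.mk' N g)
    obtain ⟨x, hx, hfx⟩ := lift_prodSet (QuotientGroup.mk' N) L g key
    have hn' : x⁻¹ * g ∈ N := by
      have h1 : QuotientGroup.mk' N (x⁻¹ * g) = 1 := by
        rw [map_mul, map_inv, hfx, inv_mul_cancel]
      exact (QuotientGroup.eq_one_iff _).mp h1
    have h2 := absorb N L H₀ hH₀L hNP x hx (x⁻¹ * g) hn'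
    rwa [mul_inv_cancel_left] at h2
  · haveI := not_nontrivial_iff_subsingleton.mp hG
    rw [Subsingleton.elim g 1]
    exact one_mem_prodSet L

theorem ofFn_decomp {G : Type u} [Group G] : ∀ (t : ℕ) (F : Fin t → Subgroup G) (g : G),
    g ∈ prodSet (List.ofFn F) → ∃ s : Fin t → G, (∀ i, s i ∈ F i) ∧ g = (List.ofFn s).prod := by
  intro t
  induction t with
  | zero =>
    intro F g hg
    rw [List.ofFn_zero, mem_prodSet_nil] at hg
    exact ⟨fun i => i.elim0, fun i => i.elim0, by rw [hg]; simp⟩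
  | succ t ih =>
    intro F g hg
    rw [List.ofFn_succ, mem_prodSet_cons] at hg
    obtain ⟨h, hh, y, hy, rfl⟩ := hg
    obtain ⟨s', hs', rfl⟩ := ih (fun i => F i.succ) y hy
    refine ⟨Fin.cons h s', ?_, ?_⟩
    · intro i
      refine Fin.cases ?_ ?_ i
      · simpa using hh
      · intro j; simpa using hs' j
    · rw [List.ofFn_succ]; simp

/-- Let G be a finite solvable group and let S assign to each of t distinct primes, including every prime divisor of the order of G, a Sylow subgroup of G. Then every element of G is a product s_0 s_1 ⋯ s_(t-1) with s_i in S i, the factors taken in the given order. -/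
theorem result {G : Type*} [Group G] [Finite G] [Group.IsSolvable G] (t : ℕ) (p : Fin t → ℕ) (hp : ∀ i, (p i).Prime) (hinj : Function.Injective p) (hall : ∀ q : ℕ, q.Prime → q ∣ Nat.card G → ∃ i, p i = q) (S : (i : Fin t) → Sylow (p i) G) : ∀ g : G, ∃ s : (i : Fin t) → G, (∀ i, s i ∈ (S i : Subgroup G)) ∧ g = (List.ofFn s).prod := by
  intro g
  apply ofFn_decomp t (fun i => (S i : Subgroup G)) g
  apply main _ G rfl
  intro q hq hqd
  obtain ⟨i, rfl⟩ := hall q hq hqd
  exact ⟨_, (List.mem_ofFn).mpr ⟨i, rfl⟩, S i, rfl⟩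

end Cfsg.Agent.S0554
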