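import Cfsg.Statements.S0555
import Cfsg.Agent.S0526

set_option autoImplicit false
open Cfsg
open scoped commutatorElement

namespace Cfsg.Agent.S0555

universe u

theorem cyclic_quot_gen {G : Type u} [Group G] (B C : Subgroup G) [hn : (C.subgroupOf B).Normal]
    (h : IsCyclic (↥B ⧸ C.subgroupOf B)) : ∃ b ∈ B, ∀ x ∈ B, ∃ k : ℤ, x * (b ^ k)⁻¹ ∈ C := by
  obtain ⟨g, hg⟩ := h.exists_generator
  obtain ⟨b, rfl⟩ := QuotientGroup.mk_surjective g
  refine ⟨b, b.2, fun x hx => ?_⟩
  obtain ⟨k, hk⟩ := Subgroup.mem_zpowers_iff.mp (hg (QuotientGroup.mk ⟨x, hx⟩))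
  refine ⟨k, ?_⟩
  have : (⟨x, hx⟩ : B) * (b ^ k)⁻¹ ∈ C.subgroupOf B := by
    rw [← QuotientGroup.eq_one_iff, QuotientGroup.mk_mul, QuotientGroup.mk_inv,
      QuotientGroup.mk_zpow, hk]
    simp
  simpa [Subgroup.mem_subgroupOf] using this

/-- Let i ≥ 1. If in the derived series of a group the quotient of the i-th term by the (i+1)-st and the quotient of the (i+1)-st by the (i+2)-nd are both cyclic, then the (i+1)-st and (i+2)-nd terms coincide. -/
theorem result {G : Type*} [Group G] (i : ℕ) (hi : 1 ≤ i) (h₁ : IsCyclic (↥(derivedSeries G i) ⧸ (derivedSeries G (i + 1)).subgroupOf (derivedSeries G i))) (h₂ : IsCyclic (↥(derivedSeries G (i + 1)) ⧸ (derivedSeries G (i + 2)).subgroupOf (derivedSeries G (i + 1)))) : derivedSeries G (i + 1) = derivedSeries G (i + 2) := by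
  have hBA : derivedSeries G (i + 1) ≤ derivedSeries G i := derivedSeries_antitone G (Nat.le_succ i)
  have hCB : derivedSeries G (i + 2) ≤ derivedSeries G (i + 1) :=
    derivedSeries_antitone G (Nat.le_succ (i + 1))
  obtain ⟨b, hb, hbgen⟩ := cyclic_quot_gen _ _ h₂
  obtain ⟨a, ha, hagen⟩ := cyclic_quot_gen _ _ h₁
  have hBeq : derivedSeries G (i + 2) ⊔ Subgroup.zpowers b = derivedSeries G (i + 1) := by
    apply le_antisymm
    · exact sup_le hCB (Subgroup.zpowers_le.mpr hb)
    · intro x hx
      obtain ⟨k, hk⟩ := hbgen x hx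
      have : x = (x * (b ^ k)⁻¹) * b ^ k := by simp
      rw [this]
      exact mul_mem (Subgroup.mem_sup_left hk)
        (Subgroup.mem_sup_right (zpow_mem (Subgroup.mem_zpowers b) k))
  have hBn : (derivedSeries G (i + 2) ⊔ Subgroup.zpowers b).Normal := by
    rw [hBeq]; infer_instance
  have h1 : ⁅derivedSeries G (i + 1), commutator G⁆ ≤ derivedSeries G (i + 2) := by
    have := Cfsg.Agent.S0526.comm_step (derivedSeries G (i + 2)) b hBn
    rwa [hBeq] at this
  have hA1 : derivedSeries G i ≤ commutator G := by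
    rw [← derivedSeries_one]; exact derivedSeries_antitone G hi
  have hcomm : ∀ u ∈ derivedSeries G (i + 1), ∀ z ∈ derivedSeries G i,
      Commute (QuotientGroup.mk' (derivedSeries G (i + 2)) u)
        (QuotientGroup.mk' (derivedSeries G (i + 2)) z) := by
    intro u hu z hz
    have : ⁅u, z⁆ ∈ derivedSeries G (i + 2) :=
      h1 (Subgroup.commutator_mem_commutator hu (hA1 hz))
    have h2 : ⁅QuotientGroup.mk' (derivedSeries G (i + 2)) u,
        QuotientGroup.mk' (derivedSeries G (i + 2)) z⁆ = 1 := by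
      rw [← map_commutatorElement]; exact (QuotientGroup.eq_one_iff _).mpr this
    exact commutatorElement_eq_one_iff_commute.mp h2
  apply le_antisymm _ hCB
  have hsucc : derivedSeries G (i + 1) = ⁅derivedSeries G i, derivedSeries G i⁆ := rfl
  rw [hsucc, Subgroup.commutator_le]
  intro x hx y hy
  obtain ⟨m, hm⟩ := hagen x hx
  obtain ⟨n, hn⟩ := hagen y hy
  rw [← QuotientGroup.eq_one_iff, ← QuotientGroup.mk'_apply, map_commutatorElement,
    commutatorElement_eq_one_iff_commute]
  have hx' : QuotientGroup.mk' (derivedSeries G (i + 2)) x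
      = QuotientGroup.mk' (derivedSeries G (i + 2)) (x * (a ^ m)⁻¹)
        * QuotientGroup.mk' (derivedSeries G (i + 2)) (a ^ m) := by
    rw [← map_mul]; simp
  have hy' : QuotientGroup.mk' (derivedSeries G (i + 2)) y
      = QuotientGroup.mk' (derivedSeries G (i + 2)) (y * (a ^ n)⁻¹)
        * QuotientGroup.mk' (derivedSeries G (i + 2)) (a ^ n) := by
    rw [← map_mul]; simp
  rw [hx', hy']
  have ham : a ^ m ∈ derivedSeries G i := zpow_mem ha m
  have han : a ^ n ∈ derivedSeries G i := zpow_mem ha n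
  apply Commute.mul_left
  · apply Commute.mul_right
    · exact hcomm _ hm _ (hBA hn)
    · exact hcomm _ hm _ han
  · apply Commute.mul_right
    · exact (hcomm _ hn _ ham).symm
    · rw [map_zpow, map_zpow]; exact Commute.zpow_zpow_self _ m n

end Cfsg.Agent.S0555
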