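import Cfsg.Statements.S0556
import Mathlib
import Cfsg.Agent.Helper8.Herstein

set_option autoImplicit false
open Cfsg
open scoped commutatorElement

namespace Cfsg.Agent.S0556

open Cfsg.Agent.Helper8

/-- If a finite group has a maximal subgroup that is abelian, then the third term of its derived series is trivial (so the group is solvable of derived length at most three). -/
theorem result {G : Type*} [Group G] [Finite G] (A : Subgroup G) (hA : IsCoatom A) [IsMulCommutative A] : derivedSeries G 3 = ⊥ := by
  classical
  have hab : ∀ x ∈ A, ∀ y ∈ A, x * y = y * x := isMulCommutative_iff_of_setLike.mp inferInstance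
  have h32 : derivedSeries G 2 ≤ Subgroup.center G → derivedSeries G 3 = ⊥ := by
    intro h
    show ⁅derivedSeries G 2, derivedSeries G 2⁆ = ⊥
    rw [Subgroup.commutator_eq_bot_iff_le_centralizer]
    exact h.trans (Subgroup.center_le_centralizer _)
  by_cases hAn : A.Normal
  · apply h32
    have h2 : derivedSeries G 2 = ⊥ := by
      apply derived_two_of_normal_abelian A hab
      have hQc : ∀ x y : G ⧸ A, x * y = y * x := by
        by_cases hex : ∃ x : G ⧸ A, x ≠ 1
        · obtain ⟨x, hx⟩ := hex
          obtain ⟨g, rfl⟩ := QuotientGroup.mk'_surjective A x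
          have hgA : g ∉ A := fun h => hx ((QuotientGroup.eq_one_iff g).mpr h)
          have hle : A ≤ (Subgroup.zpowers ((QuotientGroup.mk' A) g)).comap (QuotientGroup.mk' A) := by
            intro a ha
            have h1 : (QuotientGroup.mk' A) a = 1 := (QuotientGroup.eq_one_iff a).mpr ha
            rw [Subgroup.mem_comap, h1]
            exact Subgroup.one_mem _
          have hgK : g ∈ (Subgroup.zpowers ((QuotientGroup.mk' A) g)).comap (QuotientGroup.mk' A) :=
            Subgroup.mem_comap.mpr (Subgroup.mem_zpowers _)
          have hlt : A < (Subgroup.zpowers ((QuotientGroup.mk' A) g)).comap (QuotientGroup.mk' A) :=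
            lt_of_le_of_ne hle (fun h => hgA (by rw [h]; exact hgK))
          have htop := hA.2 _ hlt
          have hz : Subgroup.zpowers ((QuotientGroup.mk' A) g) = ⊤ := by
            rw [eq_top_iff]
            intro y _
            obtain ⟨g', rfl⟩ := QuotientGroup.mk'_surjective A y
            have hg' : g' ∈ (Subgroup.zpowers ((QuotientGroup.mk' A) g)).comap
                (QuotientGroup.mk' A) := htop ▸ Subgroup.mem_top g'
            exact Subgroup.mem_comap.mp hg'
          exact comm_of_zpowers_eq_top hz
        · push Not at hex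
          intro x y; rw [hex x, hex y]
      intro g₁ g₂
      refine (QuotientGroup.eq_one_iff (N := A) _).mp ?_
      have e := hQc (g₁ : G ⧸ A) (g₂ : G ⧸ A)
      simp only [QuotientGroup.mk_mul, QuotientGroup.mk_inv]
      rw [e]; group
    rw [h2]; exact bot_le
  · apply h32
    have hZA : Subgroup.center G ≤ A := by
      by_contra hZ
      apply hAn
      have hsup : A ⊔ Subgroup.center G = ⊤ := hA.2 _ (lt_of_le_of_ne le_sup_left (fun h => hZ (by
        have h2 : Subgroup.center G ≤ A ⊔ Subgroup.center G := le_sup_right
        rw [← h] at h2; exact h2)))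
      constructor
      intro n hn g
      have hg : g ∈ A ⊔ Subgroup.center G := hsup ▸ Subgroup.mem_top g
      obtain ⟨a, ha, z, hz, rfl⟩ := Subgroup.mem_sup_of_normal_right.mp hg
      have hzc : ∀ y : G, y * z = z * y := Subgroup.mem_center_iff.mp hz
      have e : a * z * n * (a * z)⁻¹ = a * n * a⁻¹ := by
        calc a * z * n * (a * z)⁻¹ = a * (z * n) * z⁻¹ * a⁻¹ := by group
          _ = a * (n * z) * z⁻¹ * a⁻¹ := by rw [hzc n]
          _ = a * n * a⁻¹ := by group
      rw [e]
      exact A.mul_mem (A.mul_mem ha hn) (A.inv_mem ha)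
    have hTI' : ∀ x : G, x ∉ A → ∀ a ∈ A, x * a * x⁻¹ ∈ A → a ∈ Subgroup.center G := by
      intro x hx a ha hxa
      obtain ⟨c, hc⟩ : ∃ c, c = x * a * x⁻¹ := ⟨_, rfl⟩
      rw [← hc] at hxa
      have hCA : A ≤ Subgroup.centralizer ({c} : Set G) := by
        intro y hy
        rw [mem_cent]
        exact hab c hxa y hy
      rcases eq_or_lt_of_le hCA with h | h
      · exfalso
        have hconj : ∀ a' ∈ A, x * a' * x⁻¹ ∈ A := by
          intro a' ha'
          rw [h, mem_cent, hc]
          have h1 := hab a ha a' ha'
          calc x * a * x⁻¹ * (x * a' * x⁻¹) = x * (a * a') * x⁻¹ := by group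
            _ = x * (a' * a) * x⁻¹ := by rw [h1]
            _ = x * a' * x⁻¹ * (x * a * x⁻¹) := by group
        have hxN : x ∈ Subgroup.normalizer (A : Set G) := by
          rw [Subgroup.mem_normalizer_iff]
          intro n
          constructor
          · exact hconj n
          · intro hn
            have hinj : Function.Injective
                (fun a' : ↥A => (⟨x * (a' : G) * x⁻¹, hconj a' a'.2⟩ : ↥A)) := by
              intro u v huv
              have h2 : x * (u : G) * x⁻¹ = x * (v : G) * x⁻¹ := congrArg Subtype.val huv
              exact Subtype.ext (by simpa using h2)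
            obtain ⟨u, hu⟩ := (Finite.injective_iff_surjective.mp hinj) ⟨x * n * x⁻¹, hn⟩
            have h2 : x * (u : G) * x⁻¹ = x * n * x⁻¹ := congrArg Subtype.val hu
            have h3 : (u : G) = n := by simpa using h2
            rw [← h3]; exact u.2
        have hlt : A < Subgroup.normalizer (A : Set G) :=
          lt_of_le_of_ne Subgroup.le_normalizer (fun h' => hx (by rw [h']; exact hxN))
        exact hAn (Subgroup.normalizer_eq_top_iff.mp (hA.2 _ hlt))
      · have htop := hA.2 _ h
        rw [Subgroup.mem_center_iff]
        intro g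
        have hg : g ∈ Subgroup.centralizer ({c} : Set G) := htop ▸ Subgroup.mem_top g
        rw [mem_cent] at hg
        have hxc : x ∈ Subgroup.centralizer ({c} : Set G) := htop ▸ Subgroup.mem_top x
        rw [mem_cent] at hxc
        have hac : a = c := by
          have h1 : a = x⁻¹ * c * x := by rw [hc]; group
          rw [h1, mul_assoc, hxc, inv_mul_cancel_left]
        rw [hac]; exact hg.symm
    obtain ⟨π, hπdef⟩ : ∃ π : G →* G ⧸ Subgroup.center G,
        π = QuotientGroup.mk' (Subgroup.center G) := ⟨_, rfl⟩
    have hπs : Function.Surjective π := by rw [hπdef]; exact QuotientGroup.mk'_surjective _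
    have hπker : π.ker = Subgroup.center G := by rw [hπdef]; exact QuotientGroup.ker_mk' _
    have hcm : (A.map π).comap π = A := by
      apply Subgroup.comap_map_eq_self
      rw [hπker]
      exact hZA
    have hAbar : IsCoatom (A.map π) := by
      constructor
      · intro htop
        apply hA.1
        rw [← hcm, htop, Subgroup.comap_top]
      · intro B hB
        have h1 : A ≤ B.comap π := by
          rw [← hcm]; exact Subgroup.comap_mono hB.le
        have h2 : A ≠ B.comap π := by
          intro h
          apply hB.ne
          rw [h, Subgroup.map_comap_eq_self_of_surjective hπs]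
        have h3 := hA.2 _ (lt_of_le_of_ne h1 h2)
        rw [← Subgroup.map_comap_eq_self_of_surjective hπs B, h3,
          Subgroup.map_top_of_surjective π hπs]
    have habar : ∀ x ∈ A.map π, ∀ y ∈ A.map π, x * y = y * x := by
      intro x hx y hy
      obtain ⟨a, ha, rfl⟩ := Subgroup.mem_map.mp hx
      obtain ⟨b, hb, rfl⟩ := Subgroup.mem_map.mp hy
      rw [← map_mul, ← map_mul, hab a ha b hb]
    have hTIbar : ∀ x : G ⧸ Subgroup.center G, x ∉ A.map π → ∀ a ∈ A.map π,
        x * a * x⁻¹ ∈ A.map π → a = 1 := by
      intro x hx a ha hxa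
      obtain ⟨g, rfl⟩ := hπs x
      obtain ⟨a', ha', rfl⟩ := Subgroup.mem_map.mp ha
      have hg : g ∉ A := fun h => hx (Subgroup.mem_map_of_mem π h)
      have h1 : g * a' * g⁻¹ ∈ (A.map π).comap π := by
        rw [Subgroup.mem_comap, map_mul, map_mul, map_inv]; exact hxa
      rw [hcm] at h1
      have h2 := hTI' g hg a' ha' h1
      have h3 : a' ∈ π.ker := by rw [hπker]; exact h2
      exact MonoidHom.mem_ker.mp h3
    have hbar := ti_case (A.map π) hAbar habar hTIbar
    have h5 : (derivedSeries G 2).map π ≤ derivedSeries (G ⧸ Subgroup.center G) 2 :=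
      map_derivedSeries_le_derivedSeries π 2
    rw [hbar, le_bot_iff] at h5
    intro y hy
    have h6 : π y ∈ (derivedSeries G 2).map π := Subgroup.mem_map_of_mem π hy
    rw [h5, Subgroup.mem_bot] at h6
    have h7 : y ∈ π.ker := MonoidHom.mem_ker.mpr h6
    rw [hπker] at h7; exact h7

end Cfsg.Agent.S0556
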