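import Cfsg.Statements.S0557
import Cfsg.Agent.Helper3.Carter2

set_option autoImplicit false
open Cfsg
open scoped Pointwise commutatorElement

namespace Cfsg.Agent.S0557

open Cfsg.Agent.Helper3

universe u

theorem focal_mono {G : Type u} [Group G] {K K' : Subgroup G} (h : K ≤ K') :
    Subgroup.focalSubgroup K ≤ Subgroup.focalSubgroup K' := by
  rw [Subgroup.focalSubgroup_def, Subgroup.closure_le]
  rintro g ⟨hg, x, hx, u, rfl⟩
  exact Subgroup.subset_closure ⟨h hg, x, h hx, u, rfl⟩

theorem focal_map_subtype {G : Type u} [Group G] (L : Subgroup G) (X : Subgroup ↥L) :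
    (Subgroup.focalSubgroup X).map L.subtype ≤ Subgroup.focalSubgroup (X.map L.subtype) := by
  rw [Subgroup.map_le_iff_le_comap, Subgroup.focalSubgroup_def, Subgroup.closure_le]
  rintro g ⟨hg, x, hx, u, rfl⟩
  show L.subtype ⁅x, u⁆ ∈ Subgroup.focalSubgroup (X.map L.subtype)
  apply Subgroup.subset_closure
  refine ⟨Subgroup.mem_map_of_mem _ hg, (x : G), Subgroup.mem_map_of_mem _ hx, (u : G), ?_⟩
  simp [commutatorElement_def]

theorem iterate_le {G : Type u} [Group G] (L : Subgroup G) (X : Subgroup ↥L) (Y : Subgroup G)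
    (h : X.map L.subtype ≤ Y) (k : ℕ) :
    ((fun K : Subgroup ↥L => Subgroup.focalSubgroup K)^[k] X).map L.subtype
      ≤ (fun K : Subgroup G => Subgroup.focalSubgroup K)^[k] Y := by
  induction k with
  | zero => exact h
  | succ k ih =>
    rw [Function.iterate_succ_apply', Function.iterate_succ_apply']
    exact (focal_map_subtype L _).trans (focal_mono ih)

theorem hall_transfer {G : Type u} [Group G] [Finite G] (H : Subgroup G)
    (hHall : (Nat.card H).Coprime H.index) :
    ∃ L : Subgroup G, L.Normal ∧ L ⊓ H = Subgroup.focalSubgroup H ∧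
      Nat.card G * Nat.card (Subgroup.focalSubgroup H) = Nat.card L * Nat.card H := by
  have hA : Nat.card (↥H ⧸ H.focalSubgroupOf) * Nat.card H.focalSubgroupOf = Nat.card H :=
    (Subgroup.card_eq_card_quotient_mul_card_subgroup H.focalSubgroupOf).symm
  have hcopA : (Nat.card (↥H ⧸ H.focalSubgroupOf)).Coprime H.index :=
    Nat.Coprime.coprime_dvd_left (Dvd.intro _ hA) hHall
  have key : ∀ y : ↥H ⧸ H.focalSubgroupOf, y ^ H.index = 1 → y = 1 := by
    intro y hy
    have h1 : orderOf y ∣ H.index := orderOf_dvd_of_pow_eq_one hy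
    have h2 : orderOf y ∣ Nat.card (↥H ⧸ H.focalSubgroupOf) := orderOf_dvd_natCard y
    have h3 := Nat.dvd_gcd h2 h1
    rw [Nat.Coprime.gcd_eq_one hcopA] at h3
    exact orderOf_eq_one_iff.mp (Nat.dvd_one.mp h3)
  have hsurj : Function.Surjective (Subgroup.transferFocal H) := by
    intro y
    obtain ⟨z, hz⟩ := (powCoprime hcopA).surjective y
    obtain ⟨x, rfl⟩ := QuotientGroup.mk'_surjective _ z
    exact ⟨x, (Subgroup.transferFocal_eq_pow H x).trans hz⟩
  refine ⟨(Subgroup.transferFocal H).ker, inferInstance, ?_, ?_⟩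
  · ext x
    constructor
    · intro hx
      obtain ⟨hx1, hx2⟩ := Subgroup.mem_inf.mp hx
      have h1 : Subgroup.transferFocal H (⟨x, hx2⟩ : ↥H) = 1 := hx1
      rw [Subgroup.transferFocal_eq_pow] at h1
      have h2 := key _ h1
      have h3 : (⟨x, hx2⟩ : ↥H) ∈ H.focalSubgroupOf := (QuotientGroup.eq_one_iff _).mp h2
      exact Subgroup.mem_subgroupOf.mp h3
    · intro hx
      have hxH : x ∈ H := Subgroup.focalSubgroup_le H hx
      refine Subgroup.mem_inf.mpr ⟨?_, hxH⟩
      show Subgroup.transferFocal H (⟨x, hxH⟩ : ↥H) = 1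
      rw [Subgroup.transferFocal_eq_pow]
      have h3 : (⟨x, hxH⟩ : ↥H) ∈ H.focalSubgroupOf := Subgroup.mem_subgroupOf.mpr hx
      have h4 : ((⟨x, hxH⟩ : ↥H) : ↥H ⧸ H.focalSubgroupOf) = 1 := (QuotientGroup.eq_one_iff _).mpr h3
      rw [h4, one_pow]
  · have h1 := Subgroup.card_eq_card_quotient_mul_card_subgroup (Subgroup.transferFocal H).ker
    have h2 : Nat.card (G ⧸ (Subgroup.transferFocal H).ker) = Nat.card (↥H ⧸ H.focalSubgroupOf) :=
      Nat.card_congr (QuotientGroup.quotientKerEquivOfSurjective _ hsurj).toEquiv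
    have h3 : Nat.card H.focalSubgroupOf = Nat.card (Subgroup.focalSubgroup H) :=
      Nat.card_congr (Subgroup.subgroupOfEquivOfLe (Subgroup.focalSubgroup_le H)).toEquiv
    rw [h1, h2, ← hA, h3]; ring

theorem normal_of_normal_hall {G : Type u} [Group G] [Finite G] (L : Subgroup G) [L.Normal]
    (N : Subgroup G) (hNL : N ≤ L) (hLN : L ≤ Subgroup.normalizer (N : Set G))
    (hcop : (Nat.card N).Coprime (N.relIndex L)) : N.Normal := by
  rw [← Subgroup.normalizer_eq_top_iff, eq_top_iff]
  intro g _
  apply Cfsg.Agent.S0540.mem_normalizer_of_smul_le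
  apply le_of_coprime_relIndex N _ L _ hLN (by rw [card_conj_smul]; exact hcop)
  have : MulAut.conj g • N ≤ MulAut.conj g • L :=
    Subgroup.pointwise_smul_le_pointwise_smul_iff.mpr hNL
  rwa [Subgroup.Normal.conj_smul_eq_self g L] at this

theorem main : ∀ (n : ℕ) (G : Type u) [Group G] [Finite G] (H : Subgroup G),
    (Nat.card H).Coprime H.index →
    (fun K : Subgroup G => Subgroup.focalSubgroup K)^[n] H = ⊥ →
    ∃ N : Subgroup G, N.Normal ∧ Subgroup.IsComplement' N H := by
  intro n
  induction n with
  | zero =>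
    intro G _ _ H _ h
    rw [Function.iterate_zero, id] at h
    rw [h]
    exact ⟨⊤, inferInstance, Subgroup.isComplement'_top_bot⟩
  | succ n ih =>
    intro G _ _ H hHall h
    rw [Function.iterate_succ_apply] at h
    obtain ⟨L, hLn, hLH, hcard⟩ := hall_transfer H hHall
    haveI := hLn
    have hfL : Subgroup.focalSubgroup H ≤ L := hLH ▸ inf_le_left
    have hcard1 : Nat.card ((Subgroup.focalSubgroup H).subgroupOf L)
        = Nat.card (Subgroup.focalSubgroup H) :=
      Nat.card_congr (Subgroup.subgroupOfEquivOfLe hfL).toEquiv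
    have hfdvd : Nat.card (Subgroup.focalSubgroup H) ∣ Nat.card H :=
      Subgroup.card_dvd_of_le (Subgroup.focalSubgroup_le H)
    have hHall1 : (Nat.card ((Subgroup.focalSubgroup H).subgroupOf L)).Coprime
        ((Subgroup.focalSubgroup H).subgroupOf L).index := by
      rw [hcard1]
      have h1 : ((Subgroup.focalSubgroup H).subgroupOf L).index ∣ H.index := by
        show (Subgroup.focalSubgroup H).relIndex L ∣ H.index
        rw [← hLH, Subgroup.inf_relIndex_left]
        exact relIndex_dvd_index_normal H L
      exact Nat.Coprime.coprime_dvd_left hfdvd (Nat.Coprime.coprime_dvd_right h1 hHall)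
    have hiter : (fun K : Subgroup ↥L => Subgroup.focalSubgroup K)^[n]
        ((Subgroup.focalSubgroup H).subgroupOf L) = ⊥ := by
      have := iterate_le L ((Subgroup.focalSubgroup H).subgroupOf L) (Subgroup.focalSubgroup H)
        (by rw [Subgroup.subgroupOf_map_subtype]; exact inf_le_left) n
      rw [h, le_bot_iff] at this
      exact (Subgroup.map_eq_bot_iff_of_injective _ L.subtype_injective).mp this
    obtain ⟨N', hN'n, hN'c⟩ := ih ↥L _ hHall1 hiter
    have hNcard : Nat.card (N'.map L.subtype) = Nat.card N' :=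
      Subgroup.card_map_of_injective L.subtype_injective
    have hmul := hN'c.card_mul_card
    rw [hcard1] at hmul
    have hcardG : Nat.card (N'.map L.subtype) * Nat.card H = Nat.card G := by
      have hpos : 0 < Nat.card (Subgroup.focalSubgroup H) := Nat.card_pos
      apply Nat.eq_of_mul_eq_mul_right hpos
      rw [hcard, ← hmul, hNcard]; ring
    have hNidx : Nat.card (N'.map L.subtype) = H.index := by
      have h2 := Subgroup.card_mul_index H
      apply Nat.eq_of_mul_eq_mul_right (Nat.card_pos (α := H))
      rw [hcardG, ← h2, mul_comm]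
    have hcopN : (Nat.card (N'.map L.subtype)).Coprime (Nat.card H) := by
      rw [hNidx]; exact hHall.symm
    have hNnormal : (N'.map L.subtype).Normal := by
      apply normal_of_normal_hall L _ (Subgroup.map_subtype_le _)
      · intro c hc
        apply Cfsg.Agent.S0540.mem_normalizer_of_smul_le
        intro y hy
        obtain ⟨x, ⟨q, hq, rfl⟩, rfl⟩ := (Subgroup.mem_smul_pointwise_iff_exists _ _ _).mp hy
        refine ⟨⟨c, hc⟩ * q * ⟨c, hc⟩⁻¹, hN'n.conj_mem q hq _, ?_⟩
        simp [MulAut.smul_def, MulAut.conj_apply]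
      · have h1 : (N'.map L.subtype).relIndex L = N'.index := by
          show ((N'.map L.subtype).comap L.subtype).index = _
          rw [Subgroup.comap_map_eq_self_of_injective L.subtype_injective]
        rw [h1, hN'c.symm.index_eq_card, hcard1]
        exact Nat.Coprime.coprime_dvd_right hfdvd hcopN
    exact ⟨_, hNnormal, Subgroup.isComplement'_of_coprime hcardG hcopN⟩

/-- Let H be a subgroup of a finite group G with order coprime to its index. If iterating the focal-subgroup construction starting from H reaches the trivial subgroup after finitely many steps, then H has a normal complement in G. -/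
theorem result {G : Type*} [Group G] [Finite G] (H : Subgroup G) (hHall : (Nat.card H).Coprime H.index) (n : ℕ) (hfoc : (fun K : Subgroup G => Subgroup.focalSubgroup K)^[n] H = ⊥) : ∃ N : Subgroup G, N.Normal ∧ Subgroup.IsComplement' N H :=
  main n G H hHall hfoc

end Cfsg.Agent.S0557
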