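-- helper9: proof of S0563
import Mathlib
import Cfsg.Statements.S0563
import Cfsg.Agent.Helper9.KW4
-- import your own Cfsg.Agent.* helpers here

set_option autoImplicit false
open Pointwise
open Cfsg

namespace Cfsg.Agent.S0563

/-- If a finite group G is the product AB of two nilpotent subgroups of coprime orders, then G is solvable, and for every Sylow p-subgroup P of A and Sylow q-subgroup Q of B the product set PQ is a subgroup. -/
theorem result {G : Type*} [Group G] [Finite G] (A B : Subgroup G) (hA : Group.IsNilpotent A) (hB : Group.IsNilpotent B) (hcop : (Nat.card A).Coprime (Nat.card B)) (hAB : ∀ g : G, ∃ a ∈ A, ∃ b ∈ B, g = a * b) : Group.IsSolvable G ∧ ∀ (p q : ℕ) [Fact p.Prime] [Fact q.Prime] (P : Sylow p A) (Q : Sylow q B), ∃ S : Subgroup G, (S : Set G) = (((P : Subgroup A).map A.subtype : Subgroup G) : Set G) * (((Q : Subgroup B).map B.subtype : Subgroup G) : Set G) :=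
  ⟨Cfsg.Agent.Helper9.KW.coprime_solvable A B hA hB hcop hAB, by
    haveI := Cfsg.Agent.Helper9.KW.coprime_solvable A B hA hB hcop hAB
    exact Cfsg.Agent.Helper12.KWR.sylow_prod A B hA hB hcop hAB⟩

end Cfsg.Agent.S0563
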