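-- helper9: proof of S0565
import Mathlib
import Cfsg.Statements.S0565
import Cfsg.Agent.S0564
import Cfsg.Agent.Helper12.KWGen
-- import your own Cfsg.Agent.* helpers here

set_option autoImplicit false
open Cfsg

namespace Cfsg.Agent.S0565

/-- Let the finite group G be the product AB of nilpotent subgroups A and B, not both equal to G. Then there is a proper normal subgroup of G containing A or containing B. -/
theorem result {G : Type*} [Group G] [Finite G] (A B : Subgroup G) (hA : Group.IsNilpotent A) (hB : Group.IsNilpotent B) (hAB : ∀ g : G, ∃ a ∈ A, ∃ b ∈ B, g = a * b) (hproper : A ≠ ⊤ ∨ B ≠ ⊤) : ∃ N : Subgroup G, N.Normal ∧ N ≠ ⊤ ∧ (A ≤ N ∨ B ≤ N) :=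
  Cfsg.Agent.Helper12.KW.proper_aux (fun _ _ _ A' B' hA' hB' hAB' => Cfsg.Agent.S0564.result A' B' hA' hB' hAB') _ G rfl A B hA hB hAB hproper

end Cfsg.Agent.S0565
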