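import Cfsg.Statements.S0567
import Cfsg.Agent.Helper3.Comm

set_option autoImplicit false
open Cfsg
open scoped commutatorElement

namespace Cfsg.Agent.S0567

open Cfsg.Agent.Helper3

theorem iter_norm {G : Type*} [Group G] (H : Subgroup G) (i : ℕ) (h : G) (hh : h ∈ H) :
    (fun K : Subgroup G => ⁅K, H⁆)^[i] ⊤ ≤
      ((fun K : Subgroup G => ⁅K, H⁆)^[i] ⊤).comap (MulAut.conj h).toMonoidHom := by
  cases i with
  | zero => intro x _; simp
  | succ i =>
    rw [Function.iterate_succ_apply']
    exact comm_norm_right _ H h hh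

theorem subnormal_of_iter {G : Type*} [Group G] (H : Subgroup G) (m : ℕ)
    (hm : (fun K : Subgroup G => ⁅K, H⁆)^[m] ⊤ ≤ H) : H.IsSubnormal := by
  have key : ∀ i : ℕ, (H ⊔ (fun K : Subgroup G => ⁅K, H⁆)^[i] ⊤).IsSubnormal := by
    intro i
    induction i with
    | zero =>
      have : H ⊔ (fun K : Subgroup G => ⁅K, H⁆)^[0] ⊤ = ⊤ := by simp
      rw [this]; exact Subgroup.IsSubnormal.top
    | succ i ih =>
      have hanti : (fun K : Subgroup G => ⁅K, H⁆)^[i+1] ⊤ ≤
          (fun K : Subgroup G => ⁅K, H⁆)^[i] ⊤ := by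
        rw [Function.iterate_succ_apply']
        rw [Subgroup.commutator_le]
        intro k hk h hh
        have h1 := iter_norm H i h hh (inv_mem hk)
        rw [Subgroup.mem_comap] at h1
        have : ⁅k, h⁆ = k * ((MulAut.conj h).toMonoidHom k⁻¹) := by
          simp [commutatorElement_def, mul_assoc]
        rw [this]; exact mul_mem hk h1
      have hle : H ⊔ (fun K : Subgroup G => ⁅K, H⁆)^[i+1] ⊤ ≤
          H ⊔ (fun K : Subgroup G => ⁅K, H⁆)^[i] ⊤ := sup_le_sup_left hanti H
      refine Subgroup.IsSubnormal.step _ _ hle ih ?_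
      rw [Subgroup.normal_subgroupOf_iff_le_normalizer hle]
      have conjH : ∀ s ∈ H, H ⊔ (fun K : Subgroup G => ⁅K, H⁆)^[i+1] ⊤ ≤
          (H ⊔ (fun K : Subgroup G => ⁅K, H⁆)^[i+1] ⊤).comap (MulAut.conj s).toMonoidHom := by
        intro s hs
        apply sup_le
        · intro x hx
          rw [Subgroup.mem_comap]
          exact Subgroup.mem_sup_left (mul_mem (mul_mem hs hx) (inv_mem hs))
        · exact (iter_norm H (i+1) s hs).trans (Subgroup.comap_mono le_sup_right)
      have conjK : ∀ s ∈ (fun K : Subgroup G => ⁅K, H⁆)^[i] ⊤,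
          H ⊔ (fun K : Subgroup G => ⁅K, H⁆)^[i+1] ⊤ ≤
          (H ⊔ (fun K : Subgroup G => ⁅K, H⁆)^[i+1] ⊤).comap (MulAut.conj s).toMonoidHom := by
        intro s hs
        apply sup_le
        · intro x hx
          rw [Subgroup.mem_comap]
          have e : (MulAut.conj s).toMonoidHom x = ⁅s, x⁆ * x := by
            simp [commutatorElement_def, mul_assoc]
          rw [e]
          apply mul_mem (Subgroup.mem_sup_right ?_) (Subgroup.mem_sup_left hx)
          rw [Function.iterate_succ_apply']
          exact Subgroup.commutator_mem_commutator hs hx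
        · have := comm_norm_left ((fun K : Subgroup G => ⁅K, H⁆)^[i] ⊤) H s hs
          rw [Function.iterate_succ_apply']
          exact this.trans (Subgroup.comap_mono le_sup_right)
      apply sup_le
      · intro s hs
        exact mem_normalizer_of_conj _ s (conjH s hs) (conjH s⁻¹ (inv_mem hs))
      · intro s hs
        exact mem_normalizer_of_conj _ s (conjK s hs) (conjK s⁻¹ (inv_mem hs))
  have := key m
  rwa [sup_eq_left.mpr hm] at this

theorem iter_of_subnormal {G : Type*} [Group G] (H : Subgroup G) (hH : H.IsSubnormal) :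
    ∃ m : ℕ, (fun K : Subgroup G => ⁅K, H⁆)^[m] ⊤ ≤ H := by
  induction hH with
  | top => exact ⟨0, le_top⟩
  | step H K h_le hSubn hN ih =>
    obtain ⟨m, hm⟩ := ih
    have hmono : ∀ i : ℕ, (fun L : Subgroup G => ⁅L, H⁆)^[i] ⊤ ≤
        (fun L : Subgroup G => ⁅L, K⁆)^[i] ⊤ := by
      intro i
      induction i with
      | zero => exact le_refl _
      | succ i ih =>
        rw [Function.iterate_succ_apply', Function.iterate_succ_apply']
        exact Subgroup.commutator_mono ih h_le
    refine ⟨m + 1, ?_⟩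
    rw [Function.iterate_succ_apply']
    have hKN : K ≤ Subgroup.normalizer (H : Set G) :=
      (Subgroup.normal_subgroupOf_iff_le_normalizer h_le).mp hN
    rw [Subgroup.commutator_le]
    intro k hk h hh
    have hkK : k ∈ K := hm (hmono m hk)
    have h1 : k * h * k⁻¹ ∈ H := (Subgroup.mem_normalizer_iff.mp (hKN hkK) h).mp hh
    have : ⁅k, h⁆ = k * h * k⁻¹ * h⁻¹ := rfl
    rw [this]; exact mul_mem h1 (inv_mem hh)

/-- A subgroup H of a group G is subnormal exactly when, for some m, the subgroup obtained from G by taking the commutator with H m times in succession is contained in H. -/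
theorem result {G : Type*} [Group G] (H : Subgroup G) : H.IsSubnormal ↔ ∃ m : ℕ, (fun K : Subgroup G => ⁅K, H⁆)^[m] ⊤ ≤ H := by
  exact ⟨iter_of_subnormal H, fun ⟨m, hm⟩ => subnormal_of_iter H m hm⟩

end Cfsg.Agent.S0567
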