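import Cfsg.Statements.S0568
import Cfsg.Agent.Helper3.SysNorm2

set_option autoImplicit false
open Cfsg
open scoped commutatorElement

namespace Cfsg.Agent.S0568

open Cfsg.Agent.Helper3

universe u

theorem central_iff {G : Type u} [Group G] (A B : Subgroup G) [A.Normal] :
    ⁅B, (⊤ : Subgroup G)⁆ ≤ A ↔ B.map (QuotientGroup.mk' A) ≤ Subgroup.center (G ⧸ A) := by
  constructor
  · intro h y hy
    obtain ⟨b, hb, rfl⟩ := hy
    rw [Subgroup.mem_center_iff]
    intro z
    obtain ⟨g, rfl⟩ := QuotientGroup.mk'_surjective A z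
    rw [← map_mul, ← map_mul]
    apply (QuotientGroup.eq).mpr
    have : (g * b)⁻¹ * (b * g) = ⁅b⁻¹, g⁻¹⁆ := by rw [commutatorElement_def]; group
    rw [this]
    exact h (Subgroup.commutator_mem_commutator (B.inv_mem hb) (Subgroup.mem_top _))
  · intro h
    rw [Subgroup.commutator_le]
    intro b hb g _
    apply (QuotientGroup.eq_one_iff _).mp
    show QuotientGroup.mk' A ⁅b, g⁆ = 1
    have hb' := Subgroup.mem_center_iff.mp (h (Subgroup.mem_map_of_mem _ hb)) (QuotientGroup.mk' A g)
    rw [commutatorElement_def, map_mul, map_mul, map_mul, map_inv, map_inv, ← hb']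
    group

theorem chief_map {G : Type u} [Group G] (A B : Subgroup G) [A.Normal] (hAB : A < B)
    (hchief : ∀ N : Subgroup G, N.Normal → A ≤ N → N ≤ B → N = A ∨ N = B) :
    B.map (QuotientGroup.mk' A) ≠ ⊥ ∧ ∀ M : Subgroup (G ⧸ A), M.Normal →
      M ≤ B.map (QuotientGroup.mk' A) → M = ⊥ ∨ M = B.map (QuotientGroup.mk' A) := by
  constructor
  · intro h
    rw [Subgroup.map_eq_bot_iff, QuotientGroup.ker_mk'] at h
    exact (not_le_of_gt hAB) h
  · intro M hM hMB
    have hcomap_le : M.comap (QuotientGroup.mk' A) ≤ B := by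
      intro x hx
      obtain ⟨b, hb, hbx⟩ := hMB hx
      have : b⁻¹ * x ∈ A := (QuotientGroup.eq).mp hbx
      have hx' : x = b * (b⁻¹ * x) := by group
      rw [hx']; exact B.mul_mem hb (hAB.le this)
    have hA_le : A ≤ M.comap (QuotientGroup.mk' A) := by
      intro a ha
      show QuotientGroup.mk' A a ∈ M
      have h1 : QuotientGroup.mk' A a = 1 := (QuotientGroup.eq_one_iff a).mpr ha
      rw [h1]; exact M.one_mem
    rcases hchief _ (hM.comap _) hA_le hcomap_le with h | h
    · left
      rw [← Subgroup.map_comap_eq_self_of_surjective (QuotientGroup.mk'_surjective A) M, h,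
        Subgroup.map_eq_bot_iff, QuotientGroup.ker_mk']
    · right
      rw [← Subgroup.map_comap_eq_self_of_surjective (QuotientGroup.mk'_surjective A) M, h]

/-- Let D be the system normalizer of a Hall complement system of a finite solvable group G, and let A < B be normal subgroups with no normal subgroup of G strictly between them (a chief factor). If G centralizes B modulo A then B ≤ A ⊔ D (D covers the factor); otherwise B ∩ D ≤ A (D avoids it). -/
theorem result {G : Type*} [Group G] [Finite G] [Group.IsSolvable G] (K : Nat.Primes → Subgroup G) (hK : Cfsg.IsComplementSystem K) (A B : Subgroup G) [A.Normal] [B.Normal] (hAB : A < B) (hchief : ∀ N : Subgroup G, N.Normal → A ≤ N → N ≤ B → N = A ∨ N = B) : (⁅B, (⊤ : Subgroup G)⁆ ≤ A → B ≤ A ⊔ Cfsg.systemNormalizer K) ∧ (¬ ⁅B, (⊤ : Subgroup G)⁆ ≤ A → B ⊓ Cfsg.systemNormalizer K ≤ A) := by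
  have hmapD := systemNormalizer_map K hK A
  have hcs := complSystem_map K hK A
  obtain ⟨hBbar_ne, hBbar_min⟩ := chief_map A B hAB hchief
  haveI : (B.map (QuotientGroup.mk' A)).Normal :=
    Subgroup.Normal.map inferInstance _ (QuotientGroup.mk'_surjective A)
  constructor
  · intro h
    have h1 : B.map (QuotientGroup.mk' A) ≤ (Cfsg.systemNormalizer K).map (QuotientGroup.mk' A) := by
      rw [← hmapD]
      intro y hy
      refine Subgroup.mem_iInf.mpr fun p => ?_
      exact Subgroup.center_le_normalizer _ ((central_iff A B).mp h hy)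
    have h2 := Subgroup.comap_mono (f := QuotientGroup.mk' A) h1
    rw [Subgroup.comap_map_eq, Subgroup.comap_map_eq, QuotientGroup.ker_mk'] at h2
    exact (le_sup_left.trans h2).trans (by rw [sup_comm])
  · intro h
    have h1 := avoid_minNormal _ hcs (B.map (QuotientGroup.mk' A)) hBbar_ne hBbar_min
      (fun hc => h ((central_iff A B).mpr hc))
    intro x hx
    obtain ⟨hxB, hxD⟩ := Subgroup.mem_inf.mp hx
    have : QuotientGroup.mk' A x ∈ B.map (QuotientGroup.mk' A) ⊓
        Cfsg.systemNormalizer (fun p => (K p).map (QuotientGroup.mk' A)) := by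
      refine Subgroup.mem_inf.mpr ⟨Subgroup.mem_map_of_mem _ hxB, ?_⟩
      rw [hmapD]; exact Subgroup.mem_map_of_mem _ hxD
    rw [h1, Subgroup.mem_bot] at this
    exact (QuotientGroup.eq_one_iff x).mp this

end Cfsg.Agent.S0568
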