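import Cfsg.Statements.S0570
import Cfsg.Agent.Helper3.Carter
import Cfsg.Agent.S0568
import Cfsg.Agent.S0544

set_option autoImplicit false
open Cfsg
open scoped Pointwise commutatorElement

namespace Cfsg.Agent.S0570

open Cfsg.Agent.Helper3

universe u

theorem exists_complSystem (G : Type u) [Group G] [Finite G] [Group.IsSolvable G] :
    ∃ K : Nat.Primes → Subgroup G, Cfsg.IsComplementSystem K := by
  have h : ∀ p : Nat.Primes, ∃ H : Subgroup G,
      H.index = (p : ℕ) ^ (Nat.card G).factorization p := by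
    intro p
    have hn : Nat.card G ≠ 0 := Nat.card_pos.ne'
    have hsplit : Nat.card G = (Nat.card G / (p : ℕ) ^ (Nat.card G).factorization p)
        * (p : ℕ) ^ (Nat.card G).factorization p :=
      (Nat.div_mul_cancel (Nat.ordProj_dvd _ _)).symm
    have hcop : (Nat.card G / (p : ℕ) ^ (Nat.card G).factorization p).Coprime
        ((p : ℕ) ^ (Nat.card G).factorization p) :=
      Nat.Coprime.pow_right _ (Nat.coprime_ordCompl p.2 hn).symm
    obtain ⟨H, hH⟩ := Cfsg.Agent.S0003.result _ _ hsplit hcop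
    refine ⟨H, ?_⟩
    have := Subgroup.card_mul_index H
    have hpos : 0 < Nat.card H := Nat.card_pos
    rw [hH] at this hpos
    exact Nat.eq_of_mul_eq_mul_left hpos (this.trans hsplit)
  choose K hK using h
  exact ⟨K, hK⟩

theorem systemNormalizer_conj {G : Type u} [Group G] (K : Nat.Primes → Subgroup G) (g : G) :
    Cfsg.systemNormalizer (fun p => MulAut.conj g • K p)
      = MulAut.conj g • Cfsg.systemNormalizer K := by
  ext x
  rw [Subgroup.mem_pointwise_smul_iff_inv_smul_mem]
  simp only [Cfsg.systemNormalizer, Subgroup.mem_iInf]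
  refine forall_congr' fun p => ?_
  rw [normalizer_conj_smul, Subgroup.mem_pointwise_smul_iff_inv_smul_mem]

theorem comm_le_of_chief {G : Type u} [Group G] (F A M : Subgroup G) [F.Normal] [hAn : A.Normal]
    [M.Normal] (hF : Group.IsNilpotent F) (hAM : A < M) (hMF : M ≤ F)
    (hchief : ∀ N : Subgroup G, N.Normal → A ≤ N → N ≤ M → N = A ∨ N = M) : ⁅M, F⁆ ≤ A := by
  by_contra hcon
  have hsup : ⁅M, F⁆ ⊔ A = M := by
    rcases hchief (⁅M, F⁆ ⊔ A) inferInstance le_sup_right
      (sup_le (Subgroup.commutator_le_left M F) hAM.le) with h | h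
    · exact absurd (sup_eq_right.mp h) hcon
    · exact h
  obtain ⟨n, hn⟩ := (Subgroup.isNilpotent_iff_lowerCentralSeries F).mp hF
  have key : ∀ k : ℕ, ∃ T : Subgroup G, T ≤ F.lowerCentralSeries k ∧ M ≤ T ⊔ A := by
    intro k
    induction k with
    | zero => exact ⟨M, hMF, le_sup_left⟩
    | succ k ih =>
      obtain ⟨T, hT, hMT⟩ := ih
      refine ⟨⁅T, F⁆, Subgroup.commutator_mono hT le_rfl, ?_⟩
      calc M = ⁅M, F⁆ ⊔ A := hsup.symm
        _ ≤ ⁅T ⊔ A, F⁆ ⊔ A := sup_le_sup_right (Subgroup.commutator_mono hMT le_rfl) A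
        _ ≤ ⁅T, F⁆ ⊔ A := by
            apply sup_le _ le_sup_right
            rw [Subgroup.commutator_le]
            intro x hx f hf
            have hx' : x ∈ ((T ⊔ A : Subgroup G) : Set G) := hx
            rw [Subgroup.mul_normal] at hx'
            obtain ⟨t, ht, a, ha, rfl⟩ := Set.mem_mul.mp hx'
            have e : ⁅t * a, f⁆ = (t * (a * (f * a⁻¹ * f⁻¹)) * t⁻¹) * ⁅t, f⁆ := by
              simp only [commutatorElement_def]; group
            rw [e]
            exact Subgroup.mul_mem _
              (Subgroup.mem_sup_right (hAn.conj_mem _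
                (A.mul_mem ha (hAn.conj_mem _ (A.inv_mem ha) f)) t))
              (Subgroup.mem_sup_left (Subgroup.commutator_mem_commutator ht hf))
  obtain ⟨T, hT, hMT⟩ := key n
  rw [hn, le_bot_iff] at hT
  rw [hT, bot_sup_eq] at hMT
  exact (not_le_of_gt hAM) hMT

theorem sysnorm_sup_eq_top {G : Type u} [Group G] [Finite G] [Group.IsSolvable G]
    (K : Nat.Primes → Subgroup G) (hK : Cfsg.IsComplementSystem K) (F : Subgroup G) [F.Normal]
    (hGF : Group.IsNilpotent (G ⧸ F)) : Cfsg.systemNormalizer K ⊔ F = ⊤ := by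
  haveI := hGF
  have h1 := systemNormalizer_map K hK F
  have hcs := complSystem_map K hK F
  have h2 : Cfsg.systemNormalizer (fun p => (K p).map (QuotientGroup.mk' F)) = ⊤ := by
    refine eq_top_iff.mpr fun y _ => Subgroup.mem_iInf.mpr fun p => ?_
    haveI : ((K p).map (QuotientGroup.mk' F)).Normal := by
      apply hall_normal_of_nilpotent
      have hi := hcs p
      have hc := compl_card_coprime _ hcs p
      show (Nat.card ((K p).map (QuotientGroup.mk' F))).Coprime
        ((K p).map (QuotientGroup.mk' F)).index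
      rw [hi]; exact Nat.Coprime.pow_right _ hc
    rw [Subgroup.normalizer_eq_top]; trivial
  rw [h2] at h1
  have := congrArg (Subgroup.comap (QuotientGroup.mk' F)) h1
  rw [Subgroup.comap_top, Subgroup.comap_map_eq, QuotientGroup.ker_mk'] at this
  exact this.symm

theorem card_lt_of_lt {G : Type u} [Group G] [Finite G] {A M : Subgroup G} (h : A < M) :
    Nat.card A < Nat.card M :=
  lt_of_le_of_ne (Subgroup.card_le_of_le h.le)
    (fun e => h.ne (Subgroup.eq_of_le_of_card_ge h.le e.ge))

theorem normalizer_inf_le_aux {G : Type u} [Group G] [Finite G] [Group.IsSolvable G]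
    (K : Nat.Primes → Subgroup G) (hK : Cfsg.IsComplementSystem K)
    (F : Subgroup G) [F.Normal] (hF : Group.IsNilpotent F)
    (hDF : Cfsg.systemNormalizer K ⊔ F = ⊤) :
    ∀ (n : ℕ) (M : Subgroup G), M.Normal → M ≤ F → Nat.card M = n →
      Subgroup.normalizer ((Cfsg.systemNormalizer K : Subgroup G) : Set G) ⊓ M
        ≤ Cfsg.systemNormalizer K := by
  intro n
  induction n using Nat.strong_induction_on with
  | _ n ih =>
  intro M hMn hMF hcard
  haveI := hMn
  by_cases hMbot : M = ⊥
  · rw [hMbot, inf_bot_eq]; exact bot_le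
  obtain ⟨A, -, hAmax⟩ := exists_maximal_ge_of_wellFoundedGT
    (fun A : Subgroup G => A.Normal ∧ A < M) ⊥ ⟨inferInstance, bot_lt_iff_ne_bot.mpr hMbot⟩
  obtain ⟨hAn, hAM⟩ := hAmax.prop
  haveI := hAn
  have hchief : ∀ N : Subgroup G, N.Normal → A ≤ N → N ≤ M → N = A ∨ N = M := by
    intro N hN hAN hNM
    by_cases h : N = M
    · exact Or.inr h
    · exact Or.inl (le_antisymm (hAmax.le_of_ge ⟨hN, lt_of_le_of_ne hNM h⟩ hAN) hAN)
  obtain ⟨hcov, havoid⟩ := Cfsg.Agent.S0568.result K hK A M hAM hchief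
  have hAcard : Nat.card A < n := by rw [← hcard]; exact card_lt_of_lt hAM
  have ihA := ih _ hAcard A hAn (hAM.le.trans hMF) rfl
  intro x hx
  obtain ⟨hxN, hxM⟩ := Subgroup.mem_inf.mp hx
  by_cases hc : ⁅M, (⊤ : Subgroup G)⁆ ≤ A
  · have h1 : x ∈ ((A ⊔ Cfsg.systemNormalizer K : Subgroup G) : Set G) := hcov hc hxM
    rw [Subgroup.normal_mul] at h1
    obtain ⟨a, ha, d, hd, rfl⟩ := Set.mem_mul.mp h1
    have haN : a ∈ Subgroup.normalizer ((Cfsg.systemNormalizer K : Subgroup G) : Set G) := by
      have : a = (a * d) * d⁻¹ := by group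
      rw [this]
      exact Subgroup.mul_mem _ hxN (Subgroup.inv_mem _ (Subgroup.le_normalizer hd))
    exact Subgroup.mul_mem _ (ihA (Subgroup.mem_inf.mpr ⟨haN, ha⟩)) hd
  · have hav := havoid hc
    suffices hxA : x ∈ A from ihA (Subgroup.mem_inf.mpr ⟨hxN, hxA⟩)
    have hMFA : ⁅M, F⁆ ≤ A := comm_le_of_chief F A M hF hAM hMF hchief
    have hAZ : A ≤ M ⊓ (Subgroup.center (G ⧸ A)).comap (QuotientGroup.mk' A) := by
      refine le_inf hAM.le (fun a ha => ?_)
      show QuotientGroup.mk' A a ∈ Subgroup.center (G ⧸ A)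
      have h1 : QuotientGroup.mk' A a = 1 := (QuotientGroup.eq_one_iff a).mpr ha
      rw [h1]; exact Subgroup.one_mem _
    rcases hchief (M ⊓ (Subgroup.center (G ⧸ A)).comap (QuotientGroup.mk' A)) inferInstance
      hAZ inf_le_left with hZ | hZ
    · rw [← hZ]
      refine Subgroup.mem_inf.mpr ⟨hxM, ?_⟩
      show QuotientGroup.mk' A x ∈ Subgroup.center (G ⧸ A)
      rw [Subgroup.mem_center_iff]
      intro z
      obtain ⟨g, rfl⟩ := QuotientGroup.mk'_surjective A z
      have hg : g ∈ ((Cfsg.systemNormalizer K ⊔ F : Subgroup G) : Set G) := by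
        rw [hDF]; trivial
      rw [Subgroup.mul_normal] at hg
      obtain ⟨d, hd, f, hf, rfl⟩ := Set.mem_mul.mp hg
      have h1 : ⁅x, d⁆ ∈ A := by
        apply hav
        refine Subgroup.mem_inf.mpr ⟨?_, ?_⟩
        · rw [commutatorElement_def]
          have : x * d * x⁻¹ * d⁻¹ = x * (d * x⁻¹ * d⁻¹) := by group
          rw [this]; exact M.mul_mem hxM (hMn.conj_mem _ (M.inv_mem hxM) d)
        · rw [commutatorElement_def]
          exact Subgroup.mul_mem _ ((Subgroup.mem_normalizer_iff.mp hxN d).mp hd)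
            (Subgroup.inv_mem _ hd)
      have h2 : ⁅x, f⁆ ∈ A := hMFA (Subgroup.commutator_mem_commutator hxM hf)
      have c1 : QuotientGroup.mk' A x * QuotientGroup.mk' A d
          = QuotientGroup.mk' A d * QuotientGroup.mk' A x := by
        rw [← commutatorElement_eq_one_iff_mul_comm, ← map_commutatorElement]
        exact (QuotientGroup.eq_one_iff _).mpr h1
      have c2 : QuotientGroup.mk' A x * QuotientGroup.mk' A f
          = QuotientGroup.mk' A f * QuotientGroup.mk' A x := by
        rw [← commutatorElement_eq_one_iff_mul_comm, ← map_commutatorElement]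
        exact (QuotientGroup.eq_one_iff _).mpr h2
      rw [map_mul, mul_assoc, ← c2, ← mul_assoc, ← c1, mul_assoc]
    · exfalso
      apply hc
      rw [Cfsg.Agent.S0568.central_iff, Subgroup.map_le_iff_le_comap]
      exact inf_eq_left.mp hZ

theorem solvable_of_nilp2 {G : Type u} [Group G] (F : Subgroup G) [F.Normal]
    (hF : Group.IsNilpotent F) (hGF : Group.IsNilpotent (G ⧸ F)) : Group.IsSolvable G := by
  haveI := hF
  haveI := hGF
  exact Group.isSolvable_of_ker_le_range F.subtype (QuotientGroup.mk' F)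
    (by rw [QuotientGroup.ker_mk', Subgroup.range_subtype])

theorem carter_of_sysnorm {G : Type u} [Group G] [Finite G] [Group.IsSolvable G]
    (F : Subgroup G) [F.Normal]
    (hF : Group.IsNilpotent F) (hGF : Group.IsNilpotent (G ⧸ F))
    (K : Nat.Primes → Subgroup G) (hK : Cfsg.IsComplementSystem K) :
    Cfsg.IsCarterSubgroup (Cfsg.systemNormalizer K) := by
  refine ⟨Cfsg.Agent.S0544.result K hK, le_antisymm ?_ Subgroup.le_normalizer⟩
  have hDF := sysnorm_sup_eq_top K hK F hGF
  intro x hx
  have hx' : x ∈ ((Cfsg.systemNormalizer K ⊔ F : Subgroup G) : Set G) := by rw [hDF]; trivial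
  rw [Subgroup.mul_normal] at hx'
  obtain ⟨d, hd, f, hf, rfl⟩ := Set.mem_mul.mp hx'
  have hfN : f ∈ Subgroup.normalizer ((Cfsg.systemNormalizer K : Subgroup G) : Set G) := by
    have : f = d⁻¹ * (d * f) := by group
    rw [this]
    exact Subgroup.mul_mem _ (Subgroup.inv_mem _ (Subgroup.le_normalizer hd)) hx
  exact Subgroup.mul_mem _ hd (normalizer_inf_le_aux K hK F hF hDF _ F inferInstance le_rfl rfl
    (Subgroup.mem_inf.mpr ⟨hfN, hf⟩))

/-- Let G be a finite group with a nilpotent normal subgroup F such that G modulo F is nilpotent (nilpotent length at most two). Then a subgroup of G is a Carter subgroup if and only if it is the system normalizer of some Hall complement system. -/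
theorem result {G : Type*} [Group G] [Finite G] (F : Subgroup G) [F.Normal] (hF : Group.IsNilpotent F) (hGF : Group.IsNilpotent (G ⧸ F)) (C : Subgroup G) : Cfsg.IsCarterSubgroup C ↔ ∃ K : Nat.Primes → Subgroup G, Cfsg.IsComplementSystem K ∧ C = Cfsg.systemNormalizer K := by
  haveI : Group.IsSolvable G := solvable_of_nilp2 F hF hGF
  constructor
  · intro hC
    obtain ⟨K, hK⟩ := exists_complSystem G
    have hD := carter_of_sysnorm F hF hGF K hK
    obtain ⟨g, hg⟩ := carter_conj _ C hD hC
    refine ⟨fun p => MulAut.conj g • K p, complSystem_conj K hK g, ?_⟩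
    rw [← hg]; exact (systemNormalizer_conj K g).symm
  · rintro ⟨K, hK, rfl⟩
    exact carter_of_sysnorm F hF hGF K hK

end Cfsg.Agent.S0570
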