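import Cfsg.Statements.S0569
import Cfsg.Agent.Helper3.Carter2
import Cfsg.Agent.S0570

set_option autoImplicit false
open Cfsg
open scoped Pointwise

namespace Cfsg.Agent.S0569

open Cfsg.Agent.Helper3 Cfsg.Agent.S0570

universe u

theorem modular_normal {G : Type u} [Group G] (A H N : Subgroup G) [N.Normal] (hNH : N ≤ H) :
    (A ⊓ H) ⊔ N = (A ⊔ N) ⊓ H := by
  apply le_antisymm
  · exact sup_le (inf_le_inf_right H le_sup_left) (le_inf le_sup_right hNH)
  · intro y hy
    obtain ⟨hy1, hy2⟩ := Subgroup.mem_inf.mp hy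
    have hy1' : y ∈ ((A ⊔ N : Subgroup G) : Set G) := hy1
    rw [Subgroup.mul_normal] at hy1'
    obtain ⟨a, ha, n, hn, rfl⟩ := Set.mem_mul.mp hy1'
    have haH : a ∈ H := by
      have : a = (a * n) * n⁻¹ := by group
      rw [this]; exact H.mul_mem hy2 (H.inv_mem (hNH hn))
    exact Subgroup.mul_mem _ (Subgroup.mem_sup_left (Subgroup.mem_inf.mpr ⟨ha, haH⟩))
      (Subgroup.mem_sup_right hn)

theorem conj_smul_subgroupOf {G : Type u} [Group G] (H : Subgroup G) (h : ↥H) (A : Subgroup G) :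
    MulAut.conj h • A.subgroupOf H = (MulAut.conj (h : G) • A).subgroupOf H := by
  ext y
  rw [Subgroup.mem_pointwise_smul_iff_inv_smul_mem, Subgroup.mem_subgroupOf,
    Subgroup.mem_subgroupOf, Subgroup.mem_pointwise_smul_iff_inv_smul_mem]
  simp [MulAut.smul_def, ← map_inv, MulAut.conj_apply]

theorem mem_normalizer_subgroupOf {G : Type u} [Group G] (A H : Subgroup G) (x : ↥H)
    (hx : (x : G) ∈ Subgroup.normalizer (A : Set G)) :
    x ∈ Subgroup.normalizer ((A.subgroupOf H : Subgroup ↥H) : Set ↥H) := by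
  rw [Subgroup.mem_normalizer_iff] at hx ⊢
  intro y
  rw [Subgroup.mem_subgroupOf, Subgroup.mem_subgroupOf]
  exact hx (y : G)

theorem card_subgroupOf_dvd {G : Type u} [Group G] [Finite G] (A H : Subgroup G) :
    Nat.card (A.subgroupOf H) ∣ Nat.card A := by
  rw [← Subgroup.inf_subgroupOf_right,
    Nat.card_congr (Subgroup.subgroupOfEquivOfLe (inf_le_right : A ⊓ H ≤ H)).toEquiv]
  exact Subgroup.card_dvd_of_le inf_le_left

theorem sysnorm_in_carter_aux : ∀ (n : ℕ) (G : Type u) [Group G] [Finite G] [Group.IsSolvable G],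
    Nat.card G = n → ∀ C : Subgroup G, Cfsg.IsCarterSubgroup C →
    ∃ K : Nat.Primes → Subgroup G, Cfsg.IsComplementSystem K ∧ Cfsg.systemNormalizer K ≤ C ∧
      ∀ p : Nat.Primes, ∃ j, (K p).relIndex C = (p : ℕ) ^ j := by
  intro n
  induction n using Nat.strong_induction_on with
  | _ n ih =>
  intro G _ _ _ hn C hC
  by_cases hCtop : C = ⊤
  · obtain ⟨K, hK⟩ := exists_complSystem G
    refine ⟨K, hK, by rw [hCtop]; exact le_top, fun p => ⟨(Nat.card G).factorization p, ?_⟩⟩
    rw [hCtop, Subgroup.relIndex_top_right]; exact hK p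
  by_cases hcase : ∃ N : Subgroup G, N.Normal ∧ N ≠ ⊥ ∧ C ⊔ N ≠ ⊤
  · obtain ⟨N, hNn, hNne, hCN⟩ := hcase
    haveI := hNn
    have hlt : Nat.card (G ⧸ N) < n := by rw [← hn]; exact card_quot_lt_of_ne_bot N hNne
    obtain ⟨Kb, hKb, hDb, hredb⟩ := ih _ hlt (G ⧸ N) rfl _ (carter_map N C hC)
    obtain ⟨K, hK, hKmap⟩ : ∃ K : Nat.Primes → Subgroup G, Cfsg.IsComplementSystem K ∧
        ∀ p, (K p).map (QuotientGroup.mk' N) = Kb p := by
      obtain ⟨K0, hK0⟩ := exists_complSystem G
      obtain ⟨gb, hgb⟩ := Cfsg.Agent.S0543.result _ Kb (complSystem_map K0 hK0 N) hKb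
      obtain ⟨g, rfl⟩ := QuotientGroup.mk'_surjective N gb
      exact ⟨_, complSystem_conj K0 hK0 g, fun p => by rw [map_conj_smul]; exact hgb p⟩
    have hfun : (fun p => (K p).map (QuotientGroup.mk' N)) = Kb := funext hKmap
    have hDH : Cfsg.systemNormalizer K ≤ C ⊔ N := by
      have h1 := systemNormalizer_map K hK N
      rw [hfun] at h1
      have h2 : (Cfsg.systemNormalizer K).map (QuotientGroup.mk' N)
          ≤ C.map (QuotientGroup.mk' N) := by rw [← h1]; exact hDb
      rw [Subgroup.map_le_iff_le_comap, Subgroup.comap_map_eq, QuotientGroup.ker_mk'] at h2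
      exact h2
    have hredH : ∀ p : Nat.Primes, ∃ j, (K p).relIndex (C ⊔ N) = (p : ℕ) ^ j := by
      intro p
      obtain ⟨j, hj⟩ := hredb p
      rw [← hKmap p, Subgroup.relIndex_map_map, QuotientGroup.ker_mk'] at hj
      have e1 : (K p).relIndex (C ⊔ N) = (K p ⊓ (C ⊔ N)).relIndex (C ⊔ N) :=
        (Subgroup.inf_relIndex_right _ _).symm
      have e2 : (K p ⊓ (C ⊔ N)).relIndex ((K p ⊓ (C ⊔ N)) ⊔ N)
          * ((K p ⊓ (C ⊔ N)) ⊔ N).relIndex (C ⊔ N) = (K p ⊓ (C ⊔ N)).relIndex (C ⊔ N) :=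
        Subgroup.relIndex_mul_relIndex _ _ _ le_sup_left (sup_le inf_le_right le_sup_right)
      have e3 : (K p ⊓ (C ⊔ N)) ⊔ N = (K p ⊔ N) ⊓ (C ⊔ N) :=
        modular_normal (K p) (C ⊔ N) N le_sup_right
      have e4 : ((K p ⊔ N) ⊓ (C ⊔ N)).relIndex (C ⊔ N) = (K p ⊔ N).relIndex (C ⊔ N) :=
        Subgroup.inf_relIndex_right _ _
      have e5 : (K p ⊓ (C ⊔ N)).relIndex ((K p ⊓ (C ⊔ N)) ⊔ N)
          = (K p ⊓ (C ⊔ N)).relIndex N := relIndex_sup_normal _ N
      have e6 : (K p ⊓ (C ⊔ N)).relIndex N ∣ (p : ℕ) ^ (Nat.card G).factorization p := by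
        have : (K p ⊓ (C ⊔ N)).relIndex N = (K p).relIndex N := by
          rw [← Subgroup.inf_relIndex_right, inf_assoc,
            inf_of_le_right (le_sup_right : N ≤ C ⊔ N), Subgroup.inf_relIndex_right]
        rw [this, ← hK p]; exact relIndex_dvd_index_normal (K p) N
      obtain ⟨i, -, hi⟩ := (Nat.dvd_prime_pow p.2).1 e6
      refine ⟨i + j, ?_⟩
      rw [e1, ← e2, e5, hi, e3, e4, hj, pow_add]
    have hKH : Cfsg.IsComplementSystem (fun p => (K p).subgroupOf (C ⊔ N)) := by
      intro p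
      obtain ⟨j, hj⟩ := hredH p
      show ((K p).subgroupOf (C ⊔ N)).index = _
      apply index_eq_of_pow_of_coprime _ (p : ℕ) p.2 j hj
      exact Nat.Coprime.coprime_dvd_left (card_subgroupOf_dvd (K p) (C ⊔ N))
        (compl_card_coprime K hK p)
    have hltH : Nat.card ↥(C ⊔ N) < n := by rw [← hn]; exact card_lt_of_ne_top _ hCN
    obtain ⟨K', hK', hD', hred'⟩ := ih _ hltH ↥(C ⊔ N) rfl _
      (carter_subgroupOf C (C ⊔ N) le_sup_left hC)
    obtain ⟨h, hh⟩ := Cfsg.Agent.S0543.result _ K' hKH hK'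
    refine ⟨fun p => MulAut.conj (h : G) • K p, complSystem_conj K hK h, ?_, ?_⟩
    · intro x hx
      have hx0 := hx
      rw [systemNormalizer_conj] at hx
      have hxH : x ∈ C ⊔ N := by
        have : MulAut.conj (h : G) • Cfsg.systemNormalizer K
            ≤ MulAut.conj (h : G) • (C ⊔ N) :=
          Subgroup.pointwise_smul_le_pointwise_smul_iff.mpr hDH
        rw [Subgroup.conj_smul_eq_self_of_mem h.2] at this
        exact this hx
      have hxD' : (⟨x, hxH⟩ : ↥(C ⊔ N)) ∈ Cfsg.systemNormalizer K' := by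
        refine Subgroup.mem_iInf.mpr fun p => ?_
        rw [← hh p]
        show (⟨x, hxH⟩ : ↥(C ⊔ N)) ∈ Subgroup.normalizer
          ((MulAut.conj h • (K p).subgroupOf (C ⊔ N) : Subgroup ↥(C ⊔ N)) : Set ↥(C ⊔ N))
        rw [conj_smul_subgroupOf]
        exact mem_normalizer_subgroupOf _ _ _ ((Subgroup.mem_iInf.mp hx0) p)
      exact Subgroup.mem_subgroupOf.mp (hD' hxD')
    · intro p
      obtain ⟨j, hj⟩ := hred' p
      refine ⟨j, ?_⟩
      rw [← hj, ← hh p]
      show (MulAut.conj (h : G) • K p : Subgroup G).relIndex C =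
        (MulAut.conj h • (K p).subgroupOf (C ⊔ N) : Subgroup ↥(C ⊔ N)).relIndex
          (C.subgroupOf (C ⊔ N))
      rw [conj_smul_subgroupOf, Subgroup.relIndex_subgroupOf le_sup_left]
  · have hall : ∀ N : Subgroup G, N.Normal → N ≠ ⊥ → C ⊔ N = ⊤ := by
      intro N hNn hNne
      by_contra h
      exact hcase ⟨N, hNn, hNne, h⟩
    haveI : Nontrivial G := by
      by_contra hnt
      rw [not_nontrivial_iff_subsingleton] at hnt
      exact hCtop (Subsingleton.elim _ _)
    obtain ⟨N, hNn, hNne, hNmin⟩ := Cfsg.Agent.Helper1.exists_minimal_normal (G := G)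
    haveI := hNn
    obtain ⟨hNcomm, p, hp, hexp⟩ := Cfsg.Agent.S0043.result N hNne hNmin
    haveI : Fact p.Prime := ⟨hp⟩
    have hNp : IsPGroup p N := isPGroup_of_exp N p hexp
    obtain ⟨k, hk⟩ := IsPGroup.iff_card.mp hNp
    have hCN : C ⊔ N = ⊤ := hall N hNn hNne
    have hNC : ¬ N ≤ C := fun h => hCtop (by rw [← hCN]; exact (sup_eq_left.mpr h).symm)
    have hcommN := comm_of_isMulCommutative N hNcomm
    have hCNbot : C ⊓ N = ⊥ := carter_compl N C hcommN hNmin hCN hNC
    have hcardG : Nat.card C * Nat.card N = Nat.card G := by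
      have := card_mul_card_eq_of_le_normalizer C N
        (by rw [Subgroup.normalizer_eq_top]; exact le_top)
      rw [hCN, hCNbot, Subgroup.card_bot, mul_one, Subgroup.card_top] at this
      exact this
    have hex : ∀ q : Nat.Primes, ∃ Kq : Subgroup G,
        Kq.index = (q : ℕ) ^ (Nat.card G).factorization q ∧
        ∃ j, Kq.relIndex C = (q : ℕ) ^ j := by
      intro q
      have hCne : Nat.card C ≠ 0 := Nat.card_pos.ne'
      have hCsplit : Nat.card C = (Nat.card C / (q : ℕ) ^ (Nat.card C).factorization q)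
          * (q : ℕ) ^ (Nat.card C).factorization q :=
        (Nat.div_mul_cancel (Nat.ordProj_dvd _ _)).symm
      obtain ⟨X, hXC, hXcard, -⟩ := exists_normal_hall_of_nilpotent C hC.1 _ _ hCsplit
        (Nat.Coprime.pow_right _ (Nat.coprime_ordCompl q.2 hCne).symm)
      have hGne : Nat.card G ≠ 0 := Nat.card_pos.ne'
      have hsplit : Nat.card G = (Nat.card G / (q : ℕ) ^ (Nat.card G).factorization q)
          * (q : ℕ) ^ (Nat.card G).factorization q :=
        (Nat.div_mul_cancel (Nat.ordProj_dvd _ _)).symm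
      have hcop : (Nat.card G / (q : ℕ) ^ (Nat.card G).factorization q).Coprime
          ((q : ℕ) ^ (Nat.card G).factorization q) :=
        Nat.Coprime.pow_right _ (Nat.coprime_ordCompl q.2 hGne).symm
      obtain ⟨⟨H0, hH0⟩, hsub⟩ := Cfsg.Agent.Helper1.hall_aux _ G rfl _ _ hsplit hcop
      obtain ⟨g, hg⟩ := hsub H0 X hH0 (by
        rw [hXcard]; exact Nat.Coprime.pow_right _ (Nat.coprime_ordCompl q.2 hCne).symm)
      refine ⟨MulAut.conj g • H0, ?_, ?_⟩
      · rw [index_conj_smul]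
        have := Subgroup.card_mul_index H0
        have hpos : 0 < Nat.card H0 := Nat.card_pos
        rw [hH0] at this hpos
        exact Nat.eq_of_mul_eq_mul_left hpos (this.trans hsplit)
      · have hXle : X ≤ MulAut.conj g • H0 := by
          intro x hx
          rw [Subgroup.mem_pointwise_smul_iff_inv_smul_mem]
          have := hg x hx
          simpa [MulAut.smul_def, ← map_inv, MulAut.conj_apply] using this
        have h1 : (MulAut.conj g • H0 : Subgroup G).relIndex C ∣ X.relIndex C :=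
          Subgroup.relIndex_dvd_of_le_left C hXle
        have h2 : X.relIndex C = (q : ℕ) ^ (Nat.card C).factorization q := by
          have := Subgroup.card_mul_index (X.subgroupOf C)
          rw [Nat.card_congr (Subgroup.subgroupOfEquivOfLe hXC).toEquiv] at this
          have hpos : 0 < Nat.card X := Nat.card_pos
          rw [hXcard] at this hpos
          exact Nat.eq_of_mul_eq_mul_left hpos (this.trans hCsplit)
        rw [h2] at h1
        obtain ⟨j, -, hj⟩ := (Nat.dvd_prime_pow q.2).1 h1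
        exact ⟨j, hj⟩
    choose K hK hKred using hex
    refine ⟨K, hK, ?_, hKred⟩
    have hKppC : K ⟨p, hp⟩ ≤ C := by
      obtain ⟨j, hj⟩ := hKred ⟨p, hp⟩
      have e1 : Nat.card ↥(K ⟨p, hp⟩ ⊓ C) * (p ^ j) = Nat.card C := by
        have := Subgroup.card_mul_index ((K ⟨p, hp⟩ ⊓ C).subgroupOf C)
        rw [Nat.card_congr (Subgroup.subgroupOfEquivOfLe inf_le_right).toEquiv] at this
        have h' : ((K ⟨p, hp⟩ ⊓ C).subgroupOf C).index = (K ⟨p, hp⟩).relIndex C :=
          Subgroup.inf_relIndex_right _ _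
        rw [h', hj] at this; exact this
      have e2 : Nat.card (K ⟨p, hp⟩) * p ^ (Nat.card G).factorization p = Nat.card G := by
        have := Subgroup.card_mul_index (K ⟨p, hp⟩)
        rw [hK ⟨p, hp⟩] at this; exact this
      have e3 : Nat.card ↥(K ⟨p, hp⟩ ⊓ C) * p ^ (j + k)
          = Nat.card (K ⟨p, hp⟩) * p ^ (Nat.card G).factorization p := by
        rw [e2, ← hcardG, ← e1, hk, pow_add]; ring
      have c2 : (Nat.card (K ⟨p, hp⟩)).Coprime p := compl_card_coprime K hK ⟨p, hp⟩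
      have hle : Nat.card (K ⟨p, hp⟩) ∣ Nat.card ↥(K ⟨p, hp⟩ ⊓ C) := by
        have : Nat.card (K ⟨p, hp⟩) ∣ Nat.card ↥(K ⟨p, hp⟩ ⊓ C) * p ^ (j + k) :=
          Dvd.intro _ e3.symm
        exact (Nat.Coprime.dvd_mul_right (Nat.Coprime.pow_right _ c2)).mp this
      have : K ⟨p, hp⟩ ⊓ C = K ⟨p, hp⟩ :=
        Subgroup.eq_of_le_of_card_ge inf_le_left (Nat.le_of_dvd Nat.card_pos hle)
      exact inf_eq_left.mp this
    have hNnc : ¬ N ≤ Subgroup.center G := by
      intro hNZ
      apply hCtop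
      rw [← hC.2, eq_top_iff, ← hCN]
      exact sup_le Subgroup.le_normalizer (hNZ.trans (Subgroup.center_le_normalizer _))
    have havoid := avoid_minNormal K hK N hNne hNmin hNnc
    intro x hx
    have hxT : x ∈ ((N ⊔ C : Subgroup G) : Set G) := by rw [sup_comm, hCN]; trivial
    rw [Subgroup.normal_mul] at hxT
    obtain ⟨l, hl, m, hm, rfl⟩ := Set.mem_mul.mp hxT
    have hxpp : l * m ∈ Subgroup.normalizer ((K ⟨p, hp⟩ : Subgroup G) : Set G) :=
      (Subgroup.mem_iInf.mp hx) ⟨p, hp⟩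
    have hmpp : m ∈ Subgroup.normalizer ((K ⟨p, hp⟩ : Subgroup G) : Set G) := by
      apply Cfsg.Agent.S0540.mem_normalizer_of_smul_le
      intro z hz
      obtain ⟨y, hy, rfl⟩ := (Subgroup.mem_smul_pointwise_iff_exists _ _ _).mp hz
      rw [MulAut.smul_def, MulAut.conj_apply]
      have hy' : (l * m) * y * (l * m)⁻¹ ∈ K ⟨p, hp⟩ :=
        (Subgroup.mem_normalizer_iff.mp hxpp y).mp hy
      have hnN : ((l * m) * y * (l * m)⁻¹)⁻¹ * (m * y * m⁻¹) ∈ N := by
        have : ((l * m) * y * (l * m)⁻¹)⁻¹ * (m * y * m⁻¹)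
            = (((l * m) * y * (l * m)⁻¹)⁻¹ * l⁻¹ * ((l * m) * y * (l * m)⁻¹)⁻¹⁻¹) * l := by
          group
        rw [this]
        exact N.mul_mem (hNn.conj_mem _ (N.inv_mem hl) _) hl
      have hnC : ((l * m) * y * (l * m)⁻¹)⁻¹ * (m * y * m⁻¹) ∈ C :=
        C.mul_mem (C.inv_mem (hKppC hy'))
          (C.mul_mem (C.mul_mem hm (hKppC hy)) (C.inv_mem hm))
      have h1 : ((l * m) * y * (l * m)⁻¹)⁻¹ * (m * y * m⁻¹) ∈ C ⊓ N :=
        Subgroup.mem_inf.mpr ⟨hnC, hnN⟩
      rw [hCNbot, Subgroup.mem_bot] at h1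
      have : m * y * m⁻¹ = (l * m) * y * (l * m)⁻¹ := by
        rw [← mul_right_inj (((l * m) * y * (l * m)⁻¹)⁻¹), h1, inv_mul_cancel]
      rw [this]; exact hy'
    have hlD : l ∈ Cfsg.systemNormalizer K := by
      refine Subgroup.mem_iInf.mpr fun q => ?_
      by_cases hq : q = ⟨p, hp⟩
      · rw [hq]
        have : l = (l * m) * m⁻¹ := by group
        rw [this]; exact Subgroup.mul_mem _ hxpp (Subgroup.inv_mem _ hmpp)
      · have hNK : N ≤ K q := by
          apply normal_le_of_coprime_index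
          rw [hk, hK q]
          apply Nat.Coprime.pow
          rw [Nat.coprime_primes hp q.2]
          intro h
          exact hq (Subtype.ext h.symm)
        exact Subgroup.le_normalizer (hNK hl)
    have hl1 : l = 1 := by
      have : l ∈ N ⊓ Cfsg.systemNormalizer K := Subgroup.mem_inf.mpr ⟨hl, hlD⟩
      rw [havoid, Subgroup.mem_bot] at this; exact this
    rw [hl1, one_mul]; exact hm

/-- In a finite solvable group: each nilpotent self-normalizing subgroup contains the system normalizer of some Hall complement system, and the system normalizer of any Hall complement system lies in some nilpotent self-normalizing subgroup. -/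
theorem result {G : Type*} [Group G] [Finite G] [Group.IsSolvable G] : (∀ C : Subgroup G, Cfsg.IsCarterSubgroup C → ∃ K : Nat.Primes → Subgroup G, Cfsg.IsComplementSystem K ∧ Cfsg.systemNormalizer K ≤ C) ∧ ∀ K : Nat.Primes → Subgroup G, Cfsg.IsComplementSystem K → ∃ C : Subgroup G, Cfsg.IsCarterSubgroup C ∧ Cfsg.systemNormalizer K ≤ C := by
  constructor
  · intro C hC
    obtain ⟨K, hK, hD, -⟩ := sysnorm_in_carter_aux _ G rfl C hC
    exact ⟨K, hK, hD⟩
  · intro K hK
    obtain ⟨C0, hC0⟩ := carter_exists G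
    obtain ⟨K0, hK0, hD0, -⟩ := sysnorm_in_carter_aux _ G rfl C0 hC0
    obtain ⟨g, hg⟩ := Cfsg.Agent.S0543.result K0 K hK0 hK
    refine ⟨MulAut.conj g • C0, isCarter_conj C0 hC0 g, ?_⟩
    have : K = fun p => MulAut.conj g • K0 p := funext fun p => (hg p).symm
    rw [this, systemNormalizer_conj]
    exact Subgroup.pointwise_smul_le_pointwise_smul_iff.mpr hD0

end Cfsg.Agent.S0569
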