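import Mathlib
import Cfsg.Prelude.Def_SolvableStructure
import Cfsg.Agent.Helper3.ItoLemma
import Cfsg.Agent.Helper3.Supersolv
import Cfsg.Agent.Helper3.Supersolv2
set_option autoImplicit false
open Cfsg

namespace Cfsg.Agent.S0571

universe u

open Cfsg.Agent.Helper3

theorem main : ∀ (n : ℕ) (G : Type u) [Group G] [Finite G], Nat.card G = n →
    ∀ (A B : Subgroup G), IsCyclic A → IsCyclic B →
    (∀ g : G, ∃ a ∈ A, ∃ b ∈ B, g = a * b) → Cfsg.IsSupersolvable G := by
  intro n
  induction n using Nat.strong_induction_on with
  | _ n ih =>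
    intro G _ _ hn A B hAc hBc hAB
    rcases subsingleton_or_nontrivial G with hsub | hnt
    · refine ⟨0, fun _ => ⊥, rfl, ?_, fun _ => inferInstance, fun i => i.elim0⟩
      ext x
      simp [Subsingleton.elim x 1]
    · have hA : ∀ x ∈ A, ∀ y ∈ A, x * y = y * x := by
        intro x hx y hy
        letI := IsCyclic.commGroup (α := A)
        have := mul_comm (⟨x, hx⟩ : A) ⟨y, hy⟩
        exact congrArg Subtype.val this
      have hB : ∀ x ∈ B, ∀ y ∈ B, x * y = y * x := by
        intro x hx y hy
        letI := IsCyclic.commGroup (α := B)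
        have := mul_comm (⟨x, hx⟩ : B) ⟨y, hy⟩
        exact congrArg Subtype.val this
      obtain ⟨N, hNn, hN0, hNAB⟩ := ito_normal A B hA hB hAB
      haveI := hNn
      haveI hNc : IsCyclic N := by
        rcases hNAB with h | h
        · haveI : IsCyclic (N.subgroupOf A) := Subgroup.isCyclic _
          exact isCyclic_of_surjective (Subgroup.subgroupOfEquivOfLe h).toMonoidHom
            (Subgroup.subgroupOfEquivOfLe h).surjective
        · haveI : IsCyclic (N.subgroupOf B) := Subgroup.isCyclic _
          exact isCyclic_of_surjective (Subgroup.subgroupOfEquivOfLe h).toMonoidHom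
            (Subgroup.subgroupOfEquivOfLe h).surjective
      apply isSupersolvable_of_cyclic_normal N
      have hlt := card_quotient_lt N hN0
      refine ih _ (hn ▸ hlt) (G ⧸ N) rfl (A.map (QuotientGroup.mk' N))
        (B.map (QuotientGroup.mk' N)) ?_ ?_ ?_
      · exact isCyclic_of_surjective ((QuotientGroup.mk' N).subgroupMap A)
          ((QuotientGroup.mk' N).subgroupMap_surjective A)
      · exact isCyclic_of_surjective ((QuotientGroup.mk' N).subgroupMap B)
          ((QuotientGroup.mk' N).subgroupMap_surjective B)
      · intro g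
        obtain ⟨g, rfl⟩ := QuotientGroup.mk'_surjective N g
        obtain ⟨a, ha, b, hb, rfl⟩ := hAB g
        exact ⟨_, Subgroup.mem_map_of_mem _ ha, _, Subgroup.mem_map_of_mem _ hb, map_mul _ a b⟩

/-- A finite group that is the product of two cyclic subgroups is supersolvable. -/
theorem result {G : Type*} [Group G] [Finite G] (A B : Subgroup G) [IsCyclic A] [IsCyclic B] (hAB : ∀ g : G, ∃ a ∈ A, ∃ b ∈ B, g = a * b) : Cfsg.IsSupersolvable G := by
  exact main _ G rfl A B inferInstance inferInstance hAB

end Cfsg.Agent.S0571
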