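import Cfsg.Statements.S0575
import Mathlib

set_option autoImplicit false
open Cfsg
open scoped Pointwise

namespace Cfsg.Agent.S0575

/-- If H is a normal subgroup of a finite group G, then the Frattini subgroup of H, viewed in G, lies in the Frattini subgroup of G. -/
theorem result {G : Type*} [Group G] [Finite G] (H : Subgroup G) [H.Normal] : (frattini ↥H).map H.subtype ≤ frattini G := by
  have hFn : ((frattini ↥H).map H.subtype).Normal := ConjAct.normal_of_characteristic_of_normal
  have hFH : (frattini ↥H).map H.subtype ≤ H := Subgroup.map_subtype_le _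
  unfold frattini Order.radical
  refine le_iInf₂ (fun M hM => ?_)
  have hM' : IsCoatom M := hM
  by_contra hFM
  have htop : M ⊔ (frattini ↥H).map H.subtype = ⊤ := by
    apply hM'.2
    refine lt_of_le_of_ne le_sup_left ?_
    intro h
    apply hFM
    rw [h]; exact le_sup_right
  have hgen : M.subgroupOf H ⊔ frattini ↥H = ⊤ := by
    rw [eq_top_iff]
    rintro ⟨h, hh⟩ -
    have h1 : h ∈ ((M ⊔ (frattini ↥H).map H.subtype : Subgroup G) : Set G) := by
      rw [htop]; trivial
    rw [Subgroup.mul_normal] at h1
    obtain ⟨m, hm, f, hf, hmf⟩ := Set.mem_mul.mp h1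
    obtain ⟨f', hf', rfl⟩ := hf
    have hmH : m ∈ H := by
      have : m = h * (H.subtype f')⁻¹ := by rw [← hmf]; simp
      rw [this]
      exact mul_mem hh (inv_mem f'.2)
    have : (⟨h, hh⟩ : H) = ⟨m, hmH⟩ * f' := Subtype.ext hmf.symm
    rw [this]
    exact mul_mem (Subgroup.mem_sup_left (Subgroup.mem_subgroupOf.mpr hm)) (Subgroup.mem_sup_right hf')
  have h2 := frattini_nongenerating hgen
  rw [Subgroup.subgroupOf_eq_top] at h2
  exact hFM (hFH.trans h2)

end Cfsg.Agent.S0575
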