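import Cfsg.Statements.S0576
import Mathlib

set_option autoImplicit false
open Cfsg

open scoped Pointwise
namespace Cfsg.Agent.S0576

/-- Let H be a normal subgroup of a finite group G with H contained in the Frattini subgroup of G. Then the group of inner automorphisms of H is contained in the Frattini subgroup of the automorphism group of H. -/
theorem result {G : Type*} [Group G] [Finite G] (H : Subgroup G) [H.Normal] (hH : H ≤ frattini G) : (MulAut.conj : ↥H →* MulAut ↥H).range ≤ frattini (MulAut ↥H) := by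
  classical
  have hInnNormal : ((MulAut.conj : ↥H →* MulAut ↥H).range).Normal := by
    constructor
    intro a ha φ
    obtain ⟨h, rfl⟩ := MonoidHom.mem_range.1 ha
    refine MonoidHom.mem_range.2 ⟨φ h, ?_⟩
    apply MulEquiv.ext
    intro x
    simp [MulAut.conj_apply, MulAut.mul_apply]
  obtain ⟨θ, hθ⟩ : ∃ θ : G →* MulAut ↥H, ∀ h : ↥H, θ (h : G) = MulAut.conj h :=
    ⟨MulAut.conjNormal, fun h => MulAut.conjNormal_val⟩
  unfold frattini Order.radical
  refine le_iInf₂ (fun M hM => ?_)
  have hMc : IsCoatom M := hM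
  by_contra hnot
  have hsup : M ⊔ (MulAut.conj : ↥H →* MulAut ↥H).range = ⊤ := by
    by_contra hne
    have hlt : M < M ⊔ (MulAut.conj : ↥H →* MulAut ↥H).range :=
      lt_of_le_of_ne le_sup_left (fun heq => hnot (le_sup_right.trans heq.ge))
    exact hne (hMc.2 _ hlt)
  have hLH : M.comap θ ⊔ H = ⊤ := by
    rw [eq_top_iff]
    intro g _
    have hg : θ g ∈ M ⊔ (MulAut.conj : ↥H →* MulAut ↥H).range := by
      rw [hsup]; exact Subgroup.mem_top _
    have hg' : θ g ∈ (M : Set (MulAut ↥H)) * (((MulAut.conj : ↥H →* MulAut ↥H).range : Subgroup (MulAut ↥H)) : Set (MulAut ↥H)) := by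
      rw [← Subgroup.mul_normal]; exact hg
    obtain ⟨m, hm, i, hi, hmi⟩ := Set.mem_mul.1 hg'
    have hi' : i ∈ (MulAut.conj : ↥H →* MulAut ↥H).range := hi
    obtain ⟨h, rfl⟩ := MonoidHom.mem_range.1 hi'
    have h1 : g * (h : G)⁻¹ ∈ M.comap θ := by
      rw [Subgroup.mem_comap, map_mul, map_inv, hθ, ← hmi, mul_inv_cancel_right]
      exact hm
    have h2 : g = (g * (h : G)⁻¹) * (h : G) := by group
    rw [h2]
    exact Subgroup.mul_mem _ (Subgroup.mem_sup_left h1) (Subgroup.mem_sup_right h.2)
  have hL : M.comap θ = ⊤ := by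
    apply frattini_nongenerating
    rw [eq_top_iff, ← hLH]
    exact sup_le_sup_left hH _
  apply hnot
  intro a ha
  obtain ⟨h, rfl⟩ := MonoidHom.mem_range.1 ha
  have h3 : (h : G) ∈ M.comap θ := by rw [hL]; exact Subgroup.mem_top _
  rw [Subgroup.mem_comap, hθ] at h3
  exact h3

end Cfsg.Agent.S0576
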