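import Cfsg.Statements.S0577
import Mathlib
import Cfsg.Agent.Helper8.Schmidt3

set_option autoImplicit false
open Cfsg
open scoped commutatorElement

namespace Cfsg.Agent.S0577

open Cfsg.Agent.Helper8

/-- Let G be a finite minimal non-nilpotent group and Q a normal Sylow q-subgroup of G, and let D be the commutator subgroup of Q regarded in G (a normal subgroup). Then G modulo D is non-abelian and all its proper subgroups are abelian. -/
theorem result {G : Type*} [Group G] [Finite G] (hG : Cfsg.IsMinimalNonNilpotent G) (q : ℕ) [Fact q.Prime] (hq : q ∣ Nat.card G) (Q : Sylow q G) (hQ : (Q : Subgroup G).Normal) (D : Subgroup G) [D.Normal] (hD : D = (commutator ↥(Q : Subgroup G)).map (Q : Subgroup G).subtype) : ¬ IsMulCommutative (G ⧸ D) ∧ ∀ K : Subgroup (G ⧸ D), K ≠ ⊤ → IsMulCommutative K := by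
  classical
  obtain ⟨p₀, q₀, hp₀, hq₀, hpq, P₀, Q₀, hc, hQ₀n, hsup, hPn, hPG'⟩ := schmidt hG.1 hG.2
  have hqprime : q.Prime := Fact.out
  haveI : Fact p₀.Prime := ⟨hp₀⟩
  haveI : Fact q₀.Prime := ⟨hq₀⟩
  have hqp : q ≠ p₀ := by
    intro hqp
    subst hqp
    have := Sylow.unique_of_normal Q hQ
    have hPQ : P₀ = Q := Subsingleton.elim P₀ Q
    rw [hPQ] at hPn
    exact hPn hQ
  have hqq : q = q₀ := by
    obtain ⟨y, hy⟩ := exists_prime_orderOf_dvd_card' q hq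
    have hytop : y ∈ (P₀ : Subgroup G) ⊔ (Q₀ : Subgroup G) := hsup ▸ Subgroup.mem_top y
    obtain ⟨a, ha, b, hb, hab⟩ := Subgroup.mem_sup_of_normal_right.mp hytop
    obtain ⟨j, hj⟩ := pelem_of_mem P₀.isPGroup' ha
    have hb1 : (QuotientGroup.mk' (Q₀ : Subgroup G)) b = 1 :=
      (QuotientGroup.eq_one_iff b).mpr hb
    have h1 : (QuotientGroup.mk' (Q₀ : Subgroup G)) y =
        (QuotientGroup.mk' (Q₀ : Subgroup G)) a := by
      rw [← hab, map_mul, hb1, mul_one]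
    have h2 : orderOf ((QuotientGroup.mk' (Q₀ : Subgroup G)) a) ∣ p₀ ^ j :=
      orderOf_dvd_of_pow_eq_one (by rw [← map_pow, hj, map_one])
    have h3 : orderOf ((QuotientGroup.mk' (Q₀ : Subgroup G)) a) ∣ q := by
      have h3' : orderOf ((QuotientGroup.mk' (Q₀ : Subgroup G)) y) ∣ orderOf y :=
        orderOf_map_dvd _ y
      rw [hy] at h3'
      rw [← h1]; exact h3'
    have h4 := Nat.dvd_gcd h2 h3
    rw [Nat.Coprime.gcd_eq_one
      (Nat.Coprime.pow_left j ((Nat.coprime_primes hp₀ hqprime).mpr (Ne.symm hqp)))] at h4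
    have h5 : (QuotientGroup.mk' (Q₀ : Subgroup G)) a = 1 :=
      orderOf_eq_one_iff.mp (Nat.dvd_one.mp h4)
    have h6 : a ∈ (Q₀ : Subgroup G) := (QuotientGroup.eq_one_iff a).mp h5
    have hyQ : y ∈ (Q₀ : Subgroup G) := by rw [← hab]; exact Subgroup.mul_mem _ h6 hb
    obtain ⟨k, hk⟩ := pelem_of_mem Q₀.isPGroup' hyQ
    have h7 : q ∣ q₀ ^ k := by rw [← hy]; exact orderOf_dvd_of_pow_eq_one hk
    exact (Nat.prime_dvd_prime_iff_eq hqprime hq₀).mp (hqprime.dvd_of_dvd_pow h7)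
  subst hqq
  have hQQ : Q = Q₀ := by
    have := Sylow.unique_of_normal Q hQ
    exact Subsingleton.elim Q Q₀
  subst hQQ
  have hdisj : ∀ a ∈ (P₀ : Subgroup G), a ∈ (Q : Subgroup G) → a = 1 := by
    intro a haP haQ
    obtain ⟨j, hj⟩ := pelem_of_mem P₀.isPGroup' haP
    obtain ⟨k, hk⟩ := pelem_of_mem Q.isPGroup' haQ
    have h4 := Nat.dvd_gcd (orderOf_dvd_of_pow_eq_one hj) (orderOf_dvd_of_pow_eq_one hk)
    rw [Nat.Coprime.gcd_eq_one
      (Nat.Coprime.pow j k ((Nat.coprime_primes hp₀ hqprime).mpr hpq))] at h4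
    exact orderOf_eq_one_iff.mp (Nat.dvd_one.mp h4)
  have hQab : ∀ g₁ g₂ : G, g₁ * g₂ * g₁⁻¹ * g₂⁻¹ ∈ (Q : Subgroup G) := by
    intro g₁ g₂
    have h1 : g₁ ∈ (P₀ : Subgroup G) ⊔ (Q : Subgroup G) := hsup ▸ Subgroup.mem_top g₁
    have h2 : g₂ ∈ (P₀ : Subgroup G) ⊔ (Q : Subgroup G) := hsup ▸ Subgroup.mem_top g₂
    obtain ⟨a₁, ha₁, b₁, hb₁, rfl⟩ := Subgroup.mem_sup_of_normal_right.mp h1
    obtain ⟨a₂, ha₂, b₂, hb₂, rfl⟩ := Subgroup.mem_sup_of_normal_right.mp h2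
    refine (QuotientGroup.eq_one_iff (N := (Q : Subgroup G)) _).mp ?_
    have e1 : ((b₁ : G) : G ⧸ (Q : Subgroup G)) = 1 := (QuotientGroup.eq_one_iff b₁).mpr hb₁
    have e2 : ((b₂ : G) : G ⧸ (Q : Subgroup G)) = 1 := (QuotientGroup.eq_one_iff b₂).mpr hb₂
    have e3 : a₁ * a₂ = a₂ * a₁ := comm_of_isCyclic_sub _ hc ha₁ ha₂
    have e4 : ((a₁ * a₂ : G) : G ⧸ (Q : Subgroup G)) = ((a₂ * a₁ : G) : G ⧸ (Q : Subgroup G)) := by
      rw [e3]
    simp only [QuotientGroup.mk_mul, QuotientGroup.mk_inv, e1, e2, mul_one] at e4 ⊢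
    rw [e4]; group
  have hQnil : Group.IsNilpotent ↥(Q : Subgroup G) := Q.isPGroup'.isNilpotent
  have hQne : (Q : Subgroup G) ≠ ⊥ := Q.ne_bot_of_dvd_card hq
  have hQnt : Nontrivial ↥(Q : Subgroup G) := (Subgroup.nontrivial_iff_ne_bot _).mpr hQne
  have hlt : commutator ↥(Q : Subgroup G) < ⊤ :=
    Group.IsSolvable.commutator_lt_top_of_nontrivial ↥(Q : Subgroup G)
  have hDQ : D ≤ (Q : Subgroup G) := by
    rw [hD]; exact Subgroup.map_subtype_le _
  refine ⟨?_, ?_⟩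
  · intro hcomm
    have hcomm' := isMulCommutative_iff.mp hcomm
    have hGD : commutator G ≤ D := by
      rw [commutator_def, Subgroup.commutator_le]
      intro g₁ _ g₂ _
      have e : (g₁ : G ⧸ D) * (g₂ : G ⧸ D) = (g₂ : G ⧸ D) * (g₁ : G ⧸ D) := hcomm' _ _
      rw [commutatorElement_def]
      refine (QuotientGroup.eq_one_iff (N := D) _).mp ?_
      simp only [QuotientGroup.mk_mul, QuotientGroup.mk_inv]
      rw [e]; group
    have hPD : (P₀ : Subgroup G) ⊔ D = ⊤ := by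
      rw [eq_top_iff, ← hPG']
      exact sup_le_sup_left hGD _
    have hQD : (Q : Subgroup G) ≤ D := by
      intro y hy
      have hy' : y ∈ (P₀ : Subgroup G) ⊔ D := hPD ▸ Subgroup.mem_top y
      obtain ⟨a, ha, w, hw, hyw⟩ := Subgroup.mem_sup_of_normal_right.mp hy'
      have ha1 : a = 1 := by
        apply hdisj a ha
        have e : a = y * w⁻¹ := by rw [← hyw]; group
        rw [e]; exact Subgroup.mul_mem _ hy (Subgroup.inv_mem _ (hDQ hw))
      rw [← hyw, ha1, one_mul]; exact hw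
    apply hlt.ne
    rw [eq_top_iff]
    intro y _
    have hy : (y : G) ∈ D := hQD y.2
    rw [hD] at hy
    obtain ⟨y', hy', hyy⟩ := Subgroup.mem_map.mp hy
    have hyy' : y' = y := Subtype.ext hyy
    rw [← hyy']; exact hy'
  · intro Kb hKb
    obtain ⟨K, hKdef⟩ : ∃ K : Subgroup G, K = Kb.comap (QuotientGroup.mk' D) := ⟨_, rfl⟩
    have hKtop : K ≠ ⊤ := by
      intro htop
      apply hKb
      rw [eq_top_iff]
      intro x _
      obtain ⟨g, rfl⟩ := QuotientGroup.mk'_surjective D x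
      have hg : g ∈ K := htop ▸ Subgroup.mem_top g
      rw [hKdef] at hg
      exact Subgroup.mem_comap.mp hg
    have hKnil : Group.IsNilpotent K := hG.2 K hKtop
    have hcopq : ∀ (u v : G) (e m : ℕ), u ^ (q ^ e) = 1 → v ^ m = 1 → ¬ q ∣ m →
        (orderOf u).Coprime (orderOf v) := by
      intro u v e m hu hv hm
      exact Nat.Coprime.coprime_dvd_left (orderOf_dvd_of_pow_eq_one hu)
        (Nat.Coprime.coprime_dvd_right (orderOf_dvd_of_pow_eq_one hv)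
          (Nat.Coprime.pow_left e ((Nat.Prime.coprime_iff_not_dvd hqprime).mpr hm)))
    have key : ∀ k₁ ∈ K, ∀ k₂ ∈ K, (k₁ * k₂)⁻¹ * (k₂ * k₁) ∈ D := by
      intro k₁ hk₁ k₂ hk₂
      obtain ⟨e₁, m₁, u₁, v₁, hord₁, hm₁, hu₁, hv₁, hdec₁, hue₁, hvm₁⟩ :=
        exists_decomp k₁ (orderOf_pos k₁).ne' q hqprime
      obtain ⟨e₂, m₂, u₂, v₂, hord₂, hm₂, hu₂, hv₂, hdec₂, hue₂, hvm₂⟩ :=
        exists_decomp k₂ (orderOf_pos k₂).ne' q hqprime
      have hu₁K : u₁ ∈ K := (Subgroup.zpowers_le.mpr hk₁) hu₁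
      have hv₁K : v₁ ∈ K := (Subgroup.zpowers_le.mpr hk₁) hv₁
      have hu₂K : u₂ ∈ K := (Subgroup.zpowers_le.mpr hk₂) hu₂
      have hv₂K : v₂ ∈ K := (Subgroup.zpowers_le.mpr hk₂) hv₂
      have hu₁Q : u₁ ∈ (Q : Subgroup G) := mem_sylow_of_normal Q hQ hue₁
      have hu₂Q : u₂ ∈ (Q : Subgroup G) := mem_sylow_of_normal Q hQ hue₂
      have c12 : u₁ * v₂ = v₂ * u₁ :=
        comm_of_coprime_sub K hKnil hu₁K hv₂K (hcopq u₁ v₂ e₁ m₂ hue₁ hvm₂ hm₂)
      have c21 : u₂ * v₁ = v₁ * u₂ :=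
        comm_of_coprime_sub K hKnil hu₂K hv₁K (hcopq u₂ v₁ e₂ m₁ hue₂ hvm₁ hm₁)
      have cvv : v₁ * v₂ = v₂ * v₁ := by
        obtain ⟨c, hcdef⟩ : ∃ c, c = v₁ * v₂ * v₁⁻¹ * v₂⁻¹ := ⟨_, rfl⟩
        have hcQ : c ∈ (Q : Subgroup G) := by rw [hcdef]; exact hQab v₁ v₂
        have hcK : c ∈ K := by
          rw [hcdef]
          exact K.mul_mem (K.mul_mem (K.mul_mem hv₁K hv₂K) (K.inv_mem hv₁K)) (K.inv_mem hv₂K)
        obtain ⟨j, hj⟩ := pelem_of_mem Q.isPGroup' hcQ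
        have hcop := hcopq c v₂ j m₂ hj hvm₂ hm₂
        have hcv : c * v₂ = v₂ * c := comm_of_coprime_sub K hKnil hcK hv₂K hcop
        have hsc : SemiconjBy v₁ v₂ (c * v₂) := by
          show v₁ * v₂ = c * v₂ * v₁
          rw [hcdef]; group
        have hsc' := hsc.pow_right (orderOf v₂)
        rw [(show Commute c v₂ from hcv).mul_pow, pow_orderOf_eq_one v₂, mul_one] at hsc'
        have hc1 : c ^ orderOf v₂ = 1 := by
          have h2 : v₁ * 1 = c ^ orderOf v₂ * v₁ := hsc'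
          rw [mul_one] at h2
          have h3 : 1 * v₁ = c ^ orderOf v₂ * v₁ := by rw [one_mul]; exact h2
          exact (mul_right_cancel h3).symm
        have h4 := Nat.dvd_gcd (dvd_refl (orderOf c)) (orderOf_dvd_of_pow_eq_one hc1)
        rw [Nat.Coprime.gcd_eq_one hcop] at h4
        have hc0 : c = 1 := orderOf_eq_one_iff.mp (Nat.dvd_one.mp h4)
        have h5 : v₁ * v₂ = c * v₂ * v₁ := hsc
        rw [hc0, one_mul] at h5
        exact h5
      have e1 : k₁ * k₂ = v₁ * v₂ * (u₁ * u₂) := by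
        rw [hdec₁, hdec₂]
        calc v₁ * u₁ * (v₂ * u₂) = v₁ * (u₁ * v₂) * u₂ := by group
          _ = v₁ * (v₂ * u₁) * u₂ := by rw [c12]
          _ = v₁ * v₂ * (u₁ * u₂) := by group
      have e2 : k₂ * k₁ = v₁ * v₂ * (u₂ * u₁) := by
        rw [hdec₁, hdec₂]
        calc v₂ * u₂ * (v₁ * u₁) = v₂ * (u₂ * v₁) * u₁ := by group
          _ = v₂ * (v₁ * u₂) * u₁ := by rw [c21]
          _ = (v₂ * v₁) * (u₂ * u₁) := by group
          _ = v₁ * v₂ * (u₂ * u₁) := by rw [cvv]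
      obtain ⟨w₁, hw₁⟩ : ∃ w : ↥(Q : Subgroup G), (w : G) = u₁ := ⟨⟨u₁, hu₁Q⟩, rfl⟩
      obtain ⟨w₂, hw₂⟩ : ∃ w : ↥(Q : Subgroup G), (w : G) = u₂ := ⟨⟨u₂, hu₂Q⟩, rfl⟩
      have e3 : (k₁ * k₂)⁻¹ * (k₂ * k₁) = ((⁅w₂⁻¹, w₁⁻¹⁆ : ↥(Q : Subgroup G)) : G) := by
        rw [e1, e2, commutatorElement_def]
        simp only [Subgroup.coe_mul, Subgroup.coe_inv, inv_inv, hw₁, hw₂]
        group
      rw [e3, hD]
      exact Subgroup.mem_map.mpr ⟨_, Subgroup.commutator_mem_commutator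
        (Subgroup.mem_top _) (Subgroup.mem_top _), rfl⟩
    refine isMulCommutative_iff_of_setLike.mpr ?_
    intro a ha b hb
    obtain ⟨g₁, rfl⟩ := QuotientGroup.mk'_surjective D a
    obtain ⟨g₂, rfl⟩ := QuotientGroup.mk'_surjective D b
    have hg₁ : g₁ ∈ K := by rw [hKdef]; exact Subgroup.mem_comap.mpr ha
    have hg₂ : g₂ ∈ K := by rw [hKdef]; exact Subgroup.mem_comap.mpr hb
    have hk := key g₁ hg₁ g₂ hg₂
    rw [← map_mul, ← map_mul]
    exact QuotientGroup.eq.mpr hk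

end Cfsg.Agent.S0577
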