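import Cfsg.Statements.S0578
import Cfsg.Agent.S0540

set_option autoImplicit false
open Cfsg
open scoped Pointwise
open scoped commutatorElement

namespace Cfsg.Agent.S0578

theorem pgroup_comm {G : Type*} [Group G] [Finite G]
    (h : ∀ A : Subgroup G, IsMulCommutative A →
      Subgroup.normalizer (A : Set G) = Subgroup.centralizer (A : Set G))
    (p : ℕ) [Fact p.Prime] (P : Subgroup G) (hP : IsPGroup p P) : IsMulCommutative P := by
  haveI : Nonempty {A : Subgroup G // A ≤ P ∧ IsMulCommutative A} :=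
    ⟨⟨⊥, bot_le, Subgroup.le_centralizer_iff_isMulCommutative.mp bot_le⟩⟩
  obtain ⟨⟨A, hAP, hAc⟩, hmax⟩ := Finite.exists_max
    (fun A : {A : Subgroup G // A ≤ P ∧ IsMulCommutative A} => Nat.card (A : Subgroup G))
  by_cases hAeq : A = P
  · rw [← hAeq]; exact hAc
  exfalso
  haveI : Group.IsNilpotent ↥P := hP.isNilpotent
  have hnc : NormalizerCondition ↥P := Group.normalizerCondition_of_isNilpotent
  have hlt : A.subgroupOf P < ⊤ := by
    rw [lt_top_iff_ne_top]
    intro htop
    apply hAeq
    exact le_antisymm hAP (Subgroup.subgroupOf_eq_top.mp htop)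
  have hlt2 := hnc (A.subgroupOf P) hlt
  obtain ⟨x, hxN, hxA⟩ := SetLike.exists_of_lt hlt2
  have hxN' : (x : G) ∈ Subgroup.normalizer (A : Set G) := by
    apply Cfsg.Agent.S0540.mem_normalizer_of_smul_le
    intro y hy
    obtain ⟨a, ha, rfl⟩ := (Subgroup.mem_smul_pointwise_iff_exists _ _ _).mp hy
    have h1 := (Subgroup.mem_normalizer_iff.mp hxN ⟨a, hAP ha⟩).mp (Subgroup.mem_subgroupOf.mpr ha)
    exact Subgroup.mem_subgroupOf.mp h1
  rw [h A hAc] at hxN'
  have hAcent : A ≤ Subgroup.centralizer (A : Set G) :=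
    Subgroup.le_centralizer_iff_isMulCommutative.mpr hAc
  obtain ⟨C, hC⟩ : ∃ C : Subgroup G, C = Subgroup.centralizer ((A : Set G) ∪ {(x : G)}) :=
    ⟨_, rfl⟩
  have hA₂c : IsMulCommutative ↥((Subgroup.centralizer (C : Set G) ⊓ C) ⊓ P) := by
    rw [← Subgroup.le_centralizer_iff_isMulCommutative]
    exact (inf_le_left.trans inf_le_left).trans (Subgroup.centralizer_le (fun z hz => hz.1.2))
  have hAC : A ≤ C := by
    intro a ha
    rw [hC, Subgroup.mem_centralizer_iff]
    intro z hz
    rcases hz with hz | hz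
    · exact Subgroup.mem_centralizer_iff.mp (hAcent ha) z hz
    · rw [Set.mem_singleton_iff] at hz; rw [hz]
      exact (Subgroup.mem_centralizer_iff.mp hxN' a ha).symm
  have hxC : (x : G) ∈ C := by
    rw [hC, Subgroup.mem_centralizer_iff]
    intro z hz
    rcases hz with hz | hz
    · exact Subgroup.mem_centralizer_iff.mp hxN' z hz
    · rw [Set.mem_singleton_iff] at hz; rw [hz]
  have hAZ : A ≤ Subgroup.centralizer (C : Set G) := by
    intro a ha
    rw [Subgroup.mem_centralizer_iff]
    intro c hc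
    have hc' : c ∈ Subgroup.centralizer ((A : Set G) ∪ {(x : G)}) := hC ▸ hc
    exact (Subgroup.mem_centralizer_iff.mp hc' a (Or.inl ha)).symm
  have hxZ : (x : G) ∈ Subgroup.centralizer (C : Set G) := by
    rw [Subgroup.mem_centralizer_iff]
    intro c hc
    have hc' : c ∈ Subgroup.centralizer ((A : Set G) ∪ {(x : G)}) := hC ▸ hc
    exact (Subgroup.mem_centralizer_iff.mp hc' x (Or.inr rfl)).symm
  have hAA₂ : A ≤ (Subgroup.centralizer (C : Set G) ⊓ C) ⊓ P := le_inf (le_inf hAZ hAC) hAP
  have hxA₂ : (x : G) ∈ (Subgroup.centralizer (C : Set G) ⊓ C) ⊓ P := ⟨⟨hxZ, hxC⟩, x.2⟩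
  have hle := hmax ⟨_, inf_le_right, hA₂c⟩
  have hAA : (Subgroup.centralizer (C : Set G) ⊓ C) ⊓ P ≤ A :=
    (Subgroup.eq_of_le_of_card_ge hAA₂ hle).ge
  exact hxA (Subgroup.mem_subgroupOf.mpr (hAA hxA₂))

/-- If in a finite group the normalizer of each abelian subgroup coincides with its centralizer, then the group is abelian. -/
theorem result {G : Type*} [Group G] [Finite G] (h : ∀ A : Subgroup G, IsMulCommutative A → Subgroup.normalizer (A : Set G) = Subgroup.centralizer (A : Set G)) : IsMulCommutative G := by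
  have hcomm1 : Nat.card (commutator G) = 1 := by
    by_contra hne
    obtain ⟨p, hp, hpd⟩ := Nat.exists_prime_and_dvd hne
    haveI : Fact p.Prime := ⟨hp⟩
    obtain ⟨P⟩ : Nonempty (Sylow p G) := inferInstance
    have hPc : IsMulCommutative (P : Subgroup G) := pgroup_comm h p P P.isPGroup'
    have hN : Subgroup.normalizer ((P : Subgroup G) : Set G) ≤
        Subgroup.centralizer ((P : Subgroup G) : Set G) := (h P hPc).le
    have hle : commutator G ≤ (MonoidHom.transferSylow P hN).ker := by
      rw [commutator_def, Subgroup.commutator_le]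
      intro g₁ _ g₂ _
      rw [MonoidHom.mem_ker, map_commutatorElement, commutatorElement_eq_one_iff_commute]
      have hc : ∀ a b : ↥(P : Subgroup G), a * b = b * a := isMulCommutative_iff.mp hPc
      exact hc _ _
    have hnd := MonoidHom.not_dvd_card_ker_transferSylow P hN
    exact hnd (hpd.trans (Subgroup.card_dvd_of_le hle))
  have hbot : commutator G = ⊥ := Subgroup.card_eq_one.mp hcomm1
  refine ⟨⟨fun a b => ?_⟩⟩
  have h1 : ⁅a, b⁆ ∈ commutator G := by
    rw [commutator_def]
    exact Subgroup.commutator_mem_commutator (Subgroup.mem_top a) (Subgroup.mem_top b)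
  rw [hbot, Subgroup.mem_bot] at h1
  exact commutatorElement_eq_one_iff_mul_comm.mp h1

end Cfsg.Agent.S0578
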