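import Mathlib
import Cfsg.Prelude.Def_SolvableStructure
import Cfsg.Agent.Helper1.Hall
import Cfsg.Agent.Helper3.Supersolv
import Cfsg.Agent.Helper3.Supersolv2
import Cfsg.Agent.Helper3.Subnormal
import Cfsg.Agent.Helper3.ElemAb
import Cfsg.Agent.Helper3.Eigen
import Cfsg.Agent.Helper3.SysNorm
import Cfsg.Agent.Helper19.PCenter
import Cfsg.Agent.S0540
set_option autoImplicit false

open scoped Pointwise commutatorElement

namespace Cfsg.Agent.S0579

universe u

open Cfsg.Agent.Helper3

theorem ss_solvable : ∀ (n : ℕ) (X : Type u) [Group X] [Finite X], Nat.card X = n →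
    Cfsg.IsSupersolvable X → Group.IsSolvable X := by
  intro n
  induction n using Nat.strong_induction_on with
  | _ n ih =>
    intro X _ _ hn hX
    by_cases hnt : (⊤ : Subgroup X) = ⊥
    · haveI : Subsingleton X := by
        refine ⟨fun a b => ?_⟩
        have ha : a ∈ (⊥ : Subgroup X) := hnt ▸ Subgroup.mem_top a
        have hb : b ∈ (⊥ : Subgroup X) := hnt ▸ Subgroup.mem_top b
        rw [Subgroup.mem_bot] at ha hb
        rw [ha, hb]
      infer_instance
    · obtain ⟨M, hMn, hMp⟩ := exists_normal_prime_card_of_nontrivial hX hnt
      haveI := hMn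
      have hq := isSupersolvable_quotient hX M
      have hlt := card_quotient_lt M (ne_bot_of_prime_card M hMp)
      haveI : Group.IsSolvable (X ⧸ M) := ih _ (hn ▸ hlt) (X ⧸ M) rfl hq
      haveI : Group.IsSolvable M := by
        haveI : Fact (Nat.card M).Prime := ⟨hMp⟩
        have hpg : IsPGroup (Nat.card M) M := IsPGroup.of_card (n := 1) (by rw [pow_one])
        haveI := hpg.isNilpotent
        infer_instance
      exact Group.isSolvable_of_ker_le_range M.subtype (QuotientGroup.mk' M) (by simp)

/-- If `M` is a normal subgroup of prime order `p`, `(p-1)`-th powers and commutators centralize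
`M`. -/
theorem aut_prime {X : Type u} [Group X] [Finite X] (p : ℕ) [hp : Fact p.Prime] (M : Subgroup X)
    [M.Normal] (hM : Nat.card M = p) :
    (∀ g : X, g ^ (p - 1) ∈ Subgroup.centralizer (M : Set X)) ∧
      ∀ g h : X, ⁅g, h⁆ ∈ Subgroup.centralizer (M : Set X) := by
  haveI : IsCyclic M := isCyclic_of_prime_card hM
  have hcard : Nat.card (MulAut M) = p - 1 := by
    rw [IsCyclic.card_mulAut, hM, Nat.totient_prime hp.out]
  haveI : Finite (MulAut M) := Nat.finite_of_card_ne_zero (by
    rw [hcard]; have := hp.out.two_le; omega)
  have hker : ∀ g : X, (MulAut.conjNormal g : MulAut M) = 1 →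
      g ∈ Subgroup.centralizer (M : Set X) := by
    intro g hg
    rw [Subgroup.mem_centralizer_iff]
    intro x hx
    have h1 : (MulAut.conjNormal g : MulAut M) ⟨x, hx⟩ = ⟨x, hx⟩ := by rw [hg]; rfl
    have h2 := congrArg Subtype.val h1
    rw [MulAut.conjNormal_apply] at h2
    simp only at h2
    calc x * g = (g * x * g⁻¹) * g := by rw [h2]
      _ = g * x := by group
  have hcomm : ∀ a b : MulAut M, a * b = b * a := by
    intro a b
    apply (IsCyclic.mulAutMulEquiv M).injective
    rw [map_mul, map_mul, mul_comm]
  constructor
  · intro g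
    apply hker
    rw [map_pow, ← hcard]
    exact pow_card_eq_one'
  · intro g h
    apply hker
    rw [map_commutatorElement, commutatorElement_def,
      hcomm (MulAut.conjNormal g) (MulAut.conjNormal h)]
    group

theorem residual (p : ℕ) [hp : Fact p.Prime] : ∀ (n : ℕ) (X : Type u) [Group X] [Finite X],
    Nat.card X = n → Cfsg.IsSupersolvable X → ∃ D R : Subgroup X, D.Normal ∧ R.Normal ∧ R ≤ D ∧
      (Nat.card R).Coprime p ∧ (∃ k : ℕ, R.relIndex D = p ^ k) ∧ (∀ g : X, g ^ (p - 1) ∈ D) ∧
      ∀ g h : X, ⁅g, h⁆ ∈ D := by
  intro n
  induction n using Nat.strong_induction_on with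
  | _ n ih =>
    intro X _ _ hn hX
    by_cases hnt : (⊤ : Subgroup X) = ⊥
    · refine ⟨⊤, ⊥, inferInstance, inferInstance, bot_le, ?_, ⟨0, ?_⟩, fun _ => Subgroup.mem_top _,
        fun _ _ => Subgroup.mem_top _⟩
      · rw [Subgroup.card_bot]; exact Nat.coprime_one_left p
      · rw [Subgroup.relIndex_bot_left, hnt, Subgroup.card_bot, pow_zero]
    · obtain ⟨M, hMn, hMp⟩ := exists_normal_prime_card_of_nontrivial hX hnt
      haveI := hMn
      have hq := isSupersolvable_quotient hX M
      have hlt := card_quotient_lt M (ne_bot_of_prime_card M hMp)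
      obtain ⟨D', R', hD'n, hR'n, hR'D', hcop', ⟨k, hk⟩, hpow', hcomm'⟩ :=
        ih _ (hn ▸ hlt) (X ⧸ M) rfl hq
      haveI := hD'n
      haveI := hR'n
      set π := QuotientGroup.mk' M with hπ
      have hπs : Function.Surjective π := QuotientGroup.mk'_surjective M
      set D₁ := D'.comap π with hD₁
      set R₁ := R'.comap π with hR₁
      haveI hD₁n : D₁.Normal := hD'n.comap π
      haveI hR₁n : R₁.Normal := hR'n.comap π
      have hRD₁ : R₁ ≤ D₁ := Subgroup.comap_mono hR'D'
      have hcardR₁ : Nat.card R₁ = Nat.card M * Nat.card R' := Helper1.card_comap_mk M R'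
      have hrel₁ : R₁.relIndex D₁ = p ^ k := by
        rw [hR₁, Subgroup.relIndex_comap, hD₁, Subgroup.map_comap_eq_self_of_surjective hπs, hk]
      have hpow₁ : ∀ g : X, g ^ (p - 1) ∈ D₁ := by
        intro g
        rw [hD₁, Subgroup.mem_comap, map_pow]
        exact hpow' _
      have hcomm₁ : ∀ g h : X, ⁅g, h⁆ ∈ D₁ := by
        intro g h
        rw [hD₁, Subgroup.mem_comap, map_commutatorElement]
        exact hcomm' _ _
      have hMR₁ : M ≤ R₁ := by
        intro x hx
        rw [hR₁, Subgroup.mem_comap]
        have : π x = 1 := by rw [hπ, QuotientGroup.mk'_apply, QuotientGroup.eq_one_iff]; exact hx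
        rw [this]; exact one_mem _
      by_cases hqp : Nat.card M = p
      · -- the hard case
        set C := Subgroup.centralizer (M : Set X) with hC
        obtain ⟨hpowC, hcommC⟩ := aut_prime p M hqp
        haveI : IsCyclic M := isCyclic_of_prime_card hqp
        have hMC : M ≤ C := by
          rw [hC, Subgroup.le_centralizer_iff_isMulCommutative]
          exact ⟨⟨fun a b => by
            letI := IsCyclic.commGroup (α := M)
            exact mul_comm a b⟩⟩
        set Q := R₁ ⊓ C with hQ
        have hMQ : M ≤ Q := le_inf hMR₁ hMC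
        haveI hQn : Q.Normal := Subgroup.normal_inf_normal R₁ C
        -- Schur–Zassenhaus in Q
        have hcardM' : Nat.card (M.subgroupOf Q) = p := by
          rw [Nat.card_congr (Subgroup.subgroupOfEquivOfLe hMQ).toEquiv, hqp]
        have hQdvd : Nat.card Q ∣ p * Nat.card R' := by
          rw [← hqp, ← hcardR₁]; exact Subgroup.card_dvd_of_le inf_le_left
        have hcardQ : p * (M.subgroupOf Q).index = Nat.card Q := by
          rw [← hcardM']; exact Subgroup.card_mul_index _
        have hcopm : ((M.subgroupOf Q).index).Coprime p := by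
          have : (M.subgroupOf Q).index ∣ Nat.card R' := by
            rw [← hcardQ] at hQdvd
            exact Nat.dvd_of_mul_dvd_mul_left hp.out.pos hQdvd
          exact hcop'.coprime_dvd_left this
        obtain ⟨H₀, hH₀⟩ := Subgroup.exists_right_complement'_of_coprime
          (N := M.subgroupOf Q) (by rw [hcardM']; exact hcopm.symm)
        have hcardH₀ : Nat.card H₀ = (M.subgroupOf Q).index := by
          have h1 := hH₀.card_mul_card
          rw [hcardM'] at h1
          have h2 : p * Nat.card H₀ = p * (M.subgroupOf Q).index := by rw [h1, hcardQ]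
          exact Nat.eq_of_mul_eq_mul_left hp.out.pos h2
        set m := (M.subgroupOf Q).index with hm
        set R := H₀.map Q.subtype with hR
        have hcardR : Nat.card R = m := by
          rw [hR, Subgroup.card_map_of_injective Q.subtype_injective, hcardH₀]
        have hRQ : R ≤ Q := Subgroup.map_subtype_le H₀
        have hQC : Q ≤ C := inf_le_right
        have hRn : R.Normal := by
          constructor
          intro x hx g
          have hy : g * x * g⁻¹ ∈ Q := hQn.conj_mem x (hRQ hx) g
          obtain ⟨⟨a, r⟩, har⟩ := hH₀.2 ⟨g * x * g⁻¹, hy⟩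
          have har' : (a : X) * (r : X) = g * x * g⁻¹ := by
            have := congrArg Subtype.val har
            simpa using this
          have haM : ((a : Q) : X) ∈ M := a.2
          have hrH : ((r : Q) : X) ∈ R := ⟨r, r.2, rfl⟩
          have hxm : x ^ m = 1 := by
            have := pow_card_eq_one' (G := R) (x := ⟨x, hx⟩)
            rw [hcardR] at this
            simpa using congrArg Subtype.val this
          have hrm : ((r : Q) : X) ^ m = 1 := by
            have := pow_card_eq_one' (G := H₀) (x := r)
            rw [hcardH₀] at this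
            simpa using congrArg (fun z : H₀ => ((z : Q) : X)) this
          have hcomm : Commute ((a : Q) : X) ((r : Q) : X) := by
            have : ((r : Q) : X) ∈ C := hQC (r : Q).2
            rw [hC, Subgroup.mem_centralizer_iff] at this
            exact this _ haM
          have h1 : ((a : Q) : X) ^ m = 1 := by
            have h2 : (g * x * g⁻¹) ^ m = 1 := by rw [conj_pow, hxm]; group
            rw [← har', hcomm.mul_pow, hrm, mul_one] at h2
            exact h2
          have h3 : ((a : Q) : X) ^ p = 1 := by
            have := pow_card_eq_one' (G := M) (x := ⟨_, haM⟩)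
            rw [hqp] at this
            simpa using congrArg Subtype.val this
          have h4 : ((a : Q) : X) = 1 := by
            have h5 : orderOf ((a : Q) : X) ∣ m := orderOf_dvd_of_pow_eq_one h1
            have h6 : orderOf ((a : Q) : X) ∣ p := orderOf_dvd_of_pow_eq_one h3
            have h7 : orderOf ((a : Q) : X) = 1 :=
              Nat.eq_one_of_dvd_coprimes hcopm h5 h6
            exact orderOf_eq_one_iff.mp h7
          rw [← har', h4, one_mul]
          exact hrH
        refine ⟨D₁ ⊓ C, R, Subgroup.normal_inf_normal D₁ C, hRn,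
          hRQ.trans (inf_le_inf_right C hRD₁), ?_, ?_, fun g => ⟨hpow₁ g, hpowC g⟩,
          fun g h => ⟨hcomm₁ g h, hcommC g h⟩⟩
        · rw [hcardR]; exact hcopm
        · -- index computation
          have hQD : Q ≤ D₁ ⊓ C := inf_le_inf_right C hRD₁
          have e1 := Subgroup.relIndex_mul_relIndex R Q (D₁ ⊓ C) hRQ hQD
          have e2 : R.relIndex Q = p := by
            have h1 : Nat.card (R.subgroupOf Q) = m := by
              rw [Nat.card_congr (Subgroup.subgroupOfEquivOfLe hRQ).toEquiv, hcardR]
            have h2 := Subgroup.card_mul_index (R.subgroupOf Q)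
            rw [h1, ← hcardQ, mul_comm] at h2
            have hm0 : 0 < m := by
              rcases Nat.eq_zero_or_pos m with h0 | h0
              · rw [h0, mul_zero] at hcardQ
                exact absurd hcardQ.symm (Nat.card_pos).ne'
              · exact h0
            exact Nat.eq_of_mul_eq_mul_right hm0 h2
          have e3 : Q.relIndex (D₁ ⊓ C) ∣ p ^ k := by
            have h1 : Q = R₁ ⊓ (D₁ ⊓ C) := by
              rw [hQ, ← inf_assoc, inf_eq_left.mpr hRD₁]
            rw [h1, Subgroup.inf_relIndex_right, ← Subgroup.relIndex_sup_right, ← hrel₁]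
            exact Dvd.intro _ (Subgroup.relIndex_mul_relIndex R₁ ((D₁ ⊓ C) ⊔ R₁) D₁ le_sup_right
              (sup_le inf_le_left hRD₁))
          obtain ⟨j, -, hj⟩ := (Nat.dvd_prime_pow hp.out).mp e3
          refine ⟨j + 1, ?_⟩
          rw [← e1, e2, hj, pow_succ, mul_comm]
      · refine ⟨D₁, R₁, hD₁n, hR₁n, hRD₁, ?_, ⟨k, hrel₁⟩, hpow₁, hcomm₁⟩
        rw [hcardR₁]
        exact Nat.Coprime.mul_left ((Nat.coprime_primes hMp hp.out).mpr hqp) hcop'

theorem coatom_quot {G : Type u} [Group G] (h : ∀ M : Subgroup G, IsCoatom M → M.index.Prime)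
    (N : Subgroup G) [N.Normal] :
    ∀ M : Subgroup (G ⧸ N), IsCoatom M → M.index.Prime := by
  intro M hM
  have hπs : Function.Surjective (QuotientGroup.mk' N) := QuotientGroup.mk'_surjective N
  have hco : IsCoatom (M.comap (QuotientGroup.mk' N)) := by
    constructor
    · intro h1
      apply hM.1
      rw [← Subgroup.map_comap_eq_self_of_surjective hπs M, h1,
        Subgroup.map_top_of_surjective _ hπs]
    · intro K hK
      have h1 : M ≤ K.map (QuotientGroup.mk' N) := by
        rw [← Subgroup.map_comap_eq_self_of_surjective hπs M]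
        exact Subgroup.map_mono hK.le
      have h2 : M ≠ K.map (QuotientGroup.mk' N) := by
        intro h3
        apply hK.not_ge
        rw [h3]
        exact Subgroup.le_comap_map _ _
      have h3 := hM.2 _ (lt_of_le_of_ne h1 h2)
      have h4 : N ≤ K := by
        refine le_trans ?_ hK.le
        intro x hx
        rw [Subgroup.mem_comap]
        have : QuotientGroup.mk' N x = 1 := by
          rw [QuotientGroup.mk'_apply, QuotientGroup.eq_one_iff]; exact hx
        rw [this]; exact one_mem _
      have h5 : (K.map (QuotientGroup.mk' N)).comap (QuotientGroup.mk' N) = K := by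
        rw [Subgroup.comap_map_eq, QuotientGroup.ker_mk', sup_eq_left.mpr h4]
      rw [← h5, h3, Subgroup.comap_top]
  have := h _ hco
  rwa [Subgroup.index_comap_of_surjective _ hπs] at this

theorem sylow_normal_of_max {G : Type u} [Group G] [Finite G]
    (h : ∀ M : Subgroup G, IsCoatom M → M.index.Prime) (p : ℕ) [hp : Fact p.Prime]
    (hmax : ∀ q : ℕ, q.Prime → q ∣ Nat.card G → q ≤ p) (P : Sylow p G) :
    (P : Subgroup G).Normal := by
  by_contra hn
  have hne : Subgroup.normalizer ((P : Subgroup G) : Set G) ≠ ⊤ := by
    intro h1
    exact hn (Subgroup.normalizer_eq_top_iff.mp h1)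
  obtain ⟨M, hM, hNM⟩ := (eq_top_or_exists_le_coatom _).resolve_left hne
  have hq := h M hM
  have hPM : (P : Subgroup G) ≤ M := Subgroup.le_normalizer.trans hNM
  have h1 : Nat.card (Sylow p G) = (Subgroup.normalizer ((P : Subgroup G) : Set G)).index :=
    Sylow.card_eq_index_normalizer P
  have h2 : Nat.card (Sylow p G) ≡ 1 [MOD p] := card_sylow_modEq_one p G
  have h3 : Nat.card (Sylow p M) =
      (Subgroup.normalizer (((P.subtype hPM : Sylow p M) : Subgroup M) : Set M)).index :=
    Sylow.card_eq_index_normalizer (P.subtype hPM)
  have h4 : Nat.card (Sylow p M) ≡ 1 [MOD p] := card_sylow_modEq_one p M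
  have h5 : (Subgroup.normalizer (((P.subtype hPM : Sylow p M) : Subgroup M) : Set M)).index
      = (Subgroup.normalizer ((P : Subgroup G) : Set G)).relIndex M := by
    rw [Sylow.coe_subtype, ← Subgroup.subgroupOf_normalizer_eq hPM]
    rfl
  have h6 := Subgroup.relIndex_mul_index hNM
  rw [h3, h5] at h4
  rw [h1, ← h6] at h2
  have h7 : M.index ≡ 1 [MOD p] := by
    have := Nat.ModEq.mul_right M.index h4
    rw [one_mul] at this
    exact this.symm.trans h2
  have h8 : p ∣ M.index - 1 := (Nat.modEq_iff_dvd' hq.one_lt.le).mp h7.symm
  have h9 : p ≤ M.index - 1 := Nat.le_of_dvd (by have := hq.two_le; omega) h8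
  have h10 : M.index ≤ p := hmax _ hq (Subgroup.index_dvd_card M)
  have := hq.two_le
  omega

theorem main : ∀ (n : ℕ) (G : Type u) [Group G] [Finite G], Nat.card G = n →
    (∀ M : Subgroup G, IsCoatom M → M.index.Prime) → Cfsg.IsSupersolvable G := by
  intro n
  induction n using Nat.strong_induction_on with
  | _ n ih =>
    intro G _ _ hn h
    rcases subsingleton_or_nontrivial G with hsub | hnt
    · refine ⟨0, fun _ => ⊥, rfl, ?_, fun _ => inferInstance, fun i => i.elim0⟩
      ext x
      simp [Subsingleton.elim x 1]
    · have hcard1 : 1 < Nat.card G := Finite.one_lt_card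
      obtain ⟨p, hpmem, hpmax⟩ : ∃ p ∈ (Nat.card G).primeFactors,
          ∀ q ∈ (Nat.card G).primeFactors, q ≤ p := by
        have hne : (Nat.card G).primeFactors.Nonempty := Nat.nonempty_primeFactors.mpr hcard1
        exact ⟨_, Finset.max'_mem _ hne, fun q hq => Finset.le_max' _ q hq⟩
      have hpp : p.Prime := Nat.prime_of_mem_primeFactors hpmem
      have hpdvd : p ∣ Nat.card G := Nat.dvd_of_mem_primeFactors hpmem
      haveI : Fact p.Prime := ⟨hpp⟩
      have hmax : ∀ q : ℕ, q.Prime → q ∣ Nat.card G → q ≤ p := fun q hq hqd =>
        hpmax q (Nat.mem_primeFactors.mpr ⟨hq, hqd, Nat.card_pos.ne'⟩)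
      obtain ⟨P⟩ : Nonempty (Sylow p G) := inferInstance
      haveI hPn := sylow_normal_of_max h p hmax P
      have hP0 : (P : Subgroup G) ≠ ⊥ := P.ne_bot_of_dvd_card hpdvd
      obtain ⟨N, ⟨hNn, hN0, hNmin⟩, hNP⟩ := exists_isMinNormal_le (P : Subgroup G) hP0
      haveI := hNn
      have hq : Cfsg.IsSupersolvable (G ⧸ N) :=
        ih _ (hn ▸ card_quotient_lt N hN0) (G ⧸ N) rfl (coatom_quot h N)
      suffices hcyc : IsCyclic N from isSupersolvable_of_cyclic_normal N hq
      have hNp : IsPGroup p N := P.2.to_le hNP
      obtain ⟨a, ha⟩ := IsPGroup.iff_card.mp hNp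
      have hpN : p ∣ Nat.card N := by
        rcases Nat.eq_zero_or_pos a with h0 | h0
        · exfalso; rw [h0, pow_zero] at ha; exact hN0 (Subgroup.card_eq_one.mp ha)
        · rw [ha]; exact dvd_pow_self p h0.ne'
      -- N ≤ centralizer P
      have hNC : N ≤ Subgroup.centralizer ((P : Subgroup G) : Set G) := by
        have hK : (N ⊓ Subgroup.centralizer ((P : Subgroup G) : Set G)).Normal :=
          Subgroup.normal_inf_normal _ _
        rcases hNmin _ hK inf_le_left with h0 | h1
        · exfalso
          have hdvd : p ∣ Nat.card (N.subgroupOf (P : Subgroup G)) := by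
            rw [Nat.card_congr (Subgroup.subgroupOfEquivOfLe hNP).toEquiv]; exact hpN
          obtain ⟨b, hbN, hb1, hbZ⟩ := Helper19.exists_mem_center_of_normal P.2
            (N.subgroupOf (P : Subgroup G)) hdvd
          have hb : (b : G) ∈ N ⊓ Subgroup.centralizer ((P : Subgroup G) : Set G) := by
            refine Subgroup.mem_inf.mpr ⟨hbN, ?_⟩
            rw [Subgroup.mem_centralizer_iff]
            intro x hx
            have := Subgroup.mem_center_iff.mp hbZ ⟨x, hx⟩
            exact congrArg Subtype.val this
          rw [h0, Subgroup.mem_bot] at hb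
          exact hb1 (Subtype.ext hb)
        · exact inf_eq_left.mp h1
      have hab : ∀ x ∈ N, ∀ y ∈ N, x * y = y * x := by
        intro x hx y hy
        exact Subgroup.mem_centralizer_iff.mp (hNC hy) x (hNP hx)
      haveI hNcomm : IsMulCommutative N := ⟨⟨fun a b => Subtype.ext (hab a a.2 b b.2)⟩⟩
      -- exponent p
      have hexp : ∀ x ∈ N, x ^ p = 1 := by
        let Ω : Subgroup G :=
          { carrier := {x | x ∈ N ∧ x ^ p = 1}
            mul_mem' := by
              rintro a b ⟨ha, ha'⟩ ⟨hb, hb'⟩
              refine ⟨mul_mem ha hb, ?_⟩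
              have : Commute a b := hab a ha b hb
              rw [this.mul_pow, ha', hb', one_mul]
            one_mem' := ⟨one_mem _, one_pow _⟩
            inv_mem' := by
              rintro a ⟨ha, ha'⟩
              exact ⟨inv_mem ha, by rw [inv_pow, ha', inv_one]⟩ }
        have hΩn : Ω.Normal := by
          constructor
          rintro x ⟨hx, hx'⟩ g
          exact ⟨hNn.conj_mem x hx g, by rw [conj_pow, hx']; group⟩
        have hΩN : Ω ≤ N := fun x hx => hx.1
        rcases hNmin Ω hΩn hΩN with h0 | h1
        · exfalso
          obtain ⟨x, hx⟩ := exists_prime_orderOf_dvd_card' p hpN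
          have hxΩ : (x : G) ∈ Ω := ⟨x.2, by
            have := pow_orderOf_eq_one x
            rw [hx] at this
            simpa using congrArg Subtype.val this⟩
          rw [h0, Subgroup.mem_bot] at hxΩ
          have : x = 1 := Subtype.ext hxΩ
          rw [this, orderOf_one] at hx
          exact hpp.one_lt.ne hx
        · intro x hx
          have : x ∈ Ω := h1 ▸ hx
          exact this.2
      by_cases hFr : ∃ M : Subgroup G, IsCoatom M ∧ ¬ N ≤ M
      · obtain ⟨M, hM, hNM⟩ := hFr
        have hsup : M ⊔ N = ⊤ := by
          apply hM.2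
          exact lt_of_le_of_ne le_sup_left (fun h1 => hNM (h1 ▸ le_sup_right))
        have hKn : (M ⊓ N).Normal := by
          rw [← Subgroup.normalizer_eq_top_iff, eq_top_iff, ← hsup]
          apply sup_le
          · intro m hm
            rw [Subgroup.mem_normalizer_iff]
            intro x
            rw [Subgroup.mem_inf, Subgroup.mem_inf]
            constructor
            · rintro ⟨hxM, hxN⟩
              exact ⟨mul_mem (mul_mem hm hxM) (inv_mem hm), hNn.conj_mem x hxN m⟩
            · rintro ⟨hxM, hxN⟩
              refine ⟨?_, ?_⟩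
              · have := mul_mem (mul_mem (inv_mem hm) hxM) hm
                simpa [mul_assoc] using this
              · have := hNn.conj_mem _ hxN m⁻¹
                simpa [mul_assoc] using this
          · intro n hn'
            rw [Subgroup.mem_normalizer_iff]
            intro x
            rw [Subgroup.mem_inf, Subgroup.mem_inf]
            constructor
            · rintro ⟨hxM, hxN⟩
              have : n * x * n⁻¹ = x := by rw [hab n hn' x hxN]; group
              rw [this]; exact ⟨hxM, hxN⟩
            · rintro ⟨hxM, hxN⟩
              have hx : x ∈ N := by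
                have := hNn.conj_mem _ hxN n⁻¹
                simpa [mul_assoc] using this
              have : n * x * n⁻¹ = x := by rw [hab n hn' x hx]; group
              rw [this] at hxM
              exact ⟨hxM, hx⟩
        have hK0 : M ⊓ N = ⊥ := by
          rcases hNmin _ hKn inf_le_right with h0 | h1
          · exact h0
          · exact absurd (inf_eq_right.mp h1) hNM
        have hcard := card_mul_card_eq_of_le_normalizer M N
          (by rw [Subgroup.normalizer_eq_top]; exact le_top)
        rw [hsup, hK0, Subgroup.card_bot, mul_one, Subgroup.card_top] at hcard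
        have hidx := Subgroup.card_mul_index M
        have hNidx : Nat.card N = M.index := by
          have : Nat.card M * Nat.card N = Nat.card M * M.index := by rw [hcard, hidx]
          exact Nat.eq_of_mul_eq_mul_left Nat.card_pos this
        haveI : Fact (Nat.card N).Prime := ⟨hNidx ▸ h M hM⟩
        exact isCyclic_of_prime_card rfl
      · push Not at hFr
        have hFr' : ∀ K : Subgroup G, K ⊔ N = ⊤ → K = ⊤ := by
          intro K hK
          by_contra hK'
          obtain ⟨M, hM, hKM⟩ := (eq_top_or_exists_le_coatom K).resolve_left hK'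
          exact hM.1 (eq_top_iff.mpr (hK ▸ sup_le hKM (hFr M hM)))
        haveI : Group.IsSolvable (G ⧸ N) := ss_solvable _ (G ⧸ N) rfl hq
        haveI : Group.IsSolvable N :=
          Group.isSolvable_of_comm (fun a b => Subtype.ext (hab a a.2 b b.2))
        haveI hGsol : Group.IsSolvable G :=
          Group.isSolvable_of_ker_le_range N.subtype (QuotientGroup.mk' N) (by simp)
        obtain ⟨D', R', hD'n, hR'n, hR'D', hcop', ⟨k, hk⟩, hpow', hcomm'⟩ :=
          residual p _ (G ⧸ N) rfl hq
        haveI := hD'n
        haveI := hR'n
        set π := QuotientGroup.mk' N with hπ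
        have hπs : Function.Surjective π := QuotientGroup.mk'_surjective N
        set D := D'.comap π with hD
        set Q := R'.comap π with hQ
        haveI hDn : D.Normal := hD'n.comap π
        haveI hQn : Q.Normal := hR'n.comap π
        have hQD : Q ≤ D := Subgroup.comap_mono hR'D'
        have hcardQ : Nat.card Q = Nat.card N * Nat.card R' := Helper1.card_comap_mk N R'
        have hrel : Q.relIndex D = p ^ k := by
          rw [hQ, Subgroup.relIndex_comap, hD, Subgroup.map_comap_eq_self_of_surjective hπs, hk]
        have hNQ : N ≤ Q := by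
          intro x hx
          rw [hQ, Subgroup.mem_comap]
          have : π x = 1 := by rw [hπ, QuotientGroup.mk'_apply, QuotientGroup.eq_one_iff]; exact hx
          rw [this]; exact one_mem _
        set C := Subgroup.centralizer (N : Set G) with hC
        have hNCn : N ≤ C := fun x hx =>
          Subgroup.mem_centralizer_iff.mpr (fun y hy => hab y hy x hx)
        have hPC : (P : Subgroup G) ≤ C := Subgroup.le_centralizer_iff.mp hNC
        have hcopN : (Nat.card R').Coprime (Nat.card N) := by
          rw [ha]; exact Nat.Coprime.pow_right a hcop'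
        -- Schur–Zassenhaus in Q
        have hcardN' : Nat.card (N.subgroupOf Q) = Nat.card N :=
          Nat.card_congr (Subgroup.subgroupOfEquivOfLe hNQ).toEquiv
        have hidxN' : (N.subgroupOf Q).index = Nat.card R' := by
          have h1 := Subgroup.card_mul_index (N.subgroupOf Q)
          rw [hcardN', hcardQ] at h1
          exact Nat.eq_of_mul_eq_mul_left Nat.card_pos h1
        obtain ⟨H₀, hH₀⟩ := Subgroup.exists_right_complement'_of_coprime (N := N.subgroupOf Q)
          (by rw [hcardN', hidxN']; exact hcopN.symm)
        have hcardH₀ : Nat.card H₀ = Nat.card R' := by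
          have h1 := hH₀.card_mul_card
          rw [hcardN', hcardQ] at h1
          exact Nat.eq_of_mul_eq_mul_left Nat.card_pos h1
        set R := H₀.map Q.subtype with hR
        have hcardR : Nat.card R = Nat.card R' := by
          rw [hR, Subgroup.card_map_of_injective Q.subtype_injective, hcardH₀]
        have hRQ : R ≤ Q := Subgroup.map_subtype_le H₀
        have hdecomp : ∀ x ∈ Q, ∃ a ∈ N, ∃ r ∈ R, x = a * r := by
          intro x hx
          obtain ⟨⟨a, r⟩, har⟩ := hH₀.2 ⟨x, hx⟩
          refine ⟨((a : Q) : G), a.2, ((r : Q) : G), ⟨r, r.2, rfl⟩, ?_⟩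
          have := congrArg Subtype.val har
          simpa using this.symm
        -- R is normal by the Frattini argument
        have hRn : R.Normal := by
          rw [← Subgroup.normalizer_eq_top_iff]
          apply hFr'
          rw [eq_top_iff]
          intro g _
          have hgRQ : MulAut.conj g • R ≤ Q := by
            intro y hy
            obtain ⟨x, hx, rfl⟩ := (Subgroup.mem_smul_pointwise_iff_exists _ _ _).mp hy
            exact hQn.conj_mem x (hRQ hx) g
          have hcardQ' : Nat.card Q = Nat.card R' * Nat.card N := by rw [hcardQ, mul_comm]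
          obtain ⟨x, hx⟩ := (Helper1.hall_aux _ Q rfl (Nat.card R') (Nat.card N) hcardQ' hcopN).2
            (R.subgroupOf Q) ((MulAut.conj g • R).subgroupOf Q)
            (by rw [Nat.card_congr (Subgroup.subgroupOfEquivOfLe hRQ).toEquiv, hcardR])
            (by rw [Nat.card_congr (Subgroup.subgroupOfEquivOfLe hgRQ).toEquiv, card_conj_smul,
              hcardR]; exact hcopN)
          have hmem : (x : G)⁻¹ * g ∈ Subgroup.normalizer (R : Set G) := by
            apply S0540.mem_normalizer_of_smul_le
            intro y hy
            obtain ⟨z, hz, rfl⟩ := (Subgroup.mem_smul_pointwise_iff_exists _ _ _).mp hy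
            have hz' : g * z * g⁻¹ ∈ MulAut.conj g • R :=
              Subgroup.smul_mem_pointwise_smul z (MulAut.conj g) R hz
            have := hx ⟨g * z * g⁻¹, hgRQ hz'⟩ (Subgroup.mem_subgroupOf.mpr hz')
            rw [Subgroup.mem_subgroupOf] at this
            have e : MulAut.conj ((x : G)⁻¹ * g) • z = (x : G)⁻¹ * (g * z * g⁻¹) * (x : G) := by
              simp [MulAut.smul_def, mul_assoc]
            rw [e]
            simpa using this
          obtain ⟨a', ha', r, hr, hxar⟩ := hdecomp (x : G) x.2
          have hg : g = a' * (r * ((x : G)⁻¹ * g)) := by rw [← mul_assoc, ← hxar]; group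
          rw [hg]
          exact mul_mem (Subgroup.mem_sup_right ha')
            (Subgroup.mem_sup_left (mul_mem (Subgroup.le_normalizer hr) hmem))
        have hRN : R ⊓ N = ⊥ :=
          disjoint_iff.mp (Subgroup.disjoint_of_coprime_natCard (by rw [hcardR]; exact hcopN))
        have hRC : R ≤ C := by
          intro r hr
          rw [hC, Subgroup.mem_centralizer_iff]
          intro y hy
          have h1 : r * y * r⁻¹ * y⁻¹ ∈ R ⊓ N := by
            refine Subgroup.mem_inf.mpr ⟨?_, ?_⟩
            · have : r * y * r⁻¹ * y⁻¹ = r * (y * r⁻¹ * y⁻¹) := by group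
              rw [this]; exact mul_mem hr (hRn.conj_mem _ (inv_mem hr) y)
            · exact mul_mem (hNn.conj_mem y hy r) (inv_mem hy)
          rw [hRN, Subgroup.mem_bot] at h1
          have h2 : r * y = (r * y * r⁻¹ * y⁻¹) * (y * r) := by group
          rw [h2, h1, one_mul]
        have hQC : Q ≤ C := by
          intro x hx
          obtain ⟨a', ha', r, hr, rfl⟩ := hdecomp x hx
          exact mul_mem (hNCn ha') (hRC hr)
        have hDC : D ≤ C := by
          set K := ((P : Subgroup G) ⊓ D) ⊔ Q with hK
          have hKD : K ≤ D := sup_le inf_le_right hQD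
          have hKC : K ≤ C := sup_le (inf_le_left.trans hPC) hQC
          have e1 : K.relIndex D ∣ p ^ k := by
            rw [← hrel]
            exact Dvd.intro_left _ (Subgroup.relIndex_mul_relIndex Q K D le_sup_right hKD)
          have e2 : K.relIndex D ∣ (P : Subgroup G).index := by
            have h1 : ((P : Subgroup G) ⊓ D).relIndex K * K.relIndex D
                = ((P : Subgroup G) ⊓ D).relIndex D :=
              Subgroup.relIndex_mul_relIndex _ K D le_sup_left hKD
            rw [Subgroup.inf_relIndex_right] at h1
            exact (Dvd.intro_left _ h1).trans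
              (Subgroup.relIndex_dvd_index_of_normal (P : Subgroup G) D)
          have e3 : K.relIndex D = 1 := by
            have hcop : (p ^ k).Coprime (P : Subgroup G).index :=
              Nat.Coprime.pow_left k ((Nat.Prime.coprime_iff_not_dvd hpp).mpr P.not_dvd_index)
            exact Nat.eq_one_of_dvd_coprimes hcop e1 e2
          exact (Subgroup.relIndex_eq_one.mp e3).trans hKC
        have hpowC : ∀ g : G, g ^ (p - 1) ∈ C := fun g => hDC (by
          rw [hD, Subgroup.mem_comap, map_pow]; exact hpow' _)
        have hcommC : ∀ g h : G, ⁅g, h⁆ ∈ C := fun g h' => hDC (by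
          rw [hD, Subgroup.mem_comap, map_commutatorElement]; exact hcomm' _ _)
        -- every element acts as a power map
        have hscal : ∀ g : G, ∃ j : ℕ, ∀ w ∈ N, g * w * g⁻¹ = w ^ j := by
          intro g
          have hg : ∀ x ∈ N, g ^ (p - 1) * x * (g ^ (p - 1))⁻¹ = x := by
            intro x hx
            have := Subgroup.mem_centralizer_iff.mp (hpowC g) x hx
            rw [← this]; group
          obtain ⟨v, hvN, hv1, j, hj⟩ := exists_eigen_conj p N hexp hN0 g hg
          refine ⟨j, ?_⟩
          let E : Subgroup G :=
            { carrier := {w | w ∈ N ∧ g * w * g⁻¹ = w ^ j}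
              mul_mem' := by
                rintro a b ⟨ha1, ha2⟩ ⟨hb1, hb2⟩
                refine ⟨mul_mem ha1 hb1, ?_⟩
                have hc : Commute a b := hab a ha1 b hb1
                rw [hc.mul_pow, ← ha2, ← hb2]; group
              one_mem' := ⟨one_mem _, by simp⟩
              inv_mem' := by
                rintro a ⟨ha1, ha2⟩
                refine ⟨inv_mem ha1, ?_⟩
                rw [inv_pow, ← ha2]; group }
          have hEn : E.Normal := by
            constructor
            rintro w ⟨hw1, hw2⟩ h'
            refine ⟨hNn.conj_mem w hw1 h', ?_⟩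
            rw [conj_pow, ← hw2]
            have hc := Subgroup.mem_centralizer_iff.mp (hcommC g⁻¹ h'⁻¹) w hw1
            rw [commutatorElement_def] at hc
            have e1 : g * (h' * w * h'⁻¹) * g⁻¹
                = h' * g * (g⁻¹ * h'⁻¹ * g⁻¹⁻¹ * h'⁻¹⁻¹ * w) * (g⁻¹ * h'⁻¹ * g⁻¹⁻¹ * h'⁻¹⁻¹)⁻¹
                  * g⁻¹ * h'⁻¹ := by group
            rw [e1, ← hc]; group
          have hEN : E ≤ N := fun w hw => hw.1
          rcases hNmin E hEn hEN with h0 | h1
          · exfalso
            have : v ∈ E := ⟨hvN, hj⟩
            rw [h0, Subgroup.mem_bot] at this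
            exact hv1 this
          · intro w hw
            have : w ∈ E := h1 ▸ hw
            exact this.2
        obtain ⟨v, hvN, hv1⟩ : ∃ v ∈ N, v ≠ 1 := by
          by_contra hcon
          push Not at hcon
          exact hN0 ((Subgroup.eq_bot_iff_forall N).mpr hcon)
        have hZn : (Subgroup.zpowers v).Normal := by
          constructor
          intro x hx g
          obtain ⟨i, rfl⟩ := Subgroup.mem_zpowers_iff.mp hx
          obtain ⟨j, hj⟩ := hscal g
          have : g * v ^ i * g⁻¹ = (v ^ j) ^ i := by
            rw [← hj v hvN, conj_zpow]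
          rw [this]
          exact zpow_mem (pow_mem (Subgroup.mem_zpowers v) j) i
        have hZN : Subgroup.zpowers v ≤ N := (Subgroup.zpowers_le).mpr hvN
        rcases hNmin _ hZn hZN with h0 | h1
        · exfalso
          have : v ∈ Subgroup.zpowers v := Subgroup.mem_zpowers v
          rw [h0, Subgroup.mem_bot] at this
          exact hv1 this
        · rw [← h1]
          infer_instance

/-- Huppert's supersolvability criterion: if every maximal subgroup of a finite group has prime index, then the group is supersolvable. -/
theorem result {G : Type*} [Group G] [Finite G] (h : ∀ M : Subgroup G, IsCoatom M → M.index.Prime) : Cfsg.IsSupersolvable G := by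
  exact main _ G rfl h

end Cfsg.Agent.S0579
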