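import Cfsg.Statements.S0580
import Mathlib

set_option autoImplicit false
open Cfsg

namespace Cfsg.Agent.S0580

universe u

/-- If all maximal subgroups have prime index, the Sylow subgroup for the largest prime divisor
of the group order is normal. -/
theorem sylow_normal_of_max {G : Type u} [Group G] [Finite G]
    (h : ∀ M : Subgroup G, IsCoatom M → M.index.Prime) (p : ℕ) [Fact p.Prime]
    (hmax : ∀ q : ℕ, q.Prime → q ∣ Nat.card G → q ≤ p) (P : Sylow p G) :
    (P : Subgroup G).Normal := by
  by_contra hP
  have hN : Subgroup.normalizer ((P : Subgroup G) : Set G) ≠ ⊤ := by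
    intro h'; exact hP (Subgroup.normalizer_eq_top_iff.mp h')
  obtain ⟨M, hM, hNM⟩ := (eq_top_or_exists_le_coatom _).resolve_left hN
  have hq := h M hM
  have hPM : (P : Subgroup G) ≤ M := le_trans Subgroup.le_normalizer hNM
  have h1 : Nat.card (Sylow p G) ≡ 1 [MOD p] := card_sylow_modEq_one p G
  have h2 : Nat.card (Sylow p M) ≡ 1 [MOD p] := card_sylow_modEq_one p M
  rw [Sylow.card_eq_index_normalizer P] at h1
  rw [Sylow.card_eq_index_normalizer (P.subtype hPM)] at h2
  change (Subgroup.normalizer ((P : Subgroup G) : Set G)).index ≡ 1 [MOD p] at h1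
  change (Subgroup.normalizer (((P : Subgroup G).subgroupOf M : Subgroup M) : Set M)).index
    ≡ 1 [MOD p] at h2
  have h3 : (Subgroup.normalizer (((P : Subgroup G).subgroupOf M : Subgroup M) : Set M)).index
      = (Subgroup.normalizer ((P : Subgroup G) : Set G)).relIndex M := by
    rw [← Subgroup.subgroupOf_normalizer_eq hPM]; rfl
  rw [h3] at h2
  have h4 := Subgroup.relIndex_mul_index hNM
  rw [← h4] at h1
  have h5 : M.index ≡ 1 [MOD p] := by
    have := Nat.ModEq.mul_right M.index h2
    rw [one_mul] at this
    exact this.symm.trans h1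
  have hle : M.index ≤ p := hmax _ hq M.index_dvd_card
  have hp2 := (Fact.out : p.Prime).two_le
  have hq2 := hq.two_le
  rcases Nat.lt_or_eq_of_le hle with hlt | heq
  · have := Nat.ModEq.eq_of_lt_of_lt h5 hlt (by omega)
    omega
  · rw [heq] at h5
    have h6 : (0 : ℕ) ≡ 1 [MOD p] := ((Nat.modEq_zero_iff_dvd).mpr dvd_rfl).symm.trans h5
    have h7 : p ∣ 1 := (Nat.modEq_zero_iff_dvd).mp h6.symm
    have := Nat.le_of_dvd one_pos h7
    omega

/-- Preimages of maximal subgroups of a quotient are maximal. -/
theorem isCoatom_comap_mk {G : Type u} [Group G] (N : Subgroup G) [N.Normal]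
    (M' : Subgroup (G ⧸ N)) (hM' : IsCoatom M') :
    IsCoatom (M'.comap (QuotientGroup.mk' N)) := by
  have hsurj : Function.Surjective (QuotientGroup.mk' N) := QuotientGroup.mk'_surjective N
  refine ⟨?_, ?_⟩
  · intro htop
    apply hM'.1
    apply Subgroup.comap_injective hsurj
    rw [htop, Subgroup.comap_top]
  · intro K hK
    have hker : (QuotientGroup.mk' N).ker ≤ K := by
      refine le_trans ?_ hK.le
      exact Subgroup.ker_le_comap _ _
    have hle : M' ≤ K.map (QuotientGroup.mk' N) := by
      rw [← Subgroup.map_comap_eq_self_of_surjective hsurj M']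
      exact Subgroup.map_mono hK.le
    have hne : M' ≠ K.map (QuotientGroup.mk' N) := by
      intro heq
      have : K ≤ M'.comap (QuotientGroup.mk' N) := by
        rw [heq]; exact Subgroup.le_comap_map _ _
      exact (lt_irrefl _ (lt_of_lt_of_le hK this))
    have htop : K.map (QuotientGroup.mk' N) = ⊤ := hM'.2 _ (lt_of_le_of_ne hle hne)
    have := Subgroup.comap_map_eq_self hker
    rw [htop, Subgroup.comap_top] at this
    exact this.symm

theorem main : ∀ (n : ℕ) (G : Type u) [Group G] [Finite G], Nat.card G = n →
    (∀ M : Subgroup G, IsCoatom M → M.index.Prime) → Group.IsSolvable G := by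
  intro n
  induction n using Nat.strong_induction_on with
  | _ n ih =>
    intro G _ _ hn h
    by_cases h1 : Nat.card G = 1
    · have : Subsingleton G := (Nat.card_eq_one_iff_unique.mp h1).1
      exact Group.isSolvable_of_comm (fun a b => by rw [Subsingleton.elim a b])
    · have hpos : 0 < Nat.card G := Nat.card_pos
      have hne : (Nat.card G).primeFactors.Nonempty := by
        rw [Nat.nonempty_primeFactors]; omega
      set p := (Nat.card G).primeFactors.max' hne with hp_def
      have hpmem : p ∈ (Nat.card G).primeFactors := Finset.max'_mem _ hne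
      have hpprime : p.Prime := Nat.prime_of_mem_primeFactors hpmem
      have hpdvd : p ∣ Nat.card G := Nat.dvd_of_mem_primeFactors hpmem
      haveI : Fact p.Prime := ⟨hpprime⟩
      have hmax : ∀ q : ℕ, q.Prime → q ∣ Nat.card G → q ≤ p := by
        intro q hq hqd
        apply Finset.le_max'
        exact Nat.mem_primeFactors.mpr ⟨hq, hqd, by omega⟩
      obtain ⟨P⟩ : Nonempty (Sylow p G) := inferInstance
      haveI hPn : (P : Subgroup G).Normal := sylow_normal_of_max h p hmax P
      have hPne : (P : Subgroup G) ≠ ⊥ := P.ne_bot_of_dvd_card hpdvd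
      have hcardP : 1 < Nat.card (P : Subgroup G) := (Subgroup.one_lt_card_iff_ne_bot _).mpr hPne
      have hcard : Nat.card (G ⧸ (P : Subgroup G)) < n := by
        have h2 := Subgroup.card_mul_index (P : Subgroup G)
        have h3 : (P : Subgroup G).index = Nat.card (G ⧸ (P : Subgroup G)) := rfl
        have hidx : 0 < (P : Subgroup G).index := Nat.pos_of_ne_zero (Subgroup.index_ne_zero_of_finite)
        rw [← h3, ← hn, ← h2]
        nlinarith
      have hquot : Group.IsSolvable (G ⧸ (P : Subgroup G)) := by
        apply ih _ hcard (G ⧸ (P : Subgroup G)) rfl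
        intro M' hM'
        have := h _ (isCoatom_comap_mk (P : Subgroup G) M' hM')
        rwa [Subgroup.index_comap_of_surjective _ (QuotientGroup.mk'_surjective _)] at this
      haveI : Group.IsNilpotent (P : Subgroup G) := P.isPGroup'.isNilpotent
      haveI : Group.IsSolvable (P : Subgroup G) := inferInstance
      exact Group.isSolvable_of_ker_le_range (P : Subgroup G).subtype (QuotientGroup.mk' (P : Subgroup G))
        (by rw [QuotientGroup.ker_mk', Subgroup.range_subtype])

/-- If every maximal subgroup of a finite group has prime index, then the group is solvable. -/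
theorem result {G : Type*} [Group G] [Finite G] (h : ∀ M : Subgroup G, IsCoatom M → M.index.Prime) : Group.IsSolvable G := by
  exact main _ G rfl h

end Cfsg.Agent.S0580
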