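import Cfsg.Statements.S0582
import Cfsg.Agent.Helper3.Carter
import Cfsg.Agent.Helper3.Supersolv2

set_option autoImplicit false
open Cfsg
open scoped Pointwise

namespace Cfsg.Agent.S0582

open Cfsg.Agent.Helper3

universe u

/-- a finite supersolvable group has a normal Sylow subgroup for its largest prime -/
theorem ss_normal_sylow : ∀ (n : ℕ) (H : Type u) [Group H] [Finite H], Nat.card H = n →
    Cfsg.IsSupersolvable H → ∀ p : ℕ, p.Prime → p ∣ n → (∀ q : ℕ, q.Prime → q ∣ n → q ≤ p) →
    ∃ P : Subgroup H, P.Normal ∧ Nat.card P = p ^ n.factorization p := by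
  intro n
  induction n using Nat.strong_induction_on with
  | _ n ih =>
  intro H _ _ hn hH p hp hpn hmax
  haveI : Fact p.Prime := ⟨hp⟩
  have hn0 : n ≠ 0 := by rw [← hn]; exact Nat.card_pos.ne'
  have hnt : (⊤ : Subgroup H) ≠ ⊥ := by
    intro h
    have h1 : Nat.card H = 1 := by
      rw [← Subgroup.card_top (G := H), h, Subgroup.card_bot]
    rw [hn] at h1
    rw [h1] at hpn
    exact hp.one_lt.ne' (Nat.dvd_one.mp hpn)
  obtain ⟨A, hAn, hAp⟩ := exists_normal_prime_card_of_nontrivial hH hnt
  haveI := hAn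
  have hcard : Nat.card A * Nat.card (H ⧸ A) = n := by
    rw [← hn, mul_comm]; exact (Subgroup.card_eq_card_quotient_mul_card_subgroup A).symm
  have hQ0 : Nat.card (H ⧸ A) ≠ 0 := Nat.card_pos.ne'
  have hfac : n.factorization p = (Nat.card A).factorization p + (Nat.card (H ⧸ A)).factorization p := by
    rw [← hcard, Nat.factorization_mul hAp.ne_zero hQ0]; rfl
  by_cases hpQ : p ∣ Nat.card (H ⧸ A)
  · have hlt : Nat.card (H ⧸ A) < n := by
      rw [← hcard]
      exact lt_mul_of_one_lt_left (Nat.pos_of_ne_zero hQ0) hAp.one_lt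
    obtain ⟨Pb, hPbn, hPbcard⟩ := ih _ hlt (H ⧸ A) rfl (isSupersolvable_quotient hH A) p hp hpQ
      (fun q hq hqd => hmax q hq (hcard ▸ Dvd.dvd.mul_left hqd _))
    haveI := hPbn
    have hScard : Nat.card (Pb.comap (QuotientGroup.mk' A))
        = Nat.card A * p ^ (Nat.card (H ⧸ A)).factorization p := by
      rw [Cfsg.Agent.Helper1.card_comap_mk, hPbcard]
    by_cases hqp : Nat.card A = p
    · refine ⟨Pb.comap (QuotientGroup.mk' A), inferInstance, ?_⟩
      rw [hScard, hfac, hqp, hp.factorization_self, pow_add, pow_one]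
    · have hqlt : Nat.card A < p :=
        lt_of_le_of_ne (hmax _ hAp (hcard ▸ Dvd.intro _ rfl)) hqp
      have hfacA : (Nat.card A).factorization p = 0 := by
        apply Nat.factorization_eq_zero_of_not_dvd
        intro h
        exact hqp ((Nat.prime_dvd_prime_iff_eq hp hAp).mp h).symm
      obtain ⟨P₀⟩ : Nonempty (Sylow p ↥(Pb.comap (QuotientGroup.mk' A))) := inferInstance
      have hP₀card : Nat.card P₀ = p ^ (Nat.card (H ⧸ A)).factorization p := by
        have e0 := Sylow.card_eq_multiplicity P₀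
        have e1 : ∀ b : ℕ, (Nat.card A * p ^ b).factorization p = b := by
          intro b
          have hnd : ¬ p ∣ Nat.card A := fun h =>
            hqp ((Nat.prime_dvd_prime_iff_eq hp hAp).mp h).symm
          rw [Nat.factorization_mul hAp.ne_zero (pow_ne_zero _ hp.ne_zero)]
          simp [hp.factorization_pow, Nat.factorization_eq_zero_of_not_dvd hnd]
        rw [e0, hScard, e1]
      haveI : Subsingleton (Sylow p ↥(Pb.comap (QuotientGroup.mk' A))) := by
        apply Finite.card_le_one_iff_subsingleton.mp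
        have h1 := Sylow.card_dvd_index P₀
        have hidx : (P₀ : Subgroup ↥(Pb.comap (QuotientGroup.mk' A))).index = Nat.card A := by
          have := Subgroup.card_mul_index (P₀ : Subgroup ↥(Pb.comap (QuotientGroup.mk' A)))
          rw [hScard, hP₀card, mul_comm] at this
          exact Nat.eq_of_mul_eq_mul_right (pow_pos hp.pos _) this
        rw [hidx] at h1
        have h2 : Nat.card (Sylow p ↥(Pb.comap (QuotientGroup.mk' A))) ≡ 1 [MOD p] :=
          card_sylow_modEq_one p _
        rcases (Nat.dvd_prime hAp).mp h1 with h3 | h3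
        · exact h3.le
        · exfalso
          rw [h3] at h2
          have h4 : Nat.card A % p = 1 % p := h2
          rw [Nat.mod_eq_of_lt hqlt, Nat.mod_eq_of_lt hp.one_lt] at h4
          exact hAp.one_lt.ne' h4
      haveI := Sylow.characteristic_of_subsingleton P₀
      refine ⟨(P₀ : Subgroup ↥(Pb.comap (QuotientGroup.mk' A))).map
        (Pb.comap (QuotientGroup.mk' A)).subtype, ConjAct.normal_of_characteristic_of_normal, ?_⟩
      rw [Subgroup.card_map_of_injective (Subgroup.subtype_injective _), hP₀card, hfac, hfacA,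
        zero_add]
  · have hqp : Nat.card A = p := by
      have : p ∣ Nat.card A * Nat.card (H ⧸ A) := hcard ▸ hpn
      rcases (Nat.Prime.dvd_mul hp).mp this with h | h
      · exact ((Nat.prime_dvd_prime_iff_eq hp hAp).mp h).symm
      · exact absurd h hpQ
    refine ⟨A, hAn, ?_⟩
    rw [hfac, hqp, hp.factorization_self, Nat.factorization_eq_zero_of_not_dvd hpQ, add_zero,
      pow_one]

theorem ss_conj {G : Type u} [Group G] (H : Subgroup G) (hH : Cfsg.IsSupersolvable H) (g : G) :
    Cfsg.IsSupersolvable ↥(MulAut.conj g • H : Subgroup G) :=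
  isSupersolvable_of_mulEquiv hH (Subgroup.equivSMul (MulAut.conj g) H)

theorem main : ∀ (n : ℕ) (G : Type u) [Group G] [Finite G], Nat.card G = n →
    ∀ H K : Subgroup G, Cfsg.IsSupersolvable H → Cfsg.IsSupersolvable K →
    Nat.card H = Nat.card K → (Nat.card H).Coprime H.index →
    ∃ x : G, MulAut.conj x • H = K := by
  intro n
  induction n using Nat.strong_induction_on with
  | _ n ih =>
  intro G _ _ hn H K hH hK hcard hHall
  by_cases h1 : Nat.card H = 1
  · refine ⟨1, ?_⟩
    rw [map_one, one_smul, Subgroup.eq_bot_of_card_eq H h1,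
      Subgroup.eq_bot_of_card_eq K (hcard ▸ h1)]
  -- the largest prime
  have hne : (Nat.card H).primeFactors.Nonempty := by
    rw [Nat.nonempty_primeFactors]
    exact lt_of_le_of_ne Nat.card_pos (Ne.symm h1)
  obtain ⟨p, hpdef⟩ : ∃ p, p = (Nat.card H).primeFactors.max' hne := ⟨_, rfl⟩
  have hpmem : p ∈ (Nat.card H).primeFactors := hpdef ▸ Finset.max'_mem _ hne
  have hp : p.Prime := Nat.prime_of_mem_primeFactors hpmem
  have hpH : p ∣ Nat.card H := Nat.dvd_of_mem_primeFactors hpmem
  haveI : Fact p.Prime := ⟨hp⟩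
  have hmax : ∀ q : ℕ, q.Prime → q ∣ Nat.card H → q ≤ p := by
    intro q hq hqd
    rw [hpdef]
    exact Finset.le_max' _ q (Nat.mem_primeFactors.mpr ⟨hq, hqd, Nat.card_pos.ne'⟩)
  obtain ⟨PH, hPHn, hPHcard⟩ := ss_normal_sylow _ ↥H rfl hH p hp hpH hmax
  obtain ⟨PK, hPKn, hPKcard⟩ := ss_normal_sylow _ ↥K rfl hK p hp (hcard ▸ hpH)
    (fun q hq hqd => hmax q hq (hcard ▸ hqd))
  have hfacG : (Nat.card G).factorization p = (Nat.card H).factorization p := by
    rw [← Subgroup.card_mul_index H, Nat.factorization_mul Nat.card_pos.ne'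
      Subgroup.index_ne_zero_of_finite, Finsupp.add_apply,
      Nat.factorization_eq_zero_of_not_dvd (n := H.index), add_zero]
    intro hd
    have := Nat.dvd_gcd hpH hd
    rw [Nat.Coprime.gcd_eq_one hHall] at this
    exact hp.one_lt.ne' (Nat.dvd_one.mp this)
  have hPcard : Nat.card (PH.map H.subtype) = p ^ (Nat.card G).factorization p := by
    rw [Subgroup.card_map_of_injective H.subtype_injective, hPHcard, hfacG]
  have hQcard : Nat.card (PK.map K.subtype) = p ^ (Nat.card G).factorization p := by
    rw [Subgroup.card_map_of_injective K.subtype_injective, hPKcard, hfacG, hcard]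
  obtain ⟨g, hg⟩ := MulAction.exists_smul_eq G (Sylow.ofCard _ hPcard) (Sylow.ofCard _ hQcard)
  have hg' : MulAut.conj g • PH.map H.subtype = PK.map K.subtype := by
    have := congrArg (fun S : Sylow p G => (S : Subgroup G)) hg
    exact this
  suffices hsuff : ∃ x : G, MulAut.conj x • (MulAut.conj g • H) = K by
    obtain ⟨x, hx⟩ := hsuff
    exact ⟨x * g, by rw [map_mul, mul_smul]; exact hx⟩
  have hH' := ss_conj H hH g
  have hcard' : Nat.card ↥(MulAut.conj g • H : Subgroup G) = Nat.card K := by
    rw [card_conj_smul, hcard]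
  have hHall' : (Nat.card ↥(MulAut.conj g • H : Subgroup G)).Coprime
      (MulAut.conj g • H : Subgroup G).index := by
    rw [card_conj_smul, index_conj_smul]; exact hHall
  have hQH' : PK.map K.subtype ≤ MulAut.conj g • H := by
    rw [← hg']
    exact Subgroup.pointwise_smul_le_pointwise_smul_iff.mpr (Subgroup.map_subtype_le _)
  have hPN : H ≤ Subgroup.normalizer ((PH.map H.subtype : Subgroup G) : Set G) := by
    intro c hc
    apply Cfsg.Agent.S0540.mem_normalizer_of_smul_le
    intro y hy
    obtain ⟨x, ⟨q, hq, rfl⟩, rfl⟩ := (Subgroup.mem_smul_pointwise_iff_exists _ _ _).mp hy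
    refine ⟨⟨c, hc⟩ * q * ⟨c, hc⟩⁻¹, hPHn.conj_mem q hq _, ?_⟩
    simp [MulAut.smul_def, MulAut.conj_apply]
  have hQNK : K ≤ Subgroup.normalizer ((PK.map K.subtype : Subgroup G) : Set G) := by
    intro c hc
    apply Cfsg.Agent.S0540.mem_normalizer_of_smul_le
    intro y hy
    obtain ⟨x, ⟨q, hq, rfl⟩, rfl⟩ := (Subgroup.mem_smul_pointwise_iff_exists _ _ _).mp hy
    refine ⟨⟨c, hc⟩ * q * ⟨c, hc⟩⁻¹, hPKn.conj_mem q hq _, ?_⟩
    simp [MulAut.smul_def, MulAut.conj_apply]
  have hQNH' : MulAut.conj g • H ≤ Subgroup.normalizer ((PK.map K.subtype : Subgroup G) : Set G) := by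
    rw [← hg', normalizer_conj_smul]
    exact Subgroup.pointwise_smul_le_pointwise_smul_iff.mpr hPN
  have hQK : PK.map K.subtype ≤ K := Subgroup.map_subtype_le _
  have hQne : PK.map K.subtype ≠ ⊥ := by
    intro h
    have h2 := hQcard
    rw [h, Subgroup.card_bot, hfacG] at h2
    have h3 : 0 < (Nat.card H).factorization p :=
      hp.factorization_pos_of_dvd Nat.card_pos.ne' hpH
    exact (Nat.one_lt_pow h3.ne' hp.one_lt).ne h2
  generalize PK.map K.subtype = Q at hQcard hQH' hQNK hQNH' hQK hQne
  generalize MulAut.conj g • H = H' at hH' hcard' hHall' hQH' hQNH' ⊢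
  by_cases hNQ : Subgroup.normalizer (Q : Set G) = ⊤
  swap
  · -- pass to the normalizer
    have hlt : Nat.card ↥(Subgroup.normalizer (Q : Set G)) < n := by
      rw [← hn]; exact card_lt_of_ne_top _ hNQ
    have e1 : Nat.card (H'.subgroupOf (Subgroup.normalizer (Q : Set G))) = Nat.card H' :=
      Nat.card_congr (Subgroup.subgroupOfEquivOfLe hQNH').toEquiv
    have e2 : Nat.card (K.subgroupOf (Subgroup.normalizer (Q : Set G))) = Nat.card K :=
      Nat.card_congr (Subgroup.subgroupOfEquivOfLe hQNK).toEquiv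
    obtain ⟨x, hx⟩ := ih _ hlt ↥(Subgroup.normalizer (Q : Set G)) rfl
      (H'.subgroupOf (Subgroup.normalizer (Q : Set G)))
      (K.subgroupOf (Subgroup.normalizer (Q : Set G)))
      (isSupersolvable_of_mulEquiv hH' (Subgroup.subgroupOfEquivOfLe hQNH').symm)
      (isSupersolvable_of_mulEquiv hK (Subgroup.subgroupOfEquivOfLe hQNK).symm)
      (by rw [e1, e2, hcard'])
      (by
        rw [e1]
        exact Nat.Coprime.coprime_dvd_right (Subgroup.relIndex_dvd_index_of_le hQNH') hHall')
    refine ⟨x, ?_⟩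
    have := congrArg (Subgroup.map (Subgroup.normalizer (Q : Set G)).subtype) hx
    rw [map_conj_smul, Subgroup.subgroupOf_map_subtype, Subgroup.subgroupOf_map_subtype,
      inf_of_le_left hQNH', inf_of_le_left hQNK] at this
    exact this
  · haveI hQn : Q.Normal := Subgroup.normalizer_eq_top_iff.mp hNQ
    have hlt : Nat.card (G ⧸ Q) < n := by rw [← hn]; exact card_quot_lt_of_ne_bot Q hQne
    have cm : ∀ L : Subgroup G, Q ≤ L →
        Nat.card L = Nat.card Q * Nat.card (L.map (QuotientGroup.mk' Q)) := by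
      intro L hL
      rw [← Cfsg.Agent.Helper1.card_comap_mk, Subgroup.comap_map_eq, QuotientGroup.ker_mk',
        sup_eq_left.mpr hL]
    have hcardb : Nat.card (H'.map (QuotientGroup.mk' Q)) = Nat.card (K.map (QuotientGroup.mk' Q)) := by
      have h2 := cm H' hQH'
      have h3 := cm K hQK
      rw [hcard', h3] at h2
      exact (Nat.eq_of_mul_eq_mul_left Nat.card_pos h2).symm
    have hHallb : (Nat.card (H'.map (QuotientGroup.mk' Q))).Coprime
        (H'.map (QuotientGroup.mk' Q)).index := by
      have h2 : (H'.map (QuotientGroup.mk' Q)).index ∣ H'.index :=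
        Subgroup.index_map_dvd H' (QuotientGroup.mk'_surjective Q)
      have h3 : Nat.card (H'.map (QuotientGroup.mk' Q)) ∣ Nat.card H' :=
        Subgroup.card_map_dvd H' (QuotientGroup.mk' Q)
      exact Nat.Coprime.coprime_dvd_left h3 (Nat.Coprime.coprime_dvd_right h2 hHall')
    obtain ⟨xb, hxb⟩ := ih _ hlt (G ⧸ Q) rfl (H'.map (QuotientGroup.mk' Q))
      (K.map (QuotientGroup.mk' Q))
      (isSupersolvable_of_surjective hH' ((QuotientGroup.mk' Q).subgroupMap H')
        ((QuotientGroup.mk' Q).subgroupMap_surjective H'))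
      (isSupersolvable_of_surjective hK ((QuotientGroup.mk' Q).subgroupMap K)
        ((QuotientGroup.mk' Q).subgroupMap_surjective K))
      hcardb hHallb
    obtain ⟨x, rfl⟩ := QuotientGroup.mk'_surjective Q xb
    refine ⟨x, ?_⟩
    rw [← map_conj_smul] at hxb
    have := congrArg (Subgroup.comap (QuotientGroup.mk' Q)) hxb
    rw [Subgroup.comap_map_eq, Subgroup.comap_map_eq, QuotientGroup.ker_mk'] at this
    have h1 : Q ≤ MulAut.conj x • H' := by
      have h2 : MulAut.conj x • Q ≤ MulAut.conj x • H' :=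
        Subgroup.pointwise_smul_le_pointwise_smul_iff.mpr hQH'
      rwa [Subgroup.Normal.conj_smul_eq_self x Q] at h2
    rw [sup_eq_left.mpr h1, sup_eq_left.mpr hQK] at this
    exact this

/-- Let H and K be supersolvable subgroups of a finite group G of the same order, that order being coprime to their index. Then H and K are conjugate in G. -/
theorem result {G : Type*} [Group G] [Finite G] (H K : Subgroup G) (hH : Cfsg.IsSupersolvable H) (hK : Cfsg.IsSupersolvable K) (hcard : Nat.card H = Nat.card K) (hHall : (Nat.card H).Coprime H.index) : ∃ x : G, MulAut.conj x • H = K :=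
  main _ G rfl H K hH hK hcard hHall

end Cfsg.Agent.S0582
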