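import Cfsg.Statements.S0584
import Mathlib

set_option autoImplicit false
open Cfsg
open scoped Pointwise

namespace Cfsg.Agent.S0584

/-- Let B ≤ A be normal subgroups of a finite group G with B contained in the Frattini subgroup of G. If A modulo B is nilpotent then A is nilpotent. -/
theorem result {G : Type*} [Group G] [Finite G] (A B : Subgroup G) [A.Normal] [B.Normal] (hBA : B ≤ A) (hB : B ≤ frattini G) (h : Group.IsNilpotent (↥A ⧸ B.subgroupOf A)) : Group.IsNilpotent A := by
  have q := (Group.isNilpotent_of_finite_tfae (G := A)).out 0 3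
  rw [q]; clear q
  intro p p_prime P
  haveI := h
  let Pbar : Sylow p (↥A ⧸ B.subgroupOf A) := P.mapSurjective (QuotientGroup.mk'_surjective (B.subgroupOf A))
  have hPbar : (Pbar : Subgroup (↥A ⧸ B.subgroupOf A)) = (P : Subgroup A).map (QuotientGroup.mk' (B.subgroupOf A)) :=
    Sylow.coe_mapSurjective _ _
  have hPbarN : (Pbar : Subgroup (↥A ⧸ B.subgroupOf A)).Normal := inferInstance
  set K : Subgroup A := ((P : Subgroup A).map (QuotientGroup.mk' (B.subgroupOf A))).comap (QuotientGroup.mk' (B.subgroupOf A)) with hK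
  haveI hKn : K.Normal := by
    rw [hK, ← hPbar]
    exact Subgroup.Normal.comap hPbarN _
  have hKeq : K = (P : Subgroup A) ⊔ B.subgroupOf A := by
    rw [hK, Subgroup.comap_map_eq, QuotientGroup.ker_mk']
  have hPK : (P : Subgroup A) ≤ K := Subgroup.le_comap_map _ _
  have hfr := Sylow.normalizer_sup_eq_top' P hPK
  have h1 : Subgroup.normalizer ((P : Subgroup A) : Set A) ⊔ B.subgroupOf A = ⊤ := by
    rw [hKeq, ← sup_assoc] at hfr
    have hfr' : Subgroup.normalizer ((P : Subgroup A) : Set A) ⊔ (P : Subgroup A) ⊔ B.subgroupOf A = ⊤ := hfr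
    have hle : (P : Subgroup A) ≤ Subgroup.normalizer ((P : Subgroup A) : Set A) := Subgroup.le_normalizer
    rw [sup_eq_left.mpr hle] at hfr'
    exact hfr'
  have hfrG := Sylow.normalizer_sup_eq_top P
  have h2 : (Subgroup.normalizer ((P : Subgroup A) : Set A)).map A.subtype ≤ Subgroup.normalizer (((P : Subgroup A).map A.subtype : Subgroup G) : Set G) :=
    Subgroup.le_normalizer_map _
  have h3 : A ≤ Subgroup.normalizer (((P : Subgroup A).map A.subtype : Subgroup G) : Set G) ⊔ B := by
    have hA : A = (⊤ : Subgroup A).map A.subtype := by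
      rw [← MonoidHom.range_eq_map, Subgroup.range_subtype]
    have h3' : (⊤ : Subgroup A).map A.subtype ≤ Subgroup.normalizer (((P : Subgroup A).map A.subtype : Subgroup G) : Set G) ⊔ B := by
      rw [← h1, Subgroup.map_sup]
      apply sup_le_sup h2
      rw [Subgroup.subgroupOf_map_subtype]; exact inf_le_left
    exact hA.le.trans h3'
  have h4 : Subgroup.normalizer (((P : Subgroup A).map A.subtype : Subgroup G) : Set G) ⊔ frattini G = ⊤ := by
    rw [eq_top_iff, ← hfrG]
    apply sup_le le_sup_left
    exact h3.trans (sup_le_sup le_rfl hB)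
  have h5 := frattini_nongenerating h4
  have P_normal_in_G : (Subgroup.map A.subtype (P : Subgroup A)).Normal := Subgroup.normalizer_eq_top_iff.mp h5
  exact P_normal_in_G.of_map_subtype

end Cfsg.Agent.S0584
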