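import Cfsg.Statements.S0585
import Mathlib

set_option autoImplicit false
open Cfsg
open scoped Pointwise

namespace Cfsg.Agent.S0585

/-- If the Frattini subgroup of a finite group G is trivial, then every abelian normal subgroup of G has a complement in G. -/
theorem result {G : Type*} [Group G] [Finite G] (hΦ : frattini G = ⊥) (A : Subgroup G) [A.Normal] [IsMulCommutative A] : ∃ H : Subgroup G, Subgroup.IsComplement' A H := by
  haveI : Nonempty {H : Subgroup G // A ⊔ H = ⊤} := ⟨⟨⊤, sup_top_eq A⟩⟩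
  obtain ⟨⟨H, hH⟩, hmin⟩ := Finite.exists_min (fun H : {H : Subgroup G // A ⊔ H = ⊤} => Nat.card (H : Subgroup G))
  have hmin' : ∀ K : Subgroup G, A ⊔ K = ⊤ → Nat.card H ≤ Nat.card K := fun K hK => hmin ⟨K, hK⟩
  have hAH : ∀ g : G, ∃ a ∈ A, ∃ h ∈ H, a * h = g := by
    intro g
    have hg : g ∈ ((A ⊔ H : Subgroup G) : Set G) := by rw [hH]; trivial
    rw [Subgroup.normal_mul] at hg
    exact Set.mem_mul.mp hg
  have hAcomm : ∀ a ∈ A, ∀ b ∈ A, a * b = b * a := fun a ha b hb => setLike_mul_comm ha hb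
  refine ⟨H, ?_⟩
  have hdisj : A ⊓ H = ⊥ := by
    by_contra hD
    have hDn : (A ⊓ H).Normal := by
      constructor
      intro x hx g
      obtain ⟨a, ha, h, hh, rfl⟩ := hAH g
      have h1 : h * x * h⁻¹ ∈ A := Subgroup.Normal.conj_mem inferInstance x hx.1 h
      have h2 : h * x * h⁻¹ ∈ H := mul_mem (mul_mem hh hx.2) (inv_mem hh)
      have h3 : a * h * x * (a * h)⁻¹ = h * x * h⁻¹ := by
        calc a * h * x * (a * h)⁻¹ = (a * (h * x * h⁻¹)) * a⁻¹ := by simp [mul_assoc]
          _ = h * x * h⁻¹ := by rw [hAcomm a ha _ h1]; simp [mul_assoc]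
      rw [h3]
      exact ⟨h1, h2⟩
    have hex : ∃ M : Subgroup G, IsCoatom M ∧ ¬ (A ⊓ H ≤ M) := by
      by_contra hno
      push Not at hno
      apply hD
      rw [eq_bot_iff, ← hΦ]
      unfold frattini Order.radical
      exact le_iInf₂ (fun M hM => hno M hM)
    obtain ⟨M, hM, hDM⟩ := hex
    have htop : (A ⊓ H) ⊔ M = ⊤ := by
      apply hM.2
      refine lt_of_le_of_ne le_sup_right ?_
      intro h
      apply hDM
      rw [h]; exact le_sup_left
    have hnew : A ⊔ (H ⊓ M) = ⊤ := by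
      rw [eq_top_iff]
      intro g _
      obtain ⟨a, ha, h, hh, rfl⟩ := hAH g
      have hg : h ∈ (((A ⊓ H) ⊔ M : Subgroup G) : Set G) := by rw [htop]; trivial
      rw [Subgroup.normal_mul] at hg
      obtain ⟨d, hd, m, hm, rfl⟩ := Set.mem_mul.mp hg
      have hmH : m ∈ H := by
        have : m = d⁻¹ * (d * m) := by simp
        rw [this]
        exact mul_mem (inv_mem hd.2) hh
      rw [← mul_assoc]
      exact mul_mem (Subgroup.mem_sup_left (mul_mem ha hd.1)) (Subgroup.mem_sup_right ⟨hmH, hm⟩)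
    have hcard := hmin' _ hnew
    have heq : H ⊓ M = H := Subgroup.eq_of_le_of_card_ge inf_le_left hcard
    have hHM : H ≤ M := by rw [← heq]; exact inf_le_right
    exact hDM (inf_le_right.trans hHM)
  apply Subgroup.isComplement'_of_disjoint_and_mul_eq_univ (disjoint_iff.mpr hdisj)
  rw [← Subgroup.normal_mul, hH]; rfl

end Cfsg.Agent.S0585
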