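import Cfsg.Statements.S0586
import Cfsg.Agent.S0583
import Cfsg.Agent.S0585
import Cfsg.Agent.Helper3.Subnormal
import Cfsg.Agent.Helper1.Fitting

set_option autoImplicit false
open Cfsg
open scoped Pointwise

namespace Cfsg.Agent.S0586

theorem isNilpotent_of_comm {G : Type*} [Group G] (N : Subgroup G) (h : IsMulCommutative N) :
    Group.IsNilpotent N := by
  rw [Subgroup.isNilpotent_iff_lowerCentralSeries]
  refine ⟨1, ?_⟩
  rw [Subgroup.lowerCentralSeries_succ, Subgroup.lowerCentralSeries_zero,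
    Subgroup.commutator_eq_bot_iff_le_centralizer, Subgroup.le_centralizer_iff_isMulCommutative]
  exact h

/-- If the Frattini subgroup of a finite group G is trivial, then the Fitting subgroup of G equals the join of all abelian minimal normal subgroups of G. -/
theorem result {G : Type*} [Group G] [Finite G] (hΦ : frattini G = ⊥) : Cfsg.fittingSubgroup G = sSup {N : Subgroup G | N.Normal ∧ N ≠ ⊥ ∧ IsMulCommutative N ∧ ∀ K : Subgroup G, K.Normal → K ≤ N → K = ⊥ ∨ K = N} := by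
  have hF : ∀ N ∈ {N : Subgroup G | N.Normal ∧ N ≠ ⊥ ∧ IsMulCommutative N ∧
      ∀ K : Subgroup G, K.Normal → K ≤ N → K = ⊥ ∨ K = N},
      Cfsg.fittingSubgroup G ≤ Subgroup.centralizer (N : Set G) := by
    intro N hN
    haveI := hN.1
    exact Cfsg.Agent.S0583.result N hN.2.1 hN.2.2.2
  have hFn : (Cfsg.fittingSubgroup G).Normal := Cfsg.Agent.Helper1.fitting_normal G
  have hSF : sSup {N : Subgroup G | N.Normal ∧ N ≠ ⊥ ∧ IsMulCommutative N ∧
      ∀ K : Subgroup G, K.Normal → K ≤ N → K = ⊥ ∨ K = N} ≤ Cfsg.fittingSubgroup G :=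
    sSup_le (fun N hN => Cfsg.Agent.Helper1.le_fitting hN.1 (isNilpotent_of_comm N hN.2.2.1))
  haveI hSn : (sSup {N : Subgroup G | N.Normal ∧ N ≠ ⊥ ∧ IsMulCommutative N ∧
      ∀ K : Subgroup G, K.Normal → K ≤ N → K = ⊥ ∨ K = N}).Normal :=
    Subgroup.sSup_normal _ (fun N hN => hN.1)
  have hSC : sSup {N : Subgroup G | N.Normal ∧ N ≠ ⊥ ∧ IsMulCommutative N ∧
      ∀ K : Subgroup G, K.Normal → K ≤ N → K = ⊥ ∨ K = N} ≤
      Subgroup.centralizer (Cfsg.fittingSubgroup G : Set G) := by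
    apply sSup_le
    intro N hN
    rw [Subgroup.le_centralizer_iff]
    exact hF N hN
  haveI hScomm : IsMulCommutative ↥(sSup {N : Subgroup G | N.Normal ∧ N ≠ ⊥ ∧ IsMulCommutative N ∧
      ∀ K : Subgroup G, K.Normal → K ≤ N → K = ⊥ ∨ K = N} : Subgroup G) := by
    rw [← Subgroup.le_centralizer_iff_isMulCommutative]
    exact hSC.trans (Subgroup.centralizer_le hSF)
  obtain ⟨H, hH⟩ := Cfsg.Agent.S0585.result hΦ (sSup {N : Subgroup G | N.Normal ∧ N ≠ ⊥ ∧
      IsMulCommutative N ∧ ∀ K : Subgroup G, K.Normal → K ≤ N → K = ⊥ ∨ K = N})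
  have hdisj := disjoint_iff.mp hH.disjoint
  have hsup := hH.sup_eq_top
  have hdec : ∀ g : G, ∃ s ∈ sSup {N : Subgroup G | N.Normal ∧ N ≠ ⊥ ∧ IsMulCommutative N ∧
      ∀ K : Subgroup G, K.Normal → K ≤ N → K = ⊥ ∨ K = N}, ∃ h ∈ H, s * h = g := by
    intro g
    have hg : g ∈ ((sSup {N : Subgroup G | N.Normal ∧ N ≠ ⊥ ∧ IsMulCommutative N ∧
      ∀ K : Subgroup G, K.Normal → K ≤ N → K = ⊥ ∨ K = N} ⊔ H : Subgroup G) : Set G) := by
      rw [hsup]; trivial
    rw [Subgroup.normal_mul] at hg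
    exact Set.mem_mul.mp hg
  have hDn : (Cfsg.fittingSubgroup G ⊓ H).Normal := by
    constructor
    intro x hx g
    obtain ⟨s, hs, h, hh, rfl⟩ := hdec g
    have h1 : h * x * h⁻¹ ∈ Cfsg.fittingSubgroup G := hFn.conj_mem x hx.1 h
    have h2 : h * x * h⁻¹ ∈ H := mul_mem (mul_mem hh hx.2) (inv_mem hh)
    have h3 : s * (h * x * h⁻¹) = (h * x * h⁻¹) * s :=
      ((Subgroup.mem_centralizer_iff.mp (hSC hs)) _ h1).symm
    have h4 : s * h * x * (s * h)⁻¹ = h * x * h⁻¹ := by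
      calc s * h * x * (s * h)⁻¹ = (s * (h * x * h⁻¹)) * s⁻¹ := by simp [mul_assoc]
        _ = h * x * h⁻¹ := by rw [h3]; simp [mul_assoc]
    rw [h4]; exact ⟨h1, h2⟩
  have hD : Cfsg.fittingSubgroup G ⊓ H = ⊥ := by
    by_contra hne
    haveI := hDn
    obtain ⟨M, ⟨hMn, hM0, hMmin⟩, hMD⟩ :=
      Cfsg.Agent.Helper3.exists_isMinNormal_le (Cfsg.fittingSubgroup G ⊓ H) hne
    haveI := hMn
    have hMF : M ≤ Cfsg.fittingSubgroup G := hMD.trans inf_le_left
    have hMc : IsMulCommutative M := by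
      rw [← Subgroup.le_centralizer_iff_isMulCommutative]
      exact hMF.trans (Cfsg.Agent.S0583.result M hM0 hMmin)
    have hMT : M ∈ {N : Subgroup G | N.Normal ∧ N ≠ ⊥ ∧ IsMulCommutative N ∧
      ∀ K : Subgroup G, K.Normal → K ≤ N → K = ⊥ ∨ K = N} := ⟨hMn, hM0, hMc, hMmin⟩
    have hle : M ≤ sSup {N : Subgroup G | N.Normal ∧ N ≠ ⊥ ∧ IsMulCommutative N ∧
      ∀ K : Subgroup G, K.Normal → K ≤ N → K = ⊥ ∨ K = N} ⊓ H :=
      le_inf (le_sSup hMT) (hMD.trans inf_le_right)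
    rw [hdisj] at hle
    exact hM0 (le_bot_iff.mp hle)
  apply le_antisymm _ hSF
  intro f hf
  obtain ⟨s, hs, h, hh, rfl⟩ := hdec f
  have hmem : h ∈ Cfsg.fittingSubgroup G ⊓ H := by
    refine ⟨?_, hh⟩
    have : h = s⁻¹ * (s * h) := by simp
    rw [this]
    exact (Cfsg.fittingSubgroup G).mul_mem ((Cfsg.fittingSubgroup G).inv_mem (hSF hs)) hf
  rw [hD, Subgroup.mem_bot] at hmem
  rw [hmem, mul_one]; exact hs

end Cfsg.Agent.S0586
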