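import Mathlib
import Cfsg.Prelude.Def_Solvable
import Cfsg.Prelude.Def_Transfer
import Cfsg.Agent.Helper1.Fitting
import Cfsg.Agent.Helper3.ElemAb
import Cfsg.Agent.Helper3.ItoLemma
import Cfsg.Agent.Helper19.PCenter
import Cfsg.Agent.S0540
set_option autoImplicit false
open Cfsg

open scoped Pointwise

namespace Cfsg.Agent.S0587

universe u

open Cfsg.Agent.Helper3

theorem main {G : Type u} [Group G] [Finite G] (p : ℕ) [hp : Fact p.Prime]
    (hL : Cfsg.pCore p G ≠ ⊥) (M : Subgroup G) (hM : IsCoatom M) (hcore : M.normalCore = ⊥) :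
    Cfsg.IsElementaryAbelian p (Cfsg.pCore p G) ∧ Subgroup.IsComplement' (Cfsg.pCore p G) M ∧
    (∀ K : Subgroup G, K.Normal → K ≤ Cfsg.pCore p G → K = ⊥ ∨ K = Cfsg.pCore p G) ∧
    Subgroup.centralizer ((Cfsg.pCore p G : Subgroup G) : Set G) = Cfsg.pCore p G ∧
    ∀ (q : ℕ) [Fact q.Prime], Cfsg.pCore q ↥M ≠ ⊥ →
      Nat.card (Cfsg.pCore p G) % q = 1 % q ∧ q ≠ p := by
  set L := Cfsg.pCore p G with hLdef
  haveI hLn : L.Normal := Helper1.pCore_normal p G
  have hLp : IsPGroup p L := Helper1.pCore_isPGroup p G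
  have hcoreM : ∀ K : Subgroup G, K.Normal → K ≤ M → K = ⊥ := by
    intro K hK hKM
    have : K ≤ M.normalCore := (Subgroup.normal_le_normalCore (hN := hK)).mpr hKM
    rw [hcore] at this
    exact le_bot_iff.mp this
  have key : ∀ (Z K : Subgroup G), Z ⊔ M = ⊤ → K ≤ M →
      (∀ m ∈ M, ∀ k ∈ K, m * k * m⁻¹ ∈ K) → (∀ z ∈ Z, ∀ k ∈ K, z * k = k * z) → K = ⊥ := by
    intro Z K hZM hKM hnorm hcent
    apply hcoreM K ?_ hKM
    rw [← Subgroup.normalizer_eq_top_iff, eq_top_iff, ← hZM]
    apply sup_le
    · intro z hz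
      apply S0540.mem_normalizer_of_smul_le
      intro y hy
      obtain ⟨k, hk, rfl⟩ := (Subgroup.mem_smul_pointwise_iff_exists _ _ _).mp hy
      have : MulAut.conj z • k = k := by
        rw [MulAut.smul_def, MulAut.conj_apply, hcent z hz k hk]; group
      rw [this]; exact hk
    · intro m hm
      apply S0540.mem_normalizer_of_smul_le
      intro y hy
      obtain ⟨k, hk, rfl⟩ := (Subgroup.mem_smul_pointwise_iff_exists _ _ _).mp hy
      exact hnorm m hm k hk
  have hLM : ∀ K : Subgroup G, K.Normal → K ≠ ⊥ → K ⊔ M = ⊤ := by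
    intro K hK hK0
    have hnot : ¬ K ≤ M := fun h => hK0 (hcoreM K hK h)
    apply hM.2
    exact lt_of_le_of_ne le_sup_right (fun h => hnot (h ▸ le_sup_left))
  obtain ⟨a, ha⟩ := IsPGroup.iff_card.mp hLp
  have hLcard : p ∣ Nat.card L := by
    rcases Nat.eq_zero_or_pos a with h0 | h0
    · exfalso; rw [h0, pow_zero] at ha; exact hL (Subgroup.card_eq_one.mp ha)
    · rw [ha]; exact dvd_pow_self p h0.ne'
  set Z := L ⊓ Subgroup.centralizer (L : Set G) with hZ
  haveI hZn : Z.Normal := Subgroup.normal_inf_normal _ _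
  have hZ0 : Z ≠ ⊥ := by
    obtain ⟨b, -, hb1, hbZ⟩ := Helper19.exists_mem_center_of_normal hLp (⊤ : Subgroup L)
      (by rw [Subgroup.card_top]; exact hLcard)
    intro h0
    have : (b : G) ∈ Z := by
      refine Subgroup.mem_inf.mpr ⟨b.2, ?_⟩
      rw [Subgroup.mem_centralizer_iff]
      intro x hx
      exact congrArg Subtype.val (Subgroup.mem_center_iff.mp hbZ ⟨x, hx⟩)
    rw [h0, Subgroup.mem_bot] at this
    exact hb1 (Subtype.ext this)
  have hZM := hLM Z hZn hZ0
  have hLM0 : L ⊓ M = ⊥ := by
    apply key Z (L ⊓ M) hZM inf_le_right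
    · intro m hm k hk
      rw [Subgroup.mem_inf] at hk ⊢
      exact ⟨hLn.conj_mem k hk.1 m, mul_mem (mul_mem hm hk.2) (inv_mem hm)⟩
    · intro z hz k hk
      exact (Subgroup.mem_centralizer_iff.mp (Subgroup.mem_inf.mp hz).2 k
        (Subgroup.mem_inf.mp hk).1).symm
  have hLsupM : L ⊔ M = ⊤ := hLM L hLn hL
  have hcardL := card_mul_card_eq_of_le_normalizer M L
    (by rw [Subgroup.normalizer_eq_top]; exact le_top)
  have hcardZ := card_mul_card_eq_of_le_normalizer M Z
    (by rw [Subgroup.normalizer_eq_top]; exact le_top)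
  have hZM0 : Z ⊓ M = ⊥ := by
    rw [eq_bot_iff, ← hLM0]; exact inf_le_inf_right M inf_le_left
  rw [sup_comm, hLsupM, inf_comm, hLM0, Subgroup.card_bot, mul_one, Subgroup.card_top] at hcardL
  rw [sup_comm, hZM, inf_comm, hZM0, Subgroup.card_bot, mul_one, Subgroup.card_top] at hcardZ
  have hZL : Z = L := by
    apply Subgroup.eq_of_le_of_card_ge inf_le_left
    have : Nat.card M * Nat.card L = Nat.card M * Nat.card Z := by rw [hcardL, hcardZ]
    exact (Nat.eq_of_mul_eq_mul_left Nat.card_pos this).le
  have hLab : ∀ x ∈ L, ∀ y ∈ L, x * y = y * x := by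
    intro x hx y hy
    have hyZ : y ∈ Z := hZL ▸ hy
    exact Subgroup.mem_centralizer_iff.mp (Subgroup.mem_inf.mp hyZ).2 x hx
  have hmin : ∀ K : Subgroup G, K.Normal → K ≤ L → K = ⊥ ∨ K = L := by
    intro K hK hKL
    by_cases hK0 : K = ⊥
    · exact Or.inl hK0
    · right
      haveI := hK
      have hKM := hLM K hK hK0
      have hcardK := card_mul_card_eq_of_le_normalizer M K
        (by rw [Subgroup.normalizer_eq_top]; exact le_top)
      have hKM0 : K ⊓ M = ⊥ := by
        rw [eq_bot_iff, ← hLM0]; exact inf_le_inf_right M hKL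
      rw [sup_comm, hKM, inf_comm, hKM0, Subgroup.card_bot, mul_one, Subgroup.card_top]
        at hcardK
      apply Subgroup.eq_of_le_of_card_ge hKL
      have : Nat.card M * Nat.card L = Nat.card M * Nat.card K := by rw [hcardL, hcardK]
      exact (Nat.eq_of_mul_eq_mul_left Nat.card_pos this).le
  -- centralizer
  have hCL : Subgroup.centralizer (L : Set G) = L := by
    have hLC : L ≤ Subgroup.centralizer (L : Set G) := by
      intro y hy
      rw [Subgroup.mem_centralizer_iff]
      intro x hx
      exact hLab x hx y hy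
    have hCM0 : Subgroup.centralizer (L : Set G) ⊓ M = ⊥ := by
      apply key L _ hLsupM inf_le_right
      · intro m hm k hk
        rw [Subgroup.mem_inf] at hk ⊢
        exact ⟨(inferInstance : (Subgroup.centralizer (L : Set G)).Normal).conj_mem k hk.1 m,
          mul_mem (mul_mem hm hk.2) (inv_mem hm)⟩
      · intro z hz k hk
        exact Subgroup.mem_centralizer_iff.mp (Subgroup.mem_inf.mp hk).1 z hz
    have hCsup : Subgroup.centralizer (L : Set G) ⊔ M = ⊤ :=
      eq_top_iff.mpr (hLsupM ▸ sup_le_sup_right hLC M)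
    have hcardC := card_mul_card_eq_of_le_normalizer M (Subgroup.centralizer (L : Set G))
      (by rw [Subgroup.normalizer_eq_top]; exact le_top)
    rw [sup_comm, hCsup, inf_comm, hCM0, Subgroup.card_bot, mul_one, Subgroup.card_top]
      at hcardC
    symm
    apply Subgroup.eq_of_le_of_card_ge hLC
    have : Nat.card M * Nat.card (Subgroup.centralizer (L : Set G)) = Nat.card M * Nat.card L := by
      rw [hcardL, hcardC]
    exact (Nat.eq_of_mul_eq_mul_left Nat.card_pos this).le
  refine ⟨?_, ?_, hmin, hCL, ?_⟩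
  · -- elementary abelian
    refine ⟨⟨⟨fun x y => Subtype.ext (hLab x x.2 y y.2)⟩⟩, ?_⟩
    obtain ⟨p', hp', hexp⟩ := minNormal_abelian_exp L ⟨hLn, hL, hmin⟩ hLab
    obtain ⟨x, hxL, hx1⟩ : ∃ x ∈ L, x ≠ 1 := by
      by_contra hcon
      push Not at hcon
      exact hL ((Subgroup.eq_bot_iff_forall L).mpr hcon)
    have h1 : orderOf x ∣ p' := orderOf_dvd_of_pow_eq_one (hexp x hxL)
    have h2 : orderOf x = p' := by
      rcases (Nat.dvd_prime hp').mp h1 with h | h
      · exact absurd (orderOf_eq_one_iff.mp h) hx1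
      · exact h
    obtain ⟨k, hk⟩ := hLp ⟨x, hxL⟩
    have h3 : x ^ (p ^ k) = 1 := by
      have := congrArg Subtype.val hk
      simpa only [SubmonoidClass.coe_pow, OneMemClass.coe_one] using this
    have h4 : p' ∣ p ^ k := h2 ▸ orderOf_dvd_of_pow_eq_one h3
    have h5 : p' = p := (Nat.prime_dvd_prime_iff_eq hp' hp.out).mp (hp'.dvd_of_dvd_pow h4)
    rw [← h5]; exact hexp
  · exact Subgroup.isComplement'_of_card_mul_and_disjoint (by rw [mul_comm]; exact hcardL)
      (disjoint_iff.mpr hLM0)
  · intro q hq hQ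
    set Q := (Cfsg.pCore q ↥M).map M.subtype with hQdef
    have hQ'n : (Cfsg.pCore q ↥M).Normal := Helper1.pCore_normal q ↥M
    have hQq : IsPGroup q Q := (Helper1.pCore_isPGroup q ↥M).map _
    have hQM : Q ≤ M := Subgroup.map_subtype_le _
    have hQ0 : Q ≠ ⊥ := by
      intro h0
      apply hQ
      rw [hQdef] at h0
      exact (Subgroup.map_eq_bot_iff_of_injective _ M.subtype_injective).mp h0
    have hQnorm : ∀ m ∈ M, ∀ y ∈ Q, m * y * m⁻¹ ∈ Q := by
      rintro m hm y ⟨y', hy', rfl⟩
      exact ⟨⟨m, hm⟩ * y' * ⟨m, hm⟩⁻¹, hQ'n.conj_mem y' hy' ⟨m, hm⟩, rfl⟩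
    have hQL : ¬ Q ≤ L := by
      intro h
      apply hQ0
      rw [eq_bot_iff, ← hLM0]
      exact le_inf h hQM
    -- fixed points of Q on L
    have hfix : L ⊓ Subgroup.centralizer (Q : Set G) = ⊥ := by
      have hn : (L ⊓ Subgroup.centralizer (Q : Set G)).Normal := by
        rw [← Subgroup.normalizer_eq_top_iff, eq_top_iff, ← hLsupM]
        apply sup_le
        · intro l hl
          apply S0540.mem_normalizer_of_smul_le
          intro y hy
          obtain ⟨k, hk, rfl⟩ := (Subgroup.mem_smul_pointwise_iff_exists _ _ _).mp hy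
          have : MulAut.conj l • k = k := by
            rw [MulAut.smul_def, MulAut.conj_apply, hLab l hl k (Subgroup.mem_inf.mp hk).1]
            group
          rw [this]; exact hk
        · intro m hm
          apply S0540.mem_normalizer_of_smul_le
          intro y hy
          obtain ⟨k, hk, rfl⟩ := (Subgroup.mem_smul_pointwise_iff_exists _ _ _).mp hy
          rw [Subgroup.mem_inf] at hk
          refine Subgroup.mem_inf.mpr ⟨hLn.conj_mem k hk.1 m, ?_⟩
          rw [Subgroup.mem_centralizer_iff]
          intro y hy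
          have h1 : m⁻¹ * y * m ∈ Q := by
            have := hQnorm m⁻¹ (inv_mem hm) y hy
            simpa using this
          have h2 := Subgroup.mem_centralizer_iff.mp hk.2 _ h1
          change y * (m * k * m⁻¹) = m * k * m⁻¹ * y
          calc y * (m * k * m⁻¹) = m * ((m⁻¹ * y * m) * k) * m⁻¹ := by group
            _ = m * (k * (m⁻¹ * y * m)) * m⁻¹ := by rw [h2]
            _ = m * k * m⁻¹ * y := by group
      rcases hmin _ hn inf_le_left with h0 | h1
      · exact h0
      · exfalso
        apply hQL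
        have h2 : L ≤ Subgroup.centralizer (Q : Set G) := inf_eq_left.mp h1
        have h3 : Q ≤ Subgroup.centralizer (L : Set G) := Subgroup.le_centralizer_iff.mp h2
        rwa [hCL] at h3
    constructor
    · -- counting fixed points
      set Qc : Subgroup (ConjAct G) := Q.map (ConjAct.toConjAct (G := G)).toMonoidHom with hQc
      have hQcq : IsPGroup q Qc := hQq.map _
      have h1 := hQcq.card_modEq_card_fixedPoints (α := L)
      have h2 : Nat.card (MulAction.fixedPoints Qc L) = 1 := by
        rw [Nat.card_eq_one_iff_unique]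
        constructor
        · constructor
          rintro ⟨x, hx⟩ ⟨y, hy⟩
          have hx1 : ∀ x : L, x ∈ MulAction.fixedPoints Qc L → x = 1 := by
            intro x hx
            have hxc : (x : G) ∈ L ⊓ Subgroup.centralizer (Q : Set G) := by
              refine Subgroup.mem_inf.mpr ⟨x.2, ?_⟩
              rw [Subgroup.mem_centralizer_iff]
              intro g hg
              have hgc : ConjAct.toConjAct g ∈ Qc := ⟨g, hg, rfl⟩
              have h3 := hx ⟨ConjAct.toConjAct g, hgc⟩
              have h4 : g * (x : G) * g⁻¹ = (x : G) := congrArg Subtype.val h3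
              calc g * (x : G) = (g * (x : G) * g⁻¹) * g := by group
                _ = (x : G) * g := by rw [h4]
            rw [hfix, Subgroup.mem_bot] at hxc
            exact Subtype.ext hxc
          apply Subtype.ext
          exact (hx1 x hx).trans (hx1 y hy).symm
        · refine ⟨⟨1, ?_⟩⟩
          intro g
          exact smul_one g
      rw [h2] at h1
      exact h1
    · rintro rfl
      apply hQL
      have hKp : IsPGroup q (Q ⊔ L : Subgroup G) := hQq.to_sup_of_normal_right hLp
      have hKn : (Q ⊔ L : Subgroup G).Normal := by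
        rw [← Subgroup.normalizer_eq_top_iff, eq_top_iff, ← hLsupM]
        apply sup_le
        · exact le_sup_right.trans Subgroup.le_normalizer
        · intro m hm
          apply S0540.mem_normalizer_of_smul_le
          rw [Subgroup.smul_sup]
          apply sup_le_sup
          · intro y hy
            obtain ⟨k, hk, rfl⟩ := (Subgroup.mem_smul_pointwise_iff_exists _ _ _).mp hy
            exact hQnorm m hm k hk
          · rw [Subgroup.Normal.conj_smul_eq_self]
      exact le_sup_left.trans (Helper1.le_pCore hKn hKp)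

/-- Let G be a finite group whose largest normal p-subgroup L is nontrivial, and M a maximal subgroup of G with trivial normal core. Then L is elementary abelian, M is a complement to L, L is a minimal normal subgroup of G, the centralizer of L is L, and for every prime q such that the largest normal q-subgroup of M is nontrivial, the order of L is congruent to 1 modulo q and q ≠ p. -/
theorem result {G : Type*} [Group G] [Finite G] (p : ℕ) [Fact p.Prime] (hL : Cfsg.pCore p G ≠ ⊥) (M : Subgroup G) (hM : IsCoatom M) (hcore : M.normalCore = ⊥) : Cfsg.IsElementaryAbelian p (Cfsg.pCore p G) ∧ Subgroup.IsComplement' (Cfsg.pCore p G) M ∧ (∀ K : Subgroup G, K.Normal → K ≤ Cfsg.pCore p G → K = ⊥ ∨ K = Cfsg.pCore p G) ∧ Subgroup.centralizer ((Cfsg.pCore p G : Subgroup G) : Set G) = Cfsg.pCore p G ∧ ∀ (q : ℕ) [Fact q.Prime], Cfsg.pCore q ↥M ≠ ⊥ → Nat.card (Cfsg.pCore p G) % q = 1 % q ∧ q ≠ p := by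
  exact main p hL M hM hcore

end Cfsg.Agent.S0587
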