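import Cfsg.Statements.S0588
import Mathlib

set_option autoImplicit false
open Cfsg

namespace Cfsg.Agent.S0588

/-- If a subgroup H of a finite group G contains the centralizer of every non-identity element of H, then the order of H is coprime to its index. -/
theorem result {G : Type*} [Group G] [Finite G] (H : Subgroup G) (h : ∀ x ∈ H, x ≠ 1 → Subgroup.centralizer ({x} : Set G) ≤ H) : (Nat.card H).Coprime H.index := by
  by_contra hcop
  obtain ⟨p, hp, hpH, hpI⟩ := Nat.Prime.not_coprime_iff_dvd.mp hcop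
  haveI : Fact p.Prime := ⟨hp⟩
  obtain ⟨x, hx⟩ := exists_prime_orderOf_dvd_card' p hpH
  have hx1 : (x : G) ≠ 1 := by
    intro h1
    have : x = 1 := Subtype.ext h1
    rw [this, orderOf_one] at hx
    exact hp.one_lt.ne hx
  have hxo : orderOf (x : G) = p := by
    rw [Subgroup.orderOf_coe]; exact hx
  have hzp : IsPGroup p (Subgroup.zpowers (x : G)) := by
    apply IsPGroup.of_card (n := 1)
    rw [Nat.card_zpowers, hxo, pow_one]
  obtain ⟨Q, hQ⟩ := hzp.exists_le_sylow
  have hxQ : (x : G) ∈ (Q : Subgroup G) := hQ (Subgroup.mem_zpowers _)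
  haveI : Nontrivial (Q : Subgroup G) := ⟨⟨⟨(x : G), hxQ⟩, 1, fun h1 => hx1 (congrArg Subtype.val h1)⟩⟩
  haveI := IsPGroup.center_nontrivial Q.isPGroup'
  obtain ⟨z, hz⟩ := exists_ne (1 : Subgroup.center (Q : Subgroup G))
  have hzc : ∀ q : (Q : Subgroup G), q * (z : (Q : Subgroup G)) = (z : (Q : Subgroup G)) * q :=
    fun q => (Subgroup.mem_center_iff.mp z.2 q)
  have hzG1 : ((z : (Q : Subgroup G)) : G) ≠ 1 := by
    intro h1
    apply hz
    apply Subtype.ext
    apply Subtype.ext
    exact h1
  have hzH : ((z : (Q : Subgroup G)) : G) ∈ H := by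
    apply h x x.2 hx1
    rw [Subgroup.mem_centralizer_iff]
    intro y hy
    rw [Set.mem_singleton_iff] at hy
    subst hy
    have := hzc ⟨(x : G), hxQ⟩
    exact congrArg Subtype.val this
  have hQH : (Q : Subgroup G) ≤ H := by
    intro q hq
    apply h _ hzH hzG1
    rw [Subgroup.mem_centralizer_iff]
    intro y hy
    rw [Set.mem_singleton_iff] at hy
    subst hy
    have := hzc ⟨q, hq⟩
    exact (congrArg Subtype.val this).symm
  have hdvd : H.index ∣ (Q : Subgroup G).index := Subgroup.index_dvd_of_le hQH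
  exact Q.not_dvd_index (hpI.trans hdvd)

end Cfsg.Agent.S0588
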