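import Cfsg.Statements.S0590
import Cfsg.Agent.Helper3.ElemAb

set_option autoImplicit false
open Cfsg
open scoped commutatorElement

namespace Cfsg.Agent.S0590

open Cfsg.Agent.Helper3

theorem conj_pow {G : Type*} [Group G] (a u c : G) (hc : a * c = c * a) (hu : a * u * a⁻¹ = u * c) (n : ℕ) :
    a ^ n * u * (a ^ n)⁻¹ = u * c ^ n := by
  induction n with
  | zero => simp
  | succ n ih =>
    have h1 : a * c ^ n = c ^ n * a := (Commute.pow_right (show Commute a c from hc) n)
    calc a ^ (n+1) * u * (a ^ (n+1))⁻¹ = a * (a ^ n * u * (a ^ n)⁻¹) * a⁻¹ := by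
          rw [pow_succ']; simp [mul_assoc]
      _ = a * (u * c ^ n) * a⁻¹ := by rw [ih]
      _ = (a * u * a⁻¹) * (a * c ^ n * a⁻¹) := by simp [mul_assoc]
      _ = (u * c) * (c ^ n) := by rw [hu, h1]; simp [mul_assoc]
      _ = u * c ^ (n+1) := by rw [pow_succ', mul_assoc]

/-- Quadratic action on an elementary abelian p-group forces the acting group modulo the kernel of the action to be elementary abelian. -/
theorem result {G : Type*} [Group G] [Finite G] {p : ℕ} [Fact p.Prime] (V H : Subgroup G) (hV : Cfsg.IsElementaryAbelian p V) (hHV : H ≤ Subgroup.normalizer (V : Set G)) (hq : ⁅⁅V, H⁆, H⁆ = ⊥) : ⁅H, H⁆ ≤ Subgroup.centralizer (V : Set G) ∧ ∀ a ∈ H, a ^ p ∈ Subgroup.centralizer (V : Set G) := by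
  have hVexp := (isElementaryAbelian_iff.mp hV).2
  constructor
  · rw [← Subgroup.commutator_eq_bot_iff_le_centralizer]
    apply Subgroup.commutator_commutator_eq_bot_of_rotate
    · rw [Subgroup.commutator_comm H V]; exact hq
    · exact hq
  · intro a ha
    rw [Subgroup.mem_centralizer_iff]
    intro u hu
    have haN := hHV ha
    have hau : a * u * a⁻¹ ∈ V := (Subgroup.mem_normalizer_iff.mp haN u).mp hu
    set c := u⁻¹ * (a * u * a⁻¹) with hc
    have hcV : c ∈ V := mul_mem (inv_mem hu) hau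
    have hcc : c = ⁅u⁻¹, a⁆ := by
      rw [commutatorElement_def, hc, inv_inv]; simp [mul_assoc]
    have hcVH : c ∈ ⁅V, H⁆ := by
      rw [hcc]; exact Subgroup.commutator_mem_commutator (inv_mem hu) ha
    have hca : ⁅c, a⁆ = 1 := by
      have : ⁅c, a⁆ ∈ ⁅⁅V, H⁆, H⁆ := Subgroup.commutator_mem_commutator hcVH ha
      rw [hq] at this
      exact Subgroup.mem_bot.mp this
    have hcomm : c * a = a * c := commutatorElement_eq_one_iff_mul_comm.mp hca
    have hconj : a * u * a⁻¹ = u * c := by rw [hc]; simp [mul_assoc]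
    have key := conj_pow a u c hcomm.symm hconj p
    rw [hVexp c hcV, mul_one] at key
    calc u * a ^ p = (a ^ p * u * (a ^ p)⁻¹) * a ^ p := by rw [key]
      _ = a ^ p * u := by simp [mul_assoc]

end Cfsg.Agent.S0590
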