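import Cfsg.Statements.S0591
import Cfsg.Agent.Helper3.ElemAb

set_option autoImplicit false
open Cfsg
open scoped commutatorElement

namespace Cfsg.Agent.S0591

open Cfsg.Agent.Helper3

/-- the commutator map `v ↦ [v,a]` as a homomorphism `V → V`. -/
noncomputable def commHom {G : Type*} [Group G] (V : Subgroup G)
    (hcomm : ∀ x ∈ V, ∀ y ∈ V, x * y = y * x) (a : G)
    (ha : a ∈ Subgroup.normalizer (V : Set G)) : V →* V :=
  MonoidHom.mk' (fun v => ⟨(v : G) * a * (v : G)⁻¹ * a⁻¹, by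
      have h1 : a * (v : G)⁻¹ * a⁻¹ ∈ V := (Subgroup.mem_normalizer_iff.mp ha _).mp (inv_mem v.2)
      have h2 : (v : G) * a * (v : G)⁻¹ * a⁻¹ = (v : G) * (a * (v : G)⁻¹ * a⁻¹) := by simp [mul_assoc]
      rw [h2]; exact mul_mem v.2 h1⟩) (by
    intro v w
    apply Subtype.ext
    have hx : a * (v : G)⁻¹ * a⁻¹ ∈ V := (Subgroup.mem_normalizer_iff.mp ha _).mp (inv_mem v.2)
    have hy : a * (w : G)⁻¹ * a⁻¹ ∈ V := (Subgroup.mem_normalizer_iff.mp ha _).mp (inv_mem w.2)
    have e1 : (v : G) * w * a * ((v : G) * w)⁻¹ * a⁻¹ = v * (w * (a * (w : G)⁻¹ * a⁻¹) * (a * (v : G)⁻¹ * a⁻¹)) := by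
      simp [mul_assoc]
    have e2 : (v : G) * a * (v : G)⁻¹ * a⁻¹ * ((w : G) * a * (w : G)⁻¹ * a⁻¹) = v * ((a * (v : G)⁻¹ * a⁻¹) * (w * (a * (w : G)⁻¹ * a⁻¹))) := by
      simp [mul_assoc]
    show (v : G) * w * a * ((v : G) * w)⁻¹ * a⁻¹ = (v : G) * a * (v : G)⁻¹ * a⁻¹ * ((w : G) * a * (w : G)⁻¹ * a⁻¹)
    rw [e1, e2, hcomm _ (mul_mem w.2 hy) _ hx])

theorem commHom_apply {G : Type*} [Group G] (V : Subgroup G)
    (hcomm : ∀ x ∈ V, ∀ y ∈ V, x * y = y * x) (a : G)
    (ha : a ∈ Subgroup.normalizer (V : Set G)) (v : V) :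
    ((commHom V hcomm a ha v : V) : G) = (v : G) * a * (v : G)⁻¹ * a⁻¹ := rfl

/-- For a quadratically acting element a on an elementary abelian p-group V, the fixed points C_V(a) have order at least the square root of the order of V. -/
theorem result {G : Type*} [Group G] [Finite G] {p : ℕ} [Fact p.Prime] (V : Subgroup G) (hV : Cfsg.IsElementaryAbelian p V) (a : G) (ha : a ∈ Subgroup.normalizer (V : Set G)) (hq : ⁅⁅V, Subgroup.zpowers a⁆, Subgroup.zpowers a⁆ = ⊥) : Nat.card V ≤ Nat.card ↥(V ⊓ Subgroup.centralizer (Subgroup.zpowers a : Set G)) ^ 2 := by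
  have hcomm := (isElementaryAbelian_iff.mp hV).1
  set φ := commHom V hcomm a ha with hφ
  have hker : φ.ker.map V.subtype ≤ V ⊓ Subgroup.centralizer (Subgroup.zpowers a : Set G) := by
    rintro x ⟨v, hv, rfl⟩
    refine ⟨v.2, ?_⟩
    have h1 : φ v = 1 := hv
    have h2 : (v : G) * a * (v : G)⁻¹ * a⁻¹ = 1 := by
      have := congrArg Subtype.val h1
      rw [hφ, commHom_apply] at this
      exact this
    have h3 : Commute (v : G) a := by
      have : (v : G) * a = a * v := by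
        have h4 : (v : G) * a * (v : G)⁻¹ = a := by
          rw [mul_inv_eq_one] at h2; exact h2
        calc (v : G) * a = ((v : G) * a * (v : G)⁻¹) * v := by simp [mul_assoc]
          _ = a * v := by rw [h4]
      exact this
    show (v : G) ∈ Subgroup.centralizer (Subgroup.zpowers a : Set G)
    rw [Subgroup.mem_centralizer_iff]
    intro h hh
    obtain ⟨k, rfl⟩ := Subgroup.mem_zpowers_iff.mp hh
    exact ((h3.zpow_right k).eq).symm
  have hrange : φ.range.map V.subtype ≤ V ⊓ Subgroup.centralizer (Subgroup.zpowers a : Set G) := by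
    rintro x ⟨w, ⟨v, rfl⟩, rfl⟩
    refine ⟨(φ v).2, ?_⟩
    have hle := Subgroup.commutator_eq_bot_iff_le_centralizer.mp hq
    apply hle
    have : ((φ v : V) : G) = ⁅(v : G), a⁆ := by
      rw [hφ, commHom_apply, commutatorElement_def]
    show ((φ v : V) : G) ∈ ⁅V, Subgroup.zpowers a⁆
    rw [this]
    exact Subgroup.commutator_mem_commutator v.2 (Subgroup.mem_zpowers a)
  have h1 : Nat.card φ.ker ≤ Nat.card ↥(V ⊓ Subgroup.centralizer (Subgroup.zpowers a : Set G)) := by
    rw [← Subgroup.card_subtype]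
    exact Subgroup.card_le_of_le hker
  have h2 : Nat.card φ.range ≤ Nat.card ↥(V ⊓ Subgroup.centralizer (Subgroup.zpowers a : Set G)) := by
    rw [← Subgroup.card_subtype]
    exact Subgroup.card_le_of_le hrange
  have h3 : Nat.card V = Nat.card φ.ker * Nat.card φ.range := by
    rw [← Subgroup.index_ker, Subgroup.card_mul_index]
  rw [h3, sq]
  exact Nat.mul_le_mul h1 h2

end Cfsg.Agent.S0591
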