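import Cfsg.Statements.S0592
import Cfsg.Agent.Helper23.QP1

set_option autoImplicit false
open Cfsg

namespace Cfsg.Agent.S0592

/-- Two quadratically acting generators of a linear group that is not a p-group, with the p'-part of the order of their product dividing q - 1, give a homomorphism onto a subgroup of SL(2, q) that is not a p-group. -/
theorem result {K : Type*} [Field K] [Fintype K] {p : ℕ} [Fact p.Prime] [CharP K p] {W : Type*} [AddCommGroup W] [Module K W] [FiniteDimensional K W] [Finite W] [Nontrivial W] (H : Subgroup (W ≃ₗ[K] W)) (a b : W ≃ₗ[K] W) (hH : H = Subgroup.closure {a, b}) (ha : ∀ w : W, a (a w - w) = a w - w) (hb : ∀ w : W, b (b w - w) = b w - w) (hnp : ¬ IsPGroup p H) (hk : ∃ e k : ℕ, orderOf (a * b) = p ^ e * k ∧ k ∣ Fintype.card K - 1) : ∃ φ : H →* Matrix.SpecialLinearGroup (Fin 2) K, ¬ IsPGroup p φ.range := by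
  classical
  subst hH
  let Γ := ↥(Subgroup.closure {a, b})
  let ρ : Γ →* Module.End K W :=
    (LinearEquiv.automorphismGroup.toLinearMapMonoidHom).comp (Subgroup.closure {a, b}).subtype
  have hρ : ∀ g : Γ, ∀ w : W, ρ g w = (g : W ≃ₗ[K] W) w := fun g w => rfl
  have hinj : ∀ g : Γ, ρ g = 1 → g = 1 := by
    intro g hg
    apply Subtype.ext
    apply LinearEquiv.ext
    intro w
    have h1 := congrArg (fun f => f w) hg
    exact h1
  have hamem : a ∈ Subgroup.closure {a, b} := Subgroup.subset_closure (Set.mem_insert _ _)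
  have hbmem : b ∈ Subgroup.closure {a, b} :=
    Subgroup.subset_closure (Set.mem_insert_of_mem _ rfl)
  have hgen : Subgroup.closure {(⟨a, hamem⟩ : Γ), ⟨b, hbmem⟩} = ⊤ := by
    have h1 := Subgroup.closure_closure_coe_preimage (k := ({a, b} : Set (W ≃ₗ[K] W)))
    have h2 : ((↑) ⁻¹' ({a, b} : Set (W ≃ₗ[K] W)) : Set Γ) = {⟨a, hamem⟩, ⟨b, hbmem⟩} := by
      ext x
      simp only [Set.mem_preimage, Set.mem_insert_iff, Set.mem_singleton_iff]
      constructor
      · rintro (h | h)
        · exact Or.inl (Subtype.ext h)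
        · exact Or.inr (Subtype.ext h)
      · rintro (h | h)
        · exact Or.inl (congrArg Subtype.val h)
        · exact Or.inr (congrArg Subtype.val h)
    rw [h2] at h1
    exact h1
  have hnp' : ¬ Cfsg.Agent.Helper23.QP.PG p ρ := by
    intro hPG
    apply hnp
    intro g
    obtain ⟨m, hm⟩ := hPG g
    refine ⟨m, hinj _ ?_⟩
    rw [map_pow]; exact hm
  obtain ⟨e, k, hord, hkd⟩ := hk
  have hex : ∃ e k, ρ ((⟨a, hamem⟩ : Γ) * ⟨b, hbmem⟩) ^ (p ^ e * k) = 1 ∧
      k ∣ Fintype.card K - 1 := by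
    refine ⟨e, k, ?_, hkd⟩
    rw [← map_pow]
    have h1 : ((⟨a, hamem⟩ : Γ) * ⟨b, hbmem⟩) ^ (p ^ e * k) = 1 := by
      apply Subtype.ext
      show (a * b) ^ (p ^ e * k) = 1
      rw [← hord]; exact pow_orderOf_eq_one _
    rw [h1, map_one]
  exact Cfsg.Agent.Helper23.QP.quad_pair_sl2 (p := p) _ W rfl Γ ⟨a, hamem⟩ ⟨b, hbmem⟩ hgen ρ
    (fun w => ha w) (fun w => hb w) hnp' hex

end Cfsg.Agent.S0592
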