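import Cfsg.Statements.S0600
import Mathlib

set_option autoImplicit false
open Cfsg

namespace Cfsg.Agent.S0600

/-- A normal elementary abelian p-subgroup generated by the fixed points of the Sylow p-subgroups admits no nontrivial normal p-subgroup of G modulo its centralizer. -/
theorem result {G : Type*} [Group G] [Finite G] {p : ℕ} [Fact p.Prime] (V : Subgroup G) [V.Normal] (hV : Cfsg.IsElementaryAbelian p V) (hgen : V = ⨆ S : Sylow p G, V ⊓ Subgroup.centralizer ((S : Subgroup G) : Set G)) : Cfsg.pCore p (G ⧸ Subgroup.centralizer (V : Set G)) = ⊥ := by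
  unfold Cfsg.pCore
  rw [eq_bot_iff]
  apply sSup_le
  rintro N ⟨hNn, hNp⟩
  haveI := hNn
  have key : ∀ S : Sylow p G, V ⊓ Subgroup.centralizer ((S : Subgroup G) : Set G) ≤
      Subgroup.centralizer ((N.comap (QuotientGroup.mk' (Subgroup.centralizer (V : Set G))) : Subgroup G) : Set G) := by
    intro S v hv
    rw [Subgroup.mem_centralizer_iff]
    intro q hq
    have hq' : QuotientGroup.mk' (Subgroup.centralizer (V : Set G)) q ∈ N := hq
    have hle : N ≤ (S.mapSurjective (QuotientGroup.mk'_surjective (Subgroup.centralizer (V : Set G))) : Sylow p (G ⧸ Subgroup.centralizer (V : Set G))) :=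
      hNp.le_sylow_of_normal _
    have h1 : QuotientGroup.mk' (Subgroup.centralizer (V : Set G)) q ∈
        (S : Subgroup G).map (QuotientGroup.mk' (Subgroup.centralizer (V : Set G))) := hle hq'
    obtain ⟨s, hs, hsq⟩ := h1
    have hc : s⁻¹ * q ∈ Subgroup.centralizer (V : Set G) := by
      rw [← QuotientGroup.eq_one_iff, ← QuotientGroup.mk'_apply, map_mul, map_inv, hsq]
      simp
    have hvs : s * v = v * s := (Subgroup.mem_centralizer_iff.mp hv.2) s hs
    have hvc : v * (s⁻¹ * q) = (s⁻¹ * q) * v := (Subgroup.mem_centralizer_iff.mp hc) v hv.1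
    calc q * v = s * ((s⁻¹ * q) * v) := by simp [mul_assoc]
      _ = s * (v * (s⁻¹ * q)) := by rw [hvc]
      _ = (s * v) * (s⁻¹ * q) := by simp [mul_assoc]
      _ = v * q := by rw [hvs]; simp [mul_assoc]
  have hVQ : V ≤ Subgroup.centralizer ((N.comap (QuotientGroup.mk' (Subgroup.centralizer (V : Set G))) : Subgroup G) : Set G) :=
    le_trans hgen.le (iSup_le key)
  have hQ : N.comap (QuotientGroup.mk' (Subgroup.centralizer (V : Set G))) ≤ Subgroup.centralizer (V : Set G) := by
    rw [← Subgroup.commutator_eq_bot_iff_le_centralizer, Subgroup.commutator_comm,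
      Subgroup.commutator_eq_bot_iff_le_centralizer]
    exact hVQ
  intro n hn
  obtain ⟨q, rfl⟩ := QuotientGroup.mk'_surjective (Subgroup.centralizer (V : Set G)) n
  rw [Subgroup.mem_bot]
  exact (QuotientGroup.eq_one_iff q).mpr (hQ hn)

end Cfsg.Agent.S0600
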