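import Cfsg.Statements.S0601
import Cfsg.Agent.Helper1.Fitting
import Cfsg.Agent.Helper3.ElemAb

set_option autoImplicit false
open Cfsg
open scoped Pointwise

namespace Cfsg.Agent.S0601

/-- When O_p(G) contains its centralizer, the normal closure of Ω₁(Z(S)) is elementary abelian and G has no nontrivial normal p-subgroup modulo its centralizer. -/
theorem result {G : Type*} [Group G] [Finite G] {p : ℕ} [Fact p.Prime] (hc : Subgroup.centralizer (Cfsg.pCore p G : Set G) ≤ Cfsg.pCore p G) : (⨆ S : Sylow p G, Cfsg.omegaOne p (((S : Subgroup G)) ⊓ Subgroup.centralizer ((S : Subgroup G) : Set G))).Normal ∧ Cfsg.IsElementaryAbelian p (⨆ S : Sylow p G, Cfsg.omegaOne p (((S : Subgroup G)) ⊓ Subgroup.centralizer ((S : Subgroup G) : Set G))) ∧ ∀ D : Subgroup G, D.Normal → Subgroup.centralizer ((⨆ S : Sylow p G, Cfsg.omegaOne p (((S : Subgroup G)) ⊓ Subgroup.centralizer ((S : Subgroup G) : Set G)) : Subgroup G) : Set G) ≤ D → (∃ k : ℕ, (Subgroup.centralizer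 ((⨆ S : Sylow p G, Cfsg.omegaOne p (((S : Subgroup G)) ⊓ Subgroup.centralizer ((S : Subgroup G) : Set G)) : Subgroup G) : Set G)).relIndex D = p ^ k) → D = Subgroup.centralizer ((⨆ S : Sylow p G, Cfsg.omegaOne p (((S : Subgroup G)) ⊓ Subgroup.centralizer ((S : Subgroup G) : Set G)) : Subgroup G) : Set G) := by
  obtain ⟨V, hV⟩ : ∃ V : Subgroup G, V = ⨆ S : Sylow p G, Cfsg.omegaOne p
      (((S : Subgroup G)) ⊓ Subgroup.centralizer ((S : Subgroup G) : Set G)) := ⟨_, rfl⟩
  rw [← hV]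
  have hgen : ∀ (S : Sylow p G) (x : G), x ∈ (S : Subgroup G) →
      (∀ s ∈ (S : Subgroup G), s * x = x * s) → x ^ p = 1 → x ∈ V := by
    intro S x hxS hxc hxp
    rw [hV]
    apply Subgroup.mem_iSup_of_mem S
    apply Subgroup.subset_closure
    exact ⟨Subgroup.mem_inf.mpr ⟨hxS, Subgroup.mem_centralizer_iff.mpr hxc⟩, hxp⟩
  have hle : ∀ U : Subgroup G, (∀ (S : Sylow p G) (x : G), x ∈ (S : Subgroup G) →
      (∀ s ∈ (S : Subgroup G), s * x = x * s) → x ^ p = 1 → x ∈ U) → V ≤ U := by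
    intro U hU
    rw [hV]
    apply iSup_le
    intro S
    unfold Cfsg.omegaOne
    rw [Subgroup.closure_le]
    rintro x ⟨hx, hxp⟩
    have hx' := Subgroup.mem_inf.mp hx
    exact hU S x hx'.1 (Subgroup.mem_centralizer_iff.mp hx'.2) hxp
  have hVn : V.Normal := by
    constructor
    intro n hn g
    have h1 : V ≤ V.comap (MulAut.conj g).toMonoidHom := by
      apply hle
      intro S x hxS hxc hxp
      rw [Subgroup.mem_comap]
      show g * x * g⁻¹ ∈ V
      apply hgen (g • S) (g * x * g⁻¹)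
      · show g * x * g⁻¹ ∈ (MulAut.conj g • (S : Subgroup G) : Subgroup G)
        rw [Subgroup.mem_smul_pointwise_iff_exists]
        exact ⟨x, hxS, rfl⟩
      · intro s hs
        have hs' : s ∈ (MulAut.conj g • (S : Subgroup G) : Subgroup G) := hs
        obtain ⟨s₀, hs₀, rfl⟩ := (Subgroup.mem_smul_pointwise_iff_exists _ _ _).mp hs'
        show g * s₀ * g⁻¹ * (g * x * g⁻¹) = g * x * g⁻¹ * (g * s₀ * g⁻¹)
        have h2 := hxc s₀ hs₀
        calc g * s₀ * g⁻¹ * (g * x * g⁻¹) = g * (s₀ * x) * g⁻¹ := by group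
          _ = g * (x * s₀) * g⁻¹ := by rw [h2]
          _ = g * x * g⁻¹ * (g * s₀ * g⁻¹) := by group
      · rw [conj_pow, hxp]; group
    exact h1 hn
  have hOp : IsPGroup p (Cfsg.pCore p G) := Cfsg.Agent.Helper1.pCore_isPGroup p G
  haveI hOpn : (Cfsg.pCore p G).Normal := Cfsg.Agent.Helper1.pCore_normal p G
  have hgenZ : ∀ (S : Sylow p G) (x : G), x ∈ (S : Subgroup G) →
      (∀ s ∈ (S : Subgroup G), s * x = x * s) →
      x ∈ Cfsg.pCore p G ∧ ∀ y ∈ Cfsg.pCore p G, y * x = x * y := by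
    intro S x hxS hxc
    have hOS : Cfsg.pCore p G ≤ (S : Subgroup G) := hOp.le_sylow_of_normal S
    have hxC : x ∈ Subgroup.centralizer (Cfsg.pCore p G : Set G) := by
      rw [Subgroup.mem_centralizer_iff]
      intro y hy
      exact hxc y (hOS hy)
    exact ⟨hc hxC, fun y hy => hxc y (hOS hy)⟩
  let U : Subgroup G :=
    { carrier := {x | (x ∈ Cfsg.pCore p G ∧ ∀ y ∈ Cfsg.pCore p G, y * x = x * y) ∧ x ^ p = 1}
      one_mem' := ⟨⟨one_mem _, fun y _ => by simp⟩, one_pow p⟩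
      mul_mem' := by
        rintro a b ⟨⟨ha, hac⟩, hap⟩ ⟨⟨hb, hbc⟩, hbp⟩
        refine ⟨⟨mul_mem ha hb, fun y hy => ?_⟩, ?_⟩
        · rw [← mul_assoc, hac y hy, mul_assoc, hbc y hy, mul_assoc]
        · have hab : Commute a b := hbc a ha
          rw [hab.mul_pow, hap, hbp, one_mul]
      inv_mem' := by
        rintro a ⟨⟨ha, hac⟩, hap⟩
        refine ⟨⟨inv_mem ha, fun y hy => ?_⟩, ?_⟩
        · have h2 := hac y hy
          calc y * a⁻¹ = a⁻¹ * (a * y) * a⁻¹ := by group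
            _ = a⁻¹ * (y * a) * a⁻¹ := by rw [h2]
            _ = a⁻¹ * y := by group
        · rw [inv_pow, hap, inv_one] }
  have hVU : V ≤ U := hle U (fun S x hxS hxc hxp => ⟨hgenZ S x hxS hxc, hxp⟩)
  have hVea : Cfsg.IsElementaryAbelian p V := by
    rw [Cfsg.Agent.Helper3.isElementaryAbelian_iff]
    refine ⟨fun a ha b hb => ?_, fun a ha => (hVU ha).2⟩
    exact (hVU hb).1.2 a (hVU ha).1.1
  refine ⟨hVn, hVea, ?_⟩
  intro D hDn hCD hidx
  obtain ⟨k, hk⟩ := hidx
  haveI := hVn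
  haveI := hDn
  apply le_antisymm _ hCD
  rw [Subgroup.le_centralizer_iff]
  apply hle
  intro S x hxS hxc hxp
  rw [Subgroup.mem_centralizer_iff]
  intro d hd
  have hsurj := QuotientGroup.mk'_surjective (Subgroup.centralizer (V : Set G))
  haveI hDbar : (D.map (QuotientGroup.mk' (Subgroup.centralizer (V : Set G)))).Normal :=
    Subgroup.Normal.map hDn _ hsurj
  have hDp : IsPGroup p ↥(D.map (QuotientGroup.mk' (Subgroup.centralizer (V : Set G)))) := by
    rintro ⟨_, ⟨d', hd', rfl⟩⟩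
    refine ⟨k, Subtype.ext ?_⟩
    show (QuotientGroup.mk' (Subgroup.centralizer (V : Set G)) d') ^ p ^ k = 1
    rw [← map_pow]
    apply (QuotientGroup.eq_one_iff _).mpr
    have h1 := Subgroup.pow_index_mem ((Subgroup.centralizer (V : Set G)).subgroupOf D)
      (⟨d', hd'⟩ : ↥D)
    have hidx' : ((Subgroup.centralizer (V : Set G)).subgroupOf D).index = p ^ k := hk
    rw [hidx'] at h1
    exact Subgroup.mem_subgroupOf.mp h1
  have hDS := hDp.le_sylow_of_normal (S.mapSurjective hsurj)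
  have h2 : QuotientGroup.mk' (Subgroup.centralizer (V : Set G)) d ∈
      (S : Subgroup G).map (QuotientGroup.mk' (Subgroup.centralizer (V : Set G))) :=
    hDS (Subgroup.mem_map_of_mem _ hd)
  obtain ⟨s, hs, hsd⟩ := Subgroup.mem_map.mp h2
  have hcC : s⁻¹ * d ∈ Subgroup.centralizer (V : Set G) := by
    apply (QuotientGroup.eq_one_iff _).mp
    show QuotientGroup.mk' (Subgroup.centralizer (V : Set G)) (s⁻¹ * d) = 1
    rw [map_mul, map_inv, hsd, inv_mul_cancel]
  have hxV : x ∈ V := hgen S x hxS hxc hxp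
  have hcx : x * (s⁻¹ * d) = (s⁻¹ * d) * x := Subgroup.mem_centralizer_iff.mp hcC x hxV
  calc d * x = s * ((s⁻¹ * d) * x) := by group
    _ = s * (x * (s⁻¹ * d)) := by rw [← hcx]
    _ = (s * x) * (s⁻¹ * d) := by group
    _ = (x * s) * (s⁻¹ * d) := by rw [hxc s hs]
    _ = x * d := by group

end Cfsg.Agent.S0601
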