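import Cfsg.Statements.S0602
import Cfsg.Agent.Helper3.ElemAb

set_option autoImplicit false
open Cfsg

namespace Cfsg.Agent.S0602

open Cfsg.Agent.Helper3

/-- The Thompson subgroup is characteristic, and nontrivial as soon as p divides the group order. -/
theorem result {G : Type*} [Group G] [Finite G] {p : ℕ} [Fact p.Prime] : (Cfsg.thompsonSubgroup p G).Characteristic ∧ (p ∣ Nat.card G → Cfsg.thompsonSubgroup p G ≠ ⊥) := by
  constructor
  · rw [Subgroup.characteristic_iff_map_le]
    intro ϕ
    unfold Cfsg.thompsonSubgroup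
    rw [Subgroup.map_le_iff_le_comap]
    apply sSup_le
    intro A hA
    rw [← Subgroup.map_le_iff_le_comap]
    exact le_sSup (map_equiv_mem_max hA ϕ)
  · intro hp hbot
    obtain ⟨x, hx⟩ := exists_prime_orderOf_dvd_card' p hp
    obtain ⟨A, hA⟩ := exists_mem_maxElementaryAbelianSubgroups (G := G) p
    have hxp : x ^ p = 1 := by rw [← hx]; exact pow_orderOf_eq_one x
    have hle := hA.2 _ (elemAb_zpowers hxp)
    rw [Nat.card_zpowers, hx] at hle
    have hAJ : A ≤ Cfsg.thompsonSubgroup p G := le_sSup hA
    rw [hbot, le_bot_iff] at hAJ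
    rw [hAJ, Subgroup.card_bot] at hle
    exact (Fact.out : p.Prime).one_lt.not_ge hle

end Cfsg.Agent.S0602
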