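import Cfsg.Statements.S0603
import Cfsg.Agent.Helper3.ElemAb

set_option autoImplicit false
open Cfsg

namespace Cfsg.Agent.S0603

open Cfsg.Agent.Helper3

/-- The Thompson subgroup of any subgroup containing J(G) is J(G) itself. -/
theorem result {G : Type*} [Group G] [Finite G] {p : ℕ} [Fact p.Prime] (U : Subgroup G) (hU : Cfsg.thompsonSubgroup p G ≤ U) : Cfsg.thompsonSubgroupOf p U = Cfsg.thompsonSubgroup p G := by
  have hmemU : ∀ A ∈ Cfsg.maxElementaryAbelianSubgroups p G, A ≤ U :=
    fun A hA => (le_sSup hA : A ≤ Cfsg.thompsonSubgroup p G).trans hU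
  unfold Cfsg.thompsonSubgroupOf Cfsg.thompsonSubgroup
  apply le_antisymm
  · rw [Subgroup.map_le_iff_le_comap]
    apply sSup_le
    intro B hB
    rw [← Subgroup.map_le_iff_le_comap]
    apply le_sSup
    obtain ⟨A0, hA0⟩ := exists_mem_maxElementaryAbelianSubgroups (G := G) p
    exact map_mem_max hA0 (hmemU A0 hA0) hB
  · apply sSup_le
    intro A hA
    have hAU : A ≤ U := hmemU A hA
    have hmem := subgroupOf_mem_max hA hAU
    calc A = (A.subgroupOf U).map U.subtype := (Subgroup.map_subgroupOf_eq_of_le hAU).symm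
      _ ≤ (sSup (Cfsg.maxElementaryAbelianSubgroups p U)).map U.subtype :=
        Subgroup.map_mono (le_sSup hmem)

end Cfsg.Agent.S0603
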