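import Cfsg.Statements.S0604
import Cfsg.Agent.Helper3.ElemAb

set_option autoImplicit false
open Cfsg
open scoped Pointwise

namespace Cfsg.Agent.S0604

open Cfsg.Agent.Helper3

/-- The Thompson subgroup of G is the join of the Thompson subgroups of its Sylow p-subgroups. -/
theorem result {G : Type*} [Group G] [Finite G] {p : ℕ} [Fact p.Prime] : Cfsg.thompsonSubgroup p G = ⨆ S : Sylow p G, Cfsg.thompsonSubgroupOf p (S : Subgroup G) := by
  apply le_antisymm
  · unfold Cfsg.thompsonSubgroup
    apply sSup_le
    intro A hA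
    obtain ⟨S, hAS⟩ := (elemAb_isPGroup hA.1).exists_le_sylow
    refine le_trans ?_ (le_iSup (fun S : Sylow p G => Cfsg.thompsonSubgroupOf p (S : Subgroup G)) S)
    have hmem := subgroupOf_mem_max hA hAS
    unfold Cfsg.thompsonSubgroupOf Cfsg.thompsonSubgroup
    calc A = (A.subgroupOf (S : Subgroup G)).map (S : Subgroup G).subtype :=
          (Subgroup.map_subgroupOf_eq_of_le hAS).symm
      _ ≤ (sSup (Cfsg.maxElementaryAbelianSubgroups p (S : Subgroup G))).map
            (S : Subgroup G).subtype := Subgroup.map_mono (le_sSup hmem)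
  · apply iSup_le
    intro S
    unfold Cfsg.thompsonSubgroupOf Cfsg.thompsonSubgroup
    rw [Subgroup.map_le_iff_le_comap]
    apply sSup_le
    intro B hB
    rw [← Subgroup.map_le_iff_le_comap]
    apply le_sSup
    obtain ⟨A1, hA1⟩ := exists_mem_maxElementaryAbelianSubgroups (G := G) p
    obtain ⟨S1, hA1S1⟩ := (elemAb_isPGroup hA1.1).exists_le_sylow
    obtain ⟨g, hg⟩ := MulAction.exists_smul_eq G S1 S
    have hA0 := map_equiv_mem_max hA1 (MulAut.conj g)
    have hA0S : A1.map (MulAut.conj g).toMonoidHom ≤ (S : Subgroup G) := by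
      rw [← hg, Sylow.coe_subgroup_smul, Subgroup.pointwise_smul_def]
      exact Subgroup.map_mono hA1S1
    exact map_mem_max hA0 hA0S hB

end Cfsg.Agent.S0604
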