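import Cfsg.Statements.S0606
import Cfsg.Agent.Helper3.ElemAb

set_option autoImplicit false
open Cfsg
open scoped commutatorElement

namespace Cfsg.Agent.S0606

open Cfsg.Agent.Helper3

/-- Elementary abelian p-subgroups of maximal order are best offenders on any normal elementary abelian p-subgroup. -/
theorem result {G : Type*} [Group G] [Finite G] {p : ℕ} [Fact p.Prime] (V : Subgroup G) [V.Normal] (hV : Cfsg.IsElementaryAbelian p V) (A : Subgroup G) (hA : A ∈ Cfsg.maxElementaryAbelianSubgroups p G) : Cfsg.IsBestOffenderOn p V A := by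
  have hAab := (isElementaryAbelian_iff.mp hA.1).1
  have hAexp := (isElementaryAbelian_iff.mp hA.1).2
  refine ⟨?_, ?_, ?_⟩
  · intro B hBA
    have hBel := elemAb_mono hA.1 hBA
    have hCel : Cfsg.IsElementaryAbelian p (V ⊓ Subgroup.centralizer (B : Set G)) :=
      elemAb_mono hV inf_le_left
    have hcomm : ∀ b ∈ B, ∀ c ∈ V ⊓ Subgroup.centralizer (B : Set G), b * c = c * b := by
      intro b hb c hc
      exact (Subgroup.mem_centralizer_iff.mp hc.2) b hb
    have hD := elemAb_sup hBel hCel hcomm
    have hDle := hA.2 _ hD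
    have hnorm : B ≤ Subgroup.normalizer ((V ⊓ Subgroup.centralizer (B : Set G) : Subgroup G) : Set G) := by
      refine le_trans ?_ (Subgroup.centralizer_le_normalizer _)
      rw [Subgroup.le_centralizer_iff]
      exact inf_le_right
    have hprod := card_mul_card_eq_of_le_normalizer B (V ⊓ Subgroup.centralizer (B : Set G)) hnorm
    have hinf : B ⊓ (V ⊓ Subgroup.centralizer (B : Set G)) ≤ V ⊓ Subgroup.centralizer (A : Set G) := by
      intro x hx
      refine ⟨hx.2.1, ?_⟩
      show x ∈ Subgroup.centralizer (A : Set G)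
      exact Subgroup.mem_centralizer_iff.mpr (fun a ha => hAab a ha x (hBA hx.1))
    have hle := Subgroup.card_le_of_le hinf
    rw [hprod]
    exact Nat.mul_le_mul hDle hle
  · rw [Subgroup.commutator_le]
    intro a ha b hb
    have : ⁅a, b⁆ = 1 := commutatorElement_eq_one_iff_mul_comm.mpr (hAab a ha b hb)
    rw [this]; exact one_mem _
  · intro a ha
    rw [hAexp a ha]; exact one_mem _

end Cfsg.Agent.S0606
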