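import Mathlib
import Cfsg.Prelude.Def_PLocal
import Cfsg.Agent.Helper3.ElemAb
import Cfsg.Agent.Helper3.SysNorm
import Cfsg.Agent.S0602
import Cfsg.Agent.S0604
import Cfsg.Agent.S0540
set_option autoImplicit false
open Cfsg

open scoped Pointwise

namespace Cfsg.Agent.S0608

universe u

open Cfsg.Agent.Helper3

theorem main {G : Type u} [Group G] [Finite G] {p : ℕ} [hp : Fact p.Prime]
    (hO : Cfsg.pPrimeCore p G = ⊥) :
    Cfsg.IsThompsonFactorizable p G ↔ Cfsg.thompsonSubgroup p G ≤
      Subgroup.centralizer ((⨆ S : Sylow p G, Cfsg.omegaOne p (((S : Subgroup G)) ⊓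
        Subgroup.centralizer ((S : Subgroup G) : Set G)) : Subgroup G) : Set G) := by
  obtain ⟨A1, hA1⟩ := exists_mem_maxElementaryAbelianSubgroups (G := G) p
  have hmaxS : ∀ (S : Sylow p G) (B : Subgroup (S : Subgroup G)),
      B ∈ maxElementaryAbelianSubgroups p (S : Subgroup G) →
      B.map (S : Subgroup G).subtype ∈ maxElementaryAbelianSubgroups p G := by
    intro S B hB
    obtain ⟨S1, hA1S1⟩ := (elemAb_isPGroup hA1.1).exists_le_sylow
    obtain ⟨g, hg⟩ := MulAction.exists_smul_eq G S1 S
    have hA0 := map_equiv_mem_max hA1 (MulAut.conj g)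
    have hA0S : A1.map (MulAut.conj g).toMonoidHom ≤ (S : Subgroup G) := by
      rw [← hg, Sylow.coe_subgroup_smul, Subgroup.pointwise_smul_def]
      exact Subgroup.map_mono hA1S1
    exact map_mem_max hA0 hA0S hB
  have hJS_le : ∀ (S : Sylow p G) (A : Subgroup G), A ∈ maxElementaryAbelianSubgroups p G →
      A ≤ (S : Subgroup G) → A ≤ Cfsg.thompsonSubgroupOf p (S : Subgroup G) := by
    intro S A hA hAS
    have hmem := subgroupOf_mem_max hA hAS
    unfold Cfsg.thompsonSubgroupOf Cfsg.thompsonSubgroup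
    calc A = (A.subgroupOf (S : Subgroup G)).map (S : Subgroup G).subtype :=
          (Subgroup.map_subgroupOf_eq_of_le hAS).symm
      _ ≤ _ := Subgroup.map_mono (le_sSup hmem)
  have hJS_S : ∀ S : Sylow p G, Cfsg.thompsonSubgroupOf p (S : Subgroup G) ≤ S :=
    fun S => Subgroup.map_subtype_le _
  have hJ := S0604.result (G := G) (p := p)
  constructor
  · intro hfac
    rw [hJ]
    apply iSup_le
    intro S
    rw [Subgroup.le_centralizer_iff]
    apply iSup_le
    intro S'
    unfold Cfsg.omegaOne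
    rw [Subgroup.closure_le]
    rintro x ⟨hxS', hxp⟩
    obtain ⟨g, hg⟩ := MulAction.exists_smul_eq G S S'
    obtain ⟨x₀, hx₀, c, hc, n, hn, hgcn⟩ := hfac S g⁻¹
    rw [hO, Subgroup.mem_bot] at hx₀
    subst hx₀
    rw [one_mul] at hgcn
    obtain ⟨y, hy⟩ : ∃ y, y = g⁻¹ * x * g := ⟨_, rfl⟩
    rw [Subgroup.mem_inf] at hxS'
    have hyZ : y ∈ (S : Subgroup G) ⊓ Subgroup.centralizer ((S : Subgroup G) : Set G) := by
      refine Subgroup.mem_inf.mpr ⟨?_, ?_⟩
      · have : x ∈ MulAut.conj g • (S : Subgroup G) := by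
          rw [← Sylow.coe_subgroup_smul, hg]; exact hxS'.1
        rw [Subgroup.mem_pointwise_smul_iff_inv_smul_mem] at this
        rw [hy]
        simpa [MulAut.smul_def] using this
      · rw [Subgroup.mem_centralizer_iff]
        intro s hs
        have hs' : g * s * g⁻¹ ∈ (S' : Subgroup G) := by
          rw [← hg, Sylow.coe_subgroup_smul]
          exact Subgroup.smul_mem_pointwise_smul s (MulAut.conj g) _ hs
        have := Subgroup.mem_centralizer_iff.mp hxS'.2 _ hs'
        calc s * y = g⁻¹ * ((g * s * g⁻¹) * x) * g := by rw [hy]; group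
          _ = g⁻¹ * (x * (g * s * g⁻¹)) * g := by rw [this]
          _ = y * s := by rw [hy]; group
    have hyp : y ^ p = 1 := by
      have : y = g⁻¹ * x * g⁻¹⁻¹ := by rw [hy, inv_inv]
      rw [this, conj_pow, hxp]; group
    have hyΩ : y ∈ Cfsg.omegaOne p ((S : Subgroup G) ⊓
        Subgroup.centralizer ((S : Subgroup G) : Set G)) :=
      Subgroup.subset_closure ⟨hyZ, hyp⟩
    have hcy : y * c = c * y := Subgroup.mem_centralizer_iff.mp hc y hyΩ
    have hx : x = n⁻¹ * y * n := by
      have hg' : g = n⁻¹ * c⁻¹ := by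
        have : g = (g⁻¹)⁻¹ := (inv_inv g).symm
        rw [this, hgcn, mul_inv_rev]
      have h1 : x = g * y * g⁻¹ := by rw [hy]; group
      rw [h1, hg']
      calc n⁻¹ * c⁻¹ * y * (n⁻¹ * c⁻¹)⁻¹ = n⁻¹ * c⁻¹ * (y * c) * n := by group
        _ = n⁻¹ * c⁻¹ * (c * y) * n := by rw [hcy]
        _ = n⁻¹ * y * n := by group
    change x ∈ Subgroup.centralizer _
    rw [Subgroup.mem_centralizer_iff]
    intro j hj
    have hnj : n * j * n⁻¹ ∈ Cfsg.thompsonSubgroupOf p (S : Subgroup G) :=
      (Subgroup.mem_normalizer_iff.mp hn j).mp hj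
    have hyj := Subgroup.mem_centralizer_iff.mp (Subgroup.mem_inf.mp hyZ).2 _ (hJS_S S hnj)
    rw [hx]
    calc j * (n⁻¹ * y * n) = n⁻¹ * ((n * j * n⁻¹) * y) * n := by group
      _ = n⁻¹ * (y * (n * j * n⁻¹)) * n := by rw [hyj]
      _ = n⁻¹ * y * n * j := by group
  · intro h S g
    obtain ⟨J, hJdef⟩ : ∃ J, J = Cfsg.thompsonSubgroup p G := ⟨_, rfl⟩
    rw [← hJdef] at h hJ
    haveI hJn : J.Normal := by
      haveI : J.Characteristic := by rw [hJdef]; exact (S0602.result (G := G) (p := p)).1
      infer_instance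
    have hJSJ : Cfsg.thompsonSubgroupOf p (S : Subgroup G) ≤ J := by
      rw [hJ]
      exact le_iSup (fun S : Sylow p G => Cfsg.thompsonSubgroupOf p (S : Subgroup G)) S
    obtain ⟨T, hT⟩ : ∃ T, T = (S : Subgroup G) ⊓ J := ⟨_, rfl⟩
    have hTp : IsPGroup p (T.subgroupOf J) := by
      have : IsPGroup p T := hT ▸ S.2.to_le inf_le_left
      exact this.comap_subtype
    have hTidx : ¬ p ∣ (T.subgroupOf J).index := by
      intro hd
      have h1 : (T.subgroupOf J).index = (S : Subgroup G).relIndex J := by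
        change T.relIndex J = _
        rw [hT, Subgroup.inf_relIndex_right]
      rw [h1] at hd
      exact S.not_dvd_index (hd.trans (relIndex_dvd_index_normal (S : Subgroup G) J))
    have hfr := Sylow.normalizer_sup_eq_top (hTp.toSylow hTidx)
    have hPmap : (((hTp.toSylow hTidx : Sylow p J) : Subgroup J)).map J.subtype = T := by
      rw [IsPGroup.toSylow_coe, Subgroup.subgroupOf_map_subtype, hT, inf_assoc, inf_idem]
    rw [hPmap] at hfr
    have hg : g ∈ ((J ⊔ Subgroup.normalizer (T : Set G) : Subgroup G) : Set G) := by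
      rw [sup_comm, hfr]; trivial
    rw [Subgroup.normal_mul] at hg
    obtain ⟨j, hj, n, hn, rfl⟩ := Set.mem_mul.mp hg
    refine ⟨1, one_mem _, j, ?_, n, ?_, by rw [one_mul]⟩
    · have h1 := h hj
      refine Subgroup.centralizer_le ?_ h1
      exact le_iSup (fun S : Sylow p G => Cfsg.omegaOne p ((S : Subgroup G) ⊓
        Subgroup.centralizer ((S : Subgroup G) : Set G))) S
    · apply S0540.mem_normalizer_of_smul_le
      rw [Subgroup.pointwise_smul_def]
      change ((Cfsg.thompsonSubgroup p (S : Subgroup G)).map (S : Subgroup G).subtype).map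
        (MulAut.conj n).toMonoidHom ≤ Cfsg.thompsonSubgroupOf p (S : Subgroup G)
      rw [Subgroup.map_map, Subgroup.map_le_iff_le_comap]
      unfold Cfsg.thompsonSubgroup
      apply sSup_le
      intro B hB
      rw [← Subgroup.map_le_iff_le_comap, ← Subgroup.map_map]
      have hBG := hmaxS S B hB
      have hBJS : B.map (S : Subgroup G).subtype ≤ Cfsg.thompsonSubgroupOf p (S : Subgroup G) :=
        Subgroup.map_mono (le_sSup hB)
      have hBT : B.map (S : Subgroup G).subtype ≤ T := by
        rw [hT]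
        exact le_inf (Subgroup.map_subtype_le _) (hBJS.trans hJSJ)
      have hB' := map_equiv_mem_max hBG (MulAut.conj n)
      have hB'T : (B.map (S : Subgroup G).subtype).map (MulAut.conj n).toMonoidHom ≤ T := by
        have := Subgroup.map_mono (f := (MulAut.conj n).toMonoidHom) hBT
        have hTn : T.map (MulAut.conj n).toMonoidHom = T := smul_eq_of_mem_normalizer hn
        rw [hTn] at this
        exact this
      exact hJS_le S _ hB' (hB'T.trans (hT ▸ inf_le_left))

/-- With trivial p'-core, Thompson factorizability is equivalent to J(G) centralizing the subgroup generated by all Ω₁(Z(S)), S Sylow. -/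
theorem result {G : Type*} [Group G] [Finite G] {p : ℕ} [Fact p.Prime] (hO : Cfsg.pPrimeCore p G = ⊥) : Cfsg.IsThompsonFactorizable p G ↔ Cfsg.thompsonSubgroup p G ≤ Subgroup.centralizer ((⨆ S : Sylow p G, Cfsg.omegaOne p (((S : Subgroup G)) ⊓ Subgroup.centralizer ((S : Subgroup G) : Set G)) : Subgroup G) : Set G) := by
  exact main hO

end Cfsg.Agent.S0608
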