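import Mathlib
import Cfsg.Statements.S0622
import Cfsg.Agent.Helper3.ElemAb

set_option autoImplicit false
open Cfsg

namespace Cfsg.Agent.S0622

universe u

theorem equiv_mem_max {G H : Type u} [Group G] [Group H] {p : ℕ} {A : Subgroup G}
    (hA : A ∈ maxElementaryAbelianSubgroups p G) (η : G ≃* H) :
    A.map η.toMonoidHom ∈ maxElementaryAbelianSubgroups p H := by
  refine ⟨Cfsg.Agent.Helper3.elemAb_map hA.1 _, fun B hB => ?_⟩
  rw [Subgroup.card_map_of_injective (f := η.toMonoidHom) η.injective]
  have h1 : Nat.card (B.map η.symm.toMonoidHom) = Nat.card B :=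
    Subgroup.card_map_of_injective (f := η.symm.toMonoidHom) η.symm.injective
  rw [← h1]
  exact hA.2 _ (Cfsg.Agent.Helper3.elemAb_map hB _)

theorem map_symm_map {G H : Type u} [Group G] [Group H] (η : G ≃* H) (A' : Subgroup H) :
    (A'.map η.symm.toMonoidHom).map η.toMonoidHom = A' := by
  rw [Subgroup.map_map]
  have : η.toMonoidHom.comp η.symm.toMonoidHom = MonoidHom.id H := by
    ext x; simp
  rw [this, Subgroup.map_id]

theorem thompson_map {G H : Type u} [Group G] [Group H] (p : ℕ) (η : G ≃* H) :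
    (thompsonSubgroup p G).map η.toMonoidHom = thompsonSubgroup p H := by
  unfold thompsonSubgroup
  apply le_antisymm
  · rw [Subgroup.map_le_iff_le_comap]
    apply sSup_le
    intro A hA
    rw [← Subgroup.map_le_iff_le_comap]
    exact le_sSup (equiv_mem_max hA η)
  · apply sSup_le
    intro A' hA'
    have h1 : A'.map η.symm.toMonoidHom ∈ maxElementaryAbelianSubgroups p G :=
      equiv_mem_max hA' η.symm
    rw [← map_symm_map η A']
    exact Subgroup.map_mono (le_sSup h1)

theorem omegaOne_map {G H : Type*} [Group G] [Group H] (p : ℕ) (f : G →* H)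
    (hf : Function.Injective f) (K : Subgroup G) :
    (omegaOne p K).map f = omegaOne p (K.map f) := by
  unfold omegaOne
  rw [MonoidHom.map_closure]
  congr 1
  ext y
  constructor
  · rintro ⟨x, ⟨hxK, hxp⟩, rfl⟩
    exact ⟨Subgroup.mem_map_of_mem f hxK, by rw [← map_pow, hxp, map_one]⟩
  · rintro ⟨⟨x, hxK, rfl⟩, hyp⟩
    refine ⟨x, ⟨hxK, hf ?_⟩, rfl⟩
    rw [map_pow, map_one]; exact hyp

theorem map_inf_centralizer {G H : Type*} [Group G] [Group H] (f : G →* H)
    (hf : Function.Injective f) (K : Subgroup G) :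
    (K ⊓ Subgroup.centralizer (K : Set G)).map f =
      K.map f ⊓ Subgroup.centralizer ((K.map f : Subgroup H) : Set H) := by
  ext y
  constructor
  · rintro ⟨x, hx, rfl⟩
    obtain ⟨hxK, hxC⟩ := Subgroup.mem_inf.mp hx
    refine Subgroup.mem_inf.mpr ⟨Subgroup.mem_map_of_mem f hxK, ?_⟩
    rw [Subgroup.mem_centralizer_iff]
    rintro _ ⟨k, hk, rfl⟩
    rw [← map_mul, ← map_mul, (Subgroup.mem_centralizer_iff.mp hxC) k hk]
  · intro hy
    obtain ⟨⟨x, hxK, rfl⟩, hyC⟩ := Subgroup.mem_inf.mp hy
    refine ⟨x, Subgroup.mem_inf.mpr ⟨hxK, ?_⟩, rfl⟩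
    rw [Subgroup.mem_centralizer_iff]
    intro k hk
    apply hf
    rw [map_mul, map_mul]
    exact (Subgroup.mem_centralizer_iff.mp hyC) (f k) (Subgroup.mem_map_of_mem f hk)

theorem omegaCenterThompson_map {G H : Type u} [Group G] [Group H] (p : ℕ) (η : G ≃* H) :
    (omegaCenterThompson p G).map η.toMonoidHom = omegaCenterThompson p H := by
  unfold omegaCenterThompson
  rw [omegaOne_map p η.toMonoidHom η.injective, map_inf_centralizer η.toMonoidHom η.injective,
    thompson_map p η]

theorem stable_comp {S S' H : Type u} [Group S] [Group S'] [Group H] (p : ℕ) (η : S ≃* S')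
    (τ : S →* H) (h : IsStableEmbedding p τ) :
    IsStableEmbedding p (τ.comp η.symm.toMonoidHom) := by
  unfold IsStableEmbedding at h ⊢
  obtain ⟨hinj, hfin, ⟨P, hP⟩, hcent, hJ, hV⟩ := h
  have hJ' : (thompsonSubgroup p S').map (τ.comp η.symm.toMonoidHom) =
      (thompsonSubgroup p S).map τ := by
    rw [← Subgroup.map_map, thompson_map p η.symm]
  have hO' : (omegaCenterThompson p S').map (τ.comp η.symm.toMonoidHom) =
      (omegaCenterThompson p S).map τ := by
    rw [← Subgroup.map_map, omegaCenterThompson_map p η.symm]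
  refine ⟨hinj.comp η.symm.injective, hfin, ⟨P, ?_⟩, hcent, ?_, ?_⟩
  · rw [hP]
    ext y
    constructor
    · rintro ⟨x, rfl⟩; exact ⟨η x, by simp⟩
    · rintro ⟨x', rfl⟩; exact ⟨η.symm x', rfl⟩
  · rw [hJ']; exact hJ
  · intro V hVn hVle
    rw [hO'] at hVle
    exact hV V hVle

theorem map_le {S S' : Type u} [Group S] [Group S'] (p : ℕ) (η : S ≃* S') :
    (stableNormalClosure p S).map η.toMonoidHom ≤ stableNormalClosure p S' := by
  unfold stableNormalClosure
  apply le_sInf
  rintro W' ⟨hW1, hW2⟩
  rw [Subgroup.map_le_iff_le_comap]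
  apply sInf_le
  refine ⟨?_, ?_⟩
  · unfold omegaOne
    rw [Subgroup.closure_le]
    rintro x ⟨hxc, hxp⟩
    show η.toMonoidHom x ∈ W'
    apply hW1
    show η.toMonoidHom x ∈ Subgroup.closure {x : S' | x ∈ Subgroup.center S' ∧ x ^ p = 1}
    apply Subgroup.subset_closure
    refine ⟨?_, by rw [← map_pow, hxp, map_one]⟩
    rw [Subgroup.mem_center_iff] at hxc ⊢
    intro y
    have h1 := hxc (η.symm y)
    have h2 := congrArg η h1
    simpa using h2
  · intro H _ τ hτ
    have h1 : (W'.comap η.toMonoidHom).map τ = W'.map (τ.comp η.symm.toMonoidHom) := by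
      ext y
      constructor
      · rintro ⟨x, hx, rfl⟩
        exact ⟨η x, hx, by simp⟩
      · rintro ⟨x', hx', rfl⟩
        exact ⟨η.symm x', by simpa using hx', rfl⟩
    rw [h1]
    exact hW2 H (τ.comp η.symm.toMonoidHom) (stable_comp p η τ hτ)

theorem omegaOne_center_normal {H : Type*} [Group H] (p : ℕ) (K : Subgroup H) (hK : K.Normal) :
    (omegaOne p (K ⊓ Subgroup.centralizer (K : Set H))).Normal := by
  constructor
  intro n hn g
  unfold omegaOne at hn ⊢
  induction hn using Subgroup.closure_induction with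
  | mem x hx =>
    obtain ⟨hx1, hxp⟩ := hx
    obtain ⟨hxK, hxC⟩ := Subgroup.mem_inf.mp hx1
    apply Subgroup.subset_closure
    refine ⟨Subgroup.mem_inf.mpr ⟨hK.conj_mem x hxK g, ?_⟩, ?_⟩
    · rw [Subgroup.mem_centralizer_iff] at hxC ⊢
      intro k hk
      have hk' : g⁻¹ * k * g ∈ K := by
        have := hK.conj_mem k hk g⁻¹
        rwa [inv_inv] at this
      have h1 := hxC _ hk'
      calc k * (g * x * g⁻¹) = g * (g⁻¹ * k * g * x) * g⁻¹ := by group
        _ = g * (x * (g⁻¹ * k * g)) * g⁻¹ := by rw [h1]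
        _ = g * x * g⁻¹ * k := by group
    · rw [conj_pow, hxp, mul_one, mul_inv_cancel]
  | one => rw [mul_one, mul_inv_cancel]; exact one_mem _
  | mul a b _ _ iha ihb =>
    have : g * (a * b) * g⁻¹ = (g * a * g⁻¹) * (g * b * g⁻¹) := by group
    rw [this]; exact mul_mem iha ihb
  | inv a _ iha =>
    have : g * a⁻¹ * g⁻¹ = (g * a * g⁻¹)⁻¹ := by group
    rw [this]; exact inv_mem iha

/-- Basic properties of the stable normal closure W(S) of Ω₁(Z(S)) in a finite p-group: characteristic, squeezed between Ω₁(Z(S)) and Ω₁(Z(J(S))), nontrivial for S ≠ 1, and transported by group isomorphisms. -/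
theorem result {S : Type u} [Group S] [Finite S] {p : ℕ} [Fact p.Prime] (hS : IsPGroup p S) : (Cfsg.stableNormalClosure p S).Characteristic ∧ Cfsg.omegaOne p (Subgroup.center S) ≤ Cfsg.stableNormalClosure p S ∧ Cfsg.stableNormalClosure p S ≤ Cfsg.omegaCenterThompson p S ∧ (Nontrivial S → Cfsg.stableNormalClosure p S ≠ ⊥) ∧ ∀ (S' : Type u) [Group S'] (η : S ≃* S'), (Cfsg.stableNormalClosure p S).map η.toMonoidHom = Cfsg.stableNormalClosure p S' := by
  have h5 : ∀ (S' : Type u) [Group S'] (η : S ≃* S'),
      (stableNormalClosure p S).map η.toMonoidHom = stableNormalClosure p S' := by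
    intro S' _ η
    apply le_antisymm (map_le p η)
    have h := map_le p η.symm
    rw [← map_symm_map η (stableNormalClosure p S')]
    exact Subgroup.map_mono h
  have h2 : omegaOne p (Subgroup.center S) ≤ stableNormalClosure p S := by
    unfold stableNormalClosure
    apply le_sInf
    rintro W ⟨hW1, -⟩
    exact hW1
  refine ⟨Subgroup.characteristic_iff_map_eq.mpr (fun ϕ => h5 S ϕ), h2, ?_, ?_, h5⟩
  · unfold stableNormalClosure
    apply sInf_le
    refine ⟨?_, ?_⟩
    · unfold omegaCenterThompson omegaOne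
      apply Subgroup.closure_mono
      rintro x ⟨hxc, hxp⟩
      refine ⟨Subgroup.mem_inf.mpr ⟨?_, ?_⟩, hxp⟩
      · obtain ⟨A, hA⟩ := Cfsg.Agent.Helper3.exists_mem_maxElementaryAbelianSubgroups (G := S) p
        have hsup : IsElementaryAbelian p (A ⊔ Subgroup.zpowers x) := by
          apply Cfsg.Agent.Helper3.elemAb_sup hA.1 (Cfsg.Agent.Helper3.elemAb_zpowers hxp)
          intro a _ b hb
          obtain ⟨n, rfl⟩ := Subgroup.mem_zpowers_iff.mp hb
          have hc : Commute a x := Subgroup.mem_center_iff.mp hxc a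
          exact (hc.zpow_right n).eq
        have hcard := hA.2 _ hsup
        have heq : A = A ⊔ Subgroup.zpowers x := Subgroup.eq_of_le_of_card_ge le_sup_left hcard
        have hxA : x ∈ A := by
          rw [heq]
          exact (le_sup_right : Subgroup.zpowers x ≤ A ⊔ Subgroup.zpowers x)
            (Subgroup.mem_zpowers x)
        exact (le_sSup hA : A ≤ thompsonSubgroup p S) hxA
      · rw [Subgroup.mem_centralizer_iff]
        intro y _
        exact Subgroup.mem_center_iff.mp hxc y
    · intro H _ τ hτ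
      unfold IsStableEmbedding at hτ
      obtain ⟨hinj, -, -, -, hJ, -⟩ := hτ
      have e : (omegaCenterThompson p S).map τ =
          omegaOne p ((thompsonSubgroup p S).map τ ⊓
            Subgroup.centralizer (((thompsonSubgroup p S).map τ : Subgroup H) : Set H)) := by
        unfold omegaCenterThompson
        rw [omegaOne_map p τ hinj, map_inf_centralizer τ hinj]
      rw [e]
      exact omegaOne_center_normal p _ hJ
  · intro hnt
    haveI : Nontrivial (Subgroup.center S) := hS.center_nontrivial
    have hpc : IsPGroup p (Subgroup.center S) := hS.to_subgroup _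
    obtain ⟨n, hn0, hn⟩ := hpc.nontrivial_iff_card.mp inferInstance
    have hdvd : p ∣ Nat.card (Subgroup.center S) := by
      rw [hn]; exact dvd_pow_self p (ne_of_gt hn0)
    obtain ⟨z, hz⟩ := exists_prime_orderOf_dvd_card' p hdvd
    have hz1 : (z : S) ≠ 1 := by
      intro h
      have hz' : z = 1 := Subtype.ext h
      rw [hz', orderOf_one] at hz
      exact (Fact.out : p.Prime).one_lt.ne hz
    have hzp : (z : S) ^ p = 1 := by
      have h := pow_orderOf_eq_one z
      rw [hz] at h
      exact_mod_cast congrArg Subtype.val h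
    have hzO : (z : S) ∈ omegaOne p (Subgroup.center S) := by
      unfold omegaOne
      exact Subgroup.subset_closure ⟨z.2, hzp⟩
    have hzW : (z : S) ∈ stableNormalClosure p S := h2 hzO
    intro hbot
    rw [hbot, Subgroup.mem_bot] at hzW
    exact hz1 hzW

end Cfsg.Agent.S0622
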