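import Cfsg.Statements.S0635
import Cfsg.Agent.S0634

set_option autoImplicit false
open Cfsg

namespace Cfsg.Agent.S0635

/-- The p-length of a p-soluble group is at most the nilpotency class of its Sylow p-subgroups. -/
theorem result {G : Type*} [Group G] [Finite G] {p : ℕ} [Fact p.Prime] (hsol : Cfsg.IsPSolvable p G) (S : Sylow p G) : Cfsg.PLengthLE p (Group.nilpotencyClass ↥(S : Subgroup G)) G := by
  classical
  have hpp : p.Prime := Fact.out
  have hT : ∀ k, (upperPSeries p G (2 * k + 2)).1 =
      (pCore p (G ⧸ (upperPSeries p G (2 * k + 1)).1)).comap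
        (QuotientGroup.mk' (upperPSeries p G (2 * k + 1)).1) := by
    intro k
    show (upperPSeries p G ((2 * k + 1) + 1)).1 = _
    rw [upperPSeries]
    simp
  have hW : ∀ k, (upperPSeries p G (2 * k + 1)).1 =
      (pPrimeCore p (G ⧸ (upperPSeries p G (2 * k)).1)).comap
        (QuotientGroup.mk' (upperPSeries p G (2 * k)).1) := by
    intro k
    rw [upperPSeries]
    simp
  have hmono : ∀ k, (upperPSeries p G (2 * k)).1 ≤ (upperPSeries p G (2 * k + 1)).1 := by
    intro k x hx
    rw [hW k, Subgroup.mem_comap]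
    have h1 : QuotientGroup.mk' (upperPSeries p G (2 * k)).1 x = 1 :=
      (QuotientGroup.eq_one_iff x).2 hx
    rw [h1]
    exact Subgroup.one_mem _
  have : Group.IsNilpotent ↥(S : Subgroup G) := S.isPGroup'.isNilpotent
  have key : ∀ i, (Subgroup.upperCentralSeries ↥(S : Subgroup G) i).map (S : Subgroup G).subtype ≤
      (upperPSeries p G (2 * i)).1 := by
    intro i
    induction i with
    | zero =>
      rw [Subgroup.upperCentralSeries_zero, Subgroup.map_bot]
      exact bot_le
    | succ i ih =>
      rintro _ ⟨z, hz, rfl⟩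
      have e2 : 2 * (i + 1) = 2 * i + 2 := by ring
      rw [e2, hT i, Subgroup.mem_comap]
      have hS34 := Cfsg.Agent.S0634.result hsol i
      rw [hT i, Subgroup.map_comap_eq_self_of_surjective (QuotientGroup.mk'_surjective _)] at hS34
      apply hS34
      rw [Subgroup.mem_centralizer_iff]
      intro xb hxb
      have hle : pCore p (G ⧸ (upperPSeries p G (2 * i + 1)).1) ≤
          (S : Subgroup G).map (QuotientGroup.mk' (upperPSeries p G (2 * i + 1)).1) := by
        have hn : (pCore p (G ⧸ (upperPSeries p G (2 * i + 1)).1)).Normal :=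
          Cfsg.Agent.Helper23.pCore_normal_fin p
        have h := (Cfsg.Agent.Helper23.pCore_isPGroup p
          (G := G ⧸ (upperPSeries p G (2 * i + 1)).1)).le_sylow_of_normal
          (S.mapSurjective (QuotientGroup.mk'_surjective (upperPSeries p G (2 * i + 1)).1))
        rwa [Sylow.coe_mapSurjective] at h
      obtain ⟨s, hs, rfl⟩ := hle hxb
      have hcomm : (z : G) * s * (z : G)⁻¹ * s⁻¹ ∈ (upperPSeries p G (2 * i + 1)).1 := by
        have h1 := (Subgroup.mem_upperCentralSeries_succ_iff.1 hz) ⟨s, hs⟩
        have h2 : (S : Subgroup G).subtype (z * ⟨s, hs⟩ * z⁻¹ * ⟨s, hs⟩⁻¹) ∈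
            (upperPSeries p G (2 * i)).1 := ih ⟨_, h1, rfl⟩
        exact hmono i h2
      have h2 : QuotientGroup.mk' (upperPSeries p G (2 * i + 1)).1
          ((z : G) * s * (z : G)⁻¹ * s⁻¹) = 1 := (QuotientGroup.eq_one_iff _).2 hcomm
      rw [map_mul, map_mul, map_mul, map_inv, map_inv] at h2
      set a := QuotientGroup.mk' (upperPSeries p G (2 * i + 1)).1 ((S : Subgroup G).subtype z)
        with ha
      set b := QuotientGroup.mk' (upperPSeries p G (2 * i + 1)).1 s with hb
      have h3 : a * b * a⁻¹ * b⁻¹ = 1 := h2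
      calc b * a = (a * b * a⁻¹ * b⁻¹)⁻¹ * (a * b) := by group
        _ = a * b := by rw [h3, inv_one, one_mul]
  have hSU : (S : Subgroup G) ≤
      (upperPSeries p G (2 * Group.nilpotencyClass ↥(S : Subgroup G))).1 := by
    have h := key (Group.nilpotencyClass ↥(S : Subgroup G))
    rw [Subgroup.upperCentralSeries_nilpotencyClass, ← MonoidHom.range_eq_map,
      Subgroup.range_subtype] at h
    exact h
  unfold PLengthLE
  rw [hW]
  have htop : pPrimeCore p
      (G ⧸ (upperPSeries p G (2 * Group.nilpotencyClass ↥(S : Subgroup G))).1) = ⊤ := by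
    apply top_le_iff.1
    apply Cfsg.Agent.Helper23.le_pPrimeCore inferInstance
    rw [Subgroup.card_top, ← Subgroup.index_eq_card]
    have hdvd := Subgroup.index_dvd_of_le hSU
    have hnd : ¬ p ∣ (S : Subgroup G).index := S.not_dvd_index
    exact ((Nat.Prime.coprime_iff_not_dvd hpp).2 (fun h => hnd (h.trans hdvd))).symm
  rw [htop, Subgroup.comap_top]

end Cfsg.Agent.S0635
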