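import Mathlib
import Cfsg.Statements.S0642

set_option autoImplicit false
open Cfsg

namespace Cfsg.Agent.S0642

open scoped commutatorElement

/-- Among finite 2-groups the regular ones are exactly the abelian ones. -/
theorem result {G : Type*} [Group G] [Finite G] (hG : IsPGroup 2 G) : Cfsg.IsRegularPGroup 2 G ↔ ∀ a b : G, a * b = b * a := by
  constructor
  · rintro ⟨-, hreg⟩
    -- every commutator lies in the subgroup generated by squares of the derived subgroup
    have hcomm_mem : ∀ x y : G, ⁅x, y⁆ ∈ Cfsg.powerClosure 2 1 (commutator G) := by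
      intro x y
      obtain ⟨c, hc, hab⟩ := hreg (x⁻¹ * y⁻¹ * x) x⁻¹ 1
      have hc_eq : c = ⁅x, y⁆ := by
        have h1 : c = ((x⁻¹) ^ (2 ^ 1))⁻¹ * ((x⁻¹ * y⁻¹ * x) ^ (2 ^ 1))⁻¹ *
            (x⁻¹ * y⁻¹ * x * x⁻¹) ^ (2 ^ 1) := by
          rw [hab]; group
        rw [h1, commutatorElement_def]
        simp only [pow_one, pow_two]
        group
      rw [← hc_eq]
      have hmono : Cfsg.powerClosure 2 1 ⁅Subgroup.closure ({x⁻¹ * y⁻¹ * x, x⁻¹} : Set G),
          Subgroup.closure ({x⁻¹ * y⁻¹ * x, x⁻¹} : Set G)⁆ ≤
          Cfsg.powerClosure 2 1 (commutator G) := by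
        unfold Cfsg.powerClosure
        apply Subgroup.closure_mono
        rintro _ ⟨z, hz, rfl⟩
        exact ⟨z, Subgroup.commutator_mono le_top le_top hz, rfl⟩
      exact hmono hc
    have hD_le : commutator G ≤ Cfsg.powerClosure 2 1 (commutator G) := by
      have h0 : Subgroup.closure (commutatorSet G) ≤ Cfsg.powerClosure 2 1 (commutator G) := by
        rw [Subgroup.closure_le]
        rintro _ ⟨x, y, rfl⟩
        exact hcomm_mem x y
      rw [← commutator_eq_closure] at h0
      exact h0
    -- the derived subgroup is trivial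
    have hD : commutator G = ⊥ := by
      by_contra hne
      haveI : Fact (Nat.Prime 2) := ⟨Nat.prime_two⟩
      have hDp : IsPGroup 2 (commutator G) := hG.to_subgroup _
      obtain ⟨k, hk⟩ := IsPGroup.iff_card.mp hDp
      have hk1 : 1 ≤ k := by
        rcases Nat.eq_zero_or_pos k with h0 | h0
        · exfalso
          rw [h0, pow_zero] at hk
          apply hne
          exact (Subgroup.eq_bot_iff_card _).mpr hk
        · exact h0
      have hdvd : 2 ^ (k - 1) ∣ Nat.card (commutator G) := by
        rw [hk]; exact pow_dvd_pow 2 (Nat.sub_le k 1)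
      obtain ⟨K, hK⟩ := Sylow.exists_subgroup_card_pow_prime 2 hdvd
      have hidx : K.index = 2 := by
        have h1 := K.index_mul_card
        rw [hK, hk] at h1
        have h2 : (2 : ℕ) ^ k = 2 * 2 ^ (k - 1) := by
          conv_lhs => rw [show k = (k - 1) + 1 by omega]
          rw [pow_succ, mul_comm]
        rw [h2] at h1
        exact Nat.eq_of_mul_eq_mul_right (pow_pos (by norm_num) _) h1
      have hpc : Cfsg.powerClosure 2 1 (commutator G) ≤ K.map (commutator G).subtype := by
        unfold Cfsg.powerClosure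
        rw [Subgroup.closure_le]
        rintro _ ⟨z, hz, rfl⟩
        refine ⟨⟨z, hz⟩ ^ 2, Subgroup.sq_mem_of_index_two hidx _, ?_⟩
        simp
      have hK_top : K = ⊤ := by
        rw [eq_top_iff]
        intro z _
        obtain ⟨w, hw, hwz⟩ := hpc (hD_le z.2)
        have : w = z := Subtype.ext hwz
        rw [← this]
        exact hw
      rw [hK_top, Subgroup.index_top] at hidx
      norm_num at hidx
    intro a b
    rw [← commutatorElement_eq_one_iff_mul_comm]
    have : ⁅a, b⁆ ∈ commutator G := by
      rw [commutator_eq_closure]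
      exact Subgroup.subset_closure ⟨a, b, rfl⟩
    rw [hD, Subgroup.mem_bot] at this
    exact this
  · intro hcomm
    refine ⟨hG, ?_⟩
    intro a b n
    refine ⟨1, one_mem _, ?_⟩
    rw [mul_one]
    exact (Commute.mul_pow (hcomm a b) _)

end Cfsg.Agent.S0642
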