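import Cfsg.Statements.S0643
import Mathlib
import Cfsg.Agent.Helper1.Regular2

set_option autoImplicit false
open Cfsg

namespace Cfsg.Agent.S0643

/-- Kemhadze's criterion: a finite p-group is regular exactly when (ab)^p = a^p b^p c^p always holds for some c in the derived subgroup of the subgroup generated by a and b. -/
theorem result {G : Type*} [Group G] [Finite G] {p : ℕ} [Fact p.Prime] (hG : IsPGroup p G) : Cfsg.IsRegularPGroup p G ↔ ∀ a b : G, ∃ c ∈ ⁅Subgroup.closure ({a, b} : Set G), Subgroup.closure ({a, b} : Set G)⁆, (a * b) ^ p = a ^ p * b ^ p * c ^ p := by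
  constructor
  · intro hreg a b
    have hreg1 : Helper1.RegAt p 1 G := fun a b => hreg.2 a b 1
    obtain ⟨c, hc, he⟩ := hreg.2 a b 1
    obtain ⟨x, hx, rfl⟩ := Helper1.regAt_powerClosure hG 1 hreg1 _ c hc
    rw [pow_one] at he
    exact ⟨x, hx, he⟩
  · intro hK
    have h1 : Helper1.RegAt p 1 G := by
      intro a b
      obtain ⟨c, hc, he⟩ := hK a b
      refine ⟨c ^ p ^ 1, Subgroup.subset_closure ⟨c, hc, rfl⟩, ?_⟩
      rw [pow_one]
      exact he
    have hall : ∀ n, Helper1.RegAt p n G := by
      intro n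
      induction n with
      | zero =>
        intro a b
        exact ⟨1, Subgroup.one_mem _, by simp⟩
      | succ n ihn =>
        intro a b
        obtain ⟨K, hKdef⟩ : ∃ K, K = Subgroup.closure ({a, b} : Set G) := ⟨_, rfl⟩
        rw [← hKdef]
        have haK : a ∈ K := by rw [hKdef]; exact Subgroup.subset_closure (by simp)
        have hbK : b ∈ K := by rw [hKdef]; exact Subgroup.subset_closure (by simp)
        obtain ⟨c, hc, he⟩ := ihn a b
        rw [← hKdef] at hc
        obtain ⟨x, hx⟩ : ∃ x, x = a ^ p ^ n := ⟨_, rfl⟩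
        obtain ⟨y, hy⟩ : ∃ y, y = b ^ p ^ n := ⟨_, rfl⟩
        rw [← hx, ← hy] at he
        obtain ⟨e', he', hxy⟩ := h1 x y
        obtain ⟨e, hee, hxyz⟩ := h1 (x * y) c
        rw [pow_one] at hxy hxyz
        have hxP : x ∈ Cfsg.powerClosure p n K := Subgroup.subset_closure ⟨a, haK, hx⟩
        have hyP : y ∈ Cfsg.powerClosure p n K := Subgroup.subset_closure ⟨b, hbK, hy⟩
        have hcP : c ∈ Cfsg.powerClosure p n K :=
          Helper1.powerClosure_mono' p n (Helper1.commutator_self_le' K) hc
        have hD : ∀ u v : G, u ∈ Cfsg.powerClosure p n K → v ∈ Cfsg.powerClosure p n K →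
            Cfsg.powerClosure p 1 ⁅Subgroup.closure ({u, v} : Set G),
              Subgroup.closure ({u, v} : Set G)⁆ ≤ Cfsg.powerClosure p (n + 1) ⁅K, K⁆ := by
          intro u v hu hv
          have hle : Subgroup.closure ({u, v} : Set G) ≤ Cfsg.powerClosure p n K := by
            rw [Subgroup.closure_le]
            intro t ht
            rcases ht with rfl | rfl
            · exact hu
            · exact hv
          have h2 : ⁅Subgroup.closure ({u, v} : Set G), Subgroup.closure ({u, v} : Set G)⁆ ≤
              Cfsg.powerClosure p n ⁅K, K⁆ :=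
            (Subgroup.commutator_mono hle hle).trans (Helper1.regAt_comm_le hG n ihn K)
          unfold Cfsg.powerClosure
          rw [Subgroup.closure_le]
          rintro _ ⟨t, ht, rfl⟩
          obtain ⟨w, hw, rfl⟩ := Helper1.regAt_powerClosure hG n ihn ⁅K, K⁆ t (h2 ht)
          exact Subgroup.subset_closure ⟨w, hw, by rw [← pow_mul, pow_one, ← pow_succ]⟩
        have hcp : c ^ p ∈ Cfsg.powerClosure p (n + 1) ⁅K, K⁆ := by
          obtain ⟨w, hw, rfl⟩ := Helper1.regAt_powerClosure hG n ihn ⁅K, K⁆ c hc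
          exact Subgroup.subset_closure ⟨w, hw, by rw [← pow_mul, ← pow_succ]⟩
        refine ⟨e' * c ^ p * e, ?_, ?_⟩
        · exact Subgroup.mul_mem _ (Subgroup.mul_mem _ (hD x y hxP hyP he') hcp)
            (hD (x * y) c (Subgroup.mul_mem _ hxP hyP) hcP hee)
        · calc (a * b) ^ p ^ (n + 1) = ((a * b) ^ p ^ n) ^ p := by rw [pow_succ, pow_mul]
            _ = (x * y * c) ^ p := by rw [he]
            _ = (x * y) ^ p * c ^ p * e := hxyz
            _ = x ^ p * y ^ p * e' * c ^ p * e := by rw [hxy]
            _ = a ^ p ^ (n + 1) * b ^ p ^ (n + 1) * (e' * c ^ p * e) := by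
              rw [hx, hy, ← pow_mul, ← pow_mul, ← pow_succ]; simp only [mul_assoc]
    exact ⟨hG, fun a b n => hall n a b⟩

end Cfsg.Agent.S0643
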