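import Cfsg.Statements.S0646
import Mathlib
import Cfsg.Agent.Helper8.Nilp
import Cfsg.Agent.S0645

set_option autoImplicit false
open Cfsg

namespace Cfsg.Agent.S0646

/-- Square roots of `1` modulo `4 Q`, `Q` a power of two. -/
theorem nt_two (Q r : ℕ) (hQ : ∃ q, Q = 2 ^ q) (hr : r < 4 * Q) (h1 : r ^ 2 ≡ 1 [MOD 4 * Q])
    (hr1 : r ≠ 1) :
    r = 4 * Q - 1 ∨ (∃ Q', 0 < Q' ∧ Q = 2 * Q' ∧ r = 2 * Q + 1) ∨
      (∃ Q', 0 < Q' ∧ Q = 2 * Q' ∧ r = 2 * Q - 1) := by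
  obtain ⟨q, hq⟩ := hQ
  have hQpos : 0 < Q := by rw [hq]; positivity
  have hodd : r % 2 = 1 := by
    have h2 : r ^ 2 ≡ 1 [MOD 2] := Nat.ModEq.of_dvd ⟨2 * Q, by ring⟩ h1
    rcases Nat.mod_two_eq_zero_or_one r with h | h
    · exfalso
      have h3 : r ^ 2 % 2 = 0 := by rw [pow_two, Nat.mul_mod, h]
      unfold Nat.ModEq at h2
      omega
    · exact h
  obtain ⟨s, hs⟩ : ∃ s, r = 2 * s + 1 := ⟨r / 2, by omega⟩
  have hs2 : s < 2 * Q := by omega
  have hd : 4 * Q ∣ r ^ 2 - 1 :=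
    (Nat.modEq_iff_dvd' (Nat.one_le_pow _ _ (by omega))).mp h1.symm
  have he : r ^ 2 - 1 = 4 * (s * (s + 1)) := by
    have h3 : r ^ 2 = 4 * (s * (s + 1)) + 1 := by rw [hs]; ring
    omega
  rw [he] at hd
  have hd' : Q ∣ s * (s + 1) := Nat.dvd_of_mul_dvd_mul_left (by norm_num) hd
  rcases Nat.even_or_odd s with hev | hod
  · have hodd' : Odd (s + 1) := hev.add_one
    have hcop : Nat.Coprime Q (s + 1) := by
      rw [hq]; exact Nat.Coprime.pow_left q (Nat.coprime_two_left.mpr hodd')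
    have hQs : Q ∣ s := hcop.dvd_of_dvd_mul_right hd'
    obtain ⟨m, hm⟩ := hQs
    have hm2 : m < 2 := by
      by_contra hc
      push Not at hc
      nlinarith
    obtain ⟨e, he'⟩ := hev
    interval_cases m
    · exfalso; apply hr1; omega
    · right; left
      exact ⟨e, by omega, by omega, by omega⟩
  · have hcop : Nat.Coprime Q s := by
      rw [hq]; exact Nat.Coprime.pow_left q (Nat.coprime_two_left.mpr hod)
    have hQs : Q ∣ s + 1 := hcop.dvd_of_dvd_mul_left hd'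
    obtain ⟨m, hm⟩ := hQs
    have hm2 : m < 3 := by
      by_contra hc
      push Not at hc
      nlinarith
    obtain ⟨e, he'⟩ := hod
    interval_cases m
    · omega
    · right; right
      exact ⟨e + 1, by omega, by omega, by omega⟩
    · left; omega

theorem nt2A (Q t : ℕ) (hQ : 0 < Q) (ht : t < 4 * Q) (h : (4 * Q - 1) * t ≡ t [MOD 4 * Q]) :
    t = 0 ∨ t = 2 * Q := by
  have h1 := h.add_right t
  have e : (4 * Q - 1) * t + t = 4 * Q * t := by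
    obtain ⟨M, hM⟩ : ∃ M, 4 * Q = M + 1 := ⟨4 * Q - 1, by omega⟩
    rw [hM]; simp only [Nat.add_sub_cancel]; ring
  rw [e] at h1
  have h2 : 4 * Q ∣ t + t := by
    have h3 : 4 * Q * t ≡ 0 [MOD 4 * Q] := (Nat.modEq_zero_iff_dvd).mpr ⟨t, rfl⟩
    exact (Nat.modEq_zero_iff_dvd).mp (h1.symm.trans h3)
  obtain ⟨m, hm⟩ := h2
  have hm2 : m < 2 := by
    by_contra hc
    push Not at hc
    nlinarith
  interval_cases m <;> omega

theorem nt2B (Q t : ℕ) (hQ : 0 < Q) (h : (2 * Q + 1) * t ≡ t [MOD 4 * Q]) : 2 ∣ t := by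
  have e : (2 * Q + 1) * t = 2 * Q * t + t := by ring
  rw [e] at h
  have h1 : 2 * Q * t ≡ 0 [MOD 4 * Q] := by
    have h2 : 2 * Q * t + t ≡ 0 + t [MOD 4 * Q] := by rw [zero_add]; exact h
    exact Nat.ModEq.add_right_cancel' t h2
  obtain ⟨m, hm⟩ := (Nat.modEq_zero_iff_dvd).mp h1
  refine ⟨m, ?_⟩
  have h3 : 2 * Q * t = 2 * Q * (2 * m) := by rw [hm]; ring
  exact Nat.eq_of_mul_eq_mul_left (by omega) h3

theorem ntB (Q' t' : ℕ) (hQ' : 0 < Q') :
    ∃ i, 4 * (2 * Q') ∣ i * (1 + (2 * (2 * Q') + 1)) + 2 * t' := by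
  obtain ⟨M, hM⟩ : ∃ M, 2 * Q' = M + 1 := ⟨2 * Q' - 1, by omega⟩
  refine ⟨t' * M, Q' * t', ?_⟩
  have h1 : t' * M * (1 + (2 * (2 * Q') + 1)) + 2 * t' = 2 * t' * ((M + 1) * (M + 1)) := by
    rw [hM]; ring
  rw [h1, ← hM]; ring

theorem nt2C (Q' t : ℕ) (hQ' : 0 < Q') (hpow : ∃ q, 2 * (2 * Q') = 2 ^ q)
    (ht : t < 4 * (2 * Q')) (h : (2 * (2 * Q') - 1) * t ≡ t [MOD 4 * (2 * Q')]) :
    t = 0 ∨ t = 2 * (2 * Q') := by
  obtain ⟨P, hP⟩ : ∃ P, 2 * Q' = P + 1 := ⟨2 * Q' - 1, by omega⟩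
  have hPodd : Odd P := ⟨Q' - 1, by omega⟩
  have e : (2 * (2 * Q') - 1) * t = 2 * P * t + t := by
    have e1 : 2 * (2 * Q') - 1 = 2 * P + 1 := by omega
    rw [e1]; ring
  rw [e] at h
  have h1 : 2 * P * t ≡ 0 [MOD 4 * (2 * Q')] := by
    have h2 : 2 * P * t + t ≡ 0 + t [MOD 4 * (2 * Q')] := by rw [zero_add]; exact h
    exact Nat.ModEq.add_right_cancel' t h2
  have h3 : 2 * (2 * (2 * Q')) ∣ 2 * (P * t) := by
    have h4 := (Nat.modEq_zero_iff_dvd).mp h1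
    have e2 : 2 * (2 * (2 * Q')) = 4 * (2 * Q') := by ring
    have e3 : 2 * (P * t) = 2 * P * t := by ring
    rw [e2, e3]; exact h4
  have h5 : 2 * (2 * Q') ∣ P * t := Nat.dvd_of_mul_dvd_mul_left (by norm_num) h3
  obtain ⟨q, hq⟩ := hpow
  have hcop : Nat.Coprime (2 * (2 * Q')) P := by
    rw [hq]; exact Nat.Coprime.pow_left q (Nat.coprime_two_left.mpr hPodd)
  have h6 : 2 * (2 * Q') ∣ t := hcop.dvd_of_dvd_mul_left h5
  obtain ⟨m, hm⟩ := h6
  have hm2 : m < 2 := by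
    by_contra hc
    push Not at hc
    nlinarith
  interval_cases m <;> omega

theorem not_comm {G : Type*} [Group G] [Finite G] {p : ℕ} (hpp : p.Prime) (C : Subgroup G)
    (c x : G) (hCz : C = Subgroup.zpowers c) (hCi : C.index = p) (hx : x ∉ C)
    (hna : ∃ x y : G, x * y ≠ y * x) : x * c ≠ c * x := by
  intro hcomm
  obtain ⟨u, v, huv⟩ := hna
  apply huv
  have hK1 : Subgroup.centralizer ({c} : Set G) = ⊤ := by
    apply Cfsg.Agent.S0645.eq_top_of_index_prime hpp C _ hCi _ x _ hx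
    · intro z hz
      rw [hCz] at hz
      obtain ⟨m, hm⟩ := Subgroup.mem_zpowers_iff.mp hz
      rw [Cfsg.Agent.Helper8.mem_cent, ← hm]
      exact (Commute.zpow_right (Commute.refl c) m).eq
    · rw [Cfsg.Agent.Helper8.mem_cent]; exact hcomm.symm
  have hK2 : Subgroup.centralizer ({x} : Set G) = ⊤ := by
    apply Cfsg.Agent.S0645.eq_top_of_index_prime hpp C _ hCi _ x _ hx
    · intro z hz
      rw [hCz] at hz
      obtain ⟨m, hm⟩ := Subgroup.mem_zpowers_iff.mp hz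
      rw [Cfsg.Agent.Helper8.mem_cent, ← hm]
      exact (Commute.zpow_right (show Commute x c from hcomm) m).eq
    · rw [Cfsg.Agent.Helper8.mem_cent]
  have hK3 : Subgroup.center G = ⊤ := by
    apply Cfsg.Agent.S0645.eq_top_of_index_prime hpp C _ hCi _ x _ hx
    · intro z hz
      rw [hCz] at hz
      obtain ⟨m, hm⟩ := Subgroup.mem_zpowers_iff.mp hz
      rw [← hm]
      apply Subgroup.zpow_mem
      rw [Subgroup.mem_center_iff]
      intro w
      have h3 : w ∈ Subgroup.centralizer ({c} : Set G) := by rw [hK1]; exact Subgroup.mem_top w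
      rw [Cfsg.Agent.Helper8.mem_cent] at h3
      exact h3.symm
    · rw [Subgroup.mem_center_iff]
      intro w
      have h3 : w ∈ Subgroup.centralizer ({x} : Set G) := by rw [hK2]; exact Subgroup.mem_top w
      rw [Cfsg.Agent.Helper8.mem_cent] at h3
      exact h3.symm
  have hv : v ∈ Subgroup.center G := by rw [hK3]; exact Subgroup.mem_top v
  exact Subgroup.mem_center_iff.mp hv u

theorem result {G : Type*} [Group G] [Finite G] (n : ℕ) (hn : 3 ≤ n) (hG : Nat.card G = 2 ^ n) (C : Subgroup G) (hC : IsCyclic C) (hCi : C.index = 2) (hna : ∃ x y : G, x * y ≠ y * x) : ∃ a b : G, orderOf a = 2 ^ (n - 1) ∧ b ∉ Subgroup.zpowers a ∧ ((b ^ 2 = 1 ∧ b * a * b⁻¹ = a⁻¹) ∨ (b ^ 2 = a ^ (2 ^ (n - 2)) ∧ b * a * b⁻¹ = a⁻¹) ∨ (4 ≤ n ∧ b ^ 2 = 1 ∧ b * a * b⁻¹ = a ^ (1 + 2 ^ (n - 2))) ∨ (4 ≤ n ∧ b ^ 2 = 1 ∧ b * a * b⁻¹ = a ^ (2 ^ (n - 2) - 1))) := by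
  have hpp : (2 : ℕ).Prime := Nat.prime_two
  obtain ⟨g, hg⟩ := hC.exists_generator
  obtain ⟨c, hc⟩ : ∃ c : G, c = (g : G) := ⟨_, rfl⟩
  have hCz : C = Subgroup.zpowers c := by
    ext z
    constructor
    · intro hz
      obtain ⟨m, hm⟩ := Subgroup.mem_zpowers_iff.mp (hg ⟨z, hz⟩)
      rw [Subgroup.mem_zpowers_iff]
      refine ⟨m, ?_⟩
      have h3 := congrArg (fun w : ↥C => (w : G)) hm
      simpa [hc] using h3
    · intro hz
      obtain ⟨m, hm⟩ := Subgroup.mem_zpowers_iff.mp hz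
      rw [← hm, hc]
      exact C.zpow_mem g.2 m
  have e1 : 2 ^ n = 2 ^ (n - 1) * 2 := by
    rw [← pow_succ]; congr 1; omega
  have hcardC : Nat.card C = 2 ^ (n - 1) := by
    have h1 := C.card_mul_index
    rw [hCi, hG, e1] at h1
    exact Nat.eq_of_mul_eq_mul_right hpp.pos h1
  have hoc' : orderOf c = 2 ^ (n - 1) := by
    rw [← hcardC, hCz, Nat.card_zpowers]
  have hcC : c ∈ C := by rw [hCz]; exact Subgroup.mem_zpowers c
  haveI hCn : C.Normal := by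
    apply Subgroup.normal_of_index_eq_minFac_card
    rw [hCi, hG, Nat.Prime.pow_minFac hpp (by omega)]
  have hCtop : C ≠ ⊤ := by
    intro h
    rw [h, Subgroup.index_top] at hCi
    omega
  obtain ⟨x, hx⟩ : ∃ x, x ∉ C := by
    by_contra hall
    push Not at hall
    exact hCtop (eq_top_iff.mpr fun z _ => hall z)
  have hxp : x ^ 2 ∈ Subgroup.zpowers c := by
    have h3 := Subgroup.pow_index_mem C x
    rw [hCi] at h3
    rw [← hCz]; exact h3
  have hconj : x * c * x⁻¹ ∈ Subgroup.zpowers c := by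
    rw [← hCz]; exact hCn.conj_mem c hcC x
  obtain ⟨Q, hQ⟩ : ∃ Q, Q = 2 ^ (n - 3) := ⟨_, rfl⟩
  have hN : 2 ^ (n - 1) = 4 * Q := by
    rw [hQ, show n - 1 = (n - 3) + 2 by omega, pow_add]; ring
  have hH : 2 ^ (n - 2) = 2 * Q := by
    rw [hQ, show n - 2 = (n - 3) + 1 by omega, pow_add]; ring
  have hQpos : 0 < Q := by rw [hQ]; positivity
  have hoc : orderOf c = 4 * Q := by rw [hoc', hN]
  obtain ⟨r, hr, hrlt⟩ : ∃ r : ℕ, x * c * x⁻¹ = c ^ r ∧ r < 4 * Q := by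
    obtain ⟨r, hr⟩ := (Submonoid.mem_powers_iff _ _).mp (mem_powers_iff_mem_zpowers.mpr hconj)
    refine ⟨r % orderOf c, ?_, ?_⟩
    · rw [pow_mod_orderOf]; exact hr.symm
    · rw [← hoc]; exact Nat.mod_lt _ (orderOf_pos c)
  obtain ⟨t, ht, htlt⟩ : ∃ t : ℕ, x ^ 2 = c ^ t ∧ t < 4 * Q := by
    obtain ⟨t, ht⟩ := (Submonoid.mem_powers_iff _ _).mp (mem_powers_iff_mem_zpowers.mpr hxp)
    refine ⟨t % orderOf c, ?_, ?_⟩
    · rw [pow_mod_orderOf]; exact ht.symm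
    · rw [← hoc]; exact Nat.mod_lt _ (orderOf_pos c)
  have hxc : x * c ≠ c * x := not_comm hpp C c x hCz hCi hx hna
  have hr1 : r ≠ 1 := by
    intro h
    rw [h, pow_one] at hr
    apply hxc
    calc x * c = x * c * x⁻¹ * x := by group
      _ = c * x := by rw [hr]
  have hrp : r ^ 2 ≡ 1 [MOD 4 * Q] := by
    rw [← hoc, ← pow_eq_pow_iff_modEq, pow_one, ← Cfsg.Agent.S0645.conj_pow_formula x c r hr 2, ht,
      ← pow_succ, pow_succ', mul_inv_cancel_right]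
  have hrt : r * t ≡ t [MOD 4 * Q] := by
    rw [← hoc, ← pow_eq_pow_iff_modEq]
    calc c ^ (r * t) = (x * c * x⁻¹) ^ t := by rw [hr, ← pow_mul]
      _ = x * c ^ t * x⁻¹ := conj_pow
      _ = c ^ t := by rw [← ht]; group
  have hsum : ∑ l ∈ Finset.range 2, r ^ l = 1 + r := by
    simp [Finset.sum_range_succ]
  have hsq : ∀ i : ℕ, (c ^ i * x) ^ 2 = c ^ (i * (1 + r) + t) := by
    intro i
    rw [Cfsg.Agent.S0645.pow_formula x c r hr i 2, ht, ← pow_add, hsum]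
  have hbc : ∀ i : ℕ, (c ^ i * x) * c * (c ^ i * x)⁻¹ = c ^ r := by
    intro i
    calc c ^ i * x * c * (c ^ i * x)⁻¹ = c ^ i * (x * c * x⁻¹) * (c ^ i)⁻¹ := by
          rw [mul_inv_rev]; simp only [mul_assoc]
      _ = c ^ i * c ^ r * (c ^ i)⁻¹ := by rw [hr]
      _ = c ^ r := by rw [← pow_add, add_comm, pow_add, mul_inv_cancel_right]
  have hbC : ∀ i : ℕ, c ^ i * x ∉ Subgroup.zpowers c := by
    intro i h
    apply hx
    rw [hCz]
    have h3 : x = (c ^ i)⁻¹ * (c ^ i * x) := by group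
    rw [h3]
    exact Subgroup.mul_mem _
      (Subgroup.inv_mem _ (Subgroup.pow_mem _ (Subgroup.mem_zpowers c) i)) h
  have hxz : x ∉ Subgroup.zpowers c := by rw [← hCz]; exact hx
  rcases nt_two Q r ⟨n - 3, hQ⟩ hrlt hrp hr1 with h | ⟨Q', hQ', hQQ', h⟩ | ⟨Q', hQ', hQQ', h⟩
  · -- inversion
    have hinv : c ^ r = c⁻¹ := by
      apply eq_inv_of_mul_eq_one_left
      rw [← pow_succ, h, show 4 * Q - 1 + 1 = 4 * Q by omega, ← hoc, pow_orderOf_eq_one]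
    rw [h] at hrt
    rcases nt2A Q t hQpos htlt hrt with ht0 | ht0
    · exact ⟨c, x, hoc', hxz, Or.inl ⟨by rw [ht, ht0, pow_zero], by rw [hr, hinv]⟩⟩
    · exact ⟨c, x, hoc', hxz, Or.inr (Or.inl ⟨by rw [ht, ht0, hH], by rw [hr, hinv]⟩)⟩
  · -- modular
    have hn4 : 4 ≤ n := by
      by_contra hn4
      have h3 : n = 3 := by omega
      rw [h3] at hQ
      simp at hQ
      omega
    rw [h] at hrt
    obtain ⟨t', ht'⟩ := nt2B Q t hQpos hrt
    obtain ⟨i, hi⟩ := ntB Q' t' hQ'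
    refine ⟨c, c ^ i * x, hoc', hbC i, Or.inr (Or.inr (Or.inl ⟨hn4, ?_, ?_⟩))⟩
    · rw [hsq i]
      apply orderOf_dvd_iff_pow_eq_one.mp
      rw [hoc, h, ht', hQQ']
      exact hi
    · rw [hbc i, h, hH, add_comm]
  · -- semidihedral
    have hn4 : 4 ≤ n := by
      by_contra hn4
      have h3 : n = 3 := by omega
      rw [h3] at hQ
      simp at hQ
      omega
    rw [h] at hrt
    have hpow : ∃ q, 2 * (2 * Q') = 2 ^ q := ⟨n - 2, by rw [hH, hQQ']⟩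
    rw [hQQ'] at hrt htlt
    rcases nt2C Q' t hQ' hpow htlt hrt with ht0 | ht0
    · refine ⟨c, x, hoc', hxz, Or.inr (Or.inr (Or.inr ⟨hn4, ?_, ?_⟩))⟩
      · rw [ht, ht0, pow_zero]
      · rw [hr, h, hH]
    · refine ⟨c, c ^ 1 * x, hoc', hbC 1, Or.inr (Or.inr (Or.inr ⟨hn4, ?_, ?_⟩))⟩
      · rw [hsq 1]
        apply orderOf_dvd_iff_pow_eq_one.mp
        rw [hoc]
        exact ⟨1, by omega⟩
      · rw [hbc 1, h, hH]

end Cfsg.Agent.S0646
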