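import Cfsg.Statements.S0661
import Cfsg.Agent.Helper23.Balance

set_option autoImplicit false
open Cfsg

namespace Cfsg.Agent.S0661

open Cfsg.Agent.Helper23

/-- If, modulo the largest normal subgroup of order prime to p, the largest normal p-subgroup contains its centralizer, then for every p-subgroup P the p'-core of N_G(P) is just O_p'(G) ∩ N_G(P). -/
theorem result {G : Type*} [Group G] [Finite G] {p : ℕ} [Fact p.Prime] (hc : Subgroup.centralizer (Cfsg.pCore p (G ⧸ Cfsg.pPrimeCore p G) : Set (G ⧸ Cfsg.pPrimeCore p G)) ≤ Cfsg.pCore p (G ⧸ Cfsg.pPrimeCore p G)) (P : Subgroup G) (hP : IsPGroup p P) : (Cfsg.pPrimeCore p ↥(Subgroup.normalizer (P : Set G))).map (Subgroup.normalizer (P : Set G)).subtype = Cfsg.pPrimeCore p G ⊓ Subgroup.normalizer (P : Set G) := by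
  set NP := Subgroup.normalizer (P : Set G) with hNP
  set K := (Cfsg.pPrimeCore p NP).map NP.subtype with hK
  have hn : (pPrimeCore p NP).Normal := pPrimeCore_normal_fin p
  have hKNP : K ≤ NP := Subgroup.map_subtype_le _
  have hKc : (Nat.card K).Coprime p := by
    have h1 : Nat.card K = Nat.card (pPrimeCore p NP) :=
      Nat.card_congr (Subgroup.equivMapOfInjective _ NP.subtype
        (Subgroup.subtype_injective _)).toEquiv.symm
    rw [h1]
    exact pPrimeCore_coprime p
  have hPNP : P ≤ NP := Subgroup.le_normalizer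
  -- conjugation by elements of NP preserves K
  have hKconj : ∀ c ∈ NP, ∀ k ∈ K, c * k * c⁻¹ ∈ K := by
    rintro c hc _ ⟨k, hk, rfl⟩
    exact ⟨⟨c, hc⟩ * k * ⟨c, hc⟩⁻¹, hn.conj_mem k hk ⟨c, hc⟩, rfl⟩
  have hPconj : ∀ c ∈ NP, ∀ x ∈ P, c * x * c⁻¹ ∈ P := by
    intro c hc x hx
    exact (Subgroup.mem_normalizer_iff.mp hc x).mp hx
  have hPK : ∀ x ∈ P, ∀ k ∈ K, x * k = k * x := by
    intro x hx k hk
    have h1 : x * k * x⁻¹ * k⁻¹ ∈ K := K.mul_mem (hKconj x (hPNP hx) k hk) (K.inv_mem hk)
    have h2 : x * k * x⁻¹ * k⁻¹ ∈ P := by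
      have : x * k * x⁻¹ * k⁻¹ = x * (k * x⁻¹ * k⁻¹) := by group
      rw [this]
      exact P.mul_mem hx (hPconj k (hKNP hk) _ (P.inv_mem hx))
    have h3 := eq_one_of_isPGroup_of_pow_eq_one hP h2 hKc (pow_card_subgroup_eq_one K h1)
    have : x * k = (x * k * x⁻¹ * k⁻¹) * (k * x) := by group
    rw [this, h3, one_mul]
  have hKn : ∀ c : G, (∀ x ∈ P, c * x = x * c) → ∀ k ∈ K, c * k * c⁻¹ ∈ K := by
    intro c hcP k hk
    apply hKconj c _ k hk
    rw [hNP, Subgroup.mem_normalizer_iff]
    intro x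
    constructor
    · intro hx
      rw [hcP x hx]; simpa using hx
    · intro hx
      have h1 := hcP _ hx
      -- c * (c x c⁻¹) = (c x c⁻¹) * c  → c x = c x c⁻¹ c ... gives x = c x c⁻¹
      have h2 : c * x * c⁻¹ = x := by
        have e1 : c * (c * x * c⁻¹) = c * (c * x * c⁻¹) := rfl
        have e2 : c * x * c⁻¹ = c⁻¹ * (c * (c * x * c⁻¹)) := by group
        rw [e2, h1]; group
      rwa [h2] at hx
  apply le_antisymm
  · intro g hg
    exact ⟨le_pPrimeCore_of_centralizes hc P K hP hKc hPK hKn hg, hKNP hg⟩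
  · intro g hg
    have hMn : ((pPrimeCore p G).subgroupOf NP).Normal := inferInstance
    have hMc : (Nat.card ((pPrimeCore p G).subgroupOf NP)).Coprime p := by
      have h1 : Nat.card ((pPrimeCore p G).subgroupOf NP) ∣ Nat.card (pPrimeCore p G) := by
        have := Subgroup.card_dvd_of_injective (Subgroup.inclusion
          (show ((pPrimeCore p G).subgroupOf NP).map NP.subtype ≤ pPrimeCore p G from by
            rintro _ ⟨y, hy, rfl⟩; exact hy)) (Subgroup.inclusion_injective _)
        have h2 : Nat.card ((pPrimeCore p G).subgroupOf NP) =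
            Nat.card (((pPrimeCore p G).subgroupOf NP).map NP.subtype) :=
          Nat.card_congr (Subgroup.equivMapOfInjective _ NP.subtype
            (Subgroup.subtype_injective _)).toEquiv
        rw [h2]; exact this
      exact Nat.Coprime.coprime_dvd_left h1 (pPrimeCore_coprime p)
    have hle := le_pPrimeCore hMn hMc
    exact ⟨⟨g, hg.2⟩, hle (Subgroup.mem_subgroupOf.mpr hg.1), rfl⟩

end Cfsg.Agent.S0661
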