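import Cfsg.Statements.S0662

set_option autoImplicit false
open Cfsg

namespace Cfsg.Agent.S0662


open scoped commutatorElement Pointwise

theorem cyc_comm {α : Type*} [Group α] [IsCyclic α] (a b : α) : a * b = b * a := by
  obtain ⟨g, hg⟩ := IsCyclic.exists_generator (α := α)
  obtain ⟨i, rfl⟩ := Subgroup.mem_zpowers_iff.mp (hg a)
  obtain ⟨j, rfl⟩ := Subgroup.mem_zpowers_iff.mp (hg b)
  rw [← zpow_add, ← zpow_add, add_comm]

section pgroup

variable {Q : Type*} [Group Q] [Finite Q] {p : ℕ} [Fact p.Prime]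

theorem lcs_const (i : ℕ)
    (h : (⊤ : Subgroup Q).lowerCentralSeries (i + 1) = (⊤ : Subgroup Q).lowerCentralSeries i) :
    ∀ j, i ≤ j →
      (⊤ : Subgroup Q).lowerCentralSeries j = (⊤ : Subgroup Q).lowerCentralSeries i := by
  intro j hj
  induction j, hj using Nat.le_induction with
  | base => rfl
  | succ j hj ih =>
    rw [Subgroup.lowerCentralSeries_succ, ih, ← Subgroup.lowerCentralSeries_succ, h]

theorem lcs_strict [Group.IsNilpotent Q] (i : ℕ) (hi : i < Group.nilpotencyClass Q) :
    (⊤ : Subgroup Q).lowerCentralSeries (i + 1) < (⊤ : Subgroup Q).lowerCentralSeries i := by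
  refine lt_of_le_of_ne (Subgroup.lowerCentralSeries_antitone _ (Nat.le_succ i)) ?_
  intro h
  have h1 := lcs_const i h (Group.nilpotencyClass Q) hi.le
  rw [Subgroup.lowerCentralSeries_nilpotencyClass] at h1
  have h2 := (Subgroup.lowerCentralSeries_eq_bot_iff_nilpotencyClass_le).mp h1.symm
  omega

theorem l1_le_l2_of_cyclic
    (hc : IsCyclic (Q ⧸ (⊤ : Subgroup Q).lowerCentralSeries 1)) :
    (⊤ : Subgroup Q).lowerCentralSeries 1 ≤ (⊤ : Subgroup Q).lowerCentralSeries 2 := by
  have h21 : (⊤ : Subgroup Q).lowerCentralSeries 2 ≤ (⊤ : Subgroup Q).lowerCentralSeries 1 :=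
    Subgroup.lowerCentralSeries_antitone _ (by norm_num)
  obtain ⟨f, hf⟩ : ∃ f : Q ⧸ (⊤ : Subgroup Q).lowerCentralSeries 2 →*
      Q ⧸ (⊤ : Subgroup Q).lowerCentralSeries 1,
      ∀ x : Q, f (QuotientGroup.mk x) = QuotientGroup.mk x :=
    ⟨QuotientGroup.map _ _ (MonoidHom.id Q) h21, fun x => rfl⟩
  have hker : f.ker ≤ Subgroup.center (Q ⧸ (⊤ : Subgroup Q).lowerCentralSeries 2) := by
    intro a ha
    induction a using QuotientGroup.induction_on with
    | H x =>
      have hx : x ∈ (⊤ : Subgroup Q).lowerCentralSeries 1 := by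
        have h1 : f (QuotientGroup.mk x) = 1 := ha
        rwa [hf, QuotientGroup.eq_one_iff] at h1
      rw [Subgroup.mem_center_iff]
      intro b
      induction b using QuotientGroup.induction_on with
      | H y =>
        rw [← QuotientGroup.mk_mul, ← QuotientGroup.mk_mul, QuotientGroup.eq]
        have h2 : ⁅x⁻¹, y⁻¹⁆ ∈ (⊤ : Subgroup Q).lowerCentralSeries 2 :=
          Subgroup.commutator_mem_commutator (Subgroup.inv_mem _ hx) (Subgroup.mem_top _)
        have e : (y * x)⁻¹ * (x * y) = ⁅x⁻¹, y⁻¹⁆ := by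
          rw [commutatorElement_def]; group
        rw [e]; exact h2
  have hcomm := commutative_of_cyclic_center_quotient f hker
  show ⁅(⊤ : Subgroup Q), ⊤⁆ ≤ (⊤ : Subgroup Q).lowerCentralSeries 2
  rw [Subgroup.commutator_le]
  intro a _ b _
  rw [← QuotientGroup.eq_one_iff]
  have h3 := hcomm (a : Q ⧸ (⊤ : Subgroup Q).lowerCentralSeries 2) b
  rw [commutatorElement_def, QuotientGroup.mk_mul, QuotientGroup.mk_mul, QuotientGroup.mk_mul,
    QuotientGroup.mk_inv, QuotientGroup.mk_inv, h3]
  group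

theorem p_dvd_step (hQ : IsPGroup p Q) [Group.IsNilpotent Q] (j : ℕ)
    (hj : j < Group.nilpotencyClass Q) :
    p * ((⊤ : Subgroup Q).lowerCentralSeries j).index ∣
      ((⊤ : Subgroup Q).lowerCentralSeries (j + 1)).index := by
  have hlt := lcs_strict j hj
  have h1 := Subgroup.relIndex_mul_index hlt.le
  rw [← h1]
  apply Nat.mul_dvd_mul_right
  obtain ⟨k, hk⟩ := (IsPGroup.iff_card).mp hQ
  have h2 : ((⊤ : Subgroup Q).lowerCentralSeries (j + 1)).relIndex
      ((⊤ : Subgroup Q).lowerCentralSeries j) ∣ p ^ k := by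
    rw [← hk]
    exact (Subgroup.relIndex_dvd_card _ _).trans (Subgroup.card_subgroup_dvd_card _)
  obtain ⟨e, -, he⟩ := (Nat.dvd_prime_pow Fact.out).mp h2
  rcases Nat.eq_zero_or_pos e with rfl | hpos
  · exfalso
    rw [pow_zero] at he
    exact (not_le_of_gt hlt) (Subgroup.relIndex_eq_one.mp he)
  · rw [he]; exact dvd_pow_self p hpos.ne'

theorem steps (hQ : IsPGroup p Q) [Group.IsNilpotent Q] (i j : ℕ) (hij : i ≤ j)
    (hj : j ≤ Group.nilpotencyClass Q) :
    p ^ (j - i) * ((⊤ : Subgroup Q).lowerCentralSeries i).index ∣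
      ((⊤ : Subgroup Q).lowerCentralSeries j).index := by
  induction j, hij using Nat.le_induction with
  | base => simp
  | succ j hij ih =>
    have h1 := ih (by omega)
    have h2 := p_dvd_step hQ j (by omega)
    have e : p ^ (j + 1 - i) = p * p ^ (j - i) := by
      rw [show j + 1 - i = (j - i) + 1 by omega, pow_succ]; ring
    rw [e, mul_assoc]
    exact (Nat.mul_dvd_mul_left p h1).trans h2

theorem first (hQ : IsPGroup p Q) [Group.IsNilpotent Q] (hc : 2 ≤ Group.nilpotencyClass Q) :
    p ^ 2 ∣ ((⊤ : Subgroup Q).lowerCentralSeries 1).index := by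
  have hp : p.Prime := Fact.out
  have h0 := p_dvd_step hQ 0 (by omega)
  obtain ⟨k, hk⟩ := (IsPGroup.iff_card).mp hQ
  have h2 : ((⊤ : Subgroup Q).lowerCentralSeries 1).index ∣ p ^ k := by
    rw [← hk]; exact Subgroup.index_dvd_card _
  obtain ⟨e, -, he⟩ := (Nat.dvd_prime_pow hp).mp h2
  have he2 : 2 ≤ e := by
    by_contra hlt
    have : e = 0 ∨ e = 1 := by omega
    rcases this with rfl | rfl
    · rw [pow_zero] at he
      rw [zero_add, he] at h0
      have : p ∣ 1 := (dvd_mul_right p _).trans h0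
      exact hp.one_lt.ne' (Nat.dvd_one.mp this)
    · rw [pow_one] at he
      have hcyc : IsCyclic (Q ⧸ (⊤ : Subgroup Q).lowerCentralSeries 1) :=
        isCyclic_of_prime_card (p := p) he
      have h3 := l1_le_l2_of_cyclic hcyc
      exact (not_le_of_gt (lcs_strict 1 (by omega))) h3
  rw [he]; exact pow_dvd_pow p he2

theorem pow_dvd_index (hQ : IsPGroup p Q) [Group.IsNilpotent Q]
    (hc : 2 ≤ Group.nilpotencyClass Q) (i : ℕ) (hi1 : 1 ≤ i)
    (hi : i ≤ Group.nilpotencyClass Q) :
    p ^ (i + 1) ∣ ((⊤ : Subgroup Q).lowerCentralSeries i).index := by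
  have h1 := steps hQ 1 i hi1 hi
  have h2 := first hQ hc
  have e : p ^ (i + 1) = p ^ (i - 1) * p ^ 2 := by rw [← pow_add]; congr 1; omega
  rw [e]
  exact (Nat.mul_dvd_mul_left _ h2).trans h1

theorem class_le (hQ : IsPGroup p Q) [Group.IsNilpotent Q] (r : ℕ) (hr : 2 ≤ r)
    (hcard : Nat.card Q = p ^ r) : Group.nilpotencyClass Q ≤ r - 1 := by
  have hp : p.Prime := Fact.out
  by_contra hlt
  have hc : 2 ≤ Group.nilpotencyClass Q := by omega
  have h1 := pow_dvd_index hQ hc _ (by omega) le_rfl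
  rw [Subgroup.lowerCentralSeries_nilpotencyClass, Subgroup.index_bot, hcard] at h1
  have := (Nat.pow_dvd_pow_iff_le_right hp.one_lt).mp h1
  omega

end pgroup

theorem card_diff {G : Type*} [Group G] [Finite G] (A B : Subgroup G) (h : A ≤ B) :
    Nat.card {g : G // g ∈ B ∧ g ∉ A} + Nat.card A = Nat.card B := by
  have h1 : Nat.card {g : G // g ∈ B ∧ g ∉ A} = ((B : Set G) \ (A : Set G)).ncard :=
    Nat.card_coe_set_eq ((B : Set G) \ (A : Set G))
  have h2 : Nat.card A = (A : Set G).ncard := Nat.card_coe_set_eq (A : Set G)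
  have h3 : Nat.card B = (B : Set G).ncard := Nat.card_coe_set_eq (B : Set G)
  rw [h1, h2, h3]
  exact Set.ncard_sdiff_add_ncard_of_subset h (Set.toFinite _)


/-- In a p-group of maximal class of order at least p³ the normal subgroups of index at least p² are exactly the terms of the lower central series, and there are exactly p + 1 normal subgroups of index p. -/
theorem result {G : Type*} [Group G] [Finite G] {p : ℕ} [Fact p.Prime] (n : ℕ) (hG : Nat.card G = p ^ n) (hcl : Group.nilpotencyClass G = n - 1) (hn : 3 ≤ n) : (∀ (N : Subgroup G) [N.Normal] (r : ℕ), 2 ≤ r → N.index = p ^ r → N = (⊤ : Subgroup G).lowerCentralSeries (r - 1)) ∧ Nat.card {N : Subgroup G // N.Normal ∧ N.index = p} = p + 1 := by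
  classical
  have hp : p.Prime := Fact.out
  have hGp : IsPGroup p G := IsPGroup.of_card hG
  haveI : Group.IsNilpotent G := hGp.isNilpotent
  have hc2 : 2 ≤ Group.nilpotencyClass G := by omega
  have hidx : ∀ i, 1 ≤ i → i ≤ n - 1 →
      ((⊤ : Subgroup G).lowerCentralSeries i).index = p ^ (i + 1) := by
    intro i hi1 hi
    have h1 := pow_dvd_index hGp hc2 i hi1 (hcl ▸ hi)
    have h2 := steps hGp i (n - 1) hi (hcl ▸ le_rfl)
    have h3 : ((⊤ : Subgroup G).lowerCentralSeries (n - 1)).index = p ^ n := by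
      rw [← hcl, Subgroup.lowerCentralSeries_nilpotencyClass, Subgroup.index_bot, hG]
    rw [h3] at h2
    have e : p ^ n = p ^ (n - 1 - i) * p ^ (i + 1) := by rw [← pow_add]; congr 1; omega
    rw [e] at h2
    have h4 : ((⊤ : Subgroup G).lowerCentralSeries i).index ∣ p ^ (i + 1) :=
      Nat.dvd_of_mul_dvd_mul_left (pow_pos hp.pos _) h2
    exact Nat.dvd_antisymm h4 h1
  refine ⟨?_, ?_⟩
  · intro N hN r hr hNr
    have hrn : r ≤ n := by
      have : p ^ r ∣ p ^ n := by rw [← hNr, ← hG]; exact Subgroup.index_dvd_card N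
      exact (Nat.pow_dvd_pow_iff_le_right hp.one_lt).mp this
    have hQcard : Nat.card (G ⧸ N) = p ^ r := hNr
    have hQp : IsPGroup p (G ⧸ N) := IsPGroup.of_card hQcard
    haveI : Group.IsNilpotent (G ⧸ N) := hQp.isNilpotent
    have hcl' := class_le hQp r hr hQcard
    have hbot : (⊤ : Subgroup (G ⧸ N)).lowerCentralSeries (r - 1) = ⊥ :=
      Subgroup.lowerCentralSeries_eq_bot_iff_nilpotencyClass_le.mpr hcl'
    have hle : (⊤ : Subgroup G).lowerCentralSeries (r - 1) ≤ N := by
      have h1 : ((⊤ : Subgroup G).lowerCentralSeries (r - 1)).map (QuotientGroup.mk' N) ≤ ⊥ := by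
        rw [Subgroup.map_lowerCentralSeries, ← hbot]
        exact Subgroup.lowerCentralSeries_mono (r - 1) le_top
      have h2 := (Subgroup.map_eq_bot_iff _).mp (le_bot_iff.mp h1)
      rwa [QuotientGroup.ker_mk'] at h2
    have hi := hidx (r - 1) (by omega) (by omega)
    rw [show r - 1 + 1 = r by omega] at hi
    have h3 := Subgroup.relIndex_mul_index hle
    rw [hi, hNr] at h3
    have h4 : ((⊤ : Subgroup G).lowerCentralSeries (r - 1)).relIndex N = 1 := by
      have hpos : 0 < p ^ r := pow_pos hp.pos _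
      exact Nat.eq_of_mul_eq_mul_right hpos (by rw [h3, one_mul])
    exact le_antisymm (Subgroup.relIndex_eq_one.mp h4) hle
  · have hL1idx : ((⊤ : Subgroup G).lowerCentralSeries 1).index = p ^ 2 :=
      hidx 1 le_rfl (by omega)
    have hnorm : ∀ H : Subgroup G, (⊤ : Subgroup G).lowerCentralSeries 1 ≤ H → H.Normal := by
      intro H hH
      constructor
      intro x hx g
      have h1 : ⁅g, x⁆ ∈ (⊤ : Subgroup G).lowerCentralSeries 1 :=
        Subgroup.commutator_mem_commutator (Subgroup.mem_top g) (Subgroup.mem_top x)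
      have e : g * x * g⁻¹ = ⁅g, x⁆ * x := by rw [commutatorElement_def]; group
      rw [e]; exact H.mul_mem (hH h1) hx
    have hcont : ∀ N : Subgroup G, N.Normal → N.index = p →
        (⊤ : Subgroup G).lowerCentralSeries 1 ≤ N := by
      intro N hN hNp
      haveI := hN
      haveI : IsCyclic (G ⧸ N) := isCyclic_of_prime_card (p := p) hNp
      show ⁅(⊤ : Subgroup G), ⊤⁆ ≤ N
      rw [Subgroup.commutator_le]
      intro a _ b _
      rw [← QuotientGroup.eq_one_iff]
      have hcomm := cyc_comm (a : G ⧸ N) (b : G ⧸ N)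
      rw [commutatorElement_def, QuotientGroup.mk_mul, QuotientGroup.mk_mul, QuotientGroup.mk_mul,
        QuotientGroup.mk_inv, QuotientGroup.mk_inv, hcomm]
      group
    have hzs : ∀ g : G, g ∉ (⊤ : Subgroup G).lowerCentralSeries 1 →
        (Subgroup.zpowers g ⊔ (⊤ : Subgroup G).lowerCentralSeries 1).index = p := by
      intro g hg
      have hL1H : (⊤ : Subgroup G).lowerCentralSeries 1 ≤
          Subgroup.zpowers g ⊔ (⊤ : Subgroup G).lowerCentralSeries 1 := le_sup_right
      have hgH : g ∈ Subgroup.zpowers g ⊔ (⊤ : Subgroup G).lowerCentralSeries 1 :=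
        (le_sup_left : Subgroup.zpowers g ≤ _) (Subgroup.mem_zpowers g)
      have h1 : (Subgroup.zpowers g ⊔ (⊤ : Subgroup G).lowerCentralSeries 1).index ∣ p ^ 2 :=
        hL1idx ▸ Subgroup.index_dvd_of_le hL1H
      obtain ⟨e, he, he2⟩ := (Nat.dvd_prime_pow hp).mp h1
      have : e = 0 ∨ e = 1 ∨ e = 2 := by omega
      rcases this with rfl | rfl | rfl
      · exfalso
        rw [pow_zero] at he2
        have hHtop := Subgroup.index_eq_one.mp he2
        have hcyc : IsCyclic (G ⧸ (⊤ : Subgroup G).lowerCentralSeries 1) := by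
          refine ⟨⟨(g : G ⧸ (⊤ : Subgroup G).lowerCentralSeries 1), ?_⟩⟩
          intro y
          induction y using QuotientGroup.induction_on with
          | H x =>
            have hx : x ∈ (((⊤ : Subgroup G).lowerCentralSeries 1 ⊔ Subgroup.zpowers g :
                Subgroup G) : Set G) := by
              rw [sup_comm, hHtop]; trivial
            rw [Subgroup.normal_mul] at hx
            obtain ⟨u, hu, z, hz, rfl⟩ := Set.mem_mul.mp hx
            obtain ⟨k, rfl⟩ := Subgroup.mem_zpowers_iff.mp hz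
            refine ⟨k, ?_⟩
            show (g : G ⧸ (⊤ : Subgroup G).lowerCentralSeries 1) ^ k =
              ((u * g ^ k : G) : G ⧸ (⊤ : Subgroup G).lowerCentralSeries 1)
            rw [QuotientGroup.mk_mul, (QuotientGroup.eq_one_iff u).mpr hu, one_mul,
              QuotientGroup.mk_zpow]
        have h3 := l1_le_l2_of_cyclic hcyc
        exact (not_le_of_gt (lcs_strict 1 (by omega))) h3
      · rw [pow_one] at he2; exact he2
      · exfalso
        have h3 := Subgroup.relIndex_mul_index hL1H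
        rw [he2, hL1idx] at h3
        have h4 : ((⊤ : Subgroup G).lowerCentralSeries 1).relIndex
            (Subgroup.zpowers g ⊔ (⊤ : Subgroup G).lowerCentralSeries 1) = 1 :=
          Nat.eq_of_mul_eq_mul_right (pow_pos hp.pos 2) (by rw [h3, one_mul])
        exact hg (Subgroup.relIndex_eq_one.mp h4 hgH)
    -- the fibration
    obtain ⟨τ, hτ⟩ : ∃ τ : {g : G // g ∉ (⊤ : Subgroup G).lowerCentralSeries 1} →
        {N : Subgroup G // N.Normal ∧ N.index = p},
        ∀ g, (τ g : Subgroup G) =
          Subgroup.zpowers (g : G) ⊔ (⊤ : Subgroup G).lowerCentralSeries 1 :=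
      ⟨fun g => ⟨Subgroup.zpowers (g : G) ⊔ (⊤ : Subgroup G).lowerCentralSeries 1,
        hnorm _ le_sup_right, hzs g g.2⟩, fun g => rfl⟩
    have hfib : ∀ N : {N : Subgroup G // N.Normal ∧ N.index = p},
        Nat.card {t : {g : G // g ∉ (⊤ : Subgroup G).lowerCentralSeries 1} // τ t = N} =
        Nat.card {g : G // g ∈ (N : Subgroup G) ∧ g ∉ (⊤ : Subgroup G).lowerCentralSeries 1} := by
      intro N
      have hLN := hcont N.1 N.2.1 N.2.2
      refine Nat.card_congr ⟨fun t => ⟨t.1.1, ?_, t.1.2⟩, fun g => ⟨⟨g.1, g.2.2⟩, ?_⟩,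
        fun t => rfl, fun g => rfl⟩
      · have h1 := hτ t.1
        rw [t.2] at h1
        rw [h1]
        exact (le_sup_left : Subgroup.zpowers (t.1 : G) ≤ _) (Subgroup.mem_zpowers _)
      · apply Subtype.ext
        rw [hτ]
        show Subgroup.zpowers g.1 ⊔ (⊤ : Subgroup G).lowerCentralSeries 1 = (N : Subgroup G)
        have hle : Subgroup.zpowers g.1 ⊔ (⊤ : Subgroup G).lowerCentralSeries 1 ≤ (N : Subgroup G) :=
          sup_le (Subgroup.zpowers_le.mpr g.2.1) hLN
        have h3 := Subgroup.relIndex_mul_index hle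
        rw [hzs g.1 g.2.2, N.2.2] at h3
        have h4 : (Subgroup.zpowers g.1 ⊔ (⊤ : Subgroup G).lowerCentralSeries 1).relIndex
            (N : Subgroup G) = 1 :=
          Nat.eq_of_mul_eq_mul_right hp.pos (by rw [h3, one_mul])
        exact le_antisymm hle (Subgroup.relIndex_eq_one.mp h4)
    haveI : Fintype {N : Subgroup G // N.Normal ∧ N.index = p} := Fintype.ofFinite _
    have hT : Nat.card {g : G // g ∉ (⊤ : Subgroup G).lowerCentralSeries 1} =
        ∑ N : {N : Subgroup G // N.Normal ∧ N.index = p},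
          Nat.card {t : {g : G // g ∉ (⊤ : Subgroup G).lowerCentralSeries 1} // τ t = N} := by
      rw [← Nat.card_sigma]
      exact Nat.card_congr (Equiv.sigmaFiberEquiv τ).symm
    -- numbers
    have hv : Nat.card ((⊤ : Subgroup G).lowerCentralSeries 1) * p ^ 2 = p ^ n := by
      rw [← hL1idx, Subgroup.card_mul_index, hG]
    have hTv : Nat.card {g : G // g ∉ (⊤ : Subgroup G).lowerCentralSeries 1} +
        Nat.card ((⊤ : Subgroup G).lowerCentralSeries 1) = p ^ n := by
      have h1 := card_diff ((⊤ : Subgroup G).lowerCentralSeries 1) ⊤ le_top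
      have h2 : Nat.card {g : G // g ∈ (⊤ : Subgroup G) ∧
          g ∉ (⊤ : Subgroup G).lowerCentralSeries 1} =
          Nat.card {g : G // g ∉ (⊤ : Subgroup G).lowerCentralSeries 1} :=
        Nat.card_congr (Equiv.subtypeEquivRight (fun g => by simp))
      rw [h2, Subgroup.card_top, hG] at h1
      exact h1
    have hw : ∀ N : {N : Subgroup G // N.Normal ∧ N.index = p},
        (Nat.card {t : {g : G // g ∉ (⊤ : Subgroup G).lowerCentralSeries 1} // τ t = N} +
          Nat.card ((⊤ : Subgroup G).lowerCentralSeries 1)) * p = p ^ n := by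
      intro N
      rw [hfib N, card_diff _ _ (hcont N.1 N.2.1 N.2.2)]
      have h5 := Subgroup.card_mul_index (N : Subgroup G)
      rw [N.2.2, hG] at h5
      exact h5
    obtain ⟨v, hv'⟩ : ∃ v, v = Nat.card ((⊤ : Subgroup G).lowerCentralSeries 1) := ⟨_, rfl⟩
    rw [← hv'] at hv hTv hw
    have hvpos : 0 < v := by rw [hv']; exact Nat.card_pos
    obtain ⟨w, hw'⟩ : ∃ w, w + v = v * p := by
      refine ⟨v * p - v, ?_⟩
      have : v ≤ v * p := Nat.le_mul_of_pos_right v hp.pos
      omega
    have hwN : ∀ N : {N : Subgroup G // N.Normal ∧ N.index = p},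
        Nat.card {t : {g : G // g ∉ (⊤ : Subgroup G).lowerCentralSeries 1} // τ t = N} = w := by
      intro N
      have h1 := hw N
      have h2 : (Nat.card {t : {g : G // g ∉ (⊤ : Subgroup G).lowerCentralSeries 1} // τ t = N}
          + v) * p = (v * p) * p := by rw [h1, ← hv]; ring
      have h3 := Nat.eq_of_mul_eq_mul_right hp.pos h2
      omega
    rw [Finset.sum_congr rfl (fun N _ => hwN N), Finset.sum_const, Finset.card_univ,
      smul_eq_mul, ← Nat.card_eq_fintype_card] at hT
    obtain ⟨S, hS⟩ : ∃ S, S = Nat.card {N : Subgroup G // N.Normal ∧ N.index = p} := ⟨_, rfl⟩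
    rw [← hS] at hT ⊢
    rw [hT] at hTv
    have h1 : (S : ℤ) * w + v = v * p ^ 2 := by
      have : S * w + v = v * p ^ 2 := by rw [hTv, hv]
      exact_mod_cast this
    have h2 : (w : ℤ) + v = v * p := by exact_mod_cast hw'
    have h3 : (v : ℤ) * ((p : ℤ) - 1) * S = (v : ℤ) * ((p : ℤ) - 1) * (p + 1) := by
      linear_combination h1 - (S : ℤ) * h2
    have hne : (v : ℤ) * ((p : ℤ) - 1) ≠ 0 := by
      apply mul_ne_zero
      · exact_mod_cast hvpos.ne'
      · have : (2 : ℤ) ≤ p := by exact_mod_cast hp.two_le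
        omega
    have h4 := mul_left_cancel₀ hne h3
    exact_mod_cast h4

end Cfsg.Agent.S0662
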