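import Cfsg.Statements.S0666
import Cfsg.Agent.Lead.Frobenius
import Cfsg.Agent.Lead.FrobNorm
import Mathlib

set_option autoImplicit false
open Cfsg

namespace Cfsg.Agent.S0666

/-- A Frobenius group acting on a nontrivial abelian group of order prime to that of its kernel, with the kernel acting without nontrivial fixed points, has a complement with a nontrivial fixed point. -/
theorem result {G : Type*} [Group G] [Finite G] (V F : Subgroup G) (hVab : IsMulCommutative V) (hV1 : V ≠ ⊥) (hFV : F ≤ Subgroup.normalizer (V : Set G)) (H : Subgroup ↥F) (hH : Cfsg.IsFrobeniusComplement H) (hcop : (Nat.card V).Coprime (Nat.card (Cfsg.frobeniusKernel H))) (hCK : V ⊓ Subgroup.centralizer (Subtype.val '' Cfsg.frobeniusKernel H : Set G) = ⊥) : V ⊓ Subgroup.centralizer ((H.map F.subtype : Subgroup G) : Set G) ≠ ⊥ := by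
  classical
  intro hCH
  obtain ⟨N, hNset, hNn, hNc⟩ := Cfsg.Agent.Lead.frobenius_kernel H hH
  haveI := hNn
  haveI := hVab
  obtain ⟨φ, hφ⟩ : ∃ φ : ↥F →* MulAut ↥V, ∀ (a : F) (v : V),
      ((φ a v : V) : G) = (a : G) * (v : G) * (a : G)⁻¹ :=
    ⟨V.normalizerMonoidHom.comp (Subgroup.inclusion hFV), fun a v => rfl⟩
  open scoped IsMulCommutative in
  letI : CommGroup V := inferInstance
  haveI : Fintype N := Fintype.ofFinite N
  haveI : Fintype H := Fintype.ofFinite H
  have hfix : ∀ h ∈ H, h ≠ 1 → ∀ c ∈ N, c * h = h * c → c = 1 := by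
    intro h hh h1 c hc hch
    by_contra hc1
    have hcH : c ∉ H := by
      intro hcH
      have h0 : c ∈ N ⊓ H := ⟨hc, hcH⟩
      rw [hNc.disjoint.eq_bot] at h0
      exact hc1 (Subgroup.mem_bot.mp h0)
    have h2 := Cfsg.Agent.Helper1.frob_elt H hH c hcH h hh (by
      have e : c⁻¹ * h * c = h := by rw [mul_assoc, ← hch]; group
      rw [e]; exact hh)
    exact h1 h2
  have hCN' : ∀ v : V, (∀ n ∈ N, φ n v = v) → v = 1 := by
    intro v hv
    have hmem : (v : G) ∈ V ⊓ Subgroup.centralizer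
        (Subtype.val '' Cfsg.frobeniusKernel H : Set G) := by
      refine Subgroup.mem_inf.2 ⟨v.2, ?_⟩
      rw [Subgroup.mem_centralizer_iff]
      rintro _ ⟨n, hn, rfl⟩
      have hnN : n ∈ N := (Set.ext_iff.mp hNset n).mpr hn
      have h2 := congrArg Subtype.val (hv n hnN)
      rw [hφ] at h2
      calc (n : G) * v = ((n : G) * (v : G) * (n : G)⁻¹) * n := by group
        _ = v * n := by rw [h2]
    rw [hCK] at hmem
    exact Subtype.ext (Subgroup.mem_bot.1 hmem)
  have hCH' : ∀ v : V, (∀ h ∈ H, φ h v = v) → v = 1 := by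
    intro v hv
    have hmem : (v : G) ∈ V ⊓ Subgroup.centralizer ((H.map F.subtype : Subgroup G) : Set G) := by
      refine Subgroup.mem_inf.2 ⟨v.2, ?_⟩
      rw [Subgroup.mem_centralizer_iff]
      rintro _ ⟨h, hh, rfl⟩
      have h2 := congrArg Subtype.val (hv h hh)
      rw [hφ] at h2
      show (h : G) * (v : G) = (v : G) * (h : G)
      calc (h : G) * v = ((h : G) * (v : G) * (h : G)⁻¹) * h := by group
        _ = v * h := by rw [h2]
    rw [hCH] at hmem
    exact Subtype.ext (Subgroup.mem_bot.1 hmem)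
  apply hV1
  rw [Subgroup.eq_bot_iff_forall]
  intro x hx
  have h1 : (⟨x, hx⟩ : V) ^ Fintype.card N = 1 :=
    Cfsg.Agent.Lead.fpf_frobenius_pow φ N H hfix hCN' hCH' ⟨x, hx⟩
  have h2 : (⟨x, hx⟩ : V) ^ Nat.card V = 1 := pow_card_eq_one'
  have hcard : Fintype.card N = Nat.card (Cfsg.frobeniusKernel H) := by
    rw [Fintype.card_eq_nat_card]
    exact Nat.card_congr (Equiv.subtypeEquivRight (fun g => Set.ext_iff.mp hNset g))
  have hcop' : (Nat.card V).Coprime (Fintype.card N) := by rw [hcard]; exact hcop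
  have h3 : (⟨x, hx⟩ : V) = 1 := by
    have d1 : orderOf (⟨x, hx⟩ : V) ∣ Fintype.card N := orderOf_dvd_of_pow_eq_one h1
    have d2 : orderOf (⟨x, hx⟩ : V) ∣ Nat.card V := orderOf_dvd_of_pow_eq_one h2
    exact orderOf_eq_one_iff.mp (Nat.eq_one_of_dvd_coprimes hcop' d2 d1)
  exact congrArg Subtype.val h3

end Cfsg.Agent.S0666
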