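import Mathlib
import Cfsg.Statements.S0668

set_option autoImplicit false
open Cfsg

namespace Cfsg.Agent.S0668

/-- The equivariant linear maps between the permutation modules of two finite `G`-sets form a space whose dimension is the number of `G`-orbits on the product of the two sets. -/
theorem result {G : Type*} [Group G] {K : Type*} [Field K] {Ω₁ Ω₂ : Type*} [Fintype Ω₁] [Fintype Ω₂] [MulAction G Ω₁] [MulAction G Ω₂] : Module.finrank K ((Cfsg.permRep K G Ω₁).linHom (Cfsg.permRep K G Ω₂)).invariants = Nat.card (MulAction.orbitRel.Quotient G (Ω₁ × Ω₂)) := by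
  classical
  let Ψ₀ : (MulAction.orbitRel.Quotient G (Ω₁ × Ω₂) → K) →ₗ[K] Matrix Ω₂ Ω₁ K :=
    { toFun := fun c => Matrix.of fun b a => c (Quotient.mk'' (a, b))
      map_add' := fun _ _ => rfl
      map_smul' := fun _ _ => rfl }
  let Ψ : (MulAction.orbitRel.Quotient G (Ω₁ × Ω₂) → K) →ₗ[K] ((Ω₁ → K) →ₗ[K] (Ω₂ → K)) :=
    (Matrix.toLin' : Matrix Ω₂ Ω₁ K ≃ₗ[K] _).toLinearMap.comp Ψ₀
  have hΨ : ∀ (c : MulAction.orbitRel.Quotient G (Ω₁ × Ω₂) → K) (f : Ω₁ → K) (b : Ω₂),
      Ψ c f b = ∑ a, c (Quotient.mk'' (a, b)) * f a := fun c f b => rfl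
  have hΨinj : Function.Injective Ψ := by
    intro c c' h
    have h' : Ψ₀ c = Ψ₀ c' := Matrix.toLin'.injective h
    funext q
    induction q using Quotient.inductionOn' with
    | h x =>
      obtain ⟨a, b⟩ := x
      exact congrFun (congrFun h' b) a
  have hrange : LinearMap.range Ψ =
      ((Cfsg.permRep K G Ω₁).linHom (Cfsg.permRep K G Ω₂)).invariants := by
    ext T
    constructor
    · rintro ⟨c, rfl⟩
      rw [Representation.mem_invariants]
      intro g
      apply LinearMap.ext
      intro f
      funext b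
      have e1 : ((Cfsg.permRep K G Ω₁).linHom (Cfsg.permRep K G Ω₂) g (Ψ c)) f b =
          ∑ a, c (Quotient.mk'' (a, g⁻¹ • b)) * f (g • a) := by
        rw [Representation.linHom_apply]
        show Ψ c (Cfsg.permRep K G Ω₁ g⁻¹ f) (g⁻¹ • b) = _
        rw [hΨ]
        apply Finset.sum_congr rfl
        intro a _
        show c (Quotient.mk'' (a, g⁻¹ • b)) * f (g⁻¹⁻¹ • a) = _
        rw [inv_inv]
      rw [e1, hΨ]
      rw [← Equiv.sum_comp (MulAction.toPerm g) (fun a => c (Quotient.mk'' (a, b)) * f a)]
      apply Finset.sum_congr rfl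
      intro a _
      show c (Quotient.mk'' (a, g⁻¹ • b)) * f (g • a) = c (Quotient.mk'' (g • a, b)) * f (g • a)
      congr 2
      apply Quotient.sound'
      show MulAction.orbitRel G (Ω₁ × Ω₂) (a, g⁻¹ • b) (g • a, b)
      rw [MulAction.orbitRel_apply]
      refine ⟨g⁻¹, ?_⟩
      show (g⁻¹ • g • a, g⁻¹ • b) = (a, g⁻¹ • b)
      rw [inv_smul_smul]
    · intro hT
      rw [Representation.mem_invariants] at hT
      have hM : ∀ (g : G) (a : Ω₁) (b : Ω₂),
          LinearMap.toMatrix' T (g • b) (g • a) = LinearMap.toMatrix' T b a := by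
        intro g a b
        have h1 := congrFun (congrArg (fun L : (Ω₁ → K) →ₗ[K] (Ω₂ → K) =>
          L (Pi.single (g • a) 1)) (hT g)) (g • b)
        rw [Representation.linHom_apply] at h1
        have h2 : (Cfsg.permRep K G Ω₁ g⁻¹) (Pi.single (g • a) 1) = Pi.single a 1 := by
          funext x
          show (Pi.single (g • a) (1 : K) : Ω₁ → K) (g⁻¹⁻¹ • x) = _
          rw [inv_inv]
          by_cases hx : x = a
          · subst hx; simp
          · rw [Pi.single_eq_of_ne hx, Pi.single_eq_of_ne]
            exact fun h => hx (smul_left_cancel g h)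
        have h3 : T (Pi.single a 1) (g⁻¹ • g • b) = T (Pi.single (g • a) 1) (g • b) := by
          rw [← h2]; exact h1
        rw [inv_smul_smul] at h3
        rw [LinearMap.toMatrix'_apply, LinearMap.toMatrix'_apply]
        exact h3.symm
      refine ⟨fun q => LinearMap.toMatrix' T (Quotient.out q).2 (Quotient.out q).1, ?_⟩
      show Matrix.toLin' (Ψ₀ _) = T
      have hΨ₀ : Ψ₀ (fun q => LinearMap.toMatrix' T (Quotient.out q).2 (Quotient.out q).1) =
          LinearMap.toMatrix' T := by
        funext b a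
        show LinearMap.toMatrix' T
          (Quotient.out (Quotient.mk'' (a, b) : MulAction.orbitRel.Quotient G (Ω₁ × Ω₂))).2
          (Quotient.out (Quotient.mk'' (a, b) : MulAction.orbitRel.Quotient G (Ω₁ × Ω₂))).1 =
          LinearMap.toMatrix' T b a
        have hrel : (MulAction.orbitRel G (Ω₁ × Ω₂))
            (Quotient.out (Quotient.mk'' (a, b) : MulAction.orbitRel.Quotient G (Ω₁ × Ω₂)))
            (a, b) := Quotient.exact' (Quotient.out_eq' _)
        rw [MulAction.orbitRel_apply] at hrel
        obtain ⟨g, hg⟩ := hrel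
        rw [← hg]
        exact hM g a b
      rw [hΨ₀]
      exact Matrix.toLin'_toMatrix' T
  rw [← hrange, LinearMap.finrank_range_of_inj hΨinj, Module.finrank_fintype_fun_eq_card,
    Nat.card_eq_fintype_card]

end Cfsg.Agent.S0668
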