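import Mathlib
import Cfsg.Statements.S0672

set_option autoImplicit false

open Cfsg

namespace Cfsg.Agent.S0672

open scoped Pointwise

theorem exists_swap {G Ω : Type*} [Group G] [Finite G] [MulAction G Ω] [FaithfulSMul G Ω]
    (a : Ω) (heven : Even (Nat.card (MulAction.stabilizer G a))) :
    ∃ b c : Ω, a ≠ b ∧ a ≠ c ∧ b ≠ c ∧ ∃ t : G, t • a = a ∧ t • b = c ∧ t • c = b := by
  haveI : Fact (Nat.Prime 2) := ⟨Nat.prime_two⟩
  obtain ⟨t, ht⟩ := exists_prime_orderOf_dvd_card' (G := ↥(MulAction.stabilizer G a)) 2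
    (even_iff_two_dvd.mp heven)
  have hta : (t : G) • a = a := MulAction.mem_stabilizer_iff.mp t.2
  have ht1 : (t : G) ≠ 1 := by
    intro h
    have h2 : t = 1 := Subtype.ext h
    rw [h2, orderOf_one] at ht
    exact absurd ht (by norm_num)
  have ht2 : (t : G) * (t : G) = 1 := by
    have h3 : t ^ 2 = 1 := by rw [← ht]; exact pow_orderOf_eq_one t
    have h4 : ((t ^ 2 : ↥(MulAction.stabilizer G a)) : G) = 1 := by rw [h3]; rfl
    rw [Subgroup.coe_pow, pow_two] at h4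
    exact h4
  have hb : ∃ b : Ω, (t : G) • b ≠ b := by
    by_contra hcon
    push Not at hcon
    apply ht1
    apply FaithfulSMul.eq_of_smul_eq_smul (α := Ω)
    intro b
    rw [hcon b, one_smul]
  obtain ⟨b, hb⟩ := hb
  refine ⟨b, (t : G) • b, ?_, ?_, fun h => hb h.symm, (t : G), hta, rfl, ?_⟩
  · intro h; apply hb; rw [← h]; exact hta
  · intro h
    apply hb
    have h5 : (t : G) • a = (t : G) • b := by rw [hta]; exact h
    have h6 := MulAction.injective (t : G) h5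
    rw [← h6]; exact hta
  · rw [← mul_smul, ht2, one_smul]

theorem pair_stab {G Ω : Type*} [Group G] [MulAction G Ω] [DecidableEq Ω] (u v : Ω) (huv : u ≠ v)
    (k : G) (hk : k • ({u, v} : Finset Ω) = {u, v}) :
    (k • u = u ∧ k • v = v) ∨ (k • u = v ∧ k • v = u) := by
  have h1 : k • u ∈ ({u, v} : Finset Ω) := by
    rw [← hk]; exact (Finset.smul_mem_smul_finset_iff k).mpr (by simp)
  have h2 : k • v ∈ ({u, v} : Finset Ω) := by
    rw [← hk]; exact (Finset.smul_mem_smul_finset_iff k).mpr (by simp)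
  rw [Finset.mem_insert, Finset.mem_singleton] at h1 h2
  have hne : k • u ≠ k • v := fun h => huv (MulAction.injective k h)
  rcases h1 with h1 | h1 <;> rcases h2 with h2 | h2
  · exact absurd (h1.trans h2.symm) hne
  · exact Or.inl ⟨h1, h2⟩
  · exact Or.inr ⟨h1, h2⟩
  · exact absurd (h1.trans h2.symm) hne

theorem three_trans {G Ω : Type*} [Group G] [MulAction G Ω]
    (h2 : ∀ a b c d : Ω, a ≠ b → c ≠ d → ∃ g : G, g • a = c ∧ g • b = d)
    (a b c : Ω) (hab : a ≠ b) (hac : a ≠ c) (hbc : b ≠ c) (t : G) (hta : t • a = a)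
    (htb : t • b = c) (htc : t • c = b)
    (H : ∀ u v x y : Ω, u ≠ v → x ≠ u → x ≠ v → y ≠ u → y ≠ v →
      ∃ g : G, ((g • u = u ∧ g • v = v) ∨ (g • u = v ∧ g • v = u)) ∧ g • x = y) :
    MulAction.IsMultiplyPretransitive G Ω 3 := by
  rw [MulAction.isMultiplyPretransitive_iff]
  intro x y
  have hx01 : x 0 ≠ x 1 := x.injective.ne (by decide)
  have hx02 : x 0 ≠ x 2 := x.injective.ne (by decide)
  have hx12 : x 1 ≠ x 2 := x.injective.ne (by decide)
  have hy01 : y 0 ≠ y 1 := y.injective.ne (by decide)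
  have hy02 : y 0 ≠ y 2 := y.injective.ne (by decide)
  have hy12 : y 1 ≠ y 2 := y.injective.ne (by decide)
  obtain ⟨g₁, hg0, hg1⟩ := h2 _ _ _ _ hx01 hy01
  obtain ⟨z, hz⟩ : ∃ z, z = g₁ • x 2 := ⟨_, rfl⟩
  have hz0 : z ≠ y 0 := by
    rw [hz, ← hg0]; exact fun h => hx02 (MulAction.injective g₁ h).symm
  have hz1 : z ≠ y 1 := by
    rw [hz, ← hg1]; exact fun h => hx12 (MulAction.injective g₁ h).symm
  have key : ∃ g : G, g • y 0 = y 0 ∧ g • y 1 = y 1 ∧ g • z = y 2 := by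
    obtain ⟨k, hk, hkz⟩ := H (y 0) (y 1) z (y 2) hy01 hz0 hz1 hy02.symm hy12.symm
    rcases hk with ⟨hk0, hk1⟩ | ⟨hk0, hk1⟩
    · exact ⟨k, hk0, hk1, hkz⟩
    · obtain ⟨g₂, hg2b, hg2c⟩ := h2 _ _ _ _ hbc hy01
      obtain ⟨w, hw⟩ : ∃ w, w = g₂ • a := ⟨_, rfl⟩
      have hw0 : w ≠ y 0 := by
        rw [hw, ← hg2b]; exact fun h => hab (MulAction.injective g₂ h)
      have hw1 : w ≠ y 1 := by
        rw [hw, ← hg2c]; exact fun h => hac (MulAction.injective g₂ h)
      have ht1_0 : (g₂ * t * g₂⁻¹) • y 0 = y 1 := by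
        rw [mul_smul, mul_smul, ← hg2b, inv_smul_smul, htb, hg2c]
      have ht1_1 : (g₂ * t * g₂⁻¹) • y 1 = y 0 := by
        rw [mul_smul, mul_smul, ← hg2c, inv_smul_smul, htc, hg2b]
      have ht1_w : (g₂ * t * g₂⁻¹) • w = w := by
        rw [mul_smul, mul_smul, hw, inv_smul_smul, hta]
      obtain ⟨k₂, hk2, hk2w⟩ := H (y 0) (y 1) w (y 2) hy01 hw0 hw1 hy02.symm hy12.symm
      obtain ⟨T, hT⟩ : ∃ T : G, T = g₂ * t * g₂⁻¹ := ⟨_, rfl⟩
      rw [← hT] at ht1_0 ht1_1 ht1_w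
      have ht'2 : (k₂ * T * k₂⁻¹) • y 2 = y 2 := by
        rw [mul_smul, mul_smul, ← hk2w, inv_smul_smul, ht1_w]
      have ht' : (k₂ * T * k₂⁻¹) • y 0 = y 1 ∧ (k₂ * T * k₂⁻¹) • y 1 = y 0 := by
        rcases hk2 with ⟨h0, h1⟩ | ⟨h0, h1⟩
        · have h0' : k₂⁻¹ • y 0 = y 0 := by rw [inv_smul_eq_iff, h0]
          have h1' : k₂⁻¹ • y 1 = y 1 := by rw [inv_smul_eq_iff, h1]
          constructor
          · rw [mul_smul, mul_smul, h0', ht1_0, h1]
          · rw [mul_smul, mul_smul, h1', ht1_1, h0]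
        · have h0' : k₂⁻¹ • y 0 = y 1 := by rw [inv_smul_eq_iff, h1]
          have h1' : k₂⁻¹ • y 1 = y 0 := by rw [inv_smul_eq_iff, h0]
          constructor
          · rw [mul_smul, mul_smul, h0', ht1_1, h0]
          · rw [mul_smul, mul_smul, h1', ht1_0, h1]
      refine ⟨(k₂ * T * k₂⁻¹) * k, ?_, ?_, ?_⟩
      · rw [mul_smul, hk0, ht'.2]
      · rw [mul_smul, hk1, ht'.1]
      · rw [mul_smul, hkz, ht'2]
  obtain ⟨g, hg0', hg1', hg2'⟩ := key
  refine ⟨g * g₁, ?_⟩
  ext i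
  rw [Function.Embedding.smul_apply, mul_smul]
  fin_cases i
  · show g • g₁ • x 0 = y 0
    rw [hg0, hg0']
  · show g • g₁ • x 1 = y 1
    rw [hg1, hg1']
  · show g • g₁ • x 2 = y 2
    rw [← hz, hg2']

theorem no_h {G : Type*} [Group G] [Finite G] {K : Type*} [Field K] {Ω : Type*} [Fintype Ω]
    [DecidableEq Ω] [MulAction G Ω]
    (κ : Ω → ↥(Set.powersetCard Ω 2) → K)
    (hinv : ∀ (g : G) x s, κ (g • x) (g • s) = κ x s)
    (hsum : ∀ s, ∑ x, κ x s = 0)
    (x₀ y₀ : Ω) (s₀ : ↥(Set.powersetCard Ω 2)) (hne : κ x₀ s₀ ≠ κ y₀ s₀)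
    (h : ∀ f : Representation.IntertwiningMap (Cfsg.permSumZero K G Ω).toRepresentation
      (Cfsg.permRep K G (Set.powersetCard Ω 2)),
      (∀ v : (Cfsg.permSumZero K G Ω).toSubmodule,
        (v : Ω → K) ∈ (Cfsg.permConstants K G Ω).toSubmodule → f v = 0) → f = 0) : False := by
  classical
  obtain ⟨F, hF⟩ : ∃ F : (Ω → K) →ₗ[K] (↥(Set.powersetCard Ω 2) → K),
      ∀ v s, F v s = ∑ x, κ x s * v x := by
    refine ⟨{ toFun := fun v s => ∑ x, κ x s * v x, map_add' := ?_, map_smul' := ?_ },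
      fun v s => rfl⟩
    · intro v w; funext s
      simp only [Pi.add_apply, mul_add, Finset.sum_add_distrib]
    · intro c v; funext s
      simp only [Pi.smul_apply, smul_eq_mul, RingHom.id_apply, Finset.mul_sum]
      apply Finset.sum_congr rfl; intro x _; ring
  obtain ⟨f, hf⟩ : ∃ f : Representation.IntertwiningMap
      (Cfsg.permSumZero K G Ω).toRepresentation (Cfsg.permRep K G (Set.powersetCard Ω 2)),
      ∀ v, f v = F v.1 := by
    refine ⟨LinearMap.intertwiningMap_of_isIntertwiningMap _ _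
      (F ∘ₗ (Cfsg.permSumZero K G Ω).toSubmodule.subtype) ?_, fun v => rfl⟩
    intro g v
    funext s
    show F (fun x => v.1 (g⁻¹ • x)) s = F v.1 (g⁻¹ • s)
    rw [hF, hF]
    apply Fintype.sum_equiv (MulAction.toPerm g⁻¹)
    intro x
    show κ x s * v.1 (g⁻¹ • x) = κ (g⁻¹ • x) (g⁻¹ • s) * v.1 (g⁻¹ • x)
    rw [hinv]
  have h0 := h f (by
    intro v hv
    rw [hf]
    funext s
    show F (v : Ω → K) s = 0
    rw [hF]
    have hv' : (v : Ω → K) ∈ Submodule.span K {fun _ : Ω => (1 : K)} := hv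
    rw [Submodule.mem_span_singleton] at hv'
    obtain ⟨c, hc⟩ := hv'
    have hvc : ∀ x, (v : Ω → K) x = c := by
      intro x; rw [← hc]; simp
    simp only [hvc]
    rw [← Finset.sum_mul, hsum, zero_mul])
  have hvS : (Pi.single x₀ (1:K) - Pi.single y₀ (1:K) : Ω → K) ∈
      (Cfsg.permSumZero K G Ω).toSubmodule := by
    show ∑ x, (Pi.single x₀ (1:K) - Pi.single y₀ (1:K) : Ω → K) x = 0
    simp only [Pi.sub_apply, Finset.sum_sub_distrib, Finset.sum_pi_single', Finset.mem_univ,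
      if_true, sub_self]
  have h1 := hf ⟨_, hvS⟩
  rw [h0] at h1
  have h2 : (0 : K) = F (Pi.single x₀ (1:K) - Pi.single y₀ (1:K) : Ω → K) s₀ := congrFun h1 s₀
  rw [hF] at h2
  have h3 : ∑ x, κ x s₀ * (Pi.single x₀ (1:K) - Pi.single y₀ (1:K) : Ω → K) x
      = κ x₀ s₀ - κ y₀ s₀ := by
    simp only [Pi.sub_apply, mul_sub, Finset.sum_sub_distrib, Pi.single_apply, mul_ite, mul_one,
      mul_zero, Finset.sum_ite_eq', Finset.mem_univ, if_true]
  rw [h3] at h2
  exact hne (sub_eq_zero.mp h2.symm)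


/-- Let a finite group act faithfully and doubly transitively with point stabilisers of even order, and let `K` have characteristic `p` dividing the degree. If the heart of the permutation module admits no non-zero equivariant map to the permutation module on unordered pairs (phrased: every intertwining map from the sum-zero functions vanishing on the constants is zero), the action is triply transitive. -/
theorem result {G : Type*} [Group G] [Finite G] {K : Type*} [Field K] {p : ℕ} [Fact p.Prime] [CharP K p] {Ω : Type*} [Fintype Ω] [DecidableEq Ω] [MulAction G Ω] [FaithfulSMul G Ω] (h2 : MulAction.IsMultiplyPretransitive G Ω 2) (hp : p ∣ Fintype.card Ω) (heven : ∀ a : Ω, Even (Nat.card (MulAction.stabilizer G a))) (h : ∀ f : Representation.IntertwiningMap (Cfsg.permSumZero K G Ω).toRepresentation (Cfsg.permRep K G (Set.powersetCard Ω 2)), (∀ v : (Cfsg.permSumZero K G Ω).toSubmodule, (v : Ω → K) ∈ (Cfsg.permConstants K G Ω).toSubmodule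 → f v = 0) → f = 0) : MulAction.IsMultiplyPretransitive G Ω 3 := by
  classical
  by_contra h3
  have h3' : ∃ e : Fin 3 ↪ Ω, True := by
    by_contra hcon
    apply h3
    rw [MulAction.isMultiplyPretransitive_iff]
    intro x _
    exact absurd ⟨x, trivial⟩ hcon
  obtain ⟨e, -⟩ := h3'
  obtain ⟨b, c, hab, hac, hbc, t, hta, htb, htc⟩ := exists_swap (G := G) (e 0) (heven (e 0))
  have h2' : ∀ a b c d : Ω, a ≠ b → c ≠ d → ∃ g : G, g • a = c ∧ g • b = d :=
    fun a b c d hab hcd => MulAction.is_two_pretransitive_iff.mp h2 hab hcd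
  by_cases h2K : (2 : K) = 0
  · apply no_h (G := G) (K := K) (fun x s => if x ∈ (s : Finset Ω) then (1 : K) else 0) ?_ ?_ b
      (e 0) ⟨{b, c}, Finset.card_pair hbc⟩ ?_ h
    · intro g x s
      have h1 : g • x ∈ ((g • s : ↥(Set.powersetCard Ω 2)) : Finset Ω) ↔ x ∈ (s : Finset Ω) := by
        rw [Set.powersetCard.coe_smul]; exact Finset.smul_mem_smul_finset_iff g
      exact if_congr h1 rfl rfl
    · intro s
      rw [Finset.sum_boole]
      have hfs : (Finset.univ.filter (fun x => x ∈ (s : Finset Ω))) = (s : Finset Ω) := by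
        ext x; simp
      rw [hfs, Set.powersetCard.card_eq s]
      exact_mod_cast h2K
    · have h1 : b ∈ ({b, c} : Finset Ω) := by simp
      have h4 : e 0 ∉ ({b, c} : Finset Ω) := by
        rw [Finset.mem_insert, Finset.mem_singleton]; push Not; exact ⟨hab, hac⟩
      show (if b ∈ ({b, c} : Finset Ω) then (1:K) else 0)
        ≠ (if e 0 ∈ ({b, c} : Finset Ω) then (1:K) else 0)
      rw [if_pos h1, if_neg h4]; exact one_ne_zero
  · have hH : ∃ u v x y : Ω, u ≠ v ∧ x ≠ u ∧ x ≠ v ∧ y ≠ u ∧ y ≠ v ∧ ∀ g : G,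
        ((g • u = u ∧ g • v = v) ∨ (g • u = v ∧ g • v = u)) → g • x ≠ y := by
      by_contra hcon
      apply h3
      apply three_trans h2' (e 0) b c hab hac hbc t hta htb htc
      intro u v x y huv hxu hxv hyu hyv
      by_contra hg
      exact hcon ⟨u, v, x, y, huv, hxu, hxv, hyu, hyv, fun g hg1 hg2 => hg ⟨g, hg1, hg2⟩⟩
    obtain ⟨u, v, x₀, y₀, huv, hxu, hxv, hyu, hyv, hno⟩ := hH
    obtain ⟨s₀, hs₀⟩ : ∃ s₀ : ↥(Set.powersetCard Ω 2), (s₀ : Finset Ω) = {u, v} :=
      ⟨⟨{u, v}, Finset.card_pair huv⟩, rfl⟩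
    have hx₀ : x₀ ∉ (s₀ : Finset Ω) := by
      rw [hs₀, Finset.mem_insert, Finset.mem_singleton]; push Not; exact ⟨hxu, hxv⟩
    have hy₀ : y₀ ∉ (s₀ : Finset Ω) := by
      rw [hs₀, Finset.mem_insert, Finset.mem_singleton]; push Not; exact ⟨hyu, hyv⟩
    have hno' : ∀ g : G, g • s₀ = s₀ → g • x₀ ≠ y₀ := by
      intro g hg
      have hg' : g • ({u, v} : Finset Ω) = {u, v} := by
        have h5 := congrArg (fun s : ↥(Set.powersetCard Ω 2) => (s : Finset Ω)) hg
        simp only [Set.powersetCard.coe_smul, hs₀] at h5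
        exact h5
      exact hno g (pair_stab u v huv g hg')
    obtain ⟨Δ, hΔ⟩ : ∃ Δ : Ω → ↥(Set.powersetCard Ω 2) → Prop,
        ∀ x s, Δ x s ↔ ∃ g : G, g • x₀ = x ∧ g • s₀ = s :=
      ⟨fun x s => ∃ g : G, g • x₀ = x ∧ g • s₀ = s, fun x s => Iff.rfl⟩
    have hΔinv : ∀ (g : G) x s, Δ (g • x) (g • s) ↔ Δ x s := by
      intro g x s
      rw [hΔ, hΔ]
      constructor
      · rintro ⟨k, hk1, hk2⟩
        refine ⟨g⁻¹ * k, ?_, ?_⟩
        · rw [mul_smul, hk1, inv_smul_smul]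
        · rw [mul_smul, hk2, inv_smul_smul]
      · rintro ⟨k, hk1, hk2⟩
        exact ⟨g * k, by rw [mul_smul, hk1], by rw [mul_smul, hk2]⟩
    obtain ⟨μ, hμ⟩ : ∃ μ : ↥(Set.powersetCard Ω 2) → ℕ,
        ∀ s, μ s = (Finset.univ.filter (fun x => Δ x s)).card := ⟨_, fun s => rfl⟩
    have hμinv : ∀ (g : G) s, μ (g • s) = μ s := by
      intro g s
      rw [hμ, hμ]
      symm
      apply Finset.card_equiv (MulAction.toPerm g)
      intro x
      rw [Finset.mem_filter, Finset.mem_filter]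
      simp only [Finset.mem_univ, true_and, MulAction.toPerm_apply]
      exact (hΔinv g x s).symm
    apply no_h (G := G) (K := K) (fun x s => (if Δ x s then (2 : K) else 0)
      - (if x ∈ (s : Finset Ω) then (μ s : K) else 0)) ?_ ?_ x₀ y₀ s₀ ?_ h
    · intro g x s
      have h1 : g • x ∈ ((g • s : ↥(Set.powersetCard Ω 2)) : Finset Ω) ↔ x ∈ (s : Finset Ω) := by
        rw [Set.powersetCard.coe_smul]; exact Finset.smul_mem_smul_finset_iff g
      show (if Δ (g • x) (g • s) then (2 : K) else 0)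
          - (if g • x ∈ ((g • s : ↥(Set.powersetCard Ω 2)) : Finset Ω) then (μ (g • s) : K) else 0)
        = (if Δ x s then (2 : K) else 0) - (if x ∈ (s : Finset Ω) then (μ s : K) else 0)
      rw [if_congr (hΔinv g x s) rfl rfl, if_congr h1 (by rw [hμinv]) rfl]
    · intro s
      rw [Finset.sum_sub_distrib]
      have e1 : ∑ x, (if Δ x s then (2 : K) else 0) = 2 * (μ s : K) := by
        rw [← Finset.sum_filter, Finset.sum_const, hμ, nsmul_eq_mul, mul_comm]
      have e2 : ∑ x, (if x ∈ (s : Finset Ω) then (μ s : K) else 0) = 2 * (μ s : K) := by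
        rw [← Finset.sum_filter, Finset.sum_const]
        have hfs : (Finset.univ.filter (fun x => x ∈ (s : Finset Ω))) = (s : Finset Ω) := by
          ext x; simp
        rw [hfs, Set.powersetCard.card_eq s, nsmul_eq_mul]; norm_num
      rw [e1, e2, sub_self]
    · have hd1 : Δ x₀ s₀ := (hΔ x₀ s₀).mpr ⟨1, one_smul _ _, one_smul _ _⟩
      have hd2 : ¬ Δ y₀ s₀ := by
        rw [hΔ]; rintro ⟨g, hg1, hg2⟩; exact hno' g hg2 hg1
      show (if Δ x₀ s₀ then (2 : K) else 0) - (if x₀ ∈ (s₀ : Finset Ω) then (μ s₀ : K) else 0)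
        ≠ (if Δ y₀ s₀ then (2 : K) else 0) - (if y₀ ∈ (s₀ : Finset Ω) then (μ s₀ : K) else 0)
      rw [if_pos hd1, if_neg hx₀, if_neg hd2, if_neg hy₀, sub_zero, sub_zero]
      exact h2K

end Cfsg.Agent.S0672
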