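import Cfsg.Statements.S0677
import Mathlib
import Cfsg.Agent.S1013

set_option autoImplicit false
open Cfsg

namespace Cfsg.Agent.S0677

set_option linter.unusedSectionVars false
set_option linter.style.haveILetI false

/-- Parity count behind "−1 is not a multiplier": in a finite commutative group with injective
squaring, for a symmetric set `D`, the number of `j` with `j⁻¹ ∈ D` and `s² j⁻¹ ∈ D` is odd
exactly when `s ∈ D`. -/
theorem parity_count {C : Type*} [Group C] [Fintype C] [DecidableEq C]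
    (hcomm : ∀ a b : C, a * b = b * a) (hsq : ∀ a b : C, a ^ 2 = b ^ 2 → a = b)
    (D : Set C) [DecidablePred (· ∈ D)] (hsym : ∀ d, d ∈ D → d⁻¹ ∈ D) (s : C) :
    Odd ((Finset.univ.filter (fun j : C => j⁻¹ ∈ D ∧ s ^ 2 * j⁻¹ ∈ D)).card) ↔ s ∈ D := by
  set J := Finset.univ.filter (fun j : C => j⁻¹ ∈ D ∧ s ^ 2 * j⁻¹ ∈ D) with hJ
  have hmemJ : ∀ j, j ∈ J ↔ (j⁻¹ ∈ D ∧ s ^ 2 * j⁻¹ ∈ D) := by
    intro j; simp [hJ]
  have hsJ : s ∈ J ↔ s ∈ D := by
    rw [hmemJ]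
    constructor
    · rintro ⟨h1, -⟩
      have := hsym _ h1
      rwa [inv_inv] at this
    · intro h
      refine ⟨hsym _ h, ?_⟩
      have : s ^ 2 * s⁻¹ = s := by rw [sq, mul_assoc, mul_inv_cancel, mul_one]
      rw [this]; exact h
  have heven : Even (J.erase s).card := by
    have hsum : ∑ x ∈ J.erase s, (1 : ZMod 2) = 0 := by
      refine Finset.sum_involution (fun j _ => s ^ 2 * j⁻¹) ?_ ?_ ?_ ?_
      · intro a ha
        decide
      · intro a ha _ heq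
        have ha' := Finset.mem_erase.mp ha
        apply ha'.1
        have h2 : s ^ 2 = a ^ 2 := by
          calc s ^ 2 = s ^ 2 * a⁻¹ * a := by rw [mul_assoc, inv_mul_cancel, mul_one]
            _ = a * a := by rw [heq]
            _ = a ^ 2 := (sq a).symm
        exact (hsq _ _ h2).symm
      · intro a ha
        have ha' := Finset.mem_erase.mp ha
        have haJ := (hmemJ a).mp ha'.2
        refine Finset.mem_erase.mpr ⟨?_, (hmemJ _).mpr ⟨hsym _ haJ.2, ?_⟩⟩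
        · intro heq
          apply ha'.1
          have h3 : s * a⁻¹ = 1 := by
            have h4 : s * (s * a⁻¹) = s * 1 := by rw [← mul_assoc, ← sq, heq, mul_one]
            exact mul_left_cancel h4
          exact (mul_inv_eq_one.mp h3).symm
        · have h5 : s ^ 2 * (s ^ 2 * a⁻¹)⁻¹ = a := by
            rw [mul_inv_rev, inv_inv, hcomm a, ← mul_assoc, mul_inv_cancel, one_mul]
          rw [h5]
          have := hsym _ haJ.1
          rwa [inv_inv] at this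
      · intro a ha
        show s ^ 2 * (s ^ 2 * a⁻¹)⁻¹ = a
        rw [mul_inv_rev, inv_inv, hcomm a, ← mul_assoc, mul_inv_cancel, one_mul]
    rw [Finset.sum_const, nsmul_eq_mul, mul_one] at hsum
    exact (ZMod.natCast_eq_zero_iff_even).mp hsum
  by_cases hs : s ∈ J
  · have hc : J.card = (J.erase s).card + 1 := (Finset.card_erase_add_one hs).symm
    rw [hc]
    constructor
    · intro _; exact hsJ.mp hs
    · intro _; exact Even.add_one heven
  · rw [Finset.erase_eq_of_notMem hs] at heven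
    constructor
    · intro hodd
      exact absurd heven (Nat.not_even_iff_odd.mpr hodd)
    · intro h; exact absurd (hsJ.mpr h) hs

theorem parity_core {C : Type*} [Group C] [Finite C]
    (hcomm : ∀ a b : C, a * b = b * a) (hsq : ∀ a b : C, a ^ 2 = b ^ 2 → a = b)
    (D : Set C) (hsym : ∀ d, d ∈ D → d⁻¹ ∈ D)
    (τ σ : C → C) (hσ : Function.Injective σ) (hτ1 : τ 1 = 1)
    (hkey : ∀ j y : C, y * j⁻¹ ∈ D ↔ τ y * (σ j)⁻¹ ∈ D)
    (r r' : C) (hr : τ (r ^ 2) = r' ^ 2) : r ∈ D ↔ r' ∈ D := by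
  classical
  haveI := Fintype.ofFinite C
  have hB : ∀ i : C, (Finset.univ.filter (fun j : C => j⁻¹ ∈ D ∧ i * j⁻¹ ∈ D)).card
      = (Finset.univ.filter (fun j : C => j⁻¹ ∈ D ∧ τ i * j⁻¹ ∈ D)).card := by
    intro i
    refine Finset.card_equiv (Equiv.ofBijective σ ⟨hσ, Finite.surjective_of_injective hσ⟩) ?_
    intro j
    simp only [Finset.mem_filter, Finset.mem_univ, true_and]
    have h1 := hkey j 1
    rw [one_mul, hτ1, one_mul] at h1
    rw [h1, hkey j i]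
    exact Iff.rfl
  rw [← parity_count hcomm hsq D hsym r, ← parity_count hcomm hsq D hsym r', hB (r ^ 2), hr]


theorem free_of_trans {α : Type*} (Cx : Subgroup (Equiv.Perm α))
    (htrans : ∀ a ω : α, ∃ y ∈ Cx, y a = ω)
    (hcomm : ∀ y ∈ Cx, ∀ z ∈ Cx, y * z = z * y) (a₀ : α) :
    ∀ y ∈ Cx, y a₀ = a₀ → y = 1 := by
  intro y hy h
  apply Equiv.ext
  intro ω
  obtain ⟨z, hz, rfl⟩ := htrans a₀ ω
  show y (z a₀) = z a₀
  have h1 : (y * z) a₀ = (z * y) a₀ := by rw [hcomm y hy z hz]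
  rw [Equiv.Perm.mul_apply, Equiv.Perm.mul_apply, h] at h1
  exact h1

theorem stepC {α : Type*} [Finite α] (Cx K G : Subgroup (Equiv.Perm α))
    (hCG : Cx ≤ G)
    (htrans : ∀ a ω : α, ∃ y ∈ Cx, y a = ω)
    (hcomm : ∀ y ∈ Cx, ∀ z ∈ Cx, y * z = z * y)
    (hsq : ∀ y ∈ Cx, ∀ z ∈ Cx, y ^ 2 = z ^ 2 → y = z)
    (hsqrt : ∀ y ∈ Cx, ∃ z ∈ Cx, z ^ 2 = y)
    (hK1 : ∀ g ∈ G, ∃ y ∈ Cx, y⁻¹ * g ∈ K)
    (hK2 : ∀ y ∈ Cx, y ∈ K → y = 1)
    (a₀ : α) (Δ : Set α) (hΔK : ∀ k ∈ K, ∀ ω, ω ∈ Δ → k ω ∈ Δ)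
    (hΔsym : ∀ y ∈ Cx, y a₀ ∈ Δ → y⁻¹ a₀ ∈ Δ)
    (g : Equiv.Perm α) (hg : g ∈ G) (hga : g a₀ = a₀)
    (r : Equiv.Perm α) (hr : r ∈ Cx) :
    ∃ r' ∈ Cx, g ((r ^ 2) a₀) = (r' ^ 2) a₀ ∧ (r a₀ ∈ Δ ↔ r' a₀ ∈ Δ) := by
  classical
  have hfree := free_of_trans Cx htrans hcomm a₀
  have hτex : ∀ y : Cx, ∃ y' : Cx, (y' : Equiv.Perm α) a₀ = g ((y : Equiv.Perm α) a₀) := by
    intro y
    obtain ⟨y', hy', h⟩ := htrans a₀ (g ((y : Equiv.Perm α) a₀))
    exact ⟨⟨y', hy'⟩, h⟩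
  choose τ hτ using hτex
  have hσex : ∀ j : Cx, ∃ m : Cx, (m : Equiv.Perm α)⁻¹ * (g * (j : Equiv.Perm α)) ∈ K := by
    intro j
    obtain ⟨m, hm, h⟩ := hK1 (g * j) (G.mul_mem hg (hCG j.2))
    exact ⟨⟨m, hm⟩, h⟩
  choose σ hσ using hσex
  have hσinj : Function.Injective σ := by
    intro j j' h
    have h1 := hσ j
    have h2 := hσ j'
    rw [h] at h1
    have h3 : (j : Equiv.Perm α)⁻¹ * (j' : Equiv.Perm α) ∈ K := by
      have h4 := K.mul_mem (K.inv_mem h1) h2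
      have e : ((σ j' : Equiv.Perm α)⁻¹ * (g * (j : Equiv.Perm α)))⁻¹
          * ((σ j' : Equiv.Perm α)⁻¹ * (g * (j' : Equiv.Perm α)))
          = (j : Equiv.Perm α)⁻¹ * (j' : Equiv.Perm α) := by group
      rwa [e] at h4
    have h4 := hK2 _ (Cx.mul_mem (Cx.inv_mem j.2) j'.2) h3
    apply Subtype.ext
    exact inv_mul_eq_one.mp h4
  have hτ1 : τ 1 = 1 := by
    apply Subtype.ext
    apply hfree _ (τ 1).2
    rw [hτ 1]
    simpa using hga
  let D : Set Cx := {y | (y : Equiv.Perm α) a₀ ∈ Δ}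
  have hDsym : ∀ d, d ∈ D → d⁻¹ ∈ D := by
    intro d hd
    exact hΔsym d d.2 hd
  have hΔK' : ∀ k ∈ K, ∀ ω, ω ∈ Δ ↔ k ω ∈ Δ := by
    intro k hk ω
    refine ⟨hΔK k hk ω, fun h => ?_⟩
    have := hΔK k⁻¹ (K.inv_mem hk) _ h
    simpa using this
  have hkey : ∀ j y : Cx, y * j⁻¹ ∈ D ↔ τ y * (σ j)⁻¹ ∈ D := by
    intro j y
    show ((y * j⁻¹ : Cx) : Equiv.Perm α) a₀ ∈ Δ ↔ ((τ y * (σ j)⁻¹ : Cx) : Equiv.Perm α) a₀ ∈ Δ
    rw [hΔK' _ (hσ j)]
    have e : ((σ j : Equiv.Perm α)⁻¹ * (g * (j : Equiv.Perm α)))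
        (((y * j⁻¹ : Cx) : Equiv.Perm α) a₀) = ((τ y * (σ j)⁻¹ : Cx) : Equiv.Perm α) a₀ := by
      have c1 : (j : Equiv.Perm α) * ((y : Equiv.Perm α) * (j : Equiv.Perm α)⁻¹) = y := by
        rw [hcomm _ y.2 _ (Cx.inv_mem j.2), ← mul_assoc, mul_inv_cancel, one_mul]
      have c2 : (τ y : Equiv.Perm α) * (σ j : Equiv.Perm α)⁻¹
          = (σ j : Equiv.Perm α)⁻¹ * (τ y : Equiv.Perm α) :=
        hcomm _ (τ y).2 _ (Cx.inv_mem (σ j).2)
      have e1 : (j : Equiv.Perm α) ((y : Equiv.Perm α) ((j : Equiv.Perm α)⁻¹ a₀))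
          = (y : Equiv.Perm α) a₀ := by
        have := congrArg (fun f : Equiv.Perm α => f a₀) c1
        simpa [Equiv.Perm.mul_apply] using this
      have e2 : (τ y : Equiv.Perm α) ((σ j : Equiv.Perm α)⁻¹ a₀)
          = (σ j : Equiv.Perm α)⁻¹ ((τ y : Equiv.Perm α) a₀) := by
        have := congrArg (fun f : Equiv.Perm α => f a₀) c2
        simpa [Equiv.Perm.mul_apply] using this
      simp only [Subgroup.coe_mul, Subgroup.coe_inv, Equiv.Perm.mul_apply]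
      rw [e1, e2, hτ y]
    rw [e]
  have hcommC : ∀ a b : Cx, a * b = b * a := fun a b => Subtype.ext (hcomm a a.2 b b.2)
  have hsqC : ∀ a b : Cx, a ^ 2 = b ^ 2 → a = b := by
    intro a b h
    apply Subtype.ext
    apply hsq a a.2 b b.2
    have := congrArg (Subtype.val) h
    simpa using this
  obtain ⟨r', hr', hr'2⟩ := hsqrt (τ (⟨r, hr⟩ ^ 2)) (τ (⟨r, hr⟩ ^ 2)).2
  have hcore := parity_core hcommC hsqC D hDsym τ σ hσinj hτ1 hkey ⟨r, hr⟩ ⟨r', hr'⟩ (by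
    apply Subtype.ext
    simp [hr'2])
  refine ⟨r', hr', ?_, hcore⟩
  rw [hr'2, hτ]
  simp

theorem iter {α : Type*} [Finite α] (Cx U G : Subgroup (Equiv.Perm α))
    (hCG : Cx ≤ G)
    (htrans : ∀ a ω : α, ∃ y ∈ Cx, y a = ω)
    (hcomm : ∀ y ∈ Cx, ∀ z ∈ Cx, y * z = z * y)
    (hsq : ∀ y ∈ Cx, ∀ z ∈ Cx, y ^ 2 = z ^ 2 → y = z)
    (hsqrt : ∀ y ∈ Cx, ∃ z ∈ Cx, z ^ 2 = y)
    (hU1 : ∀ g ∈ G, ∃ y ∈ Cx, y⁻¹ * g ∈ U)
    (hU2 : ∀ y ∈ Cx, y ∈ U → y = 1)
    (a₀ : α) (Δ : Set α) (hΔU : ∀ k ∈ U, ∀ ω, ω ∈ Δ → k ω ∈ Δ)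
    (hΔsym : ∀ y ∈ Cx, y a₀ ∈ Δ → y⁻¹ a₀ ∈ Δ) (m : ℕ) :
    ∀ g ∈ G, g a₀ = a₀ → ∀ r ∈ Cx, r a₀ ∈ Δ →
      ∃ r' ∈ Cx, r' a₀ ∈ Δ ∧ g ((r ^ (2 ^ (m + 1))) a₀) = (r' ^ (2 ^ (m + 1))) a₀ := by
  have hfree := free_of_trans Cx htrans hcomm a₀
  have hfree2 : ∀ y ∈ Cx, ∀ z ∈ Cx, y a₀ = z a₀ → y = z := by
    intro y hy z hz h
    have h1 := hfree (y⁻¹ * z) (Cx.mul_mem (Cx.inv_mem hy) hz) (by
      rw [Equiv.Perm.mul_apply, ← h]; simp)
    exact (inv_mul_eq_one.mp h1)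
  induction m with
  | zero =>
    intro g hg hga r hr hrΔ
    obtain ⟨r', hr', h1, h2⟩ := stepC Cx U G hCG htrans hcomm hsq hsqrt hU1 hU2 a₀ Δ hΔU hΔsym
      g hg hga r hr
    exact ⟨r', hr', h2.mp hrΔ, by simpa using h1⟩
  | succ m ih =>
    intro g hg hga r hr hrΔ
    let K : Subgroup (Equiv.Perm α) := G ⊓ MulAction.stabilizer (Equiv.Perm α) a₀
    let E : Set α := {ω | ∃ s ∈ Cx, s a₀ ∈ Δ ∧ ω = (s ^ (2 ^ (m + 1))) a₀}
    have hK1 : ∀ g ∈ G, ∃ y ∈ Cx, y⁻¹ * g ∈ K := by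
      intro g hg
      obtain ⟨y, hy, h⟩ := htrans a₀ (g a₀)
      refine ⟨y, hy, G.mul_mem (G.inv_mem (hCG hy)) hg, ?_⟩
      show (y⁻¹ * g) a₀ = a₀
      rw [Equiv.Perm.mul_apply, ← h]; simp
    have hK2 : ∀ y ∈ Cx, y ∈ K → y = 1 := fun y hy hK => hfree y hy hK.2
    have hEK : ∀ k ∈ K, ∀ ω, ω ∈ E → k ω ∈ E := by
      rintro k ⟨hkG, hka⟩ ω ⟨s, hs, hsΔ, rfl⟩
      obtain ⟨s', hs', hs'Δ, h⟩ := ih k hkG hka s hs hsΔ
      exact ⟨s', hs', hs'Δ, h⟩
    have hEsym : ∀ y ∈ Cx, y a₀ ∈ E → y⁻¹ a₀ ∈ E := by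
      rintro y hy ⟨s, hs, hsΔ, h⟩
      have h1 : y = s ^ (2 ^ (m + 1)) := hfree2 y hy _ (Cx.pow_mem hs _) h
      refine ⟨s⁻¹, Cx.inv_mem hs, hΔsym s hs hsΔ, ?_⟩
      rw [h1, inv_pow]
    obtain ⟨ρ', hρ', h1, h2⟩ := stepC Cx K G hCG htrans hcomm hsq hsqrt hK1 hK2 a₀ E hEK hEsym
      g hg hga (r ^ (2 ^ (m + 1))) (Cx.pow_mem hr _)
    obtain ⟨s, hs, hsΔ, h3⟩ := h2.mp ⟨r, hr, hrΔ, rfl⟩
    have h4 : ρ' = s ^ (2 ^ (m + 1)) := hfree2 ρ' hρ' _ (Cx.pow_mem hs _) h3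
    refine ⟨s, hs, hsΔ, ?_⟩
    rw [pow_succ 2 (m + 1), pow_mul, pow_mul, ← h4]
    exact h1

/-- In a transitive permutation group of prime degree `p` whose Sylow `p`-normaliser has even order, the point stabilisers are the only subgroups of index `p`. -/
theorem result {α : Type*} [Fintype α] [DecidableEq α] {p : ℕ} [Fact p.Prime] (hα : Fintype.card α = p) (G : Subgroup (Equiv.Perm α)) [MulAction.IsPretransitive G α] (P : Sylow p G) (heven : Even (Nat.card (Subgroup.normalizer ((P : Subgroup G) : Set G)))) (H : Subgroup G) (hH : H.index = p) : ∃ a : α, H = MulAction.stabilizer G a := by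
  classical
  have hp : p.Prime := Fact.out
  have hGfact : Nat.card G ∣ p.factorial := by
    have h1 : Nat.card G ∣ Nat.card (Equiv.Perm α) := Subgroup.card_subgroup_dvd_card G
    rw [Nat.card_eq_fintype_card (α := Equiv.Perm α), Fintype.card_perm, hα] at h1
    exact h1
  have hpp : ¬ p * p ∣ Nat.card G := by
    intro h
    have h2 : p * p ∣ p.factorial := h.trans hGfact
    have h3 : p.factorial = p * (p - 1).factorial := by
      obtain ⟨m, rfl⟩ : ∃ m, p = m + 1 := ⟨p - 1, (Nat.succ_pred_eq_of_pos hp.pos).symm⟩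
      rw [Nat.factorial_succ]; rfl
    rw [h3] at h2
    have h4 : p ∣ (p - 1).factorial := Nat.dvd_of_mul_dvd_mul_left hp.pos h2
    have h5 := (hp.dvd_factorial).mp h4
    have := hp.pos
    omega
  have hpG : p ∣ Nat.card G := Cfsg.Agent.S1013.dvd_card_of_trans hα hp G
  have hPcard : Nat.card (P : Subgroup G) = p := by
    have h1 := P.card_eq_multiplicity
    have h2 : (Nat.card G).factorization p = 1 := by
      have hpos : 0 < (Nat.card G).factorization p :=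
        hp.factorization_pos_of_dvd Nat.card_pos.ne' hpG
      have hlt : (Nat.card G).factorization p < 2 := by
        by_contra hge
        push Not at hge
        apply hpp
        have : p ^ 2 ∣ Nat.card G := (pow_dvd_pow p hge).trans (Nat.ordProj_dvd _ _)
        rwa [pow_two] at this
      omega
    rw [h1, h2, pow_one]
  have hPcomm : ∀ x ∈ (P : Subgroup G), ∀ y ∈ (P : Subgroup G), x * y = y * x := by
    have : IsCyclic (P : Subgroup G) := isCyclic_of_prime_card hPcard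
    intro x hx y hy
    have := IsCyclic.isMulCommutative (α := (P : Subgroup G))
    have h : (⟨x, hx⟩ : (P : Subgroup G)) * ⟨y, hy⟩ = ⟨y, hy⟩ * ⟨x, hx⟩ := mul_comm' _ _
    exact congrArg Subtype.val h
  have hstabidx : ∀ a : α, (MulAction.stabilizer G a).index = p := by
    intro a
    have h1 := MulAction.index_stabilizer_of_transitive G a
    rw [Nat.card_eq_fintype_card, hα] at h1
    exact h1
  suffices hsuff : ∃ a : α, H ≤ MulAction.stabilizer G a by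
    obtain ⟨a, ha⟩ := hsuff
    refine ⟨a, ?_⟩
    apply Subgroup.eq_of_le_of_card_ge ha
    have h1 := H.card_mul_index
    have h2 := (MulAction.stabilizer G a).card_mul_index
    rw [hH] at h1; rw [hstabidx a] at h2
    have h3 : Nat.card H * p = Nat.card (MulAction.stabilizer G a) * p := by rw [h1, h2]
    exact le_of_eq (Nat.eq_of_mul_eq_mul_right hp.pos h3).symm
  have hHcard : Nat.card H * p = Nat.card G := by rw [← hH]; exact H.card_mul_index
  have hpH : ¬ p ∣ Nat.card H := by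
    intro h
    apply hpp
    rw [← hHcard]
    exact Nat.mul_dvd_mul_right h p
  obtain ⟨a₁⟩ : Nonempty α := Fintype.card_pos_iff.mp (by rw [hα]; exact hp.pos)
  by_cases hp2 : p = 2
  · refine ⟨a₁, ?_⟩
    have h1 : Nat.card G ≤ 2 := by
      have h := Nat.le_of_dvd (Nat.factorial_pos p) hGfact
      rw [hp2] at h; exact h
    have h2 : Nat.card H = 1 := by
      rw [hp2] at hHcard
      have := Nat.card_pos (α := H)
      omega
    rw [Subgroup.card_eq_one.mp h2]; exact bot_le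
  have hodd : ¬ 2 ∣ p := by
    intro h
    rcases (Nat.dvd_prime hp).mp h with h | h
    · omega
    · exact hp2 h.symm
  have hp3 : 3 ≤ p := by have := hp.two_le; omega
  obtain ⟨k, h2k⟩ : ∃ k, 2 * k = p + 1 := ⟨(p + 1) / 2, by omega⟩
  -- powers of a nontrivial element of P act transitively
  have hcyc : ∀ z ∈ (P : Subgroup G), z ≠ 1 → ∀ a ω : α,
      ∃ i : ℕ, (((z : Equiv.Perm α)) ^ i) a = ω := by
    intro z hz hz1 a ω
    have hord : orderOf z = p := by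
      have h2 : orderOf z ∣ p := by
        have := orderOf_dvd_natCard (⟨z, hz⟩ : (P : Subgroup G))
        rw [hPcard] at this
        rwa [Subgroup.orderOf_mk] at this
      rcases (Nat.dvd_prime hp).mp h2 with h | h
      · exact absurd (orderOf_eq_one_iff.mp h) hz1
      · exact h
    have hord' : orderOf (z : Equiv.Perm α) = p := by rw [Subgroup.orderOf_coe]; exact hord
    have hc : (z : Equiv.Perm α).IsCycle :=
      Equiv.Perm.isCycle_of_prime_order'' (by rw [hα]; exact hp) (by rw [hord', hα])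
    have hsupp : (z : Equiv.Perm α).support = Finset.univ := by
      apply Finset.eq_univ_of_card
      rw [← hc.orderOf, hord', hα]
    have ha : (z : Equiv.Perm α) a ≠ a :=
      Equiv.Perm.mem_support.mp (by rw [hsupp]; exact Finset.mem_univ _)
    have hω : (z : Equiv.Perm α) ω ≠ ω :=
      Equiv.Perm.mem_support.mp (by rw [hsupp]; exact Finset.mem_univ _)
    exact hc.exists_pow_eq ha hω
  have hPpow : ∀ z ∈ (P : Subgroup G), z ^ p = 1 := by
    intro z hz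
    have h2 : orderOf z ∣ p := by
      have := orderOf_dvd_natCard (⟨z, hz⟩ : (P : Subgroup G))
      rw [hPcard] at this
      rwa [Subgroup.orderOf_mk] at this
    exact orderOf_dvd_iff_pow_eq_one.mp h2
  -- a nontrivial element of P
  obtain ⟨x, hxP, hx1⟩ : ∃ x ∈ (P : Subgroup G), x ≠ 1 := by
    have h1 : (P : Subgroup G) ≠ ⊥ := by
      intro h
      have h2 := hPcard
      rw [h, Subgroup.card_bot] at h2
      have := hp.one_lt
      omega
    obtain ⟨⟨x, hx⟩, hx1⟩ := (Subgroup.ne_bot_iff_exists_ne_one (H := (P : Subgroup G))).mp h1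
    exact ⟨x, hx, fun h => hx1 (Subtype.ext h)⟩
  -- the involution
  set N : Subgroup G := Subgroup.normalizer ((P : Subgroup G) : Set G) with hN
  have h2N : 2 ∣ Nat.card N := even_iff_two_dvd.mp heven
  obtain ⟨t, ht⟩ := exists_prime_orderOf_dvd_card' (G := N) 2 h2N
  have htt : (t : G) * (t : G) = 1 := by
    have h1 : t ^ 2 = 1 := by rw [← ht]; exact pow_orderOf_eq_one t
    have h2 : ((t ^ 2 : N) : G) = 1 := by rw [h1]; rfl
    rw [← sq]; simpa using h2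
  have ht1 : (t : G) ≠ 1 := by
    intro h
    have h1 : t = 1 := Subtype.ext h
    rw [h1, orderOf_one] at ht
    omega
  have htP : ∀ y ∈ (P : Subgroup G), (t : G) * y * (t : G)⁻¹ ∈ (P : Subgroup G) := by
    intro y hy
    exact (Subgroup.mem_normalizer_iff.mp t.2 y).mp hy
  -- t inverts P
  have hinvt : ∀ y ∈ (P : Subgroup G), (t : G) * y * (t : G)⁻¹ = y⁻¹ := by
    intro y hy
    by_contra hne
    set z : G := y * ((t : G) * y * (t : G)⁻¹) with hz
    have hzP : z ∈ (P : Subgroup G) := (P : Subgroup G).mul_mem hy (htP y hy)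
    have hz1 : z ≠ 1 := by
      intro h
      apply hne
      exact (eq_inv_of_mul_eq_one_right h)
    have hzt : (t : G) * z = z * (t : G) := by
      have e1 : (t : G) * z * (t : G)⁻¹ = ((t : G) * y * (t : G)⁻¹)
          * (((t : G) * (t : G)) * y * ((t : G) * (t : G))⁻¹) := by
        rw [hz]; group
      rw [htt, one_mul, inv_one, mul_one, hPcomm _ (htP y hy) _ hy] at e1
      calc (t : G) * z = (t : G) * z * (t : G)⁻¹ * (t : G) := by group
        _ = z * (t : G) := by rw [e1]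
    have htpow : ((t : G) : Equiv.Perm α) ^ 2 ^ 1 = 1 := by
      rw [pow_one, sq]
      have := congrArg (Subtype.val) htt
      simpa using this
    obtain ⟨a, ha⟩ := Equiv.Perm.exists_fixed_point_of_prime (p := 2) (n := 1)
      (by rw [hα]; exact hodd) htpow
    apply ht1
    apply Subtype.ext
    apply Equiv.ext
    intro ω
    obtain ⟨i, hi⟩ := hcyc z hzP hz1 a ω
    have hcomm_i : ((t : G) : Equiv.Perm α) * ((z : Equiv.Perm α) ^ i)
        = ((z : Equiv.Perm α) ^ i) * ((t : G) : Equiv.Perm α) := by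
      have h1 : Commute ((t : G) : Equiv.Perm α) (z : Equiv.Perm α) := by
        show ((t : G) : Equiv.Perm α) * (z : Equiv.Perm α) = (z : Equiv.Perm α) * ((t : G) : Equiv.Perm α)
        exact congrArg (Subtype.val) hzt
      exact (h1.pow_right i)
    rw [← hi]
    show ((t : G) : Equiv.Perm α) (((z : Equiv.Perm α) ^ i) a) = ((z : Equiv.Perm α) ^ i) a
    have := congrArg (fun f : Equiv.Perm α => f a) hcomm_i
    simp only [Equiv.Perm.mul_apply] at this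
    rw [this, ha]
  have hcop : Nat.Coprime (Nat.card (P : Subgroup G)) (Nat.card H) := by
    rw [hPcard]; exact (Nat.Prime.coprime_iff_not_dvd hp).mpr hpH
  have hcomp : Subgroup.IsComplement' (P : Subgroup G) H :=
    Subgroup.isComplement'_of_coprime (by rw [hPcard, mul_comm]; exact hHcard) hcop
  have hdecomp : ∀ g : G, ∃ y ∈ (P : Subgroup G), ∃ h ∈ H, g = y * h := by
    intro g
    obtain ⟨⟨y, h⟩, hyh, -⟩ := hcomp.existsUnique g
    exact ⟨y, y.2, h, h.2, hyh.symm⟩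
  have hPH : ∀ y ∈ (P : Subgroup G), y ∈ H → y = 1 := by
    intro y hy hyH
    have h1 : (P : Subgroup G) ⊓ H = ⊥ := (Subgroup.disjoint_of_coprime_natCard hcop).eq_bot
    have : y ∈ (P : Subgroup G) ⊓ H := ⟨hy, hyH⟩
    rw [h1] at this
    exact Subgroup.mem_bot.mp this
  obtain ⟨y₀, hy₀, u, hu, htyu⟩ := hdecomp (t : G)
  have hu_eq : u = y₀⁻¹ * (t : G) := by rw [htyu]; group
  have huu : u * u = 1 := by
    have h1 := hinvt y₀⁻¹ ((P : Subgroup G).inv_mem hy₀)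
    rw [inv_inv] at h1
    calc u * u = y₀⁻¹ * ((t : G) * y₀⁻¹ * (t : G)⁻¹) * ((t : G) * (t : G)) := by
          rw [hu_eq]; group
      _ = 1 := by rw [h1, htt]; group
  have hinvu : ∀ y ∈ (P : Subgroup G), u * y * u⁻¹ = y⁻¹ := by
    intro y hy
    have h1 := hinvt y hy
    calc u * y * u⁻¹ = y₀⁻¹ * ((t : G) * y * (t : G)⁻¹) * y₀ := by rw [hu_eq]; group
      _ = y₀⁻¹ * y⁻¹ * y₀ := by rw [h1]
      _ = y⁻¹ * y₀⁻¹ * y₀ := by
          rw [hPcomm _ ((P : Subgroup G).inv_mem hy₀) _ ((P : Subgroup G).inv_mem hy)]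
      _ = y⁻¹ := by group
  have hupow : ((u : G) : Equiv.Perm α) ^ 2 ^ 1 = 1 := by
    rw [pow_one, sq]
    have := congrArg (Subtype.val) huu
    simpa using this
  obtain ⟨a₀, ha₀⟩ := Equiv.Perm.exists_fixed_point_of_prime (p := 2) (n := 1)
    (by rw [hα]; exact hodd) hupow
  let Cx : Subgroup (Equiv.Perm α) := (P : Subgroup G).map G.subtype
  let U : Subgroup (Equiv.Perm α) := H.map G.subtype
  have hCG : Cx ≤ G := by
    rintro y ⟨g, -, rfl⟩; exact g.2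
  have htrans : ∀ a ω : α, ∃ y ∈ Cx, y a = ω := by
    intro a ω
    obtain ⟨i, hi⟩ := hcyc x hxP hx1 a ω
    exact ⟨(x : Equiv.Perm α) ^ i, ⟨x ^ i, (P : Subgroup G).pow_mem hxP i, by simp⟩, hi⟩
  have hcomm : ∀ y ∈ Cx, ∀ z ∈ Cx, y * z = z * y := by
    rintro y ⟨g, hg, rfl⟩ z ⟨g', hg', rfl⟩
    have := congrArg (Subtype.val) (hPcomm g hg g' hg')
    simpa using this
  have hpow : ∀ y ∈ Cx, y ^ p = 1 := by
    rintro y ⟨g, hg, rfl⟩
    have := congrArg (Subtype.val) (hPpow g hg)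
    simpa using this
  have hpow1 : ∀ y ∈ Cx, y ^ (p + 1) = y := by
    intro y hy; rw [pow_succ, hpow y hy, one_mul]
  have hsq : ∀ y ∈ Cx, ∀ z ∈ Cx, y ^ 2 = z ^ 2 → y = z := by
    intro y hy z hz h
    have h1 : (y ^ 2) ^ k = y := by rw [← pow_mul, h2k, hpow1 y hy]
    have h2 : (z ^ 2) ^ k = z := by rw [← pow_mul, h2k, hpow1 z hz]
    rw [← h1, ← h2, h]
  have hsqrt : ∀ y ∈ Cx, ∃ z ∈ Cx, z ^ 2 = y := by
    intro y hy
    refine ⟨y ^ k, Cx.pow_mem hy k, ?_⟩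
    rw [← pow_mul, mul_comm, h2k, hpow1 y hy]
  have hU1 : ∀ g ∈ G, ∃ y ∈ Cx, y⁻¹ * g ∈ U := by
    intro g hg
    obtain ⟨y, hy, h, hh, e⟩ := hdecomp ⟨g, hg⟩
    refine ⟨(y : Equiv.Perm α), ⟨y, hy, rfl⟩, ⟨h, hh, ?_⟩⟩
    have : h = y⁻¹ * ⟨g, hg⟩ := by rw [e]; group
    rw [this]; rfl
  have hU2 : ∀ y ∈ Cx, y ∈ U → y = 1 := by
    rintro y ⟨g, hg, rfl⟩ ⟨h, hh, e⟩
    have : h = g := Subtype.ext e
    rw [this] at hh
    rw [hPH g hg hh]; rfl
  let Δ : Set α := {ω | ∃ h ∈ U, h a₀ = ω}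
  have hΔU : ∀ k ∈ U, ∀ ω, ω ∈ Δ → k ω ∈ Δ := by
    rintro k hk ω ⟨h, hh, rfl⟩
    exact ⟨k * h, U.mul_mem hk hh, rfl⟩
  have huU : (u : Equiv.Perm α) ∈ U := ⟨u, hu, rfl⟩
  have hΔsym : ∀ y ∈ Cx, y a₀ ∈ Δ → y⁻¹ a₀ ∈ Δ := by
    rintro y ⟨g, hg, rfl⟩ hyΔ
    have h1 := hinvu g hg
    have h2 : (u : Equiv.Perm α) * (g : Equiv.Perm α) * (u : Equiv.Perm α)⁻¹
        = (g : Equiv.Perm α)⁻¹ := by
      have := congrArg (Subtype.val) h1
      simpa using this
    have h3 : (u : Equiv.Perm α)⁻¹ a₀ = a₀ := by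
      rw [Equiv.Perm.inv_eq_iff_eq]; exact ha₀.symm
    have h4 : (g : Equiv.Perm α)⁻¹ a₀ = (u : Equiv.Perm α) ((g : Equiv.Perm α) a₀) := by
      rw [← h2]; simp only [Equiv.Perm.mul_apply]; rw [h3]
    show (g : Equiv.Perm α)⁻¹ a₀ ∈ Δ
    rw [h4]; exact hΔU _ huU _ hyΔ
  have hF7 : ∀ y ∈ Cx, y ^ (2 ^ (p - 1)) = y := by
    intro y hy
    have h1 : 2 ^ (p - 1) ≡ 1 [MOD p] := by
      have hc : Nat.Coprime 2 p :=
        (Nat.coprime_primes Nat.prime_two hp).mpr (fun h => hp2 h.symm)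
      have := Nat.ModEq.pow_totient hc
      rwa [Nat.totient_prime hp] at this
    have h2 : p ∣ 2 ^ (p - 1) - 1 := (Nat.modEq_iff_dvd' (Nat.one_le_two_pow)).mp h1.symm
    obtain ⟨c, hc⟩ := h2
    have h3 : 2 ^ (p - 1) = p * c + 1 := by
      have := Nat.one_le_two_pow (n := p - 1); omega
    rw [h3, pow_succ, pow_mul, hpow y hy, one_pow, one_mul]
  have hiter := iter Cx U G hCG htrans hcomm hsq hsqrt hU1 hU2 a₀ Δ hΔU hΔsym (p - 2)
  have hpm : p - 2 + 1 = p - 1 := by omega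
  rw [hpm] at hiter
  have hΔG : ∀ g ∈ G, g a₀ = a₀ → ∀ ω ∈ Δ, g ω ∈ Δ := by
    intro g hg hga ω hω
    obtain ⟨r, hr, rfl⟩ := htrans a₀ ω
    obtain ⟨r', hr', hr'Δ, h⟩ := hiter g hg hga r hr hω
    rw [hF7 r hr, hF7 r' hr'] at h
    rw [h]; exact hr'Δ
  -- the setwise stabilizer of Δ
  let W : Subgroup G :=
    { carrier := {g | ∀ ω, ω ∈ Δ ↔ (g : Equiv.Perm α) ω ∈ Δ}
      one_mem' := fun ω => Iff.rfl
      mul_mem' := by
        intro g₁ g₂ h₁ h₂ ω
        rw [h₂ ω, h₁ ((g₂ : Equiv.Perm α) ω)]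
        rfl
      inv_mem' := by
        intro g hg ω
        rw [hg (((g⁻¹ : G) : Equiv.Perm α) ω)]
        have : (g : Equiv.Perm α) (((g⁻¹ : G) : Equiv.Perm α) ω) = ω := by
          simp
        rw [this] }
  have hHW : H ≤ W := by
    intro h hh ω
    have hhU : (h : Equiv.Perm α) ∈ U := ⟨h, hh, rfl⟩
    refine ⟨hΔU _ hhU ω, fun hω => ?_⟩
    have := hΔU _ (U.inv_mem hhU) _ hω
    simpa using this
  have hSW : MulAction.stabilizer G a₀ ≤ W := by
    intro g hg ω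
    have hga : (g : Equiv.Perm α) a₀ = a₀ := hg
    refine ⟨hΔG _ g.2 hga ω, fun hω => ?_⟩
    have hga' : (g : Equiv.Perm α)⁻¹ a₀ = a₀ := by
      rw [Equiv.Perm.inv_eq_iff_eq]; exact hga.symm
    have := hΔG _ (G.inv_mem g.2) hga' _ hω
    simpa using this
  have hidx := Subgroup.relIndex_mul_index hSW
  rw [hstabidx a₀] at hidx
  have hWdvd : W.index ∣ p := Dvd.intro_left _ hidx
  rcases (Nat.dvd_prime hp).mp hWdvd with hW1 | hWp
  · exfalso
    have hWtop : W = ⊤ := Subgroup.index_eq_one.mp hW1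
    have hΔuniv : ∀ ω : α, ω ∈ Δ := by
      intro ω
      obtain ⟨g, hg⟩ := MulAction.exists_smul_eq G a₀ ω
      have hgW : g ∈ W := by rw [hWtop]; trivial
      have ha₀Δ : a₀ ∈ Δ := ⟨1, U.one_mem, rfl⟩
      have := (hgW a₀).mp ha₀Δ
      rw [← hg]; exact this
    have : MulAction.IsPretransitive H α := by
      rw [MulAction.isPretransitive_iff_base a₀]
      intro ω
      obtain ⟨h, ⟨h', hh', rfl⟩, e⟩ := hΔuniv ω
      exact ⟨⟨h', hh'⟩, e⟩
    exact hpH (Cfsg.Agent.S1013.dvd_card_of_trans hα hp H)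
  · refine ⟨a₀, ?_⟩
    rw [hWp] at hidx
    have h1 : (MulAction.stabilizer G a₀).relIndex W = 1 := by
      have := hp.pos
      exact Nat.eq_of_mul_eq_mul_right this (by rw [hidx, one_mul])
    have h2 : W ≤ MulAction.stabilizer G a₀ := Subgroup.relIndex_eq_one.mp h1
    exact hHW.trans h2

end Cfsg.Agent.S0677
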