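import Cfsg.Statements.S0678
import Mathlib
import Cfsg.Agent.Helper29.Deg7.Core

set_option autoImplicit false
open Cfsg

namespace Cfsg.Agent.S0678

theorem result {α : Type*} [Fintype α] [DecidableEq α] (hα : Fintype.card α = 7) (G : Subgroup (Equiv.Perm α)) [MulAction.IsPretransitive G α] (hG : ¬ Group.IsSolvable G) (hA : ¬ alternatingGroup α ≤ G) : Nat.card G = 168 ∧ IsSimpleGroup G := by
  classical
  have : Fact (Nat.Prime 7) := ⟨by norm_num⟩
  have h7 : 7 ∣ Nat.card G := Cfsg.Agent.S1013.dvd_card_of_trans hα (by norm_num) G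
  obtain ⟨x, hx⟩ := exists_prime_orderOf_dvd_card' 7 h7
  let e0 : α ≃ Fin 7 := Fintype.equivFinOfCardEq hα
  let φ0 : Equiv.Perm α ≃* Equiv.Perm (Fin 7) := e0.permCongrHom
  have hyo : orderOf (φ0 x.1) = 7 := by
    rw [MulEquiv.orderOf_eq φ0, Subgroup.orderOf_coe]; exact hx
  have hct : (φ0 x.1).cycleType = {7} := by
    obtain ⟨n, hn⟩ := Equiv.Perm.cycleType_prime_order (σ := φ0 x.1) (by rw [hyo]; norm_num)
    rw [hyo] at hn
    have hsum := Equiv.Perm.sum_cycleType (φ0 x.1)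
    rw [hn, Multiset.sum_replicate, smul_eq_mul] at hsum
    have hle : (φ0 x.1).support.card ≤ 7 := by
      have := Finset.card_le_univ (φ0 x.1).support
      simpa using this
    have hn0 : n = 0 := by nlinarith
    rw [hn, hn0]; rfl
  have hconj : IsConj (φ0 x.1) (finRotate 7) := by
    rw [Equiv.Perm.isConj_iff_cycleType_eq, hct, cycleType_finRotate]
  obtain ⟨τ, hτ⟩ := isConj_iff.mp hconj
  let ψ : Equiv.Perm α ≃* Equiv.Perm (Fin 7) := φ0.trans (MulAut.conj τ)
  have hψ : ∀ g, ψ g = τ * e0.permCongr g * τ⁻¹ := fun g => rfl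
  let G2 : Subgroup (Equiv.Perm (Fin 7)) := G.map ψ.toMonoidHom
  have hc : finRotate 7 ∈ G2 := ⟨x.1, x.2, hτ⟩
  let eG : G ≃* G2 := G.equivMapOfInjective ψ.toMonoidHom ψ.injective
  have hS2 : ¬ Group.IsSolvable G2 := fun hs =>
    hG (Group.isSolvable_of_isSolvable_injective (f := eG.toMonoidHom) eG.injective)
  have hA2 : ¬ alternatingGroup (Fin 7) ≤ G2 := by
    intro hle
    apply hA
    intro g hg
    have hsign : Equiv.Perm.sign (ψ g) = 1 := by
      rw [hψ, Equiv.Perm.sign_mul, Equiv.Perm.sign_mul, Equiv.Perm.sign_inv,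
        Equiv.Perm.sign_permCongr, Equiv.Perm.mem_alternatingGroup.mp hg]
      simp
    have hmem : ψ g ∈ G2 := hle (Equiv.Perm.mem_alternatingGroup.mpr hsign)
    obtain ⟨g', hg', he⟩ := hmem
    have : g' = g := ψ.injective he
    rw [← this]; exact hg'
  obtain ⟨hcard, hsimp⟩ := Cfsg.Agent.Helper29.Deg7.core G2 hc hS2 hA2
  exact ⟨by rw [Nat.card_congr eG.toEquiv, hcard], eG.isSimpleGroup⟩

end Cfsg.Agent.S0678
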