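import Cfsg.Statements.S0680
import Mathlib

set_option autoImplicit false
open Cfsg

namespace Cfsg.Agent.S0680

section sharp

set_option linter.unusedSectionVars false
set_option linter.style.haveILetI false

variable {G : Type*} [Group G] {α : Type*} [MulAction G α]

/-- trivial or fixed-point-free -/
def InN (α : Type*) [MulAction G α] (g : G) : Prop := g = 1 ∨ ∀ a : α, g • a ≠ a

theorem inN_inv {x : G} (hx : InN α x) : InN α x⁻¹ := by
  rcases hx with h | h
  · left; rw [h, inv_one]
  · right
    intro a ha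
    apply h a
    rw [inv_smul_eq_iff] at ha
    exact ha.symm

theorem inN_conj {x : G} (hx : InN α x) (g : G) : InN α (g * x * g⁻¹) := by
  rcases hx with h | h
  · left; rw [h]; group
  · right
    intro a ha
    apply h (g⁻¹ • a)
    rw [mul_smul, mul_smul] at ha
    exact eq_inv_smul_iff.mpr ha

theorem agree (h1 : ∀ g : G, ∀ a b : α, a ≠ b → g • a = a → g • b = b → g = 1)
    (g g' : G) (a b : α) (hab : a ≠ b) (ha : g • a = g' • a) (hb : g • b = g' • b) : g = g' := by
  have h := h1 (g⁻¹ * g') a b hab (by rw [mul_smul, ← ha, inv_smul_smul])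
    (by rw [mul_smul, ← hb, inv_smul_smul])
  exact inv_mul_eq_one.mp h

theorem swap_exists (h0 : ∀ a b c d : α, a ≠ b → c ≠ d → ∃ g : G, g • a = c ∧ g • b = d)
    (h1 : ∀ g : G, ∀ a b : α, a ≠ b → g • a = a → g • b = b → g = 1)
    {a b : α} (hab : a ≠ b) : ∃ t : G, t • a = b ∧ t • b = a ∧ t * t = 1 ∧ t ≠ 1 := by
  obtain ⟨t, hta, htb⟩ := h0 a b b a hab hab.symm
  refine ⟨t, hta, htb, ?_, ?_⟩
  · exact h1 (t * t) a b hab (by rw [mul_smul, hta, htb]) (by rw [mul_smul, htb, hta])
  · intro h
    rw [h, one_smul] at hta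
    exact hab hta

theorem L1 (h1 : ∀ g : G, ∀ a b : α, a ≠ b → g • a = a → g • b = b → g = 1)
    {s t : G} (hs : s * s = 1) (ht : t * t = 1) {c : α} (h : (s * t) • c = c) :
    (s • c = c ∧ t • c = c) ∨ s = t := by
  obtain ⟨d, hd⟩ : ∃ d, d = t • c := ⟨_, rfl⟩
  have hsd : s • d = c := by rw [hd, ← mul_smul]; exact h
  have hsc : s • c = d := by
    have h2 : s • (s • d) = d := by rw [← mul_smul, hs, one_smul]
    rw [hsd] at h2
    exact h2
  have htd : t • d = c := by
    have h2 : t • (t • c) = c := by rw [← mul_smul, ht, one_smul]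
    rw [← hd] at h2
    exact h2
  by_cases hdc : d = c
  · left
    exact ⟨by rw [hsc, hdc], by rw [← hd, hdc]⟩
  · right
    exact agree h1 s t c d (Ne.symm hdc) (by rw [hsc, ← hd]) (by rw [hsd, htd])

theorem trans_of [Fintype α]
    (h0 : ∀ a b c d : α, a ≠ b → c ≠ d → ∃ g : G, g • a = c ∧ g • b = d)
    (hn : 2 ≤ Fintype.card α) (a b : α) : ∃ g : G, g • a = b := by
  obtain ⟨a', ha'⟩ := Fintype.exists_ne_of_one_lt_card (by omega) a
  obtain ⟨b', hb'⟩ := Fintype.exists_ne_of_one_lt_card (by omega) b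
  obtain ⟨g, hg, _⟩ := h0 a a' b b' (Ne.symm ha') (Ne.symm hb')
  exact ⟨g, hg⟩

theorem count [Finite G] [Fintype α]
    (h1 : ∀ g : G, ∀ a b : α, a ≠ b → g • a = a → g • b = b → g = 1)
    (htrans : ∀ a b : α, ∃ g : G, g • a = b) (hn : 2 ≤ Fintype.card α) :
    Nat.card {g : G // InN α g} = Fintype.card α := by
  classical
  haveI : Fintype G := Fintype.ofFinite G
  have hB := MulAction.sum_card_fixedBy_eq_card_orbits_mul_card_group G α
  obtain ⟨a₀⟩ : Nonempty α := Fintype.card_pos_iff.mp (by omega)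
  have hΩ : Fintype.card (Quotient (MulAction.orbitRel G α)) = 1 := by
    rw [Fintype.card_eq_one_iff]
    refine ⟨Quotient.mk'' a₀, fun y => ?_⟩
    induction y using Quotient.inductionOn' with
    | h b =>
      apply Quotient.sound'
      exact htrans a₀ b
  rw [hΩ, one_mul] at hB
  have hterm : ∀ g : G, Fintype.card (MulAction.fixedBy α g) + (if InN α g then 1 else 0) =
      1 + (if g = 1 then Fintype.card α else 0) := by
    intro g
    by_cases hg1 : g = 1
    · subst hg1
      have e1 : Fintype.card (MulAction.fixedBy α (1 : G)) = Fintype.card α := by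
        apply Fintype.card_congr
        exact Equiv.subtypeUnivEquiv (p := fun a => a ∈ MulAction.fixedBy α (1 : G))
          (fun a => by simp)
      have hin : InN α (1 : G) := Or.inl rfl
      rw [e1, if_pos hin, if_pos (rfl : (1 : G) = 1)]
      omega
    · by_cases hfix : ∃ a : α, g • a = a
      · obtain ⟨a, ha⟩ := hfix
        have hc : Fintype.card (MulAction.fixedBy α g) = 1 := by
          rw [Fintype.card_eq_one_iff]
          refine ⟨⟨a, ha⟩, fun ⟨b, hb⟩ => ?_⟩
          by_contra hne
          have hab : a ≠ b := fun h => hne (Subtype.ext h.symm)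
          exact hg1 (h1 g a b hab ha hb)
        have hnot : ¬ InN α g := by
          rintro (h | h)
          · exact hg1 h
          · exact h a ha
        rw [hc, if_neg hnot, if_neg hg1]
      · push Not at hfix
        have hc : Fintype.card (MulAction.fixedBy α g) = 0 := by
          rw [Fintype.card_eq_zero_iff]
          exact ⟨fun ⟨b, hb⟩ => hfix b hb⟩
        have hin : InN α g := Or.inr hfix
        rw [hc, if_pos hin, if_neg hg1]
  have hsum : ∑ g : G, (Fintype.card (MulAction.fixedBy α g) + (if InN α g then 1 else 0)) =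
      ∑ g : G, (1 + (if g = 1 then Fintype.card α else 0)) :=
    Finset.sum_congr rfl (fun g _ => hterm g)
  rw [Finset.sum_add_distrib, Finset.sum_add_distrib, hB, ← Finset.card_filter,
    Finset.sum_const, Finset.card_univ, smul_eq_mul, mul_one,
    Finset.sum_ite_eq' Finset.univ (1 : G) (fun _ => Fintype.card α),
    if_pos (Finset.mem_univ _)] at hsum
  have hfilter := Nat.add_left_cancel hsum
  rw [Nat.card_eq_fintype_card, Fintype.card_subtype]
  exact hfilter

theorem surj [Finite G] [Fintype α]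
    (h1 : ∀ g : G, ∀ a b : α, a ≠ b → g • a = a → g • b = b → g = 1)
    (htrans : ∀ a b : α, ∃ g : G, g • a = b) (hn : 2 ≤ Fintype.card α)
    (φ : α → G) (hφ : Function.Injective φ) (hφN : ∀ b, InN α (φ b)) (g : G)
    (hg : InN α g) : ∃ b, φ b = g := by
  have hc := count h1 htrans hn
  let ψ : α → {g : G // InN α g} := fun b => ⟨φ b, hφN b⟩
  have hψ : Function.Injective ψ := fun b b' h => hφ (congrArg Subtype.val h)
  have hbij := hψ.bijective_of_nat_card_le (le_of_eq (by rw [hc, Nat.card_eq_fintype_card]))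
  obtain ⟨b, hb⟩ := hbij.2 ⟨g, hg⟩
  exact ⟨b, congrArg Subtype.val hb⟩

theorem mul_closed [Finite G] [Fintype α]
    (h0 : ∀ a b c d : α, a ≠ b → c ≠ d → ∃ g : G, g • a = c ∧ g • b = d)
    (h1 : ∀ g : G, ∀ a b : α, a ≠ b → g • a = a → g • b = b → g = 1)
    (hn : 2 ≤ Fintype.card α) : ∀ x y : G, InN α x → InN α y → InN α (x * y) := by
  classical
  have htrans := trans_of h0 hn
  obtain ⟨a⟩ : Nonempty α := Fintype.card_pos_iff.mp (by omega)
  by_cases hE : ∀ t : G, t * t = 1 → t ≠ 1 → ∀ c : α, t • c ≠ c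
  · -- involutions are fixed-point-free
    have hex : ∀ b : α, ∃ t : G, t • a = b ∧ t * t = 1 ∧ InN α t := by
      intro b
      by_cases hb : b = a
      · exact ⟨1, by rw [one_smul, hb], by simp, Or.inl rfl⟩
      · obtain ⟨t, hta, htb, htt, ht1⟩ := swap_exists h0 h1 (Ne.symm hb)
        exact ⟨t, hta, htt, Or.inr (hE t htt ht1)⟩
    choose φ hφa hφ2 hφN using hex
    have hφinj : Function.Injective φ := by
      intro b b' h
      rw [← hφa b, ← hφa b', h]
    have hsq : ∀ x : G, InN α x → x * x = 1 := by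
      intro x hx
      obtain ⟨b, rfl⟩ := surj h1 htrans hn φ hφinj hφN x hx
      exact hφ2 b
    intro x y hx hy
    by_cases hfix : ∃ c : α, (x * y) • c = c
    · obtain ⟨c, hc⟩ := hfix
      rcases L1 h1 (hsq x hx) (hsq y hy) hc with ⟨hxc, hyc⟩ | hxy
      · have hx1 : x = 1 := by
          rcases hx with h | h
          · exact h
          · exact absurd hxc (h c)
        have hy1 : y = 1 := by
          rcases hy with h | h
          · exact h
          · exact absurd hyc (h c)
        left; rw [hx1, hy1, one_mul]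
      · left; rw [hxy]; exact hsq y hy
    · right
      push Not at hfix
      exact hfix
  · -- some involution has a fixed point
    push Not at hE
    obtain ⟨t₀, ht₀2, ht₀1, c₀, hc₀⟩ := hE
    have hex : ∀ b : α, ∃ u : G, u * u = 1 ∧ u ≠ 1 ∧ u • b = b := by
      intro b
      obtain ⟨g, hg⟩ := htrans c₀ b
      refine ⟨g * t₀ * g⁻¹, ?_, ?_, ?_⟩
      · calc g * t₀ * g⁻¹ * (g * t₀ * g⁻¹) = g * (t₀ * t₀) * g⁻¹ := by group
          _ = 1 := by rw [ht₀2]; group
      · intro h
        apply ht₀1
        have h3 : t₀ = g⁻¹ * (g * t₀ * g⁻¹) * g := by group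
        rw [h3, h]; group
      · rw [mul_smul, mul_smul, ← hg, inv_smul_smul, hc₀]
    choose u hu2 hu1 hua using hex
    have hO3 : ∀ s t : G, s * s = 1 → s ≠ 1 → t * t = 1 → t ≠ 1 → ∀ b c : α, b ≠ c →
        s • b = b → t • c = c → ∀ d : α, (s * t) • d ≠ d := by
      intro s t hs hs1 ht ht1 b c hbc hsb htc d hd
      rcases L1 h1 hs ht hd with ⟨hsd, htd⟩ | hst
      · have hdb : d = b := by
          by_contra hne
          exact hs1 (h1 s d b hne hsd hsb)
        have hdc : d = c := by
          by_contra hne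
          exact ht1 (h1 t d c hne htd htc)
        exact hbc (hdb.symm.trans hdc)
      · rw [← hst] at htc
        exact hs1 (h1 s b c hbc hsb htc)
    have hO4 : ∀ (b : α) (x : G), InN α x → ∃ c : α, x = u b * u c := by
      intro b x hx
      let φ : α → G := fun c => if c = b then 1 else u b * u c
      have hφN : ∀ c, InN α (φ c) := by
        intro c
        by_cases hc : c = b
        · left; simp [φ, hc]
        · right
          simp only [φ, if_neg hc]
          exact hO3 (u b) (u c) (hu2 b) (hu1 b) (hu2 c) (hu1 c) b c (Ne.symm hc) (hua b) (hua c)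
      have hφinj : Function.Injective φ := by
        intro c c' h
        by_cases hc : c = b
        · by_cases hc' : c' = b
          · rw [hc, hc']
          · exfalso
            simp only [φ, if_pos hc, if_neg hc'] at h
            have h5 := hO3 (u b) (u c') (hu2 b) (hu1 b) (hu2 c') (hu1 c') b c' (Ne.symm hc')
              (hua b) (hua c') b
            rw [← h, one_smul] at h5
            exact h5 rfl
        · by_cases hc' : c' = b
          · exfalso
            simp only [φ, if_neg hc, if_pos hc'] at h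
            have h5 := hO3 (u b) (u c) (hu2 b) (hu1 b) (hu2 c) (hu1 c) b c (Ne.symm hc)
              (hua b) (hua c) b
            rw [h, one_smul] at h5
            exact h5 rfl
          · simp only [φ, if_neg hc, if_neg hc'] at h
            have huu : u c = u c' := mul_left_cancel h
            by_contra hne
            have h3 : u c • c' = c' := by rw [huu]; exact hua c'
            exact hu1 c (h1 (u c) c c' hne (hua c) h3)
      obtain ⟨c, hc⟩ := surj h1 htrans hn φ hφinj hφN x hx
      by_cases hcb : c = b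
      · refine ⟨b, ?_⟩
        rw [← hc, hu2 b]
        simp [φ, hcb]
      · refine ⟨c, ?_⟩
        rw [← hc]
        simp [φ, hcb]
    intro x y hx hy
    obtain ⟨b, rfl⟩ := hO4 a x hx
    obtain ⟨c, rfl⟩ := hO4 b y hy
    have hprod : u a * u b * (u b * u c) = u a * u c := by
      calc u a * u b * (u b * u c) = u a * (u b * u b) * u c := by group
        _ = u a * u c := by rw [hu2 b, mul_one]
    rw [hprod]
    by_cases hac : a = c
    · left; rw [hac, hu2 c]
    · right
      exact hO3 (u a) (u c) (hu2 a) (hu1 a) (hu2 c) (hu1 c) a c hac (hua a) (hua c)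

theorem endgame [Finite G] [Fintype α]
    (h0 : ∀ a b c d : α, a ≠ b → c ≠ d → ∃ g : G, g • a = c ∧ g • b = d)
    (h1 : ∀ g : G, ∀ a b : α, a ≠ b → g • a = a → g • b = b → g = 1)
    (hn : 2 ≤ Fintype.card α) :
    ∃ p j : ℕ, p.Prime ∧ 1 ≤ j ∧ Fintype.card α = p ^ j ∧ ∀ (hp : Fact p.Prime) (P : Sylow p G),
      (P : Subgroup G).Normal ∧ IsMulCommutative (P : Subgroup G) ∧
      (∀ x ∈ (P : Subgroup G), x ^ p = 1) ∧ MulAction.IsPretransitive (P : Subgroup G) α ∧
      (∀ a : α, MulAction.stabilizer (P : Subgroup G) a = ⊥) ∧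
      ∀ g : G, g ∈ (P : Subgroup G) ↔ g = 1 ∨ ∀ a : α, g • a ≠ a := by
  classical
  have htrans := trans_of h0 hn
  have hmul := mul_closed h0 h1 hn
  obtain ⟨a₀⟩ : Nonempty α := Fintype.card_pos_iff.mp (by omega)
  let N : Subgroup G :=
    { carrier := {g | InN α g}
      mul_mem' := fun {x y} hx hy => hmul x y hx hy
      one_mem' := Or.inl rfl
      inv_mem' := fun {x} hx => inN_inv hx }
  have hcardN : Nat.card N = Fintype.card α := count h1 htrans hn
  haveI hNnormal : N.Normal := ⟨fun x hx g => inN_conj hx g⟩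
  have hfree : ∀ x ∈ N, ∀ a : α, x • a = a → x = 1 := by
    intro x hx a ha
    rcases hx with h | h
    · exact h
    · exact absurd ha (h a)
  have hinj : ∀ a : α, Function.Injective (fun x : N => (x : G) • a) := by
    intro a x y hxy
    have hxy' : (x : G) • a = (y : G) • a := hxy
    have h3 : (x : G)⁻¹ * (y : G) = 1 :=
      hfree _ (N.mul_mem (N.inv_mem x.2) y.2) a (by rw [mul_smul, ← hxy', inv_smul_smul])
    exact Subtype.ext (inv_mul_eq_one.mp h3)
  have hsurj : ∀ a b : α, ∃ x ∈ N, x • a = b := by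
    intro a b
    have hbij := (hinj a).bijective_of_nat_card_le
      (le_of_eq (by rw [hcardN, Nat.card_eq_fintype_card]))
    obtain ⟨x, hx⟩ := hbij.2 b
    exact ⟨x, x.2, hx⟩
  have hconj : ∀ x ∈ N, ∀ y ∈ N, x ≠ 1 → y ≠ 1 → ∃ g : G, g * x * g⁻¹ = y := by
    intro x hx y hy hx1 hy1
    have hxa : x • a₀ ≠ a₀ := fun h => hx1 (hfree x hx a₀ h)
    have hya : y • a₀ ≠ a₀ := fun h => hy1 (hfree y hy a₀ h)
    obtain ⟨g, hga, hgx⟩ := h0 a₀ (x • a₀) a₀ (y • a₀) (Ne.symm hxa) (Ne.symm hya)
    refine ⟨g, ?_⟩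
    have hmem : g * x * g⁻¹ ∈ N := hNnormal.conj_mem x hx g
    have h3 : (g * x * g⁻¹) • a₀ = y • a₀ := by
      have h4 : g⁻¹ • a₀ = a₀ := by rw [inv_smul_eq_iff, hga]
      rw [mul_smul, mul_smul, h4, hgx]
    have h5 : (g * x * g⁻¹)⁻¹ * y = 1 :=
      hfree _ (N.mul_mem (N.inv_mem hmem) hy) a₀ (by rw [mul_smul, ← h3, inv_smul_smul])
    exact inv_mul_eq_one.mp h5
  obtain ⟨p, hp, hpd⟩ := Nat.exists_prime_and_dvd (show Fintype.card α ≠ 1 by omega)
  haveI : Fact p.Prime := ⟨hp⟩
  obtain ⟨x₀, hx₀⟩ := exists_prime_orderOf_dvd_card' (G := N) p (by rw [hcardN]; exact hpd)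
  have hx₀1 : (x₀ : G) ≠ 1 := by
    intro h
    have h3 : x₀ = 1 := Subtype.ext h
    rw [h3, orderOf_one] at hx₀
    exact hp.one_lt.ne hx₀
  have hx₀p : (x₀ : G) ^ p = 1 := by
    have h3 := pow_orderOf_eq_one x₀
    rw [hx₀] at h3
    exact congrArg Subtype.val h3
  have hexp : ∀ x ∈ N, x ^ p = 1 := by
    intro x hx
    by_cases hx1 : x = 1
    · rw [hx1, one_pow]
    · obtain ⟨g, hg⟩ := hconj x₀ x₀.2 x hx hx₀1 hx1
      rw [← hg, conj_pow, hx₀p, mul_one, mul_inv_cancel]
  have hPG : IsPGroup p N := by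
    intro x
    refine ⟨1, ?_⟩
    rw [pow_one]
    exact Subtype.ext (hexp x x.2)
  obtain ⟨j, hj⟩ := (IsPGroup.iff_card (p := p) (G := N)).mp hPG
  have hcard : Fintype.card α = p ^ j := by rw [← hcardN, hj]
  have hj1 : 1 ≤ j := by
    by_contra h
    have hj0 : j = 0 := by omega
    rw [hj0, pow_zero] at hcard
    omega
  refine ⟨p, j, hp, hj1, hcard, ?_⟩
  intro hp' P
  have hcomm : ∀ x ∈ N, ∀ y ∈ N, x * y = y * x := by
    haveI : Nontrivial N := by
      apply (Finite.one_lt_card_iff_nontrivial).mp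
      rw [hcardN]; omega
    haveI := hPG.center_nontrivial
    obtain ⟨z, hz⟩ := exists_ne (1 : Subgroup.center N)
    have hzN : ((z : N) : G) ∈ N := (z : N).2
    have hz1 : ((z : N) : G) ≠ 1 := by
      intro h
      apply hz
      exact Subtype.ext (Subtype.ext h)
    have hzcomm : ∀ y ∈ N, y * ((z : N) : G) = ((z : N) : G) * y := by
      intro y hy
      have h3 := Subgroup.mem_center_iff.mp z.2 ⟨y, hy⟩
      exact congrArg Subtype.val h3
    intro x hx y hy
    by_cases hx1 : x = 1
    · rw [hx1, one_mul, mul_one]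
    · obtain ⟨g, hg⟩ := hconj _ hzN x hx hz1 hx1
      have hy' : g⁻¹ * y * g ∈ N := by simpa using hNnormal.conj_mem y hy g⁻¹
      have hc := hzcomm (g⁻¹ * y * g) hy'
      calc x * y = g * ((z : N) : G) * g⁻¹ * y := by rw [hg]
        _ = g * (((z : N) : G) * (g⁻¹ * y * g)) * g⁻¹ := by group
        _ = g * ((g⁻¹ * y * g) * ((z : N) : G)) * g⁻¹ := by rw [hc]
        _ = y * (g * ((z : N) : G) * g⁻¹) := by group
        _ = y * x := by rw [hg]
  have hPN : (P : Subgroup G) = N := by
    apply le_antisymm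
    · intro g hg
      by_contra hgN
      have hg1 : g ≠ 1 := fun h => hgN (Or.inl h)
      have hfix : ∃ a : α, g • a = a := by
        by_contra h
        push Not at h
        exact hgN (Or.inr h)
      obtain ⟨a, ha⟩ := hfix
      have hZ : IsPGroup p (Subgroup.zpowers g) :=
        P.isPGroup'.to_le (by rw [Subgroup.zpowers_le]; exact hg)
      have hmod := hZ.card_modEq_card_fixedPoints α
      have hfp : Nat.card (MulAction.fixedPoints (Subgroup.zpowers g) α) = 1 := by
        rw [Nat.card_eq_one_iff_unique]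
        constructor
        · constructor
          rintro ⟨b, hb⟩ ⟨c, hc⟩
          apply Subtype.ext
          by_contra hbc
          have hgb : g • b = b := hb ⟨g, Subgroup.mem_zpowers g⟩
          have hgc : g • c = c := hc ⟨g, Subgroup.mem_zpowers g⟩
          exact hg1 (h1 g b c hbc hgb hgc)
        · refine ⟨⟨a, ?_⟩⟩
          rintro ⟨x, hx⟩
          obtain ⟨k, rfl⟩ := Subgroup.mem_zpowers_iff.mp hx
          have hs : g ∈ MulAction.stabilizer G a := ha
          exact (MulAction.stabilizer G a).zpow_mem hs k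
      rw [hfp, Nat.card_eq_fintype_card, hcard] at hmod
      have h5 : p ∣ p ^ j := dvd_pow_self p (by omega)
      have h6 : p ∣ 1 := (Nat.ModEq.dvd_iff hmod (dvd_refl p)).mp h5
      exact hp.one_lt.ne' (Nat.dvd_one.mp h6)
    · exact hPG.le_sylow_of_normal P
  rw [hPN]
  refine ⟨hNnormal, ⟨⟨fun x y => Subtype.ext (hcomm x x.2 y y.2)⟩⟩, hexp, ?_, ?_, fun g => Iff.rfl⟩
  · exact ⟨fun a b => by
      obtain ⟨x, hx, hxb⟩ := hsurj a b
      exact ⟨⟨x, hx⟩, hxb⟩⟩
  · intro a
    rw [eq_bot_iff]
    intro x hx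
    rw [Subgroup.mem_bot]
    exact Subtype.ext (hfree x x.2 a hx)

end sharp

/-- A finite sharply doubly transitive permutation group has degree a prime power `p ^ j`; a Sylow `p`-subgroup is normal, elementary abelian and regular, and consists of the identity together with the elements without fixed points. (Frobenius' Theorem is not needed.) -/
theorem result {α : Type*} [Fintype α] [DecidableEq α] (G : Subgroup (Equiv.Perm α)) [MulAction.IsMultiplyPretransitive G α 2] (hsharp : ∀ x : Fin 2 ↪ α, MulAction.stabilizer G x = ⊥) (h2 : 2 ≤ Fintype.card α) : ∃ p j : ℕ, p.Prime ∧ 1 ≤ j ∧ Fintype.card α = p ^ j ∧ ∀ (hp : Fact p.Prime) (P : Sylow p G), (P : Subgroup G).Normal ∧ IsMulCommutative (P : Subgroup G) ∧ (∀ x ∈ (P : Subgroup G), x ^ p = 1) ∧ MulAction.IsPretransitive (P : Subgroup G) α ∧ (∀ a : α, MulAction.stabilizer (P : Subgroup G) a = ⊥) ∧ ∀ g : G, g ∈ (P : Subgroup G) ↔ g = 1 ∨ ∀ a : α, g • a ≠ a := by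
  have h2t : MulAction.IsMultiplyPretransitive G α 2 := inferInstance
  rw [MulAction.is_two_pretransitive_iff] at h2t
  have h0 : ∀ a b c d : α, a ≠ b → c ≠ d → ∃ g : G, g • a = c ∧ g • b = d :=
    fun a b c d hab hcd => h2t hab hcd
  have h1 : ∀ g : G, ∀ a b : α, a ≠ b → g • a = a → g • b = b → g = 1 := by
    intro g a b hab ha hb
    have hmem : g ∈ MulAction.stabilizer G (Function.Embedding.embFinTwo hab) := by
      rw [MulAction.mem_stabilizer_iff]
      ext i
      fin_cases i
      · exact ha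
      · exact hb
    rw [hsharp] at hmem
    exact Subgroup.mem_bot.mp hmem
  exact endgame h0 h1 h2

end Cfsg.Agent.S0680
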