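import Mathlib
import Cfsg.Statements.S0681

set_option autoImplicit false
open Cfsg

namespace Cfsg.Agent.S0681

section
variable {F : Type*} [Cfsg.NearField F]

lemma nf_zero_mul (a : F) : 0 * a = 0 := by
  have h := Cfsg.NearField.right_distrib (0 : F) 0 a
  rw [add_zero] at h
  exact left_eq_add.mp h

lemma nf_neg_mul (b a : F) : (-b) * a = -(b * a) := by
  have h := Cfsg.NearField.right_distrib (-b) b a
  rw [neg_add_cancel, nf_zero_mul] at h
  exact eq_neg_of_add_eq_zero_left h.symm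

lemma nf_sub_mul (x y a : F) : (x - y) * a = x * a - y * a := by
  rw [sub_eq_add_neg, Cfsg.NearField.right_distrib, nf_neg_mul, ← sub_eq_add_neg]

lemma nf_mul_ne_zero {a c : F} (ha : a ≠ 0) (hc : c ≠ 0) : a * c ≠ 0 := by
  intro h
  obtain ⟨c', hc1, -⟩ := Cfsg.NearField.exists_inv c hc
  apply ha
  calc a = a * (c * c') := by rw [hc1, mul_one]
    _ = (a * c) * c' := by rw [mul_assoc]
    _ = 0 := by rw [h, nf_zero_mul]

lemma nf_inv_ne_zero {a a' : F} (h : a * a' = 1) : a' ≠ 0 := by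
  rintro rfl
  rw [Cfsg.NearField.mul_zero] at h
  exact Cfsg.NearField.zero_ne_one h

/-- The affine map `x ↦ x * a + b` as a permutation. -/
def aff (a a' b : F) (h1 : a * a' = 1) (h2 : a' * a = 1) : Equiv.Perm F where
  toFun x := x * a + b
  invFun y := (y - b) * a'
  left_inv x := by
    change (x * a + b - b) * a' = x
    rw [add_sub_cancel_right, mul_assoc, h1, mul_one]
  right_inv y := by
    change (y - b) * a' * a + b = y
    rw [mul_assoc, h2, mul_one, sub_add_cancel]

/-- The set of affine maps is a subgroup. -/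
def affSubgroup (F : Type*) [Cfsg.NearField F] : Subgroup (Equiv.Perm F) where
  carrier := {σ | ∃ a b : F, a ≠ 0 ∧ ∀ x : F, σ x = x * a + b}
  one_mem' := ⟨1, 0, fun h => Cfsg.NearField.zero_ne_one h.symm, fun x => by simp⟩
  mul_mem' := by
    rintro σ τ ⟨a, b, ha, hσ⟩ ⟨c, d, hc, hτ⟩
    refine ⟨c * a, d * a + b, nf_mul_ne_zero hc ha, fun x => ?_⟩
    rw [Equiv.Perm.mul_apply, hτ, hσ, Cfsg.NearField.right_distrib, mul_assoc, add_assoc]
  inv_mem' := by
    rintro σ ⟨a, b, ha, hσ⟩
    obtain ⟨a', h1, h2⟩ := Cfsg.NearField.exists_inv a ha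
    refine ⟨a', (-b) * a', nf_inv_ne_zero h1, fun y => ?_⟩
    rw [Equiv.Perm.inv_def, Equiv.symm_apply_eq, hσ, Cfsg.NearField.right_distrib, mul_assoc,
      mul_assoc, h2, mul_one, mul_one, add_assoc, neg_add_cancel, add_zero]

end

/-- The affine maps `x ↦ x * a + b`, `a ≠ 0`, of a near-field form a sharply doubly transitive permutation group. -/
theorem result {F : Type*} [Cfsg.NearField F] : ∃ H : Subgroup (Equiv.Perm F), (∀ σ : Equiv.Perm F, σ ∈ H ↔ ∃ a b : F, a ≠ 0 ∧ ∀ x : F, σ x = x * a + b) ∧ MulAction.IsMultiplyPretransitive H F 2 ∧ ∀ x : Fin 2 ↪ F, MulAction.stabilizer H x = ⊥ := by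
  refine ⟨affSubgroup F, fun σ => Iff.rfl, ?_, ?_⟩
  · rw [MulAction.is_two_pretransitive_iff]
    intro x1 x2 y1 y2 hx hy
    have hu : x1 - x2 ≠ 0 := sub_ne_zero.mpr hx
    have hw : y1 - y2 ≠ 0 := sub_ne_zero.mpr hy
    obtain ⟨u', hu1, hu2⟩ := Cfsg.NearField.exists_inv (x1 - x2) hu
    set a := u' * (y1 - y2) with ha
    have ha0 : a ≠ 0 := nf_mul_ne_zero (nf_inv_ne_zero hu1) hw
    obtain ⟨a', h1, h2⟩ := Cfsg.NearField.exists_inv a ha0
    have hkey : (x1 - x2) * a = y1 - y2 := by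
      rw [ha, ← mul_assoc, hu1, one_mul]
    have hkey' : x1 * a - x2 * a = y1 - y2 := by rw [← nf_sub_mul]; exact hkey
    set b := -(x1 * a) + y1 with hb
    have hmem : aff a a' b h1 h2 ∈ affSubgroup F := ⟨a, b, ha0, fun x => rfl⟩
    refine ⟨⟨aff a a' b h1 h2, hmem⟩, ?_, ?_⟩
    · change x1 * a + b = y1
      rw [hb, ← add_assoc, add_neg_cancel, zero_add]
    · change x2 * a + b = y2
      rw [hb, ← add_assoc, ← sub_eq_add_neg]
      have h3 : x2 * a - x1 * a = y2 - y1 := by
        rw [← neg_sub (x1 * a) (x2 * a), hkey', neg_sub]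
      rw [h3, sub_add_cancel]
  · intro x
    rw [Subgroup.eq_bot_iff_forall]
    rintro ⟨σ, a, b, ha, hσ⟩ hstab
    rw [MulAction.mem_stabilizer_iff] at hstab
    have h0 : σ (x 0) = x 0 := by
      have := congrArg (fun f : Fin 2 ↪ F => f 0) hstab
      exact this
    have h1 : σ (x 1) = x 1 := by
      have := congrArg (fun f : Fin 2 ↪ F => f 1) hstab
      exact this
    rw [hσ] at h0 h1
    have hne : x 0 ≠ x 1 := fun h => by
      have := x.injective h
      exact absurd this (by decide)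
    have hu : x 0 - x 1 ≠ 0 := sub_ne_zero.mpr hne
    obtain ⟨u', hu1, hu2⟩ := Cfsg.NearField.exists_inv (x 0 - x 1) hu
    have hsub : (x 0 - x 1) * a = x 0 - x 1 := by
      rw [nf_sub_mul]
      have : x 0 * a - x 1 * a = (x 0 * a + b) - (x 1 * a + b) := by
        rw [add_sub_add_right_eq_sub]
      rw [this, h0, h1]
    have ha1 : a = 1 := by
      calc a = (u' * (x 0 - x 1)) * a := by rw [hu2, one_mul]
        _ = u' * ((x 0 - x 1) * a) := by rw [mul_assoc]
        _ = 1 := by rw [hsub, hu2]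
    have hb0 : b = 0 := by
      rw [ha1, mul_one] at h0
      exact add_eq_left.mp h0
    apply Subtype.ext
    apply Equiv.ext
    intro y
    change σ y = y
    rw [hσ, ha1, hb0, mul_one, add_zero]

end Cfsg.Agent.S0681
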