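import Mathlib
import Cfsg.Statements.S0682

set_option autoImplicit false
open Cfsg

namespace Cfsg.Agent.S0682

section
variable {F : Type*} [Cfsg.NearField F]

lemma nf_zero_mul (a : F) : 0 * a = 0 := by
  have h := Cfsg.NearField.right_distrib (0 : F) 0 a
  rw [add_zero] at h
  exact left_eq_add.mp h

lemma nf_nsmul_mul (n : ℕ) (x a : F) : (n • x) * a = n • (x * a) := by
  induction n with
  | zero => rw [zero_nsmul, zero_nsmul, nf_zero_mul]
  | succ k ih => rw [succ_nsmul, succ_nsmul, Cfsg.NearField.right_distrib, ih]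

lemma nf_mul_ne_zero {a c : F} (ha : a ≠ 0) (hc : c ≠ 0) : a * c ≠ 0 := by
  intro h
  obtain ⟨c', hc1, -⟩ := Cfsg.NearField.exists_inv c hc
  apply ha
  calc a = a * (c * c') := by rw [hc1, mul_one]
    _ = (a * c) * c' := by rw [mul_assoc]
    _ = 0 := by rw [h, nf_zero_mul]

lemma nf_inv_ne_zero {a a' : F} (h : a * a' = 1) : a' ≠ 0 := by
  rintro rfl
  rw [Cfsg.NearField.mul_zero] at h
  exact Cfsg.NearField.zero_ne_one h

end

/-- A finite near-field has prime-power order; its additive group is commutative of prime exponent. -/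
theorem result {F : Type*} [Cfsg.NearField F] [Finite F] : ∃ p j : ℕ, p.Prime ∧ 1 ≤ j ∧ Nat.card F = p ^ j ∧ (∀ x y : F, x + y = y + x) ∧ ∀ x : F, p • x = 0 := by
  classical
  have h01 : (0 : F) ≠ 1 := Cfsg.NearField.zero_ne_one
  haveI : Nontrivial F := ⟨⟨0, 1, h01⟩⟩
  have hcard : 1 < Nat.card F := Finite.one_lt_card
  set p := (Nat.card F).minFac with hp
  have hpp : p.Prime := Nat.minFac_prime (by omega)
  have hpd : p ∣ Nat.card F := Nat.minFac_dvd _
  haveI : Fact p.Prime := ⟨hpp⟩
  obtain ⟨x₀, hx₀⟩ := exists_prime_addOrderOf_dvd_card' p hpd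
  have hx₀0 : x₀ ≠ 0 := by
    rintro rfl
    rw [addOrderOf_zero] at hx₀
    exact hpp.one_lt.ne hx₀
  have hpx₀ : p • x₀ = 0 := by rw [← hx₀]; exact addOrderOf_nsmul_eq_zero x₀
  obtain ⟨x₀', h1, h2⟩ := Cfsg.NearField.exists_inv x₀ hx₀0
  have hexp : ∀ y : F, p • y = 0 := by
    intro y
    have hy : y = x₀ * (x₀' * y) := by rw [← mul_assoc, h1, one_mul]
    rw [hy, ← nf_nsmul_mul, hpx₀, nf_zero_mul]
  -- the additive group is a p-group
  have hP : IsPGroup p (Multiplicative F) := by
    intro g
    refine ⟨1, ?_⟩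
    rw [pow_one]
    apply Multiplicative.toAdd.injective
    rw [toAdd_pow, toAdd_one]
    exact hexp _
  obtain ⟨j, hj⟩ := IsPGroup.iff_card.mp hP
  have hj' : Nat.card F = p ^ j := hj
  have hj1 : 1 ≤ j := by
    rcases Nat.eq_zero_or_pos j with h0 | h0
    · rw [h0, pow_zero] at hj'
      omega
    · exact h0
  -- a nonzero central element
  haveI : Nontrivial (Multiplicative F) := inferInstanceAs (Nontrivial F)
  haveI : Finite (Multiplicative F) := inferInstanceAs (Finite F)
  have hcen : Nontrivial (Subgroup.center (Multiplicative F)) := hP.center_nontrivial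
  obtain ⟨⟨z, hz⟩, hz1⟩ := exists_ne (1 : Subgroup.center (Multiplicative F))
  have hz0 : Multiplicative.toAdd z ≠ 0 := by
    intro h
    apply hz1
    apply Subtype.ext
    exact Multiplicative.toAdd.injective h
  have hzc : ∀ y : F, y + Multiplicative.toAdd z = Multiplicative.toAdd z + y := by
    intro y
    rw [Subgroup.mem_center_iff] at hz
    have := hz (Multiplicative.ofAdd y)
    exact congrArg Multiplicative.toAdd this
  set z₀ : F := Multiplicative.toAdd z with hz₀
  obtain ⟨z', hz'1, hz'2⟩ := Cfsg.NearField.exists_inv z₀ hz0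
  -- every element is central
  have hcomm : ∀ w y : F, w + y = y + w := by
    intro w y
    by_cases hw : w = 0
    · rw [hw, zero_add, add_zero]
    · set c := z' * w with hc
      have hc0 : c ≠ 0 := nf_mul_ne_zero (nf_inv_ne_zero hz'1) hw
      obtain ⟨c', hc1, hc2⟩ := Cfsg.NearField.exists_inv c hc0
      have hwc : w = z₀ * c := by rw [hc, ← mul_assoc, hz'1, one_mul]
      have hyc : y = (y * c') * c := by rw [mul_assoc, hc2, mul_one]
      rw [hwc, hyc, ← Cfsg.NearField.right_distrib, ← Cfsg.NearField.right_distrib,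
        hzc (y * c')]
  exact ⟨p, j, hpp, hj1, hj', hcomm, hexp⟩

end Cfsg.Agent.S0682
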