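import Cfsg.Statements.S0683
import Cfsg.Agent.S0680
import Mathlib

set_option autoImplicit false
open Cfsg

namespace Cfsg.Agent.S0683

section nf

set_option linter.unusedSectionVars false
set_option linter.style.haveILetI false

variable {G : Type*} [Group G] {α : Type*} [MulAction G α]

open Cfsg.Agent.S0680 (InN inN_inv inN_conj agree trans_of count mul_closed)

theorem unique_N [Finite G] [Fintype α]
    (h0 : ∀ a b c d : α, a ≠ b → c ≠ d → ∃ g : G, g • a = c ∧ g • b = d)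
    (h1 : ∀ g : G, ∀ a b : α, a ≠ b → g • a = a → g • b = b → g = 1)
    (hn : 2 ≤ Fintype.card α) {x y : G} (hx : InN α x) (hy : InN α y) {a : α}
    (h : x • a = y • a) : x = y := by
  have hmem : InN α (x⁻¹ * y) := mul_closed h0 h1 hn _ _ (inN_inv hx) hy
  have hfix : (x⁻¹ * y) • a = a := by rw [mul_smul, ← h, inv_smul_smul]
  rcases hmem with h' | h'
  · exact inv_mul_eq_one.mp h'
  · exact absurd hfix (h' a)

theorem regular_N [Finite G] [Fintype α]
    (h0 : ∀ a b c d : α, a ≠ b → c ≠ d → ∃ g : G, g • a = c ∧ g • b = d)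
    (h1 : ∀ g : G, ∀ a b : α, a ≠ b → g • a = a → g • b = b → g = 1)
    (hn : 2 ≤ Fintype.card α) (a₀ b : α) : ∃ x : G, InN α x ∧ x • a₀ = b := by
  have htrans := trans_of h0 hn
  let f : {g : G // InN α g} → α := fun x => (x : G) • a₀
  have hinj : Function.Injective f := by
    intro x y hxy
    have hxy' : (x : G) • a₀ = (y : G) • a₀ := hxy
    exact Subtype.ext (unique_N h0 h1 hn x.2 y.2 hxy')
  have hbij := hinj.bijective_of_nat_card_le
    (le_of_eq (by rw [count h1 htrans hn, Nat.card_eq_fintype_card]))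
  obtain ⟨x, hx⟩ := hbij.2 b
  exact ⟨x, x.2, hx⟩

theorem nearfield [Finite G] [Fintype α] [DecidableEq α]
    (h0 : ∀ a b c d : α, a ≠ b → c ≠ d → ∃ g : G, g • a = c ∧ g • b = d)
    (h1 : ∀ g : G, ∀ a b : α, a ≠ b → g • a = a → g • b = b → g = 1)
    (hn : 2 ≤ Fintype.card α) :
    ∃ _ : Cfsg.NearField α, (∀ g : G, ∃ a b : α, a ≠ 0 ∧ ∀ x : α, g • x = x * a + b) ∧
      (∀ a b : α, a ≠ 0 → ∃ g : G, ∀ x : α, g • x = x * a + b) := by
  obtain ⟨a₀⟩ : Nonempty α := Fintype.card_pos_iff.mp (by omega)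
  obtain ⟨a₁, h10⟩ := Fintype.exists_ne_of_one_lt_card (by omega) a₀
  have h01 : a₀ ≠ a₁ := Ne.symm h10
  choose τ hτN hτ0 using (fun b => regular_N h0 h1 hn a₀ b)
  have hτuniq : ∀ (x : G) (b : α), InN α x → x • a₀ = b → x = τ b := by
    intro x b hx hxb
    exact unique_N h0 h1 hn hx (hτN b) (by rw [hxb, hτ0])
  have hμex : ∀ a : α, ∃ g : G, a ≠ a₀ → (g • a₀ = a₀ ∧ g • a₁ = a) := by
    intro a
    by_cases h : a = a₀
    · exact ⟨1, fun h' => absurd h h'⟩
    · obtain ⟨g, hg⟩ := h0 a₀ a₁ a₀ a h01 (Ne.symm h)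
      exact ⟨g, fun _ => hg⟩
  choose μ hμ using hμex
  have hμuniq : ∀ (g : G) (a : α), a ≠ a₀ → g • a₀ = a₀ → g • a₁ = a → g = μ a := by
    intro g a ha hg0 hg1
    exact agree h1 g (μ a) a₀ a₁ h01 (by rw [hg0, (hμ a ha).1]) (by rw [hg1, (hμ a ha).2])
  have hτ_zero : τ a₀ = 1 := (hτuniq 1 a₀ (Or.inl rfl) (one_smul _ _)).symm
  have hμ_one : μ a₁ = 1 := (hμuniq 1 a₁ h10 (one_smul _ _) (one_smul _ _)).symm
  have hμ_ne : ∀ a b : α, a ≠ a₀ → b ≠ a₀ → μ a • b ≠ a₀ := by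
    intro a b ha hb h
    apply hb
    have h3 : μ a • b = μ a • a₀ := by rw [h, (hμ a ha).1]
    exact smul_left_cancel _ h3
  have hadd_assoc : ∀ a b c : α, τ c • (τ b • a) = τ (τ c • b) • a := by
    intro a b c
    have h3 : τ c * τ b = τ (τ c • b) :=
      hτuniq _ _ (mul_closed h0 h1 hn _ _ (hτN c) (hτN b)) (by rw [mul_smul, hτ0])
    rw [← h3, mul_smul]
  have hdistrib : ∀ a b c : α, c ≠ a₀ → μ c • (τ b • a) = τ (μ c • b) • (μ c • a) := by
    intro a b c hc
    have h3 : μ c * τ b * (μ c)⁻¹ = τ (μ c • b) := by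
      apply hτuniq _ _ (inN_conj (hτN b) (μ c))
      have h4 : (μ c)⁻¹ • a₀ = a₀ := by rw [inv_smul_eq_iff, (hμ c hc).1]
      rw [mul_smul, mul_smul, h4, hτ0]
    rw [← h3, mul_smul, mul_smul, inv_smul_smul]
  have hmul_assoc' : ∀ a b c : α, b ≠ a₀ → c ≠ a₀ → μ c • (μ b • a) = μ (μ c • b) • a := by
    intro a b c hb hc
    have h3 : μ c * μ b = μ (μ c • b) :=
      hμuniq _ _ (hμ_ne c b hc hb) (by rw [mul_smul, (hμ b hb).1, (hμ c hc).1])
        (by rw [mul_smul, (hμ b hb).2])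
    rw [← h3, mul_smul]
  have hMA : ∀ a b c : α, (if c = a₀ then a₀ else μ c • (if b = a₀ then a₀ else μ b • a)) =
      (if (if c = a₀ then a₀ else μ c • b) = a₀ then a₀
        else μ (if c = a₀ then a₀ else μ c • b) • a) := by
    intro a b c
    by_cases hc : c = a₀
    · simp [hc]
    · by_cases hb : b = a₀
      · have h3 : μ c • a₀ = a₀ := (hμ c hc).1
        simp [hc, hb, h3]
      · have hne := hμ_ne c b hc hb
        simp only [if_neg hc, if_neg hb, if_neg hne]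
        exact hmul_assoc' a b c hb hc
  have hOM : ∀ a : α, (if a = a₀ then a₀ else μ a • a₁) = a := by
    intro a
    by_cases h : a = a₀
    · rw [if_pos h, h]
    · rw [if_neg h]; exact (hμ a h).2
  have hMO : ∀ a : α, (if a₁ = a₀ then a₀ else μ a₁ • a) = a := by
    intro a
    rw [if_neg h10, hμ_one, one_smul]
  have hRD : ∀ a b c : α, (if c = a₀ then a₀ else μ c • (τ b • a)) =
      τ (if c = a₀ then a₀ else μ c • b) • (if c = a₀ then a₀ else μ c • a) := by
    intro a b c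
    by_cases hc : c = a₀
    · rw [if_pos hc, if_pos hc, if_pos hc, hτ0]
    · rw [if_neg hc, if_neg hc, if_neg hc]; exact hdistrib a b c hc
  have hMZ : ∀ a : α, (if a₀ = a₀ then a₀ else μ a₀ • a) = a₀ := fun a => if_pos rfl
  have hInv : ∀ a : α, a ≠ a₀ → ∃ b : α, (if b = a₀ then a₀ else μ b • a) = a₁ ∧
      (if a = a₀ then a₀ else μ a • b) = a₁ := by
    intro a ha
    have hb : (μ a)⁻¹ • a₁ ≠ a₀ := by
      intro h
      apply h10
      have h3 : μ a • ((μ a)⁻¹ • a₁) = μ a • a₀ := by rw [h]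
      rw [smul_inv_smul, (hμ a ha).1] at h3
      exact h3
    have hμb : (μ a)⁻¹ = μ ((μ a)⁻¹ • a₁) :=
      hμuniq _ _ hb (by rw [inv_smul_eq_iff, (hμ a ha).1]) rfl
    refine ⟨(μ a)⁻¹ • a₁, ?_, ?_⟩
    · rw [if_neg hb, ← hμb, inv_smul_eq_iff]; exact (hμ a ha).2.symm
    · rw [if_neg ha]; exact smul_inv_smul _ _
  let nf : Cfsg.NearField α :=
    { add := fun x b => τ b • x
      zero := a₀
      neg := fun b => (τ b)⁻¹ • a₀
      add_assoc := hadd_assoc
      zero_add := hτ0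
      add_zero := fun a => by show τ a₀ • a = a; rw [hτ_zero, one_smul]
      nsmul := @nsmulRec α ⟨a₀⟩ ⟨fun x b => τ b • x⟩
      zsmul := @zsmulRec α ⟨a₀⟩ ⟨fun x b => τ b • x⟩ ⟨fun b => (τ b)⁻¹ • a₀⟩
        (@nsmulRec α ⟨a₀⟩ ⟨fun x b => τ b • x⟩)
      neg_add_cancel := fun a => smul_inv_smul (τ a) a₀
      mul := fun x a => if a = a₀ then a₀ else μ a • x
      one := a₁
      mul_assoc := hMA
      one_mul := hOM
      mul_one := hMO
      right_distrib := hRD
      mul_zero := hMZ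
      zero_ne_one := h01
      exists_inv := hInv }
  refine ⟨nf, ?_, ?_⟩
  · intro g
    have hg'0 : ((τ (g • a₀))⁻¹ * g) • a₀ = a₀ := by rw [mul_smul, inv_smul_eq_iff, hτ0]
    have ha : ((τ (g • a₀))⁻¹ * g) • a₁ ≠ a₀ := by
      intro h
      apply h10
      have h3 : ((τ (g • a₀))⁻¹ * g) • a₁ = ((τ (g • a₀))⁻¹ * g) • a₀ := by rw [h, hg'0]
      exact smul_left_cancel _ h3
    have hg' := hμuniq _ _ ha hg'0 rfl
    refine ⟨((τ (g • a₀))⁻¹ * g) • a₁, g • a₀, ha, fun x => ?_⟩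
    show g • x = τ (g • a₀) • (if ((τ (g • a₀))⁻¹ * g) • a₁ = a₀ then a₀
      else μ (((τ (g • a₀))⁻¹ * g) • a₁) • x)
    rw [if_neg ha, ← hg', mul_smul, smul_inv_smul]
  · intro a b ha
    refine ⟨τ b * μ a, fun x => ?_⟩
    have ha' : a ≠ a₀ := ha
    show (τ b * μ a) • x = τ b • (if a = a₀ then a₀ else μ a • x)
    rw [if_neg ha', mul_smul]

end nf

/-- A finite sharply doubly transitive permutation group is the affine group of a near-field: the permuted set carries a near-field structure for which the group consists exactly of the maps `x ↦ x * a + b` with `a ≠ 0`. -/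
theorem result {α : Type*} [Fintype α] [DecidableEq α] (H : Subgroup (Equiv.Perm α)) [MulAction.IsMultiplyPretransitive H α 2] (hsharp : ∀ x : Fin 2 ↪ α, MulAction.stabilizer H x = ⊥) (h2 : 2 ≤ Fintype.card α) : ∃ _ : Cfsg.NearField α, ∀ σ : Equiv.Perm α, σ ∈ H ↔ ∃ a b : α, a ≠ 0 ∧ ∀ x : α, σ x = x * a + b := by
  have h2t : MulAction.IsMultiplyPretransitive H α 2 := inferInstance
  rw [MulAction.is_two_pretransitive_iff] at h2t
  have h0 : ∀ a b c d : α, a ≠ b → c ≠ d → ∃ g : H, g • a = c ∧ g • b = d :=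
    fun a b c d hab hcd => h2t hab hcd
  have h1 : ∀ g : H, ∀ a b : α, a ≠ b → g • a = a → g • b = b → g = 1 := by
    intro g a b hab ha hb
    have hmem : g ∈ MulAction.stabilizer H (Function.Embedding.embFinTwo hab) := by
      rw [MulAction.mem_stabilizer_iff]
      ext i
      fin_cases i
      · exact ha
      · exact hb
    rw [hsharp] at hmem
    exact Subgroup.mem_bot.mp hmem
  obtain ⟨nf, hall, hex⟩ := nearfield (G := H) h0 h1 h2
  refine ⟨nf, fun σ => ⟨fun hσ => ?_, ?_⟩⟩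
  · obtain ⟨a, b, ha, hx⟩ := hall ⟨σ, hσ⟩
    exact ⟨a, b, ha, hx⟩
  · rintro ⟨a, b, ha, hx⟩
    obtain ⟨g, hg⟩ := hex a b ha
    have hσg : σ = (g : Equiv.Perm α) := Equiv.ext (fun x => by rw [hx x]; exact (hg x).symm)
    rw [hσg]; exact g.2

end Cfsg.Agent.S0683
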