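import Cfsg.Statements.S0685
import Cfsg.Agent.S0684
import Mathlib

set_option autoImplicit false
open Cfsg

namespace Cfsg.Agent.S0685

/-- In a linear group over the prime field that is regular on non-zero vectors and has no irreducible cyclic normal subgroup, a maximal normal abelian subgroup is properly contained in its centraliser, which is non-abelian. -/
theorem result {p : ℕ} [Fact p.Prime] {V : Type*} [AddCommGroup V] [Module (ZMod p) V] [Finite V] (H : Subgroup (V ≃ₗ[ZMod p] V)) (hreg : ∀ v w : V, v ≠ 0 → w ≠ 0 → ∃! h : H, (h : V ≃ₗ[ZMod p] V) v = w) (hI : ∀ A : Subgroup H, A.Normal → IsCyclic A → ∃ W : Submodule (ZMod p) V, W ≠ ⊥ ∧ W ≠ ⊤ ∧ ∀ a ∈ A, ∀ v ∈ W, ((a : H) : V ≃ₗ[ZMod p] V) v ∈ W) (A : Subgroup H) (hAn : A.Normal) (hAc : IsMulCommutative A) (hAmax : ∀ B : Subgroup H, B.Normal → IsMulCommutative B → A ≤ B → B = A) : A < Subgroup.centralizer (A : Set H) ∧ ¬ IsMulCommutative (Subgroup.centralizer (A : Set H)) := by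
  classical
  have hp : p.Prime := Fact.out
  haveI : Finite (V ≃ₗ[ZMod p] V) :=
    Finite.of_injective (fun f => (f : V → V)) DFunLike.coe_injective
  haveI : Module.Finite (ZMod p) V := Module.Finite.of_finite
  obtain ⟨hcyc, W, hWb, hWt, hWinv, hWirr, hdvd⟩ :=
    Cfsg.Agent.S0684.result H hreg hI A hAn hAc hAmax
  have hAle : A ≤ Subgroup.centralizer (A : Set H) := by
    intro a ha
    rw [Subgroup.mem_centralizer_iff]
    intro b hb
    exact congrArg Subtype.val (hAc.is_comm.comm ⟨b, hb⟩ ⟨a, ha⟩)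
  have hCn : (Subgroup.centralizer (A : Set H)).Normal := by
    constructor
    intro c hc g
    rw [Subgroup.mem_centralizer_iff] at hc ⊢
    intro a ha
    have h1 : g⁻¹ * a * g ∈ A := by
      have h0 := hAn.conj_mem a ha g⁻¹
      simpa using h0
    have h2 := hc _ h1
    calc a * (g * c * g⁻¹) = g * ((g⁻¹ * a * g) * c) * g⁻¹ := by group
      _ = g * (c * (g⁻¹ * a * g)) * g⁻¹ := by rw [h2]
      _ = g * c * g⁻¹ * a := by group
  have hne : Subgroup.centralizer (A : Set H) ≠ A := by
    intro hCA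
    obtain ⟨w₀, hw₀W, hw₀⟩ := (Submodule.ne_bot_iff W).1 hWb
    -- `|H| + 1 = |V|`
    have hH : Nat.card H + 1 = Nat.card V := by
      have hbij : Function.Bijective (fun h : H =>
          (⟨((h : H) : V ≃ₗ[ZMod p] V) w₀, by
            show ((h : H) : V ≃ₗ[ZMod p] V) w₀ ≠ 0
            intro h0
            exact hw₀ (by simpa using h0)⟩ : {v : V | v ≠ 0})) := by
        constructor
        · intro h h' hh
          have h1 : ((h : H) : V ≃ₗ[ZMod p] V) w₀ = ((h' : H) : V ≃ₗ[ZMod p] V) w₀ :=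
            congrArg Subtype.val hh
          have hne0 : ((h' : H) : V ≃ₗ[ZMod p] V) w₀ ≠ 0 := fun h0 => hw₀ (by simpa using h0)
          exact (hreg w₀ _ hw₀ hne0).unique h1 rfl
        · rintro ⟨v, hv⟩
          obtain ⟨h, hh, -⟩ := hreg w₀ v hw₀ hv
          exact ⟨h, Subtype.ext hh⟩
      have h1 : Nat.card H = Nat.card {v : V | v ≠ 0} :=
        Nat.card_congr (Equiv.ofBijective _ hbij)
      have h2 : (Set.univ : Set V) = insert 0 {v : V | v ≠ 0} := by
        ext v
        simp only [Set.mem_univ, Set.mem_insert_iff, Set.mem_setOf_eq, true_iff]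
        exact em _
      rw [h1, ← Set.ncard_univ V, h2,
        Set.ncard_insert_of_notMem (by simp) (Set.toFinite _), Nat.card_coe_set_eq]
    have hcardW : Nat.card W = p ^ Module.finrank (ZMod p) W := by
      rw [Module.natCard_eq_pow_finrank (K := ZMod p) (V := W), Nat.card_zmod]
    have hW2 : 1 < Nat.card W := by
      haveI : Nontrivial W := (Submodule.nontrivial_iff_ne_bot).2 hWb
      exact Finite.one_lt_card
    have hA1 : Nat.card A + 1 ≤ Nat.card W := by
      have h1 : Nat.card A ≤ p ^ Module.finrank (ZMod p) W - 1 :=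
        Nat.le_of_dvd (by rw [← hcardW]; omega) hdvd
      rw [← hcardW] at h1
      omega
    -- an element of `H` moving `W` off itself
    obtain ⟨v, hvW⟩ : ∃ v : V, v ∉ W := by
      by_contra hcon
      push_neg at hcon
      exact hWt (Submodule.eq_top_iff'.2 hcon)
    have hv0 : v ≠ 0 := fun h0 => hvW (h0 ▸ W.zero_mem)
    obtain ⟨h, hh, -⟩ := hreg w₀ v hw₀ hv0
    have hU : W ⊓ W.map (((h : H) : V ≃ₗ[ZMod p] V) : V →ₗ[ZMod p] V) = ⊥ := by
      rcases hWirr (W ⊓ W.map (((h : H) : V ≃ₗ[ZMod p] V) : V →ₗ[ZMod p] V)) inf_le_left (by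
        intro a ha x hx
        obtain ⟨hx1, hx2⟩ := Submodule.mem_inf.1 hx
        refine Submodule.mem_inf.2 ⟨hWinv a ha x hx1, ?_⟩
        obtain ⟨y, hy, hyx⟩ := Submodule.mem_map.1 hx2
        have h1 : h⁻¹ * a * h ∈ A := by
          have h0 := hAn.conj_mem a ha h⁻¹
          simpa using h0
        have h2 : h * (h⁻¹ * a * h) = a * h := by group
        have h3 := congrArg (fun g : H => ((g : H) : V ≃ₗ[ZMod p] V) y) h2
        refine Submodule.mem_map.2 ⟨((h⁻¹ * a * h : H) : V ≃ₗ[ZMod p] V) y, hWinv _ h1 y hy, ?_⟩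
        rw [← hyx]
        exact h3) with h0 | h0
      · exact h0
      · exfalso
        have h1 : W ≤ W.map (((h : H) : V ≃ₗ[ZMod p] V) : V →ₗ[ZMod p] V) := by
          have h00 := inf_le_right (a := W)
            (b := W.map (((h : H) : V ≃ₗ[ZMod p] V) : V →ₗ[ZMod p] V))
          rwa [h0] at h00
        have h2 : W = W.map (((h : H) : V ≃ₗ[ZMod p] V) : V →ₗ[ZMod p] V) :=
          Submodule.eq_of_le_of_finrank_eq h1
            (LinearEquiv.finrank_map_eq ((h : H) : V ≃ₗ[ZMod p] V) W).symm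
        apply hvW
        rw [h2, ← hh]
        exact Submodule.mem_map_of_mem hw₀W
    -- `|W|^2 ≤ |V|`
    have hWW : Nat.card W * Nat.card W ≤ Nat.card V := by
      rw [← Nat.card_prod]
      apply Nat.card_le_card_of_injective
        (fun xy : W × W => (xy.1 : V) + ((h : H) : V ≃ₗ[ZMod p] V) (xy.2 : V))
      rintro ⟨x, y⟩ ⟨x', y'⟩ hxy
      have hxy' : (x : V) + ((h : H) : V ≃ₗ[ZMod p] V) (y : V)
          = (x' : V) + ((h : H) : V ≃ₗ[ZMod p] V) (y' : V) := hxy
      have h1 : (x : V) - x' = ((h : H) : V ≃ₗ[ZMod p] V) (y' : V)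
          - ((h : H) : V ≃ₗ[ZMod p] V) (y : V) :=
        sub_eq_sub_iff_add_eq_add.2 (hxy'.trans (add_comm _ _))
      have h2 : (x : V) - x' ∈ W ⊓ W.map (((h : H) : V ≃ₗ[ZMod p] V) : V →ₗ[ZMod p] V) := by
        refine Submodule.mem_inf.2 ⟨W.sub_mem x.2 x'.2, ?_⟩
        rw [h1, ← map_sub]
        exact Submodule.mem_map_of_mem (W.sub_mem y'.2 y.2)
      rw [hU] at h2
      have h3 : (x : V) = x' := sub_eq_zero.1 ((Submodule.mem_bot (ZMod p)).1 h2)
      have h4 : ((h : H) : V ≃ₗ[ZMod p] V) (y : V) = ((h : H) : V ≃ₗ[ZMod p] V) (y' : V) := by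
        rw [h3] at hxy'
        exact add_left_cancel hxy'
      have h5 : (y : V) = y' := (LinearEquiv.injective _) h4
      exact Prod.ext (Subtype.ext h3) (Subtype.ext h5)
    -- `|H| ≤ |A|^2`
    obtain ⟨g, hg⟩ := hcyc.exists_zpow_surjective
    obtain ⟨φ, hφ⟩ : ∃ φ : H →* MulAut A, ∀ (x : H) (a : A), ((φ x a : A) : H) = x * a * x⁻¹ :=
      ⟨MulAut.conjNormal, fun x a => MulAut.conjNormal_apply x a⟩
    have hker : φ.ker = A := by
      ext x
      rw [MonoidHom.mem_ker]
      constructor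
      · intro hx
        rw [← hCA, Subgroup.mem_centralizer_iff]
        intro a ha
        have h1 : φ x ⟨a, ha⟩ = ⟨a, ha⟩ := by rw [hx]; rfl
        have h2 : x * a * x⁻¹ = a := by
          have h0 := hφ x ⟨a, ha⟩
          rw [h1] at h0
          exact h0.symm
        calc a * x = (x * a * x⁻¹) * x := by rw [h2]
          _ = x * a := by group
      · intro hx
        apply MulEquiv.ext
        intro a
        apply Subtype.ext
        have h1 : (a : H) * x = x * a :=
          (Subgroup.mem_centralizer_iff.1 (hAle hx)) a a.2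
        rw [hφ, ← h1, mul_inv_cancel_right]
        rfl
    have hrange : Nat.card φ.range ≤ Nat.card A := by
      apply Nat.card_le_card_of_injective (fun σ : φ.range => (σ : MulAut A) g)
      intro σ τ hστ
      have hστ' : (σ : MulAut A) g = (τ : MulAut A) g := hστ
      apply Subtype.ext
      apply MulEquiv.ext
      intro x
      obtain ⟨k, hk⟩ := hg x
      have hk' : g ^ k = x := hk
      rw [← hk', map_zpow, map_zpow, hστ']
    have hHle : Nat.card H ≤ Nat.card A * Nat.card A := by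
      have h1 := Subgroup.card_mul_index φ.ker
      rw [Subgroup.index_ker, hker] at h1
      rw [← h1]
      exact Nat.mul_le_mul_left _ hrange
    have hApos : 0 < Nat.card A := Nat.card_pos
    have hsq := Nat.mul_le_mul hA1 hA1
    nlinarith [hsq, hWW, hH, hHle, hApos]
  refine ⟨lt_of_le_of_ne hAle (Ne.symm hne), fun hC => hne ?_⟩
  exact hAmax _ hCn hC hAle

end Cfsg.Agent.S0685
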