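import Mathlib
import Cfsg.Statements.S0691
import Cfsg.Agent.Helper17.RegGL2

set_option autoImplicit false
open Cfsg

namespace Cfsg.Agent.S0691

open Cfsg.Agent.Helper17.RegGL2

def gp : List (M4 × M4) := [((2,0,0,3),(3,0,0,2)), ((0,4,1,0),(0,1,4,0)), ((1,2,1,3),(3,3,4,1))]

def row0 : List M4 := [(0,0,0,0),(4,0,1,1),(2,0,1,2),(3,0,0,2),(1,0,1,3)]
def row1 : List M4 := [(0,1,0,0),(2,3,2,1),(1,3,2,3),(4,3,2,3),(3,3,2,3)]
def row2 : List M4 := [(0,3,0,1),(2,4,2,4),(1,4,2,2),(4,4,2,2),(3,4,2,4)]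
def row3 : List M4 := [(0,2,0,3),(2,1,2,3),(1,1,1,3),(4,1,0,3),(3,1,2,2)]
def row4 : List M4 := [(0,4,0,2),(2,2,1,2),(1,2,2,4),(4,2,2,4),(3,2,2,3)]

def tab : List (List M4) := [row0, row1, row2, row3, row4]

set_option maxHeartbeats 0 in
theorem cA : chkA 5 (gp.map Prod.fst ++ gp.map Prod.snd) tab = true := by decide +kernel

set_option maxHeartbeats 0 in
theorem cB : chkB 5 gp tab = true := by decide +kernel

theorem cC : chkC 5 gp = true := by decide +kernel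

theorem c1 : matOf tab 1 0 = (1, 0, 0, 1) := by decide +kernel

theorem eA : toMat 5 (2,0,0,3) = !![2, 0; 0, -2] := by decide +kernel
theorem eB : toMat 5 (0,4,1,0) = !![0, -1; 1, 0] := by decide +kernel
theorem eC : toMat 5 (1,2,1,3) = !![1, 2; 1, -2] := by decide +kernel

/-- An exceptional sharply doubly transitive group of degree 5^2: the listed matrices generate a subgroup of GL(2,5) of order 24 acting regularly on the non-zero vectors. -/
theorem result (A : Matrix.GeneralLinearGroup (Fin 2) (ZMod 5)) (B : Matrix.GeneralLinearGroup (Fin 2) (ZMod 5)) (C : Matrix.GeneralLinearGroup (Fin 2) (ZMod 5)) (hA : (A : Matrix (Fin 2) (Fin 2) (ZMod 5)) = !![2, 0; 0, -2]) (hB : (B : Matrix (Fin 2) (Fin 2) (ZMod 5)) = !![0, -1; 1, 0]) (hC : (C : Matrix (Fin 2) (Fin 2) (ZMod 5)) = !![1, 2; 1, -2]) : Nat.card (Subgroup.closure ({A, B, C} : Set (Matrix.GeneralLinearGroup (Fin 2) (ZMod 5)))) = 24 ∧ ∀ v w : Fin 2 → ZMod 5, v ≠ 0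 → w ≠ 0 → ∃! h : Subgroup.closure ({A, B, C} : Set (Matrix.GeneralLinearGroup (Fin 2) (ZMod 5))), Matrix.mulVec ((h : Matrix.GeneralLinearGroup (Fin 2) (ZMod 5)) : Matrix (Fin 2) (Fin 2) (ZMod 5)) v = w := by
  have key := main (q := 5) (by norm_num) gp tab cA cB cC c1
    ({A, B, C} : Set (Matrix.GeneralLinearGroup (Fin 2) (ZMod 5))) ?_ ?_
  · simpa using key
  · rintro u (rfl | rfl | rfl)
    · exact ⟨((2,0,0,3),(3,0,0,2)), by simp [gp], by rw [hA, eA]⟩
    · exact ⟨((0,4,1,0),(0,1,4,0)), by simp [gp], by rw [hB, eB]⟩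
    · exact ⟨((1,2,1,3),(3,3,4,1)), by simp [gp], by rw [hC, eC]⟩
  · intro p hp
    simp only [gp, List.mem_cons, List.not_mem_nil, or_false] at hp
    rcases hp with rfl | rfl | rfl
    · exact ⟨A, by simp, by rw [hA, eA]⟩
    · exact ⟨B, by simp, by rw [hB, eB]⟩
    · exact ⟨C, by simp, by rw [hC, eC]⟩

end Cfsg.Agent.S0691
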