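import Mathlib
import Cfsg.Statements.S0692
import Cfsg.Agent.Helper17.RegGL2

set_option autoImplicit false
open Cfsg

namespace Cfsg.Agent.S0692

open Cfsg.Agent.Helper17.RegGL2

def gp : List (M4 × M4) := [((0,10,1,0),(0,1,10,0)), ((2,4,1,8),(8,7,10,2))]

def row0 : List M4 := [(0,0,0,0),(10,0,0,1),(5,7,1,4),(7,10,1,8),(8,1,1,7),(2,7,1,6),(9,4,1,8),(3,10,1,9),(4,1,1,10),(6,4,1,6),(1,0,0,3)]
def row1 : List M4 := [(0,1,0,0),(1,2,0,5),(10,10,0,6),(7,0,0,7),(4,6,1,10),(6,9,1,9),(5,9,1,8),(3,0,0,10),(9,7,0,3),(8,7,0,4),(2,10,1,4)]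
def row2 : List M4 := [(7,6,0,7),(4,8,1,1),(2,8,0,12),(3,5,0,10),(1,8,0,6),(6,10,0,10),(5,10,1,7),(0,6,1,7),(9,9,0,9),(8,9,1,11),(10,1,1,5)]
def row3 : List M4 := [(10,4,1,10),(4,9,1,4),(2,9,1,10),(3,7,1,8),(1,9,0,3),(9,8,0,11),(6,5,1,7),(8,8,1,9),(7,8,1,11),(5,8,1,9),(0,4,1,6)]
def row4 : List M4 := [(1,3,0,10),(0,3,1,7),(5,0,1,8),(3,8,1,10),(4,7,1,12),(2,0,0,6),(10,7,1,11),(7,7,0,12),(9,10,1,2),(8,10,1,5),(6,7,1,12)]
def row5 : List M4 := [(7,9,1,5),(2,5,0,9),(1,5,1,8),(6,6,0,8),(4,10,1,11),(5,3,0,7),(3,6,1,6),(0,9,1,5),(8,2,1,10),(10,5,1,9),(9,5,1,8)]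
def row6 : List M4 := [(4,2,1,7),(2,6,1,10),(1,6,1,7),(3,9,1,11),(0,2,1,3),(8,5,1,4),(6,8,0,5),(7,1,0,10),(5,5,0,6),(10,6,1,6),(9,6,0,7)]
def row7 : List M4 := [(10,8,0,8),(5,4,0,11),(3,1,1,3),(2,1,1,4),(4,4,1,12),(1,4,1,9),(9,0,0,4),(7,4,1,11),(8,3,1,12),(6,0,1,6),(0,8,1,9)]
def row8 : List M4 := [(1,7,0,9),(0,7,1,8),(6,3,1,11),(4,3,1,9),(3,3,1,11),(5,6,1,5),(2,3,0,12),(10,2,0,5),(8,4,1,10),(9,2,1,8),(7,2,1,2)]
def row9 : List M4 := [(4,5,0,5),(1,10,1,7),(3,2,1,9),(2,2,0,11),(0,5,1,5),(6,1,1,9),(5,1,0,8),(10,3,0,4),(8,6,0,12),(9,3,0,10),(7,3,1,3)]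
def row10 : List M4 := [(0,10,0,2),(9,1,1,6),(3,4,0,2),(2,4,0,5),(8,0,0,8),(6,2,1,6),(5,2,1,7),(7,5,1,12),(4,0,0,9),(1,1,0,8),(10,9,0,7)]

def tab : List (List M4) := [row0, row1, row2, row3, row4, row5, row6, row7, row8, row9, row10]

set_option maxHeartbeats 0 in
theorem cA : chkA 11 (gp.map Prod.fst ++ gp.map Prod.snd) tab = true := by decide +kernel

set_option maxHeartbeats 0 in
theorem cB : chkB 11 gp tab = true := by decide +kernel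

theorem cC : chkC 11 gp = true := by decide +kernel

theorem c1 : matOf tab 1 0 = (1, 0, 0, 1) := by decide +kernel

theorem eA : toMat 11 (0,10,1,0) = !![0, -1; 1, 0] := by decide +kernel
theorem eB : toMat 11 (2,4,1,8) = !![2, 4; 1, -3] := by decide +kernel

/-- An exceptional sharply doubly transitive group of degree 11^2: the listed matrices generate a subgroup of GL(2,11) of order 120 acting regularly on the non-zero vectors. -/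
theorem result (A : Matrix.GeneralLinearGroup (Fin 2) (ZMod 11)) (B : Matrix.GeneralLinearGroup (Fin 2) (ZMod 11)) (hA : (A : Matrix (Fin 2) (Fin 2) (ZMod 11)) = !![0, -1; 1, 0]) (hB : (B : Matrix (Fin 2) (Fin 2) (ZMod 11)) = !![2, 4; 1, -3]) : Nat.card (Subgroup.closure ({A, B} : Set (Matrix.GeneralLinearGroup (Fin 2) (ZMod 11)))) = 120 ∧ ∀ v w : Fin 2 → ZMod 11, v ≠ 0 → w ≠ 0 → ∃! h : Subgroup.closure ({A, B} : Set (Matrix.GeneralLinearGroup (Fin 2) (ZMod 11))), Matrix.mulVec ((h : Matrix.GeneralLinearGroup (Fin 2) (ZMod 11)) : Matrix (Fin 2) (Fin 2) (ZMod 11)) v = w := by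
  have key := main (q := 11) (by norm_num) gp tab cA cB cC c1
    ({A, B} : Set (Matrix.GeneralLinearGroup (Fin 2) (ZMod 11))) ?_ ?_
  · simpa using key
  · rintro u (rfl | rfl)
    · exact ⟨((0,10,1,0),(0,1,10,0)), by simp [gp], by rw [hA, eA]⟩
    · exact ⟨((2,4,1,8),(8,7,10,2)), by simp [gp], by rw [hB, eB]⟩
  · intro p hp
    simp only [gp, List.mem_cons, List.not_mem_nil, or_false] at hp
    rcases hp with rfl | rfl
    · exact ⟨A, by simp, by rw [hA, eA]⟩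
    · exact ⟨B, by simp, by rw [hB, eB]⟩

end Cfsg.Agent.S0692
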