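import Mathlib
import Cfsg.Statements.S0695

set_option autoImplicit false
open Cfsg

namespace Cfsg.Agent.S0695

open MulAction SubMulAction in
open scoped Pointwise in
theorem key {G : Type*} [Group G] {X : Type*} [Fintype X] [MulAction G X]
    (h2 : MulAction.IsMultiplyPreprimitive G X 2)
    (N : Subgroup G) [hNn : N.Normal]
    (hreg : ∀ x : X, MulAction.stabilizer N x = ⊥) (x₀ : X) (n : G) (hn : n ∈ N) (hn1 : n ≠ 1) :
    n ^ 2 = 1 ∨ Fintype.card X = 3 := by
  classical
  haveI : IsMultiplyPretransitive G X 2 := IsMultiplyPreprimitive.isMultiplyPretransitive G X 2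
  haveI : IsPretransitive G X := isPretransitive_of_is_two_pretransitive
  have hprim : IsPreprimitive (stabilizer G x₀) (ofStabilizer G x₀) := by
    rw [← is_one_preprimitive_iff, ← isMultiplyPreprimitive_succ_iff_ofStabilizer]
    · exact h2
    · norm_num
  have hfree : ∀ u v : G, u ∈ N → v ∈ N → u • x₀ = v • x₀ → u = v := by
    intro u v hu hv h
    have hmem : (⟨v⁻¹ * u, N.mul_mem (N.inv_mem hv) hu⟩ : N) ∈ stabilizer N x₀ := by
      rw [mem_stabilizer_iff]
      show (v⁻¹ * u) • x₀ = x₀
      rw [mul_smul, h, inv_smul_smul]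
    rw [hreg x₀, Subgroup.mem_bot] at hmem
    have h2' : v⁻¹ * u = 1 := congrArg Subtype.val hmem
    exact (inv_mul_eq_one.mp h2').symm
  have hnx : n • x₀ ≠ x₀ := fun h => hn1 (hfree n 1 hn N.one_mem (by rw [h, one_smul]))
  have hnx' : n⁻¹ • x₀ ≠ x₀ := fun h =>
    hn1 (inv_eq_one.mp (hfree n⁻¹ 1 (N.inv_mem hn) N.one_mem (by rw [h, one_smul])))
  have hblock : IsBlock (stabilizer G x₀)
      ({y | (y : X) = n • x₀ ∨ (y : X) = n⁻¹ • x₀} : Set (ofStabilizer G x₀)) := by
    rw [isBlock_iff_smul_eq_of_mem]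
    intro h a ha hha
    have hc : (h : G) * n * (h : G)⁻¹ ∈ N := hNn.conj_mem n hn h
    have hinv : (h : G)⁻¹ • x₀ = x₀ := inv_smul_eq_iff.mpr h.2.symm
    have hcx : ∀ m : G, (h : G) • m • x₀ = ((h : G) * m * (h : G)⁻¹) • x₀ := by
      intro m
      rw [mul_smul, mul_smul, hinv]
    have hconjinv : (h : G) * n⁻¹ * (h : G)⁻¹ = ((h : G) * n * (h : G)⁻¹)⁻¹ := by group
    have ha' : ((h • a : ofStabilizer G x₀) : X) = (h : G) • (a : X) := rfl
    have hcases : (h : G) * n * (h : G)⁻¹ = n ∨ (h : G) * n * (h : G)⁻¹ = n⁻¹ := by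
      rcases ha with ha | ha <;> rcases hha with hha | hha
      · left
        rw [ha', ha, hcx] at hha
        exact hfree _ _ hc hn hha
      · right
        rw [ha', ha, hcx] at hha
        exact hfree _ _ hc (N.inv_mem hn) hha
      · right
        rw [ha', ha, hcx, hconjinv] at hha
        have := hfree _ _ (N.inv_mem hc) hn hha
        exact inv_eq_iff_eq_inv.mp this
      · left
        rw [ha', ha, hcx, hconjinv] at hha
        have := hfree _ _ (N.inv_mem hc) (N.inv_mem hn) hha
        exact inv_injective this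
    ext y
    rw [Set.mem_smul_set_iff_inv_smul_mem]
    have hy' : ((h⁻¹ • y : ofStabilizer G x₀) : X) = (h : G)⁻¹ • (y : X) := rfl
    show (((h⁻¹ • y : ofStabilizer G x₀) : X) = n • x₀ ∨
        ((h⁻¹ • y : ofStabilizer G x₀) : X) = n⁻¹ • x₀) ↔ ((y : X) = n • x₀ ∨ (y : X) = n⁻¹ • x₀)
    rw [hy', inv_smul_eq_iff, inv_smul_eq_iff, hcx, hcx, hconjinv]
    rcases hcases with hc1 | hc1
    · rw [hc1]
    · rw [hc1, inv_inv]; exact or_comm
  have htriv := hprim.isTrivialBlock_of_isBlock hblock
  by_cases hsq : n • x₀ = n⁻¹ • x₀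
  · left
    have h := hfree n n⁻¹ hn (N.inv_mem hn) hsq
    calc n ^ 2 = n * n := sq n
      _ = n * n⁻¹ := by rw [← h]
      _ = 1 := mul_inv_cancel n
  · rcases htriv with hsub | huniv
    · exfalso
      have h1 : (⟨n • x₀, hnx⟩ : ofStabilizer G x₀) ∈
          ({y | (y : X) = n • x₀ ∨ (y : X) = n⁻¹ • x₀} : Set (ofStabilizer G x₀)) := Or.inl rfl
      have h2' : (⟨n⁻¹ • x₀, hnx'⟩ : ofStabilizer G x₀) ∈
          ({y | (y : X) = n • x₀ ∨ (y : X) = n⁻¹ • x₀} : Set (ofStabilizer G x₀)) := Or.inr rfl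
      exact hsq (congrArg Subtype.val (hsub h1 h2'))
    · right
      have hall : ∀ x : X, x = x₀ ∨ x = n • x₀ ∨ x = n⁻¹ • x₀ := by
        intro x
        by_cases hx : x = x₀
        · left; exact hx
        · right
          have : (⟨x, hx⟩ : ofStabilizer G x₀) ∈
              ({y | (y : X) = n • x₀ ∨ (y : X) = n⁻¹ • x₀} : Set (ofStabilizer G x₀)) :=
            huniv ▸ Set.mem_univ _
          exact this
      have hcard : Fintype.card X = ({x₀, n • x₀, n⁻¹ • x₀} : Finset X).card := by
        rw [← Finset.card_univ]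
        congr 1
        ext x
        simp only [Finset.mem_univ, Finset.mem_insert, Finset.mem_singleton, true_iff]
        exact hall x
      rw [hcard, Finset.card_insert_of_notMem, Finset.card_insert_of_notMem, Finset.card_singleton]
      · simp only [Finset.mem_singleton]; exact hsq
      · simp only [Finset.mem_insert, Finset.mem_singleton, not_or]
        exact ⟨fun h => hnx h.symm, fun h => hnx' h.symm⟩

/-- A regular normal subgroup of a doubly primitive group of finite degree at least 2 is an elementary abelian 2-group (and the degree is a power of 2), unless the degree is 3. -/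
theorem result {G : Type*} [Group G] {X : Type*} [Fintype X] [MulAction G X] (hX : 2 ≤ Fintype.card X) (h2 : MulAction.IsMultiplyPreprimitive G X 2) (N : Subgroup G) [N.Normal] (htrans : MulAction.IsPretransitive N X) (hreg : ∀ x : X, MulAction.stabilizer N x = ⊥) : Fintype.card X = 3 ∨ (IsMulCommutative N ∧ (∀ n ∈ N, n ^ 2 = 1) ∧ ∃ m : ℕ, Fintype.card X = 2 ^ m) := by
  classical
  have hne : Nonempty X := by
    rw [← Fintype.card_pos_iff]; omega
  obtain ⟨x₀⟩ := hne
  by_cases h3 : Fintype.card X = 3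
  · left; exact h3
  · right
    have hsq : ∀ n ∈ N, n ^ 2 = 1 := by
      intro n hn
      by_cases hn1 : n = 1
      · rw [hn1, one_pow]
      · exact (key h2 N hreg x₀ n hn hn1).resolve_right h3
    have hfree : ∀ u v : G, u ∈ N → v ∈ N → u • x₀ = v • x₀ → u = v := by
      intro u v hu hv h
      have hmem : (⟨v⁻¹ * u, N.mul_mem (N.inv_mem hv) hu⟩ : N) ∈ MulAction.stabilizer N x₀ := by
        rw [MulAction.mem_stabilizer_iff]
        show (v⁻¹ * u) • x₀ = x₀
        rw [mul_smul, h, inv_smul_smul]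
      rw [hreg x₀, Subgroup.mem_bot] at hmem
      have h2' : v⁻¹ * u = 1 := congrArg Subtype.val hmem
      exact (inv_mul_eq_one.mp h2').symm
    refine ⟨⟨⟨fun a b => ?_⟩⟩, hsq, ?_⟩
    · apply Subtype.ext
      show (a : G) * (b : G) = (b : G) * (a : G)
      have ha := hsq a a.2
      have hb := hsq b b.2
      have hab := hsq ((a : G) * (b : G)) (N.mul_mem a.2 b.2)
      have inva : (a : G)⁻¹ = a := inv_eq_of_mul_eq_one_right (by rw [← sq]; exact ha)
      have invb : (b : G)⁻¹ = b := inv_eq_of_mul_eq_one_right (by rw [← sq]; exact hb)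
      have h1 : (a : G) * b * ((a : G) * b) = 1 := by rw [← sq]; exact hab
      have h4 : (b : G) * a = (a : G)⁻¹ * ((a : G) * b * ((a : G) * b)) * (b : G)⁻¹ := by group
      rw [h1, mul_one, inva, invb] at h4
      exact h4.symm
    · haveI : Fact (Nat.Prime 2) := ⟨Nat.prime_two⟩
      have hcardN : Nat.card N = Fintype.card X := by
        rw [← Nat.card_eq_fintype_card]
        apply Nat.card_eq_of_bijective (fun n : N => (n : G) • x₀)
        constructor
        · intro u v huv; exact Subtype.ext (hfree u v u.2 v.2 huv)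
        · intro x
          obtain ⟨u, hu⟩ := htrans.exists_smul_eq x₀ x
          exact ⟨u, hu⟩
      haveI : Finite N := Nat.finite_of_card_ne_zero (by rw [hcardN]; omega)
      have hp : IsPGroup 2 N := by
        intro u
        refine ⟨1, ?_⟩
        apply Subtype.ext
        show ((u ^ 2 ^ 1 : N) : G) = 1
        rw [pow_one, Subgroup.coe_pow]
        exact hsq u u.2
      obtain ⟨m, hm⟩ := IsPGroup.iff_card.mp hp
      exact ⟨m, by rw [← hcardN, hm]⟩

end Cfsg.Agent.S0695
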