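import Mathlib
import Cfsg.Statements.S0696
import Cfsg.Agent.S0695

set_option autoImplicit false
open Cfsg

namespace Cfsg.Agent.S0696

open MulAction SubMulAction in
open scoped Pointwise in
/-- A triply primitive group of degree at least 3 having a regular normal subgroup has degree 3 or 4. -/
theorem result {G : Type*} [Group G] {X : Type*} [Fintype X] [MulAction G X] (hX : 3 ≤ Fintype.card X) (h3 : MulAction.IsMultiplyPreprimitive G X 3) (N : Subgroup G) [N.Normal] (htrans : MulAction.IsPretransitive N X) (hreg : ∀ x : X, MulAction.stabilizer N x = ⊥) : Fintype.card X = 3 ∨ Fintype.card X = 4 := by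
  classical
  have hNn : N.Normal := inferInstance
  have h2 : IsMultiplyPreprimitive G X 2 := by
    refine isMultiplyPreprimitive_of_le (M := G) (α := X) h3 (by norm_num) ?_
    rw [ENat.card_eq_coe_fintype_card]; exact_mod_cast hX
  rcases Cfsg.Agent.S0695.result (by omega) h2 N htrans hreg with h | ⟨-, hsq, -⟩
  · left; exact h
  right
  obtain ⟨x₀, x₁, x₂, h01, h02, h12⟩ := Fintype.two_lt_card_iff.mp (by omega : 2 < Fintype.card X)
  obtain ⟨⟨a, haN⟩, ha⟩ := htrans.exists_smul_eq x₀ x₁
  obtain ⟨⟨b, hbN⟩, hb⟩ := htrans.exists_smul_eq x₀ x₂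
  have ha' : a • x₀ = x₁ := ha
  have hb' : b • x₀ = x₂ := hb
  have hfree : ∀ u v : G, u ∈ N → v ∈ N → u • x₀ = v • x₀ → u = v := by
    intro u v hu hv h
    have hmem : (⟨v⁻¹ * u, N.mul_mem (N.inv_mem hv) hu⟩ : N) ∈ stabilizer N x₀ := by
      rw [mem_stabilizer_iff]
      show (v⁻¹ * u) • x₀ = x₀
      rw [mul_smul, h, inv_smul_smul]
    rw [hreg x₀, Subgroup.mem_bot] at hmem
    have h2' : v⁻¹ * u = 1 := congrArg Subtype.val hmem
    exact (inv_mul_eq_one.mp h2').symm
  have haa : a * a = 1 := by rw [← sq]; exact hsq a haN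
  have habN : a * b ∈ N := N.mul_mem haN hbN
  have hax : a • x₀ ≠ x₀ := by rw [ha']; exact fun h => h01 h.symm
  have hbx : b • x₀ ≠ x₀ := by rw [hb']; exact fun h => h02 h.symm
  have hbax : b • x₀ ≠ a • x₀ := by rw [ha', hb']; exact fun h => h12 h.symm
  have habx : (a * b) • x₀ ≠ x₀ := by
    intro h
    have h1 : a * b = 1 := hfree _ _ habN N.one_mem (by rw [h, one_smul])
    have h2 : b = a := by
      calc b = a * (a * b) := by rw [← mul_assoc, haa, one_mul]
        _ = a := by rw [h1, mul_one]
    exact hbax (by rw [h2])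
  have habax : (a * b) • x₀ ≠ a • x₀ := by
    intro h
    have h1 : a * b = a := hfree _ _ habN haN h
    have h2 : b = 1 := mul_left_cancel (h1.trans (mul_one a).symm)
    exact hbx (by rw [h2, one_smul])
  have hbabx : b • x₀ ≠ (a * b) • x₀ := by
    intro h
    have h1 : b = a * b := hfree _ _ hbN habN h
    have h2 : a = 1 := by
      have : 1 * b = a * b := by rw [one_mul]; exact h1
      exact (mul_right_cancel this).symm
    exact hax (by rw [h2, one_smul])
  set s : Set X := {x₀, a • x₀} with hs
  have hscard : s.encard + 1 = (3 : ℕ) := by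
    rw [hs, Set.encard_pair (fun h => hax h.symm)]; rfl
  have hprim : IsPreprimitive (fixingSubgroup G s) (ofFixingSubgroup G s) :=
    IsMultiplyPreprimitive.isPreprimitive_ofFixingSubgroup G 3 hscard
  have hbs : b • x₀ ∈ ofFixingSubgroup G s := by
    rw [mem_ofFixingSubgroup_iff, hs]
    simp only [Set.mem_insert_iff, Set.mem_singleton_iff, not_or]
    exact ⟨hbx, hbax⟩
  have habs : (a * b) • x₀ ∈ ofFixingSubgroup G s := by
    rw [mem_ofFixingSubgroup_iff, hs]
    simp only [Set.mem_insert_iff, Set.mem_singleton_iff, not_or]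
    exact ⟨habx, habax⟩
  have hblock : IsBlock (fixingSubgroup G s)
      ({y | (y : X) = b • x₀ ∨ (y : X) = (a * b) • x₀} : Set (ofFixingSubgroup G s)) := by
    rw [isBlock_iff_smul_eq_of_mem]
    intro h y hy hhy
    have hfix : ∀ z ∈ s, (h : G) • z = z := (mem_fixingSubgroup_iff G).mp h.2
    have hx0 : (h : G) • x₀ = x₀ := hfix x₀ (by rw [hs]; exact Set.mem_insert _ _)
    have hax0 : (h : G) • a • x₀ = a • x₀ :=
      hfix (a • x₀) (by rw [hs]; exact Set.mem_insert_of_mem _ rfl)
    have hinv : (h : G)⁻¹ • x₀ = x₀ := inv_smul_eq_iff.mpr hx0.symm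
    have hcx : ∀ m : G, (h : G) • m • x₀ = ((h : G) * m * (h : G)⁻¹) • x₀ := by
      intro m
      rw [mul_smul, mul_smul, hinv]
    have hca : (h : G) * a * (h : G)⁻¹ = a := by
      apply hfree _ _ (hNn.conj_mem a haN h) haN
      rw [← hcx]; exact hax0
    have hc : (h : G) * b * (h : G)⁻¹ ∈ N := hNn.conj_mem b hbN h
    have hcab : (h : G) * (a * b) * (h : G)⁻¹ = a * ((h : G) * b * (h : G)⁻¹) := by
      calc (h : G) * (a * b) * (h : G)⁻¹
          = ((h : G) * a * (h : G)⁻¹) * ((h : G) * b * (h : G)⁻¹) := by group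
        _ = a * ((h : G) * b * (h : G)⁻¹) := by rw [hca]
    have hy' : ((h • y : ofFixingSubgroup G s) : X) = (h : G) • (y : X) := rfl
    have hcases : (h : G) * b * (h : G)⁻¹ = b ∨ (h : G) * b * (h : G)⁻¹ = a * b := by
      rcases hy with hy | hy <;> rcases hhy with hhy | hhy
      · left
        rw [hy', hy, hcx] at hhy
        exact hfree _ _ hc hbN hhy
      · right
        rw [hy', hy, hcx] at hhy
        exact hfree _ _ hc habN hhy
      · right
        rw [hy', hy, hcx, hcab] at hhy
        have h1 := hfree _ _ (N.mul_mem haN hc) hbN hhy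
        calc (h : G) * b * (h : G)⁻¹ = a * (a * ((h : G) * b * (h : G)⁻¹)) := by
              rw [← mul_assoc, haa, one_mul]
          _ = a * b := by rw [h1]
      · left
        rw [hy', hy, hcx, hcab] at hhy
        have h1 := hfree _ _ (N.mul_mem haN hc) habN hhy
        exact mul_left_cancel h1
    ext z
    rw [Set.mem_smul_set_iff_inv_smul_mem]
    have hz' : ((h⁻¹ • z : ofFixingSubgroup G s) : X) = (h : G)⁻¹ • (z : X) := rfl
    show (((h⁻¹ • z : ofFixingSubgroup G s) : X) = b • x₀ ∨
        ((h⁻¹ • z : ofFixingSubgroup G s) : X) = (a * b) • x₀) ↔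
          ((z : X) = b • x₀ ∨ (z : X) = (a * b) • x₀)
    rw [hz', inv_smul_eq_iff, inv_smul_eq_iff, hcx, hcx, hcab]
    rcases hcases with hc1 | hc1
    · rw [hc1]
    · rw [hc1, ← mul_assoc, haa, one_mul]; exact or_comm
  have htriv := hprim.isTrivialBlock_of_isBlock hblock
  rcases htriv with hsub | huniv
  · exfalso
    have h1 : (⟨b • x₀, hbs⟩ : ofFixingSubgroup G s) ∈
        ({y | (y : X) = b • x₀ ∨ (y : X) = (a * b) • x₀} : Set (ofFixingSubgroup G s)) :=
      Or.inl rfl
    have h2' : (⟨(a * b) • x₀, habs⟩ : ofFixingSubgroup G s) ∈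
        ({y | (y : X) = b • x₀ ∨ (y : X) = (a * b) • x₀} : Set (ofFixingSubgroup G s)) :=
      Or.inr rfl
    exact hbabx (congrArg Subtype.val (hsub h1 h2'))
  · have hall : ∀ x : X, x = x₀ ∨ x = a • x₀ ∨ x = b • x₀ ∨ x = (a * b) • x₀ := by
      intro x
      by_cases hx : x ∈ s
      · rw [hs] at hx
        rcases hx with hx | hx
        · left; exact hx
        · right; left; exact hx
      · right; right
        have hxs : x ∈ ofFixingSubgroup G s := by rw [mem_ofFixingSubgroup_iff]; exact hx
        have : (⟨x, hxs⟩ : ofFixingSubgroup G s) ∈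
            ({y | (y : X) = b • x₀ ∨ (y : X) = (a * b) • x₀} : Set (ofFixingSubgroup G s)) :=
          huniv ▸ Set.mem_univ _
        exact this
    have hcard : Fintype.card X = ({x₀, a • x₀, b • x₀, (a * b) • x₀} : Finset X).card := by
      rw [← Finset.card_univ]
      congr 1
      ext x
      simp only [Finset.mem_univ, Finset.mem_insert, Finset.mem_singleton, true_iff]
      exact hall x
    rw [hcard, Finset.card_insert_of_notMem, Finset.card_insert_of_notMem,
      Finset.card_insert_of_notMem, Finset.card_singleton]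
    all_goals simp only [Finset.mem_insert, Finset.mem_singleton, not_or]
    · exact hbabx
    · exact ⟨fun h => hbax h.symm, fun h => habax h.symm⟩
    · exact ⟨fun h => hax h.symm, fun h => hbx h.symm, fun h => habx h.symm⟩

end Cfsg.Agent.S0696
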