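import Cfsg.Statements.S0711
import Mathlib

set_option autoImplicit false
open Cfsg

namespace Cfsg.Agent.S0711

section aux

set_option linter.unusedSectionVars false
set_option linter.style.haveILetI false

variable {α : Type*} [Fintype α] [DecidableEq α]

theorem fix_of_fix (g x : Equiv.Perm α) (a : α) (h1 : x a = a) (h2 : x (g a) = g a) :
    (g⁻¹ * x * g * x⁻¹) a = a := by
  have h3 : x⁻¹ a = a := by rw [Equiv.Perm.inv_eq_iff_eq]; exact h1.symm
  simp only [Equiv.Perm.mul_apply, h3, h2]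
  simp

theorem fix_of_not_mem (g x : Equiv.Perm α) (a : α) (h1 : a ∉ g.support)
    (h2 : x⁻¹ a ∉ g.support) : (g⁻¹ * x * g * x⁻¹) a = a := by
  have h3 : g (x⁻¹ a) = x⁻¹ a := Equiv.Perm.notMem_support.mp h2
  have h4 : g⁻¹ a = a := by
    rw [Equiv.Perm.inv_eq_iff_eq]; exact (Equiv.Perm.notMem_support.mp h1).symm
  simp only [Equiv.Perm.mul_apply, h3]
  simp [h4]

theorem exists_agree (G : Subgroup (Equiv.Perm α)) {k : ℕ}
    (hkn : k ≤ Fintype.card α) (hG : MulAction.IsMultiplyPretransitive G α k)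
    (Λ : Finset α) (hΛ : Λ.card ≤ k) (s : Equiv.Perm α) :
    ∃ x ∈ G, ∀ a ∈ Λ, x a = s a := by
  haveI := hG
  haveI : MulAction.IsMultiplyPretransitive G α Λ.card :=
    MulAction.isMultiplyPretransitive_of_le (G := G) (α := α) (n := k) hΛ
      (by rw [Nat.card_eq_fintype_card]; exact hkn)
  let e : Fin Λ.card ↪ α := Λ.equivFin.symm.toEmbedding.trans (Function.Embedding.subtype _)
  let e' : Fin Λ.card ↪ α := e.trans s.toEmbedding
  obtain ⟨x, hx⟩ := MulAction.exists_smul_eq G e e'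
  refine ⟨x, x.2, ?_⟩
  intro a ha
  have h1 : (x • e) (Λ.equivFin ⟨a, ha⟩) = e' (Λ.equivFin ⟨a, ha⟩) := by rw [hx]
  have h2 : e (Λ.equivFin ⟨a, ha⟩) = a := by simp [e]
  have h3 : (x • e) (Λ.equivFin ⟨a, ha⟩) = (x : Equiv.Perm α) (e (Λ.equivFin ⟨a, ha⟩)) := rfl
  have h4 : e' (Λ.equivFin ⟨a, ha⟩) = s (e (Λ.equivFin ⟨a, ha⟩)) := rfl
  rw [h3, h4, h2] at h1
  exact h1

theorem greedy (g : Equiv.Perm α) : ∀ j ≤ g.support.card,
    ∃ Γ : Finset α, Γ ⊆ g.support ∧ Γ.card = j ∧ (Γ.filter (fun γ => g γ ∉ Γ)).card ≤ 1 := by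
  intro j
  induction j with
  | zero => intro _; exact ⟨∅, Finset.empty_subset _, Finset.card_empty, by simp⟩
  | succ j ih =>
    intro hj
    obtain ⟨Γ, hΓ, hcard, hbad⟩ := ih (by omega)
    by_cases hb : (Γ.filter (fun γ => g γ ∉ Γ)).card = 1
    · obtain ⟨γ₀, hγ₀⟩ := Finset.card_eq_one.mp hb
      have hγ₀mem : γ₀ ∈ Γ.filter (fun γ => g γ ∉ Γ) := by
        rw [hγ₀]; exact Finset.mem_singleton_self _
      obtain ⟨hγ₀Γ, hgγ₀⟩ := Finset.mem_filter.mp hγ₀mem
      refine ⟨insert (g γ₀) Γ, ?_, ?_, ?_⟩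
      · exact Finset.insert_subset (Equiv.Perm.apply_mem_support.mpr (hΓ hγ₀Γ)) hΓ
      · rw [Finset.card_insert_of_notMem hgγ₀, hcard]
      · apply le_trans (Finset.card_le_card (t := {g γ₀}) ?_) (by simp)
        intro γ hγ
        rw [Finset.mem_filter] at hγ
        obtain ⟨hγ1, hγ2⟩ := hγ
        rw [Finset.mem_insert] at hγ1
        rcases hγ1 with rfl | hγ1
        · exact Finset.mem_singleton_self _
        · exfalso
          have hmem : γ ∈ Γ.filter (fun γ => g γ ∉ Γ) :=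
            Finset.mem_filter.mpr ⟨hγ1, fun h => hγ2 (Finset.mem_insert_of_mem h)⟩
          rw [hγ₀, Finset.mem_singleton] at hmem
          subst hmem
          exact hγ2 (Finset.mem_insert_self _ _)
    · have hb0 : Γ.filter (fun γ => g γ ∉ Γ) = ∅ := by
        rw [← Finset.card_eq_zero]; omega
      obtain ⟨δ, hδ, hδΓ⟩ : ∃ δ ∈ g.support, δ ∉ Γ := by
        by_contra hcon
        push Not at hcon
        have hsub : g.support ⊆ Γ := hcon
        have := Finset.card_le_card hsub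
        omega
      refine ⟨insert δ Γ, Finset.insert_subset hδ hΓ,
        by rw [Finset.card_insert_of_notMem hδΓ, hcard], ?_⟩
      apply le_trans (Finset.card_le_card (t := {δ}) ?_) (by simp)
      intro γ hγ
      rw [Finset.mem_filter] at hγ
      obtain ⟨hγ1, hγ2⟩ := hγ
      rw [Finset.mem_insert] at hγ1
      rcases hγ1 with rfl | hγ1
      · exact Finset.mem_singleton_self _
      · exfalso
        have hmem : γ ∈ Γ.filter (fun γ => g γ ∉ Γ) :=
          Finset.mem_filter.mpr ⟨hγ1, fun h => hγ2 (Finset.mem_insert_of_mem h)⟩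
        rw [hb0] at hmem
        exact Finset.notMem_empty _ hmem

theorem exists_gamma (g : Equiv.Perm α) (k : ℕ) (hk4 : 4 ≤ k)
    (hkm : k + 1 ≤ g.support.card) (hmk : g.support.card + 3 ≤ 2 * k) :
    ∃ Γ : Finset α, Γ ⊆ g.support ∧ ∃ γ₀ ∈ Γ, g γ₀ ∉ Γ ∧ Γ.card + 1 ≤ k ∧
      Γ.card + 2 ≤ g.support.card ∧
      g.support.card + 1 ≤ k + (Γ.filter (fun γ => g γ ∈ Γ)).card := by
  obtain ⟨Γ₀, hΓ₀, hcard, hbad⟩ := greedy g (k - 1) (by omega)
  have hsplit := Finset.card_filter_add_card_filter_not (s := Γ₀) (fun γ => g γ ∈ Γ₀)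
  by_cases hb : (Γ₀.filter (fun γ => g γ ∉ Γ₀)).card = 1
  · obtain ⟨γ₀, hγ₀⟩ := Finset.card_eq_one.mp hb
    have hmem : γ₀ ∈ Γ₀.filter (fun γ => g γ ∉ Γ₀) := by
      rw [hγ₀]; exact Finset.mem_singleton_self _
    obtain ⟨h1, h2⟩ := Finset.mem_filter.mp hmem
    exact ⟨Γ₀, hΓ₀, γ₀, h1, h2, by omega, by omega, by omega⟩
  · have hb0 : Γ₀.filter (fun γ => g γ ∉ Γ₀) = ∅ := by
      rw [← Finset.card_eq_zero]; omega
    have hinv : ∀ γ ∈ Γ₀, g γ ∈ Γ₀ := by
      intro γ hγ
      by_contra h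
      have hmem : γ ∈ Γ₀.filter (fun γ => g γ ∉ Γ₀) := Finset.mem_filter.mpr ⟨hγ, h⟩
      rw [hb0] at hmem
      exact Finset.notMem_empty _ hmem
    have himg : Γ₀.image g = Γ₀ := by
      apply Finset.eq_of_subset_of_card_le
      · intro b hb
        obtain ⟨a, ha, rfl⟩ := Finset.mem_image.mp hb
        exact hinv a ha
      · rw [Finset.card_image_of_injective _ g.injective]
    have hinv' : ∀ δ, g δ ∈ Γ₀ → δ ∈ Γ₀ := by
      intro δ hδ
      rw [← himg] at hδ
      obtain ⟨a, ha, hga⟩ := Finset.mem_image.mp hδ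
      have := g.injective hga
      rw [← this]; exact ha
    obtain ⟨γ₁, hγ₁⟩ : ∃ γ₁, γ₁ ∈ Γ₀ := Finset.card_pos.mp (by omega)
    have hγ₁Δ := hΓ₀ hγ₁
    have hgγ₁ne : g γ₁ ≠ γ₁ := Equiv.Perm.mem_support.mp hγ₁Δ
    have hnotmem : γ₁ ∉ g.support \ Γ₀ := by
      rw [Finset.mem_sdiff]; exact fun h => h.2 hγ₁
    have hcardsd : (g.support \ Γ₀).card = g.support.card - Γ₀.card :=
      Finset.card_sdiff_of_subset hΓ₀
    refine ⟨insert γ₁ (g.support \ Γ₀), ?_, γ₁, Finset.mem_insert_self _ _, ?_, ?_, ?_, ?_⟩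
    · exact Finset.insert_subset hγ₁Δ Finset.sdiff_subset
    · rw [Finset.mem_insert, Finset.mem_sdiff]
      rintro (h | h)
      · exact hgγ₁ne h
      · exact h.2 (hinv γ₁ hγ₁)
    · rw [Finset.card_insert_of_notMem hnotmem, hcardsd]; omega
    · rw [Finset.card_insert_of_notMem hnotmem, hcardsd]; omega
    · have hsub : g.support \ Γ₀ ⊆ (insert γ₁ (g.support \ Γ₀)).filter
          (fun γ => g γ ∈ insert γ₁ (g.support \ Γ₀)) := by
        intro δ hδ
        rw [Finset.mem_filter]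
        refine ⟨Finset.mem_insert_of_mem hδ, Finset.mem_insert_of_mem ?_⟩
        rw [Finset.mem_sdiff] at hδ ⊢
        exact ⟨Equiv.Perm.apply_mem_support.mpr hδ.1, fun h => hδ.2 (hinv' δ h)⟩
      have := Finset.card_le_card hsub
      omega

theorem exists_small (G : Subgroup (Equiv.Perm α)) {k : ℕ} (hk : 3 ≤ k)
    (hkn : k ≤ Fintype.card α) (hG : MulAction.IsMultiplyPretransitive G α k) :
    ∀ m : ℕ, ∀ g : Equiv.Perm α, g ∈ G → g ≠ 1 → g.support.card = m → m < 2 * k - 2 →
      ∃ h : Equiv.Perm α, h ∈ G ∧ h ≠ 1 ∧ h.support.card ≤ 3 := by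
  intro m
  induction m using Nat.strong_induction_on with
  | _ m ih =>
  intro g hg hg1 hm hmk
  by_cases h3 : m ≤ 3
  · exact ⟨g, hg, hg1, by omega⟩
  by_cases hcase0 : Fintype.card α - 1 ≤ k
  · have htop : G = ⊤ := by
      apply Equiv.Perm.eq_top_of_isMultiplyPretransitive
      rw [Nat.card_eq_fintype_card]
      haveI := hG
      exact MulAction.isMultiplyPretransitive_of_le (G := G) (α := α) (n := k) hcase0
        (by rw [Nat.card_eq_fintype_card]; exact hkn)
    obtain ⟨δ, hδ⟩ : ∃ δ, δ ∈ g.support := Finset.card_pos.mp (by omega)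
    have hne : δ ≠ g δ := fun h => (Equiv.Perm.mem_support.mp hδ) h.symm
    refine ⟨Equiv.swap δ (g δ), by rw [htop]; exact Subgroup.mem_top _, ?_, ?_⟩
    · intro h; exact hne (Equiv.swap_eq_one_iff.mp h)
    · rw [Equiv.Perm.card_support_swap hne]; omega
  by_cases hmk' : m ≤ k
  · -- move one point of the support outside
    obtain ⟨δ, hδ⟩ : ∃ δ, δ ∈ g.support := Finset.card_pos.mp (by omega)
    obtain ⟨ω, hω⟩ : ∃ ω, ω ∉ g.support := by
      by_contra hcon
      push Not at hcon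
      have hu : g.support = Finset.univ := Finset.eq_univ_iff_forall.mpr hcon
      rw [hu, Finset.card_univ] at hm
      omega
    have hδω : δ ≠ ω := fun h => hω (h ▸ hδ)
    obtain ⟨x, hxG, hx⟩ := exists_agree G hkn hG g.support (by omega) (Equiv.swap δ ω)
    have hxδ : x δ = ω := by rw [hx δ hδ]; exact Equiv.swap_apply_left _ _
    have hxfix : ∀ a ∈ g.support, a ≠ δ → x a = a := by
      intro a ha had
      rw [hx a ha]
      exact Equiv.swap_apply_of_ne_of_ne had (fun h => hω (h ▸ ha))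
    have hgδ : g δ ∈ g.support := Equiv.Perm.apply_mem_support.mpr hδ
    have hgδne : g δ ≠ δ := Equiv.Perm.mem_support.mp hδ
    refine ⟨g⁻¹ * x * g * x⁻¹, ?_, ?_, ?_⟩
    · exact G.mul_mem (G.mul_mem (G.mul_mem (G.inv_mem hg) hxG) hg) (G.inv_mem hxG)
    · intro h1
      have h5 : (g⁻¹ * x * g * x⁻¹) ω = ω := by rw [h1]; rfl
      have hxinv : x⁻¹ ω = δ := by rw [Equiv.Perm.inv_eq_iff_eq]; exact hxδ.symm
      have h2 : (g⁻¹ * x * g * x⁻¹) ω = δ := by
        simp only [Equiv.Perm.mul_apply, hxinv, hxfix (g δ) hgδ hgδne]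
        simp
      exact hδω (h2.symm.trans h5)
    · have hsub : (g⁻¹ * x * g * x⁻¹).support ⊆ {δ, ω, g⁻¹ δ} := by
        intro a ha
        by_contra hnot
        simp only [Finset.mem_insert, Finset.mem_singleton, not_or] at hnot
        obtain ⟨h1, h2, h3⟩ := hnot
        apply Equiv.Perm.mem_support.mp ha
        by_cases haΔ : a ∈ g.support
        · have hxa : x a = a := hxfix a haΔ h1
          have hga : g a ∈ g.support := Equiv.Perm.apply_mem_support.mpr haΔ
          have hgane : g a ≠ δ := by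
            intro h; apply h3; rw [← h]; simp
          exact fix_of_fix g x a hxa (hxfix (g a) hga hgane)
        · apply fix_of_not_mem g x a haΔ
          intro hmem
          by_cases hb : x⁻¹ a = δ
          · apply h2
            have h6 : x (x⁻¹ a) = ω := by rw [hb]; exact hxδ
            simpa using h6
          · have h7 := hxfix _ hmem hb
            have h8 : x (x⁻¹ a) = a := by simp
            rw [h8] at h7
            rw [← h7] at hmem
            exact haΔ hmem
      exact le_trans (Finset.card_le_card hsub) Finset.card_le_three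
  · -- general commutator argument
    push Not at hmk'
    have hk4 : 4 ≤ k := by omega
    obtain ⟨Γ, hΓ, γ₀, hγ₀, hgγ₀, hΓk, hΓm, hΦ⟩ :=
      exists_gamma g k hk4 (by omega) (by omega)
    have hδ₁Δ : g γ₀ ∈ g.support := Equiv.Perm.apply_mem_support.mpr (hΓ hγ₀)
    obtain ⟨ε₁, hε₁Δ, hε₁⟩ : ∃ ε ∈ g.support, ε ∉ insert (g γ₀) Γ := by
      by_contra hcon
      push Not at hcon
      have hsub : g.support ⊆ insert (g γ₀) Γ := hcon
      have h1 := Finset.card_le_card hsub
      have h2 := Finset.card_insert_le (g γ₀) Γ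
      omega
    rw [Finset.mem_insert, not_or] at hε₁
    obtain ⟨hε₁δ, hε₁Γ⟩ := hε₁
    obtain ⟨Λ, hΛ1, hΛ2, hΛcard⟩ := Finset.exists_subsuperset_card_eq
      (s := insert (g γ₀) Γ) (t := g.support) (n := k) (Finset.insert_subset hδ₁Δ hΓ)
      (by have := Finset.card_insert_le (g γ₀) Γ; omega) (by omega)
    obtain ⟨x, hxG, hx⟩ := exists_agree G hkn hG Λ (by omega) (Equiv.swap (g γ₀) ε₁)
    have hxΓ : ∀ a ∈ Γ, x a = a := by
      intro a ha
      rw [hx a (hΛ1 (Finset.mem_insert_of_mem ha))]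
      exact Equiv.swap_apply_of_ne_of_ne (fun h => hgγ₀ (h ▸ ha)) (fun h => hε₁Γ (h ▸ ha))
    have hxδ₁ : x (g γ₀) = ε₁ := by
      rw [hx (g γ₀) (hΛ1 (Finset.mem_insert_self _ _))]; exact Equiv.swap_apply_left _ _
    have hxΛ : ∀ a ∈ Λ, x a ∈ g.support := by
      intro a ha
      rw [hx a ha, Equiv.swap_apply_def]
      split_ifs
      · exact hε₁Δ
      · exact hδ₁Δ
      · exact hΛ2 ha
    have hcG : g⁻¹ * x * g * x⁻¹ ∈ G :=
      G.mul_mem (G.mul_mem (G.mul_mem (G.inv_mem hg) hxG) hg) (G.inv_mem hxG)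
    have hc1 : g⁻¹ * x * g * x⁻¹ ≠ 1 := by
      intro h1
      have h2 : (g⁻¹ * x * g * x⁻¹) γ₀ = γ₀ := by rw [h1]; rfl
      have h3 : x⁻¹ γ₀ = γ₀ := by
        rw [Equiv.Perm.inv_eq_iff_eq]; exact (hxΓ γ₀ hγ₀).symm
      have h4 : (g⁻¹ * x * g * x⁻¹) γ₀ = g⁻¹ ε₁ := by
        simp only [Equiv.Perm.mul_apply, h3, hxδ₁]
      rw [h4, Equiv.Perm.inv_eq_iff_eq] at h2
      exact hε₁δ h2
    have hdisj : Disjoint (g⁻¹ * x * g * x⁻¹).support (Γ.filter (fun γ => g γ ∈ Γ)) := by
      rw [Finset.disjoint_left]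
      intro a ha haΦ
      obtain ⟨h1, h2⟩ := Finset.mem_filter.mp haΦ
      exact Equiv.Perm.mem_support.mp ha (fix_of_fix g x a (hxΓ a h1) (hxΓ _ h2))
    have hsub : (g⁻¹ * x * g * x⁻¹).support ∪ (Γ.filter (fun γ => g γ ∈ Γ)) ⊆
        g.support ∪ g.support.image x := by
      apply Finset.union_subset
      · intro a ha
        by_contra hnot
        rw [Finset.mem_union, not_or] at hnot
        apply Equiv.Perm.mem_support.mp ha
        apply fix_of_not_mem g x a hnot.1
        intro hmem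
        apply hnot.2
        rw [Finset.mem_image]
        exact ⟨x⁻¹ a, hmem, by simp⟩
      · intro a ha
        exact Finset.mem_union_left _ (hΓ (Finset.mem_filter.mp ha).1)
    have h1 := Finset.card_union_add_card_inter g.support (g.support.image x)
    have h2 : (g.support.image x).card = g.support.card :=
      Finset.card_image_of_injective _ x.injective
    have h3 : k ≤ (g.support ∩ g.support.image x).card := by
      rw [← hΛcard, ← Finset.card_image_of_injective Λ x.injective]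
      apply Finset.card_le_card
      intro b hb
      obtain ⟨a, ha, rfl⟩ := Finset.mem_image.mp hb
      exact Finset.mem_inter.mpr ⟨hxΛ a ha, Finset.mem_image_of_mem _ (hΛ2 ha)⟩
    have h4 : (g⁻¹ * x * g * x⁻¹).support.card + (Γ.filter (fun γ => g γ ∈ Γ)).card ≤
        (g.support ∪ g.support.image x).card := by
      rw [← Finset.card_union_of_disjoint hdisj]
      exact Finset.card_le_card hsub
    have hlt : (g⁻¹ * x * g * x⁻¹).support.card < m := by omega
    exact ih _ hlt (g⁻¹ * x * g * x⁻¹) hcG hc1 rfl (by omega)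

end aux

/-- A `k`-transitive permutation group (`k ≥ 3`) with a non-identity element of support smaller than `2k - 2` contains a non-identity element of support at most 3, and therefore contains the alternating group. -/
theorem result {α : Type*} [Fintype α] [DecidableEq α] (G : Subgroup (Equiv.Perm α)) {k : ℕ} (hk : 3 ≤ k) (hkn : k ≤ Fintype.card α) (hG : MulAction.IsMultiplyPretransitive G α k) (g : Equiv.Perm α) (hg : g ∈ G) (hg1 : g ≠ 1) (hsupp : g.support.card < 2 * k - 2) : (∃ h : Equiv.Perm α, h ∈ G ∧ h ≠ 1 ∧ h.support.card ≤ 3) ∧ alternatingGroup α ≤ G := by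
  obtain ⟨h, hhG, hh1, hh3⟩ := exists_small G hk hkn hG _ g hg hg1 rfl hsupp
  refine ⟨⟨h, hhG, hh1, hh3⟩, ?_⟩
  haveI := hG
  have h2t : MulAction.IsMultiplyPretransitive G α 2 :=
    MulAction.isMultiplyPretransitive_of_le (G := G) (α := α) (n := k) (by omega)
      (by rw [Nat.card_eq_fintype_card]; exact hkn)
  have hprim : MulAction.IsPreprimitive G α := MulAction.isPreprimitive_of_is_two_pretransitive h2t
  have h2le := Equiv.Perm.two_le_card_support_of_ne_one hh1
  have hcases : h.support.card = 2 ∨ h.support.card = 3 := by omega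
  rcases hcases with hc | hc
  · have htop : G = ⊤ :=
      Equiv.Perm.subgroup_eq_top_of_isPreprimitive_of_isSwap_mem hprim h
        (Equiv.Perm.card_support_eq_two.mp hc) hhG
    rw [htop]; exact le_top
  · exact Equiv.Perm.alternatingGroup_le_of_isPreprimitive_of_isThreeCycle_mem hprim
      (card_support_eq_three_iff.mp hc) hhG

end Cfsg.Agent.S0711
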