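import Cfsg.Statements.S0698
import Mathlib
import Cfsg.Agent.S0711

set_option autoImplicit false
open Cfsg

namespace Cfsg.Agent.S0698

open Equiv

set_option linter.unusedSectionVars false
set_option linter.style.haveILetI false

variable {α : Type*} [Fintype α] [DecidableEq α]

theorem inv_app (f : Perm α) (x : α) : f⁻¹ (f x) = x := f.symm_apply_apply x

theorem app_inv (f : Perm α) (x : α) : f (f⁻¹ x) = x := f.apply_symm_apply x

/-- `H` agrees with every permutation fixing `F` pointwise on every set of at most `m` points. -/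
def Tr (H : Subgroup (Perm α)) (F : Finset α) (m : ℕ) : Prop :=
  ∀ σ : Perm α, (∀ f ∈ F, σ f = f) → ∀ S : Finset α, S.card ≤ m → ∃ g ∈ H, ∀ x ∈ S, g x = σ x

theorem Tr.mono {H : Subgroup (Perm α)} {F : Finset α} {m m' : ℕ} (h : Tr H F m) (hm : m' ≤ m) :
    Tr H F m' :=
  fun σ hσ S hS => h σ hσ S (hS.trans hm)

theorem Tr.exists_map {H : Subgroup (Perm α)} {F : Finset α} {m : ℕ} (h : Tr H F m) (hm : 1 ≤ m)
    {x y : α} (hx : x ∉ F) (hy : y ∉ F) : ∃ g ∈ H, g x = y := by
  obtain ⟨g, hg, hgx⟩ := h (swap x y)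
    (fun f hf => swap_apply_of_ne_of_ne (by rintro rfl; exact hx hf) (by rintro rfl; exact hy hf))
    {x} (by simpa using hm)
  exact ⟨g, hg, by rw [hgx x (Finset.mem_singleton_self x), swap_apply_left]⟩

theorem Tr.stab {H : Subgroup (Perm α)} {F : Finset α} {m : ℕ} (h : Tr H F (m + 1)) (a : α) :
    Tr (H ⊓ MulAction.stabilizer (Perm α) a) (insert a F) m := by
  intro σ hσ S hS
  obtain ⟨g, hg, hgS⟩ := h σ (fun f hf => hσ f (Finset.mem_insert_of_mem hf)) (insert a S)
    ((Finset.card_insert_le a S).trans (Nat.succ_le_succ hS))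
  refine ⟨g, ⟨hg, MulAction.mem_stabilizer_iff.mpr ?_⟩,
    fun x hx => hgS x (Finset.mem_insert_of_mem hx)⟩
  show g a = a
  rw [hgS a (Finset.mem_insert_self a S)]
  exact hσ a (Finset.mem_insert_self a F)

theorem exists_notMem (T : Finset α) (h : T.card < Fintype.card α) : ∃ z, z ∉ T := by
  by_contra hall
  push Not at hall
  have := Finset.eq_univ_iff_forall.mpr hall
  rw [this, Finset.card_univ] at h
  exact lt_irrefl _ h

/-- a permutation fixing `F` and mapping `c ↦ x`, `d ↦ y` -/
theorem exists_perm2 (F : Finset α) {c d x y : α} (hcd : c ≠ d) (hxy : x ≠ y)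
    (hc : c ∉ F) (hd : d ∉ F) (hx : x ∉ F) (hy : y ∉ F) :
    ∃ τ : Perm α, (∀ f ∈ F, τ f = f) ∧ τ c = x ∧ τ d = y := by
  have hd1 : swap c x d ≠ x := by
    intro h
    have h2 : swap c x d = swap c x c := by rw [h, swap_apply_left]
    exact hcd ((swap c x).injective h2).symm
  have hd1F : swap c x d ∉ F := by
    intro hf
    have h2 : swap c x (swap c x d) = swap c x d :=
      swap_apply_of_ne_of_ne (fun h => hc (h ▸ hf)) (fun h => hx (h ▸ hf))
    have h3 := (swap c x).injective h2
    rw [h3] at hf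
    exact hd hf
  refine ⟨swap (swap c x d) y * swap c x, ?_, ?_, ?_⟩
  · intro f hf
    have h1 : swap c x f = f :=
      swap_apply_of_ne_of_ne (fun h => hc (h ▸ hf)) (fun h => hx (h ▸ hf))
    have h2 : swap (swap c x d) y f = f :=
      swap_apply_of_ne_of_ne (fun h => hd1F (h ▸ hf)) (fun h => hy (h ▸ hf))
    rw [Perm.mul_apply, h1, h2]
  · rw [Perm.mul_apply, swap_apply_left]
    exact swap_apply_of_ne_of_ne (Ne.symm hd1) hxy
  · rw [Perm.mul_apply, swap_apply_left]

theorem normal_trans {H N : Subgroup (Perm α)} {F : Finset α} (hF : ∀ h ∈ H, ∀ f ∈ F, h f = f)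
    (hH : Tr H F 2) (hNH : N ≤ H) (hnorm : ∀ h ∈ H, ∀ n ∈ N, h * n * h⁻¹ ∈ N) (hN : N ≠ ⊥) :
    Tr N F 1 := by
  obtain ⟨⟨n, hn⟩, hn1'⟩ := (Subgroup.ne_bot_iff_exists_ne_one).mp hN
  have hn1 : n ≠ 1 := fun h => hn1' (Subtype.ext h)
  obtain ⟨c, hc⟩ : ∃ c, n c ≠ c := by
    by_contra hc
    push Not at hc
    exact hn1 (Equiv.ext hc)
  have hcF : c ∉ F := fun hf => hc (hF n (hNH hn) c hf)
  have hdF : n c ∉ F := by
    intro hf
    have h2 := hF n (hNH hn) _ hf
    exact hc (n.injective h2)
  intro σ hσ S hS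
  haveI : Nonempty α := ⟨c⟩
  obtain ⟨x, hx⟩ := Finset.card_le_one_iff_subset_singleton.mp hS
  by_cases hfix : σ x = x
  · refine ⟨1, N.one_mem, fun z hz => ?_⟩
    have := Finset.mem_singleton.mp (hx hz)
    rw [this, hfix]; rfl
  · have hxF : x ∉ F := fun hf => hfix (hσ x hf)
    have hyF : σ x ∉ F := by
      intro hf
      have h2 := hσ _ hf
      exact hfix (σ.injective h2)
    obtain ⟨τ, hτF, hτc, hτd⟩ := exists_perm2 F (Ne.symm hc) (Ne.symm hfix) hcF hdF hxF hyF
    obtain ⟨h, hh, hhS⟩ := hH τ hτF {c, n c} Finset.card_le_two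
    have hhc : h c = x := by rw [hhS c (by simp), hτc]
    have hhd : h (n c) = σ x := by rw [hhS (n c) (by simp), hτd]
    refine ⟨h * n * h⁻¹, hnorm h hh n hn, fun z hz => ?_⟩
    have hzx := Finset.mem_singleton.mp (hx hz)
    have hinv : h⁻¹ x = c := by rw [Perm.inv_eq_iff_eq]; exact hhc.symm
    rw [hzx, Perm.mul_apply, Perm.mul_apply, hinv, hhd]

theorem Tr.of_stab {N : Subgroup (Perm α)} {F : Finset α} {m : ℕ}
    (hF : ∀ n ∈ N, ∀ f ∈ F, n f = f) (h1 : Tr N F 1) (a : α) (ha : a ∉ F)
    (h2 : Tr (N ⊓ MulAction.stabilizer (Perm α) a) (insert a F) m) : Tr N F (m + 1) := by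
  intro σ hσ S hS
  by_cases hSF : ∀ x ∈ S, x ∈ F
  · exact ⟨1, N.one_mem, fun x hx => by rw [hσ x (hSF x hx)]; rfl⟩
  push Not at hSF
  obtain ⟨x₀, hx₀S, hx₀F⟩ := hSF
  have hσx₀ : σ x₀ ∉ F := by
    intro hf
    have h3 := σ.injective (hσ _ hf)
    exact hx₀F (h3 ▸ hf)
  obtain ⟨n₁, hn₁, hn₁x⟩ := h1.exists_map le_rfl hx₀F ha
  obtain ⟨n₂, hn₂, hn₂x⟩ := h1.exists_map le_rfl hσx₀ ha
  have hσ' : ∀ f ∈ insert a F, (n₂ * σ * n₁⁻¹) f = f := by
    intro f hf
    rcases Finset.mem_insert.mp hf with rfl | hf
    · have h3 : n₁⁻¹ f = x₀ := by rw [Perm.inv_eq_iff_eq]; exact hn₁x.symm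
      rw [Perm.mul_apply, Perm.mul_apply, h3, hn₂x]
    · have h3 : n₁⁻¹ f = f := by rw [Perm.inv_eq_iff_eq]; exact (hF n₁ hn₁ f hf).symm
      rw [Perm.mul_apply, Perm.mul_apply, h3, hσ f hf, hF n₂ hn₂ f hf]
  obtain ⟨n₃, ⟨hn₃, hn₃a⟩, hn₃S⟩ := h2 (n₂ * σ * n₁⁻¹) hσ' ((S.erase x₀).image n₁) (by
    calc ((S.erase x₀).image n₁).card ≤ (S.erase x₀).card := Finset.card_image_le
      _ = S.card - 1 := Finset.card_erase_of_mem hx₀S
      _ ≤ m := by omega)
  have h3a : n₃ a = a := hn₃a
  refine ⟨n₂⁻¹ * n₃ * n₁, N.mul_mem (N.mul_mem (N.inv_mem hn₂) hn₃) hn₁, ?_⟩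
  intro x hx
  by_cases hxx : x = x₀
  · subst hxx
    rw [Perm.mul_apply, Perm.mul_apply, hn₁x, h3a, Perm.inv_eq_iff_eq]
    exact hn₂x.symm
  · have hmem : n₁ x ∈ (S.erase x₀).image n₁ :=
      Finset.mem_image_of_mem _ (Finset.mem_erase.mpr ⟨hxx, hx⟩)
    have h4 := hn₃S _ hmem
    rw [Perm.mul_apply, Perm.mul_apply, h4, Perm.mul_apply, Perm.mul_apply, inv_app,
      inv_app]

/-- conjugate trivial implies trivial -/
theorem eq_one_of_conj {g u : Perm α} (h : g * u * g⁻¹ = 1) : u = 1 := by
  have : u = g⁻¹ * (g * u * g⁻¹) * g := by group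
  rw [this, h]; group

theorem key (m : ℕ) (hm : 2 ≤ m) : ∀ (F : Finset α) (H N : Subgroup (Perm α)),
    (∀ h ∈ H, ∀ f ∈ F, h f = f) → Tr H F m → m + F.card < Fintype.card α → N ≤ H →
    (∀ h ∈ H, ∀ n ∈ N, h * n * h⁻¹ ∈ N) → N ≠ ⊥ →
    Tr N F (m - 1) ∨ (m = 3 ∧ (∀ x ∈ N, ∀ y ∈ N, x * y = y * x) ∧ ∀ n ∈ N, n ^ 2 = 1) := by
  induction m, hm using Nat.le_induction with
  | base =>
    intro F H N hF hH hcard hNH hnorm hN
    exact Or.inl (normal_trans hF hH hNH hnorm hN)
  | succ m hm ih =>
    intro F H N hF hH hcard hNH hnorm hN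
    have hNF : ∀ n ∈ N, ∀ f ∈ F, n f = f := fun n hn => hF n (hNH hn)
    have hN1 : Tr N F 1 := normal_trans hF (hH.mono (by omega)) hNH hnorm hN
    have hout : ∀ n ∈ N, ∀ y, y ∉ F → n y ∉ F := by
      intro n hn y hy hf
      have h3 := n.injective (hNF n hn _ hf)
      exact hy (h3 ▸ hf)
    obtain ⟨a, ha⟩ : ∃ a, a ∉ F := exists_notMem F (by omega)
    have hHaF : ∀ h ∈ H ⊓ MulAction.stabilizer (Perm α) a, ∀ f ∈ insert a F, h f = f := by
      intro h hh f hf
      rcases Finset.mem_insert.mp hf with rfl | hf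
      · exact hh.2
      · exact hF h hh.1 f hf
    have hHaT : Tr (H ⊓ MulAction.stabilizer (Perm α) a) (insert a F) m := hH.stab a
    have hcard' : m + (insert a F).card < Fintype.card α := by
      rw [Finset.card_insert_of_notMem ha]; omega
    have hNaHa : N ⊓ MulAction.stabilizer (Perm α) a ≤ H ⊓ MulAction.stabilizer (Perm α) a :=
      inf_le_inf_right _ hNH
    have hnorm' : ∀ h ∈ H ⊓ MulAction.stabilizer (Perm α) a,
        ∀ n ∈ N ⊓ MulAction.stabilizer (Perm α) a,
        h * n * h⁻¹ ∈ N ⊓ MulAction.stabilizer (Perm α) a := by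
      intro h hh n hn
      exact ⟨hnorm h hh.1 n hn.1, (MulAction.stabilizer (Perm α) a).mul_mem
        ((MulAction.stabilizer (Perm α) a).mul_mem hh.2 hn.2)
        ((MulAction.stabilizer (Perm α) a).inv_mem hh.2)⟩
    by_cases hNa1 : N ⊓ MulAction.stabilizer (Perm α) a = ⊥
    · -- regular case
      right
      have hreg : ∀ n ∈ N, n a = a → n = 1 := by
        intro n hn hna
        have h3 : n ∈ N ⊓ MulAction.stabilizer (Perm α) a := ⟨hn, hna⟩
        rw [hNa1] at h3
        exact Subgroup.mem_bot.mp h3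
      have hreg2 : ∀ x ∈ N, ∀ y ∈ N, x a = y a → x = y := by
        intro x hx y hy hxy
        have h3 : (x⁻¹ * y) a = a := by
          rw [Perm.mul_apply, ← hxy, inv_app]
        have h4 := hreg _ (N.mul_mem (N.inv_mem hx) hy) h3
        exact (inv_mul_eq_one.mp h4)
      -- every element is an involution
      have hsq : ∀ x ∈ N, x ^ 2 = 1 := by
        intro x hx
        by_contra hx2
        have hx1 : x ≠ 1 := by rintro rfl; exact hx2 (one_pow 2)
        have hb : x a ≠ a := fun h => hx1 (hreg x hx h)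
        have hb' : x⁻¹ a ≠ a := fun h => hx1 (inv_eq_one.mp (hreg _ (N.inv_mem hx) h))
        have hbb' : x a ≠ x⁻¹ a := by
          intro h
          have h3 := hreg2 x hx x⁻¹ (N.inv_mem hx) h
          apply hx2
          rw [sq]
          nth_rewrite 1 [h3]
          exact inv_mul_cancel x
        have hbF : x a ∉ F := hout x hx a ha
        have hb'F : x⁻¹ a ∉ F := hout _ (N.inv_mem hx) a ha
        obtain ⟨z, hz⟩ := exists_notMem (insert a (insert (x a) (insert (x⁻¹ a) F))) (by
          have h1 := Finset.card_insert_le a (insert (x a) (insert (x⁻¹ a) F))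
          have h2 := Finset.card_insert_le (x a) (insert (x⁻¹ a) F)
          have h3 := Finset.card_insert_le (x⁻¹ a) F
          omega)
        simp only [Finset.mem_insert, not_or] at hz
        obtain ⟨hza, hzb, hzb', hzF⟩ := hz
        obtain ⟨h, hh, hhS⟩ := hH (swap (x⁻¹ a) z)
          (fun f hf => swap_apply_of_ne_of_ne (fun e => hb'F (e ▸ hf)) (fun e => hzF (e ▸ hf)))
          {a, x a, x⁻¹ a} (by
            have := Finset.card_le_three (a := a) (b := x a) (c := x⁻¹ a)
            omega)
        have hha : h a = a := by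
          rw [hhS a (by simp)]
          exact swap_apply_of_ne_of_ne (Ne.symm hb') (Ne.symm hza)
        have hhb : h (x a) = x a := by
          rw [hhS (x a) (by simp)]
          exact swap_apply_of_ne_of_ne hbb' (Ne.symm hzb)
        have hhb' : h (x⁻¹ a) = z := by
          rw [hhS (x⁻¹ a) (by simp)]
          exact swap_apply_left _ _
        have hinva : h⁻¹ a = a := by rw [Perm.inv_eq_iff_eq]; exact hha.symm
        have hconj : h * x * h⁻¹ = x := by
          apply hreg2 _ (hnorm h hh x hx) x hx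
          rw [Perm.mul_apply, Perm.mul_apply, hinva, hhb]
        have hcomm : h * x = x * h := by
          have : h * x = (h * x * h⁻¹) * h := by group
          rw [this, hconj]
        have h5 : x (h (x⁻¹ a)) = a := by
          rw [← Perm.mul_apply, ← hcomm, Perm.mul_apply, app_inv, hha]
        have h6 : h (x⁻¹ a) = x⁻¹ a := by
          rw [Perm.eq_inv_iff_eq]; exact h5
        rw [hhb'] at h6
        exact hzb' h6
      have hinv : ∀ x ∈ N, x⁻¹ = x := by
        intro x hx
        have := hsq x hx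
        rw [sq] at this
        exact inv_eq_of_mul_eq_one_left this
      have hcommN : ∀ x ∈ N, ∀ y ∈ N, x * y = y * x := by
        intro x hx y hy
        calc x * y = (x * y)⁻¹ := (hinv _ (N.mul_mem hx hy)).symm
          _ = y⁻¹ * x⁻¹ := mul_inv_rev _ _
          _ = y * x := by rw [hinv x hx, hinv y hy]
      refine ⟨?_, hcommN, hsq⟩
      by_contra hm3
      have hm4 : 3 ≤ m := by omega
      obtain ⟨⟨x, hx⟩, hx1'⟩ := (Subgroup.ne_bot_iff_exists_ne_one).mp hN
      have hx1 : x ≠ 1 := fun h => hx1' (Subtype.ext h)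
      have hb : x a ≠ a := fun h => hx1 (hreg x hx h)
      have hbF : x a ∉ F := hout x hx a ha
      obtain ⟨c, hc⟩ := exists_notMem (insert a (insert (x a) F)) (by
        have h1 := Finset.card_insert_le a (insert (x a) F)
        have h2 := Finset.card_insert_le (x a) F
        omega)
      simp only [Finset.mem_insert, not_or] at hc
      obtain ⟨hca, hcb, hcF⟩ := hc
      obtain ⟨y, hy, hya⟩ := hN1.exists_map le_rfl ha hcF
      have hdF : x c ∉ F := hout x hx c hcF
      have hda : x c ≠ a := by
        intro h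
        have h3 : (x * y) a = a := by rw [Perm.mul_apply, hya, h]
        have h4 := hreg _ (N.mul_mem hx hy) h3
        have h5 : y = x := by
          have := eq_inv_of_mul_eq_one_right h4
          rw [this, hinv x hx]
        rw [h5] at hya
        exact hcb hya.symm
      have hdb : x c ≠ x a := fun h => hca (x.injective h)
      have hdc : x c ≠ c := by
        intro h
        have h3 : (y⁻¹ * x * y) a = a := by
          rw [Perm.mul_apply, Perm.mul_apply, hya, h, ← hya, inv_app]
        have h4 := hreg _ (N.mul_mem (N.mul_mem (N.inv_mem hy) hx) hy) h3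
        have h5 : x = 1 := by
          have : x = y * (y⁻¹ * x * y) * y⁻¹ := by group
          rw [this, h4]; group
        exact hx1 h5
      obtain ⟨z, hz⟩ := exists_notMem (insert a (insert (x a) (insert c (insert (x c) F)))) (by
        have h1 := Finset.card_insert_le a (insert (x a) (insert c (insert (x c) F)))
        have h2 := Finset.card_insert_le (x a) (insert c (insert (x c) F))
        have h3 := Finset.card_insert_le c (insert (x c) F)
        have h4 := Finset.card_insert_le (x c) F
        omega)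
      simp only [Finset.mem_insert, not_or] at hz
      obtain ⟨hza, hzb, hzc, hzd, hzF⟩ := hz
      obtain ⟨h, hh, hhS⟩ := hH (swap (x c) z)
        (fun f hf => swap_apply_of_ne_of_ne (fun e => hdF (e ▸ hf)) (fun e => hzF (e ▸ hf)))
        {a, x a, c, x c} (by
          have := Finset.card_le_four (a := a) (b := x a) (c := c) (d := x c)
          omega)
      have hha : h a = a := by
        rw [hhS a (by simp)]
        exact swap_apply_of_ne_of_ne (Ne.symm hda) (Ne.symm hza)
      have hhb : h (x a) = x a := by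
        rw [hhS (x a) (by simp)]
        exact swap_apply_of_ne_of_ne (Ne.symm hdb) (Ne.symm hzb)
      have hhc : h c = c := by
        rw [hhS c (by simp)]
        exact swap_apply_of_ne_of_ne (Ne.symm hdc) (Ne.symm hzc)
      have hhd : h (x c) = z := by
        rw [hhS (x c) (by simp)]
        exact swap_apply_left _ _
      have hinva : h⁻¹ a = a := by rw [Perm.inv_eq_iff_eq]; exact hha.symm
      have hconj : h * x * h⁻¹ = x := by
        apply hreg2 _ (hnorm h hh x hx) x hx
        rw [Perm.mul_apply, Perm.mul_apply, hinva, hhb]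
      have hcomm : h * x = x * h := by
        have : h * x = (h * x * h⁻¹) * h := by group
        rw [this, hconj]
      have h6 : h (x c) = x c := by
        rw [← Perm.mul_apply, hcomm, Perm.mul_apply, hhc]
      rw [hhd] at h6
      exact hzd h6
    · rcases ih (insert a F) _ _ hHaF hHaT hcard' hNaHa hnorm' hNa1 with h | ⟨hm3, hcomm, hexp⟩
      · left
        have h3 := Tr.of_stab hNF hN1 a ha h
        have e : m - 1 + 1 = m + 1 - 1 := by omega
        rw [← e]; exact h3
      · exfalso
        have hNaT : Tr (N ⊓ MulAction.stabilizer (Perm α) a) (insert a F) 1 :=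
          normal_trans hHaF (hHaT.mono (by omega)) hNaHa hnorm' hNa1
        -- semiregularity of N_a outside insert a F
        have hS1 : ∀ n ∈ N ⊓ MulAction.stabilizer (Perm α) a, ∀ b, b ∉ insert a F →
            n b = b → n = 1 := by
          intro n hn b hb hnb
          ext c
          by_cases hc : c ∈ insert a F
          · exact hHaF n (hNaHa hn) c hc
          · obtain ⟨t, ht, htb⟩ := hNaT.exists_map le_rfl hb hc
            have h3 : n (t b) = t (n b) := by
              rw [← Perm.mul_apply, ← Perm.mul_apply, hcomm n hn t ht]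
            rw [← htb, h3, hnb]; rfl
        have hS2 : ∀ u ∈ N, ∀ c c', c ∉ F → c' ∉ F → c ≠ c' → u c = c → u c' = c' → u = 1 := by
          intro u hu c c' hc hc' hcc' huc huc'
          obtain ⟨g, hg, hgc⟩ := hN1.exists_map le_rfl hc ha
          have hginv : g⁻¹ a = c := by rw [Perm.inv_eq_iff_eq]; exact hgc.symm
          have h3 : g * u * g⁻¹ ∈ N ⊓ MulAction.stabilizer (Perm α) a := by
            refine ⟨N.mul_mem (N.mul_mem hg hu) (N.inv_mem hg), ?_⟩
            show (g * u * g⁻¹) a = a
            rw [Perm.mul_apply, Perm.mul_apply, hginv, huc, hgc]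
          have h4 : g c' ∉ insert a F := by
            intro hmem
            rcases Finset.mem_insert.mp hmem with h | h
            · rw [← hgc] at h
              exact hcc' (g.injective h).symm
            · exact hout g hg c' hc' h
          have h5 : (g * u * g⁻¹) (g c') = g c' := by
            rw [Perm.mul_apply, Perm.mul_apply, inv_app, huc']
          exact eq_one_of_conj (hS1 _ h3 _ h4 h5)
        obtain ⟨⟨s, hs⟩, hs1'⟩ := (Subgroup.ne_bot_iff_exists_ne_one).mp hNa1
        have hs1 : s ≠ 1 := fun h => hs1' (Subtype.ext h)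
        have hsa : s a = a := hs.2
        obtain ⟨c, hc⟩ : ∃ c, s c ≠ c := by
          by_contra hc
          push Not at hc
          exact hs1 (Equiv.ext hc)
        have hcF' : c ∉ insert a F := fun hf => hc (hHaF s (hNaHa hs) c hf)
        have hca : c ≠ a := fun h => hcF' (h ▸ Finset.mem_insert_self a F)
        have hcF : c ∉ F := fun h => hcF' (Finset.mem_insert_of_mem h)
        have hc'F : s c ∉ F := hout s hs.1 c hcF
        have hc'a : s c ≠ a := by
          intro h
          rw [← hsa] at h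
          exact hca (s.injective h)
        have hsc' : s (s c) = c := by
          have := hexp s hs
          rw [sq] at this
          rw [← Perm.mul_apply, this]; rfl
        obtain ⟨b, hb⟩ := exists_notMem (insert a (insert c (insert (s c) F))) (by
          have h1 := Finset.card_insert_le a (insert c (insert (s c) F))
          have h2 := Finset.card_insert_le c (insert (s c) F)
          have h3 := Finset.card_insert_le (s c) F
          omega)
        simp only [Finset.mem_insert, not_or] at hb
        obtain ⟨hba, hbc, hbc', hbF⟩ := hb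
        obtain ⟨h, hh, hhS⟩ := hH (swap a b)
          (fun f hf => swap_apply_of_ne_of_ne (fun e => ha (e ▸ hf)) (fun e => hbF (e ▸ hf)))
          {c, s c, a} (by
            have := Finset.card_le_three (a := c) (b := s c) (c := a)
            omega)
        have hhc : h c = c := by
          rw [hhS c (by simp)]
          exact swap_apply_of_ne_of_ne hca (Ne.symm hbc)
        have hhc' : h (s c) = s c := by
          rw [hhS (s c) (by simp)]
          exact swap_apply_of_ne_of_ne hc'a (Ne.symm hbc')
        have hha : h a = b := by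
          rw [hhS a (by simp)]
          exact swap_apply_left _ _
        have hinvb : h⁻¹ b = a := by rw [Perm.inv_eq_iff_eq]; exact hha.symm
        have hinvc : h⁻¹ c = c := by rw [Perm.inv_eq_iff_eq]; exact hhc.symm
        have hinvc' : h⁻¹ (s c) = s c := by rw [Perm.inv_eq_iff_eq]; exact hhc'.symm
        have hs''N : h * s * h⁻¹ ∈ N := hnorm h hh s hs.1
        have hs''b : (h * s * h⁻¹) b = b := by
          rw [Perm.mul_apply, Perm.mul_apply, hinvb, hsa, hha]
        have hs''c : (h * s * h⁻¹) c = s c := by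
          rw [Perm.mul_apply, Perm.mul_apply, hinvc, hhc']
        have hs''c' : (h * s * h⁻¹) (s c) = c := by
          rw [Perm.mul_apply, Perm.mul_apply, hinvc', hsc', hhc]
        have hu : s⁻¹ * (h * s * h⁻¹) = 1 := by
          apply hS2 _ (N.mul_mem (N.inv_mem hs.1) hs''N) c (s c) hcF hc'F (Ne.symm hc)
          · rw [Perm.mul_apply, hs''c, inv_app]
          · rw [Perm.mul_apply, hs''c', Perm.inv_eq_iff_eq]
            exact hsc'.symm
        have hs'' : h * s * h⁻¹ = s := (inv_mul_eq_one.mp hu).symm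
        rw [hs''] at hs''b
        have hbF' : b ∉ insert a F := by
          intro hmem
          rcases Finset.mem_insert.mp hmem with h | h
          · exact hba h
          · exact hbF h
        exact hs1 (hS1 s hs b hbF' hs''b)

/-- Jordan's Theorem on normal subgroups of multiply transitive groups: if `G` is `k`-transitive (`k > 1`) of degree greater than `k`, a non-trivial normal subgroup is `(k-1)`-transitive, except possibly for `k = 3` when it may be an elementary abelian 2-group. -/
theorem result {α : Type*} [Fintype α] [DecidableEq α] (G : Subgroup (Equiv.Perm α)) {k : ℕ} (hk : 1 < k) (hdeg : k < Fintype.card α) (hG : MulAction.IsMultiplyPretransitive G α k) (N : Subgroup G) [N.Normal] (hN : N ≠ ⊥) : MulAction.IsMultiplyPretransitive N α (k - 1) ∨ (k = 3 ∧ IsMulCommutative N ∧ ∀ n ∈ N, n ^ 2 = 1) := by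
  have hTr : Tr G ∅ k := fun σ _ S hS => S0711.exists_agree G hdeg.le hG S hS σ
  have hnormal : ∀ h ∈ G, ∀ n ∈ N.map G.subtype, h * n * h⁻¹ ∈ N.map G.subtype := by
    intro h hh n hn
    obtain ⟨n', hn', rfl⟩ := Subgroup.mem_map.mp hn
    exact Subgroup.mem_map.mpr ⟨⟨h, hh⟩ * n' * ⟨h, hh⟩⁻¹,
      ‹N.Normal›.conj_mem n' hn' ⟨h, hh⟩, rfl⟩
  have hN' : N.map G.subtype ≠ ⊥ := by
    intro h
    exact hN ((Subgroup.map_eq_bot_iff_of_injective N G.subtype_injective).mp h)
  have hle : N.map G.subtype ≤ G := by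
    intro x hx
    obtain ⟨n', _, rfl⟩ := Subgroup.mem_map.mp hx
    exact n'.2
  rcases key k hk ∅ G (N.map G.subtype) (fun _ _ f hf => absurd hf (Finset.notMem_empty f)) hTr
    (by simpa using hdeg) hle hnormal hN' with h | ⟨h3, hcomm, hsq⟩
  · left
    refine ⟨fun x y => ?_⟩
    haveI := Equiv.Perm.isMultiplyPretransitive α (k - 1)
    obtain ⟨σ, hσ⟩ := MulAction.exists_smul_eq (Equiv.Perm α) x y
    obtain ⟨g, hg, hgS⟩ := h σ (fun f hf => absurd hf (Finset.notMem_empty f))
      (Finset.univ.map x) (by simp)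
    obtain ⟨n, hn, rfl⟩ := Subgroup.mem_map.mp hg
    refine ⟨⟨n, hn⟩, ?_⟩
    ext i
    have h4 := hgS (x i) (Finset.mem_map_of_mem x (Finset.mem_univ i))
    have h5 : ((⟨n, hn⟩ : ↥N) • x) i = (σ • x) i := by
      simp only [Function.Embedding.smul_apply]
      exact h4
    rw [← hσ]; exact h5
  · right
    refine ⟨h3, ⟨⟨fun a b => ?_⟩⟩, fun n hn => ?_⟩
    · have h4 := hcomm _ (Subgroup.mem_map_of_mem G.subtype a.2) _
        (Subgroup.mem_map_of_mem G.subtype b.2)
      exact Subtype.ext (Subtype.ext h4)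
    · have h4 := hsq _ (Subgroup.mem_map_of_mem G.subtype hn)
      exact Subtype.ext h4

end Cfsg.Agent.S0698
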