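import Cfsg.Statements.S0697
import Mathlib
import Cfsg.Agent.S0698

set_option autoImplicit false
open Cfsg

namespace Cfsg.Agent.S0697

open Equiv Cfsg.Agent.S0698

set_option linter.unusedSectionVars false
set_option linter.style.haveILetI false

variable {α : Type*} [Fintype α] [DecidableEq α]

/-- Concrete form of primitivity of the pointwise stabiliser of `s` on the complement of `s`. -/
theorem prim_concrete (G : Subgroup (Perm α)) (s : Finset α)
    (hprim : MulAction.IsPreprimitive (fixingSubgroup ↥G (s : Set α))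
      (SubMulAction.ofFixingSubgroup ↥G (s : Set α)))
    (B : Set α) (hBs : ∀ x ∈ B, x ∉ s)
    (hblock : ∀ g ∈ G, (∀ z ∈ s, g z = z) → ∀ x ∈ B, g x ∈ B → ∀ y ∈ B, g y ∈ B) :
    (∀ x ∈ B, ∀ y ∈ B, x = y) ∨ (∀ x, x ∉ s → x ∈ B) := by
  have hfix : ∀ g' : fixingSubgroup ↥G (s : Set α), ∀ z ∈ s, ((g' : ↥G) : Perm α) z = z := by
    intro g' z hz
    exact (mem_fixingSubgroup_iff ↥G).mp g'.2 z (Finset.mem_coe.mpr hz)
  have hblk : MulAction.IsBlock (fixingSubgroup ↥G (s : Set α))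
      (Subtype.val ⁻¹' B : Set (SubMulAction.ofFixingSubgroup ↥G (s : Set α))) := by
    rw [MulAction.isBlock_iff_smul_eq_of_mem]
    intro g a ha hga
    ext y
    constructor
    · rintro ⟨b, hb, rfl⟩
      exact hblock _ (g : ↥G).2 (hfix g) (a : α) ha hga (b : α) hb
    · intro hy
      refine ⟨g⁻¹ • y, ?_, smul_inv_smul g y⟩
      have h1 : ((g⁻¹ • (g • a) : SubMulAction.ofFixingSubgroup ↥G (s : Set α)) : α) ∈ B := by
        rw [inv_smul_smul]; exact ha
      exact hblock _ ((g⁻¹ : fixingSubgroup ↥G (s : Set α)) : ↥G).2 (hfix g⁻¹)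
        ((g • a : SubMulAction.ofFixingSubgroup ↥G (s : Set α)) : α) hga h1 (y : α) hy
  rcases hprim.isTrivialBlock_of_isBlock hblk with h | h
  · left
    intro x hx y hy
    have h2 := @h ⟨x, hBs x hx⟩ hx ⟨y, hBs y hy⟩ hy
    exact congrArg Subtype.val h2
  · right
    intro x hx
    have h2 : (⟨x, hx⟩ : SubMulAction.ofFixingSubgroup ↥G (s : Set α)) ∈
        (Subtype.val ⁻¹' B : Set (SubMulAction.ofFixingSubgroup ↥G (s : Set α))) := by
      rw [h]; trivial
    exact h2

/-- A normal subgroup whose pointwise stabiliser of `s` is non-trivial is transitive on the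
complement of `s`, if the pointwise stabiliser of `s` in `G` is primitive there. -/
theorem prim_trans (G H : Subgroup (Perm α)) (s : Finset α)
    (hprim : MulAction.IsPreprimitive (fixingSubgroup ↥G (s : Set α))
      (SubMulAction.ofFixingSubgroup ↥G (s : Set α)))
    (hnorm : ∀ g ∈ G, ∀ h ∈ H, g * h * g⁻¹ ∈ H)
    (hne : ∃ h ∈ H, (∀ z ∈ s, h z = z) ∧ h ≠ 1) :
    ∀ x y, x ∉ s → y ∉ s → ∃ h ∈ H, (∀ z ∈ s, h z = z) ∧ h x = y := by
  obtain ⟨h₀, hh₀, hh₀s, hh₀1⟩ := hne
  obtain ⟨x₀, hx₀⟩ : ∃ x₀, h₀ x₀ ≠ x₀ := by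
    by_contra hc
    push Not at hc
    exact hh₀1 (Equiv.ext hc)
  have hx₀s : x₀ ∉ s := fun hz => hx₀ (hh₀s x₀ hz)
  have hBs : ∀ y ∈ {y | ∃ h ∈ H, (∀ z ∈ s, h z = z) ∧ h x₀ = y}, y ∉ s := by
    rintro y ⟨h, hh, hhs, rfl⟩ hy
    have h3 := h.injective (hhs _ hy)
    exact hx₀s (h3 ▸ hy)
  have hblock : ∀ g ∈ G, (∀ z ∈ s, g z = z) →
      ∀ x ∈ {y | ∃ h ∈ H, (∀ z ∈ s, h z = z) ∧ h x₀ = y},
      g x ∈ {y | ∃ h ∈ H, (∀ z ∈ s, h z = z) ∧ h x₀ = y} →
      ∀ y ∈ {y | ∃ h ∈ H, (∀ z ∈ s, h z = z) ∧ h x₀ = y},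
      g y ∈ {y | ∃ h ∈ H, (∀ z ∈ s, h z = z) ∧ h x₀ = y} := by
    rintro g hg hgs x ⟨h₁, hh₁, hh₁s, rfl⟩ ⟨h₂, hh₂, hh₂s, h2eq⟩ y ⟨h₃, hh₃, hh₃s, rfl⟩
    refine ⟨g * (h₃ * h₁⁻¹) * g⁻¹ * h₂,
      H.mul_mem (hnorm g hg _ (H.mul_mem hh₃ (H.inv_mem hh₁))) hh₂, ?_, ?_⟩
    · intro z hz
      have e1 : g⁻¹ z = z := by rw [Perm.inv_eq_iff_eq]; exact (hgs z hz).symm
      have e2 : h₁⁻¹ z = z := by rw [Perm.inv_eq_iff_eq]; exact (hh₁s z hz).symm
      simp only [Perm.mul_apply, hh₂s z hz, e1, e2, hh₃s z hz, hgs z hz]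
    · simp only [Perm.mul_apply]
      rw [h2eq, inv_app, inv_app]
  rcases prim_concrete G s hprim _ hBs hblock with hsub | hall
  · exfalso
    have h1 : x₀ ∈ {y | ∃ h ∈ H, (∀ z ∈ s, h z = z) ∧ h x₀ = y} :=
      ⟨1, H.one_mem, fun _ _ => rfl, rfl⟩
    have h2 : h₀ x₀ ∈ {y | ∃ h ∈ H, (∀ z ∈ s, h z = z) ∧ h x₀ = y} := ⟨h₀, hh₀, hh₀s, rfl⟩
    exact hx₀ (hsub _ h2 _ h1)
  · intro x y hx hy
    obtain ⟨h₁, hh₁, hh₁s, hh₁x⟩ := hall x hx
    obtain ⟨h₂, hh₂, hh₂s, hh₂y⟩ := hall y hy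
    refine ⟨h₂ * h₁⁻¹, H.mul_mem hh₂ (H.inv_mem hh₁), ?_, ?_⟩
    · intro z hz
      have e2 : h₁⁻¹ z = z := by rw [Perm.inv_eq_iff_eq]; exact (hh₁s z hz).symm
      rw [Perm.mul_apply, e2, hh₂s z hz]
    · rw [Perm.mul_apply, ← hh₁x, inv_app, hh₂y]

/-- A sharply `j`-transitive (`j ≥ 2`) normal subgroup cannot live in a `(j+1)`-primitive group of
degree at least `j + 3`. -/
theorem sharp_contra (G H : Subgroup (Perm α)) (j : ℕ) (hj : 2 ≤ j)
    (hcard : j + 3 ≤ Fintype.card α) (hTrG : Tr G ∅ (j + 1)) (hTrH : Tr H ∅ j)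
    (hnorm : ∀ g ∈ G, ∀ h ∈ H, g * h * g⁻¹ ∈ H) (s : Finset α) (hs : s.card = j)
    (hprim : MulAction.IsPreprimitive (fixingSubgroup ↥G (s : Set α))
      (SubMulAction.ofFixingSubgroup ↥G (s : Set α)))
    (hs1 : ∀ h ∈ H, (∀ z ∈ s, h z = z) → h = 1) : False := by
  obtain ⟨a, has, b, hbs, hab⟩ := Finset.one_lt_card.mp (by omega : 1 < s.card)
  -- Ta = s.erase b
  have hbTa : b ∉ s.erase b := Finset.notMem_erase b s
  have haTa : a ∈ s.erase b := Finset.mem_erase.mpr ⟨hab, has⟩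
  have hTacard : (s.erase b).card = j - 1 := by rw [Finset.card_erase_of_mem hbs, hs]
  have hmem_s : ∀ z, z ∈ s ↔ z = b ∨ z ∈ s.erase b := by
    intro z
    constructor
    · intro hz
      by_cases hzb : z = b
      · exact Or.inl hzb
      · exact Or.inr (Finset.mem_erase.mpr ⟨hzb, hz⟩)
    · rintro (rfl | hz)
      · exact hbs
      · exact Finset.mem_of_mem_erase hz
  -- transitivity of R on the complement of Ta
  have hRtrans : ∀ x y, x ∉ s.erase b → y ∉ s.erase b →
      ∃ r ∈ H, (∀ z ∈ s.erase b, r z = z) ∧ r x = y := by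
    intro x y hx hy
    obtain ⟨r, hr, hrS⟩ := hTrH (swap x y) (fun f hf => absurd hf (Finset.notMem_empty f))
      (insert x (s.erase b)) (by
        have := Finset.card_insert_le x (s.erase b)
        omega)
    refine ⟨r, hr, fun z hz => ?_, ?_⟩
    · rw [hrS z (Finset.mem_insert_of_mem hz)]
      exact swap_apply_of_ne_of_ne (fun e => hx (e ▸ hz)) (fun e => hy (e ▸ hz))
    · rw [hrS x (Finset.mem_insert_self x _), swap_apply_left]
  -- semiregularity
  have hRsemi : ∀ r ∈ H, (∀ z ∈ s.erase b, r z = z) → ∀ x, x ∉ s.erase b → r x = x → r = 1 := by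
    intro r hr hrT x hx hrx
    obtain ⟨r', hr', hr'T, hr'x⟩ := hRtrans x b hx hbTa
    have hinvx : r'⁻¹ b = x := by rw [Perm.inv_eq_iff_eq]; exact hr'x.symm
    have h1 : r' * r * r'⁻¹ = 1 := by
      apply hs1 _ (H.mul_mem (H.mul_mem hr' hr) (H.inv_mem hr'))
      intro z hz
      rcases (hmem_s z).mp hz with rfl | hz
      · rw [Perm.mul_apply, Perm.mul_apply, hinvx, hrx, hr'x]
      · have e : r'⁻¹ z = z := by rw [Perm.inv_eq_iff_eq]; exact (hr'T z hz).symm
        rw [Perm.mul_apply, Perm.mul_apply, e, hrT z hz, hr'T z hz]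
    exact eq_one_of_conj h1
  have hRuniq : ∀ r₁ ∈ H, (∀ z ∈ s.erase b, r₁ z = z) → ∀ r₂ ∈ H, (∀ z ∈ s.erase b, r₂ z = z) →
      r₁ b = r₂ b → r₁ = r₂ := by
    intro r₁ hr₁ hr₁T r₂ hr₂ hr₂T h
    have h1 : r₁⁻¹ * r₂ = 1 := by
      apply hRsemi _ (H.mul_mem (H.inv_mem hr₁) hr₂) _ b hbTa
      · rw [Perm.mul_apply, ← h, inv_app]
      · intro z hz
        have e : r₁⁻¹ z = z := by rw [Perm.inv_eq_iff_eq]; exact (hr₁T z hz).symm
        rw [Perm.mul_apply, hr₂T z hz, e]
    exact inv_mul_eq_one.mp h1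
  have hRinvT : ∀ r : Perm α, (∀ z ∈ s.erase b, r z = z) → ∀ z ∈ s.erase b, r⁻¹ z = z := by
    intro r hr z hz
    rw [Perm.inv_eq_iff_eq]; exact (hr z hz).symm
  -- points moved by R stay outside Ta
  have hRout : ∀ r : Perm α, (∀ z ∈ s.erase b, r z = z) → ∀ x, x ∉ s.erase b →
      r x ∉ s.erase b := by
    intro r hr x hx hmem
    have h3 := r.injective (hr _ hmem)
    exact hx (h3 ▸ hmem)
  -- every element of R is an involution
  have hRinv : ∀ x ∈ H, (∀ z ∈ s.erase b, x z = z) → x⁻¹ = x := by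
    intro x hx hxT
    by_cases hx1 : x = 1
    · rw [hx1, inv_one]
    have hxinv1 : x⁻¹ ≠ 1 := fun h => hx1 (inv_eq_one.mp h)
    have hxb : x b ≠ b := fun h => hx1 (hRsemi x hx hxT b hbTa h)
    have hxib : x⁻¹ b ≠ b := fun h =>
      hxinv1 (hRsemi _ (H.inv_mem hx) (hRinvT x hxT) b hbTa h)
    have hBs : ∀ y ∈ ({x b, x⁻¹ b} : Set α), y ∉ s := by
      intro y hy hys
      rcases hy with rfl | rfl
      · rcases (hmem_s _).mp hys with h | h
        · exact hxb h
        · exact hRout x hxT b hbTa h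
      · rcases (hmem_s _).mp hys with h | h
        · exact hxib h
        · exact hRout _ (hRinvT x hxT) b hbTa h
    have hblock : ∀ g ∈ G, (∀ z ∈ s, g z = z) → ∀ p ∈ ({x b, x⁻¹ b} : Set α),
        g p ∈ ({x b, x⁻¹ b} : Set α) → ∀ q ∈ ({x b, x⁻¹ b} : Set α),
        g q ∈ ({x b, x⁻¹ b} : Set α) := by
      intro g hg hgs p hp hgp q hq
      have hgb : g b = b := hgs b hbs
      have hginvb : g⁻¹ b = b := by rw [Perm.inv_eq_iff_eq]; exact hgb.symm
      have hgT : ∀ z ∈ s.erase b, g z = z := fun z hz => hgs z (Finset.mem_of_mem_erase hz)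
      have hx'H : g * x * g⁻¹ ∈ H := hnorm g hg x hx
      have hx'T : ∀ z ∈ s.erase b, (g * x * g⁻¹) z = z := by
        intro z hz
        rw [Perm.mul_apply, Perm.mul_apply, hRinvT g hgT z hz, hxT z hz, hgT z hz]
      have hx'b : (g * x * g⁻¹) b = g (x b) := by
        rw [Perm.mul_apply, Perm.mul_apply, hginvb]
      have hx'ib : (g * x * g⁻¹)⁻¹ b = g (x⁻¹ b) := by
        have : (g * x * g⁻¹)⁻¹ = g * x⁻¹ * g⁻¹ := by group
        rw [this, Perm.mul_apply, Perm.mul_apply, hginvb]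
      have hcase : g * x * g⁻¹ = x ∨ g * x * g⁻¹ = x⁻¹ := by
        rcases hp with rfl | rfl
        · rcases hgp with h | h
          · left
            exact hRuniq _ hx'H hx'T x hx hxT (by rw [hx'b]; exact h)
          · right
            exact hRuniq _ hx'H hx'T _ (H.inv_mem hx) (hRinvT x hxT) (by rw [hx'b]; exact h)
        · rcases hgp with h | h
          · right
            have h5 : (g * x * g⁻¹)⁻¹ = x :=
              hRuniq _ (H.inv_mem hx'H) (hRinvT _ hx'T) x hx hxT (by rw [hx'ib]; exact h)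
            exact inv_eq_iff_eq_inv.mp h5
          · left
            have h5 : (g * x * g⁻¹)⁻¹ = x⁻¹ :=
              hRuniq _ (H.inv_mem hx'H) (hRinvT _ hx'T) _ (H.inv_mem hx) (hRinvT x hxT)
                (by rw [hx'ib]; exact h)
            exact inv_injective h5
      rcases hq with rfl | rfl
      · rw [← hx'b]
        rcases hcase with h | h
        · rw [h]; exact Or.inl rfl
        · rw [h]; exact Or.inr rfl
      · rw [← hx'ib]
        rcases hcase with h | h
        · rw [h]; exact Or.inr rfl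
        · rw [h, inv_inv]; exact Or.inl rfl
    rcases prim_concrete G s hprim _ hBs hblock with hsub | hall
    · have h := hsub (x b) (Or.inl rfl) (x⁻¹ b) (Or.inr rfl)
      exact (hRuniq x hx hxT _ (H.inv_mem hx) (hRinvT x hxT) h).symm
    · exfalso
      obtain ⟨y, hy⟩ := exists_notMem (insert (x b) (insert (x⁻¹ b) s)) (by
        have h1 := Finset.card_insert_le (x b) (insert (x⁻¹ b) s)
        have h2 := Finset.card_insert_le (x⁻¹ b) s
        omega)
      simp only [Finset.mem_insert, not_or] at hy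
      obtain ⟨hy1, hy2, hys⟩ := hy
      rcases hall y hys with h | h
      · exact hy1 h
      · exact hy2 h
  -- a non-trivial element x of R
  obtain ⟨y, hys⟩ := exists_notMem s (by omega)
  have hyb : y ≠ b := fun h => hys (h ▸ hbs)
  have hyTa : y ∉ s.erase b := fun h => hys (Finset.mem_of_mem_erase h)
  obtain ⟨x, hx, hxT, hxb⟩ := hRtrans b y hbTa hyTa
  have hxinv : x⁻¹ = x := hRinv x hx hxT
  have hxy : x y = b := by
    rw [← hxb]
    have : x (x b) = x⁻¹ (x b) := by rw [hxinv]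
    rw [this, inv_app]
  have hxa : x a = a := hxT a haTa
  have hay : a ≠ y := fun h => hys (h ▸ has)
  obtain ⟨b', hb'⟩ := exists_notMem (insert y s) (by
    have := Finset.card_insert_le y s
    omega)
  simp only [Finset.mem_insert, not_or] at hb'
  obtain ⟨hb'y, hb's⟩ := hb'
  have hab' : a ≠ b' := fun h => hb's (h ▸ has)
  obtain ⟨h, hh, hhS⟩ := hTrG (swap a b') (fun f hf => absurd hf (Finset.notMem_empty f))
    (insert y s) (by
      have := Finset.card_insert_le y s
      omega)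
  have hhz : ∀ z ∈ s, z ≠ a → h z = z := by
    intro z hz hza
    rw [hhS z (Finset.mem_insert_of_mem hz)]
    exact swap_apply_of_ne_of_ne hza (fun e => hb's (e ▸ hz))
  have hhy : h y = y := by
    rw [hhS y (Finset.mem_insert_self y s)]
    exact swap_apply_of_ne_of_ne (Ne.symm hay) (Ne.symm hb'y)
  have hha : h a = b' := by
    rw [hhS a (Finset.mem_insert_of_mem has)]
    exact swap_apply_left _ _
  have hhb : h b = b := hhz b hbs (Ne.symm hab)
  have hinvb' : h⁻¹ b' = a := by rw [Perm.inv_eq_iff_eq]; exact hha.symm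
  have hinvb : h⁻¹ b = b := by rw [Perm.inv_eq_iff_eq]; exact hhb.symm
  have hinvy : h⁻¹ y = y := by rw [Perm.inv_eq_iff_eq]; exact hhy.symm
  have hx''H : h * x * h⁻¹ ∈ H := hnorm h hh x hx
  have hx''b : (h * x * h⁻¹) b = y := by
    rw [Perm.mul_apply, Perm.mul_apply, hinvb, hxb, hhy]
  have hx''y : (h * x * h⁻¹) y = b := by
    rw [Perm.mul_apply, Perm.mul_apply, hinvy, hxy, hhb]
  have hx''b' : (h * x * h⁻¹) b' = b' := by
    rw [Perm.mul_apply, Perm.mul_apply, hinvb', hxa, hha]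
  have hx''z : ∀ z ∈ s, z ≠ a → z ≠ b → (h * x * h⁻¹) z = z := by
    intro z hz hza hzb
    have e : h⁻¹ z = z := by rw [Perm.inv_eq_iff_eq]; exact (hhz z hz hza).symm
    rw [Perm.mul_apply, Perm.mul_apply, e, hxT z (Finset.mem_erase.mpr ⟨hzb, hz⟩), hhz z hz hza]
  -- u = x⁻¹ * x'' fixes (s \ {a}) ∪ {y}
  have huH : x⁻¹ * (h * x * h⁻¹) ∈ H := H.mul_mem (H.inv_mem hx) hx''H
  have hub : (x⁻¹ * (h * x * h⁻¹)) b = b := by
    rw [Perm.mul_apply, hx''b, Perm.inv_eq_iff_eq]; exact hxb.symm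
  have huy : (x⁻¹ * (h * x * h⁻¹)) y = y := by
    rw [Perm.mul_apply, hx''y, Perm.inv_eq_iff_eq]; exact hxy.symm
  have huz : ∀ z ∈ s, z ≠ a → (x⁻¹ * (h * x * h⁻¹)) z = z := by
    intro z hz hza
    by_cases hzb : z = b
    · rw [hzb]; exact hub
    · rw [Perm.mul_apply, hx''z z hz hza hzb, Perm.inv_eq_iff_eq]
      exact (hxT z (Finset.mem_erase.mpr ⟨hzb, hz⟩)).symm
  -- conjugate to get an element fixing s
  obtain ⟨w, hw, hwS⟩ := hTrH (swap y a) (fun f hf => absurd hf (Finset.notMem_empty f))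
    (insert y (s.erase a)) (by
      have h1 := Finset.card_insert_le y (s.erase a)
      have h2 := Finset.card_erase_of_mem has
      omega)
  have hwz : ∀ z ∈ s, z ≠ a → w z = z := by
    intro z hz hza
    rw [hwS z (Finset.mem_insert_of_mem (Finset.mem_erase.mpr ⟨hza, hz⟩))]
    exact swap_apply_of_ne_of_ne (fun e => hys (e ▸ hz)) hza
  have hwy : w y = a := by
    rw [hwS y (Finset.mem_insert_self y _)]
    exact swap_apply_left _ _
  have hwinva : w⁻¹ a = y := by rw [Perm.inv_eq_iff_eq]; exact hwy.symm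
  have hu1 : w * (x⁻¹ * (h * x * h⁻¹)) * w⁻¹ = 1 := by
    apply hs1 _ (H.mul_mem (H.mul_mem hw huH) (H.inv_mem hw))
    intro z hz
    by_cases hza : z = a
    · rw [hza, Perm.mul_apply, Perm.mul_apply, hwinva, huy, hwy]
    · have e : w⁻¹ z = z := by rw [Perm.inv_eq_iff_eq]; exact (hwz z hz hza).symm
      rw [Perm.mul_apply, Perm.mul_apply, e, huz z hz hza, hwz z hz hza]
  have hu : x⁻¹ * (h * x * h⁻¹) = 1 := eq_one_of_conj hu1
  have hx'' : h * x * h⁻¹ = x := (inv_mul_eq_one.mp hu).symm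
  rw [hx''] at hx''b'
  have hb'Ta : b' ∉ s.erase b := fun h => hb's (Finset.mem_of_mem_erase h)
  have hx1 : x = 1 := hRsemi x hx hxT b' hb'Ta hx''b'
  rw [hx1] at hxb
  exact hyb hxb.symm

/-- In a `k`-primitive permutation group which is not the whole symmetric group, a non-trivial non-regular normal subgroup is `k`-transitive. -/
theorem result {α : Type*} [Fintype α] [DecidableEq α] (G : Subgroup (Equiv.Perm α)) {k : ℕ} (hk : 1 ≤ k) (hkn : k ≤ Fintype.card α) (hG : MulAction.IsMultiplyPreprimitive G α k) (htop : G ≠ ⊤) (H : Subgroup G) [H.Normal] (hH : H ≠ ⊥) (hnr : ∃ a : α, MulAction.stabilizer H a ≠ ⊥) : MulAction.IsMultiplyPretransitive H α k := by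
  haveI := hG
  have hGt : MulAction.IsMultiplyPretransitive G α k := inferInstance
  have hcard : k + 2 ≤ Fintype.card α := by
    by_contra hlt
    push Not at hlt
    apply htop
    apply Equiv.Perm.eq_top_of_isMultiplyPretransitive
    rw [Nat.card_eq_fintype_card]
    exact MulAction.isMultiplyPretransitive_of_le (G := ↥G) (α := α) (n := k) (by omega)
      (by rw [Nat.card_eq_fintype_card]; exact hkn)
  have hTrG : Tr G ∅ k := fun σ _ S hS => S0711.exists_agree G hkn hGt S hS σ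
  have hnormal : ∀ h ∈ G, ∀ n ∈ H.map G.subtype, h * n * h⁻¹ ∈ H.map G.subtype := by
    intro h hh n hn
    obtain ⟨n', hn', rfl⟩ := Subgroup.mem_map.mp hn
    exact Subgroup.mem_map.mpr ⟨⟨h, hh⟩ * n' * ⟨h, hh⟩⁻¹,
      ‹H.Normal›.conj_mem n' hn' ⟨h, hh⟩, rfl⟩
  have hH'ne : ∃ h ∈ H.map G.subtype, h ≠ 1 := by
    obtain ⟨⟨x, hx⟩, hx1⟩ := (Subgroup.ne_bot_iff_exists_ne_one).mp hH
    refine ⟨(x : Perm α), Subgroup.mem_map_of_mem G.subtype hx, ?_⟩
    intro h
    exact hx1 (Subtype.ext (Subtype.ext h))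
  have hprim : ∀ (j : ℕ), j + 1 ≤ k → ∀ s : Finset α, s.card = j →
      MulAction.IsPreprimitive (fixingSubgroup ↥G (s : Set α))
        (SubMulAction.ofFixingSubgroup ↥G (s : Set α)) := by
    intro j hj s hs
    have hG' : MulAction.IsMultiplyPreprimitive G α (j + 1) :=
      MulAction.isMultiplyPreprimitive_of_le ↥G α hG hj (by
        rw [ENat.card_eq_coe_fintype_card]; exact_mod_cast hkn)
    exact hG'.isPreprimitive_ofFixingSubgroup (by
      rw [Set.encard_coe_eq_coe_finsetCard, hs]; norm_cast)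
  have hmain : ∀ j, 1 ≤ j → j ≤ k → Tr (H.map G.subtype) ∅ j := by
    intro j hj1
    induction j, hj1 using Nat.le_induction with
    | base =>
      intro _
      have htr := prim_trans G (H.map G.subtype) ∅ (hprim 0 (by omega) ∅ rfl) hnormal (by
        obtain ⟨h, hh, hh1⟩ := hH'ne
        exact ⟨h, hh, fun z hz => absurd hz (Finset.notMem_empty z), hh1⟩)
      intro σ _ S hS
      by_cases hSe : S = ∅
      · exact ⟨1, Subgroup.one_mem _, fun z hz => by rw [hSe] at hz; exact absurd hz (Finset.notMem_empty z)⟩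
      · obtain ⟨x, hx⟩ := Finset.nonempty_iff_ne_empty.mpr hSe
        obtain ⟨h, hh, -, hhx⟩ := htr x (σ x) (Finset.notMem_empty x) (Finset.notMem_empty _)
        refine ⟨h, hh, fun z hz => ?_⟩
        rw [Finset.card_le_one.mp hS z hz x hx, hhx]
    | succ j hj1 ih =>
      intro hjk
      have ihj : Tr (H.map G.subtype) ∅ j := ih (by omega)
      intro σ hσ S hS
      by_cases hSj : S.card ≤ j
      · exact ihj σ hσ S hSj
      have hScard : S.card = j + 1 := by omega
      obtain ⟨x₀, hx₀⟩ : ∃ x₀, x₀ ∈ S := Finset.card_pos.mp (by omega)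
      obtain ⟨g₁, hg₁, hg₁S⟩ := ihj σ hσ (S.erase x₀)
        (by rw [Finset.card_erase_of_mem hx₀]; omega)
      have hscard : ((S.erase x₀).image σ).card = j := by
        rw [Finset.card_image_of_injective _ σ.injective, Finset.card_erase_of_mem hx₀, hScard]
        rfl
      have hx₁s : g₁ x₀ ∉ (S.erase x₀).image σ := by
        intro hmem
        obtain ⟨z, hz, hzeq⟩ := Finset.mem_image.mp hmem
        rw [← hg₁S z hz] at hzeq
        exact (Finset.mem_erase.mp hz).1 (g₁.injective hzeq)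
      have hy₁s : σ x₀ ∉ (S.erase x₀).image σ := by
        intro hmem
        obtain ⟨z, hz, hzeq⟩ := Finset.mem_image.mp hmem
        exact (Finset.mem_erase.mp hz).1 (σ.injective hzeq)
      have hp := hprim j hjk _ hscard
      by_cases hne : ∃ h ∈ H.map G.subtype, (∀ z ∈ (S.erase x₀).image σ, h z = z) ∧ h ≠ 1
      · obtain ⟨t, ht, hts, htx⟩ :=
          prim_trans G (H.map G.subtype) _ hp hnormal hne (g₁ x₀) (σ x₀) hx₁s hy₁s
        refine ⟨t * g₁, Subgroup.mul_mem _ ht hg₁, fun z hz => ?_⟩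
        by_cases hzx : z = x₀
        · rw [hzx, Perm.mul_apply, htx]
        · have hz' : z ∈ S.erase x₀ := Finset.mem_erase.mpr ⟨hzx, hz⟩
          rw [Perm.mul_apply, hg₁S z hz']
          exact hts _ (Finset.mem_image_of_mem σ hz')
      · exfalso
        push Not at hne
        by_cases hj2 : 2 ≤ j
        · exact sharp_contra G (H.map G.subtype) j hj2 (by omega) (hTrG.mono hjk) ihj hnormal _
            hscard hp hne
        · have hj : j = 1 := by omega
          obtain ⟨p, hp'⟩ := Finset.card_eq_one.mp (hj ▸ hscard)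
          obtain ⟨a, ha⟩ := hnr
          obtain ⟨⟨⟨x, hxH⟩, hxstab⟩, hx1⟩ := (Subgroup.ne_bot_iff_exists_ne_one).mp ha
          have hxa : (x : Perm α) a = a := hxstab
          have hxH' : (x : Perm α) ∈ H.map G.subtype := Subgroup.mem_map_of_mem G.subtype hxH
          have hxne : (x : Perm α) ≠ 1 := by
            intro h
            apply hx1
            apply Subtype.ext
            apply Subtype.ext
            apply Subtype.ext
            exact h
          obtain ⟨w, hw, hwa⟩ := ihj.exists_map (by omega) (Finset.notMem_empty a)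
            (Finset.notMem_empty p)
          have h1 : w * (x : Perm α) * w⁻¹ = 1 := by
            apply hne _ (Subgroup.mul_mem _ (Subgroup.mul_mem _ hw hxH') (Subgroup.inv_mem _ hw))
            intro z hz
            rw [hp'] at hz
            have hzp := Finset.mem_singleton.mp hz
            have hwinv : w⁻¹ p = a := by rw [Perm.inv_eq_iff_eq]; exact hwa.symm
            rw [hzp, Perm.mul_apply, Perm.mul_apply, hwinv, hxa, hwa]
          exact hxne (eq_one_of_conj h1)
  have hfinal := hmain k hk le_rfl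
  refine ⟨fun x y => ?_⟩
  haveI := Equiv.Perm.isMultiplyPretransitive α k
  obtain ⟨σ, hσ⟩ := MulAction.exists_smul_eq (Equiv.Perm α) x y
  obtain ⟨g, hg, hgS⟩ := hfinal σ (fun f hf => absurd hf (Finset.notMem_empty f))
    (Finset.univ.map x) (by simp)
  obtain ⟨n, hn, rfl⟩ := Subgroup.mem_map.mp hg
  refine ⟨⟨n, hn⟩, ?_⟩
  ext i
  have h4 := hgS (x i) (Finset.mem_map_of_mem x (Finset.mem_univ i))
  have h5 : ((⟨n, hn⟩ : ↥H) • x) i = (σ • x) i := by
    simp only [Function.Embedding.smul_apply]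
    exact h4
  rw [← hσ]; exact h5

end Cfsg.Agent.S0697
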