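import Cfsg.Statements.S0699
import Mathlib
import Cfsg.Agent.S0698

set_option autoImplicit false
open Cfsg

namespace Cfsg.Agent.S0699

open Equiv
open Cfsg.Agent.S0698

set_option linter.unusedSectionVars false
set_option linter.style.haveILetI false

variable {α : Type*} [Fintype α] [DecidableEq α]

/-- the setwise stabiliser of `{a, b}` in `N` -/
def pairStab (N : Subgroup (Perm α)) (a b : α) : Subgroup (Perm α) where
  carrier := {g | g ∈ N ∧ ((g a = a ∧ g b = b) ∨ (g a = b ∧ g b = a))}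
  mul_mem' := by
    rintro g h ⟨hg, hg'⟩ ⟨hh, hh'⟩
    refine ⟨N.mul_mem hg hh, ?_⟩
    rcases hg' with ⟨h1, h2⟩ | ⟨h1, h2⟩ <;> rcases hh' with ⟨h3, h4⟩ | ⟨h3, h4⟩ <;>
      simp [Perm.mul_apply, h1, h2, h3, h4]
  one_mem' := ⟨N.one_mem, Or.inl ⟨rfl, rfl⟩⟩
  inv_mem' := by
    rintro g ⟨hg, hg'⟩
    refine ⟨N.inv_mem hg, ?_⟩
    rcases hg' with ⟨h1, h2⟩ | ⟨h1, h2⟩
    · left
      exact ⟨by rw [Perm.inv_eq_iff_eq]; exact h1.symm, by rw [Perm.inv_eq_iff_eq]; exact h2.symm⟩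
    · right
      exact ⟨by rw [Perm.inv_eq_iff_eq]; exact h2.symm, by rw [Perm.inv_eq_iff_eq]; exact h1.symm⟩

theorem core (G N : Subgroup (Perm α)) (hodd : Odd (Fintype.card α))
    (hG : Tr G ∅ 3) (hN2 : Tr N ∅ 2) (hnorm : ∀ g ∈ G, ∀ n ∈ N, g * n * g⁻¹ ∈ N)
    (a b : α) (hab : a ≠ b) :
    ∃ c₀, c₀ ≠ a ∧ c₀ ≠ b ∧ ∀ c, c ≠ a → c ≠ b → ∃ k ∈ N, k a = a ∧ k b = b ∧ k c₀ = c := by
  classical
  haveI : Fact (Nat.Prime 2) := ⟨Nat.prime_two⟩
  obtain ⟨P⟩ : Nonempty (Sylow 2 ↥(pairStab N a b)) := inferInstance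
  -- swapping element
  obtain ⟨s₀, hs₀N, hs₀⟩ := hN2 (swap a b) (fun f hf => absurd hf (Finset.notMem_empty f))
    {a, b} Finset.card_le_two
  have hs₀a : s₀ a = b := by rw [hs₀ a (by simp), swap_apply_left]
  have hs₀b : s₀ b = a := by rw [hs₀ b (by simp), swap_apply_right]
  have hs₀H : s₀ ∈ pairStab N a b := ⟨hs₀N, Or.inr ⟨hs₀a, hs₀b⟩⟩
  -- the index of the stabilizer of a in H is 2
  have horb : MulAction.orbit ↥(pairStab N a b) a = {a, b} := by
    ext x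
    constructor
    · rintro ⟨⟨h, hhN, hh⟩, rfl⟩
      rcases hh with ⟨h1, _⟩ | ⟨h1, _⟩
      · left; exact h1
      · right; exact h1
    · rintro (rfl | rfl)
      · exact MulAction.mem_orbit_self _
      · exact ⟨⟨s₀, hs₀H⟩, hs₀a⟩
  have hidx : (MulAction.stabilizer ↥(pairStab N a b) a).index = 2 := by
    rw [MulAction.index_stabilizer, horb, Set.ncard_pair hab]
  have hcardH : Nat.card (MulAction.stabilizer ↥(pairStab N a b) a) * 2
      = Nat.card ↥(pairStab N a b) := by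
    rw [← hidx]; exact Subgroup.card_mul_index _
  -- P does not fix two points
  have hF3 : ∀ x y, x ≠ y → ¬ (∀ t ∈ P, (t : Perm α) x = x ∧ (t : Perm α) y = y) := by
    intro x y hxy hfix
    obtain ⟨τ, -, hτa, hτb⟩ := exists_perm2 (∅ : Finset α) hab hxy (Finset.notMem_empty _)
      (Finset.notMem_empty _) (Finset.notMem_empty _) (Finset.notMem_empty _)
    obtain ⟨u, hu, huS⟩ := hN2 τ (fun f hf => absurd hf (Finset.notMem_empty f)) {a, b}
      Finset.card_le_two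
    have hua : u a = x := by rw [huS a (by simp), hτa]
    have hub : u b = y := by rw [huS b (by simp), hτb]
    have huia : u⁻¹ x = a := by rw [Perm.inv_eq_iff_eq]; exact hua.symm
    have huib : u⁻¹ y = b := by rw [Perm.inv_eq_iff_eq]; exact hub.symm
    have hmem : ∀ t : ↥(P : Subgroup ↥(pairStab N a b)),
        u⁻¹ * ((t : ↥(pairStab N a b)) : Perm α) * u ∈ pairStab N a b ∧
        (u⁻¹ * ((t : ↥(pairStab N a b)) : Perm α) * u) a = a := by
      intro t
      have h1 := hfix t.1 t.2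
      have ha' : (u⁻¹ * ((t : ↥(pairStab N a b)) : Perm α) * u) a = a := by
        rw [Perm.mul_apply, Perm.mul_apply, hua, h1.1, huia]
      have hb' : (u⁻¹ * ((t : ↥(pairStab N a b)) : Perm α) * u) b = b := by
        rw [Perm.mul_apply, Perm.mul_apply, hub, h1.2, huib]
      exact ⟨⟨N.mul_mem (N.mul_mem (N.inv_mem hu) t.1.2.1) hu, Or.inl ⟨ha', hb'⟩⟩, ha'⟩
    let ψ : ↥(P : Subgroup ↥(pairStab N a b)) →* ↥(MulAction.stabilizer ↥(pairStab N a b) a) :=
      { toFun := fun t => ⟨⟨u⁻¹ * ((t : ↥(pairStab N a b)) : Perm α) * u, (hmem t).1⟩, (hmem t).2⟩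
        map_one' := by
          apply Subtype.ext; apply Subtype.ext
          simp
        map_mul' := by
          intro t₁ t₂
          apply Subtype.ext; apply Subtype.ext
          simp [mul_assoc] }
    have hψ : Function.Injective ψ := by
      intro t₁ t₂ h
      have h1 : u⁻¹ * ((t₁ : ↥(pairStab N a b)) : Perm α) * u
          = u⁻¹ * ((t₂ : ↥(pairStab N a b)) : Perm α) * u :=
        congrArg (fun z : ↥(MulAction.stabilizer ↥(pairStab N a b) a) =>
          ((z : ↥(pairStab N a b)) : Perm α)) h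
      have h2 : ((t₁ : ↥(pairStab N a b)) : Perm α) = ((t₂ : ↥(pairStab N a b)) : Perm α) :=
        mul_left_cancel (mul_right_cancel h1)
      exact Subtype.ext (Subtype.ext h2)
    have hdvd : Nat.card ↥(P : Subgroup ↥(pairStab N a b))
        ∣ Nat.card ↥(MulAction.stabilizer ↥(pairStab N a b) a) :=
      Subgroup.card_dvd_of_injective ψ hψ
    have hPidx : Nat.card ↥(P : Subgroup ↥(pairStab N a b))
        * (P : Subgroup ↥(pairStab N a b)).index = Nat.card ↥(pairStab N a b) :=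
      Subgroup.card_mul_index _
    obtain ⟨j, hj⟩ := hdvd
    have hpos : 0 < Nat.card ↥(P : Subgroup ↥(pairStab N a b)) := Nat.card_pos
    have h2 : (P : Subgroup ↥(pairStab N a b)).index = j * 2 := by
      have : Nat.card ↥(P : Subgroup ↥(pairStab N a b)) * (P : Subgroup ↥(pairStab N a b)).index
          = Nat.card ↥(P : Subgroup ↥(pairStab N a b)) * (j * 2) := by
        rw [hPidx, ← hcardH, hj, mul_assoc]
      exact Nat.eq_of_mul_eq_mul_left hpos this
    exact P.not_dvd_index ⟨j, by rw [h2, mul_comm]⟩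
  -- a fixed point of P
  have hnd : ¬ 2 ∣ Nat.card α := by
    rw [Nat.card_eq_fintype_card]
    exact fun h => (Nat.not_even_iff_odd.mpr hodd) (even_iff_two_dvd.mpr h)
  obtain ⟨c₀, hc₀⟩ := P.2.nonempty_fixed_point_of_prime_not_dvd_card α hnd
  have hc₀' : ∀ t ∈ P, (t : Perm α) c₀ = c₀ := fun t ht => hc₀ ⟨t, ht⟩
  have hPab : ∀ t ∈ P, (t : Perm α) a = a → (t : Perm α) b = b := by
    intro t _ h
    rcases t.2.2 with ⟨_, h2⟩ | ⟨h1, _⟩
    · exact h2
    · exact absurd (h.symm.trans h1) hab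
  have hc₀a : c₀ ≠ a := by
    rintro rfl
    exact hF3 c₀ b hab (fun t ht => ⟨hc₀' t ht, hPab t ht (hc₀' t ht)⟩)
  have hc₀b : c₀ ≠ b := by
    rintro rfl
    apply hF3 a c₀ hab
    intro t ht
    refine ⟨?_, hc₀' t ht⟩
    rcases t.2.2 with ⟨h1, _⟩ | ⟨_, h2⟩
    · exact h1
    · exact absurd ((hc₀' t ht).symm.trans h2) hab.symm
  obtain ⟨s, hsP, hsa⟩ : ∃ s ∈ P, (s : Perm α) a ≠ a := by
    by_contra hcon
    push Not at hcon
    exact hF3 a b hab (fun t ht => ⟨hcon t ht, hPab t ht (hcon t ht)⟩)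
  have hsab : (s : Perm α) a = b ∧ (s : Perm α) b = a := by
    rcases s.2.2 with ⟨h1, _⟩ | h
    · exact absurd h1 hsa
    · exact h
  refine ⟨c₀, hc₀a, hc₀b, ?_⟩
  intro c hca hcb
  obtain ⟨g, hg, hgS⟩ := hG (swap c₀ c) (fun f hf => absurd hf (Finset.notMem_empty f))
    {a, b, c₀} Finset.card_le_three
  have hga : g a = a := by
    rw [hgS a (by simp)]; exact swap_apply_of_ne_of_ne (Ne.symm hc₀a) (Ne.symm hca)
  have hgb : g b = b := by
    rw [hgS b (by simp)]; exact swap_apply_of_ne_of_ne (Ne.symm hc₀b) (Ne.symm hcb)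
  have hgc : g c₀ = c := by rw [hgS c₀ (by simp)]; exact swap_apply_left _ _
  have hgia : g⁻¹ a = a := by rw [Perm.inv_eq_iff_eq]; exact hga.symm
  have hgib : g⁻¹ b = b := by rw [Perm.inv_eq_iff_eq]; exact hgb.symm
  have hconj : ∀ h ∈ pairStab N a b, g * h * g⁻¹ ∈ pairStab N a b := by
    rintro h ⟨hhN, hh⟩
    refine ⟨hnorm g hg h hhN, ?_⟩
    rcases hh with ⟨h1, h2⟩ | ⟨h1, h2⟩
    · left; simp [Perm.mul_apply, hgia, hgib, h1, h2, hga, hgb]
    · right; simp [Perm.mul_apply, hgia, hgib, h1, h2, hga, hgb]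
  have hconj' : ∀ h ∈ pairStab N a b, g⁻¹ * h * g ∈ pairStab N a b := by
    rintro h ⟨hhN, hh⟩
    have h0 := hnorm g⁻¹ (G.inv_mem hg) h hhN
    rw [inv_inv] at h0
    refine ⟨h0, ?_⟩
    rcases hh with ⟨h1, h2⟩ | ⟨h1, h2⟩
    · left; simp [Perm.mul_apply, hgia, hgib, h1, h2, hga, hgb]
    · right; simp [Perm.mul_apply, hgia, hgib, h1, h2, hga, hgb]
  have horbc : MulAction.orbit ↥(pairStab N a b) c = g '' MulAction.orbit ↥(pairStab N a b) c₀ := by
    ext x
    constructor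
    · rintro ⟨h, rfl⟩
      refine ⟨(g⁻¹ * (h : Perm α) * g) c₀, ⟨⟨_, hconj' h h.2⟩, rfl⟩, ?_⟩
      show g ((g⁻¹ * (h : Perm α) * g) c₀) = (h : Perm α) c
      rw [Perm.mul_apply, Perm.mul_apply, hgc, app_inv]
    · rintro ⟨_, ⟨h, rfl⟩, rfl⟩
      refine ⟨⟨_, hconj h h.2⟩, ?_⟩
      show (g * (h : Perm α) * g⁻¹) c = g ((h : Perm α) c₀)
      rw [Perm.mul_apply, Perm.mul_apply, ← hgc, inv_app]
  have hcardorb : (MulAction.orbit ↥(pairStab N a b) c).ncard
      = (MulAction.orbit ↥(pairStab N a b) c₀).ncard := by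
    rw [horbc, Set.ncard_image_of_injective _ g.injective]
  have hPle : (P : Subgroup ↥(pairStab N a b)) ≤ MulAction.stabilizer ↥(pairStab N a b) c₀ :=
    fun t ht => hc₀' t ht
  have hodd' : ¬ 2 ∣ Nat.card ↥(MulAction.orbit ↥(pairStab N a b) c) := by
    rw [Nat.card_coe_set_eq, hcardorb, ← MulAction.index_stabilizer]
    exact fun h => P.not_dvd_index (h.trans (Subgroup.index_dvd_of_le hPle))
  obtain ⟨⟨z, hz⟩, hzfix⟩ :=
    P.2.nonempty_fixed_point_of_prime_not_dvd_card ↥(MulAction.orbit ↥(pairStab N a b) c) hodd'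
  have hzfix' : ∀ t ∈ P, (t : Perm α) z = z := by
    intro t ht
    have := hzfix ⟨t, ht⟩
    exact congrArg Subtype.val this
  have hzc₀ : z = c₀ := by
    by_contra hne
    exact hF3 z c₀ hne (fun t ht => ⟨hzfix' t ht, hc₀' t ht⟩)
  obtain ⟨h, hh⟩ := hz
  have hhc : (h : Perm α) c = c₀ := hh.trans hzc₀
  have hhic : (h : Perm α)⁻¹ c₀ = c := by rw [Perm.inv_eq_iff_eq]; exact hhc.symm
  rcases h.2.2 with ⟨h1, h2⟩ | ⟨h1, h2⟩
  · refine ⟨(h : Perm α)⁻¹, N.inv_mem h.2.1, ?_, ?_, hhic⟩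
    · rw [Perm.inv_eq_iff_eq]; exact h1.symm
    · rw [Perm.inv_eq_iff_eq]; exact h2.symm
  · refine ⟨(h : Perm α)⁻¹ * (s : Perm α), N.mul_mem (N.inv_mem h.2.1) s.2.1, ?_, ?_, ?_⟩
    · rw [Perm.mul_apply, hsab.1, Perm.inv_eq_iff_eq]; exact h1.symm
    · rw [Perm.mul_apply, hsab.2, Perm.inv_eq_iff_eq]; exact h2.symm
    · rw [Perm.mul_apply, hc₀' s hsP, hhic]

/-- Wagner's Theorem: a non-trivial normal subgroup of a triply transitive permutation group of odd degree at least 5 is triply transitive. -/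
theorem result {α : Type*} [Fintype α] [DecidableEq α] (G : Subgroup (Equiv.Perm α)) (hodd : Odd (Fintype.card α)) (h5 : 5 ≤ Fintype.card α) (hG : MulAction.IsMultiplyPretransitive G α 3) (N : Subgroup G) [N.Normal] (hN : N ≠ ⊥) : MulAction.IsMultiplyPretransitive N α 3 := by
  have hTr : Tr G ∅ 3 := fun σ _ S hS => S0711.exists_agree G (by omega) hG S hS σ
  have hnormal : ∀ h ∈ G, ∀ n ∈ N.map G.subtype, h * n * h⁻¹ ∈ N.map G.subtype := by
    intro h hh n hn
    obtain ⟨n', hn', rfl⟩ := Subgroup.mem_map.mp hn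
    exact Subgroup.mem_map.mpr ⟨⟨h, hh⟩ * n' * ⟨h, hh⟩⁻¹,
      ‹N.Normal›.conj_mem n' hn' ⟨h, hh⟩, rfl⟩
  have hN' : N.map G.subtype ≠ ⊥ := by
    intro h
    exact hN ((Subgroup.map_eq_bot_iff_of_injective N G.subtype_injective).mp h)
  have hle : N.map G.subtype ≤ G := by
    intro x hx
    obtain ⟨n', _, rfl⟩ := Subgroup.mem_map.mp hx
    exact n'.2
  have hN1 : Tr (N.map G.subtype) ∅ 1 :=
    normal_trans (fun _ _ f hf => absurd hf (Finset.notMem_empty f)) (hTr.mono (by norm_num))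
      hle hnormal hN'
  have hnd : ¬ 2 ∣ Fintype.card α :=
    fun h => (Nat.not_even_iff_odd.mpr hodd) (even_iff_two_dvd.mpr h)
  have hN2 : Tr (N.map G.subtype) ∅ 2 := by
    rcases key 3 (by norm_num) ∅ G (N.map G.subtype)
      (fun _ _ f hf => absurd hf (Finset.notMem_empty f)) hTr
      (by simp only [Finset.card_empty]; omega) hle hnormal hN' with h | ⟨-, hcomm, hsq⟩
    · exact h
    · exfalso
      obtain ⟨⟨x, hx⟩, hx1'⟩ := (Subgroup.ne_bot_iff_exists_ne_one).mp hN'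
      have hx1 : x ≠ 1 := fun h => hx1' (Subtype.ext h)
      haveI : Fact (Nat.Prime 2) := ⟨Nat.prime_two⟩
      obtain ⟨a, ha⟩ := Equiv.Perm.exists_fixed_point_of_prime (p := 2) (n := 1) hnd
        (σ := x) (by rw [pow_one]; exact hsq x hx)
      apply hx1
      ext c
      obtain ⟨t, ht, hta⟩ := hN1.exists_map le_rfl (Finset.notMem_empty a) (Finset.notMem_empty c)
      have h3 : x (t a) = t (x a) := by
        rw [← Perm.mul_apply, ← Perm.mul_apply, hcomm x hx t ht]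
      rw [← hta, h3, ha]; rfl
  obtain ⟨a, b, hab⟩ : ∃ a b : α, a ≠ b := Fintype.one_lt_card_iff.mp (by omega)
  obtain ⟨c₀, hc₀a, hc₀b, hc₀⟩ := core G (N.map G.subtype) hodd hTr hN2 hnormal a b hab
  have hNa1 : Tr (N.map G.subtype ⊓ MulAction.stabilizer (Perm α) a) (insert a ∅) 1 :=
    hN2.stab a
  have hNab1 : Tr (N.map G.subtype ⊓ MulAction.stabilizer (Perm α) a
      ⊓ MulAction.stabilizer (Perm α) b) (insert b (insert a ∅)) 1 := by
    intro σ hσ S hS
    have hσa : σ a = a := hσ a (by simp)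
    have hσb : σ b = b := hσ b (by simp)
    by_cases hSe : S = ∅
    · exact ⟨1, Subgroup.one_mem _, fun z hz => by
        rw [hSe] at hz; exact absurd hz (Finset.notMem_empty z)⟩
    obtain ⟨x, hx⟩ := Finset.nonempty_iff_ne_empty.mpr hSe
    have hSx : ∀ z ∈ S, z = x := fun z hz => Finset.card_le_one.mp hS z hz x hx
    by_cases hxa : x = a
    · exact ⟨1, Subgroup.one_mem _, fun z hz => by rw [hSx z hz, hxa, hσa]; rfl⟩
    by_cases hxb : x = b
    · exact ⟨1, Subgroup.one_mem _, fun z hz => by rw [hSx z hz, hxb, hσb]; rfl⟩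
    have hya : σ x ≠ a := fun h => hxa (σ.injective (h.trans hσa.symm))
    have hyb : σ x ≠ b := fun h => hxb (σ.injective (h.trans hσb.symm))
    obtain ⟨k₁, hk₁, hk₁a, hk₁b, hk₁c⟩ := hc₀ x hxa hxb
    obtain ⟨k₂, hk₂, hk₂a, hk₂b, hk₂c⟩ := hc₀ (σ x) hya hyb
    have hk₁ia : k₁⁻¹ a = a := by rw [Perm.inv_eq_iff_eq]; exact hk₁a.symm
    have hk₁ib : k₁⁻¹ b = b := by rw [Perm.inv_eq_iff_eq]; exact hk₁b.symm
    have hk₁ic : k₁⁻¹ x = c₀ := by rw [Perm.inv_eq_iff_eq]; exact hk₁c.symm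
    refine ⟨k₂ * k₁⁻¹, ⟨⟨Subgroup.mul_mem _ hk₂ (Subgroup.inv_mem _ hk₁), ?_⟩, ?_⟩, ?_⟩
    · show (k₂ * k₁⁻¹) a = a
      rw [Perm.mul_apply, hk₁ia, hk₂a]
    · show (k₂ * k₁⁻¹) b = b
      rw [Perm.mul_apply, hk₁ib, hk₂b]
    · intro z hz
      rw [hSx z hz, Perm.mul_apply, hk₁ic, hk₂c]
  have hNa2 : Tr (N.map G.subtype ⊓ MulAction.stabilizer (Perm α) a) (insert a ∅) 2 :=
    Tr.of_stab (fun n hn f hf => by
      have hfa : f = a := by simpa using hf
      rw [hfa]; exact hn.2) hNa1 b (by simpa using hab.symm) hNab1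
  have hfinal : Tr (N.map G.subtype) ∅ 3 :=
    Tr.of_stab (fun _ _ f hf => absurd hf (Finset.notMem_empty f)) hN1 a
      (Finset.notMem_empty a) hNa2
  refine ⟨fun x y => ?_⟩
  haveI := Equiv.Perm.isMultiplyPretransitive α 3
  obtain ⟨σ, hσ⟩ := MulAction.exists_smul_eq (Equiv.Perm α) x y
  obtain ⟨g, hg, hgS⟩ := hfinal σ (fun f hf => absurd hf (Finset.notMem_empty f))
    (Finset.univ.map x) (by simp)
  obtain ⟨n, hn, rfl⟩ := Subgroup.mem_map.mp hg
  refine ⟨⟨n, hn⟩, ?_⟩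
  ext i
  have h4 := hgS (x i) (Finset.mem_map_of_mem x (Finset.mem_univ i))
  have h5 : ((⟨n, hn⟩ : ↥N) • x) i = (σ • x) i := by
    simp only [Function.Embedding.smul_apply]
    exact h4
  rw [← hσ]; exact h5

end Cfsg.Agent.S0699
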