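import Mathlib
import Cfsg.Statements.S0700
import Cfsg.Agent.Lead.Frobenius
-- import your own Cfsg.Agent.* helpers here

set_option autoImplicit false
open Cfsg

namespace Cfsg.Agent.S0700


open scoped Pointwise

section aux
variable {G α : Type*} [Group G] [MulAction G α]

theorem eq_one_of_fix [FaithfulSMul G α] (g : G) (h : ∀ x : α, g • x = x) : g = 1 :=
  FaithfulSMul.eq_of_smul_eq_smul (α := α) (fun x => by rw [h x, one_smul])

theorem blk_smul (N : Subgroup G) [N.Normal] (B : Set α)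
    (hB : ∀ n ∈ N, n • B = B ∨ Disjoint (n • B) B) (g : G) :
    ∀ n ∈ N, n • (g • B) = g • B ∨ Disjoint (n • (g • B)) (g • B) := by
  intro n hn
  have hn' : g⁻¹ * n * g ∈ N := by
    have := Subgroup.Normal.conj_mem (inferInstance : N.Normal) n hn g⁻¹
    simpa using this
  have e : n • (g • B) = g • ((g⁻¹ * n * g) • B) := by
    rw [smul_smul, smul_smul]; congr 1; group
  rcases hB _ hn' with h | h
  · left; rw [e, h]
  · right; rw [e]; exact Set.disjoint_smul_set.mpr h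

theorem blk_inter (N : Subgroup G) (B₁ B₂ : Set α)
    (h₁ : ∀ n ∈ N, n • B₁ = B₁ ∨ Disjoint (n • B₁) B₁)
    (h₂ : ∀ n ∈ N, n • B₂ = B₂ ∨ Disjoint (n • B₂) B₂) :
    ∀ n ∈ N, n • (B₁ ∩ B₂) = B₁ ∩ B₂ ∨ Disjoint (n • (B₁ ∩ B₂)) (B₁ ∩ B₂) := by
  intro n hn
  rw [Set.smul_set_inter]
  rcases h₁ n hn with h | h
  · rcases h₂ n hn with h' | h'
    · left; rw [h, h']
    · right; exact h'.mono Set.inter_subset_right Set.inter_subset_right
  · right; exact h.mono Set.inter_subset_left Set.inter_subset_left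

theorem two_pt [Finite α] [FaithfulSMul G α]
    (h2 : ∀ a b c d : α, a ≠ b → c ≠ d → ∃ g : G, g • a = c ∧ g • b = d)
    (N : Subgroup G) [N.Normal]
    (B : Set α) (hB : ∀ n ∈ N, n • B = B ∨ Disjoint (n • B) B)
    (hB2 : ¬ B.Subsingleton) (hBu : B ≠ Set.univ) :
    ∀ n ∈ N, ∀ x y : α, x ≠ y → n • x = x → n • y = y → n = 1 := by
  classical
  have hBc : 1 < B.ncard :=
    Set.one_lt_ncard_iff_nontrivial.mpr (Set.not_subsingleton_iff.mp hB2)
  have hex : ∃ k, ∃ C : Set α, (∀ n ∈ N, n • C = C ∨ Disjoint (n • C) C) ∧ 1 < C.ncard ∧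
      C.ncard = k := ⟨_, B, hB, hBc, rfl⟩
  obtain ⟨B₀, hB₀, hB₀2, hB₀m⟩ := Nat.find_spec hex
  have hmin : ∀ C : Set α, (∀ n ∈ N, n • C = C ∨ Disjoint (n • C) C) → 1 < C.ncard →
      Nat.find hex ≤ C.ncard := fun C hC h2C => Nat.find_min' hex ⟨C, hC, h2C, rfl⟩
  generalize Nat.find hex = m at hB₀m hmin
  have F1 : ∀ x y : α, x ≠ y → ∃ ℓ : Set α, (∀ n ∈ N, n • ℓ = ℓ ∨ Disjoint (n • ℓ) ℓ) ∧
      ℓ.ncard = m ∧ x ∈ ℓ ∧ y ∈ ℓ := by
    intro x y hxy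
    obtain ⟨b1, b2, hb1, hb2, hb12⟩ := (Set.one_lt_ncard_iff).mp hB₀2
    obtain ⟨g, hg1, hg2⟩ := h2 b1 b2 x y hb12 hxy
    refine ⟨g • B₀, blk_smul N B₀ hB₀ g, by rw [Set.ncard_smul_set, hB₀m], ?_, ?_⟩
    · rw [← hg1]; exact Set.smul_mem_smul_set hb1
    · rw [← hg2]; exact Set.smul_mem_smul_set hb2
  have F2 : ∀ ℓ₁ ℓ₂ : Set α, (∀ n ∈ N, n • ℓ₁ = ℓ₁ ∨ Disjoint (n • ℓ₁) ℓ₁) → ℓ₁.ncard = m →
      (∀ n ∈ N, n • ℓ₂ = ℓ₂ ∨ Disjoint (n • ℓ₂) ℓ₂) → ℓ₂.ncard = m →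
      ∀ x y : α, x ≠ y → x ∈ ℓ₁ → y ∈ ℓ₁ → x ∈ ℓ₂ → y ∈ ℓ₂ → ℓ₁ = ℓ₂ := by
    intro ℓ₁ ℓ₂ h₁ c₁ h₂ c₂ x y hxy hx1 hy1 hx2 hy2
    have hI : 1 < (ℓ₁ ∩ ℓ₂).ncard :=
      (Set.one_lt_ncard_iff).mpr ⟨x, y, ⟨hx1, hx2⟩, ⟨hy1, hy2⟩, hxy⟩
    have hm := hmin _ (blk_inter N ℓ₁ ℓ₂ h₁ h₂) hI
    have e1 : ℓ₁ ∩ ℓ₂ = ℓ₁ :=
      Set.eq_of_subset_of_ncard_le Set.inter_subset_left (by rw [c₁]; exact hm)
    have e2 : ℓ₁ ∩ ℓ₂ = ℓ₂ :=
      Set.eq_of_subset_of_ncard_le Set.inter_subset_right (by rw [c₂]; exact hm)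
    exact e1.symm.trans e2
  have F3 : ∀ ℓ : Set α, (∀ n ∈ N, n • ℓ = ℓ ∨ Disjoint (n • ℓ) ℓ) → ∀ n ∈ N, ∀ x ∈ ℓ,
      n • x = x → ∀ z ∈ ℓ, n • z ∈ ℓ := by
    intro ℓ hℓ n hn x hx hnx z hz
    rcases hℓ n hn with h | h
    · have : n • z ∈ n • ℓ := Set.smul_mem_smul_set hz
      rwa [h] at this
    · have : n • x ∈ n • ℓ := Set.smul_mem_smul_set hx
      rw [hnx] at this
      exact absurd hx (Set.disjoint_left.mp h this)
  have F4 : ∀ n ∈ N, ∀ x y : α, x ≠ y → n • x = x → n • y = y → ∀ ℓ : Set α,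
      (∀ n ∈ N, n • ℓ = ℓ ∨ Disjoint (n • ℓ) ℓ) → ℓ.ncard = m → x ∈ ℓ → y ∈ ℓ →
      ∀ z, z ∉ ℓ → n • z = z := by
    intro n hn x y hxy hnx hny ℓ hℓ cℓ hxℓ hyℓ z hz
    have hxz : x ≠ z := fun h => hz (by rw [← h]; exact hxℓ)
    have hyz : y ≠ z := fun h => hz (by rw [← h]; exact hyℓ)
    obtain ⟨ℓ₁, h₁, c₁, hx1, hz1⟩ := F1 x z hxz
    obtain ⟨ℓ₂, h₂, c₂, hy2, hz2⟩ := F1 y z hyz
    by_contra hne
    have hnz1 := F3 ℓ₁ h₁ n hn x hx1 hnx z hz1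
    have hnz2 := F3 ℓ₂ h₂ n hn y hy2 hny z hz2
    have e12 : ℓ₁ = ℓ₂ :=
      F2 ℓ₁ ℓ₂ h₁ c₁ h₂ c₂ z (n • z) (fun h => hne h.symm) hz1 hnz1 hz2 hnz2
    have hy1 : y ∈ ℓ₁ := by rw [e12]; exact hy2
    have e1 : ℓ₁ = ℓ := F2 ℓ₁ ℓ h₁ c₁ hℓ cℓ x y hxy hx1 hy1 hxℓ hyℓ
    exact hz (by rw [← e1]; exact hz1)
  intro n hn x y hxy hnx hny
  obtain ⟨ℓ, hℓ, cℓ, hxℓ, hyℓ⟩ := F1 x y hxy
  have hlt : m < Nat.card α := by
    have h1 : m ≤ B.ncard := hmin B hB hBc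
    have h2' : B.ncard < (Set.univ : Set α).ncard :=
      Set.ncard_lt_ncard (Set.ssubset_univ_iff.mpr hBu)
    rw [Set.ncard_univ] at h2'
    omega
  obtain ⟨z₀, hz₀⟩ : ∃ z, z ∉ ℓ := by
    by_contra hcon
    push_neg at hcon
    have : ℓ = Set.univ := Set.eq_univ_of_forall hcon
    rw [this, Set.ncard_univ] at cℓ
    omega
  have hnz₀ := F4 n hn x y hxy hnx hny ℓ hℓ cℓ hxℓ hyℓ z₀ hz₀
  have hxz₀ : x ≠ z₀ := fun h => hz₀ (by rw [← h]; exact hxℓ)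
  obtain ⟨ℓ', hℓ', cℓ', hxℓ', hzℓ'⟩ := F1 x z₀ hxz₀
  apply eq_one_of_fix (α := α)
  intro w
  by_cases hw : w ∈ ℓ
  · by_cases hwx : w = x
    · rw [hwx]; exact hnx
    · by_cases hw' : w ∈ ℓ'
      · have e : ℓ' = ℓ :=
          F2 ℓ' ℓ hℓ' cℓ' hℓ cℓ x w (fun h => hwx h.symm) hxℓ' hw' hxℓ hw
        exact absurd (by rw [← e]; exact hzℓ') hz₀
      · exact F4 n hn x z₀ hxz₀ hnx hnz₀ ℓ' hℓ' cℓ' hxℓ' hzℓ' w hw'
  · exact F4 n hn x y hxy hnx hny ℓ hℓ cℓ hxℓ hyℓ w hw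

theorem frob_false [Finite G] [FaithfulSMul G α]
    (N : Subgroup G) [N.Normal]
    (hmin : ∀ M : Subgroup G, M.Normal → M ≤ N → M = ⊥ ∨ M = N)
    (htr : ∀ x y : α, ∃ n ∈ N, n • x = y)
    (a : α) (n₁ : G) (hn₁ : n₁ ∈ N) (hn₁a : n₁ • a = a) (hn₁1 : n₁ ≠ 1)
    (h2pt : ∀ n ∈ N, ∀ x y : α, x ≠ y → n • x = x → n • y = y → n = 1)
    (b : α) (hab : b ≠ a) : False := by
  obtain ⟨H, memH⟩ : ∃ H : Subgroup N, ∀ k : N, k ∈ H ↔ (k : G) • a = a :=
    ⟨MulAction.stabilizer N a, fun k => MulAction.mem_stabilizer_iff⟩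
  have memc : ∀ (u k : N), k ∈ MulAut.conj u • H ↔ (k : G) • ((u : G) • a) = (u : G) • a := by
    intro u k
    rw [Subgroup.mem_pointwise_smul_iff_inv_smul_mem, MulAut.smul_def, MulAut.conj_inv_apply, memH]
    rw [Subgroup.coe_mul, Subgroup.coe_mul, Subgroup.coe_inv, mul_smul, mul_smul, inv_smul_eq_iff]
  have hHbot : H ≠ ⊥ := by
    intro h
    have : (⟨n₁, hn₁⟩ : N) ∈ H := (memH _).mpr hn₁a
    rw [h, Subgroup.mem_bot] at this
    exact hn₁1 (congrArg Subtype.val this)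
  have hHtop : H ≠ ⊤ := by
    intro h
    obtain ⟨n, hn, hna⟩ := htr a b
    have : (⟨n, hn⟩ : N) ∈ H := by rw [h]; exact Subgroup.mem_top _
    have h3 : n • a = a := (memH _).mp this
    exact hab (hna.symm.trans h3)
  have hfrob : Cfsg.IsFrobeniusComplement H := by
    refine ⟨hHbot, hHtop, fun g hg => ?_⟩
    rw [Subgroup.eq_bot_iff_forall]
    intro k hk
    obtain ⟨hk1, hk2⟩ := Subgroup.mem_inf.mp hk
    have hk1' := (memH k).mp hk1
    have hk2' := (memc g k).mp hk2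
    have hga : (g : G) • a ≠ a := fun h => hg ((memH g).mpr h)
    have := h2pt (k : G) k.2 a ((g : G) • a) (Ne.symm hga) hk1' hk2'
    exact Subtype.ext this
  obtain ⟨K, hK, hKn, hKc⟩ := Cfsg.Agent.Lead.frobenius_kernel H hfrob
  have memK : ∀ k : N, k ∈ K ↔ (k = 1 ∨ ∀ x : α, (k : G) • x ≠ x) := by
    intro k
    have e1 : k ∈ K ↔ k ∈ Cfsg.frobeniusKernel H := by rw [← hK]; rfl
    rw [e1]
    show (k = 1 ∨ ∀ u : N, k ∉ MulAut.conj u • H) ↔ _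
    refine or_congr Iff.rfl ⟨fun h x hx => ?_, fun h u hu => ?_⟩
    · obtain ⟨v, hv, hva⟩ := htr a x
      refine h ⟨v, hv⟩ ((memc ⟨v, hv⟩ k).mpr ?_)
      show (k : G) • (v • a) = v • a
      rw [hva]; exact hx
    · exact h ((u : G) • a) ((memc u k).mp hu)
  have hK'n : (K.map N.subtype).Normal := by
    refine ⟨fun x hx g => ?_⟩
    obtain ⟨k, hk, rfl⟩ := Subgroup.mem_map.mp hx
    have hmemN : g * (k : G) * g⁻¹ ∈ N := Subgroup.Normal.conj_mem inferInstance _ k.2 g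
    refine Subgroup.mem_map.mpr ⟨⟨g * (k : G) * g⁻¹, hmemN⟩, ?_, rfl⟩
    rw [memK]
    rcases (memK k).mp hk with h | h
    · left
      apply Subtype.ext
      show g * (k : G) * g⁻¹ = 1
      rw [h]; simp
    · right
      intro x hx'
      apply h (g⁻¹ • x)
      have h3 : (g * (k : G) * g⁻¹) • x = x := hx'
      rw [mul_smul, mul_smul] at h3
      exact (smul_eq_iff_eq_inv_smul g).mp h3
  rcases hmin _ hK'n (Subgroup.map_subtype_le K) with h | h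
  · have hKbot : K = ⊥ :=
      (Subgroup.map_eq_bot_iff_of_injective _ (Subgroup.subtype_injective N)).mp h
    rw [hKbot] at hKc
    exact hHtop (Subgroup.isComplement'_bot_left.mp hKc)
  · have hKtop : K = ⊤ := by
      rw [Subgroup.eq_top_iff']
      intro k
      have h3 : (k : G) ∈ K.map N.subtype := by rw [h]; exact k.2
      obtain ⟨k', hk', hkk⟩ := Subgroup.mem_map.mp h3
      have h4 : k' = k := Subtype.ext hkk
      rw [← h4]; exact hk'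
    rw [hKtop] at hKc
    exact hHbot (Subgroup.isComplement'_top_left.mp hKc)

theorem trans_of_prim [FaithfulSMul G α]
    (N : Subgroup G)
    (hprim : ∀ B : Set α, (∀ n ∈ N, n • B = B ∨ Disjoint (n • B) B) →
      B.Subsingleton ∨ B = Set.univ)
    (T : Subgroup G) (hTn : ∀ n ∈ N, ∀ t ∈ T, n * t * n⁻¹ ∈ T) (hT : T ≠ ⊥) :
    ∀ x y : α, ∃ t ∈ T, t • x = y := by
  have hblk : ∀ x : α, ∀ n ∈ N, n • {y | ∃ t ∈ T, t • x = y} = {y | ∃ t ∈ T, t • x = y} ∨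
      Disjoint (n • {y | ∃ t ∈ T, t • x = y}) {y | ∃ t ∈ T, t • x = y} := by
    intro x n hn
    have hn' : ∀ t ∈ T, n⁻¹ * t * n ∈ T := fun t ht => by
      have := hTn n⁻¹ (N.inv_mem hn) t ht
      simpa using this
    by_cases h : ∃ t ∈ T, t • x = n • x
    · obtain ⟨t₀, ht₀, ht₀x⟩ := h
      left
      ext y
      rw [Set.mem_smul_set_iff_inv_smul_mem]
      constructor
      · rintro ⟨t, ht, htx⟩
        refine ⟨n * t * n⁻¹ * t₀, T.mul_mem (hTn n hn t ht) ht₀, ?_⟩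
        rw [mul_smul, ht₀x, mul_smul, mul_smul, inv_smul_smul, htx, smul_inv_smul]
      · rintro ⟨t, ht, htx⟩
        refine ⟨n⁻¹ * (t * t₀⁻¹) * n, hn' _ (T.mul_mem ht (T.inv_mem ht₀)), ?_⟩
        rw [mul_smul, mul_smul, mul_smul, ← ht₀x, inv_smul_smul, htx]
    · right
      rw [Set.disjoint_left]
      rintro y hy ⟨t, ht, htx⟩
      rw [Set.mem_smul_set_iff_inv_smul_mem] at hy
      obtain ⟨t', ht', ht'x⟩ := hy
      apply h
      refine ⟨(n * t' * n⁻¹)⁻¹ * t, T.mul_mem (T.inv_mem (hTn n hn t' ht')) ht, ?_⟩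
      rw [mul_smul, htx, inv_smul_eq_iff, mul_smul, mul_smul, inv_smul_smul, ht'x, smul_inv_smul]
  have hcase : ∃ x₀ : α, {y | ∃ t ∈ T, t • x₀ = y} = Set.univ := by
    by_contra hcon
    push_neg at hcon
    apply hT
    rw [Subgroup.eq_bot_iff_forall]
    intro t ht
    apply eq_one_of_fix (α := α)
    intro x
    rcases hprim _ (hblk x) with h | h
    · exact h ⟨t, ht, rfl⟩ ⟨1, T.one_mem, one_smul _ _⟩
    · exact absurd h (hcon x)
  obtain ⟨x₀, hx₀⟩ := hcase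
  intro x y
  have hx : x ∈ {y | ∃ t ∈ T, t • x₀ = y} := by rw [hx₀]; exact Set.mem_univ x
  have hy : y ∈ {y | ∃ t ∈ T, t • x₀ = y} := by rw [hx₀]; exact Set.mem_univ y
  obtain ⟨t1, ht1, rfl⟩ := hx
  obtain ⟨t2, ht2, rfl⟩ := hy
  exact ⟨t2 * t1⁻¹, T.mul_mem ht2 (T.inv_mem ht1), by rw [mul_smul, inv_smul_smul]⟩

theorem semireg_of_comm [FaithfulSMul G α] (A B : Subgroup G)
    (hB : ∀ x y : α, ∃ s ∈ B, s • x = y)
    (hc : ∀ t ∈ A, ∀ s ∈ B, s * t = t * s) :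
    ∀ t ∈ A, ∀ x : α, t • x = x → t = 1 := by
  intro t ht x hx
  apply eq_one_of_fix (α := α)
  intro y
  obtain ⟨s, hs, rfl⟩ := hB x y
  rw [← mul_smul, ← hc t ht s hs, mul_smul, hx]

end aux

theorem exp_of_same_order {G : Type*} [Group G] [Finite G] (T : Subgroup G) (hT : T ≠ ⊥)
    (hord : ∀ t ∈ T, t ≠ 1 → ∀ t' ∈ T, t' ≠ 1 → orderOf t' = orderOf t) :
    ∃ p : ℕ, p.Prime ∧ ∀ t ∈ T, t ^ p = 1 := by
  obtain ⟨t₀, ht₀, ht₀1⟩ : ∃ t₀ ∈ T, t₀ ≠ 1 := by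
    by_contra hcon
    push_neg at hcon
    exact hT ((Subgroup.eq_bot_iff_forall T).mpr hcon)
  have ho1 : orderOf t₀ ≠ 1 := fun h => ht₀1 (orderOf_eq_one_iff.mp h)
  have ho0 : orderOf t₀ ≠ 0 := (orderOf_pos t₀).ne'
  have hpp : (orderOf t₀).minFac.Prime := Nat.minFac_prime ho1
  have hz : orderOf (t₀ ^ (orderOf t₀ / (orderOf t₀).minFac)) = (orderOf t₀).minFac :=
    orderOf_pow_orderOf_div ho0 (Nat.minFac_dvd _)
  refine ⟨_, hpp, fun t ht => ?_⟩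
  by_cases ht1 : t = 1
  · rw [ht1, one_pow]
  · have hz1 : t₀ ^ (orderOf t₀ / (orderOf t₀).minFac) ≠ 1 := by
      intro h
      rw [h, orderOf_one] at hz
      exact hpp.one_lt.ne hz
    have h3 := hord _ (T.pow_mem ht₀ _) hz1 t ht ht1
    rw [hz] at h3
    rw [← h3]; exact pow_orderOf_eq_one t

theorem center_elt {G : Type*} [Group G] [Finite G] (T : Subgroup G) (hT : T ≠ ⊥) (p : ℕ)
    (hp : p.Prime) (hexp : ∀ t ∈ T, t ^ p = 1) :
    ∃ z ∈ T, z ≠ 1 ∧ ∀ t ∈ T, z * t = t * z := by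
  haveI : Fact p.Prime := ⟨hp⟩
  haveI : Nontrivial T := (Subgroup.nontrivial_iff_ne_bot T).mpr hT
  have hpg : IsPGroup p T := fun g => ⟨1, by
    apply Subtype.ext
    rw [pow_one]
    simpa using hexp g g.2⟩
  haveI := hpg.center_nontrivial
  obtain ⟨z, hz⟩ := exists_ne (1 : Subgroup.center T)
  refine ⟨((z : T) : G), (z : T).2, ?_, ?_⟩
  · intro h
    apply hz
    apply Subtype.ext
    apply Subtype.ext
    exact h
  · intro t ht
    have h3 := Subgroup.mem_center_iff.mp z.2 ⟨t, ht⟩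
    have h4 := congrArg Subtype.val h3
    exact h4.symm

section aux2
variable {G α : Type*} [Group G] [MulAction G α]

theorem min_false [Finite G] [Finite α] [FaithfulSMul G α]
    (h2 : ∀ a b c d : α, a ≠ b → c ≠ d → ∃ g : G, g • a = c ∧ g • b = d)
    (N : Subgroup G) [N.Normal]
    (hmin : ∀ M : Subgroup G, M.Normal → M ≤ N → M = ⊥ ∨ M = N)
    (hprim : ∀ B : Set α, (∀ n ∈ N, n • B = B ∨ Disjoint (n • B) B) →
      B.Subsingleton ∨ B = Set.univ)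
    (a : α)
    (T : Subgroup G) (hTN : T ≤ N) (hTn : ∀ n ∈ N, ∀ t ∈ T, n * t * n⁻¹ ∈ T)
    (hT0 : T ≠ ⊥) (hT1 : T ≠ N)
    (hTm : ∀ M : Subgroup G, M ≤ T → (∀ n ∈ N, ∀ t ∈ M, n * t * n⁻¹ ∈ M) → M = ⊥ ∨ M = T) :
    False := by
  have conjN : ∀ (g : G) (n : G), n ∈ N → g * n * g⁻¹ ∈ N :=
    fun g n hn => Subgroup.Normal.conj_mem inferInstance n hn g
  obtain ⟨Tg, memTg, cardTg⟩ : ∃ Tg : G → Subgroup G,
      (∀ g x, x ∈ Tg g ↔ g⁻¹ * x * g ∈ T) ∧ (∀ g, Nat.card (Tg g) = Nat.card T) := by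
    refine ⟨fun g => T.map (MulAut.conj g).toMonoidHom, fun g x => ?_, fun g => ?_⟩
    · show x ∈ T.map (MulAut.conj g).toMonoidHom ↔ _
      rw [Subgroup.mem_map_equiv, MulAut.conj_symm_apply]
    · exact Subgroup.card_map_of_injective (MulAut.conj g).injective
  have TgN : ∀ g, Tg g ≤ N := by
    intro g x hx
    have h1 := hTN ((memTg g x).mp hx)
    have h2' := conjN g _ h1
    have e : g * (g⁻¹ * x * g) * g⁻¹ = x := by group
    rwa [e] at h2'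
  have Tgn : ∀ g, ∀ n ∈ N, ∀ s ∈ Tg g, n * s * n⁻¹ ∈ Tg g := by
    intro g n hn s hs
    rw [memTg] at hs ⊢
    have hn' : g⁻¹ * n * g ∈ N := by simpa using conjN g⁻¹ n hn
    have h3 := hTn _ hn' _ hs
    have e : g⁻¹ * n * g * (g⁻¹ * s * g) * (g⁻¹ * n * g)⁻¹ = g⁻¹ * (n * s * n⁻¹) * g := by group
    rwa [e] at h3
  have Tg_mem : ∀ g, ∀ t ∈ T, g * t * g⁻¹ ∈ Tg g := by
    intro g t ht
    rw [memTg]
    have e : g⁻¹ * (g * t * g⁻¹) * g = t := by group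
    rwa [e]
  have Tg0 : ∀ g, Tg g ≠ ⊥ := by
    intro g h
    apply hT0
    rw [Subgroup.eq_bot_iff_forall]
    intro t ht
    have h3 := Tg_mem g t ht
    rw [h, Subgroup.mem_bot] at h3
    exact conj_eq_one_iff.mp h3
  have dich : ∀ g, Tg g = T ∨ ∀ t ∈ T, ∀ s ∈ Tg g, s * t = t * s := by
    intro g
    have hM : ∀ n ∈ N, ∀ t ∈ T ⊓ Tg g, n * t * n⁻¹ ∈ T ⊓ Tg g := by
      intro n hn t ht
      obtain ⟨h1, h2'⟩ := Subgroup.mem_inf.mp ht
      exact Subgroup.mem_inf.mpr ⟨hTn n hn t h1, Tgn g n hn t h2'⟩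
    rcases hTm (T ⊓ Tg g) inf_le_left hM with h | h
    · right
      intro t ht s hs
      have hc : s * t * s⁻¹ * t⁻¹ ∈ T ⊓ Tg g := by
        refine Subgroup.mem_inf.mpr ⟨T.mul_mem (hTn s (TgN g hs) t ht) (T.inv_mem ht), ?_⟩
        have h3 := Tgn g t (hTN ht) s⁻¹ ((Tg g).inv_mem hs)
        have h4 := (Tg g).mul_mem hs h3
        have e : s * (t * s⁻¹ * t⁻¹) = s * t * s⁻¹ * t⁻¹ := by group
        rwa [e] at h4
      rw [h, Subgroup.mem_bot] at hc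
      calc s * t = (s * t * s⁻¹ * t⁻¹) * (t * s) := by group
        _ = t * s := by rw [hc, one_mul]
    · left
      have hle : T ≤ Tg g := by
        intro x hx
        have h3 : x ∈ T ⊓ Tg g := by rw [h]; exact hx
        exact (Subgroup.mem_inf.mp h3).2
      exact (Subgroup.eq_of_le_of_card_ge hle (le_of_eq (cardTg g))).symm
  obtain ⟨g₀, hg₀⟩ : ∃ g₀, Tg g₀ ≠ T := by
    by_contra hcon
    push_neg at hcon
    have hnorm : T.Normal := ⟨fun t ht g => by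
      have h3 := Tg_mem g t ht
      rwa [hcon g] at h3⟩
    rcases hmin T hnorm hTN with h | h
    · exact hT0 h
    · exact hT1 h
  have hcomm₀ : ∀ t ∈ T, ∀ s ∈ Tg g₀, s * t = t * s := (dich g₀).resolve_left hg₀
  have trT : ∀ x y : α, ∃ t ∈ T, t • x = y := trans_of_prim N hprim T hTn hT0
  have trTg : ∀ g, ∀ x y : α, ∃ s ∈ Tg g, s • x = y :=
    fun g => trans_of_prim N hprim (Tg g) (Tgn g) (Tg0 g)
  have srT : ∀ t ∈ T, ∀ x : α, t • x = x → t = 1 :=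
    semireg_of_comm T (Tg g₀) (trTg g₀) hcomm₀
  have hord : ∀ t ∈ T, t ≠ 1 → ∀ t' ∈ T, t' ≠ 1 → orderOf t' = orderOf t := by
    intro t ht ht1 t' ht' ht'1
    have hta : t • a ≠ a := fun h => ht1 (srT t ht a h)
    have ht'a : t' • a ≠ a := fun h => ht'1 (srT t' ht' a h)
    obtain ⟨g, hga, hgt⟩ := h2 a (t • a) a (t' • a) (Ne.symm hta) (Ne.symm ht'a)
    obtain ⟨s, hs, hsa, hso⟩ : ∃ s, s ∈ Tg g ∧ s • a = t' • a ∧ orderOf s = orderOf t := by
      refine ⟨g * t * g⁻¹, Tg_mem g t ht, ?_, ?_⟩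
      · rw [mul_smul, mul_smul, inv_smul_eq_iff.mpr hga.symm, hgt]
      · exact orderOf_eq_orderOf_iff.mpr (fun k => by rw [conj_pow, conj_eq_one_iff])
    rw [← hso]
    rcases dich g with h | h
    · have hsT : s ∈ T := by rw [← h]; exact hs
      have h1 : t'⁻¹ * s = 1 :=
        srT _ (T.mul_mem (T.inv_mem ht') hsT) a (by rw [mul_smul, hsa, inv_smul_smul])
      have e : s = t' := by
        calc s = t' * (t'⁻¹ * s) := by group
          _ = t' := by rw [h1, mul_one]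
      rw [e]
    · have srTg : ∀ s ∈ Tg g, ∀ x : α, s • x = x → s = 1 :=
        semireg_of_comm (Tg g) T trT (fun s hs t ht => (h t ht s hs).symm)
      have hpow : ∀ k : ℕ, t' ^ k • a = s ^ k • a := by
        intro k
        induction k with
        | zero => simp
        | succ k ih =>
          have hc := h (t' ^ k) (T.pow_mem ht' k) s hs
          calc t' ^ (k+1) • a = t' ^ k • t' • a := by rw [pow_succ, mul_smul]
            _ = t' ^ k • s • a := by rw [hsa]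
            _ = (t' ^ k * s) • a := by rw [mul_smul]
            _ = (s * t' ^ k) • a := by rw [hc]
            _ = s • s ^ k • a := by rw [mul_smul, ih]
            _ = s ^ (k+1) • a := by rw [pow_succ', mul_smul]
      rw [orderOf_eq_orderOf_iff]
      intro k
      constructor
      · intro hk
        exact srTg _ ((Tg g).pow_mem hs k) a (by rw [← hpow k, hk, one_smul])
      · intro hk
        exact srT _ (T.pow_mem ht' k) a (by rw [hpow k, hk, one_smul])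
  obtain ⟨p, hpp, hexp⟩ := exp_of_same_order T hT0 hord
  obtain ⟨z, hzT, hz1, hzc⟩ := center_elt T hT0 p hpp hexp
  have hZn : ∀ n ∈ N, ∀ x ∈ T ⊓ Subgroup.centralizer (T : Set G),
      n * x * n⁻¹ ∈ T ⊓ Subgroup.centralizer (T : Set G) := by
    intro n hn x hx
    obtain ⟨hx1, hx2⟩ := Subgroup.mem_inf.mp hx
    refine Subgroup.mem_inf.mpr ⟨hTn n hn x hx1, ?_⟩
    rw [Subgroup.mem_centralizer_iff]
    intro t ht
    have hn' : n⁻¹ * t * n ∈ T := by simpa using hTn n⁻¹ (N.inv_mem hn) t ht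
    have hc := Subgroup.mem_centralizer_iff.mp hx2 _ hn'
    calc t * (n * x * n⁻¹) = n * ((n⁻¹ * t * n) * x) * n⁻¹ := by group
      _ = n * (x * (n⁻¹ * t * n)) * n⁻¹ := by rw [hc]
      _ = n * x * n⁻¹ * t := by group
  have hab : ∀ t ∈ T, ∀ t' ∈ T, t * t' = t' * t := by
    rcases hTm _ inf_le_left hZn with h | h
    · exfalso
      have h3 : z ∈ T ⊓ Subgroup.centralizer (T : Set G) :=
        Subgroup.mem_inf.mpr ⟨hzT, Subgroup.mem_centralizer_iff.mpr (fun t ht => (hzc t ht).symm)⟩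
      rw [h, Subgroup.mem_bot] at h3
      exact hz1 h3
    · intro t ht t' ht'
      have h3 : t' ∈ T ⊓ Subgroup.centralizer (T : Set G) := by rw [h]; exact ht'
      exact Subgroup.mem_centralizer_iff.mp (Subgroup.mem_inf.mp h3).2 t ht
  have hle : Tg g₀ ≤ T := by
    intro s hs
    obtain ⟨t, ht, hta⟩ := trT a (s • a)
    have hu : t⁻¹ * s = 1 := by
      apply eq_one_of_fix (α := α)
      intro y
      obtain ⟨t₁, ht₁, rfl⟩ := trT a y
      have c1 : s * t₁ = t₁ * s := hcomm₀ t₁ ht₁ s hs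
      have c2 : t⁻¹ * t₁ = t₁ * t⁻¹ := hab _ (T.inv_mem ht) _ ht₁
      calc (t⁻¹ * s) • t₁ • a = (t⁻¹ * (s * t₁)) • a := by rw [← mul_smul, mul_assoc]
        _ = (t⁻¹ * (t₁ * s)) • a := by rw [c1]
        _ = ((t⁻¹ * t₁) * s) • a := by rw [mul_assoc]
        _ = ((t₁ * t⁻¹) * s) • a := by rw [c2]
        _ = t₁ • t⁻¹ • s • a := by rw [mul_smul, mul_smul]
        _ = t₁ • a := by rw [← hta, inv_smul_smul]
    have e : s = t := by
      calc s = t * (t⁻¹ * s) := by group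
        _ = t := by rw [hu, mul_one]
    rw [e]; exact ht
  exact hg₀ (Subgroup.eq_of_le_of_card_ge hle (le_of_eq (cardTg g₀).symm))

theorem simple_aux [Finite G] [Finite α] [FaithfulSMul G α]
    (h2 : ∀ a b c d : α, a ≠ b → c ≠ d → ∃ g : G, g • a = c ∧ g • b = d)
    (N : Subgroup G) [N.Normal]
    (hmin : ∀ M : Subgroup G, M.Normal → M ≤ N → M = ⊥ ∨ M = N)
    (hprim : ∀ B : Set α, (∀ n ∈ N, n • B = B ∨ Disjoint (n • B) B) →
      B.Subsingleton ∨ B = Set.univ)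
    (a : α)
    (T : Subgroup G) (hTN : T ≤ N) (hTn : ∀ n ∈ N, ∀ t ∈ T, n * t * n⁻¹ ∈ T) :
    T = ⊥ ∨ T = N := by
  by_contra hcon
  rw [not_or] at hcon
  obtain ⟨hT0, hT1⟩ := hcon
  classical
  have hex : ∃ k, ∃ M : Subgroup G, M ≤ N ∧ (∀ n ∈ N, ∀ t ∈ M, n * t * n⁻¹ ∈ M) ∧ M ≠ ⊥ ∧
      Nat.card M = k := ⟨_, T, hTN, hTn, hT0, rfl⟩
  obtain ⟨M, hMN, hMn, hM0, hMc⟩ := Nat.find_spec hex
  have hmin' : ∀ M' : Subgroup G, M' ≤ N → (∀ n ∈ N, ∀ t ∈ M', n * t * n⁻¹ ∈ M') → M' ≠ ⊥ →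
      Nat.find hex ≤ Nat.card M' := fun M' h1 h2 h3 => Nat.find_min' hex ⟨M', h1, h2, h3, rfl⟩
  have hM1 : M ≠ N := by
    intro h
    have h1 := hmin' T hTN hTn hT0
    rw [← hMc, h] at h1
    exact hT1 (Subgroup.eq_of_le_of_card_ge hTN h1)
  refine min_false h2 N hmin hprim a M hMN hMn hM0 hM1 ?_
  intro M' hM'M hM'n
  by_cases h0 : M' = ⊥
  · left; exact h0
  · right
    have h3 := hmin' M' (hM'M.trans hMN) hM'n h0
    rw [← hMc] at h3
    exact Subgroup.eq_of_le_of_card_ge hM'M h3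

theorem main [Finite G] [Finite α] [FaithfulSMul G α]
    (h2 : ∀ a b c d : α, a ≠ b → c ≠ d → ∃ g : G, g • a = c ∧ g • b = d)
    (N : Subgroup G) [N.Normal] (hN : N ≠ ⊥)
    (hmin : ∀ M : Subgroup G, M.Normal → M ≤ N → M = ⊥ ∨ M = N) :
    (IsMulCommutative N ∧ (∃ p : ℕ, p.Prime ∧ ∀ n ∈ N, n ^ p = 1) ∧
        ∀ a : α, MulAction.stabilizer N a = ⊥) ∨
      (IsSimpleGroup N ∧ MulAction.IsPreprimitive N α) := by
  have conjN : ∀ (g : G) (n : G), n ∈ N → g * n * g⁻¹ ∈ N :=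
    fun g n hn => Subgroup.Normal.conj_mem inferInstance n hn g
  obtain ⟨n₀, hn₀, hn₀1⟩ : ∃ n₀ ∈ N, n₀ ≠ 1 := by
    by_contra hcon
    push_neg at hcon
    exact hN ((Subgroup.eq_bot_iff_forall N).mpr hcon)
  obtain ⟨x₀, hx₀⟩ : ∃ x₀ : α, n₀ • x₀ ≠ x₀ := by
    by_contra hcon
    push_neg at hcon
    exact hn₀1 (eq_one_of_fix n₀ hcon)
  have htr : ∀ x y : α, ∃ n ∈ N, n • x = y := by
    intro x y
    by_cases hxy : x = y
    · exact ⟨1, N.one_mem, by rw [one_smul, hxy]⟩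
    · obtain ⟨g, hg1, hg2⟩ := h2 x₀ (n₀ • x₀) x y (Ne.symm hx₀) hxy
      refine ⟨g * n₀ * g⁻¹, conjN g n₀ hn₀, ?_⟩
      rw [mul_smul, mul_smul, ← hg1, inv_smul_smul, hg2]
  by_cases hreg : ∀ n ∈ N, ∀ x : α, n • x = x → n = 1
  · left
    have hconj : ∀ n ∈ N, n ≠ 1 → ∀ m ∈ N, m ≠ 1 → ∃ g : G, g * n * g⁻¹ = m := by
      intro n hn hn1 m hm hm1
      have hna : n • x₀ ≠ x₀ := fun h => hn1 (hreg n hn x₀ h)
      have hma : m • x₀ ≠ x₀ := fun h => hm1 (hreg m hm x₀ h)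
      obtain ⟨g, hg1, hg2⟩ := h2 x₀ (n • x₀) x₀ (m • x₀) (Ne.symm hna) (Ne.symm hma)
      refine ⟨g, ?_⟩
      have h1 : m⁻¹ * (g * n * g⁻¹) = 1 := by
        apply hreg _ (N.mul_mem (N.inv_mem hm) (conjN g n hn)) x₀
        rw [mul_smul, mul_smul, mul_smul, inv_smul_eq_iff.mpr hg1.symm, hg2, inv_smul_smul]
      calc g * n * g⁻¹ = m * (m⁻¹ * (g * n * g⁻¹)) := by group
        _ = m := by rw [h1, mul_one]
    have hord : ∀ t ∈ N, t ≠ 1 → ∀ t' ∈ N, t' ≠ 1 → orderOf t' = orderOf t := by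
      intro t ht ht1 t' ht' ht'1
      obtain ⟨g, hg⟩ := hconj t ht ht1 t' ht' ht'1
      rw [← hg]
      exact orderOf_eq_orderOf_iff.mpr (fun k => by rw [conj_pow, conj_eq_one_iff])
    obtain ⟨p, hpp, hexp⟩ := exp_of_same_order N hN hord
    obtain ⟨z, hzN, hz1, hzc⟩ := center_elt N hN p hpp hexp
    have hcomm : ∀ n ∈ N, ∀ m ∈ N, n * m = m * n := by
      intro n hn m hm
      by_cases hn1 : n = 1
      · rw [hn1, one_mul, mul_one]
      · obtain ⟨g, hg⟩ := hconj z hzN hz1 n hn hn1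
        have hm' : g⁻¹ * m * g ∈ N := by simpa using conjN g⁻¹ m hm
        have hc := hzc _ hm'
        rw [← hg]
        calc g * z * g⁻¹ * m = g * (z * (g⁻¹ * m * g)) * g⁻¹ := by group
          _ = g * ((g⁻¹ * m * g) * z) * g⁻¹ := by rw [hc]
          _ = m * (g * z * g⁻¹) := by group
    refine ⟨⟨⟨fun x y => Subtype.ext (hcomm x x.2 y y.2)⟩⟩, ⟨p, hpp, hexp⟩, ?_⟩
    intro a
    rw [Subgroup.eq_bot_iff_forall]
    intro k hk
    exact Subtype.ext (hreg k k.2 a (MulAction.mem_stabilizer_iff.mp hk))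
  · right
    push_neg at hreg
    obtain ⟨n₁, hn₁, a, hn₁a, hn₁1⟩ := hreg
    have hprim : ∀ B : Set α, (∀ n ∈ N, n • B = B ∨ Disjoint (n • B) B) →
        B.Subsingleton ∨ B = Set.univ := by
      intro B hB
      by_contra hcon
      rw [not_or] at hcon
      obtain ⟨hB2, hBu⟩ := hcon
      have h2pt := two_pt h2 N B hB hB2 hBu
      obtain ⟨b, hb⟩ : ∃ b : α, b ≠ a := by
        by_cases h : x₀ = a
        · exact ⟨n₀ • x₀, fun h' => hx₀ (h'.trans h.symm)⟩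
        · exact ⟨x₀, h⟩
      exact frob_false N hmin htr a n₁ hn₁ hn₁a hn₁1 h2pt b hb
    constructor
    · haveI : Nontrivial N := (Subgroup.nontrivial_iff_ne_bot N).mpr hN
      refine ⟨fun S hS => ?_⟩
      have hSn : ∀ n ∈ N, ∀ t ∈ S.map N.subtype, n * t * n⁻¹ ∈ S.map N.subtype := by
        intro n hn t ht
        obtain ⟨s, hs, rfl⟩ := Subgroup.mem_map.mp ht
        exact Subgroup.mem_map.mpr ⟨⟨n, hn⟩ * s * ⟨n, hn⟩⁻¹, hS.conj_mem s hs ⟨n, hn⟩, rfl⟩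
      rcases simple_aux h2 N hmin hprim a (S.map N.subtype) (Subgroup.map_subtype_le S) hSn
        with h | h
      · left
        exact (Subgroup.map_eq_bot_iff_of_injective _ (Subgroup.subtype_injective N)).mp h
      · right
        rw [Subgroup.eq_top_iff']
        intro k
        have h3 : (k : G) ∈ S.map N.subtype := by rw [h]; exact k.2
        obtain ⟨k', hk', hkk⟩ := Subgroup.mem_map.mp h3
        have h4 : k' = k := Subtype.ext hkk
        rw [← h4]; exact hk'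
    · exact
        { exists_smul_eq := fun x y => by
            obtain ⟨n, hn, hnx⟩ := htr x y
            exact ⟨⟨n, hn⟩, hnx⟩
          isTrivialBlock_of_isBlock := fun {B} hB => by
            apply hprim B
            intro n hn
            exact (MulAction.isBlock_iff_smul_eq_or_disjoint.mp hB) ⟨n, hn⟩ }

end aux2


/-- Burnside's Theorem on doubly transitive groups: a minimal normal subgroup of a finite doubly transitive permutation group is elementary abelian and regular, or simple and primitive. -/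
theorem result {α : Type*} [Fintype α] [DecidableEq α] (G : Subgroup (Equiv.Perm α)) (hG : MulAction.IsMultiplyPretransitive G α 2) (N : Subgroup G) [N.Normal] (hN : N ≠ ⊥) (hmin : ∀ M : Subgroup G, M.Normal → M ≤ N → M = ⊥ ∨ M = N) : (IsMulCommutative N ∧ (∃ p : ℕ, p.Prime ∧ ∀ n ∈ N, n ^ p = 1) ∧ ∀ a : α, MulAction.stabilizer N a = ⊥) ∨ (IsSimpleGroup N ∧ MulAction.IsPreprimitive N α) := by
  have h2 : ∀ a b c d : α, a ≠ b → c ≠ d → ∃ g : G, g • a = c ∧ g • b = d := by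
    intro a b c d hab hcd
    exact MulAction.is_two_pretransitive_iff.mp hG hab hcd
  haveI : FaithfulSMul G α := ⟨fun {g₁ g₂} h => Subtype.ext (Equiv.ext h)⟩
  exact main h2 N hN hmin

end Cfsg.Agent.S0700
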