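import Mathlib
import Cfsg.Statements.S0701

set_option autoImplicit false
open Cfsg

namespace Cfsg.Agent.S0701

/-- The centraliser in the full symmetric group of a transitive permutation group `G` is semiregular, and it is transitive if and only if `G` is regular. -/
theorem result {α : Type*} (G : Subgroup (Equiv.Perm α)) [MulAction.IsPretransitive G α] : (∀ c ∈ Subgroup.centralizer (G : Set (Equiv.Perm α)), ∀ a : α, c a = a → c = 1) ∧ (MulAction.IsPretransitive (Subgroup.centralizer (G : Set (Equiv.Perm α))) α ↔ ∀ a : α, MulAction.stabilizer G a = ⊥) := by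
  -- transitivity in elementary terms
  have htr : ∀ a b : α, ∃ g ∈ G, g a = b := by
    intro a b
    obtain ⟨g, hg⟩ := MulAction.exists_smul_eq G a b
    exact ⟨g, g.2, hg⟩
  -- commutation in elementary terms
  have hcomm : ∀ c ∈ Subgroup.centralizer (G : Set (Equiv.Perm α)), ∀ g ∈ G, ∀ x : α,
      c (g x) = g (c x) := by
    intro c hc g hg x
    rw [Subgroup.mem_centralizer_iff] at hc
    have := congrArg (fun σ : Equiv.Perm α => σ x) (hc g hg)
    simpa using this.symm
  refine ⟨?_, ?_, ?_⟩
  · intro c hc a hca
    ext b
    obtain ⟨g, hg, rfl⟩ := htr a b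
    rw [hcomm c hc g hg a, hca]
    rfl
  · intro hC a
    rw [Subgroup.eq_bot_iff_forall]
    intro g hg
    have hga : (g : Equiv.Perm α) a = a := hg
    apply Subtype.ext
    ext b
    obtain ⟨c, hc⟩ := hC.exists_smul_eq a b
    have hcb : (c : Equiv.Perm α) a = b := hc
    rw [← hcb, ← hcomm c c.2 g g.2 a, hga]
    rfl
  · intro hreg
    -- uniqueness of the group element moving a to x
    have huniq : ∀ a : α, ∀ g ∈ G, ∀ h ∈ G, g a = h a → g = h := by
      intro a g hg h hh hgh
      have hmem : (⟨h⁻¹ * g, G.mul_mem (G.inv_mem hh) hg⟩ : G) ∈ MulAction.stabilizer G a := by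
        rw [MulAction.mem_stabilizer_iff]
        change (h⁻¹ * g) a = a
        rw [Equiv.Perm.mul_apply, hgh]; simp
      rw [hreg a, Subgroup.mem_bot] at hmem
      have h1 : h⁻¹ * g = 1 := congrArg Subtype.val hmem
      have : g = h * (h⁻¹ * g) := by group
      rw [this, h1, mul_one]
    constructor
    intro a b
    -- the map x = g a ↦ g b
    let sel : α → α → α → Equiv.Perm α := fun a x _ => Classical.choose (htr a x)
    have sel_mem : ∀ a x y, sel a x y ∈ G := fun a x _ => (Classical.choose_spec (htr a x)).1
    have sel_spec : ∀ a x y, sel a x y a = x := fun a x _ => (Classical.choose_spec (htr a x)).2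
    let f : α → α → α → α := fun a b x => sel a x b b
    have hf : ∀ (a b : α) (g : Equiv.Perm α), g ∈ G → f a b (g a) = g b := by
      intro a b g hg
      have : sel a (g a) b = g := huniq a _ (sel_mem a (g a) b) g hg (sel_spec a (g a) b)
      change sel a (g a) b b = g b
      rw [this]
    have hinv : ∀ (a b : α) (x : α), f b a (f a b x) = x := by
      intro a b x
      obtain ⟨g, hg, rfl⟩ := htr a x
      rw [hf a b g hg, hf b a g hg]
    let c : Equiv.Perm α := ⟨f a b, f b a, hinv a b, hinv b a⟩
    have hc : c ∈ Subgroup.centralizer (G : Set (Equiv.Perm α)) := by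
      rw [Subgroup.mem_centralizer_iff]
      intro h hh
      ext x
      obtain ⟨g, hg, rfl⟩ := htr a x
      change h (f a b (g a)) = f a b (h (g a))
      rw [hf a b g hg]
      have : h (g a) = (h * g) a := rfl
      rw [this, hf a b (h * g) (G.mul_mem hh hg)]
      rfl
    refine ⟨⟨c, hc⟩, ?_⟩
    change f a b a = b
    have := hf a b 1 G.one_mem
    simpa using this

end Cfsg.Agent.S0701
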