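import Mathlib
import Cfsg.Statements.S0702

set_option autoImplicit false
open Cfsg

namespace Cfsg.Agent.S0702

/-- For a transitive permutation group `G` on a finite set, the centraliser of `G` in the symmetric group is isomorphic to `N_G(G_ω)/G_ω`, and its orbit of `ω` is the set of fixed points of `G_ω`. -/
theorem result {α : Type*} [Finite α] (G : Subgroup (Equiv.Perm α)) [MulAction.IsPretransitive G α] (a : α) : Nonempty (Subgroup.centralizer (G : Set (Equiv.Perm α)) ≃* Subgroup.normalizer ((MulAction.stabilizer G a : Subgroup G) : Set G) ⧸ (MulAction.stabilizer G a).subgroupOf (Subgroup.normalizer ((MulAction.stabilizer G a : Subgroup G) : Set G))) ∧ MulAction.orbit (Subgroup.centralizer (G : Set (Equiv.Perm α))) a = MulAction.fixedPoints (MulAction.stabilizer G a) α := by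
  classical
  have hcomm : ∀ (c : Equiv.Perm α), c ∈ Subgroup.centralizer (G : Set (Equiv.Perm α)) →
      ∀ (g : G) (x : α), c (g • x) = g • c x := by
    intro c hc g x
    have h := hc (g : Equiv.Perm α) g.2
    have h2 := congrArg (fun σ : Equiv.Perm α => σ x) h
    simp only [Equiv.Perm.mul_apply] at h2
    exact h2.symm
  have hF1 : ∀ c c' : Equiv.Perm α, c ∈ Subgroup.centralizer (G : Set (Equiv.Perm α)) →
      c' ∈ Subgroup.centralizer (G : Set (Equiv.Perm α)) → c a = c' a → c = c' := by
    intro c c' hc hc' h
    ext x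
    obtain ⟨g, rfl⟩ := MulAction.exists_smul_eq G a x
    rw [hcomm c hc, hcomm c' hc', h]
  have hF2 : ∀ c : Equiv.Perm α, c ∈ Subgroup.centralizer (G : Set (Equiv.Perm α)) →
      c a ∈ MulAction.fixedPoints (MulAction.stabilizer G a) α := by
    intro c hc s
    show (s : G) • c a = c a
    rw [← hcomm c hc]
    congr 1
    exact s.2
  have hF3 : ∀ b ∈ MulAction.fixedPoints (MulAction.stabilizer G a) α,
      ∃ c : Equiv.Perm α, c ∈ Subgroup.centralizer (G : Set (Equiv.Perm α)) ∧ c a = b := by
    intro b hb
    have hf : ∀ g : G, (Classical.choose (MulAction.exists_smul_eq G a (g • a))) • b = g • b := by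
      intro g
      have hspec := Classical.choose_spec (MulAction.exists_smul_eq G a (g • a))
      generalize Classical.choose (MulAction.exists_smul_eq G a (g • a)) = g' at hspec
      have hmem : g⁻¹ * g' ∈ MulAction.stabilizer G a := by
        rw [MulAction.mem_stabilizer_iff, mul_smul, hspec, inv_smul_smul]
      have h2 : (g⁻¹ * g') • b = b := hb ⟨g⁻¹ * g', hmem⟩
      rw [mul_smul, inv_smul_eq_iff] at h2
      exact h2
    have hfcomm : ∀ (h : G) (x : α),
        (Classical.choose (MulAction.exists_smul_eq G a (h • x))) • b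
          = h • (Classical.choose (MulAction.exists_smul_eq G a x)) • b := by
      intro h x
      obtain ⟨g, rfl⟩ := MulAction.exists_smul_eq G a x
      rw [← mul_smul, hf, hf, mul_smul]
    have hsurj : Function.Surjective
        (fun x : α => (Classical.choose (MulAction.exists_smul_eq G a x)) • b) := by
      intro y
      obtain ⟨g, rfl⟩ := MulAction.exists_smul_eq G b y
      exact ⟨g • a, hf g⟩
    have hbij : Function.Bijective
        (fun x : α => (Classical.choose (MulAction.exists_smul_eq G a x)) • b) :=
      ⟨Finite.injective_iff_surjective.mpr hsurj, hsurj⟩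
    refine ⟨Equiv.ofBijective _ hbij, ?_, ?_⟩
    · rw [Subgroup.mem_centralizer_iff]
      intro h hh
      ext x
      simp only [Equiv.Perm.mul_apply, Equiv.ofBijective_apply]
      exact (hfcomm ⟨h, hh⟩ x).symm
    · have := hf 1
      rw [one_smul, one_smul] at this
      exact this
  have hpart2 : MulAction.orbit (Subgroup.centralizer (G : Set (Equiv.Perm α))) a
      = MulAction.fixedPoints (MulAction.stabilizer G a) α := by
    ext b
    constructor
    · rintro ⟨c, rfl⟩
      exact hF2 c.1 c.2
    · intro hb
      obtain ⟨c, hc, hca⟩ := hF3 b hb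
      exact ⟨⟨c, hc⟩, hca⟩
  have hex : ∀ n : Subgroup.normalizer ((MulAction.stabilizer G a : Subgroup G) : Set G),
      ∃ c : Subgroup.centralizer (G : Set (Equiv.Perm α)),
        (c : Equiv.Perm α) a = (n : G)⁻¹ • a := by
    intro n
    have hfix : (n : G)⁻¹ • a ∈ MulAction.fixedPoints (MulAction.stabilizer G a) α := by
      intro s
      show (s : G) • (n : G)⁻¹ • a = (n : G)⁻¹ • a
      have h1 : (n : G) * s * (n : G)⁻¹ ∈ MulAction.stabilizer G a :=
        (Subgroup.mem_normalizer_iff.mp n.2 s).mp s.2
      rw [MulAction.mem_stabilizer_iff, mul_smul, mul_smul] at h1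
      exact eq_inv_smul_iff.mpr h1
    obtain ⟨c, hc, hca⟩ := hF3 _ hfix
    exact ⟨⟨c, hc⟩, hca⟩
  choose ψf hψf using hex
  let ψ : Subgroup.normalizer ((MulAction.stabilizer G a : Subgroup G) : Set G) →*
      Subgroup.centralizer (G : Set (Equiv.Perm α)) :=
    { toFun := ψf
      map_one' := by
        apply Subtype.ext
        apply hF1 _ _ (ψf 1).2 (Subgroup.one_mem _)
        rw [hψf]
        simp
      map_mul' := by
        intro n m
        apply Subtype.ext
        apply hF1 _ _ (ψf (n * m)).2 (Subgroup.mul_mem _ (ψf n).2 (ψf m).2)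
        rw [hψf]
        simp only [Subgroup.coe_mul, Equiv.Perm.mul_apply]
        rw [hψf m, hcomm _ (ψf n).2, hψf n, mul_inv_rev, mul_smul] }
  have hψ : ∀ n, ψ n = ψf n := fun n => rfl
  have hker : ψ.ker = (MulAction.stabilizer G a).subgroupOf
      (Subgroup.normalizer ((MulAction.stabilizer G a : Subgroup G) : Set G)) := by
    ext n
    rw [MonoidHom.mem_ker, Subgroup.mem_subgroupOf, hψ]
    constructor
    · intro h
      have h1 := hψf n
      rw [h] at h1
      have h3 : a = (n : G)⁻¹ • a := h1
      rw [MulAction.mem_stabilizer_iff]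
      exact eq_inv_smul_iff.mp h3
    · intro h
      apply Subtype.ext
      apply hF1 _ _ (ψf n).2 (Subgroup.one_mem _)
      rw [hψf]
      show (n : G)⁻¹ • a = a
      rw [inv_smul_eq_iff]
      exact (MulAction.mem_stabilizer_iff.mp h).symm
  have hsurj : Function.Surjective ψ := by
    intro c
    obtain ⟨g, hg⟩ := MulAction.exists_smul_eq G a ((c : Equiv.Perm α) a)
    have hgN : g⁻¹ ∈ Subgroup.normalizer ((MulAction.stabilizer G a : Subgroup G) : Set G) := by
      rw [Subgroup.mem_normalizer_iff]
      intro h
      constructor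
      · intro hh
        rw [MulAction.mem_stabilizer_iff] at hh ⊢
        rw [inv_inv, mul_smul, mul_smul, hg, ← hcomm c.1 c.2, hh, ← hg, inv_smul_smul]
      · intro hh
        rw [MulAction.mem_stabilizer_iff] at hh ⊢
        rw [inv_inv, mul_smul, mul_smul, hg, inv_smul_eq_iff, hg, ← hcomm c.1 c.2] at hh
        exact c.1.injective hh
    refine ⟨⟨g⁻¹, hgN⟩, ?_⟩
    apply Subtype.ext
    rw [hψ]
    apply hF1 _ _ (ψf _).2 c.2
    rw [hψf]
    show (g⁻¹)⁻¹ • a = c.1 a
    rw [inv_inv, hg]
  refine ⟨⟨?_⟩, hpart2⟩
  exact ((QuotientGroup.quotientMulEquivOfEq hker).symm.trans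
    (QuotientGroup.quotientKerEquivOfSurjective ψ hsurj)).symm

end Cfsg.Agent.S0702
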