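import Cfsg.Statements.S0703
import Mathlib

set_option autoImplicit false
open Cfsg

namespace Cfsg.Agent.S0703

/-- An abelian transitive minimal normal subgroup `M` of a permutation group on a finite set is self-centralising in the symmetric group, regular, elementary abelian, and is the unique minimal normal subgroup. -/
theorem result {α : Type*} [Finite α] (G : Subgroup (Equiv.Perm α)) (M : Subgroup G) [M.Normal] (hM : M ≠ ⊥) (hmin : ∀ L : Subgroup G, L.Normal → L ≤ M → L = ⊥ ∨ L = M) (hab : IsMulCommutative M) (htrans : MulAction.IsPretransitive M α) : Subgroup.centralizer ((M.map G.subtype : Subgroup (Equiv.Perm α)) : Set (Equiv.Perm α)) = M.map G.subtype ∧ (∀ a : α, MulAction.stabilizer M a = ⊥) ∧ (∃ p : ℕ, p.Prime ∧ ∀ m ∈ M, m ^ p = 1) ∧ ∀ L : Subgroup G, L.Normal → L ≠ ⊥ → (∀ L' : Subgroup G, L'.Normal → L' ≤ L → L' = ⊥ ∨ L' = L) → L = M := by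
  classical
  have hcomm : ∀ m₁ m₂ : M, ((m₁ : G) : Equiv.Perm α) * ((m₂ : G) : Equiv.Perm α) =
      ((m₂ : G) : Equiv.Perm α) * ((m₁ : G) : Equiv.Perm α) := by
    intro m₁ m₂
    have h := mul_comm' m₁ m₂
    exact congrArg (fun x : M => ((x : G) : Equiv.Perm α)) h
  have htr : ∀ a b : α, ∃ m : M, ((m : G) : Equiv.Perm α) a = b :=
    fun a b => MulAction.exists_smul_eq M a b
  obtain ⟨m₀, hm₀M, hm₀1⟩ : ∃ m ∈ M, m ≠ 1 := by
    by_contra hcon
    push Not at hcon
    exact hM ((Subgroup.eq_bot_iff_forall M).mpr hcon)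
  obtain ⟨a₀, ha₀⟩ : ∃ a : α, (m₀ : Equiv.Perm α) a ≠ a := by
    by_contra hcon
    push Not at hcon
    apply hm₀1
    apply Subtype.ext
    apply Equiv.ext
    intro a
    exact hcon a
  have hfix : ∀ c : Equiv.Perm α,
      (∀ m : M, c * ((m : G) : Equiv.Perm α) = ((m : G) : Equiv.Perm α) * c) →
      ∀ a, c a = a → c = 1 := by
    intro c hc a hca
    apply Equiv.ext
    intro b
    obtain ⟨m, hm⟩ := htr a b
    have h1 := congrArg (fun f : Equiv.Perm α => f a) (hc m)
    simp only [Equiv.Perm.mul_apply] at h1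
    rw [← hm, h1, hca, Equiv.Perm.one_apply]
  have hreg : ∀ a : α, MulAction.stabilizer M a = ⊥ := by
    intro a
    rw [eq_bot_iff]
    intro m hm
    rw [MulAction.mem_stabilizer_iff] at hm
    rw [Subgroup.mem_bot]
    have h1 : ((m : G) : Equiv.Perm α) = 1 := hfix _ (fun m' => hcomm m m') a hm
    apply Subtype.ext
    apply Subtype.ext
    exact h1
  have hcent : Subgroup.centralizer ((M.map G.subtype : Subgroup (Equiv.Perm α)) :
      Set (Equiv.Perm α)) = M.map G.subtype := by
    apply le_antisymm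
    · intro c hc
      rw [Subgroup.mem_centralizer_iff] at hc
      have hc' : ∀ m : M, Commute c ((m : G) : Equiv.Perm α) := by
        intro m
        exact (hc _ ⟨(m : G), m.2, rfl⟩).symm
      obtain ⟨m, hm⟩ := htr a₀ (c a₀)
      have h1 : (((m : G) : Equiv.Perm α))⁻¹ * c = 1 := by
        refine hfix _ ?_ a₀ ?_
        · intro m'
          have hc1 : Commute ((m : G) : Equiv.Perm α) ((m' : G) : Equiv.Perm α) := hcomm m m'
          exact (hc1.inv_left.mul_left (hc' m')).eq
        · rw [Equiv.Perm.mul_apply, ← hm]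
          simp
      have h2 : c = ((m : G) : Equiv.Perm α) := by
        rw [inv_mul_eq_one] at h1
        exact h1.symm
      rw [h2]
      exact ⟨(m : G), m.2, rfl⟩
    · rintro _ ⟨g, hg, rfl⟩
      rw [Subgroup.mem_centralizer_iff]
      rintro _ ⟨g', hg', rfl⟩
      exact hcomm ⟨g', hg'⟩ ⟨g, hg⟩
  have hel : ∃ p : ℕ, p.Prime ∧ ∀ m ∈ M, m ^ p = 1 := by
    have hMnt : Nontrivial M := (Subgroup.nontrivial_iff_ne_bot M).mpr hM
    have hcard : Nat.card M ≠ 1 := by
      have := Finite.one_lt_card (α := M)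
      omega
    obtain ⟨p, hp, hpdvd⟩ := Nat.exists_prime_and_dvd hcard
    have : Fact p.Prime := ⟨hp⟩
    obtain ⟨x, hx⟩ := exists_prime_orderOf_dvd_card' (G := M) p hpdvd
    refine ⟨p, hp, ?_⟩
    let L : Subgroup G :=
      { carrier := {g | g ∈ M ∧ g ^ p = 1}
        mul_mem' := fun {a b} ha hb => ⟨M.mul_mem ha.1 hb.1, by
          have hc : Commute a b := congrArg Subtype.val (mul_comm' (⟨a, ha.1⟩ : M) ⟨b, hb.1⟩)
          rw [hc.mul_pow, ha.2, hb.2, one_mul]⟩
        one_mem' := ⟨M.one_mem, one_pow p⟩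
        inv_mem' := fun {a} ha => ⟨M.inv_mem ha.1, by rw [inv_pow, ha.2, inv_one]⟩ }
    have hLmem : ∀ g, g ∈ L ↔ g ∈ M ∧ g ^ p = 1 := fun g => Iff.rfl
    have hLn : L.Normal := by
      refine ⟨fun g hg k => ?_⟩
      rw [hLmem] at hg ⊢
      refine ⟨(inferInstance : M.Normal).conj_mem g hg.1 k, ?_⟩
      rw [conj_pow, hg.2, mul_one, mul_inv_cancel]
    have hLle : L ≤ M := fun g hg => hg.1
    have hLne : L ≠ ⊥ := by
      intro h
      have hxL : (x : G) ∈ L := by
        rw [hLmem]
        refine ⟨x.2, ?_⟩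
        have h3 := pow_orderOf_eq_one x
        rw [hx] at h3
        simpa using congrArg Subtype.val h3
      rw [h, Subgroup.mem_bot] at hxL
      have hx1 : x = 1 := Subtype.ext hxL
      rw [hx1, orderOf_one] at hx
      exact hp.one_lt.ne hx
    rcases hmin L hLn hLle with h | h
    · exact absurd h hLne
    · intro m hm
      have h4 : m ∈ L := by rw [h]; exact hm
      exact h4.2
  have huniq : ∀ L : Subgroup G, L.Normal → L ≠ ⊥ →
      (∀ L' : Subgroup G, L'.Normal → L' ≤ L → L' = ⊥ ∨ L' = L) → L = M := by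
    intro L hLn hLne hLmin
    rcases hLmin (L ⊓ M) (Subgroup.normal_inf_normal L M (hH := hLn)) inf_le_left with h | h
    · exfalso
      have hdis : Disjoint L M := disjoint_iff.mpr h
      apply hLne
      rw [eq_bot_iff, ← h]
      intro l hl
      refine ⟨hl, ?_⟩
      have hlc : (l : Equiv.Perm α) ∈ Subgroup.centralizer
          ((M.map G.subtype : Subgroup (Equiv.Perm α)) : Set (Equiv.Perm α)) := by
        rw [Subgroup.mem_centralizer_iff]
        rintro _ ⟨g, hg, rfl⟩
        have hc := Subgroup.commute_of_normal_of_disjoint L M hLn inferInstance hdis l g hl hg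
        exact (congrArg Subtype.val hc.eq).symm
      rw [hcent] at hlc
      obtain ⟨g, hg, hgl⟩ := hlc
      have h5 : g = l := Subtype.ext hgl
      rw [← h5]; exact hg
    · have hLM : L ≤ M := inf_eq_left.mp h
      rcases hmin L hLn hLM with h' | h'
      · exact absurd h' hLne
      · exact h'
  exact ⟨hcent, hreg, hel, huniq⟩

end Cfsg.Agent.S0703
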