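import Cfsg.Statements.S0704
import Mathlib

set_option autoImplicit false
open Cfsg

namespace Cfsg.Agent.S0704

/-- A permutation commuting with a transitive family of permutations and fixing a point is trivial. -/
theorem fix_eq_one {α : Type*} {ι : Type*} (f : ι → Equiv.Perm α)
    (htr : ∀ a b : α, ∃ i, f i a = b)
    (c : Equiv.Perm α) (hc : ∀ i, c * f i = f i * c) (a : α) (hca : c a = a) : c = 1 := by
  apply Equiv.ext
  intro b
  obtain ⟨i, hi⟩ := htr a b
  have h1 := congrArg (fun g : Equiv.Perm α => g a) (hc i)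
  simp only [Equiv.Perm.mul_apply] at h1
  rw [← hi, h1, hca, Equiv.Perm.one_apply]

theorem centralizer_eq_of {α : Type*} (G : Subgroup (Equiv.Perm α)) (M N : Subgroup G)
    (hcomm : ∀ (m : M) (n : N), ((m : G) : Equiv.Perm α) * ((n : G) : Equiv.Perm α) =
      ((n : G) : Equiv.Perm α) * ((m : G) : Equiv.Perm α))
    (htrM : ∀ a b : α, ∃ m : M, ((m : G) : Equiv.Perm α) a = b)
    (htrN : ∀ a b : α, ∃ n : N, ((n : G) : Equiv.Perm α) a = b) (a₀ : α) :
    Subgroup.centralizer ((M.map G.subtype : Subgroup (Equiv.Perm α)) : Set (Equiv.Perm α)) =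
      N.map G.subtype := by
  apply le_antisymm
  · intro c hc
    rw [Subgroup.mem_centralizer_iff] at hc
    have hc' : ∀ m : M, Commute c ((m : G) : Equiv.Perm α) :=
      fun m => (hc _ ⟨(m : G), m.2, rfl⟩).symm
    obtain ⟨n, hn⟩ := htrN a₀ (c a₀)
    have h1 : (((n : G) : Equiv.Perm α))⁻¹ * c = 1 := by
      refine fix_eq_one (fun m : M => ((m : G) : Equiv.Perm α)) htrM _ ?_ a₀ ?_
      · intro m
        have hc1 : Commute ((n : G) : Equiv.Perm α) ((m : G) : Equiv.Perm α) := (hcomm m n).symm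
        exact (hc1.inv_left.mul_left (hc' m)).eq
      · rw [Equiv.Perm.mul_apply, ← hn]
        simp
    have h2 : c = ((n : G) : Equiv.Perm α) := by
      rw [inv_mul_eq_one] at h1
      exact h1.symm
    rw [h2]
    exact ⟨(n : G), n.2, rfl⟩
  · rintro _ ⟨g, hg, rfl⟩
    rw [Subgroup.mem_centralizer_iff]
    rintro _ ⟨g', hg', rfl⟩
    exact hcomm ⟨g', hg'⟩ ⟨g, hg⟩

/-- Two distinct transitive minimal normal subgroups `M`, `N` of a permutation group are regular, non-abelian, isomorphic, each other's centraliser in the symmetric group, and the only minimal normal subgroups. -/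
theorem result {α : Type*} (G : Subgroup (Equiv.Perm α)) (M N : Subgroup G) [M.Normal] [N.Normal] (hM : M ≠ ⊥) (hN : N ≠ ⊥) (hMmin : ∀ L : Subgroup G, L.Normal → L ≤ M → L = ⊥ ∨ L = M) (hNmin : ∀ L : Subgroup G, L.Normal → L ≤ N → L = ⊥ ∨ L = N) (hMN : M ≠ N) (hMt : MulAction.IsPretransitive M α) (hNt : MulAction.IsPretransitive N α) : (∀ a : α, MulAction.stabilizer M a = ⊥) ∧ (∀ a : α, MulAction.stabilizer N a = ⊥) ∧ ¬ IsMulCommutative M ∧ Nonempty (M ≃* N) ∧ Subgroup.centralizer ((M.map G.subtype : Subgroup (Equiv.Perm α)) : Set (Equiv.Perm α)) = N.map G.subtype ∧ Subgroup.centralizer ((N.map G.subtype : Subgroup (Equiv.Perm α)) : Set (Equiv.Perm α)) = M.map G.subtype ∧ ∀ L : Subgroup G, L.Normal → L ≠ ⊥ → (∀ L' : Subgroup G, L'.Normal → L' ≤ L → L' = ⊥ ∨ L' = L) → L = M ∨ L = N := by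
  classical
  have hinf : M ⊓ N = ⊥ := by
    rcases hMmin (M ⊓ N) inferInstance inf_le_left with h | h
    · exact h
    · exfalso
      have hle : M ≤ N := inf_eq_left.mp h
      rcases hNmin M inferInstance hle with h' | h'
      · exact hM h'
      · exact hMN h'
  have hcommG : ∀ m ∈ M, ∀ n ∈ N, m * n = n * m := fun m hm n hn =>
    (Subgroup.commute_of_normal_of_disjoint M N inferInstance inferInstance
      (disjoint_iff.mpr hinf) m n hm hn).eq
  have hcomm : ∀ (m : M) (n : N), ((m : G) : Equiv.Perm α) * ((n : G) : Equiv.Perm α) =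
      ((n : G) : Equiv.Perm α) * ((m : G) : Equiv.Perm α) := by
    intro m n
    exact congrArg Subtype.val (hcommG m m.2 n n.2)
  have hcomm' : ∀ (n : N) (m : M), ((n : G) : Equiv.Perm α) * ((m : G) : Equiv.Perm α) =
      ((m : G) : Equiv.Perm α) * ((n : G) : Equiv.Perm α) := fun n m => (hcomm m n).symm
  have htrM : ∀ a b : α, ∃ m : M, ((m : G) : Equiv.Perm α) a = b :=
    fun a b => MulAction.exists_smul_eq M a b
  have htrN : ∀ a b : α, ∃ n : N, ((n : G) : Equiv.Perm α) a = b :=
    fun a b => MulAction.exists_smul_eq N a b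
  obtain ⟨m₀, hm₀M, hm₀1⟩ : ∃ m ∈ M, m ≠ 1 := by
    by_contra hcon
    push Not at hcon
    exact hM ((Subgroup.eq_bot_iff_forall M).mpr hcon)
  obtain ⟨a₀, ha₀⟩ : ∃ a : α, (m₀ : Equiv.Perm α) a ≠ a := by
    by_contra hcon
    push Not at hcon
    apply hm₀1
    apply Subtype.ext
    apply Equiv.ext
    intro a
    exact hcon a
  have hregM : ∀ a : α, MulAction.stabilizer M a = ⊥ := by
    intro a
    rw [eq_bot_iff]
    intro m hm
    rw [MulAction.mem_stabilizer_iff] at hm
    rw [Subgroup.mem_bot]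
    have h1 : ((m : G) : Equiv.Perm α) = 1 :=
      fix_eq_one (fun n : N => ((n : G) : Equiv.Perm α)) htrN _ (fun n => hcomm m n) a hm
    apply Subtype.ext
    apply Subtype.ext
    exact h1
  have hregN : ∀ a : α, MulAction.stabilizer N a = ⊥ := by
    intro a
    rw [eq_bot_iff]
    intro n hn
    rw [MulAction.mem_stabilizer_iff] at hn
    rw [Subgroup.mem_bot]
    have h1 : ((n : G) : Equiv.Perm α) = 1 :=
      fix_eq_one (fun m : M => ((m : G) : Equiv.Perm α)) htrM _ (fun m => hcomm' n m) a hn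
    apply Subtype.ext
    apply Subtype.ext
    exact h1
  have hcentM := centralizer_eq_of G M N hcomm htrM htrN a₀
  have hcentN := centralizer_eq_of G N M hcomm' htrN htrM a₀
  have hnab : ¬ IsMulCommutative M := by
    intro hc
    apply hM
    rw [eq_bot_iff, ← hinf]
    intro m hm
    refine ⟨hm, ?_⟩
    show m ∈ N
    have hmc : (m : Equiv.Perm α) ∈ Subgroup.centralizer
        ((M.map G.subtype : Subgroup (Equiv.Perm α)) : Set (Equiv.Perm α)) := by
      rw [Subgroup.mem_centralizer_iff]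
      rintro _ ⟨g, hg, rfl⟩
      exact congrArg (fun x : M => ((x : G) : Equiv.Perm α)) (mul_comm' (⟨g, hg⟩ : M) ⟨m, hm⟩)
    rw [hcentM] at hmc
    obtain ⟨g, hg, hgm⟩ := hmc
    have h5 : g = m := Subtype.ext hgm
    rw [← h5]; exact hg
  have hNuniq : ∀ n n' : N,
      ((n : G) : Equiv.Perm α) a₀ = ((n' : G) : Equiv.Perm α) a₀ → n = n' := by
    intro n n' h
    have h1 : n'⁻¹ * n ∈ MulAction.stabilizer N a₀ := by
      rw [MulAction.mem_stabilizer_iff]
      show ((((n' : G) : Equiv.Perm α))⁻¹ * ((n : G) : Equiv.Perm α)) a₀ = a₀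
      rw [Equiv.Perm.mul_apply, h]
      simp
    rw [hregN, Subgroup.mem_bot] at h1
    exact (inv_mul_eq_one.mp h1).symm
  have hMuniq : ∀ m m' : M,
      ((m : G) : Equiv.Perm α) a₀ = ((m' : G) : Equiv.Perm α) a₀ → m = m' := by
    intro m m' h
    have h1 : m'⁻¹ * m ∈ MulAction.stabilizer M a₀ := by
      rw [MulAction.mem_stabilizer_iff]
      show ((((m' : G) : Equiv.Perm α))⁻¹ * ((m : G) : Equiv.Perm α)) a₀ = a₀
      rw [Equiv.Perm.mul_apply, h]
      simp
    rw [hregM, Subgroup.mem_bot] at h1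
    exact (inv_mul_eq_one.mp h1).symm
  have hiso : Nonempty (M ≃* N) := by
    have hex : ∀ m : M, ∃ n : N,
        ((n : G) : Equiv.Perm α) a₀ = ((m : G) : Equiv.Perm α) a₀ := fun m => htrN a₀ _
    choose ν hν using hex
    have hanti : ∀ m m' : M, ν (m * m') = ν m' * ν m := by
      intro m m'
      apply hNuniq
      rw [hν (m * m')]
      show ((m : G) : Equiv.Perm α) (((m' : G) : Equiv.Perm α) a₀) =
        ((ν m' : G) : Equiv.Perm α) (((ν m : G) : Equiv.Perm α) a₀)
      rw [hν m, ← hν m']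
      have h1 := congrArg (fun f : Equiv.Perm α => f a₀) (hcomm m (ν m'))
      simp only [Equiv.Perm.mul_apply] at h1
      exact h1
    let f : M →* N := MonoidHom.mk' (fun m => (ν m)⁻¹) (fun m m' => by rw [hanti, mul_inv_rev])
    have hf : ∀ m, f m = (ν m)⁻¹ := fun m => rfl
    refine ⟨MulEquiv.ofBijective f ⟨?_, ?_⟩⟩
    · intro m m' h
      rw [hf, hf] at h
      have h2 : ν m = ν m' := inv_injective h
      apply hMuniq
      rw [← hν m, ← hν m', h2]
    · intro n
      obtain ⟨m, hm⟩ := htrM a₀ ((((n⁻¹ : N) : G) : Equiv.Perm α) a₀)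
      refine ⟨m, ?_⟩
      rw [hf]
      have h2 : ν m = n⁻¹ := by
        apply hNuniq
        rw [hν m, hm]
      rw [h2, inv_inv]
  have huniq : ∀ L : Subgroup G, L.Normal → L ≠ ⊥ →
      (∀ L' : Subgroup G, L'.Normal → L' ≤ L → L' = ⊥ ∨ L' = L) → L = M ∨ L = N := by
    intro L hLn hLne hLmin
    by_cases hLM : L = M
    · exact Or.inl hLM
    right
    have hLinf : L ⊓ M = ⊥ := by
      rcases hLmin (L ⊓ M) (Subgroup.normal_inf_normal L M (hH := hLn)) inf_le_left with h | h
      · exact h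
      · exfalso
        have hle : L ≤ M := inf_eq_left.mp h
        rcases hMmin L hLn hle with h' | h'
        · exact hLne h'
        · exact hLM h'
    have hLN : L ≤ N := by
      intro l hl
      have hlc : (l : Equiv.Perm α) ∈ Subgroup.centralizer
          ((M.map G.subtype : Subgroup (Equiv.Perm α)) : Set (Equiv.Perm α)) := by
        rw [Subgroup.mem_centralizer_iff]
        rintro _ ⟨g, hg, rfl⟩
        have hc := Subgroup.commute_of_normal_of_disjoint L M hLn inferInstance
          (disjoint_iff.mpr hLinf) l g hl hg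
        exact (congrArg Subtype.val hc.eq).symm
      rw [hcentM] at hlc
      obtain ⟨g, hg, hgl⟩ := hlc
      have h5 : g = l := Subtype.ext hgl
      rw [← h5]; exact hg
    rcases hNmin L hLn hLN with h' | h'
    · exact absurd h' hLne
    · exact h'
  exact ⟨hregM, hregN, hnab, hiso, hcentM, hcentN, huniq⟩

end Cfsg.Agent.S0704
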