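import Mathlib
import Cfsg.Statements.S0705

set_option autoImplicit false
open scoped Pointwise
open Cfsg

namespace Cfsg.Agent.S0705

theorem step {α : Type*} [Fintype α] [DecidableEq α] (G : Subgroup (Equiv.Perm α)) {k : ℕ}
    (hk : k < Fintype.card α)
    (hgen : ∀ s : Finset α, s.card = k + 1 → ∀ σ : Equiv.Perm ↥s,
      ∃ g ∈ G, ∀ x : ↥s, g (x : α) = σ x)
    (x y : Fin k ↪ α) (i : Fin k) (hi : x i ≠ y i) :
    ∃ g ∈ G, g (x i) = y i ∧ ∀ l, g (x l) ≠ y l → x l ≠ y l := by
  have hXcard : (Finset.univ.map x).card = k := by simp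
  have hxX : ∀ l, x l ∈ Finset.univ.map x := fun l => by simp
  by_cases hyi : y i ∈ Finset.univ.map x
  · -- case B
    obtain ⟨j, -, hj⟩ := Finset.mem_map.mp hyi
    have hji : j ≠ i := by
      rintro rfl
      exact hi hj
    obtain ⟨z, hz⟩ : ∃ z, z ∉ Finset.univ.map x := by
      by_contra hcon
      push_neg at hcon
      have : Finset.univ.map x = Finset.univ := Finset.eq_univ_iff_forall.mpr hcon
      rw [this, Finset.card_univ] at hXcard
      omega
    have hs : (insert z (Finset.univ.map x)).card = k + 1 := by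
      rw [Finset.card_insert_of_notMem hz, hXcard]
    have hmem : ∀ l, x l ∈ insert z (Finset.univ.map x) := fun l =>
      Finset.mem_insert_of_mem (hxX l)
    obtain ⟨g, hgG, hg⟩ := hgen _ hs (Equiv.swap ⟨x i, hmem i⟩ ⟨x j, hmem j⟩)
    refine ⟨g, hgG, ?_, ?_⟩
    · rw [hg ⟨x i, hmem i⟩, Equiv.swap_apply_left]
      exact hj
    · intro l hl
      by_cases hli : l = i
      · subst hli; exact hi
      · by_cases hlj : l = j
        · subst hlj
          rw [hj]
          intro h
          exact hli (y.injective h).symm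
        · have h1 : (⟨x l, hmem l⟩ : ↥(insert z (Finset.univ.map x))) ≠ ⟨x i, hmem i⟩ := by
            intro h
            exact hli (x.injective (Subtype.ext_iff.mp h))
          have h2 : (⟨x l, hmem l⟩ : ↥(insert z (Finset.univ.map x))) ≠ ⟨x j, hmem j⟩ := by
            intro h
            exact hlj (x.injective (Subtype.ext_iff.mp h))
          rw [hg ⟨x l, hmem l⟩, Equiv.swap_apply_of_ne_of_ne h1 h2] at hl
          exact hl
  · -- case A
    have hs : (insert (y i) (Finset.univ.map x)).card = k + 1 := by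
      rw [Finset.card_insert_of_notMem hyi, hXcard]
    have hmem : ∀ l, x l ∈ insert (y i) (Finset.univ.map x) := fun l =>
      Finset.mem_insert_of_mem (hxX l)
    have hmemy : y i ∈ insert (y i) (Finset.univ.map x) := Finset.mem_insert_self _ _
    obtain ⟨g, hgG, hg⟩ := hgen _ hs (Equiv.swap ⟨x i, hmem i⟩ ⟨y i, hmemy⟩)
    refine ⟨g, hgG, ?_, ?_⟩
    · rw [hg ⟨x i, hmem i⟩, Equiv.swap_apply_left]
    · intro l hl
      by_cases hli : l = i
      · subst hli; exact hi
      · have h1 : (⟨x l, hmem l⟩ : ↥(insert (y i) (Finset.univ.map x))) ≠ ⟨x i, hmem i⟩ := by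
          intro h
          exact hli (x.injective (Subtype.ext_iff.mp h))
        have h2 : (⟨x l, hmem l⟩ : ↥(insert (y i) (Finset.univ.map x))) ≠ ⟨y i, hmemy⟩ := by
          intro h
          have h' : x l = y i := Subtype.ext_iff.mp h
          exact hyi (h' ▸ hxX l)
        rw [hg ⟨x l, hmem l⟩, Equiv.swap_apply_of_ne_of_ne h1 h2] at hl
        exact hl

theorem trans_aux {α : Type*} [Fintype α] [DecidableEq α] (G : Subgroup (Equiv.Perm α)) {k : ℕ}
    (hk : k < Fintype.card α)
    (hgen : ∀ s : Finset α, s.card = k + 1 → ∀ σ : Equiv.Perm ↥s,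
      ∃ g ∈ G, ∀ x : ↥s, g (x : α) = σ x)
    (y : Fin k ↪ α) : ∀ (d : ℕ) (x : Fin k ↪ α),
      (Finset.univ.filter (fun i => x i ≠ y i)).card = d → ∃ g ∈ G, ∀ i, g (x i) = y i := by
  intro d
  induction d using Nat.strong_induction_on with
  | _ d ih =>
    intro x hd
    by_cases hall : ∀ i, x i = y i
    · exact ⟨1, G.one_mem, fun i => by simpa using hall i⟩
    · push Not at hall
      obtain ⟨i, hi⟩ := hall
      obtain ⟨g, hgG, hgi, hgl⟩ := step G hk hgen x y i hi
      have hlt : (Finset.univ.filter (fun l => (x.trans g.toEmbedding) l ≠ y l)).card < d := by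
        rw [← hd]
        apply Finset.card_lt_card
        rw [Finset.ssubset_iff_of_subset]
        · refine ⟨i, ?_, ?_⟩
          · simp [hi]
          · simp [hgi]
        · intro l hl
          simp only [Finset.mem_filter, Finset.mem_univ, true_and] at hl ⊢
          exact hgl l hl
      obtain ⟨g', hg'G, hg'⟩ := ih _ hlt (x.trans g.toEmbedding) rfl
      refine ⟨g' * g, G.mul_mem hg'G hgG, fun l => ?_⟩
      rw [Equiv.Perm.mul_apply]
      exact hg' l

/-- A generously `k`-transitive permutation group (every `(k+1)`-subset has its full symmetric group induced by the setwise stabiliser) of degree greater than `k` is `k`-transitive, and for a `k`-subset the setwise and pointwise stabilisers have the same orbits outside it. -/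
theorem result {α : Type*} [Fintype α] [DecidableEq α] (G : Subgroup (Equiv.Perm α)) {k : ℕ} (hk : k < Fintype.card α) (hgen : ∀ s : Finset α, s.card = k + 1 → ∀ σ : Equiv.Perm ↥s, ∃ g ∈ G, ∀ x : ↥s, g (x : α) = σ x) : MulAction.IsMultiplyPretransitive G α k ∧ ∀ s : Finset α, s.card = k → ∀ a b : α, a ∉ s → b ∉ s → (∃ g ∈ G, g • s = s ∧ g a = b) → ∃ g ∈ G, (∀ x ∈ s, g x = x) ∧ g a = b := by
  constructor
  · refine ⟨fun x y => ?_⟩
    obtain ⟨g, hgG, hg⟩ := trans_aux G hk hgen y _ x rfl
    refine ⟨⟨g, hgG⟩, ?_⟩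
    ext i
    exact hg i
  · intro s hs a b ha hb ⟨g, hgG, hgs, hga⟩
    have hgmem : ∀ x, x ∈ s → g x ∈ s := by
      intro x hx
      have : g • x ∈ g • s := Finset.smul_mem_smul_finset hx
      rw [hgs] at this
      exact this
    have hginv : ∀ x, x ∈ s → g⁻¹ x ∈ s := by
      intro x hx
      have hx' : x ∈ g • s := by rw [hgs]; exact hx
      obtain ⟨y, hy, hyx⟩ := Finset.mem_smul_finset.mp hx'
      have : g⁻¹ x = y := by
        rw [← hyx]; simp
      rw [this]; exact hy
    have hgb : g⁻¹ b = a := by rw [← hga]; simp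
    have hcard : (insert b s).card = k + 1 := by
      rw [Finset.card_insert_of_notMem hb, hs]
    have hπ : ∀ x, x ∈ insert b s → (Equiv.swap b a * g⁻¹) x ∈ insert b s := by
      intro x hx
      rw [Equiv.Perm.mul_apply]
      rcases Finset.mem_insert.mp hx with rfl | hx
      · rw [hgb, Equiv.swap_apply_right]; exact Finset.mem_insert_self _ _
      · have h1 := hginv x hx
        rw [Equiv.swap_apply_of_ne_of_ne (fun h : g⁻¹ x = b => hb (h ▸ h1))
          (fun h : g⁻¹ x = a => ha (h ▸ h1))]
        exact Finset.mem_insert_of_mem h1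
    obtain ⟨h, hhG, hh⟩ := hgen _ hcard
      (Equiv.Perm.subtypePermOfFintype (Equiv.swap b a * g⁻¹) hπ)
    refine ⟨h * g, G.mul_mem hhG hgG, ?_, ?_⟩
    · intro x hx
      rw [Equiv.Perm.mul_apply]
      have h1 := hh ⟨g x, Finset.mem_insert_of_mem (hgmem x hx)⟩
      rw [Equiv.Perm.subtypePermOfFintype_apply] at h1
      simp only [Equiv.Perm.mul_apply] at h1
      have h2 : g⁻¹ (g x) = x := by simp
      rw [h1, h2]
      exact Equiv.swap_apply_of_ne_of_ne (fun h : x = b => hb (h ▸ hx))
        (fun h : x = a => ha (h ▸ hx))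
    · rw [Equiv.Perm.mul_apply, hga]
      have h1 := hh ⟨b, Finset.mem_insert_self _ _⟩
      rw [Equiv.Perm.subtypePermOfFintype_apply] at h1
      simp only [Equiv.Perm.mul_apply] at h1
      rw [h1, hgb, Equiv.swap_apply_right]

end Cfsg.Agent.S0705
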