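import Cfsg.Statements.S0706
import Mathlib

set_option autoImplicit false
open Cfsg

namespace Cfsg.Agent.S0706

variable {α : Type*} [Fintype α] [DecidableEq α]

/-- pointwise stabiliser of a finset inside `G` -/
def fixG (G : Subgroup (Equiv.Perm α)) (A : Finset α) : Subgroup (Equiv.Perm α) where
  carrier := {g | g ∈ G ∧ ∀ x ∈ A, g x = x}
  mul_mem' := by
    rintro g h ⟨hg, hg'⟩ ⟨hh, hh'⟩
    exact ⟨G.mul_mem hg hh, fun x hx => by rw [Equiv.Perm.mul_apply, hh' x hx, hg' x hx]⟩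
  one_mem' := ⟨G.one_mem, fun x _ => rfl⟩
  inv_mem' := by
    rintro g ⟨hg, hg'⟩
    exact ⟨G.inv_mem hg, fun x hx => by rw [Equiv.Perm.inv_eq_iff_eq, hg' x hx]⟩

theorem pinv_app (g : Equiv.Perm α) (x : α) : g⁻¹ (g x) = x := by simp

theorem papp_inv (g : Equiv.Perm α) (x : α) : g (g⁻¹ x) = x := by simp

theorem mem_fixG {G : Subgroup (Equiv.Perm α)} {A : Finset α} {g : Equiv.Perm α} :
    g ∈ fixG G A ↔ g ∈ G ∧ ∀ x ∈ A, g x = x := Iff.rfl

theorem orbit_eq (G : Subgroup (Equiv.Perm α)) (Γ : Finset α) (a : α) :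
    MulAction.orbit (fixingSubgroup G (Γ : Set α)) a = {z | ∃ h ∈ fixG G Γ, h a = z} := by
  ext z
  rw [MulAction.mem_orbit_iff]
  constructor
  · rintro ⟨x, rfl⟩
    refine ⟨((x : G) : Equiv.Perm α), ⟨(x : G).2, fun y hy => ?_⟩, rfl⟩
    have h1 := (mem_fixingSubgroup_iff (M := G)).mp x.2 y (by exact_mod_cast hy)
    exact h1
  · rintro ⟨h, ⟨hG, hfix⟩, rfl⟩
    refine ⟨⟨⟨h, hG⟩, ?_⟩, rfl⟩
    rw [mem_fixingSubgroup_iff]
    intro y hy
    exact hfix y (by exact_mod_cast hy)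

theorem GEN (G : Subgroup (Equiv.Perm α)) {k : ℕ}
    (hgen : ∀ s : Finset α, s.card = k + 1 → ∀ σ : Equiv.Perm ↥s, ∃ g ∈ G, ∀ x : ↥s, g (x : α) = σ x)
    (s : Finset α) (hs : s.card = k + 1) (τ : Equiv.Perm α) (hτ : ∀ x, τ x ∈ s ↔ x ∈ s) :
    ∃ g ∈ G, ∀ x ∈ s, g x = τ x := by
  obtain ⟨g, hg, h⟩ := hgen s hs (τ.subtypePerm hτ)
  refine ⟨g, hg, fun x hx => ?_⟩
  have h1 := h ⟨x, hx⟩
  rw [Equiv.Perm.subtypePerm_apply] at h1
  exact h1

theorem card_fix_image (G : Subgroup (Equiv.Perm α)) (g : Equiv.Perm α) (hg : g ∈ G)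
    (A : Finset α) : Nat.card ↥(fixG G A) = Nat.card ↥(fixG G (A.image g)) := by
  refine Nat.card_congr ⟨fun h => ⟨g * h.1 * g⁻¹, ?_⟩, fun h => ⟨g⁻¹ * h.1 * g, ?_⟩, ?_, ?_⟩
  · refine ⟨G.mul_mem (G.mul_mem hg h.2.1) (G.inv_mem hg), ?_⟩
    intro x hx
    obtain ⟨y, hy, rfl⟩ := Finset.mem_image.mp hx
    rw [Equiv.Perm.mul_apply, Equiv.Perm.mul_apply, pinv_app, h.2.2 y hy]
  · refine ⟨G.mul_mem (G.mul_mem (G.inv_mem hg) h.2.1) hg, ?_⟩
    intro x hx
    rw [Equiv.Perm.mul_apply, Equiv.Perm.mul_apply, h.2.2 (g x) (Finset.mem_image_of_mem g hx),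
      pinv_app]
  · intro h
    apply Subtype.ext
    show g⁻¹ * (g * h.1 * g⁻¹) * g = h.1
    group
  · intro h
    apply Subtype.ext
    show g * (g⁻¹ * h.1 * g) * g⁻¹ = h.1
    group

theorem CONJ (G : Subgroup (Equiv.Perm α)) {k : ℕ}
    (hgen : ∀ s : Finset α, s.card = k + 1 → ∀ σ : Equiv.Perm ↥s, ∃ g ∈ G, ∀ x : ↥s, g (x : α) = σ x)
    (B : Finset α) (hB : B.card = k) : ∀ (n : ℕ) (A : Finset α), A.card = k → (A \ B).card = n →
      Nat.card ↥(fixG G A) = Nat.card ↥(fixG G B) := by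
  intro n
  induction n using Nat.strong_induction_on with
  | _ n ih =>
    intro A hA hn
    rcases Nat.eq_zero_or_pos n with h0 | hpos
    · rw [h0, Finset.card_eq_zero, Finset.sdiff_eq_empty_iff_subset] at hn
      have hAB : A = B := Finset.eq_of_subset_of_card_le hn (by rw [hA, hB])
      rw [hAB]
    · rw [← hn] at hpos
      obtain ⟨a, ha⟩ := Finset.card_pos.mp hpos
      obtain ⟨haA, haB⟩ := Finset.mem_sdiff.mp ha
      have hBA : (B \ A).card = (A \ B).card := by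
        have h1 := Finset.card_sdiff_add_card_inter A B
        have h2 := Finset.card_sdiff_add_card_inter B A
        rw [Finset.inter_comm] at h2
        omega
      rw [← hBA] at hpos
      obtain ⟨b, hb⟩ := Finset.card_pos.mp hpos
      obtain ⟨hbB, hbA⟩ := Finset.mem_sdiff.mp hb
      have hab : a ≠ b := by rintro rfl; exact haB hbB
      obtain ⟨g, hg, hgs⟩ := GEN G hgen (insert b A)
        (by rw [Finset.card_insert_of_notMem hbA, hA]) (Equiv.swap a b) (by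
          intro x
          simp only [Finset.mem_insert]
          by_cases hxa : x = a
          · rw [hxa, Equiv.swap_apply_left]
            simp [haA]
          · by_cases hxb : x = b
            · rw [hxb, Equiv.swap_apply_right]
              simp [haA]
            · rw [Equiv.swap_apply_of_ne_of_ne hxa hxb])
      have hsub : A.image g \ B ⊆ (A \ B).erase a := by
        intro x hx
        obtain ⟨hx1, hx2⟩ := Finset.mem_sdiff.mp hx
        obtain ⟨y, hy, rfl⟩ := Finset.mem_image.mp hx1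
        have hgy := hgs y (Finset.mem_insert_of_mem hy)
        by_cases hya : y = a
        · rw [hya, Equiv.swap_apply_left] at hgy
          rw [hya, hgy] at hx2
          exact absurd hbB hx2
        · have hyb : y ≠ b := by rintro rfl; exact hbA hy
          rw [Equiv.swap_apply_of_ne_of_ne hya hyb] at hgy
          rw [hgy] at hx2 ⊢
          exact Finset.mem_erase.mpr ⟨hya, Finset.mem_sdiff.mpr ⟨hy, hx2⟩⟩
      have hlt : (A.image g \ B).card < n := by
        calc (A.image g \ B).card ≤ ((A \ B).erase a).card := Finset.card_le_card hsub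
          _ < (A \ B).card := Finset.card_erase_lt_of_mem ha
          _ = n := hn
      rw [card_fix_image G g hg A]
      exact ih _ hlt (A.image g) (by rw [Finset.card_image_of_injective _ g.injective, hA]) rfl

/-- stabiliser of `S` fixing `Γ ∖ S` pointwise -/
def DD (G : Subgroup (Equiv.Perm α)) (Γ S : Finset α) : Subgroup (Equiv.Perm α) where
  carrier := {g | g ∈ G ∧ (∀ x ∈ Γ, x ∉ S → g x = x) ∧ ∀ x, g x ∈ S ↔ x ∈ S}
  mul_mem' := by
    rintro g h ⟨hg, hg1, hg2⟩ ⟨hh, hh1, hh2⟩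
    refine ⟨G.mul_mem hg hh, fun x hx hxS => ?_, fun x => ?_⟩
    · rw [Equiv.Perm.mul_apply, hh1 x hx hxS, hg1 x hx hxS]
    · rw [Equiv.Perm.mul_apply, hg2, hh2]
  one_mem' := ⟨G.one_mem, fun x _ _ => rfl, fun x => Iff.rfl⟩
  inv_mem' := by
    rintro g ⟨hg, hg1, hg2⟩
    refine ⟨G.inv_mem hg, fun x hx hxS => ?_, fun x => ?_⟩
    · rw [Equiv.Perm.inv_eq_iff_eq, hg1 x hx hxS]
    · rw [← hg2 (g⁻¹ x), papp_inv]

/-- restriction to `S` -/
def resHom (G : Subgroup (Equiv.Perm α)) (Γ S : Finset α) : ↥(DD G Γ S) →* Equiv.Perm ↥S where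
  toFun g := (g : Equiv.Perm α).subtypePerm g.2.2.2
  map_one' := by
    ext x
    simp
  map_mul' g h := by
    ext x
    rfl

theorem resHom_apply (G : Subgroup (Equiv.Perm α)) (Γ S : Finset α) (g : ↥(DD G Γ S)) (x : ↥S) :
    ((resHom G Γ S g x : ↥S) : α) = (g : Equiv.Perm α) x := rfl

set_option maxHeartbeats 1600000 in
/-- In a generously `k`-transitive permutation group, for a prime `p ≤ k` and a `k`-set `Γ`, there are no `p` points outside `Γ` lying in distinct orbits of the pointwise stabiliser of `Γ` all of length prime to `p` (at most `p - 1` such orbits). -/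
theorem result {α : Type*} [Fintype α] [DecidableEq α] (G : Subgroup (Equiv.Perm α)) {k : ℕ} (hk : k < Fintype.card α) (hgen : ∀ s : Finset α, s.card = k + 1 → ∀ σ : Equiv.Perm ↥s, ∃ g ∈ G, ∀ x : ↥s, g (x : α) = σ x) {p : ℕ} (hp : p.Prime) (hpk : p ≤ k) (Γ : Finset α) (hΓ : Γ.card = k) (f : Fin p → α) (hf : ∀ i, f i ∉ Γ) (hdist : ∀ i j, i ≠ j → f j ∉ MulAction.orbit (fixingSubgroup G (Γ : Set α)) (f i)) : ∃ i, p ∣ Nat.card (MulAction.orbit (fixingSubgroup G (Γ : Set α)) (f i)) := by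
  by_contra hcon
  push Not at hcon
  have hpF : Fact p.Prime := ⟨hp⟩
  obtain ⟨S, hSΓ, hScard⟩ := Finset.exists_subset_card_eq (hΓ ▸ hpk : p ≤ Γ.card)
  obtain ⟨y0, hy0⟩ : ∃ y0, y0 ∉ Γ := by
    by_contra h
    push Not at h
    have h1 : Fintype.card α ≤ Γ.card := by
      rw [← Finset.card_univ]
      exact Finset.card_le_card (fun x _ => h x)
    omega
  -- an element of order p on S
  have hcardS : Nat.card (Equiv.Perm ↥S) = p.factorial := by
    rw [Nat.card_eq_fintype_card, Fintype.card_perm, Fintype.card_coe, hScard]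
  obtain ⟨σ, hσ⟩ := exists_prime_orderOf_dvd_card' (G := Equiv.Perm ↥S) p (by
    rw [hcardS]
    exact Nat.dvd_factorial hp.pos le_rfl)
  obtain ⟨c, hcG, hc⟩ := GEN G hgen (insert y0 Γ)
    (by rw [Finset.card_insert_of_notMem hy0, hΓ]) (Equiv.Perm.ofSubtype σ) (by
      intro x
      by_cases hx : x ∈ S
      · have h1 : Equiv.Perm.ofSubtype σ x ∈ S := by
          rw [Equiv.Perm.ofSubtype_apply_of_mem σ hx]
          exact (σ ⟨x, hx⟩).2
        simp only [Finset.mem_insert, hSΓ h1, hSΓ hx, or_true]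
      · rw [Equiv.Perm.ofSubtype_apply_of_not_mem σ hx])
  have hcS : ∀ x (hx : x ∈ S), c x = σ ⟨x, hx⟩ := fun x hx => by
    rw [hc x (Finset.mem_insert_of_mem (hSΓ hx)), Equiv.Perm.ofSubtype_apply_of_mem σ hx]
  have hcD : c ∈ DD G Γ S := by
    refine ⟨hcG, fun x hx hxS => ?_, fun x => ⟨fun h => ?_, fun h => ?_⟩⟩
    · rw [hc x (Finset.mem_insert_of_mem hx), Equiv.Perm.ofSubtype_apply_of_not_mem σ hxS]
    · have h1 := hcS (σ⁻¹ ⟨c x, h⟩ : ↥S).1 (σ⁻¹ ⟨c x, h⟩ : ↥S).2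
      have h2 : c ((σ⁻¹ ⟨c x, h⟩ : ↥S) : α) = c x := by
        rw [h1]
        simp
      rw [← c.injective h2]
      exact (σ⁻¹ ⟨c x, h⟩ : ↥S).2
    · rw [hcS x h]
      exact (σ ⟨x, h⟩).2
  have hφc : resHom G Γ S ⟨c, hcD⟩ = σ := by
    ext x
    rw [resHom_apply]
    exact hcS x.1 x.2
  -- cardinalities
  have hker : Nat.card ↥(resHom G Γ S).ker = Nat.card ↥(fixG G Γ) := by
    refine Nat.card_congr ⟨fun x => ⟨((x : ↥(DD G Γ S)) : Equiv.Perm α), ?_⟩,
      fun h => ⟨⟨h.1, ?_⟩, ?_⟩, ?_, ?_⟩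
    · have hx := x.2
      rw [MonoidHom.mem_ker] at hx
      refine ⟨x.1.2.1, fun z hz => ?_⟩
      by_cases hzS : z ∈ S
      · have h1 := congrArg (fun τ : Equiv.Perm ↥S => ((τ ⟨z, hzS⟩ : ↥S) : α)) hx
        exact h1
      · exact x.1.2.2.1 z hz hzS
    · refine ⟨h.2.1, fun z hz _ => h.2.2 z hz, fun z => ⟨fun hz => ?_, fun hz => ?_⟩⟩
      · have h1 : h.1 (h.1 z) = h.1 z := h.2.2 _ (hSΓ hz)
        have h2 := h.1.injective h1
        rw [← h2]
        exact hz
      · rw [h.2.2 z (hSΓ hz)]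
        exact hz
    · rw [MonoidHom.mem_ker]
      ext z
      rw [resHom_apply]
      exact h.2.2 z.1 (hSΓ z.2)
    · intro x
      rfl
    · intro h
      rfl
  have hrange : p ∣ Nat.card ↥(resHom G Γ S).range := by
    have h1 : orderOf (⟨σ, ⟨⟨c, hcD⟩, hφc⟩⟩ : ↥(resHom G Γ S).range) = p := by
      rw [← hσ]
      exact Subgroup.orderOf_mk σ _
    rw [← h1]
    exact orderOf_dvd_natCard _
  have hDcard : Nat.card ↥(DD G Γ S) =
      Nat.card ↥(fixG G Γ) * Nat.card ↥(resHom G Γ S).range := by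
    rw [← hker, ← Subgroup.index_ker, Subgroup.card_mul_index]
  obtain ⟨v, hv⟩ : ∃ v, v = (Nat.card ↥(fixG G Γ)).factorization p := ⟨_, rfl⟩
  have hdvd : p ^ (v + 1) ∣ Nat.card ↥(DD G Γ S) := by
    rw [hDcard, pow_succ, hv]
    exact Nat.mul_dvd_mul (Nat.ordProj_dvd _ _) hrange
  obtain ⟨K, hK⟩ := Sylow.exists_subgroup_card_pow_prime p hdvd
  have hKp : IsPGroup p ↥K := IsPGroup.of_card hK
  -- orbits of fixG are invariant under DD
  have hOΓ : ∀ i, ∀ h ∈ fixG G Γ, h (f i) ∉ Γ := by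
    intro i h hh hmem
    have h1 : h (h (f i)) = h (f i) := hh.2 _ hmem
    have h2 := h.injective h1
    rw [h2] at hmem
    exact hf i hmem
  have hOinv : ∀ g : Equiv.Perm α, g ∈ DD G Γ S → ∀ z, z ∉ Γ → ∃ h ∈ fixG G Γ, h z = g z := by
    intro g hgD z hz
    obtain ⟨g', hg'G, hg'⟩ := GEN G hgen (insert z Γ)
      (by rw [Finset.card_insert_of_notMem hz, hΓ])
      (Equiv.Perm.ofSubtype (resHom G Γ S ⟨g, hgD⟩)) (by
        intro x
        by_cases hx : x ∈ S
        · have h1 : Equiv.Perm.ofSubtype (resHom G Γ S ⟨g, hgD⟩) x ∈ S := by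
            rw [Equiv.Perm.ofSubtype_apply_of_mem _ hx]
            exact (resHom G Γ S ⟨g, hgD⟩ ⟨x, hx⟩).2
          simp only [Finset.mem_insert, hSΓ h1, hSΓ hx, or_true]
        · rw [Equiv.Perm.ofSubtype_apply_of_not_mem _ hx])
    have hg'S : ∀ x ∈ S, g' x = g x := fun x hx => by
      rw [hg' x (Finset.mem_insert_of_mem (hSΓ hx)), Equiv.Perm.ofSubtype_apply_of_mem _ hx,
        resHom_apply]
    have hg'N : ∀ x ∈ insert z Γ, x ∉ S → g' x = x := fun x hx hxS => by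
      rw [hg' x hx, Equiv.Perm.ofSubtype_apply_of_not_mem _ hxS]
    have hzS : z ∉ S := fun h => hz (hSΓ h)
    refine ⟨g * g'⁻¹, ⟨G.mul_mem hgD.1 (G.inv_mem hg'G), fun x hx => ?_⟩, ?_⟩
    · by_cases hxS : x ∈ S
      · have hx' : g⁻¹ x ∈ S := by
          rw [← hgD.2.2 (g⁻¹ x), papp_inv]
          exact hxS
        have h1 : g' (g⁻¹ x) = x := by rw [hg'S _ hx', papp_inv]
        have h2 : g'⁻¹ x = g⁻¹ x := by rw [Equiv.Perm.inv_eq_iff_eq, h1]
        rw [Equiv.Perm.mul_apply, h2, papp_inv]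
      · have h1 : g'⁻¹ x = x := by
          rw [Equiv.Perm.inv_eq_iff_eq, hg'N x (Finset.mem_insert_of_mem hx) hxS]
        rw [Equiv.Perm.mul_apply, h1, hgD.2.1 x hx hxS]
    · have h1 : g'⁻¹ z = z := by
        rw [Equiv.Perm.inv_eq_iff_eq, hg'N z (Finset.mem_insert_self z Γ) hzS]
      rw [Equiv.Perm.mul_apply, h1]
  -- fixed points of K
  have hfixpt : ∀ i : Fin p, ∃ y : α, (∃ h ∈ fixG G Γ, h (f i) = y) ∧
      ∀ k ∈ K, ((k : ↥(DD G Γ S)) : Equiv.Perm α) y = y := by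
    intro i
    let O : SubMulAction ↥K α :=
      { carrier := {z | ∃ h ∈ fixG G Γ, h (f i) = z}
        smul_mem' := by
          rintro k z ⟨h, hh, rfl⟩
          obtain ⟨h', hh', e⟩ := hOinv (((k : ↥(DD G Γ S)) : Equiv.Perm α))
            (k : ↥(DD G Γ S)).2 (h (f i)) (hOΓ i h hh)
          exact ⟨h' * h, (fixG G Γ).mul_mem hh' hh, by
            rw [Equiv.Perm.mul_apply, e]
            rfl⟩ }
    have hcardO : ¬ p ∣ Nat.card ↥O := by
      have h1 := hcon i
      rw [orbit_eq] at h1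
      exact h1
    obtain ⟨y, hy⟩ := hKp.nonempty_fixed_point_of_prime_not_dvd_card ↥O hcardO
    refine ⟨y.1, y.2, fun k hk => ?_⟩
    have h1 := hy ⟨k, hk⟩
    exact congrArg Subtype.val h1
  choose y hyO hyK using hfixpt
  have hyinj : Function.Injective y := by
    intro i j hij
    by_contra hne
    obtain ⟨h, hh, e⟩ := hyO i
    obtain ⟨h', hh', e'⟩ := hyO j
    apply hdist i j hne
    rw [orbit_eq]
    refine ⟨h'⁻¹ * h, (fixG G Γ).mul_mem ((fixG G Γ).inv_mem hh') hh, ?_⟩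
    rw [Equiv.Perm.mul_apply, e, hij, ← e', pinv_app]
  have hyΓ : ∀ i, y i ∉ Γ := fun i => by
    obtain ⟨h, hh, e⟩ := hyO i
    rw [← e]
    exact hOΓ i h hh
  have hΓscard : ((Γ \ S) ∪ Finset.univ.image y).card = k := by
    rw [Finset.card_union_of_disjoint, Finset.card_sdiff_of_subset hSΓ,
      Finset.card_image_of_injective _ hyinj, Finset.card_univ, Fintype.card_fin, hΓ, hScard]
    · omega
    · rw [Finset.disjoint_left]
      intro x hx hx'
      obtain ⟨i, -, rfl⟩ := Finset.mem_image.mp hx'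
      exact hyΓ i (Finset.mem_sdiff.mp hx).1
  have hKle : K.map (DD G Γ S).subtype ≤ fixG G ((Γ \ S) ∪ Finset.univ.image y) := by
    rintro _ ⟨k, hk, rfl⟩
    refine ⟨k.2.1, fun x hx => ?_⟩
    rcases Finset.mem_union.mp hx with hx | hx
    · obtain ⟨hxΓ, hxS⟩ := Finset.mem_sdiff.mp hx
      exact k.2.2.1 x hxΓ hxS
    · obtain ⟨i, -, rfl⟩ := Finset.mem_image.mp hx
      exact hyK i k hk
  have hcardK : Nat.card ↥(K.map (DD G Γ S).subtype) = p ^ (v + 1) := by
    rw [← hK]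
    exact Nat.card_congr (K.equivMapOfInjective _ (Subgroup.subtype_injective _)).symm.toEquiv
  have h1 := Subgroup.card_dvd_of_le hKle
  rw [hcardK, CONJ G hgen Γ hΓ _ _ hΓscard rfl, hv] at h1
  exact Nat.pow_succ_factorization_not_dvd (Nat.card_pos.ne') hp h1

end Cfsg.Agent.S0706
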