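import Mathlib
import Cfsg.Statements.S0707

set_option autoImplicit false
open Cfsg

namespace Cfsg.Agent.S0707

/-- In a primitive permutation group, distinct points have distinct stabilisers unless the group is regular of prime degree. -/
theorem result {α : Type*} (G : Subgroup (Equiv.Perm α)) [MulAction.IsPreprimitive G α] (h : ¬ (Nat.card α).Prime ∨ ∃ a : α, MulAction.stabilizer G a ≠ ⊥) {a b : α} (hab : a ≠ b) : MulAction.stabilizer G a ≠ MulAction.stabilizer G b := by
  intro hEq
  haveI : Nontrivial α := ⟨⟨a, b, hab⟩⟩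
  obtain ⟨g, hg⟩ := MulAction.exists_smul_eq G a b
  have hco : IsCoatom (MulAction.stabilizer G a) :=
    MulAction.IsPreprimitive.isCoatom_stabilizer_of_isPreprimitive (G := G) a
  have hconj : ∀ x : G, x ∈ MulAction.stabilizer G a ↔ g * x * g⁻¹ ∈ MulAction.stabilizer G a := by
    intro x
    rw [show (g * x * g⁻¹ ∈ MulAction.stabilizer G a) ↔ (g * x * g⁻¹ ∈ MulAction.stabilizer G b) by
      rw [hEq]]
    simp only [MulAction.mem_stabilizer_iff]
    rw [← hg, mul_smul, mul_smul, inv_smul_smul]
    constructor
    · intro h; rw [h]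
    · intro h; exact smul_left_cancel g h
  have hgN : g ∈ Subgroup.normalizer (MulAction.stabilizer G a : Set G) := by
    rw [Subgroup.mem_normalizer_iff]; exact hconj
  have hgS : g ∉ MulAction.stabilizer G a := by
    intro hmem
    rw [MulAction.mem_stabilizer_iff] at hmem
    exact hab (hmem.symm.trans hg)
  have hN : Subgroup.normalizer (MulAction.stabilizer G a : Set G) = ⊤ := by
    rcases hco.le_iff.mp (Subgroup.le_normalizer (H := MulAction.stabilizer G a)) with h1 | h1
    · exact h1
    · exact absurd (h1 ▸ hgN) hgS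
  have hnorm : (MulAction.stabilizer G a).Normal := Subgroup.normalizer_eq_top_iff.mp hN
  -- the stabilizer of `a` is trivial
  have hbot : MulAction.stabilizer G a = ⊥ := by
    rw [eq_bot_iff]
    intro x hx
    rw [Subgroup.mem_bot]
    apply Subtype.ext
    apply Equiv.ext
    intro c
    obtain ⟨k, hk⟩ := MulAction.exists_smul_eq G a c
    have h1 : k⁻¹ * x * k⁻¹⁻¹ ∈ MulAction.stabilizer G a := hnorm.conj_mem x hx k⁻¹
    rw [MulAction.mem_stabilizer_iff, inv_inv, mul_smul, mul_smul, inv_smul_eq_iff] at h1
    rw [hk] at h1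
    exact h1
  have hall : ∀ c : α, MulAction.stabilizer G c = ⊥ := by
    intro c
    obtain ⟨k, hk⟩ := MulAction.exists_smul_eq G a c
    rw [eq_bot_iff]
    intro x hx
    rw [MulAction.mem_stabilizer_iff, ← hk, ← mul_smul, ← inv_smul_eq_iff, ← mul_smul] at hx
    have h2 : k⁻¹ * (x * k) ∈ MulAction.stabilizer G a := hx
    rw [hbot, Subgroup.mem_bot] at h2
    rw [Subgroup.mem_bot]
    have h3 : x * k = k := by
      have := congrArg (fun y => k * y) h2
      simpa using this
    exact mul_eq_right.mp h3
  have hnp : ¬ (Nat.card α).Prime := by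
    rcases h with h | ⟨c, hc⟩
    · exact h
    · exact absurd (hall c) hc
  apply hnp
  rw [hbot] at hco
  have hg1 : g ≠ 1 := fun h1 => hgS (h1 ▸ Subgroup.one_mem _)
  haveI : Nontrivial G := ⟨⟨g, 1, hg1⟩⟩
  have hsub : ∀ H : Subgroup G, H = ⊥ ∨ H = ⊤ := by
    intro H
    rcases (hco.le_iff (x := H)).mp bot_le with h1 | h1
    · right; exact h1
    · left; exact h1
  haveI : IsSimpleGroup G := ⟨fun H _ => hsub H⟩
  have hcyc : IsCyclic G := ⟨⟨g, fun x => by
    rcases hsub (Subgroup.zpowers g) with h1 | h1
    · exact absurd (Subgroup.zpowers_eq_bot.mp h1) hg1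
    · exact Subgroup.mem_zpowers_iff.mp (h1 ▸ Subgroup.mem_top x)⟩⟩
  letI : CommGroup G := IsCyclic.commGroup
  have hprime : (Nat.card G).Prime := IsSimpleGroup.prime_card
  have hcard : Nat.card G = Nat.card α := by
    apply Nat.card_eq_of_bijective (fun k : G => k • a)
    constructor
    · intro k1 k2 hk
      have hk' : k1 • a = k2 • a := hk
      have h2 : k2⁻¹ * k1 ∈ MulAction.stabilizer G a := by
        rw [MulAction.mem_stabilizer_iff, mul_smul, hk', inv_smul_smul]
      rw [hbot, Subgroup.mem_bot] at h2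
      have := congrArg (fun y => k2 * y) h2
      simpa using this
    · intro c
      exact MulAction.exists_smul_eq G a c
  rw [← hcard]
  exact hprime

end Cfsg.Agent.S0707
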