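import Cfsg.Statements.S0708
import Mathlib
import Cfsg.Agent.S0415

set_option autoImplicit false
open Cfsg

namespace Cfsg.Agent.S0708

variable {G Ω : Type*} [Group G] [MulAction G Ω]

theorem fixfin (hsharp : ∀ x : Fin 4 ↪ Ω, MulAction.stabilizer G x = ⊥) (g : G) (hg : g ≠ 1) :
    {ω : Ω | g • ω = ω}.Finite := by
  by_contra hinf
  have hI : Infinite ↥{ω : Ω | g • ω = ω} := Set.infinite_coe_iff.mpr hinf
  have hmem : g ∈ MulAction.stabilizer G ((Fin.valEmbedding (n := 4)).trans
      ((Infinite.natEmbedding ↥{ω : Ω | g • ω = ω}).trans (Function.Embedding.subtype _))) := by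
    rw [MulAction.mem_stabilizer_iff]
    ext i
    rw [Function.Embedding.smul_apply]
    exact ((Infinite.natEmbedding ↥{ω : Ω | g • ω = ω}) i.val).2
  rw [hsharp] at hmem
  exact hg (Subgroup.mem_bot.mp hmem)

theorem finite_of_cover (hsharp : ∀ x : Fin 4 ↪ Ω, MulAction.stabilizer G x = ⊥) (L : List G)
    (hL : ∀ g ∈ L, g ≠ 1) (hcov : ∀ ω : Ω, ∃ g ∈ L, g • ω = ω) : Finite Ω := by
  have hfin : (⋃ g ∈ {g | g ∈ L}, {ω : Ω | g • ω = ω}).Finite :=
    Set.Finite.biUnion (List.finite_toSet L) (fun g hg => fixfin hsharp g (hL g hg))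
  have huniv : (Set.univ : Set Ω) ⊆ ⋃ g ∈ {g | g ∈ L}, {ω : Ω | g • ω = ω} := by
    intro ω _
    obtain ⟨g, hg, hω⟩ := hcov ω
    exact Set.mem_biUnion hg hω
  exact Set.finite_univ_iff.mp (hfin.subset huniv)

set_option maxHeartbeats 1600000 in
theorem finite_of_sharp (hS : S0415.S4T G Ω)
    (hsharp : ∀ x : Fin 4 ↪ Ω, MulAction.stabilizer G x = ⊥) (p1 p2 p3 p4 : Ω)
    (d12 : p1 ≠ p2) (d13 : p1 ≠ p3) (d14 : p1 ≠ p4) (d23 : p2 ≠ p3) (d24 : p2 ≠ p4)
    (d34 : p3 ≠ p4) : Finite Ω := by
  have inj : ∀ (g : G) (x y : Ω), g • x = g • y → x = y := fun g x y h => MulAction.injective g h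
  have hnd := S0415.nd4 d12 d13 d14 d23 d24 d34
  obtain ⟨t, ht1, ht2, ht3, ht4⟩ := hS.ex p1 p2 p3 p4 p2 p1 p3 p4 hnd
    (S0415.nd4 d12.symm d23 d24 d13 d14 d34)
  obtain ⟨s, hs1, hs2, hs3, hs4⟩ := hS.ex p1 p2 p3 p4 p1 p2 p4 p3 hnd
    (S0415.nd4 d12 d14 d13 d24 d23 d34.symm)
  have tt : t * t = 1 := hS.uniq _ p1 p2 p3 p4 hnd (by rw [mul_smul, ht1, ht2])
    (by rw [mul_smul, ht2, ht1]) (by rw [mul_smul, ht3, ht3]) (by rw [mul_smul, ht4, ht4])
  have ss : s * s = 1 := hS.uniq _ p1 p2 p3 p4 hnd (by rw [mul_smul, hs1, hs1])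
    (by rw [mul_smul, hs2, hs2]) (by rw [mul_smul, hs3, hs4]) (by rw [mul_smul, hs4, hs3])
  have st : s * t = t * s := hS.eq4 _ _ p1 p2 p3 p4 hnd
    (by rw [mul_smul, mul_smul, ht1, hs2, hs1, ht1]) (by rw [mul_smul, mul_smul, ht2, hs1, hs2, ht2])
    (by rw [mul_smul, mul_smul, ht3, hs3, ht4]) (by rw [mul_smul, mul_smul, ht4, hs4, ht3])
  have ttx : ∀ z : Ω, t • (t • z) = z := fun z => by rw [← mul_smul, tt, one_smul]
  have ssx : ∀ z : Ω, s • (s • z) = z := fun z => by rw [← mul_smul, ss, one_smul]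
  have stx : ∀ z : Ω, s • (t • z) = t • (s • z) := fun z => by rw [← mul_smul, st, mul_smul]
  have t1 : t ≠ 1 := by
    intro h
    rw [h, one_smul] at ht1
    exact d12 ht1
  have s1 : s ≠ 1 := by
    intro h
    rw [h, one_smul] at hs3
    exact d34 hs3
  have ts1 : t * s ≠ 1 := by
    intro h
    have h' : (t * s) • p1 = p1 := by rw [h, one_smul]
    rw [mul_smul, hs1, ht1] at h'
    exact d12 h'.symm
  have tsts : t * s * (t * s) = 1 := by
    calc t * s * (t * s) = t * (s * t) * s := by simp only [mul_assoc]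
      _ = t * (t * s) * s := by rw [st]
      _ = (t * t) * (s * s) := by simp only [mul_assoc]
      _ = 1 := by rw [tt, ss, one_mul]
  -- fixed points of t not fixed by s
  have Ft : ∀ q, t • q = q → s • q ≠ q → q = p3 ∨ q = p4 := by
    intro q hq hsq
    by_contra hcon
    push Not at hcon
    obtain ⟨q3, q4⟩ := hcon
    have h1 : t • (s • q) = s • q := by rw [← stx, hq]
    have h3 : s • q ≠ p3 := fun h => q4 (inj s q p4 (by rw [h, hs4]))
    have h4 : s • q ≠ p4 := fun h => q3 (inj s q p3 (by rw [h, hs3]))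
    exact t1 (hS.uniq t p3 p4 q (s • q)
      (S0415.nd4 d34 (Ne.symm q3) h3.symm (Ne.symm q4) h4.symm (Ne.symm hsq)) ht3 ht4 hq h1)
  have Fs : ∀ q, s • q = q → t • q ≠ q → q = p1 ∨ q = p2 := by
    intro q hq htq
    by_contra hcon
    push Not at hcon
    obtain ⟨q1, q2⟩ := hcon
    have h1 : s • (t • q) = t • q := by rw [stx, hq]
    have h3 : t • q ≠ p1 := fun h => q2 (inj t q p2 (by rw [h, ht2]))
    have h4 : t • q ≠ p2 := fun h => q1 (inj t q p1 (by rw [h, ht1]))
    exact s1 (hS.uniq s p1 p2 q (t • q)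
      (S0415.nd4 d12 (Ne.symm q1) h3.symm (Ne.symm q2) h4.symm (Ne.symm htq)) hs1 hs2 hq h1)
  -- the centraliser of the four-group
  have CV0 : ∀ c : G, c * t = t * c → c * s = s * c → c • p1 = p1 → c • p3 = p3 → c = 1 := by
    intro c ct cs c1 c3
    have c2 : c • p2 = p2 := by rw [← ht1, ← mul_smul, ct, mul_smul, c1]
    have c4 : c • p4 = p4 := by rw [← hs3, ← mul_smul, cs, mul_smul, c3]
    exact hS.uniq c p1 p2 p3 p4 hnd c1 c2 c3 c4
  have CV : ∀ c : G, c * t = t * c → c * s = s * c → c = 1 ∨ c = t ∨ c = s ∨ c = t * s := by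
    intro c ct cs
    have hct : Commute c t := ct
    have hcs : Commute c s := cs
    have hst : Commute s t := st
    have hc1 : c • p1 = p1 ∨ c • p1 = p2 := by
      apply Fs
      · rw [← mul_smul, ← cs, mul_smul, hs1]
      · intro h
        rw [← mul_smul, ← ct, mul_smul, ht1] at h
        exact d12 (inj c p1 p2 h.symm)
    have hc3 : c • p3 = p3 ∨ c • p3 = p4 := by
      apply Ft
      · rw [← mul_smul, ← ct, mul_smul, ht3]
      · intro h
        rw [← mul_smul, ← cs, mul_smul, hs3] at h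
        exact d34 (inj c p3 p4 h.symm)
    rcases hc1 with h1 | h1 <;> rcases hc3 with h3 | h3
    · left
      exact CV0 c ct cs h1 h3
    · right; right; left
      have h := CV0 (s * c) (hst.mul_left hct).eq ((Commute.refl s).mul_left hcs).eq
        (by rw [mul_smul, h1, hs1]) (by rw [mul_smul, h3, hs4])
      have e : c = s⁻¹ := eq_inv_of_mul_eq_one_right h
      rw [e]
      exact inv_eq_of_mul_eq_one_right ss
    · right; left
      have h := CV0 (t * c) ((Commute.refl t).mul_left hct).eq (hst.symm.mul_left hcs).eq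
        (by rw [mul_smul, h1, ht2]) (by rw [mul_smul, h3, ht3])
      have e : c = t⁻¹ := eq_inv_of_mul_eq_one_right h
      rw [e]
      exact inv_eq_of_mul_eq_one_right tt
    · right; right; right
      have h := CV0 (t * s * c) ((((Commute.refl t).mul_left hst)).mul_left hct).eq
        (((hst.symm.mul_left (Commute.refl s))).mul_left hcs).eq
        (by rw [mul_smul, mul_smul, h1, hs2, ht2]) (by rw [mul_smul, mul_smul, h3, hs4, ht3])
      have e : c = (t * s)⁻¹ := eq_inv_of_mul_eq_one_right h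
      rw [e]
      exact inv_eq_of_mul_eq_one_right tsts
  -- elements of order three normalising the four-group
  have Zprop : ∀ ω : Ω, t • ω ≠ ω → s • ω ≠ ω → (t * s) • ω ≠ ω →
      ∃ z : G, z • ω = ω ∧ z * t = s * z ∧ z * s = t * s * z := by
    intro ω h1 h2 h3
    have h3' : t • (s • ω) ≠ ω := by rwa [mul_smul] at h3
    have e12 : t • ω ≠ s • ω := by
      intro h
      apply h3'
      rw [← h, ttx]
    have e13 : t • ω ≠ t • (s • ω) := fun h => h2 (inj t _ _ h).symm
    have e23 : s • ω ≠ t • (s • ω) := by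
      intro h
      rw [← stx] at h
      exact h1 (inj s _ _ h.symm)
    have ndω : [ω, t • ω, s • ω, t • (s • ω)].Nodup :=
      S0415.nd4 (Ne.symm h1) (Ne.symm h2) (Ne.symm h3') e12 e13 e23
    obtain ⟨z, z0, z1, z2, z3⟩ := hS.ex ω (t • ω) (s • ω) (t • (s • ω)) ω (s • ω) (t • (s • ω))
      (t • ω) ndω (S0415.nd4 (Ne.symm h2) (Ne.symm h3') (Ne.symm h1) e23 e12.symm e13.symm)
    refine ⟨z, z0, ?_, ?_⟩
    · apply hS.eq4 _ _ ω (t • ω) (s • ω) (t • (s • ω)) ndω
      · rw [mul_smul, mul_smul, z1, z0]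
      · rw [mul_smul, mul_smul, ttx, z0, z1, ssx]
      · rw [mul_smul, mul_smul, z3, z2, stx, ssx]
      · rw [mul_smul, mul_smul, ttx, z2, z3, stx]
    · apply hS.eq4 _ _ ω (t • ω) (s • ω) (t • (s • ω)) ndω
      · rw [mul_smul, mul_smul, mul_smul, z2, z0]
      · rw [mul_smul, mul_smul, mul_smul, stx, z3, z1, ssx]
      · rw [mul_smul, mul_smul, mul_smul, ssx, z0, z2, stx, ssx, ttx]
      · rw [mul_smul, mul_smul, mul_smul, stx, ssx, z1, z3, stx, ttx]
  by_cases hreg : ∃ ω0 : Ω, t • ω0 ≠ ω0 ∧ s • ω0 ≠ ω0 ∧ (t * s) • ω0 ≠ ω0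
  · obtain ⟨ω0, r1, r2, r3⟩ := hreg
    obtain ⟨z0, z0fix, z0t, z0s⟩ := Zprop ω0 r1 r2 r3
    have notV : ∀ v : G, v * t = t * v → v * z0 ≠ 1 := by
      intro v vt h
      have e : z0 = v⁻¹ := eq_inv_of_mul_eq_one_right h
      have hc : Commute z0 t := by
        rw [e]
        exact (show Commute v t from vt).inv_left
      have h2 : t * z0 = s * z0 := by rw [← hc.eq, z0t]
      have ets : t = s := mul_right_cancel h2
      have h3 : p2 = p1 := by rw [← ht1, ets, hs1]
      exact d12 h3.symm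
    apply finite_of_cover hsharp [t, s, t * s, z0, t * z0, s * z0, t * s * z0]
    · intro g hg
      simp only [List.mem_cons, List.not_mem_nil, or_false] at hg
      rcases hg with rfl | rfl | rfl | rfl | rfl | rfl | rfl
      · exact t1
      · exact s1
      · exact ts1
      · have := notV 1 (by rw [one_mul, mul_one])
        rwa [one_mul] at this
      · exact notV t rfl
      · exact notV s st
      · exact notV (t * s) (by rw [mul_assoc, st, ← mul_assoc])
    · intro ω
      by_cases h1 : t • ω = ω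
      · exact ⟨t, by simp, h1⟩
      by_cases h2 : s • ω = ω
      · exact ⟨s, by simp, h2⟩
      by_cases h3 : (t * s) • ω = ω
      · exact ⟨t * s, by simp, h3⟩
      obtain ⟨z, zfix, zt, zs⟩ := Zprop ω h1 h2 h3
      obtain ⟨c, hc⟩ : ∃ c, z = c * z0 := ⟨z * z0⁻¹, by group⟩
      have cs : c * s = s * c := by
        apply mul_right_cancel (b := z0)
        calc c * s * z0 = c * (s * z0) := mul_assoc _ _ _
          _ = c * (z0 * t) := by rw [z0t]
          _ = (c * z0) * t := (mul_assoc _ _ _).symm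
          _ = s * (c * z0) := by rw [← hc, zt]
          _ = s * c * z0 := (mul_assoc _ _ _).symm
      have cts : c * (t * s) = t * s * c := by
        apply mul_right_cancel (b := z0)
        calc c * (t * s) * z0 = c * (t * s * z0) := mul_assoc _ _ _
          _ = c * (z0 * s) := by rw [z0s]
          _ = (c * z0) * s := (mul_assoc _ _ _).symm
          _ = t * s * (c * z0) := by rw [← hc, zs]
          _ = t * s * c * z0 := (mul_assoc _ _ _).symm
      have ct : c * t = t * c := by
        apply mul_right_cancel (b := s)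
        calc c * t * s = c * (t * s) := mul_assoc _ _ _
          _ = t * s * c := cts
          _ = t * (s * c) := mul_assoc _ _ _
          _ = t * (c * s) := by rw [cs]
          _ = t * c * s := (mul_assoc _ _ _).symm
      rcases CV c ct cs with h | h | h | h
      · rw [h, one_mul] at hc
        rw [hc] at zfix
        exact ⟨z0, by simp, zfix⟩
      · rw [h] at hc
        rw [hc] at zfix
        exact ⟨t * z0, by simp, zfix⟩
      · rw [h] at hc
        rw [hc] at zfix
        exact ⟨s * z0, by simp, zfix⟩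
      · rw [h] at hc
        rw [hc] at zfix
        exact ⟨t * s * z0, by simp, zfix⟩
  · push Not at hreg
    apply finite_of_cover hsharp [t, s, t * s]
    · intro g hg
      simp only [List.mem_cons, List.not_mem_nil, or_false] at hg
      rcases hg with rfl | rfl | rfl
      · exact t1
      · exact s1
      · exact ts1
    · intro ω
      by_cases h1 : t • ω = ω
      · exact ⟨t, by simp, h1⟩
      by_cases h2 : s • ω = ω
      · exact ⟨s, by simp, h2⟩
      exact ⟨t * s, by simp, hreg ω h1 h2⟩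

/-- Tits' argument: a sharply 4-transitive group (no finiteness assumed) has finite degree at most 11, and at most 6 when the degree is even. -/
theorem result {G : Type*} [Group G] {Ω : Type*} [MulAction G Ω] (h4 : MulAction.IsMultiplyPretransitive G Ω 4) (hsharp : ∀ x : Fin 4 ↪ Ω, MulAction.stabilizer G x = ⊥) (hne : Nonempty (Fin 4 ↪ Ω)) : Finite Ω ∧ Nat.card Ω ≤ 11 ∧ (Even (Nat.card Ω) → Nat.card Ω ≤ 6) := by
  have hS := S0415.S4T.of_sharp h4 hsharp
  obtain ⟨f⟩ := hne
  have hfin : Finite Ω := finite_of_sharp hS hsharp (f 0) (f 1) (f 2) (f 3)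
    (f.injective.ne (by decide)) (f.injective.ne (by decide)) (f.injective.ne (by decide))
    (f.injective.ne (by decide)) (f.injective.ne (by decide)) (f.injective.ne (by decide))
  have hc : 4 ≤ Nat.card Ω := by
    have h := Nat.card_le_card_of_injective f f.injective
    simpa using h
  have hJ := S0415.jordan hS hc
  refine ⟨hfin, by omega, fun he => ?_⟩
  rw [Nat.even_iff] at he
  omega

end Cfsg.Agent.S0708
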