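import Cfsg.Statements.S0709
import Mathlib

set_option autoImplicit false
open Cfsg

namespace Cfsg.Agent.S0709

section

variable {α : Type*}

/-- the group generated by `G` and `s 2, …, s (k-1)` -/
def Gk (G : Subgroup (Equiv.Perm α)) (s : ℕ → Equiv.Perm α) (k : ℕ) : Subgroup (Equiv.Perm α) :=
  Subgroup.closure ((G : Set (Equiv.Perm α)) ∪ {x | ∃ i : ℕ, 2 ≤ i ∧ i + 1 ≤ k ∧ x = s i})

/-- `a` is none of `q (k+1), …, q t` -/
def InΩ (t : ℕ) (q : ℕ → α) (k : ℕ) (a : α) : Prop := ∀ i : ℕ, k + 1 ≤ i → i ≤ t → a ≠ q i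

/-- the hypotheses of Witt's lemma -/
structure Hyp (t : ℕ) (q : ℕ → α) (G : Subgroup (Equiv.Perm α)) (s : ℕ → Equiv.Perm α)
    (H : Subgroup (Equiv.Perm α)) : Prop where
  ht : 2 ≤ t
  hq : ∀ i j : ℕ, 1 ≤ i → i ≤ t → 1 ≤ j → j ≤ t → q i = q j → i = j
  hfix : ∀ g ∈ G, ∀ i : ℕ, 3 ≤ i → i ≤ t → g (q i) = q i
  h2 : ∀ a b c d : α, (∀ i, 3 ≤ i → i ≤ t → a ≠ q i ∧ b ≠ q i ∧ c ≠ q i ∧ d ≠ q i) → a ≠ b →
    c ≠ d → ∃ g ∈ G, g a = c ∧ g b = d
  hs1 : s 1 ∈ G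
  hs1q : s 1 (q 1) = q 2 ∧ s 1 (q 2) = q 1
  hsq : ∀ i : ℕ, 2 ≤ i → i + 1 ≤ t → s i (q i) = q (i + 1) ∧ s i (q (i + 1)) = q i ∧
    ∀ j : ℕ, 1 ≤ j → j ≤ t → j ≠ i → j ≠ i + 1 → s i (q j) = q j
  hH : H = G ⊓ MulAction.stabilizer (Equiv.Perm α) (q 1) ⊓ MulAction.stabilizer (Equiv.Perm α) (q 2)
  hsq2 : ∀ i : ℕ, 1 ≤ i → i + 1 ≤ t → s i ^ 2 ∈ H
  hbraid : ∀ i : ℕ, 1 ≤ i → i + 2 ≤ t → (s i * s (i + 1)) ^ 3 ∈ H
  hcomm : ∀ i j : ℕ, 1 ≤ i → i + 2 ≤ j → j + 1 ≤ t → (s i * s j) ^ 2 ∈ H ∧ (s j * s i) ^ 2 ∈ H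
  hnorm : ∀ i : ℕ, 2 ≤ i → i + 1 ≤ t → ∀ g ∈ G ⊓ MulAction.stabilizer (Equiv.Perm α) (q 2),
    s i * g * (s i)⁻¹ ∈ G ⊓ MulAction.stabilizer (Equiv.Perm α) (q 2)

variable {t : ℕ} {q : ℕ → α} {G : Subgroup (Equiv.Perm α)} {s : ℕ → Equiv.Perm α}
  {H : Subgroup (Equiv.Perm α)}

theorem H_le (h : Hyp t q G s H) : H ≤ G := by
  rw [h.hH]
  exact inf_le_left.trans inf_le_left

theorem G_le (k : ℕ) : G ≤ Gk G s k := fun _ hx => Subgroup.subset_closure (Or.inl hx)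

theorem Gk_mono {j k : ℕ} (hjk : j ≤ k) : Gk G s j ≤ Gk G s k :=
  Subgroup.closure_mono (Set.union_subset_union_right _
    (fun _ ⟨i, h1, h2, h3⟩ => ⟨i, h1, by omega, h3⟩))

theorem s_mem {i k : ℕ} (hi : 2 ≤ i) (hik : i + 1 ≤ k) : s i ∈ Gk G s k :=
  Subgroup.subset_closure (Or.inr ⟨i, hi, hik, rfl⟩)

theorem Gk_two : Gk G s 2 = G := by
  apply le_antisymm
  · show Subgroup.closure _ ≤ G
    rw [Subgroup.closure_le]
    rintro x (hx | ⟨i, h1, h2, -⟩)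
    · exact hx
    · omega
  · exact G_le 2

theorem mem_Gk_two {m : Equiv.Perm α} (hm : m ∈ Gk G s 2) : m ∈ G := by
  rw [Gk_two] at hm
  exact hm

theorem fix_of_mem (h : Hyp t q G s H) {k : ℕ} (hk : 2 ≤ k) {y : Equiv.Perm α}
    (hy : y ∈ Gk G s k) {i : ℕ} (hi : k + 1 ≤ i) (hit : i ≤ t) : y (q i) = q i := by
  have hle : Gk G s k ≤ MulAction.stabilizer (Equiv.Perm α) (q i) := by
    show Subgroup.closure _ ≤ _
    rw [Subgroup.closure_le]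
    rintro x (hx | ⟨j, h1, h2, rfl⟩)
    · exact h.hfix x hx i (by omega) hit
    · exact (h.hsq j h1 (by omega)).2.2 i (by omega) hit (by omega) (by omega)
  exact hle hy

theorem inΩ_q (h : Hyp t q G s H) {k i : ℕ} (hi1 : 1 ≤ i) (hik : i ≤ k) (hkt : k ≤ t) :
    InΩ t q k (q i) := by
  intro l hl hlt heq
  have := h.hq i l hi1 (by omega) (by omega) hlt heq
  omega

theorem inΩ_map (h : Hyp t q G s H) {k : ℕ} (hk : 2 ≤ k) {y : Equiv.Perm α}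
    (hy : y ∈ Gk G s k) {a : α} (ha : InΩ t q k a) : InΩ t q k (y a) := by
  intro l hl hlt heq
  apply ha l hl hlt
  have h1 := fix_of_mem h hk hy hl hlt
  rw [← h1] at heq
  exact y.injective heq

theorem inΩ_pred {k : ℕ} {a : α} (ha : InΩ t q (k + 1) a) (hne : a ≠ q (k + 1)) :
    InΩ t q k a := by
  intro l hl hlt
  rcases Nat.eq_or_lt_of_le hl with e | e
  · rw [← e]
    exact hne
  · exact ha l (by omega) hlt

theorem trans_q (h : Hyp t q G s H) : ∀ k : ℕ, 2 ≤ k → k ≤ t → ∀ a : α, InΩ t q k a →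
    ∃ y ∈ Gk G s k, y a = q k := by
  intro k hk
  induction k, hk using Nat.le_induction with
  | base =>
    intro ht a ha
    by_cases haq : a = q 2
    · exact ⟨1, Subgroup.one_mem _, by rw [haq]; rfl⟩
    · have hq2 : InΩ t q 2 (q 2) := inΩ_q h (by omega) le_rfl ht
      obtain ⟨g, hg, hga, -⟩ := h.h2 a (q 2) (q 2) a
        (fun i hi hit => ⟨ha i hi hit, hq2 i hi hit, hq2 i hi hit, ha i hi hit⟩) haq (Ne.symm haq)
      exact ⟨g, G_le 2 hg, hga⟩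
  | succ k hk ih =>
    intro ht a ha
    by_cases haq : a = q (k + 1)
    · exact ⟨1, Subgroup.one_mem _, by rw [haq]; rfl⟩
    · obtain ⟨y, hy, hya⟩ := ih (by omega) a (inΩ_pred ha haq)
      refine ⟨s k * y, Subgroup.mul_mem _ (s_mem hk le_rfl) (Gk_mono (Nat.le_succ k) hy), ?_⟩
      rw [Equiv.Perm.mul_apply, hya]
      exact (h.hsq k hk ht).1

theorem stab_trans (h : Hyp t q G s H) {j : ℕ} (hj : 1 ≤ j) (hjt : j + 1 ≤ t) {β : α}
    (hβ : InΩ t q (j + 1) β) (hne : β ≠ q (j + 1)) :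
    ∃ m ∈ Gk G s (j + 1), m (q (j + 1)) = q (j + 1) ∧ m (q j) = β := by
  rcases Nat.eq_or_lt_of_le hj with e | e
  · subst e
    have hq1 : InΩ t q 2 (q 1) := inΩ_q h le_rfl (by omega) hjt
    have hq2 : InΩ t q 2 (q 2) := inΩ_q h (by omega) le_rfl hjt
    have hne12 : q 2 ≠ q 1 := fun e => by
      have := h.hq 2 1 (by omega) hjt le_rfl (by omega) e
      omega
    obtain ⟨g, hg, hg2, hg1⟩ := h.h2 (q 2) (q 1) (q 2) β
      (fun i hi hit => ⟨hq2 i hi hit, hq1 i hi hit, hq2 i hi hit, hβ i hi hit⟩) hne12 (Ne.symm hne)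
    exact ⟨g, G_le 2 hg, hg2, hg1⟩
  · obtain ⟨y, hy, hyβ⟩ := trans_q h j (by omega) (by omega) β (inΩ_pred hβ hne)
    refine ⟨y⁻¹, Gk_mono (Nat.le_succ j) (Subgroup.inv_mem _ hy), ?_, ?_⟩
    · rw [Equiv.Perm.inv_eq_iff_eq]
      exact (fix_of_mem h (by omega) hy le_rfl hjt).symm
    · rw [Equiv.Perm.inv_eq_iff_eq]
      exact hyβ.symm

/-- elements whose conjugate by `c` lies in `K` -/
def conjSub (K : Subgroup (Equiv.Perm α)) (c : Equiv.Perm α) : Subgroup (Equiv.Perm α) where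
  carrier := {m | c * m * c⁻¹ ∈ K}
  one_mem' := by
    show c * 1 * c⁻¹ ∈ K
    rw [mul_one, mul_inv_cancel]
    exact K.one_mem
  mul_mem' := by
    intro a b ha hb
    have e : c * (a * b) * c⁻¹ = (c * a * c⁻¹) * (c * b * c⁻¹) := by group
    show c * (a * b) * c⁻¹ ∈ K
    rw [e]
    exact K.mul_mem ha hb
  inv_mem' := by
    intro a ha
    have e : c * a⁻¹ * c⁻¹ = (c * a * c⁻¹)⁻¹ := by group
    show c * a⁻¹ * c⁻¹ ∈ K
    rw [e]
    exact K.inv_mem ha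

theorem mem_conjSub {K : Subgroup (Equiv.Perm α)} {c m : Equiv.Perm α} :
    m ∈ conjSub K c ↔ c * m * c⁻¹ ∈ K := Iff.rfl

theorem conj_s (h : Hyp t q G s H) {i k : ℕ} (hi : 1 ≤ i) (hik : i + 2 ≤ k) (hkt : k + 1 ≤ t) :
    ∃ x ∈ H, ∃ x' ∈ H, s k * s i * (s k)⁻¹ = x * (s i)⁻¹ * x' := by
  refine ⟨(s k * s i) ^ 2, (h.hcomm i k hi hik hkt).2, (s k ^ 2)⁻¹,
    H.inv_mem (h.hsq2 k (by omega) hkt), ?_⟩
  simp only [pow_two]
  group

theorem conj_G (h : Hyp t q G s H) {k : ℕ} (hk : 3 ≤ k) (hkt : k + 1 ≤ t) :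
    ∀ g ∈ G, s k * g * (s k)⁻¹ ∈ G := by
  intro g hg
  have hH : H ≤ G := H_le h
  have ht : 2 ≤ t := h.ht
  have hs1c : s k * s 1 * (s k)⁻¹ ∈ G := by
    obtain ⟨x, hx, x', hx', e⟩ := conj_s h (i := 1) (k := k) le_rfl (by omega) hkt
    rw [e]
    exact G.mul_mem (G.mul_mem (hH hx) (G.inv_mem h.hs1)) (hH hx')
  have hst : ∀ m ∈ G, m (q 2) = q 2 → s k * m * (s k)⁻¹ ∈ G := fun m hm hm2 =>
    (Subgroup.mem_inf.1 (h.hnorm k (by omega) hkt m
      (Subgroup.mem_inf.2 ⟨hm, MulAction.mem_stabilizer_iff.2 hm2⟩))).1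
  by_cases hg2 : g (q 2) = q 2
  · exact hst g hg hg2
  · have hq1 : InΩ t q 2 (q 1) := inΩ_q h le_rfl (by omega) ht
    have hq2 : InΩ t q 2 (q 2) := inΩ_q h (by omega) le_rfl ht
    have hne12 : q 2 ≠ q 1 := fun e => by
      have := h.hq 2 1 (by omega) ht le_rfl (by omega) e
      omega
    have hβ : InΩ t q 2 (g (q 2)) := inΩ_map h le_rfl (G_le 2 hg) hq2
    obtain ⟨m₁, hm₁, hm₁2, hm₁1⟩ := h.h2 (q 2) (q 1) (q 2) (g (q 2))
      (fun i hi hit => ⟨hq2 i hi hit, hq1 i hi hit, hq2 i hi hit, hβ i hi hit⟩) hne12 (Ne.symm hg2)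
    have hm₂ : (m₁ * s 1)⁻¹ * g ∈ G := G.mul_mem (G.inv_mem (G.mul_mem hm₁ h.hs1)) hg
    have hm₂2 : ((m₁ * s 1)⁻¹ * g) (q 2) = q 2 := by
      rw [Equiv.Perm.mul_apply, Equiv.Perm.inv_eq_iff_eq, Equiv.Perm.mul_apply, h.hs1q.2, hm₁1]
    have e : s k * g * (s k)⁻¹ = (s k * m₁ * (s k)⁻¹) * (s k * s 1 * (s k)⁻¹) *
        (s k * ((m₁ * s 1)⁻¹ * g) * (s k)⁻¹) := by group
    rw [e]
    exact G.mul_mem (G.mul_mem (hst m₁ hm₁ hm₁2) hs1c) (hst _ hm₂ hm₂2)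

theorem conj_mem (h : Hyp t q G s H) {j k : ℕ} (hj : 2 ≤ j) (hjk : j + 1 ≤ k) (hkt : k + 1 ≤ t) :
    ∀ m ∈ Gk G s j, s k * m * (s k)⁻¹ ∈ Gk G s j := by
  intro m hm
  have hH : H ≤ Gk G s j := (H_le h).trans (G_le j)
  have hle : Gk G s j ≤ conjSub (Gk G s j) (s k) := by
    show Subgroup.closure _ ≤ _
    rw [Subgroup.closure_le]
    rintro x (hx | ⟨i, h1, h2, rfl⟩)
    · exact mem_conjSub.2 (G_le j (conj_G h (by omega) hkt x hx))
    · apply mem_conjSub.2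
      obtain ⟨x, hx, x', hx', e⟩ := conj_s h (i := i) (k := k) (by omega) (by omega) hkt
      rw [e]
      exact Subgroup.mul_mem _ (Subgroup.mul_mem _ (hH hx) (Subgroup.inv_mem _ (s_mem h1 h2)))
        (hH hx')
  exact mem_conjSub.1 (hle hm)

/-- the set `K ∪ K c K` as a subgroup -/
def extSub (K : Subgroup (Equiv.Perm α)) (c : Equiv.Perm α) (hc2 : c ^ 2 ∈ K)
    (hkey : ∀ m ∈ K, c * m * c ∈ K ∨ ∃ a ∈ K, ∃ b ∈ K, c * m * c = a * c * b) :
    Subgroup (Equiv.Perm α) where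
  carrier := {y | y ∈ K ∨ ∃ a ∈ K, ∃ b ∈ K, y = a * c * b}
  one_mem' := Or.inl K.one_mem
  mul_mem' := by
    intro y y' hy hy'
    rcases hy with hy | ⟨a, ha, b, hb, rfl⟩
    · rcases hy' with hy' | ⟨a', ha', b', hb', rfl⟩
      · exact Or.inl (K.mul_mem hy hy')
      · exact Or.inr ⟨y * a', K.mul_mem hy ha', b', hb', by group⟩
    · rcases hy' with hy' | ⟨a', ha', b', hb', rfl⟩
      · exact Or.inr ⟨a, ha, b * y', K.mul_mem hb hy', by group⟩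
      · have e' : a * c * b * (a' * c * b') = a * (c * (b * a') * c) * b' := by group
        rcases hkey (b * a') (K.mul_mem hb ha') with h1 | ⟨a'', ha'', b'', hb'', e⟩
        · refine Or.inl ?_
          rw [e']
          exact K.mul_mem (K.mul_mem ha h1) hb'
        · refine Or.inr ⟨a * a'', K.mul_mem ha ha'', b'' * b', K.mul_mem hb'' hb', ?_⟩
          rw [e', e]
          group
  inv_mem' := by
    intro y hy
    rcases hy with hy | ⟨a, ha, b, hb, rfl⟩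
    · exact Or.inl (K.inv_mem hy)
    · exact Or.inr ⟨b⁻¹ * (c ^ 2)⁻¹, K.mul_mem (K.inv_mem hb) (K.inv_mem hc2), a⁻¹,
        K.inv_mem ha, by group⟩

theorem ext_closed (K : Subgroup (Equiv.Perm α)) (c : Equiv.Perm α) (hc2 : c ^ 2 ∈ K)
    (hkey : ∀ m ∈ K, c * m * c ∈ K ∨ ∃ a ∈ K, ∃ b ∈ K, c * m * c = a * c * b) :
    ∀ y ∈ Subgroup.closure ((K : Set (Equiv.Perm α)) ∪ {c}),
      y ∈ K ∨ ∃ a ∈ K, ∃ b ∈ K, y = a * c * b := by
  intro y hy
  have hle : Subgroup.closure ((K : Set (Equiv.Perm α)) ∪ {c}) ≤ extSub K c hc2 hkey := by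
    rw [Subgroup.closure_le]
    rintro x (hx | hx)
    · exact Or.inl hx
    · refine Or.inr ⟨1, K.one_mem, 1, K.one_mem, ?_⟩
      rw [Set.mem_singleton_iff.1 hx]
      group
  exact hle hy

theorem stab_step_aux (h : Hyp t q G s H) {j : ℕ} (hj : 1 ≤ j) (hjt : j + 2 ≤ t)
    (hC : ∀ m ∈ Gk G s (j + 1), m (q (j + 1)) = q (j + 1) →
      s (j + 1) * m * (s (j + 1))⁻¹ ∈ Gk G s (j + 1)) :
    ∀ y ∈ Gk G s (j + 2), y (q (j + 2)) = q (j + 2) → y ∈ Gk G s (j + 1) := by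
  intro y hy hyq
  have hHK : H ≤ Gk G s (j + 1) := (H_le h).trans (G_le _)
  have hc2 : s (j + 1) ^ 2 ∈ Gk G s (j + 1) := hHK (h.hsq2 (j + 1) (by omega) (by omega))
  have hgK : s j ∈ Gk G s (j + 1) := by
    rcases Nat.eq_or_lt_of_le hj with e | e
    · rw [← e]
      exact G_le _ h.hs1
    · exact s_mem (by omega) le_rfl
  have hgq : s j (q (j + 1)) = q j := by
    rcases Nat.eq_or_lt_of_le hj with e | e
    · rw [← e]
      exact h.hs1q.2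
    · exact (h.hsq j (by omega) (by omega)).2.1
  have hx : (s j * s (j + 1)) ^ 3 ∈ Gk G s (j + 1) := hHK (h.hbraid j hj hjt)
  have hkey : ∀ m ∈ Gk G s (j + 1), s (j + 1) * m * s (j + 1) ∈ Gk G s (j + 1) ∨
      ∃ a ∈ Gk G s (j + 1), ∃ b ∈ Gk G s (j + 1), s (j + 1) * m * s (j + 1) = a * s (j + 1) * b := by
    intro m hm
    by_cases hmq : m (q (j + 1)) = q (j + 1)
    · left
      have e : s (j + 1) * m * s (j + 1) = (s (j + 1) * m * (s (j + 1))⁻¹) * s (j + 1) ^ 2 := by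
        group
      rw [e]
      exact Subgroup.mul_mem _ (hC m hm hmq) hc2
    · right
      have hβ : InΩ t q (j + 1) (m (q (j + 1))) :=
        inΩ_map h (by omega) hm (inΩ_q h (by omega) le_rfl (by omega))
      obtain ⟨m₁, hm₁, hm₁q, hm₁j⟩ := stab_trans h hj (by omega) hβ hmq
      have hm₂ : (m₁ * s j)⁻¹ * m ∈ Gk G s (j + 1) :=
        Subgroup.mul_mem _ (Subgroup.inv_mem _ (Subgroup.mul_mem _ hm₁ hgK)) hm
      have hm₂q : ((m₁ * s j)⁻¹ * m) (q (j + 1)) = q (j + 1) := by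
        rw [Equiv.Perm.mul_apply, Equiv.Perm.inv_eq_iff_eq, Equiv.Perm.mul_apply, hgq, hm₁j]
      have h1 := hC m₁ hm₁ hm₁q
      have h2 := hC _ hm₂ hm₂q
      refine ⟨(s (j + 1) * m₁ * (s (j + 1))⁻¹) * (s j)⁻¹ * (s j * s (j + 1)) ^ 3 *
          (s (j + 1) ^ 2)⁻¹, ?_,
        (s j)⁻¹ * (s (j + 1) ^ 2)⁻¹ * (s (j + 1) * ((m₁ * s j)⁻¹ * m) * (s (j + 1))⁻¹) *
          s (j + 1) ^ 2, ?_, ?_⟩
      · exact Subgroup.mul_mem _ (Subgroup.mul_mem _ (Subgroup.mul_mem _ h1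
          (Subgroup.inv_mem _ hgK)) hx) (Subgroup.inv_mem _ hc2)
      · exact Subgroup.mul_mem _ (Subgroup.mul_mem _ (Subgroup.mul_mem _ (Subgroup.inv_mem _ hgK)
          (Subgroup.inv_mem _ hc2)) h2) hc2
      · simp only [pow_three, pow_two]
        group
  have hall := ext_closed (Gk G s (j + 1)) (s (j + 1)) hc2 hkey
  have hle : Gk G s (j + 2) ≤
      Subgroup.closure (((Gk G s (j + 1) : Subgroup (Equiv.Perm α)) : Set (Equiv.Perm α)) ∪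
        {s (j + 1)}) := by
    show Subgroup.closure _ ≤ _
    rw [Subgroup.closure_le]
    rintro x (hx | ⟨i, h1, h2, rfl⟩)
    · exact Subgroup.subset_closure (Or.inl (G_le _ hx))
    · rcases Nat.eq_or_lt_of_le h2 with e | e
      · have hi : i = j + 1 := by omega
        rw [hi]
        exact Subgroup.subset_closure (Or.inr rfl)
      · exact Subgroup.subset_closure (Or.inl (s_mem h1 (by omega)))
  rcases hall y (hle hy) with hyK | ⟨a, ha, b, hb, rfl⟩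
  · exact hyK
  · exfalso
    have hb2 : b (q (j + 2)) = q (j + 2) := fix_of_mem h (by omega) hb (by omega) hjt
    have ha2 : a (q (j + 2)) = q (j + 2) := fix_of_mem h (by omega) ha (by omega) hjt
    have hs : s (j + 1) (q (j + 2)) = q (j + 1) := (h.hsq (j + 1) (by omega) (by omega)).2.1
    rw [Equiv.Perm.mul_apply, Equiv.Perm.mul_apply, hb2, hs] at hyq
    rw [← ha2] at hyq
    have h3 := a.injective hyq
    have h4 := h.hq (j + 1) (j + 2) (by omega) (by omega) (by omega) hjt h3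
    omega

theorem stab_step (h : Hyp t q G s H) : ∀ j : ℕ, 1 ≤ j → j + 2 ≤ t →
    ∀ y ∈ Gk G s (j + 2), y (q (j + 2)) = q (j + 2) → y ∈ Gk G s (j + 1) := by
  intro j hj
  induction j, hj using Nat.le_induction with
  | base =>
    intro hjt
    apply stab_step_aux h le_rfl hjt
    intro m hm hmq
    have hmG : m ∈ G := mem_Gk_two hm
    have h1 := h.hnorm 2 le_rfl (by omega) m
      (Subgroup.mem_inf.2 ⟨hmG, MulAction.mem_stabilizer_iff.2 hmq⟩)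
    exact G_le _ (Subgroup.mem_inf.1 h1).1
  | succ j hj ih =>
    intro hjt
    apply stab_step_aux h (by omega) hjt
    intro m hm hmq
    have hm' : m ∈ Gk G s (j + 1) := ih (by omega) m hm hmq
    exact Gk_mono (by omega)
      (conj_mem h (j := j + 1) (k := j + 1 + 1) (by omega) le_rfl (by omega) m hm')

theorem tuple_trans (h : Hyp t q G s H) : ∀ k : ℕ, 2 ≤ k → k ≤ t → ∀ x : ℕ → α,
    (∀ i j : ℕ, 1 ≤ i → i ≤ k → 1 ≤ j → j ≤ k → x i = x j → i = j) →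
    (∀ i : ℕ, 1 ≤ i → i ≤ k → InΩ t q k (x i)) →
    ∃ y ∈ Gk G s k, ∀ i : ℕ, 1 ≤ i → i ≤ k → y (q i) = x i := by
  intro k hk
  induction k, hk using Nat.le_induction with
  | base =>
    intro ht x hinj hx
    have hq1 : InΩ t q 2 (q 1) := inΩ_q h le_rfl (by omega) ht
    have hq2 : InΩ t q 2 (q 2) := inΩ_q h (by omega) le_rfl ht
    have hne12 : q 1 ≠ q 2 := fun e => by
      have := h.hq 1 2 le_rfl (by omega) (by omega) ht e
      omega
    have hnex : x 1 ≠ x 2 := fun e => by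
      have := hinj 1 2 le_rfl (by omega) (by omega) le_rfl e
      omega
    obtain ⟨g, hg, hg1, hg2⟩ := h.h2 (q 1) (q 2) (x 1) (x 2)
      (fun i hi hit => ⟨hq1 i hi hit, hq2 i hi hit, hx 1 le_rfl (by omega) i hi hit,
        hx 2 (by omega) le_rfl i hi hit⟩) hne12 hnex
    refine ⟨g, G_le 2 hg, fun i hi1 hi2 => ?_⟩
    rcases Nat.eq_or_lt_of_le hi1 with e | e
    · rw [← e]
      exact hg1
    · have hi : i = 2 := by omega
      rw [hi]
      exact hg2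
  | succ k hk ih =>
    intro ht x hinj hx
    obtain ⟨u, hu, hux⟩ := trans_q h (k + 1) (by omega) ht (x (k + 1))
      (hx (k + 1) (by omega) le_rfl)
    have hx' : ∀ i : ℕ, 1 ≤ i → i ≤ k → InΩ t q k (u (x i)) := by
      intro i hi1 hik
      apply inΩ_pred (inΩ_map h (by omega) hu (hx i hi1 (by omega)))
      intro e
      rw [← hux] at e
      have := hinj i (k + 1) hi1 (by omega) (by omega) le_rfl (u.injective e)
      omega
    obtain ⟨y, hy, hyq⟩ := ih (by omega) (fun i => u (x i))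
      (fun i j hi1 hik hj1 hjk e => hinj i j hi1 (by omega) hj1 (by omega) (u.injective e)) hx'
    refine ⟨u⁻¹ * y, Subgroup.mul_mem _ (Subgroup.inv_mem _ hu) (Gk_mono (Nat.le_succ k) hy),
      fun i hi1 hik => ?_⟩
    rw [Equiv.Perm.mul_apply, Equiv.Perm.inv_eq_iff_eq]
    rcases Nat.eq_or_lt_of_le hik with e | e
    · rw [e, fix_of_mem h hk hy le_rfl ht, hux]
    · exact hyq i hi1 (by omega)

theorem fin_trans (h : Hyp t q G s H) (x : Fin t ↪ α) :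
    ∃ y ∈ Gk G s t, ∀ j : Fin t, y (q (j.val + 1)) = x j := by
  have ht : 2 ≤ t := h.ht
  have htpos : 0 < t := by omega
  have hinjX : ∀ i j : ℕ, 1 ≤ i → i ≤ t → 1 ≤ j → j ≤ t →
      x ⟨(i - 1) % t, Nat.mod_lt _ htpos⟩ = x ⟨(j - 1) % t, Nat.mod_lt _ htpos⟩ → i = j := by
    intro i j hi1 hit hj1 hjt e
    have h1 := congrArg Fin.val (x.injective e)
    have h2 : (i - 1) % t = (j - 1) % t := h1
    rw [Nat.mod_eq_of_lt (by omega), Nat.mod_eq_of_lt (by omega)] at h2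
    omega
  obtain ⟨y, hy, hyq⟩ := tuple_trans h t ht le_rfl
    (fun i => x ⟨(i - 1) % t, Nat.mod_lt _ htpos⟩) hinjX
    (fun i hi1 hit l hl hlt => by omega)
  refine ⟨y, hy, fun j => ?_⟩
  have h3 := hyq (j.val + 1) (by omega) (by have := j.isLt; omega)
  rw [h3]
  congr 1
  apply Fin.ext
  show (j.val + 1 - 1) % t = j.val
  rw [Nat.add_sub_cancel, Nat.mod_eq_of_lt j.isLt]

end

/-- Witt's Lemma for constructing transitive extensions. Points `q 1, …, q t` (`t ≥ 2`) of a finite set are given; `G` fixes `q i` for `i ≥ 3` and is doubly transitive on the remaining points; `s 1 ∈ G` swaps `q 1, q 2`; for `2 ≤ i ≤ t-1`, `s i` swaps `q i, q (i+1)` and fixes the other `q j`; with `H` the stabiliser of `q 1, q 2` in `G`: `s i ^ 2 ∈ H`, `(s i * s (i+1)) ^ 3 ∈ H`, `(s i * s j) ^ 2 ∈ H` for `j ≥ i + 2`, and `s i` (`i ≥ 2`) normalises the stabiliser of `q 2` in `G`. Then `G` and the `s i`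 generate a `t`-transitive group whose pointwise stabiliser of the `q`'s is `H`. -/
theorem result {α : Type*} [Fintype α] [DecidableEq α] (t : ℕ) (ht : 2 ≤ t) (q : ℕ → α) (hq : ∀ i j : ℕ, 1 ≤ i → i ≤ t → 1 ≤ j → j ≤ t → q i = q j → i = j) (G : Subgroup (Equiv.Perm α)) (hfix : ∀ g ∈ G, ∀ i : ℕ, 3 ≤ i → i ≤ t → g (q i) = q i) (h2 : ∀ a b c d : α, (∀ i, 3 ≤ i → i ≤ t → a ≠ q i ∧ b ≠ q i ∧ c ≠ q i ∧ d ≠ q i) → a ≠ b → c ≠ d → ∃ g ∈ G, g a = c ∧ g b = d) (s : ℕ → Equiv.Perm α) (hs1 : s 1 ∈ G) (hs1q : s 1 (q 1) = q 2 ∧ s 1 (q 2) = q 1) (hsq : ∀ i : ℕ, 2 ≤ i → i + 1 ≤ t → s i (q i) = q (i + 1) ∧ s i (q (i + 1)) = q i ∧ ∀ j : ℕ, 1 ≤ j → j ≤ t → j ≠ i → j ≠ i + 1 → s i (q j) = q j) (H : Subgroup (Equiv.Perm α)) (hH : H = G ⊓ MulAction.stabilizer (Equiv.Perm α) (q 1) ⊓ MulAction.stabilizer (Equiv.Perm α) (q 2)) (hsq2 : ∀ i : ℕ, 1 ≤ i → i + 1 ≤ t → s i ^ 2 ∈ H) (hbraid : ∀ i : ℕ, 1 ≤ i → i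 + 2 ≤ t → (s i * s (i + 1)) ^ 3 ∈ H) (hcomm : ∀ i j : ℕ, 1 ≤ i → i + 2 ≤ j → j + 1 ≤ t → (s i * s j) ^ 2 ∈ H ∧ (s j * s i) ^ 2 ∈ H) (hnorm : ∀ i : ℕ, 2 ≤ i → i + 1 ≤ t → ∀ g ∈ G ⊓ MulAction.stabilizer (Equiv.Perm α) (q 2), s i * g * (s i)⁻¹ ∈ G ⊓ MulAction.stabilizer (Equiv.Perm α) (q 2)) : MulAction.IsMultiplyPretransitive ↥(Subgroup.closure ((G : Set (Equiv.Perm α)) ∪ {x | ∃ i : ℕ, 2 ≤ i ∧ i + 1 ≤ t ∧ x = s i})) α t ∧ Subgroup.closure ((G : Set (Equiv.Perm α)) ∪ {x | ∃ i : ℕ, 2 ≤ i ∧ i + 1 ≤ t ∧ x = s i}) ⊓ fixingSubgroup (Equiv.Perm α) {x | ∃ i : ℕ, 1 ≤ i ∧ i ≤ t ∧ x = q i} = H := by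
  have h : Hyp t q G s H :=
    ⟨ht, hq, hfix, h2, hs1, hs1q, hsq, hH, hsq2, hbraid, hcomm, hnorm⟩
  show MulAction.IsMultiplyPretransitive ↥(Gk G s t) α t ∧
    Gk G s t ⊓ fixingSubgroup (Equiv.Perm α) {x | ∃ i : ℕ, 1 ≤ i ∧ i ≤ t ∧ x = q i} = H
  constructor
  · refine ⟨fun x x' => ?_⟩
    obtain ⟨y, hy, hyq⟩ := fin_trans h x
    obtain ⟨y', hy', hyq'⟩ := fin_trans h x'
    refine ⟨⟨y' * y⁻¹, Subgroup.mul_mem _ hy' (Subgroup.inv_mem _ hy)⟩, ?_⟩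
    ext j
    show (y' * y⁻¹) (x j) = x' j
    rw [← hyq j, ← hyq' j, Equiv.Perm.mul_apply]
    congr 1
    exact Equiv.Perm.inv_eq_iff_eq.2 rfl
  · apply le_antisymm
    · intro y hy
      obtain ⟨hyG, hyfix⟩ := Subgroup.mem_inf.1 hy
      rw [mem_fixingSubgroup_iff] at hyfix
      have hyq : ∀ i, 1 ≤ i → i ≤ t → y (q i) = q i := fun i hi1 hit =>
        hyfix (q i) ⟨i, hi1, hit, rfl⟩
      have hdesc : ∀ n k : ℕ, k + n = t → 2 ≤ k → y ∈ Gk G s k := by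
        intro n
        induction n with
        | zero =>
          intro k hk hk2
          have hkt : k = t := by omega
          rw [hkt]
          exact hyG
        | succ n ih =>
          intro k hk hk2
          have h1 : y ∈ Gk G s (k + 1) := ih (k + 1) (by omega) (by omega)
          obtain ⟨j, rfl⟩ : ∃ j, k = j + 1 := ⟨k - 1, by omega⟩
          exact stab_step h j (by omega) (by omega) y h1 (hyq (j + 2) (by omega) (by omega))
      have hyG2 : y ∈ G := mem_Gk_two (hdesc (t - 2) 2 (by omega) le_rfl)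
      rw [hH]
      exact Subgroup.mem_inf.2 ⟨Subgroup.mem_inf.2 ⟨hyG2,
        MulAction.mem_stabilizer_iff.2 (hyq 1 le_rfl (by omega))⟩,
        MulAction.mem_stabilizer_iff.2 (hyq 2 (by omega) ht)⟩
    · intro y hy
      have hyG : y ∈ G := H_le h hy
      refine Subgroup.mem_inf.2 ⟨G_le t hyG, ?_⟩
      rw [mem_fixingSubgroup_iff]
      rintro a ⟨i, hi1, hit, rfl⟩
      rw [hH] at hy
      obtain ⟨hy12, hy2⟩ := Subgroup.mem_inf.1 hy
      obtain ⟨-, hy1⟩ := Subgroup.mem_inf.1 hy12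
      show y (q i) = q i
      rcases Nat.eq_or_lt_of_le hi1 with e | e
      · rw [← e]
        exact MulAction.mem_stabilizer_iff.1 hy1
      · rcases Nat.eq_or_lt_of_le (show 2 ≤ i by omega) with e2 | e2
        · rw [← e2]
          exact MulAction.mem_stabilizer_iff.1 hy2
        · exact hfix y hyG i (by omega) hit

end Cfsg.Agent.S0709
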