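import Mathlib
import Cfsg.Statements.S0710

set_option autoImplicit false
open Cfsg

namespace Cfsg.Agent.S0710

/-- No transitive permutation group on 13 points has order `13 * 12 * 11 * 10 * 9 * 8`. -/
theorem result {α : Type*} [Fintype α] [DecidableEq α] (hα : Fintype.card α = 13) (G : Subgroup (Equiv.Perm α)) [MulAction.IsPretransitive G α] : Nat.card G ≠ 13 * 12 * 11 * 10 * 9 * 8 := by
  intro hG
  haveI : Fact (Nat.Prime 13) := ⟨by norm_num⟩
  have P : Sylow 13 G := default
  have hQ13 : Nat.card (P : Subgroup G) = 13 := by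
    obtain ⟨n, hn⟩ := IsPGroup.iff_card.mp P.isPGroup'
    have hdvd : Nat.card (P : Subgroup G) ∣ Nat.card G := Subgroup.card_subgroup_dvd_card _
    have h13 : 13 ∣ Nat.card (P : Subgroup G) := P.dvd_card_of_dvd_card (by rw [hG]; norm_num)
    rw [hn] at hdvd h13
    have hn1 : n ≠ 0 := by
      rintro rfl
      norm_num at h13
    have hn2 : n < 2 := by
      by_contra hcon
      push_neg at hcon
      have : 13 ^ 2 ∣ Nat.card G := (pow_dvd_pow 13 hcon).trans hdvd
      rw [hG] at this
      norm_num at this
    have : n = 1 := by omega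
    rw [hn, this]; norm_num
  generalize hQdef : (P : Subgroup G) = Q at hQ13
  haveI hcyc : IsCyclic Q := isCyclic_of_prime_card hQ13
  have hQC : Q ≤ Subgroup.centralizer (Q : Set G) := Subgroup.le_centralizer Q
  -- a point moved by `Q`
  have hPnt : ∃ x : G, x ∈ Q ∧ x ≠ 1 := by
    by_contra hcon
    push_neg at hcon
    have : Q = ⊥ := by
      rw [eq_bot_iff]; intro x hx; exact Subgroup.mem_bot.mpr (hcon x hx)
    rw [this] at hQ13
    simp at hQ13
  obtain ⟨x, hxQ, hx1⟩ := hPnt
  have hxa : ∃ a : α, x • a ≠ a := by
    by_contra hcon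
    push_neg at hcon
    apply hx1
    apply Subtype.ext
    apply Equiv.ext
    intro a
    exact hcon a
  obtain ⟨a, ha⟩ := hxa
  -- `Q` is transitive
  have horb : MulAction.orbit Q a = Set.univ := by
    rw [Set.eq_univ_iff_ncard, ← MulAction.index_stabilizer, Nat.card_eq_fintype_card, hα]
    have h1 : (MulAction.stabilizer Q a).index ∣ 13 := hQ13 ▸ Subgroup.index_dvd_card _
    rcases (Nat.dvd_prime (by norm_num : Nat.Prime 13)).mp h1 with h2 | h2
    · exfalso
      rw [Subgroup.index_eq_one] at h2
      have h3 : (⟨x, hxQ⟩ : Q) ∈ MulAction.stabilizer Q a := h2 ▸ Subgroup.mem_top _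
      rw [MulAction.mem_stabilizer_iff] at h3
      exact ha h3
    · exact h2
  -- the centralizer of `Q` acts semiregularly
  have hsemi : ∀ c : G, c ∈ Subgroup.centralizer (Q : Set G) → c • a = a → c = 1 := by
    intro c hc hca
    apply Subtype.ext
    apply Equiv.ext
    intro b
    have hb : b ∈ MulAction.orbit Q a := horb ▸ Set.mem_univ b
    obtain ⟨q, hq⟩ := hb
    have hq' : (q : G) • a = b := hq
    have hcomm : (q : G) * c = c * (q : G) := hc (q : G) q.2
    show c • b = (1 : G) • b
    rw [one_smul, ← hq', ← mul_smul, ← hcomm, mul_smul, hca]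
  have hC13 : Nat.card (Subgroup.centralizer (Q : Set G)) = 13 := by
    apply le_antisymm
    · have hinj : Function.Injective (fun c : Subgroup.centralizer (Q : Set G) => (c : G) • a) := by
        intro c1 c2 h12
        have h12' : (c1 : G) • a = (c2 : G) • a := h12
        have h3 : ((c2⁻¹ * c1 : Subgroup.centralizer (Q : Set G)) : G) = 1 := by
          apply hsemi _ (c2⁻¹ * c1).2
          rw [Subgroup.coe_mul, Subgroup.coe_inv, mul_smul, h12', inv_smul_smul]
        have h4 : c2⁻¹ * c1 = 1 := Subtype.ext h3
        exact (inv_mul_eq_one.mp h4).symm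
      have := Nat.card_le_card_of_injective _ hinj
      rw [Nat.card_eq_fintype_card (α := α), hα] at this
      exact this
    · rw [← hQ13]
      exact Subgroup.card_le_of_le hQC
  have key := Subgroup.card_dvd_of_injective _ (QuotientGroup.kerLift_injective Q.normalizerMonoidHom)
  rw [Subgroup.normalizerMonoidHom_ker, ← Subgroup.index, ← Subgroup.relIndex] at key
  rw [IsCyclic.card_mulAut, hQ13] at key
  have htot : Nat.totient 13 = 12 := Nat.totient_prime (by norm_num)
  rw [htot] at key
  have h1 := Subgroup.relIndex_mul_index (Subgroup.centralizer_le_normalizer (Q : Set G))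
  have h2 := Subgroup.index_mul_card (Subgroup.centralizer (Q : Set G))
  have h3 : Nat.card (Sylow 13 G) = (Subgroup.normalizer (Q : Set G)).index := by
    rw [← hQdef]; exact P.card_eq_index_normalizer
  have h4 := card_sylow_modEq_one 13 G
  rw [h3] at h4
  rw [hC13, hG, ← h1] at h2
  generalize (Subgroup.normalizer (Q : Set G)).index = n at h2 h4
  generalize (Subgroup.centralizer (Q : Set G)).relIndex (Subgroup.normalizer (Q : Set G)) = m at h2 key
  have hm : m ≤ 12 := Nat.le_of_dvd (by norm_num) key
  have h5 : n % 13 = 1 := h4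
  interval_cases m <;> first | omega | (exfalso; revert key; decide)

end Cfsg.Agent.S0710
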