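import Mathlib
import Cfsg.Statements.S0712

set_option autoImplicit false
open Cfsg

namespace Cfsg.Agent.S0712

open MulAction SubMulAction

universe u v

theorem jordan_aux : ∀ (m : ℕ) {G : Type u} {α : Type v} [Group G] [MulAction G α] [Finite α]
    (_ : IsPreprimitive G α) (s : Set α) (_ : s.ncard = m) (_ : m + 2 ≤ Nat.card α)
    (_ : IsMultiplyPretransitive (fixingSubgroup G s) (ofFixingSubgroup G s) 2),
    IsMultiplyPretransitive G α (m + 2) := by
  intro m
  induction m with
  | zero =>
    intro G α _ _ _ hG s hsm hm h2
    have hs : s = ∅ := by rwa [Set.ncard_eq_zero] at hsm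
    subst hs
    exact (IsPretransitive.of_embedding_congr of_fixingSubgroupEmpty_mapScalars_surjective
      ofFixingSubgroupEmpty_equivariantMap_bijective).mp h2
  | succ n ih =>
    intro G α _ _ _ hG s hsm hm h2
    have hprim : IsPreprimitive (fixingSubgroup G s) (ofFixingSubgroup G s) :=
      isPreprimitive_of_is_two_pretransitive h2
    have h2prim : IsMultiplyPreprimitive G α 2 := hG.is_two_preprimitive hsm (by omega) hprim
    have hne : s.Nonempty := by
      rw [← Set.ncard_pos, hsm]; exact Nat.succ_pos n
    obtain ⟨a, t, ha, hst⟩ : ∃ (a : α) (t : Set (SubMulAction.ofStabilizer G a)),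
        a ∈ s ∧ s = insert a (Subtype.val '' t) := by
      obtain ⟨a, ha⟩ := hne
      refine ⟨a, Subtype.val ⁻¹' s, ha, ?_⟩
      ext x
      by_cases hx : x = a <;> simp [hx, mem_ofStabilizer_iff, ha]
    subst hst
    have ha' : a ∉ Subtype.val '' t := by
      intro h; rw [Set.mem_image] at h; obtain ⟨x, hx⟩ := h
      apply x.prop; rw [hx.right]; exact Set.mem_singleton a
    have ht_prim : IsPreprimitive (stabilizer G a) (SubMulAction.ofStabilizer G a) := by
      rw [← is_one_preprimitive_iff]
      rw [← isMultiplyPreprimitive_succ_iff_ofStabilizer]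
      · exact h2prim
      · norm_num
    have h2' : IsMultiplyPretransitive (fixingSubgroup (stabilizer G a) t)
        (ofFixingSubgroup (stabilizer G a) t) 2 :=
      (IsPretransitive.of_embedding_congr (fixingSubgroupInsertEquiv a t).surjective
        ofFixingSubgroup_insert_map_bijective).mp h2
    have hpt : IsPretransitive G α := hG.toIsPretransitive
    rw [show n + 1 + 2 = (n + 2).succ from rfl, ofStabilizer.isMultiplyPretransitive (a := a)]
    refine ih ht_prim t ?_ ?_ h2'
    · rw [← Set.ncard_image_of_injective t Subtype.val_injective]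
      apply Nat.add_right_cancel
      rw [← Set.ncard_insert_of_notMem ha', hsm]
    · have := nat_card_ofStabilizer_add_one_eq G a
      omega

/-- Jordan: a primitive group in which the pointwise stabiliser of a set `s` is doubly transitive on the complement of `s` (which has at least 2 points) is `(|s| + 2)`-transitive. -/
theorem result {α : Type*} [Fintype α] [DecidableEq α] (G : Subgroup (Equiv.Perm α)) (hG : MulAction.IsPreprimitive G α) (s : Set α) {m : ℕ} (hsm : s.ncard = m) (hm : m + 2 ≤ Fintype.card α) (h2 : MulAction.IsMultiplyPretransitive (fixingSubgroup G s) (SubMulAction.ofFixingSubgroup G s) 2) : MulAction.IsMultiplyPretransitive G α (m + 2) := by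
  refine jordan_aux m hG s hsm ?_ h2
  rw [Nat.card_eq_fintype_card]
  exact hm

end Cfsg.Agent.S0712
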