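import Cfsg.Statements.S0713
import Cfsg.Agent.S0711
import Mathlib

set_option autoImplicit false
open Cfsg

namespace Cfsg.Agent.S0713

section aux

set_option linter.unusedSectionVars false
set_option linter.style.haveILetI false

open Equiv MulAction
open scoped Pointwise

variable {α : Type*} [Fintype α] [DecidableEq α]

theorem maps_compl (x : Perm α) (S : Finset α) (h : ∀ f, f ∉ S → x f ∉ S) :
    ∀ f, x f ∈ S ↔ f ∈ S := by
  intro f
  constructor
  · intro hxf
    by_contra hf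
    exact h f hf hxf
  · intro hf
    by_contra hxf
    have himg : (Sᶜ).image x = Sᶜ := by
      apply Finset.eq_of_subset_of_card_le
      · intro b hb
        obtain ⟨a, ha, rfl⟩ := Finset.mem_image.mp hb
        exact Finset.mem_compl.mpr (h a (Finset.mem_compl.mp ha))
      · rw [Finset.card_image_of_injective _ x.injective]
    have hmem : x f ∈ (Sᶜ).image x := by rw [himg]; exact Finset.mem_compl.mpr hxf
    obtain ⟨a, ha, hax⟩ := Finset.mem_image.mp hmem
    have hfa := x.injective hax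
    rw [hfa] at ha
    exact Finset.mem_compl.mp ha hf

theorem multiply_trans {G : Subgroup (Perm α)} (hG : IsPreprimitive G α) {p m : ℕ}
    (hp : p.Prime) (hm : Fintype.card α = p + (m + 1)) {g : Perm α} (hgc : g.IsCycle)
    (hgp : g.support.card = p) (hg : g ∈ G) : IsMultiplyPretransitive G α (m + 2) := by
  classical
  have hprim : IsMultiplyPreprimitive G α (m + 2) := by
    apply hG.isMultiplyPreprimitive (s := (g.supportᶜ : Set α))
    · apply Nat.add_left_cancel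
      rw [Set.ncard_add_ncard_compl, Set.ncard_coe_finset, hgp, Nat.card_eq_fintype_card, hm]
    · rw [Nat.card_eq_fintype_card, hm]
      have := hp.two_le
      omega
    have := Equiv.Perm.isPretransitive_of_isCycle_mem hgc hg
    apply IsPreprimitive.of_prime_card
    convert! hp
    rw [Nat.card_eq_fintype_card, Fintype.card_subtype, ← hgp]
    apply congr_arg
    ext x
    simp [SubMulAction.mem_ofFixingSubgroup_iff]
  exact IsMultiplyPreprimitive.isMultiplyPretransitive G α (m + 2)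

theorem exists_normalizing {G : Subgroup (Perm α)} {p : ℕ} (hp : p.Prime) {g : Perm α}
    (hgc : g.IsCycle) (hgp : g.support.card = p) (hg : g ∈ G) (x : Perm α) (hx : x ∈ G)
    (hxS : ∀ f, x f ∈ g.support ↔ f ∈ g.support) :
    ∃ y ∈ G, (∀ f, f ∉ g.support → y f = x f) ∧ ∃ a : ℤ, y * g * y⁻¹ = g ^ a := by
  classical
  haveI : Fact p.Prime := ⟨hp⟩
  let K : Subgroup (Perm α) :=
    { carrier := {z | z ∈ G ∧ ∀ f, f ∉ g.support → z f = f}
      mul_mem' := by
        rintro z w ⟨hz, hz'⟩ ⟨hw, hw'⟩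
        exact ⟨G.mul_mem hz hw, fun f hf => by rw [Perm.mul_apply, hw' f hf, hz' f hf]⟩
      one_mem' := ⟨G.one_mem, fun f _ => rfl⟩
      inv_mem' := by
        rintro z ⟨hz, hz'⟩
        exact ⟨G.inv_mem hz, fun f hf => by rw [Perm.inv_eq_iff_eq, hz' f hf]⟩ }
  have hK1 : ∀ z : K, (z : Perm α) ∈ G := fun z => (show (z : Perm α) ∈ G ∧ _ from z.2).1
  have hK2 : ∀ z : K, ∀ f, f ∉ g.support → (z : Perm α) f = f :=
    fun z => (show (z : Perm α) ∈ G ∧ ∀ f, f ∉ g.support → (z : Perm α) f = f from z.2).2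
  have hgK : g ∈ K := ⟨hg, fun f hf => Perm.notMem_support.mp hf⟩
  have hg'K : x * g * x⁻¹ ∈ K := by
    refine ⟨G.mul_mem (G.mul_mem hx hg) (G.inv_mem hx), fun f hf => ?_⟩
    have h1 : x⁻¹ f ∉ g.support := by
      intro hmem
      apply hf
      have h2 := (hxS (x⁻¹ f)).mpr hmem
      simpa using h2
    rw [Perm.mul_apply, Perm.mul_apply, Perm.notMem_support.mp h1]
    simp
  have hKcard : Nat.card K ∣ p.factorial := by
    have hle : K ≤ (Perm.ofSubtype (p := fun a => a ∈ g.support)).range := by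
      intro z hz
      have hz2 : ∀ f, f ∉ g.support → z f = f := hz.2
      have hinv : ∀ a, z a ∈ g.support ↔ a ∈ g.support := by
        intro a
        constructor
        · intro h
          by_contra ha
          rw [hz2 a ha] at h
          exact ha h
        · intro ha
          by_contra h
          have h3 := hz2 _ h
          exact h (by rw [z.injective h3]; exact ha)
      refine ⟨Perm.subtypePerm z hinv, Perm.ofSubtype_subtypePerm _ (fun a ha => ?_)⟩
      by_contra h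
      exact ha (hz2 a h)
    have h1 := Subgroup.card_dvd_of_le hle
    have h2 : Nat.card (Perm.ofSubtype (p := fun a => a ∈ g.support)).range = p.factorial := by
      rw [Nat.card_congr (MonoidHom.ofInjective Perm.ofSubtype_injective).toEquiv.symm,
        Nat.card_perm, Nat.card_eq_fintype_card, Fintype.card_coe, hgp]
    rwa [h2] at h1
  have hidx : ∀ w : K, orderOf w = p → ¬ p ∣ (Subgroup.zpowers w).index := by
    intro w hw hdiv
    have h1 : (Subgroup.zpowers w).index * Nat.card (Subgroup.zpowers w) = Nat.card K :=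
      Subgroup.index_mul_card _
    rw [Nat.card_zpowers, hw] at h1
    have h2 : p * p ∣ p.factorial := by
      obtain ⟨t, ht⟩ := hdiv
      exact Dvd.dvd.trans ⟨t, by rw [← h1, ht]; ring⟩ hKcard
    have hpos := hp.pos
    have h3 : p.factorial = p * (p - 1).factorial := by
      conv_lhs => rw [show p = (p - 1) + 1 by omega]
      rw [Nat.factorial_succ]
      congr 1
      omega
    rw [h3] at h2
    have h4 : p ∣ (p - 1).factorial := Nat.dvd_of_mul_dvd_mul_left hpos h2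
    have h5 := (hp.dvd_factorial).mp h4
    omega
  let gK : K := ⟨g, hgK⟩
  let g'K : K := ⟨x * g * x⁻¹, hg'K⟩
  have hord : orderOf gK = p := by rw [Subgroup.orderOf_mk, hgc.orderOf, hgp]
  have hord' : orderOf g'K = p := by
    rw [Subgroup.orderOf_mk]
    have h1 := (MulAut.conj x).orderOf_eq g
    rw [MulAut.conj_apply] at h1
    rw [h1, hgc.orderOf, hgp]
  have hPG : ∀ w : K, orderOf w = p → IsPGroup p (Subgroup.zpowers w) := fun w hw =>
    IsPGroup.of_card (n := 1) (by rw [Nat.card_zpowers, hw, pow_one])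
  let P₁ : Sylow p K := (hPG gK hord).toSylow (hidx gK hord)
  let P₂ : Sylow p K := (hPG g'K hord').toSylow (hidx g'K hord')
  obtain ⟨z, hz⟩ := MulAction.exists_smul_eq K P₂ P₁
  have h1 : g'K ∈ (P₂ : Subgroup K) := Subgroup.mem_zpowers g'K
  have h2 : MulAut.conj z • g'K ∈ MulAut.conj z • (P₂ : Subgroup K) :=
    Subgroup.smul_mem_pointwise_smul _ _ _ h1
  rw [← Sylow.coe_subgroup_smul, hz] at h2
  have h3 : z * g'K * z⁻¹ ∈ Subgroup.zpowers gK := h2
  obtain ⟨a, ha⟩ := Subgroup.mem_zpowers_iff.mp h3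
  refine ⟨(z : Perm α) * x, G.mul_mem (hK1 z) hx, ?_, a, ?_⟩
  · intro f hf
    rw [Perm.mul_apply]
    exact hK2 z _ (fun h => hf ((hxS f).mp h))
  · have h4 := congrArg Subtype.val ha
    have h5 : g ^ a = (z : Perm α) * (x * g * x⁻¹) * (z : Perm α)⁻¹ := by
      simpa [gK, g'K] using h4
    rw [h5]
    group

end aux

/-- Jordan's Theorem: a primitive permutation group of degree `n ≥ 5` containing a `p`-cycle for a prime `p ≤ n - 3` contains the alternating group. -/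
theorem result {α : Type*} [Fintype α] [DecidableEq α] (G : Subgroup (Equiv.Perm α)) (hG : MulAction.IsPreprimitive G α) {p : ℕ} (hp : p.Prime) (hn : 5 ≤ Fintype.card α) (hpn : p + 3 ≤ Fintype.card α) {g : Equiv.Perm α} (hgc : g.IsCycle) (hgp : g.support.card = p) (hg : g ∈ G) : alternatingGroup α ≤ G := by
  classical
  by_cases hp3 : p = 3
  · subst hp3
    exact Equiv.Perm.alternatingGroup_le_of_isPreprimitive_of_isThreeCycle_mem hG
      (card_support_eq_three_iff.mp hgp) hg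
  obtain ⟨m, hm⟩ : ∃ m, Fintype.card α = p + (m + 1) := ⟨Fintype.card α - p - 1, by omega⟩
  have hm2 : 2 ≤ m := by omega
  have hmt := multiply_trans hG hp hm hgc hgp hg
  have hkn : m + 2 ≤ Fintype.card α := by
    have := hp.two_le
    omega
  have hFcard : (g.supportᶜ).card = m + 1 := by
    rw [Finset.card_compl, hgp, hm]
    omega
  obtain ⟨f₁, hf₁, f₂, hf₂, f₃, hf₃, h12, h13, h23⟩ :=
    Finset.two_lt_card.mp (show 2 < (g.supportᶜ).card by rw [hFcard]; omega)
  rw [Finset.mem_compl] at hf₁ hf₂ hf₃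
  have hswapF : ∀ u v : α, u ∉ g.support → v ∉ g.support → ∀ f, f ∉ g.support →
      Equiv.swap u v f ∉ g.support := by
    intro u v hu hv f hf
    rw [Equiv.swap_apply_def]
    split_ifs
    · exact hv
    · exact hu
    · exact hf
  have key : ∀ u v : α, u ∉ g.support → v ∉ g.support → ∃ y ∈ G,
      (∀ f, f ∉ g.support → y f = Equiv.swap u v f) ∧ ∃ a : ℤ, y * g * y⁻¹ = g ^ a := by
    intro u v hu hv
    obtain ⟨x, hxG, hx⟩ := S0711.exists_agree G hkn hmt (g.supportᶜ)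
      (by rw [hFcard]; omega) (Equiv.swap u v)
    have hxF : ∀ f, f ∉ g.support → x f ∉ g.support := by
      intro f hf
      rw [hx f (Finset.mem_compl.mpr hf)]
      exact hswapF u v hu hv f hf
    obtain ⟨y, hyG, hyF, a, ha⟩ :=
      exists_normalizing hp hgc hgp hg x hxG (maps_compl x _ hxF)
    exact ⟨y, hyG, fun f hf => by rw [hyF f hf, hx f (Finset.mem_compl.mpr hf)], a, ha⟩
  obtain ⟨y₁, hy₁G, hy₁F, a₁, ha₁⟩ := key f₁ f₂ hf₁ hf₂
  obtain ⟨y₂, hy₂G, hy₂F, a₂, ha₂⟩ := key f₂ f₃ hf₂ hf₃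
  have hπ₁ := hswapF f₁ f₂ hf₁ hf₂
  have hπ₂ := hswapF f₂ f₃ hf₂ hf₃
  have hy₁inv : ∀ f, f ∉ g.support → y₁⁻¹ f = Equiv.swap f₁ f₂ f := by
    intro f hf
    rw [Equiv.Perm.inv_eq_iff_eq, hy₁F _ (hπ₁ f hf), Equiv.swap_apply_self]
  have hy₂inv : ∀ f, f ∉ g.support → y₂⁻¹ f = Equiv.swap f₂ f₃ f := by
    intro f hf
    rw [Equiv.Perm.inv_eq_iff_eq, hy₂F _ (hπ₂ f hf), Equiv.swap_apply_self]
  obtain ⟨c, hc⟩ : ∃ c, c = y₁⁻¹ * y₂⁻¹ * y₁ * y₂ := ⟨_, rfl⟩
  obtain ⟨ρ, hρ⟩ : ∃ ρ, ρ = Equiv.swap f₁ f₂ * Equiv.swap f₂ f₃ * Equiv.swap f₁ f₂ *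
      Equiv.swap f₂ f₃ := ⟨_, rfl⟩
  have hcG : c ∈ G := by
    rw [hc]
    exact G.mul_mem (G.mul_mem (G.mul_mem (G.inv_mem hy₁G) (G.inv_mem hy₂G)) hy₁G) hy₂G
  have hcF : ∀ f, f ∉ g.support → c f = ρ f := by
    intro f hf
    rw [hc, hρ]
    simp only [Equiv.Perm.mul_apply]
    rw [hy₂F f hf, hy₁F _ (hπ₂ f hf), hy₂inv _ (hπ₁ _ (hπ₂ f hf)),
      hy₁inv _ (hπ₂ _ (hπ₁ _ (hπ₂ f hf)))]
  have hρF : ∀ f, f ∉ g.support → ρ f ∉ g.support := by
    intro f hf
    rw [hρ]
    simp only [Equiv.Perm.mul_apply]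
    exact hπ₁ _ (hπ₂ _ (hπ₁ _ (hπ₂ f hf)))
  have e1 : y₁ * y₂ * g * (y₁ * y₂)⁻¹ = g ^ (a₁ * a₂) := by
    have h3 : y₁ * y₂ * g * (y₁ * y₂)⁻¹ = y₁ * (y₂ * g * y₂⁻¹) * y₁⁻¹ := by group
    rw [h3, ha₂, ← conj_zpow, ha₁, ← zpow_mul]
  have e2 : y₂ * y₁ * g * (y₂ * y₁)⁻¹ = g ^ (a₁ * a₂) := by
    have h3 : y₂ * y₁ * g * (y₂ * y₁)⁻¹ = y₂ * (y₁ * g * y₁⁻¹) * y₂⁻¹ := by group
    rw [h3, ha₁, ← conj_zpow, ha₂, ← zpow_mul, mul_comm]
  have hcomm : c * g = g * c := by
    have h3 : y₁ * y₂ * g * (y₁ * y₂)⁻¹ = y₂ * y₁ * g * (y₂ * y₁)⁻¹ := by rw [e1, e2]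
    have h4 : c * g = (y₂ * y₁)⁻¹ * (y₁ * y₂ * g * (y₁ * y₂)⁻¹) * (y₂ * y₁) * c := by
      rw [hc]; group
    rw [h4, h3]
    group
  have hgp1 : g ^ p = 1 := by
    rw [← hgp, ← hgc.orderOf]
    exact pow_orderOf_eq_one g
  have hcΔ : ∀ δ, δ ∈ g.support → (c ^ p) δ = δ := by
    intro δ hδ
    have hgδ : g δ ≠ δ := Equiv.Perm.mem_support.mp hδ
    have hcδ : g (c δ) ≠ c δ := by
      have h3 : g (c δ) = c (g δ) := by
        have h4 := congrArg (fun s : Equiv.Perm α => s δ) hcomm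
        simp only [Equiv.Perm.mul_apply] at h4
        exact h4.symm
      rw [h3]
      intro h
      exact hgδ (c.injective h)
    obtain ⟨i, hi⟩ := hgc.exists_pow_eq hgδ hcδ
    have heδ : ((g ^ i)⁻¹ * c) δ = δ := by
      rw [Equiv.Perm.mul_apply, ← hi]
      simp
    have h1 : Commute (g ^ i) c := Commute.pow_left (show Commute g c from hcomm.symm) i
    have hgc_comm : Commute (g ^ i) ((g ^ i)⁻¹ * c) :=
      (Commute.refl (g ^ i)).inv_right.mul_right h1
    have hc_eq : c = g ^ i * ((g ^ i)⁻¹ * c) := by group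
    rw [hc_eq, hgc_comm.mul_pow, ← pow_mul, mul_comm i p, pow_mul, hgp1, one_pow, one_mul]
    exact Equiv.Perm.pow_apply_eq_self_of_apply_eq_self heδ p
  have hρΔ : ∀ δ, δ ∈ g.support → (ρ ^ p) δ = δ := by
    intro δ hδ
    apply Equiv.Perm.pow_apply_eq_self_of_apply_eq_self
    have d1 : δ ≠ f₁ := fun h => hf₁ (h ▸ hδ)
    have d2 : δ ≠ f₂ := fun h => hf₂ (h ▸ hδ)
    have d3 : δ ≠ f₃ := fun h => hf₃ (h ▸ hδ)
    rw [hρ]
    simp only [Equiv.Perm.mul_apply]
    rw [Equiv.swap_apply_of_ne_of_ne d2 d3, Equiv.swap_apply_of_ne_of_ne d1 d2,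
      Equiv.swap_apply_of_ne_of_ne d2 d3, Equiv.swap_apply_of_ne_of_ne d1 d2]
  have hpowF : ∀ n : ℕ, ∀ f, f ∉ g.support → (c ^ n) f = (ρ ^ n) f ∧ (ρ ^ n) f ∉ g.support := by
    intro n
    induction n with
    | zero => intro f hf; exact ⟨rfl, hf⟩
    | succ n ih =>
      intro f hf
      obtain ⟨h1, h2⟩ := ih f hf
      rw [pow_succ', pow_succ', Equiv.Perm.mul_apply, Equiv.Perm.mul_apply, h1]
      exact ⟨hcF _ h2, hρF _ h2⟩
  have hcp : c ^ p = ρ ^ p := by
    apply Equiv.ext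
    intro x
    by_cases hx : x ∈ g.support
    · rw [hcΔ x hx, hρΔ x hx]
    · exact (hpowF p x hx).1
  have hτ : (Equiv.swap f₁ f₂ * Equiv.swap f₂ f₃).IsThreeCycle := by
    rw [Equiv.swap_comm f₁ f₂]
    exact Equiv.Perm.isThreeCycle_swap_mul_swap_same h12.symm h23 h13
  have hρτ : ρ ^ p = (Equiv.swap f₁ f₂ * Equiv.swap f₂ f₃) ^ (2 * p) := by
    rw [pow_mul, hρ, pow_two, mul_assoc, mul_assoc]
  have h3c : (ρ ^ p).IsThreeCycle := by
    rw [hρτ, ← card_support_eq_three_iff, Equiv.Perm.support_pow_coprime, hτ.card_support]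
    rw [hτ.orderOf]
    have hc2 : Nat.Coprime 2 3 := by decide
    have hcp3 : Nat.Coprime p 3 := (Nat.coprime_primes hp Nat.prime_three).mpr hp3
    exact Nat.Coprime.mul_left hc2 hcp3
  have hmem : ρ ^ p ∈ G := by
    rw [← hcp]
    exact G.pow_mem hcG p
  exact Equiv.Perm.alternatingGroup_le_of_isPreprimitive_of_isThreeCycle_mem hG h3c hmem

end Cfsg.Agent.S0713
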