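import Cfsg.Statements.S0714
import Mathlib

set_option autoImplicit false
open Cfsg

namespace Cfsg.Agent.S0714

section aux

set_option linter.unusedSectionVars false
set_option linter.style.haveILetI false

variable {α : Type*} [Fintype α] [DecidableEq α] {K : Type*} [Field K]

/-- basis vectors -/
def e (K : Type*) [Field K] (x : α) : α → K := Pi.single x 1

theorem e_apply (x y : α) : e K x y = if y = x then 1 else 0 := by
  unfold e
  rw [Pi.single_apply]

theorem permRep_apply (g : alternatingGroup α) (f : α → K) (x : α) :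
    Cfsg.permRep K (alternatingGroup α) α g f x = f ((g : Equiv.Perm α)⁻¹ x) := rfl

theorem permRep_single (σ : Equiv.Perm α) (hσ : σ ∈ alternatingGroup α) (x : α) :
    Cfsg.permRep K (alternatingGroup α) α ⟨σ, hσ⟩ (e K x) = e K (σ x) := by
  funext y
  rw [permRep_apply, e_apply, e_apply]
  by_cases h : y = σ x
  · subst h
    simp
  · rw [if_neg h, if_neg]
    intro h'
    apply h
    rw [← h']
    simp

theorem mem_sumZero (f : α → K) :
    f ∈ (Cfsg.permSumZero K (alternatingGroup α) α).toSubmodule ↔ ∑ x, f x = 0 := Iff.rfl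

theorem mem_constants (f : α → K) :
    f ∈ (Cfsg.permConstants K (alternatingGroup α) α).toSubmodule ↔
      ∃ c : K, c • (fun _ : α => (1 : K)) = f := Submodule.mem_span_singleton

theorem swap_mul_swap_mem {x y z t : α} (hxy : x ≠ y) (hzt : z ≠ t) :
    Equiv.swap x y * Equiv.swap z t ∈ alternatingGroup α := by
  rw [Equiv.Perm.mem_alternatingGroup, map_mul, Equiv.Perm.sign_swap hxy,
    Equiv.Perm.sign_swap hzt]
  simp

theorem exists_notMem (s : Finset α) (h : s.card < Fintype.card α) : ∃ x, x ∉ s := by
  by_contra hcon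
  push Not at hcon
  have hs : s = Finset.univ := Finset.eq_univ_iff_forall.mpr hcon
  rw [hs, Finset.card_univ] at h
  exact lt_irrefl _ h

theorem mem_of_smul_mem (W : Subrepresentation (Cfsg.permRep K (alternatingGroup α) α))
    {c : K} (hc : c ≠ 0) {v : α → K} (h : c • v ∈ W.toSubmodule) : v ∈ W.toSubmodule := by
  have hv : v = c⁻¹ • (c • v) := by rw [smul_smul, inv_mul_cancel₀ hc, one_smul]
  rw [hv]
  exact W.toSubmodule.smul_mem _ h

theorem sumZero_le (hα : 5 ≤ Fintype.card α)
    (W : Subrepresentation (Cfsg.permRep K (alternatingGroup α) α)) {a b : α} (hab : a ≠ b)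
    (h : e K a - e K b ∈ W.toSubmodule) :
    (Cfsg.permSumZero K (alternatingGroup α) α).toSubmodule ≤ W.toSubmodule := by
  have h2t : MulAction.IsMultiplyPretransitive (alternatingGroup α) α 2 := by
    haveI := alternatingGroup.isMultiplyPretransitive α
    exact MulAction.isMultiplyPretransitive_of_le (G := alternatingGroup α) (α := α)
      (n := Nat.card α - 2) (by rw [Nat.card_eq_fintype_card]; omega) (Nat.sub_le _ _)
  rw [MulAction.is_two_pretransitive_iff] at h2t
  have hall : ∀ x y : α, x ≠ y → e K x - e K y ∈ W.toSubmodule := by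
    intro x y hxy
    obtain ⟨g, hga, hgb⟩ := h2t hab hxy
    have hg := W.apply_mem_toSubmodule g h
    rw [map_sub] at hg
    obtain ⟨σ, hσ⟩ := g
    rw [permRep_single, permRep_single] at hg
    have e1 : σ a = x := hga
    have e2 : σ b = y := hgb
    rw [e1, e2] at hg
    exact hg
  intro f hf
  rw [mem_sumZero] at hf
  have hne : Nonempty α := Fintype.card_pos_iff.mp (by omega)
  obtain ⟨x₀⟩ := hne
  have hf' : f = ∑ x, f x • (e K x - e K x₀) := by
    funext y
    rw [Finset.sum_apply]
    have step : ∀ x ∈ Finset.univ, (f x • (e K x - e K x₀)) y =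
        (if x = y then f x else 0) - f x * (if y = x₀ then 1 else 0) := by
      intro x _
      simp only [Pi.smul_apply, Pi.sub_apply, e_apply, smul_eq_mul, mul_sub]
      congr 1
      by_cases h : x = y
      · subst h; simp
      · have h' : ¬ y = x := fun h' => h h'.symm
        simp [h, h']
    rw [Finset.sum_congr rfl step, Finset.sum_sub_distrib, Finset.sum_ite_eq', ← Finset.sum_mul,
      hf]
    simp
  rw [hf']
  apply Submodule.sum_mem
  intro x _
  apply Submodule.smul_mem
  by_cases hx : x = x₀
  · rw [hx, sub_self]; exact Submodule.zero_mem _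
  · exact hall x x₀ hx

theorem step1 (W : Subrepresentation (Cfsg.permRep K (alternatingGroup α) α)) (w : α → K)
    (hw : w ∈ W.toSubmodule) {a b c : α} (hab : a ≠ b) (hac : a ≠ c) (hbc : b ≠ c) :
    (w a - w c) • e K a + (w b - w a) • e K b + (w c - w b) • e K c ∈ W.toSubmodule := by
  have hca : c ≠ a := hac.symm
  have hcb : c ≠ b := hbc.symm
  have key : w - Cfsg.permRep K (alternatingGroup α) α
      ⟨Equiv.swap a b * Equiv.swap b c, swap_mul_swap_mem hab hbc⟩ w =
      (w a - w c) • e K a + (w b - w a) • e K b + (w c - w b) • e K c := by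
    funext x
    have hinv : (Equiv.swap a b * Equiv.swap b c)⁻¹ = Equiv.swap b c * Equiv.swap a b := by
      rw [mul_inv_rev, Equiv.swap_inv, Equiv.swap_inv]
    rw [Pi.sub_apply, permRep_apply]
    show w x - w ((Equiv.swap a b * Equiv.swap b c)⁻¹ x) = _
    rw [hinv, Equiv.Perm.mul_apply]
    simp only [Pi.add_apply, Pi.smul_apply, e_apply, smul_eq_mul]
    by_cases hxa : x = a
    · rw [hxa, Equiv.swap_apply_left, Equiv.swap_apply_left, if_pos (rfl : a = a), if_neg hab,
        if_neg hac]
      ring
    · by_cases hxb : x = b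
      · rw [hxb, Equiv.swap_apply_right, Equiv.swap_apply_of_ne_of_ne hab hac,
          if_neg hab.symm, if_pos (rfl : b = b), if_neg hbc]
        ring
      · by_cases hxc : x = c
        · rw [hxc, Equiv.swap_apply_of_ne_of_ne hca hcb, Equiv.swap_apply_right, if_neg hca,
            if_neg hcb, if_pos (rfl : c = c)]
          ring
        · rw [Equiv.swap_apply_of_ne_of_ne hxa hxb, Equiv.swap_apply_of_ne_of_ne hxb hxc,
            if_neg hxa, if_neg hxb, if_neg hxc]
          ring
  rw [← key]
  exact W.toSubmodule.sub_mem hw (W.apply_mem_toSubmodule _ hw)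

theorem step2 (W : Subrepresentation (Cfsg.permRep K (alternatingGroup α) α))
    {a b c d e' : α} (hab : a ≠ b) (hac : a ≠ c) (had : a ≠ d) (hae : a ≠ e') (hbc : b ≠ c)
    (hbd : b ≠ d) (hbe : b ≠ e') (hcd : c ≠ d) (hce : c ≠ e') (hde : d ≠ e') (A B C : K)
    (hu : A • e K a + B • e K b + C • e K c ∈ W.toSubmodule) (hB : B ≠ 0) :
    ∃ x y : α, x ≠ y ∧ e K x - e K y ∈ W.toSubmodule := by
  have hca : c ≠ a := hac.symm
  have hcb : c ≠ b := hbc.symm
  by_cases h1 : A = B
  · by_cases h2 : B = C
    · have hs := W.apply_mem_toSubmodule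
        ⟨Equiv.swap c d * Equiv.swap d e', swap_mul_swap_mem hcd hde⟩ hu
      rw [map_add, map_add, map_smul, map_smul, map_smul, permRep_single, permRep_single,
        permRep_single] at hs
      have e1 : (Equiv.swap c d * Equiv.swap d e') a = a := by
        rw [Equiv.Perm.mul_apply, Equiv.swap_apply_of_ne_of_ne had hae,
          Equiv.swap_apply_of_ne_of_ne hac had]
      have e2 : (Equiv.swap c d * Equiv.swap d e') b = b := by
        rw [Equiv.Perm.mul_apply, Equiv.swap_apply_of_ne_of_ne hbd hbe,
          Equiv.swap_apply_of_ne_of_ne hbc hbd]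
      have e3 : (Equiv.swap c d * Equiv.swap d e') c = d := by
        rw [Equiv.Perm.mul_apply, Equiv.swap_apply_of_ne_of_ne hcd hce, Equiv.swap_apply_left]
      rw [e1, e2, e3] at hs
      have hdiff := W.toSubmodule.sub_mem hu hs
      have hC : C ≠ 0 := h2 ▸ hB
      have heq : (A • e K a + B • e K b + C • e K c) - (A • e K a + B • e K b + C • e K d) =
          C • (e K c - e K d) := by module
      rw [heq] at hdiff
      exact ⟨c, d, hcd, mem_of_smul_mem W hC hdiff⟩
    · have hs := W.apply_mem_toSubmodule
        ⟨Equiv.swap b c * Equiv.swap d e', swap_mul_swap_mem hbc hde⟩ hu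
      rw [map_add, map_add, map_smul, map_smul, map_smul, permRep_single, permRep_single,
        permRep_single] at hs
      have e1 : (Equiv.swap b c * Equiv.swap d e') a = a := by
        rw [Equiv.Perm.mul_apply, Equiv.swap_apply_of_ne_of_ne had hae,
          Equiv.swap_apply_of_ne_of_ne hab hac]
      have e2 : (Equiv.swap b c * Equiv.swap d e') b = c := by
        rw [Equiv.Perm.mul_apply, Equiv.swap_apply_of_ne_of_ne hbd hbe, Equiv.swap_apply_left]
      have e3 : (Equiv.swap b c * Equiv.swap d e') c = b := by
        rw [Equiv.Perm.mul_apply, Equiv.swap_apply_of_ne_of_ne hcd hce, Equiv.swap_apply_right]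
      rw [e1, e2, e3] at hs
      have hdiff := W.toSubmodule.sub_mem hu hs
      have hBC : B - C ≠ 0 := sub_ne_zero.mpr h2
      have heq : (A • e K a + B • e K b + C • e K c) - (A • e K a + B • e K c + C • e K b) =
          (B - C) • (e K b - e K c) := by module
      rw [heq] at hdiff
      exact ⟨b, c, hbc, mem_of_smul_mem W hBC hdiff⟩
  · have hs := W.apply_mem_toSubmodule
      ⟨Equiv.swap a b * Equiv.swap d e', swap_mul_swap_mem hab hde⟩ hu
    rw [map_add, map_add, map_smul, map_smul, map_smul, permRep_single, permRep_single,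
      permRep_single] at hs
    have e1 : (Equiv.swap a b * Equiv.swap d e') a = b := by
      rw [Equiv.Perm.mul_apply, Equiv.swap_apply_of_ne_of_ne had hae, Equiv.swap_apply_left]
    have e2 : (Equiv.swap a b * Equiv.swap d e') b = a := by
      rw [Equiv.Perm.mul_apply, Equiv.swap_apply_of_ne_of_ne hbd hbe, Equiv.swap_apply_right]
    have e3 : (Equiv.swap a b * Equiv.swap d e') c = c := by
      rw [Equiv.Perm.mul_apply, Equiv.swap_apply_of_ne_of_ne hcd hce,
        Equiv.swap_apply_of_ne_of_ne hca hcb]
    rw [e1, e2, e3] at hs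
    have hdiff := W.toSubmodule.sub_mem hu hs
    have hAB : A - B ≠ 0 := sub_ne_zero.mpr h1
    have heq : (A • e K a + B • e K b + C • e K c) - (A • e K b + B • e K a + C • e K c) =
        (A - B) • (e K a - e K b) := by module
    rw [heq] at hdiff
    exact ⟨a, b, hab, mem_of_smul_mem W hAB hdiff⟩

theorem exists_diff (hα : 5 ≤ Fintype.card α)
    (W : Subrepresentation (Cfsg.permRep K (alternatingGroup α) α)) (w : α → K)
    (hw : w ∈ W.toSubmodule) {a b : α} (hwab : w a ≠ w b) :
    ∃ x y : α, x ≠ y ∧ e K x - e K y ∈ W.toSubmodule := by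
  have hab : a ≠ b := fun h => hwab (h ▸ rfl)
  obtain ⟨c, hc⟩ := exists_notMem ({a, b} : Finset α)
    (lt_of_le_of_lt Finset.card_le_two (by omega))
  obtain ⟨d, hd⟩ := exists_notMem ({a, b, c} : Finset α)
    (lt_of_le_of_lt Finset.card_le_three (by omega))
  obtain ⟨e', he⟩ := exists_notMem ({a, b, c, d} : Finset α)
    (lt_of_le_of_lt Finset.card_le_four (by omega))
  simp only [Finset.mem_insert, Finset.mem_singleton, not_or] at hc hd he
  obtain ⟨hca, hcb⟩ := hc
  obtain ⟨hda, hdb, hdc⟩ := hd
  obtain ⟨hea, heb, hec, hed⟩ := he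
  have hu := step1 W w hw hab (Ne.symm hca) (Ne.symm hcb)
  exact step2 W hab (Ne.symm hca) (Ne.symm hda) (Ne.symm hea) (Ne.symm hcb) (Ne.symm hdb)
    (Ne.symm heb) (Ne.symm hdc) (Ne.symm hec) (Ne.symm hed) _ _ _ hu
    (sub_ne_zero.mpr (Ne.symm hwab))

end aux

/-- Over any field, the permutation module of the alternating group of degree at least 5 has exactly four invariant subspaces: zero, the constant functions, the functions with coordinate sum zero, and everything. -/
theorem result {α : Type*} [Fintype α] [DecidableEq α] (hα : 5 ≤ Fintype.card α) {K : Type*} [Field K] (W : Subrepresentation (Cfsg.permRep K (alternatingGroup α) α)) : W.toSubmodule = ⊥ ∨ W = Cfsg.permConstants K (alternatingGroup α) α ∨ W = Cfsg.permSumZero K (alternatingGroup α) α ∨ W.toSubmodule = ⊤ := by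
  by_cases hconst : ∀ w ∈ W.toSubmodule, ∀ a b : α, w a = w b
  · by_cases hbot : W.toSubmodule = ⊥
    · exact Or.inl hbot
    · right; left
      apply Subrepresentation.toSubmodule_injective
      have hne : Nonempty α := Fintype.card_pos_iff.mp (by omega)
      obtain ⟨x₀⟩ := hne
      apply le_antisymm
      · intro w hw
        rw [mem_constants]
        exact ⟨w x₀, funext fun x => by simp [hconst w hw x x₀]⟩
      · obtain ⟨w, hw, hw0⟩ := (Submodule.ne_bot_iff _).mp hbot
        have hwx : w x₀ ≠ 0 := by
          intro h0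
          apply hw0
          funext x
          rw [hconst w hw x x₀, h0]; rfl
        have h1 : (fun _ : α => (1:K)) ∈ W.toSubmodule := by
          have h2 : (fun _ : α => (1:K)) = (w x₀)⁻¹ • w := by
            funext x
            simp [hconst w hw x x₀, inv_mul_cancel₀ hwx]
          rw [h2]; exact W.toSubmodule.smul_mem _ hw
        show (Cfsg.permConstants K (alternatingGroup α) α).toSubmodule ≤ W.toSubmodule
        exact (Submodule.span_singleton_le_iff_mem _ _).mpr h1
  · push Not at hconst
    obtain ⟨w, hw, a, b, hwab⟩ := hconst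
    obtain ⟨x, y, hxy, hmem⟩ := exists_diff hα W w hw hwab
    have hS := sumZero_le hα W hxy hmem
    by_cases hWS : W.toSubmodule ≤ (Cfsg.permSumZero K (alternatingGroup α) α).toSubmodule
    · right; right; left
      exact Subrepresentation.toSubmodule_injective (le_antisymm hWS hS)
    · right; right; right
      obtain ⟨v, hv, hvS⟩ := SetLike.not_le_iff_exists.mp hWS
      rw [mem_sumZero] at hvS
      rw [eq_top_iff]
      intro f _
      have hdecomp : f = (f - ((∑ x, f x) / (∑ x, v x)) • v) + ((∑ x, f x) / (∑ x, v x)) • v :=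
        (sub_add_cancel f _).symm
      rw [hdecomp]
      apply W.toSubmodule.add_mem
      · apply hS
        rw [mem_sumZero]
        simp only [Pi.sub_apply, Pi.smul_apply, smul_eq_mul, Finset.sum_sub_distrib,
          ← Finset.mul_sum]
        rw [div_mul_cancel₀ _ hvS, sub_self]
      · exact W.toSubmodule.smul_mem _ hv

end Cfsg.Agent.S0714
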