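import Cfsg.Statements.S0715
import Cfsg.Agent.Helper22.PermAlg
import Cfsg.Agent.Helper24.CharDecomp
import Cfsg.Agent.Helper24.CharIntegral


set_option autoImplicit false
open Cfsg
open Cfsg.Agent.Helper22 Cfsg.Agent.Helper24

namespace Cfsg.Agent.S0715

/-- If a natural number `f` divides the degree of every non-principal irreducible constituent of the permutation character of a transitive group, then `f` divides every non-trivial subdegree. -/
theorem result {G : Type*} [Group G] [Fintype G] {Ω : Type*} [Fintype Ω] [MulAction G Ω] [MulAction.IsPretransitive G Ω] (f : ℕ) (hf : ∀ χ : G → ℂ, Cfsg.IsIrrCharacter G χ → χ ≠ (fun _ => 1) → Cfsg.classInner (fun g : G => (Nat.card (MulAction.fixedBy Ω g) : ℂ)) χ ≠ 0 → ∃ m : ℕ, χ 1 = (f : ℂ) * m) (a b : Ω) (hab : b ≠ a) : f ∣ Nat.card (MulAction.orbit (MulAction.stabilizer G a) b) := by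
  classical
  obtain ⟨k, hk⟩ : ∃ k : ℕ, k = Nat.card (MulAction.orbit (MulAction.stabilizer G a) b) :=
    ⟨_, rfl⟩
  rw [← hk]
  have hkpos : 0 < k := by
    haveI : Nonempty (MulAction.orbit (MulAction.stabilizer G a) b) :=
      ⟨⟨b, MulAction.mem_orbit_self b⟩⟩
    rw [hk]; exact Nat.card_pos
  have hinv := orbMat_isGInv G a b
  obtain ⟨χ₀, hχ₀⟩ : ∃ χ₀ : IrrCharacter G, (χ₀ : G → ℂ) = fun _ => 1 :=
    ⟨⟨fun _ => 1, Cfsg.Agent.Helper24.isIrrCharacter_one⟩, rfl⟩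
  have hterm : ∀ χ : IrrCharacter G, ∃ z : ℂ, IsIntegral ℤ z ∧ (χ ≠ χ₀ →
      (χ : G → ℂ) 1 * cchi (orbMat G a b) (χ : G → ℂ) = (f : ℂ) * z) := by
    intro χ
    by_cases hχ : χ = χ₀
    · exact ⟨0, isIntegral_zero, fun h => absurd hχ h⟩
    have hχ1 : (χ : G → ℂ) ≠ (fun _ => 1) := fun h => hχ (Subtype.ext (h.trans hχ₀.symm))
    obtain ⟨n, ρ, hirr, hρ⟩ := χ.2
    by_cases h0 : cchi (1 : Matrix Ω Ω ℂ) (χ : G → ℂ) = 0
    · refine ⟨0, isIntegral_zero, fun _ => ?_⟩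
      rw [← hρ] at h0 ⊢
      rw [cchi_eq_zero_of ρ h0, mul_zero, mul_zero]
    · have hstar : IsIrrCharacter G (fun g => starRingEnd ℂ ((χ : G → ℂ) g)) :=
        isIrrCharacter_star χ.2
      have hne1 : (fun g => starRingEnd ℂ ((χ : G → ℂ) g)) ≠ (fun _ : G => (1 : ℂ)) := by
        intro h
        apply hχ1
        funext g
        have h2 := congrArg (starRingEnd ℂ) (congrFun h g)
        rwa [Complex.conj_conj, map_one] at h2
      obtain ⟨m, hm⟩ := hf _ hstar hne1 (by rw [← cchi_one_eq_classInner_star]; exact h0)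
      have hχ1' : (χ : G → ℂ) 1 = (f : ℂ) * m := by
        rw [← irr_one_conj χ]; exact hm
      refine ⟨(m : ℂ) * cchi (orbMat G a b) (χ : G → ℂ), ?_, fun _ => by rw [hχ1']; ring⟩
      rw [← hρ]
      exact (isIntegral_natCast _).mul (cchi_isIntegral ρ (orbMatZ G a b) hinv)
  have htrace := trace_eq_sum_cchi (G := G) (orbMat G a b)
  rw [orbMat_diag G hab] at htrace
  have h0 : (χ₀ : G → ℂ) 1 * cchi (orbMat G a b) (χ₀ : G → ℂ) = (k : ℂ) := by
    rw [hχ₀, one_mul, cchi_one_eq_rowsum hinv a, orbMat_rowsum, hk]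
  choose z hz1 hz2 using hterm
  have hsum : ∑ χ : IrrCharacter G, (χ : G → ℂ) 1 * cchi (orbMat G a b) (χ : G → ℂ) =
      (k : ℂ) + (f : ℂ) * ∑ χ ∈ Finset.univ.erase χ₀, z χ := by
    rw [← Finset.add_sum_erase Finset.univ _ (Finset.mem_univ χ₀), h0, Finset.mul_sum]
    congr 1
    exact Finset.sum_congr rfl (fun χ hχ => hz2 χ (Finset.ne_of_mem_erase hχ))
  rw [hsum] at htrace
  have hZ : IsIntegral ℤ (∑ χ ∈ Finset.univ.erase χ₀, z χ) :=
    IsIntegral.sum _ (fun χ _ => hz1 χ)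
  by_cases hf0 : f = 0
  · exfalso
    rw [hf0, Nat.cast_zero, zero_mul, add_zero] at htrace
    have : k = 0 := by exact_mod_cast htrace.symm
    omega
  · apply dvd_of_isIntegral_div hf0
    have hfc : (f : ℂ) ≠ 0 := Nat.cast_ne_zero.mpr hf0
    have hkf : (k : ℂ) / (f : ℂ) = -(∑ χ ∈ Finset.univ.erase χ₀, z χ) := by
      rw [div_eq_iff hfc]
      linear_combination -htrace
    rw [hkf]
    exact hZ.neg

end Cfsg.Agent.S0715
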