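import Cfsg.Statements.S0716
import Cfsg.Agent.Helper22.PermRank
import Cfsg.Agent.S0715

set_option autoImplicit false
open Cfsg
open Cfsg.Agent.Helper22 Cfsg.Agent.Helper24

namespace Cfsg.Agent.S0716

theorem partA {G : Type*} [Group G] [Fintype G] {Ω : Type*} [Fintype Ω] [MulAction G Ω]
    [MulAction.IsPretransitive G Ω] (a : Ω) (f : ℕ)
    (hf : ∀ χ : G → ℂ, Cfsg.IsIrrCharacter G χ → χ ≠ (fun _ => 1) →
      Cfsg.classInner (fun g : G => (Nat.card (MulAction.fixedBy Ω g) : ℂ)) χ ≠ 0 → χ 1 = f) :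
    (∀ χ : G → ℂ, Cfsg.IsIrrCharacter G χ →
      Cfsg.classInner (fun g : G => (Nat.card (MulAction.fixedBy Ω g) : ℂ)) χ = 0 ∨
      Cfsg.classInner (fun g : G => (Nat.card (MulAction.fixedBy Ω g) : ℂ)) χ = 1) ∧
    ∀ b : Ω, b ≠ a → Nat.card (MulAction.orbit (MulAction.stabilizer G a) b) = f := by
  classical
  obtain ⟨c, d, hc, hd, hc0, hrank, hdeg, -⟩ := perm_data (G := G) a
  have hne : ∀ ψ : IrrCharacter G, ψ ≠ trivIrr G → c ψ ≠ 0 → d ψ = f := by
    intro ψ hψ hcψ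
    have h1 : (ψ : G → ℂ) ≠ (fun _ => 1) := fun h => hψ (Subtype.ext h)
    have h2 : classInner (fun g : G => (Nat.card (MulAction.fixedBy Ω g) : ℂ)) (ψ : G → ℂ) ≠ 0 := by
      rw [hc ψ]; exact Nat.cast_ne_zero.mpr hcψ
    have h3 := hf _ ψ.2 h1 h2
    rw [(hd ψ).2] at h3
    exact_mod_cast h3
  have hc0' : c (trivIrr G) = 1 := hc0 _ rfl
  have hd0 : d (trivIrr G) = 1 := by
    have := (hd (trivIrr G)).2
    have h1 : ((trivIrr G : IrrCharacter G) : G → ℂ) 1 = 1 := rfl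
    rw [h1] at this
    exact_mod_cast this.symm
  have hrank' : Nat.card (MulAction.orbitRel.Quotient (MulAction.stabilizer G a) Ω) =
      1 + ∑ ψ ∈ Finset.univ.erase (trivIrr G), c ψ ^ 2 := by
    rw [hrank, ← Finset.add_sum_erase Finset.univ _ (Finset.mem_univ (trivIrr G)), hc0', one_pow]
  have hdeg' : Nat.card Ω = 1 + f * ∑ ψ ∈ Finset.univ.erase (trivIrr G), c ψ := by
    rw [hdeg, ← Finset.add_sum_erase Finset.univ _ (Finset.mem_univ (trivIrr G)), hc0', hd0,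
      Finset.mul_sum]
    congr 1
    refine Finset.sum_congr rfl (fun ψ hψ => ?_)
    by_cases h0 : c ψ = 0
    · rw [h0, zero_mul, mul_zero]
    · rw [hne ψ (Finset.ne_of_mem_erase hψ) h0, mul_comm]
  suffices hmain : (∀ ψ : IrrCharacter G, c ψ ≤ 1) ∧ ∀ b : Ω, b ≠ a →
      Nat.card (MulAction.orbit (MulAction.stabilizer G a) b) = f by
    refine ⟨fun χ hχ => ?_, hmain.2⟩
    have hcχ : classInner (fun g : G => (Nat.card (MulAction.fixedBy Ω g) : ℂ)) χ =
        c ⟨χ, hχ⟩ := hc ⟨χ, hχ⟩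
    rcases Nat.le_one_iff_eq_zero_or_eq_one.mp (hmain.1 ⟨χ, hχ⟩) with h | h
    · left; rw [hcχ, h, Nat.cast_zero]
    · right; rw [hcχ, h, Nat.cast_one]
  rcases Nat.eq_zero_or_pos f with hf0 | hfpos
  · have hall : ∀ ψ ∈ Finset.univ.erase (trivIrr G), c ψ = 0 := by
      intro ψ hψ
      by_contra h0
      have h1 := hne ψ (Finset.ne_of_mem_erase hψ) h0
      have h2 := (hd ψ).1
      omega
    have hΩ : Nat.card Ω = 1 := by
      rw [hdeg', hf0, zero_mul, add_zero]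
    refine ⟨fun ψ => ?_, fun b hb => ?_⟩
    · by_cases hψ : ψ = trivIrr G
      · rw [hψ, hc0']
      · rw [hall ψ (Finset.mem_erase.mpr ⟨hψ, Finset.mem_univ _⟩)]; exact Nat.zero_le _
    · exfalso
      have hsub : Subsingleton Ω := (Nat.card_eq_one_iff_unique.mp hΩ).1
      exact hb (Subsingleton.elim b a)
  · have hdvd : ∀ b : Ω, b ≠ a →
        f ≤ Nat.card (MulAction.orbit (MulAction.stabilizer G a) b) := by
      intro b hb
      have h1 := Cfsg.Agent.S0715.result (G := G) (Ω := Ω) f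
        (fun χ hχ h1 h2 => ⟨1, by rw [hf χ hχ h1 h2, Nat.cast_one, mul_one]⟩) a b hb
      haveI : Nonempty (MulAction.orbit (MulAction.stabilizer G a) b) :=
        ⟨⟨b, MulAction.mem_orbit_self b⟩⟩
      exact Nat.le_of_dvd Nat.card_pos h1
    obtain ⟨hcount, hcount2⟩ := orbit_count a f hdvd
    rw [hrank', hdeg', Nat.add_sub_cancel_left] at hcount hcount2
    have hle1 : ∑ ψ ∈ Finset.univ.erase (trivIrr G), c ψ ^ 2 ≤
        ∑ ψ ∈ Finset.univ.erase (trivIrr G), c ψ := by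
      have h3 : (∑ ψ ∈ Finset.univ.erase (trivIrr G), c ψ ^ 2) * f ≤
          (∑ ψ ∈ Finset.univ.erase (trivIrr G), c ψ) * f := by
        rw [mul_comm (∑ ψ ∈ Finset.univ.erase (trivIrr G), c ψ) f]
        exact Nat.le_of_add_le_add_left hcount
      exact Nat.le_of_mul_le_mul_right h3 hfpos
    have hle2 : ∀ ψ ∈ Finset.univ.erase (trivIrr G), c ψ ≤ c ψ ^ 2 := by
      intro ψ _
      rcases Nat.eq_zero_or_pos (c ψ) with h | h
      · rw [h]; norm_num
      · nlinarith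
    have heq : ∑ ψ ∈ Finset.univ.erase (trivIrr G), c ψ =
        ∑ ψ ∈ Finset.univ.erase (trivIrr G), c ψ ^ 2 :=
      le_antisymm (Finset.sum_le_sum hle2) hle1
    have hall := (Finset.sum_eq_sum_iff_of_le hle2).mp heq
    refine ⟨fun ψ => ?_, ?_⟩
    · by_cases hψ : ψ = trivIrr G
      · rw [hψ, hc0']
      · have h1 := hall ψ (Finset.mem_erase.mpr ⟨hψ, Finset.mem_univ _⟩)
        by_contra h2
        push_neg at h2
        nlinarith
    · apply hcount2
      exact le_of_eq (by rw [heq, mul_comm])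

/-- (a) If all non-principal irreducible constituents of the permutation character of a transitive group have the same degree `f`, the character is multiplicity-free and all non-trivial subdegrees equal `f`. (b) A transitive group of rank at most 5 has multiplicity-free permutation character. -/
theorem result {G : Type*} [Group G] [Fintype G] {Ω : Type*} [Fintype Ω] [MulAction G Ω] [MulAction.IsPretransitive G Ω] (a : Ω) : ((f : ℕ) → (∀ χ : G → ℂ, Cfsg.IsIrrCharacter G χ → χ ≠ (fun _ => 1) → Cfsg.classInner (fun g : G => (Nat.card (MulAction.fixedBy Ω g) : ℂ)) χ ≠ 0 → χ 1 = f) → (∀ χ : G → ℂ, Cfsg.IsIrrCharacter G χ → Cfsg.classInner (fun g : G => (Nat.card (MulAction.fixedBy Ω g) : ℂ)) χ = 0 ∨ Cfsg.classInner (fun g : G => (Nat.card (MulAction.fixedBy Ω g) : ℂ)) χ = 1) ∧ ∀ b : Ω, b ≠ a → Nat.card (MulAction.orbit (MulAction.stabilizer G a) b) = f) ∧ (Nat.card (MulAction.orbitRel.Quotient (MulAction.stabilizer G a) Ω)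 ≤ 5 → ∀ χ : G → ℂ, Cfsg.IsIrrCharacter G χ → Cfsg.classInner (fun g : G => (Nat.card (MulAction.fixedBy Ω g) : ℂ)) χ = 0 ∨ Cfsg.classInner (fun g : G => (Nat.card (MulAction.fixedBy Ω g) : ℂ)) χ = 1) := by
  classical
  refine ⟨fun f hf => partA a f hf, fun hr χ hχ => ?_⟩
  obtain ⟨c, d, hc, hd, hc0, hrank, hdeg, -⟩ := perm_data (G := G) a
  have hcχ : classInner (fun g : G => (Nat.card (MulAction.fixedBy Ω g) : ℂ)) χ =
      c ⟨χ, hχ⟩ := hc ⟨χ, hχ⟩
  by_contra hcon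
  push_neg at hcon
  have h2 : 2 ≤ c ⟨χ, hχ⟩ := by
    by_contra h
    push_neg at h
    rcases Nat.le_one_iff_eq_zero_or_eq_one.mp (Nat.lt_succ_iff.mp h) with h | h
    · exact hcon.1 (by rw [hcχ, h, Nat.cast_zero])
    · exact hcon.2 (by rw [hcχ, h, Nat.cast_one])
  have hc0' : c (trivIrr G) = 1 := hc0 _ rfl
  have hne0 : (⟨χ, hχ⟩ : IrrCharacter G) ≠ trivIrr G := by
    intro h; rw [h, hc0'] at h2; omega
  have hother : ∀ ψ : IrrCharacter G, ψ ≠ trivIrr G → ψ ≠ ⟨χ, hχ⟩ → c ψ = 0 := by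
    intro ψ h1 h2'
    by_contra h0
    have hle : ∑ ψ' ∈ ({trivIrr G, ⟨χ, hχ⟩, ψ} : Finset (IrrCharacter G)), c ψ' ^ 2 ≤
        ∑ ψ' : IrrCharacter G, c ψ' ^ 2 := Finset.sum_le_sum_of_subset (Finset.subset_univ _)
    rw [Finset.sum_insert (by
        rw [Finset.mem_insert, Finset.mem_singleton]
        rintro (h | h)
        · exact hne0 h.symm
        · exact h1 h.symm),
      Finset.sum_insert (by rw [Finset.mem_singleton]; exact fun h => h2' h.symm),
      Finset.sum_singleton, ← hrank, hc0', one_pow] at hle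
    have h4 : 4 ≤ c ⟨χ, hχ⟩ ^ 2 := by nlinarith
    have h1' : 1 ≤ c ψ ^ 2 := Nat.one_le_pow _ _ (Nat.pos_of_ne_zero h0)
    omega
  obtain ⟨hdpos, hdχ⟩ := hd ⟨χ, hχ⟩
  have hA : ∀ χ' : G → ℂ, IsIrrCharacter G χ' → χ' ≠ (fun _ => 1) →
      classInner (fun g : G => (Nat.card (MulAction.fixedBy Ω g) : ℂ)) χ' ≠ 0 →
      χ' 1 = (d ⟨χ, hχ⟩ : ℂ) := by
    intro χ' hχ' h1 h2'
    have hψ : (⟨χ', hχ'⟩ : IrrCharacter G) = ⟨χ, hχ⟩ := by
      by_contra hne'
      have h0 := hother ⟨χ', hχ'⟩ (fun h => h1 (congrArg Subtype.val h)) hne'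
      apply h2'
      have hcχ' : classInner (fun g : G => (Nat.card (MulAction.fixedBy Ω g) : ℂ)) χ' =
          c ⟨χ', hχ'⟩ := hc ⟨χ', hχ'⟩
      rw [hcχ', h0, Nat.cast_zero]
    have h3 : χ' = χ := congrArg Subtype.val hψ
    rw [h3]; exact hdχ
  rcases (partA a (d ⟨χ, hχ⟩) hA).1 χ hχ with h | h
  · exact hcon.1 h
  · exact hcon.2 h

end Cfsg.Agent.S0716
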