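import Cfsg.Statements.S0717
import Cfsg.Agent.Helper22.PermAlg
import Cfsg.Agent.Helper22.FrobSchur2
import Cfsg.Agent.Helper24.CharDecomp
import Cfsg.Agent.Helper24.CharGagola
import Cfsg.Agent.Helper24.CharInd

set_option autoImplicit false
open Cfsg
open Cfsg.Agent.Helper22 Cfsg.Agent.Helper24
open scoped ComplexOrder Matrix

namespace Cfsg.Agent.S0717

theorem card_fixedBy_eq {G : Type*} [Group G] {Ω : Type*} [Fintype Ω] [DecidableEq Ω]
    [MulAction G Ω] (g : G) :
    Nat.card (MulAction.fixedBy Ω g) = (Finset.univ.filter (fun α : Ω => g • α = α)).card :=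
  Nat.subtype_card _ (fun x => by rw [Finset.mem_filter, MulAction.mem_fixedBy]; simp)

theorem sum_comm3 {G Ω : Type*} [Fintype G] [Fintype Ω] (F : G → Ω → Ω → ℕ) :
    ∑ g : G, ∑ α : Ω, ∑ β : Ω, F g α β = ∑ α : Ω, ∑ β : Ω, ∑ g : G, F g α β := by
  rw [Finset.sum_comm]
  refine Finset.sum_congr rfl (fun α _ => ?_)
  rw [Finset.sum_comm]

theorem sum_sq_eq_sum_fix_sq {G : Type*} [Group G] [Fintype G] {Ω : Type*} [Fintype Ω]
    [MulAction G Ω] (hsym : ∀ a b : Ω, ∃ g : G, g • a = b ∧ g • b = a) :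
    ∑ g : G, Nat.card (MulAction.fixedBy Ω g) ^ 2 =
      ∑ g : G, Nat.card (MulAction.fixedBy Ω (g * g)) := by
  classical
  have h1 : ∀ g : G, Nat.card (MulAction.fixedBy Ω g) ^ 2 =
      ∑ α : Ω, ∑ β : Ω, if (g • α = α ∧ g • β = β) then 1 else 0 := by
    intro g
    rw [card_fixedBy_eq, sq, Finset.card_filter, Finset.sum_mul_sum]
    refine Finset.sum_congr rfl (fun α _ => Finset.sum_congr rfl (fun β _ => ?_))
    by_cases e1 : g • α = α <;> by_cases e2 : g • β = β <;> simp [e1, e2]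
  have h2 : ∀ g : G, Nat.card (MulAction.fixedBy Ω (g * g)) =
      ∑ α : Ω, ∑ β : Ω, if (g • α = β ∧ g • β = α) then 1 else 0 := by
    intro g
    rw [card_fixedBy_eq, Finset.card_filter]
    refine Finset.sum_congr rfl (fun α _ => ?_)
    rw [Finset.sum_eq_single (g • α)]
    · simp [mul_smul]
    · intro β _ hβ
      rw [if_neg]
      rintro ⟨e1, -⟩
      exact hβ e1.symm
    · intro h; exact absurd (Finset.mem_univ _) h
  calc ∑ g : G, Nat.card (MulAction.fixedBy Ω g) ^ 2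
      = ∑ g : G, ∑ α : Ω, ∑ β : Ω, (if (g • α = α ∧ g • β = β) then 1 else 0) :=
        Finset.sum_congr rfl (fun g _ => h1 g)
    _ = ∑ α : Ω, ∑ β : Ω, ∑ g : G, (if (g • α = α ∧ g • β = β) then 1 else 0) := sum_comm3 _
    _ = ∑ α : Ω, ∑ β : Ω, ∑ g : G, (if (g • α = β ∧ g • β = α) then 1 else 0) := by
        refine Finset.sum_congr rfl (fun α _ => Finset.sum_congr rfl (fun β _ => ?_))
        obtain ⟨g₀, e1, e2⟩ := hsym α β
        refine Fintype.sum_equiv (Equiv.mulLeft g₀) _ _ (fun g => ?_)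
        have hiff : (g • α = α ∧ g • β = β) ↔ ((g₀ * g) • α = β ∧ (g₀ * g) • β = α) := by
          rw [mul_smul, mul_smul]
          constructor
          · rintro ⟨c1, c2⟩; rw [c1, c2]; exact ⟨e1, e2⟩
          · rintro ⟨c1, c2⟩
            exact ⟨smul_left_cancel g₀ (c1.trans e1.symm), smul_left_cancel g₀ (c2.trans e2.symm)⟩
        show (if (g • α = α ∧ g • β = β) then 1 else 0) =
          (if ((g₀ * g) • α = β ∧ (g₀ * g) • β = α) then (1 : ℕ) else 0)
        simp only [hiff]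
    _ = ∑ g : G, ∑ α : Ω, ∑ β : Ω, (if (g • α = β ∧ g • β = α) then 1 else 0) :=
        (sum_comm3 _).symm
    _ = ∑ g : G, Nat.card (MulAction.fixedBy Ω (g * g)) :=
        (Finset.sum_congr rfl (fun g _ => h2 g)).symm

theorem key_sum {G : Type*} [Group G] [Fintype G] (π : G → ℂ) (c : IrrCharacter G → ℕ)
    (hreal : ∀ g, starRingEnd ℂ (π g) = π g)
    (hc : ∀ ψ : IrrCharacter G, classInner π (ψ : G → ℂ) = c ψ)
    (hdec : π = ∑ ψ : IrrCharacter G, (c ψ : ℂ) • (ψ : G → ℂ))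
    (hsq : ∑ g : G, π g * π g = ∑ g : G, π (g * g)) :
    ∑ ψ : IrrCharacter G, (c ψ : ℤ) * ((c ψ : ℤ) - fsInt ψ) = 0 := by
  classical
  have hG : (Nat.card G : ℂ) ≠ 0 := Nat.cast_ne_zero.mpr Nat.card_pos.ne'
  have h1 : classInner π π = ∑ ψ : IrrCharacter G, (c ψ : ℂ) * (c ψ : ℂ) := by
    calc classInner π π = classInner (∑ ψ : IrrCharacter G, (c ψ : ℂ) • (ψ : G → ℂ)) π :=
          congrArg (fun φ => classInner φ π) hdec
      _ = ∑ ψ : IrrCharacter G, classInner ((c ψ : ℂ) • (ψ : G → ℂ)) π :=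
          classInner_sum_left _ _ _
      _ = ∑ ψ : IrrCharacter G, (c ψ : ℂ) * (c ψ : ℂ) :=
          Finset.sum_congr rfl (fun ψ _ => by
            rw [classInner_smul_left, classInner_conj_symm, hc ψ, Complex.conj_natCast])
  have h2 : classInner π π = (Nat.card G : ℂ)⁻¹ * ∑ g : G, π g * π g := by
    rw [classInner_def']
    congr 1
    exact Finset.sum_congr rfl (fun g _ => by rw [hreal g])
  have hA : ∑ g : G, π g * π g =
      (Nat.card G : ℂ) * ∑ ψ : IrrCharacter G, (c ψ : ℂ) * (c ψ : ℂ) := by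
    rw [← h1, h2, ← mul_assoc, mul_inv_cancel₀ hG, one_mul]
  have hv : ∀ x : G, π x = ∑ ψ : IrrCharacter G, (c ψ : ℂ) * (ψ : G → ℂ) x := by
    intro x
    have := congrFun hdec x
    rw [this, Finset.sum_apply]
    simp only [Pi.smul_apply, smul_eq_mul]
  have hfs : ∀ ψ : IrrCharacter G, ∑ g : G, (ψ : G → ℂ) (g * g) =
      (Nat.card G : ℂ) * (fsInt ψ : ℂ) := by
    intro ψ
    rw [fsInt_cast, fsInd, ← mul_assoc, mul_inv_cancel₀ hG, one_mul]
  have hB : ∑ g : G, π (g * g) =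
      (Nat.card G : ℂ) * ∑ ψ : IrrCharacter G, (c ψ : ℂ) * (fsInt ψ : ℂ) := by
    rw [Finset.sum_congr rfl (fun g _ => hv (g * g)), Finset.sum_comm, Finset.mul_sum]
    refine Finset.sum_congr rfl (fun ψ _ => ?_)
    rw [← Finset.mul_sum, hfs]; ring
  have hfin : (Nat.card G : ℂ) * ∑ ψ : IrrCharacter G, (c ψ : ℂ) * (c ψ : ℂ) =
      (Nat.card G : ℂ) * ∑ ψ : IrrCharacter G, (c ψ : ℂ) * (fsInt ψ : ℂ) := by
    rw [← hA, ← hB, hsq]
  have hfin2 := mul_left_cancel₀ hG hfin
  have hZ : ∑ ψ : IrrCharacter G, (c ψ : ℤ) * (c ψ : ℤ) =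
      ∑ ψ : IrrCharacter G, (c ψ : ℤ) * fsInt ψ := by
    exact_mod_cast hfin2
  simp only [mul_sub, Finset.sum_sub_distrib]
  rw [hZ, sub_self]

/-- All suborbits of a transitive group are self-paired (every pair of points is interchanged by some group element) if and only if the permutation character is multiplicity-free and each of its irreducible constituents is real-valued. -/
theorem result {G : Type*} [Group G] [Fintype G] {Ω : Type*} [Fintype Ω] [MulAction G Ω] [MulAction.IsPretransitive G Ω] : (∀ a b : Ω, ∃ g : G, g • a = b ∧ g • b = a) ↔ ∀ χ : G → ℂ, Cfsg.IsIrrCharacter G χ → Cfsg.classInner (fun g : G => (Nat.card (MulAction.fixedBy Ω g) : ℂ)) χ ≠ 0 → Cfsg.classInner (fun g : G => (Nat.card (MulAction.fixedBy Ω g) : ℂ)) χ = 1 ∧ ∀ g : G, (starRingEnd ℂ) (χ g) = χ g := by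
  classical
  constructor
  · intro hsym χ hχ hne
    rcases isEmpty_or_nonempty Ω with hE | ⟨⟨a⟩⟩
    · exfalso; apply hne
      have : (fun g : G => (Nat.card (MulAction.fixedBy Ω g) : ℂ)) = fun _ => 0 := by
        funext g; rw [Nat.card_of_isEmpty, Nat.cast_zero]
      rw [this]; unfold classInner; simp
    have hπ : IsCharacter G (fun g : G => (Nat.card (MulAction.fixedBy Ω g) : ℂ)) := by
      rw [permChar_eq_indFun Ω a]
      exact isCharacter_induced _ _
        (isCharacter_of_isIrrCharacter Cfsg.Agent.Helper24.isIrrCharacter_one)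
    obtain ⟨c, hc, hdec⟩ := isCharacter_decomp hπ
    have hsq : ∑ g : G, (Nat.card (MulAction.fixedBy Ω g) : ℂ) *
        (Nat.card (MulAction.fixedBy Ω g) : ℂ) =
        ∑ g : G, (Nat.card (MulAction.fixedBy Ω (g * g)) : ℂ) := by
      have h := sum_sq_eq_sum_fix_sq (G := G) (Ω := Ω) hsym
      simp only [sq] at h
      exact_mod_cast h
    have key := key_sum (fun g : G => (Nat.card (MulAction.fixedBy Ω g) : ℂ)) c
      (fun g => Complex.conj_natCast _) hc hdec hsq
    have hterm : ∀ ψ ∈ (Finset.univ : Finset (IrrCharacter G)),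
        0 ≤ (c ψ : ℤ) * ((c ψ : ℤ) - fsInt ψ) := by
      intro ψ _
      rcases Nat.eq_zero_or_pos (c ψ) with h0 | hpos
      · rw [h0]; simp
      · have := fsInt_le_one ψ
        exact mul_nonneg (by positivity) (by omega)
    have hz := (Finset.sum_eq_zero_iff_of_nonneg hterm).mp key ⟨χ, hχ⟩ (Finset.mem_univ _)
    have hcχ : classInner (fun g : G => (Nat.card (MulAction.fixedBy Ω g) : ℂ)) χ =
        c ⟨χ, hχ⟩ := hc ⟨χ, hχ⟩
    have hc0 : c ⟨χ, hχ⟩ ≠ 0 := by
      intro h0; apply hne; rw [hcχ, h0, Nat.cast_zero]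
    have hle := fsInt_le_one (⟨χ, hχ⟩ : IrrCharacter G)
    have heq : (c ⟨χ, hχ⟩ : ℤ) = fsInt ⟨χ, hχ⟩ := by
      rcases mul_eq_zero.mp hz with h | h
      · exfalso; exact hc0 (by exact_mod_cast h)
      · linarith
    have hc1 : c ⟨χ, hχ⟩ = 1 := by omega
    refine ⟨by rw [hcχ, hc1, Nat.cast_one], fun g => ?_⟩
    have hfs : fsInt (⟨χ, hχ⟩ : IrrCharacter G) ≠ 0 := by omega
    exact Complex.conj_eq_iff_im.mpr (fsInt_real ⟨χ, hχ⟩ hfs g)
  · intro H a b
    obtain ⟨A, hA⟩ : ∃ A : Matrix Ω Ω ℂ, A = orbMat G a b := ⟨_, rfl⟩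
    have hinv : IsGInv G A := hA ▸ orbMat_isGInv G a b
    have hB : IsGInv G (A - Aᵀ) := hinv.sub hinv.transpose
    have htr := trace_eq_sum_cchi (G := G) ((A - Aᵀ)ᴴ * (A - Aᵀ))
    have hzero : ∀ χ : IrrCharacter G,
        (χ : G → ℂ) 1 * cchi ((A - Aᵀ)ᴴ * (A - Aᵀ)) (χ : G → ℂ) = 0 := by
      intro χ
      obtain ⟨n, ρ, hirr, hρ⟩ := χ.2
      by_cases h0 : cchi (1 : Matrix Ω Ω ℂ) (χ : G → ℂ) = 0
      · rw [← hρ] at h0 ⊢
        rw [cchi_eq_zero_of ρ h0, mul_zero]
      · have hstar : IsIrrCharacter G (fun g => starRingEnd ℂ ((χ : G → ℂ) g)) :=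
          isIrrCharacter_star χ.2
        have h0' : classInner (fun g : G => (Nat.card (MulAction.fixedBy Ω g) : ℂ))
            (fun g => starRingEnd ℂ ((χ : G → ℂ) g)) ≠ 0 := by
          rw [← cchi_one_eq_classInner_star]; exact h0
        obtain ⟨h1, hreal⟩ := H _ hstar h0'
        have hreal' : ∀ g : G, starRingEnd ℂ ((χ : G → ℂ) g) = (χ : G → ℂ) g := by
          intro g
          have := hreal g
          rw [Complex.conj_conj] at this
          exact this.symm
        have h1' : cchi (1 : Matrix Ω Ω ℂ) (χ : G → ℂ) = 1 := by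
          rw [cchi_one_eq_classInner_star]; exact h1
        have hinvfun : (fun g : G => (χ : G → ℂ) g⁻¹) = (χ : G → ℂ) := by
          funext g; rw [irr_inv, hreal']
        have hBz : cchi (A - Aᵀ) (χ : G → ℂ) = 0 := by
          rw [cchi_sub, cchi_transpose hinv, hinvfun, sub_self]
        rw [← hρ] at h1' hBz ⊢
        rw [cchi_mul_of ρ h1' hB, hBz, mul_zero, mul_zero]
    rw [Finset.sum_eq_zero (fun χ _ => hzero χ)] at htr
    have hBzero : A - Aᵀ = 0 := Matrix.trace_conjTranspose_mul_self_eq_zero_iff.mp htr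
    have hsymm : A b a = A a b := by
      have := congrFun (congrFun hBzero a) b
      rw [Matrix.sub_apply, Matrix.transpose_apply, Matrix.zero_apply, sub_eq_zero] at this
      exact this.symm
    rw [hA, orbMat_self] at hsymm
    exact (orbMat_eq_one_iff G a b b a).mp hsymm

end Cfsg.Agent.S0717
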