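import Cfsg.Statements.S0718
import Cfsg.Agent.Helper22.CentAlg

set_option autoImplicit false
open Cfsg
open Cfsg.Agent.Helper22 Cfsg.Agent.Helper24

namespace Cfsg.Agent.S0718

/-- Multiplicity-freeness of the permutation character is equivalent to commutativity of the centraliser ring, i.e. of the algebra of `G`-equivariant endomorphisms of the complex permutation module. -/
theorem result {G : Type*} [Group G] [Fintype G] {Ω : Type*} [Fintype Ω] [MulAction G Ω] : (∀ χ : G → ℂ, Cfsg.IsIrrCharacter G χ → Cfsg.classInner (fun g : G => (Nat.card (MulAction.fixedBy Ω g) : ℂ)) χ = 0 ∨ Cfsg.classInner (fun g : G => (Nat.card (MulAction.fixedBy Ω g) : ℂ)) χ = 1) ↔ ∀ S T : (Ω → ℂ) →ₗ[ℂ] (Ω → ℂ), S ∈ ((Cfsg.permRep ℂ G Ω).linHom (Cfsg.permRep ℂ G Ω)).invariants → T ∈ ((Cfsg.permRep ℂ G Ω).linHom (Cfsg.permRep ℂ G Ω)).invariants → S ∘ₗ T = T ∘ₗ S := by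
  classical
  constructor
  · intro hmf S T hS hT
    have hX := (mem_inv_iff S).mp hS
    have hY := (mem_inv_iff T).mp hT
    have h := comm_of_multfree hmf hX hY
    apply LinearMap.toMatrix'.injective
    rw [LinearMap.toMatrix'_comp, LinearMap.toMatrix'_comp, h]
  · intro hcomm χ hχ
    apply multfree_of_comm _ χ hχ
    intro X Y hX hY
    have hS : Matrix.toLin' X ∈
        ((Cfsg.permRep ℂ G Ω).linHom (Cfsg.permRep ℂ G Ω)).invariants := by
      rw [mem_inv_iff, LinearMap.toMatrix'_toLin']; exact hX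
    have hT : Matrix.toLin' Y ∈
        ((Cfsg.permRep ℂ G Ω).linHom (Cfsg.permRep ℂ G Ω)).invariants := by
      rw [mem_inv_iff, LinearMap.toMatrix'_toLin']; exact hY
    have h := hcomm _ _ hS hT
    apply Matrix.toLin'.injective
    rw [Matrix.toLin'_mul, Matrix.toLin'_mul]; exact h

end Cfsg.Agent.S0718
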