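import Cfsg.Statements.S0719
import Cfsg.Agent.Helper22.Rank3

set_option autoImplicit false
open Cfsg
open Cfsg.Agent.Helper22 Cfsg.Agent.Helper24 Cfsg.Agent.Helper5
open scoped Matrix

namespace Cfsg.Agent.S0719

theorem core {G : Type*} [Group G] [Fintype G] {Ω : Type*} [Fintype Ω] [MulAction G Ω]
    (hprim : MulAction.IsPreprimitive G Ω) {m : ℕ} (hm : Fintype.card Ω = 2 * m) (hm2 : 2 ≤ m)
    (a₀ : Ω)
    (hrank : Nat.card (MulAction.orbitRel.Quotient (MulAction.stabilizer G a₀) Ω) = 3)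
    (ψ₁ ψ₂ : IrrCharacter G)
    (hπ : (fun g : G => (Nat.card (MulAction.fixedBy Ω g) : ℂ)) =
      fun g => 1 + (ψ₁ : G → ℂ) g + (ψ₂ : G → ℂ) g)
    (hd₁ : (ψ₁ : G → ℂ) 1 = (m : ℂ) - 1) (hd₂ : (ψ₂ : G → ℂ) 1 = m) (b : Ω) (hb : b ≠ a₀) :
    ∃ w : ℕ, w * w + 1 = 2 * m ∧
      (2 * Nat.card (MulAction.orbit (MulAction.stabilizer G a₀) b) = w * w + w ∨
       2 * Nat.card (MulAction.orbit (MulAction.stabilizer G a₀) b) + w = w * w) := by
  classical
  haveI := hprim.toIsPretransitive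
  have hπ' : (fun g : G => (Nat.card (MulAction.fixedBy Ω g) : ℂ)) =
      ((trivIrr G : IrrCharacter G) : G → ℂ) + (ψ₁ : G → ℂ) + (ψ₂ : G → ℂ) := by
    rw [hπ]; rfl
  have hin3 : ∀ ψ : IrrCharacter G,
      classInner (fun g : G => (Nat.card (MulAction.fixedBy Ω g) : ℂ)) (ψ : G → ℂ) =
      classInner ((trivIrr G : IrrCharacter G) : G → ℂ) (ψ : G → ℂ) +
        classInner (ψ₁ : G → ℂ) (ψ : G → ℂ) + classInner (ψ₂ : G → ℂ) (ψ : G → ℂ) := by
    intro ψ
    rw [hπ', classInner_add_left, classInner_add_left]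
  have h12 : ψ₁ ≠ ψ₂ := by
    intro h
    rw [h, hd₂] at hd₁
    exact one_ne_zero (by linear_combination hd₁ : (1 : ℂ) = 0)
  have hmult0 : classInner (fun g : G => (Nat.card (MulAction.fixedBy Ω g) : ℂ))
      ((trivIrr G : IrrCharacter G) : G → ℂ) = 1 := inner_perm_one a₀
  have h10 : ψ₁ ≠ trivIrr G ∧ ψ₂ ≠ trivIrr G := by
    have h0 := hin3 (trivIrr G)
    rw [hmult0, irr_inner_self] at h0
    constructor
    · intro h
      rw [h, irr_inner_self] at h0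
      by_cases h' : ψ₂ = trivIrr G
      · rw [h', irr_inner_self] at h0; norm_num at h0
      · rw [irr_inner_ne h'] at h0; norm_num at h0
    · intro h
      rw [h, irr_inner_self] at h0
      by_cases h' : ψ₁ = trivIrr G
      · rw [h', irr_inner_self] at h0; norm_num at h0
      · rw [irr_inner_ne h'] at h0; norm_num at h0
  obtain ⟨h10, h20⟩ := h10
  have hcons : ∀ ψ : IrrCharacter G,
      classInner (fun g : G => (Nat.card (MulAction.fixedBy Ω g) : ℂ)) (ψ : G → ℂ) ≠ 0 →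
      ψ = trivIrr G ∨ ψ = ψ₁ ∨ ψ = ψ₂ := by
    intro ψ hne
    by_contra hcon
    push_neg at hcon
    apply hne
    rw [hin3, irr_inner_ne (Ne.symm hcon.1), irr_inner_ne (Ne.symm hcon.2.1),
      irr_inner_ne (Ne.symm hcon.2.2)]
    norm_num
  have hmult1 : classInner (fun g : G => (Nat.card (MulAction.fixedBy Ω g) : ℂ))
      (ψ₁ : G → ℂ) = 1 := by
    rw [hin3, irr_inner_ne (Ne.symm h10), irr_inner_self, irr_inner_ne (Ne.symm h12)]; norm_num
  have hmult2 : classInner (fun g : G => (Nat.card (MulAction.fixedBy Ω g) : ℂ))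
      (ψ₂ : G → ℂ) = 1 := by
    rw [hin3, irr_inner_ne (Ne.symm h20), irr_inner_ne h12, irr_inner_self]; norm_num
  have hreal1 : ∀ g, starRingEnd ℂ ((ψ₁ : G → ℂ) g) = (ψ₁ : G → ℂ) g := by
    apply real_of_unique (Ω := Ω) ψ₁ (by rw [hmult1]; exact one_ne_zero)
      (fun h => h10 (Subtype.ext h))
    intro ψ' hne hdeg
    rcases hcons ψ' hne with h | h | h
    · right; exact congrArg Subtype.val h
    · left; exact h
    · exfalso
      rw [h, hd₁, hd₂] at hdeg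
      exact one_ne_zero (by linear_combination hdeg : (1 : ℂ) = 0)
  have hreal2 : ∀ g, starRingEnd ℂ ((ψ₂ : G → ℂ) g) = (ψ₂ : G → ℂ) g := by
    apply real_of_unique (Ω := Ω) ψ₂ (by rw [hmult2]; exact one_ne_zero)
      (fun h => h20 (Subtype.ext h))
    intro ψ' hne hdeg
    rcases hcons ψ' hne with h | h | h
    · right; exact congrArg Subtype.val h
    · exfalso
      rw [h, hd₁, hd₂] at hdeg
      exact one_ne_zero (by linear_combination -hdeg : (1 : ℂ) = 0)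
    · left; exact h
  obtain ⟨A, hA⟩ : ∃ A : Matrix Ω Ω ℂ, A = orbMat G a₀ b := ⟨_, rfl⟩
  have hinv : IsGInv G A := hA ▸ orbMat_isGInv G a₀ b
  obtain ⟨k, hk⟩ : ∃ k : ℕ, k = Nat.card (MulAction.orbit (MulAction.stabilizer G a₀) b) :=
    ⟨_, rfl⟩
  rw [← hk]
  have hkpos : 1 ≤ k := by
    haveI : Nonempty (MulAction.orbit (MulAction.stabilizer G a₀) b) :=
      ⟨⟨b, MulAction.mem_orbit_self b⟩⟩
    rw [hk]; exact Nat.card_pos
  have hk1 : k ≠ 1 := by rw [hk]; exact suborbit_ne_one hprim hm hm2 a₀ b hb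
  have hcA0 : cchi A (fun _ : G => (1 : ℂ)) = (k : ℂ) := by
    rw [cchi_one_eq_rowsum hinv a₀, hA, orbMat_rowsum, hk]
  have htrace : ∀ M : Matrix Ω Ω ℂ, M.trace = cchi M (fun _ : G => (1 : ℂ)) +
      ((m : ℂ) - 1) * cchi M (ψ₁ : G → ℂ) + (m : ℂ) * cchi M (ψ₂ : G → ℂ) := by
    intro M
    have hsub : ∑ ψ ∈ ({trivIrr G, ψ₁, ψ₂} : Finset (IrrCharacter G)),
        (ψ : G → ℂ) 1 * cchi M (ψ : G → ℂ) =
        ∑ ψ : IrrCharacter G, (ψ : G → ℂ) 1 * cchi M (ψ : G → ℂ) := by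
      apply Finset.sum_subset (Finset.subset_univ _)
      intro ψ _ hψ
      have h0 : classInner (fun g : G => (Nat.card (MulAction.fixedBy Ω g) : ℂ))
          (ψ : G → ℂ) = 0 := by
        by_contra hne
        apply hψ
        rcases hcons ψ hne with h | h | h <;> rw [h] <;> simp
      have h0' : cchi (1 : Matrix Ω Ω ℂ) (ψ : G → ℂ) = 0 := by
        rw [cchi_one_eq_conj, h0, map_zero]
      rw [cchi_zero_irr ψ.2 h0' M, mul_zero]
    rw [trace_eq_sum_cchi (G := G) M, ← hsub,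
      Finset.sum_insert (by
        rw [Finset.mem_insert, Finset.mem_singleton]
        rintro (h | h)
        · exact h10 h.symm
        · exact h20 h.symm),
      Finset.sum_insert (by rw [Finset.mem_singleton]; exact h12), Finset.sum_singleton,
      hd₁, hd₂]
    show (1 : ℂ) * cchi M (fun _ : G => (1 : ℂ)) +
      (((m : ℂ) - 1) * cchi M (ψ₁ : G → ℂ) + (m : ℂ) * cchi M (ψ₂ : G → ℂ)) = _
    ring
  obtain ⟨s, hs⟩ : ∃ s : ℂ, s = cchi A (ψ₁ : G → ℂ) := ⟨_, rfl⟩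
  obtain ⟨t, ht⟩ : ∃ t : ℂ, t = cchi A (ψ₂ : G → ℂ) := ⟨_, rfl⟩
  have e1 : (k : ℂ) + ((m : ℂ) - 1) * s + (m : ℂ) * t = 0 := by
    have h := htrace A
    rw [hcA0, ← hs, ← ht] at h
    rw [← h, hA]
    exact orbMat_diag G hb
  have hmulA : ∀ ψ : IrrCharacter G,
      classInner (fun g : G => (Nat.card (MulAction.fixedBy Ω g) : ℂ)) (ψ : G → ℂ) = 1 →
      (∀ g, starRingEnd ℂ ((ψ : G → ℂ) g) = (ψ : G → ℂ) g) →
      cchi (A * Aᵀ) (ψ : G → ℂ) = cchi A (ψ : G → ℂ) * cchi A (ψ : G → ℂ) := by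
    intro ψ h1 hreal
    have h1' : cchi (1 : Matrix Ω Ω ℂ) (ψ : G → ℂ) = 1 := by
      rw [cchi_one_eq_conj, h1, map_one]
    have hfun : (fun g : G => (ψ : G → ℂ) g⁻¹) = (ψ : G → ℂ) := by
      funext g; rw [irr_inv, hreal]
    rw [cchi_mul_irr ψ.2 h1' hinv.transpose, cchi_transpose hinv, hfun]
  have htrAA : (A * Aᵀ).trace = (2 * (m : ℂ)) * k := by
    have hAsq : ∀ α β, A α β * A α β = A α β := by
      intro α β
      rw [hA, orbMat_apply]
      split_ifs <;> simp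
    have hrow : ∀ α : Ω, ∑ β, A α β = (k : ℂ) := by
      intro α
      rw [← cchi_one_eq_rowsum hinv α, hcA0]
    have hcardΩ : (Fintype.card Ω : ℂ) = 2 * (m : ℂ) := by rw [hm]; push_cast; ring
    unfold Matrix.trace
    simp only [Matrix.diag_apply, Matrix.mul_apply, Matrix.transpose_apply]
    rw [Finset.sum_congr rfl (fun α _ => Finset.sum_congr rfl (fun β _ => hAsq α β)),
      Finset.sum_congr rfl (fun α _ => hrow α), Finset.sum_const, Finset.card_univ,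
      nsmul_eq_mul, hcardΩ]
  have e2 : (2 * (m : ℂ)) * k = (k : ℂ) * k + ((m : ℂ) - 1) * (s * s) + (m : ℂ) * (t * t) := by
    have h := htrace (A * Aᵀ)
    have hm0 : cchi (A * Aᵀ) (fun _ : G => (1 : ℂ)) =
        cchi A (fun _ : G => (1 : ℂ)) * cchi A (fun _ : G => (1 : ℂ)) :=
      hmulA (trivIrr G) hmult0 (fun g => map_one _)
    rw [htrAA, hm0, hmulA ψ₁ hmult1 hreal1, hmulA ψ₂ hmult2 hreal2, hcA0, ← hs, ← ht] at h
    exact h
  obtain ⟨q, hq⟩ := cchi_perm_rat (G := G) (orbMatZ G a₀ b)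
  have hq' : cchi A (fun g : G => (Nat.card (MulAction.fixedBy Ω g) : ℂ)) = (q : ℂ) := by
    rw [hA]; exact hq
  have hcA0' : cchi A ((trivIrr G : IrrCharacter G) : G → ℂ) = (k : ℂ) := hcA0
  rw [hπ', cchi_add_fun, cchi_add_fun, hcA0', ← hs, ← ht] at hq'
  have hsint : IsIntegral ℤ s := by
    rw [hs, hA]; exact cchi_int_irr ψ₁.2 (orbMatZ G a₀ b) (orbMat_isGInv G a₀ b)
  have htint : IsIntegral ℤ t := by
    rw [ht, hA]; exact cchi_int_irr ψ₂.2 (orbMatZ G a₀ b) (orbMat_isGInv G a₀ b)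
  have hJint : IsIntegral ℤ (((q - (k : ℚ) : ℚ)) : ℂ) := by
    have h : (((q - (k : ℚ) : ℚ)) : ℂ) = s + t := by push_cast; linear_combination -hq'
    rw [h]; exact hsint.add htint
  obtain ⟨J, hJ⟩ := exists_int_of_isIntegral_ratCast hJint
  have eJ : s + t = (J : ℂ) := by
    have h1 : ((J : ℚ) : ℂ) = (((q - (k : ℚ) : ℚ)) : ℂ) := by rw [hJ]
    push_cast at h1
    linear_combination hq' - h1
  have hs' : s = (m : ℂ) * J + k := by linear_combination (-1 : ℂ) * e1 + (m : ℂ) * eJ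
  have ht' : t = -(k : ℂ) - ((m : ℂ) - 1) * J := by
    linear_combination e1 - ((m : ℂ) - 1) * eJ
  rw [hs', ht'] at e2
  have e3 : 2 * (m : ℤ) * (k : ℤ) = (k : ℤ) * k +
      ((m : ℤ) - 1) * (((m : ℤ) * J + k) * ((m : ℤ) * J + k)) +
      (m : ℤ) * ((-(k : ℤ) - ((m : ℤ) - 1) * J) * (-(k : ℤ) - ((m : ℤ) - 1) * J)) := by
    apply Int.cast_injective (α := ℂ)
    push_cast
    linear_combination e2
  have hmZ : (2 : ℤ) ≤ (m : ℤ) := by exact_mod_cast hm2
  have hkZ : (1 : ℤ) ≤ (k : ℤ) := by exact_mod_cast hkpos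
  have hE : 2 * ((k : ℤ) * k) + 4 * ((m : ℤ) - 1) * J * k +
      ((m : ℤ) - 1) * (2 * (m : ℤ) - 1) * (J * J) - 2 * (k : ℤ) = 0 := by
    have h : (m : ℤ) * (2 * ((k : ℤ) * k) + 4 * ((m : ℤ) - 1) * J * k +
        ((m : ℤ) - 1) * (2 * (m : ℤ) - 1) * (J * J) - 2 * (k : ℤ)) = 0 := by
      linear_combination (-1 : ℤ) * e3
    rcases mul_eq_zero.mp h with h0 | h0
    · omega
    · exact h0
  have hE2 : (2 * (k : ℤ) + 2 * ((m : ℤ) - 1) * J - 1) *
      (2 * (k : ℤ) + 2 * ((m : ℤ) - 1) * J - 1) =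
      1 - 2 * (((m : ℤ) - 1) * (J * (J + 2))) := by
    linear_combination 2 * hE
  have hP : J * (J + 2) ≤ 0 := by
    by_contra hcon
    push_neg at hcon
    have h1 : (1 : ℤ) ≤ J * (J + 2) := by
      have := Int.add_one_le_iff.mpr hcon
      linarith
    have h3 : ((m : ℤ) - 1) * 1 ≤ ((m : ℤ) - 1) * (J * (J + 2)) :=
      mul_le_mul_of_nonneg_left h1 (by linarith)
    nlinarith [mul_self_nonneg (2 * (k : ℤ) + 2 * ((m : ℤ) - 1) * J - 1)]
  have hJ1 : -2 ≤ J := by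
    by_contra hcon
    push_neg at hcon
    nlinarith
  have hJ2 : J ≤ 0 := by
    by_contra hcon
    push_neg at hcon
    nlinarith
  have hΩ : Nat.card Ω = 2 * m := by rw [Nat.card_eq_fintype_card, hm]
  interval_cases J
  · exfalso
    have h : 2 * (((k : ℤ) - (2 * (m : ℤ) - 1)) * ((k : ℤ) - (2 * (m : ℤ) - 2))) = 0 := by
      linear_combination hE
    obtain ⟨b', hb', hdec⟩ := rank3_decomp a₀ hrank b hb
    rw [← hk, hΩ] at hdec
    have hk'1 := suborbit_ne_one hprim hm hm2 a₀ b' hb'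
    have hk'pos : 1 ≤ Nat.card (MulAction.orbit (MulAction.stabilizer G a₀) b') := by
      haveI : Nonempty (MulAction.orbit (MulAction.stabilizer G a₀) b') :=
        ⟨⟨b', MulAction.mem_orbit_self b'⟩⟩
      exact Nat.card_pos
    have h' : ((k : ℤ) - (2 * (m : ℤ) - 1)) * ((k : ℤ) - (2 * (m : ℤ) - 2)) = 0 := by
      linarith
    rcases mul_eq_zero.mp h' with h0 | h0 <;> omega
  · have hz : (2 * (k : ℤ) - 2 * (m : ℤ) + 1) * (2 * (k : ℤ) - 2 * (m : ℤ) + 1) =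
        2 * (m : ℤ) - 1 := by linear_combination 2 * hE
    obtain ⟨w, hw⟩ : ∃ w : ℕ, w = (2 * (k : ℤ) - 2 * (m : ℤ) + 1).natAbs := ⟨_, rfl⟩
    have h1 := Int.natAbs_mul_self' (2 * (k : ℤ) - 2 * (m : ℤ) + 1)
    rw [hz, ← hw] at h1
    have h3 := Int.natAbs_eq (2 * (k : ℤ) - 2 * (m : ℤ) + 1)
    rw [← hw] at h3
    refine ⟨w, by zify; linarith, ?_⟩
    rcases h3 with h3 | h3
    · left; zify; linarith
    · right; zify; linarith
  · exfalso
    have h : 2 * ((k : ℤ) * ((k : ℤ) - 1)) = 0 := by linear_combination hE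
    have h' : (k : ℤ) * ((k : ℤ) - 1) = 0 := by linarith
    rcases mul_eq_zero.mp h' with h0 | h0 <;> omega

/-- Groups of Wielandt type: if a primitive group of degree `2m` has rank 3 and permutation character `1 + χ₁ + χ₂` with irreducible `χ₁, χ₂` of degrees `m - 1` and `m`, then `m = 2a² + 2a + 1` for some positive integer `a` and the two non-trivial subdegrees are `a(2a+1)` and `(a+1)(2a+1)`. -/
theorem result {G : Type*} [Group G] [Fintype G] {Ω : Type*} [Fintype Ω] [MulAction G Ω] (hprim : MulAction.IsPreprimitive G Ω) {m : ℕ} (hm : Fintype.card Ω = 2 * m) (a₀ : Ω) (hrank : Nat.card (MulAction.orbitRel.Quotient (MulAction.stabilizer G a₀) Ω) = 3) (χ₁ χ₂ : G → ℂ) (h₁ : Cfsg.IsIrrCharacter G χ₁) (h₂ : Cfsg.IsIrrCharacter G χ₂) (hπ : (fun g : G => (Nat.card (MulAction.fixedBy Ω g) : ℂ)) = fun g => 1 + χ₁ g + χ₂ g) (hd₁ : χ₁ 1 = (m : ℂ) - 1) (hd₂ : χ₂ 1 = m) : ∃ a : ℕ, 0 < a ∧ m = 2 * a ^ 2 + 2 * a +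 1 ∧ ∀ b : Ω, b ≠ a₀ → Nat.card (MulAction.orbit (MulAction.stabilizer G a₀) b) = a * (2 * a + 1) ∨ Nat.card (MulAction.orbit (MulAction.stabilizer G a₀) b) = (a + 1) * (2 * a + 1) := by
  classical
  haveI := hprim.toIsPretransitive
  have hm2 : 2 ≤ m := by
    obtain ⟨n, hn, hn1⟩ := irr_one_eq_natCast_pos (⟨χ₁, h₁⟩ : IrrCharacter G)
    have hn1' : χ₁ 1 = (n : ℂ) := hn1
    have h : ((n + 1 : ℕ) : ℂ) = (m : ℂ) := by
      push_cast; rw [← hn1', hd₁]; ring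
    have h' : n + 1 = m := by exact_mod_cast h
    omega
  obtain ⟨b₀, hb₀⟩ : ∃ b : Ω, b ≠ a₀ := Fintype.exists_ne_of_one_lt_card (by omega) a₀
  obtain ⟨w, hw, -⟩ := core hprim hm hm2 a₀ hrank ⟨χ₁, h₁⟩ ⟨χ₂, h₂⟩ hπ hd₁ hd₂ b₀ hb₀
  obtain ⟨a, ha⟩ : ∃ a, w = 2 * a + 1 := by
    rcases Nat.even_or_odd' w with ⟨a, ha | ha⟩
    · exfalso
      rw [ha] at hw
      have h : 2 * (2 * a * a) + 1 = 2 * m := by rw [← hw]; ring
      obtain ⟨X, hX⟩ : ∃ X, X = 2 * a * a := ⟨_, rfl⟩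
      rw [← hX] at h
      omega
    · exact ⟨a, ha⟩
  rw [ha] at hw
  have hma : m = 2 * a ^ 2 + 2 * a + 1 := by
    have h : 2 * m = 2 * (2 * a ^ 2 + 2 * a + 1) := by rw [← hw]; ring
    exact Nat.eq_of_mul_eq_mul_left (by norm_num) h
  refine ⟨a, ?_, hma, fun b hb => ?_⟩
  · by_contra h0
    have h1 : a = 0 := by omega
    rw [h1] at hma
    norm_num at hma
    omega
  · obtain ⟨w', hw', hk⟩ := core hprim hm hm2 a₀ hrank ⟨χ₁, h₁⟩ ⟨χ₂, h₂⟩ hπ hd₁ hd₂ b hb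
    have hww : w' = 2 * a + 1 := Nat.mul_self_inj.mp (Nat.add_right_cancel (hw'.trans hw.symm))
    rw [hww] at hk
    rcases hk with hk | hk
    · right
      have h : 2 * Nat.card (MulAction.orbit (MulAction.stabilizer G a₀) b) =
          2 * ((a + 1) * (2 * a + 1)) := by rw [hk]; ring
      exact Nat.eq_of_mul_eq_mul_left (by norm_num) h
    · left
      have h : 2 * Nat.card (MulAction.orbit (MulAction.stabilizer G a₀) b) + (2 * a + 1) =
          2 * (a * (2 * a + 1)) + (2 * a + 1) := by rw [hk]; ring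
      exact Nat.eq_of_mul_eq_mul_left (by norm_num) (Nat.add_right_cancel h)

end Cfsg.Agent.S0719
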