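import Mathlib
import Cfsg.Statements.S0724

set_option autoImplicit false
open Cfsg

namespace Cfsg.Agent.S0724

open Polynomial

/-- Blichfeldt's Theorem: if a finite set `L` of natural numbers contains the number of fixed points of every non-identity element of a permutation group `G` of degree `n`, then the order of `G` divides `∏ (n - l)` over `l ∈ L`. -/
theorem result {α : Type*} [Fintype α] [DecidableEq α] (G : Subgroup (Equiv.Perm α)) (L : Finset ℕ) (hL : ∀ g ∈ G, g ≠ 1 → Nat.card (MulAction.fixedBy α g) ∈ L) : Nat.card G ∣ ∏ l ∈ L, (Fintype.card α - l) := by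
  classical
  set n := Fintype.card α with hn
  let π : Equiv.Perm α → ℕ := fun g => Nat.card (MulAction.fixedBy α g)
  haveI : Fintype G := Fintype.ofFinite G
  -- Burnside's lemma on tuples
  have keyA : ∀ k : ℕ, (Nat.card G) ∣ ∑ g : G, π (g : Equiv.Perm α) ^ k := by
    intro k
    haveI : Fintype (MulAction.orbitRel.Quotient G (Fin k → α)) := Fintype.ofFinite _
    have hB := MulAction.sum_card_fixedBy_eq_card_orbits_mul_card_group G (Fin k → α)
    have hterm : ∀ g : G, Fintype.card (MulAction.fixedBy (Fin k → α) g) =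
        π (g : Equiv.Perm α) ^ k := by
      intro g
      rw [← Nat.card_eq_fintype_card]
      have e : MulAction.fixedBy (Fin k → α) g ≃ (Fin k → MulAction.fixedBy α (g : Equiv.Perm α)) :=
        { toFun := fun f i => ⟨f.1 i, congrFun f.2 i⟩
          invFun := fun f => ⟨fun i => (f i).1, funext fun i => (f i).2⟩
          left_inv := fun f => rfl
          right_inv := fun f => rfl }
      rw [Nat.card_congr e, Nat.card_fun, Nat.card_fin]
    rw [Finset.sum_congr rfl (fun g _ => hterm g)] at hB
    rw [hB, Nat.card_eq_fintype_card]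
    exact Dvd.intro_left _ rfl
  -- the polynomial
  set P : ℤ[X] := ∏ l ∈ L, (X - C (l : ℤ)) with hP
  have hdiv : (Nat.card G : ℤ) ∣ ∑ g : G, P.eval (π (g : Equiv.Perm α) : ℤ) := by
    have h1 : ∀ g : G, P.eval (π (g : Equiv.Perm α) : ℤ) =
        ∑ i ∈ Finset.range (P.natDegree + 1), P.coeff i * (π (g : Equiv.Perm α) : ℤ) ^ i :=
      fun g => Polynomial.eval_eq_sum_range _
    rw [Finset.sum_congr rfl (fun g _ => h1 g), Finset.sum_comm]
    apply Finset.dvd_sum
    intro i _
    rw [← Finset.mul_sum]
    apply Dvd.dvd.mul_left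
    have := keyA i
    have h2 : ((∑ g : G, π (g : Equiv.Perm α) ^ i : ℕ) : ℤ) =
        ∑ g : G, (π (g : Equiv.Perm α) : ℤ) ^ i := by
      push_cast; rfl
    rw [← h2]
    exact Int.natCast_dvd_natCast.mpr this
  have hsum : ∑ g : G, P.eval (π (g : Equiv.Perm α) : ℤ) = ∏ l ∈ L, ((n : ℤ) - (l : ℤ)) := by
    rw [Finset.sum_eq_single (1 : G)]
    · have h1 : π ((1 : G) : Equiv.Perm α) = n := by
        change Nat.card (MulAction.fixedBy α (1 : Equiv.Perm α)) = n
        have : MulAction.fixedBy α (1 : Equiv.Perm α) = Set.univ := by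
          ext x; simp [MulAction.mem_fixedBy]
        rw [this, Nat.card_congr (Equiv.Set.univ α), Nat.card_eq_fintype_card]
      rw [h1, hP, Polynomial.eval_prod]
      apply Finset.prod_congr rfl
      intro l _
      simp
    · intro g _ hg
      have hg1 : (g : Equiv.Perm α) ≠ 1 := by
        intro h
        apply hg
        exact Subtype.ext h
      have hmem := hL g g.2 hg1
      rw [hP, Polynomial.eval_prod]
      apply Finset.prod_eq_zero hmem
      simp [π]
    · intro h
      exact absurd (Finset.mem_univ _) h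
  rw [hsum] at hdiv
  by_cases hle : ∀ l ∈ L, l ≤ n
  · have hcast : ((∏ l ∈ L, (n - l) : ℕ) : ℤ) = ∏ l ∈ L, ((n : ℤ) - (l : ℤ)) := by
      rw [Nat.cast_prod]
      apply Finset.prod_congr rfl
      intro l hl
      rw [Nat.cast_sub (hle l hl)]
    rw [← hcast] at hdiv
    exact Int.natCast_dvd_natCast.mp hdiv
  · push_neg at hle
    obtain ⟨l, hl, hnl⟩ := hle
    have : ∏ l ∈ L, (n - l) = 0 := Finset.prod_eq_zero hl (by omega)
    rw [this]
    exact dvd_zero _

end Cfsg.Agent.S0724
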