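import Cfsg.Statements.S0726

set_option autoImplicit false
open Cfsg

namespace Cfsg.Agent.S0726

/-- The left and right regular permutation representations of a group are each other's centralisers in the symmetric group: the centraliser of the left regular image is the right regular image, and a transitive subgroup centralising the left regular image is the whole right regular image. -/
theorem result {G : Type*} [Group G] : Subgroup.centralizer ((MulAction.toPermHom G G).range : Set (Equiv.Perm G)) = (MulAction.toPermHom Gᵐᵒᵖ G).range ∧ ∀ H : Subgroup (Equiv.Perm G), H ≤ Subgroup.centralizer ((MulAction.toPermHom G G).range : Set (Equiv.Perm G)) → MulAction.IsPretransitive H G → H = (MulAction.toPermHom Gᵐᵒᵖ G).range := by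
  -- key: an element of the centralizer is right multiplication by its value at 1
  have key : ∀ c : Equiv.Perm G,
      c ∈ Subgroup.centralizer ((MulAction.toPermHom G G).range : Set (Equiv.Perm G)) →
      c = MulAction.toPermHom Gᵐᵒᵖ G (MulOpposite.op (c 1)) := by
    intro c hc
    rw [Subgroup.mem_centralizer_iff] at hc
    ext g
    have h := hc (MulAction.toPermHom G G g) ⟨g, rfl⟩
    have h' := congrArg (fun σ : Equiv.Perm G => σ 1) h
    simp only [Equiv.Perm.coe_mul, Function.comp_apply, MulAction.toPermHom_apply,
      MulAction.toPerm_apply, smul_eq_mul, mul_one] at h'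
    simp only [MulAction.toPermHom_apply, MulAction.toPerm_apply, MulOpposite.smul_eq_mul_unop,
      MulOpposite.unop_op]
    exact h'.symm
  have hC : Subgroup.centralizer ((MulAction.toPermHom G G).range : Set (Equiv.Perm G)) =
      (MulAction.toPermHom Gᵐᵒᵖ G).range := by
    apply le_antisymm
    · intro c hc
      exact ⟨MulOpposite.op (c 1), (key c hc).symm⟩
    · rintro c ⟨x, rfl⟩
      rw [Subgroup.mem_centralizer_iff]
      rintro _ ⟨g, rfl⟩
      ext y
      simp only [Equiv.Perm.coe_mul, Function.comp_apply, MulAction.toPermHom_apply,
        MulAction.toPerm_apply, smul_eq_mul, MulOpposite.smul_eq_mul_unop, mul_assoc]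
  refine ⟨hC, ?_⟩
  intro H hH htrans
  apply le_antisymm
  · rw [← hC]; exact hH
  · rintro c ⟨x, rfl⟩
    obtain ⟨h, hh⟩ := htrans.exists_smul_eq (1 : G) (MulOpposite.unop x)
    have hk := key (h : Equiv.Perm G) (hH h.2)
    have h1 : (h : Equiv.Perm G) 1 = MulOpposite.unop x := hh
    rw [h1, MulOpposite.op_unop] at hk
    rw [← hk]
    exact h.2

end Cfsg.Agent.S0726
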