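import Mathlib
import Cfsg.Statements.S0727
import Cfsg.Agent.Helper6.Sharp3c

set_option autoImplicit false
open Cfsg

namespace Cfsg.Agent.S0727

/-- A sharply triply transitive permutation group of degree `2^f + 1` is isomorphic to the projective general linear group of degree 2 over the field with `2^f` elements. -/
theorem result {α : Type*} [Fintype α] [DecidableEq α] {f : ℕ} (hf : 1 ≤ f) (hα : Fintype.card α = 2 ^ f + 1) (G : Subgroup (Equiv.Perm α)) (h3 : MulAction.IsMultiplyPretransitive G α 3) (hsharp : ∀ x : Fin 3 ↪ α, MulAction.stabilizer G x = ⊥) : ∃ (F : Type) (_ : Field F) (_ : Fintype F), Fintype.card F = 2 ^ f ∧ Nonempty (G ≃* Matrix.ProjGenLinGroup (Fin 2) F) := by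
  classical
  have hm : 3 ≤ Fintype.card α := by
    rw [hα]
    have : 2 ^ 1 ≤ 2 ^ f := Nat.pow_le_pow_right (by norm_num) hf
    omega
  have hodd : Odd (Fintype.card α) := by
    rw [hα]
    exact Even.add_one (Nat.even_pow.mpr ⟨even_two, by omega⟩)
  have hs : ∀ g : G, ∀ a b c : α, a ≠ b → b ≠ c → a ≠ c → g • a = a → g • b = b → g • c = c →
      g = 1 := by
    intro g a b c hab hbc hac ha hb hc
    have hmem : g ∈ MulAction.stabilizer G
        (⟨![a, b, c], Cfsg.Agent.Helper1.ProjLine.inj3 a b c hab hac hbc⟩ : Fin 3 ↪ α) := by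
      rw [MulAction.mem_stabilizer_iff]
      ext i
      fin_cases i
      · exact ha
      · exact hb
      · exact hc
    rw [hsharp] at hmem
    exact Subgroup.mem_bot.mp hmem
  obtain ⟨a, ha, hcard, F, iF, iF', hFc, ⟨e⟩⟩ := Cfsg.Agent.Helper6.Sharp3.of_perm G hm hodd h3 hs
  have haf : a = f := by
    rw [hα] at hcard
    exact (Nat.pow_right_injective (le_refl 2) (by omega : 2 ^ f = 2 ^ a)).symm
  subst haf
  letI : Field F := iF
  letI : Fintype F := iF'
  have h2F : (2 : F) = 0 := by
    have h := FiniteField.cast_card_eq_zero F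
    rw [hFc, Nat.cast_pow] at h
    have h' := (pow_eq_zero_iff (by omega)).mp h
    exact_mod_cast h'
  haveI : CharP F 2 := CharTwo.of_one_ne_zero_of_two_eq_zero one_ne_zero h2F
  have hchar : ringChar F = 2 := ringChar.eq F 2
  obtain ⟨e'⟩ := Cfsg.Agent.Helper6.Sharp3.sl2_equiv_pgl2 hchar
  exact ⟨F, iF, iF', hFc, ⟨e.trans e'⟩⟩

end Cfsg.Agent.S0727
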