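import Mathlib
import Cfsg.Statements.S0730
import Cfsg.Agent.Helper6.Sharp3g
import Cfsg.Agent.Helper1.ProjLine

set_option autoImplicit false
open Cfsg

namespace Cfsg.Agent.S0730

/-- A sharply triply transitive group of degree `p^f + 1`, `p` an odd prime and `f` odd, is isomorphic to the projective general linear group of degree 2 over the field with `p^f` elements (for even `f` there is a second, twisted, group). -/
theorem result {α : Type*} [Fintype α] [DecidableEq α] {p f : ℕ} (hp : p.Prime) (hp2 : p ≠ 2) (hfo : Odd f) (hα : Fintype.card α = p ^ f + 1) (G : Subgroup (Equiv.Perm α)) (h3 : MulAction.IsMultiplyPretransitive G α 3) (hsharp : ∀ x : Fin 3 ↪ α, MulAction.stabilizer G x = ⊥) : ∃ (F : Type) (_ : Field F) (_ : Fintype F), Fintype.card F = p ^ f ∧ Nonempty (G ≃* Matrix.ProjGenLinGroup (Fin 2) F) := by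
  classical
  have hpodd : Odd p := hp.odd_of_ne_two hp2
  have hq : 3 ≤ p ^ f := by
    have hf0 : f ≠ 0 := by
      rintro rfl
      exact absurd hfo (by decide)
    have h1 : p ^ 1 ≤ p ^ f := Nat.pow_le_pow_right hp.pos (by omega)
    have h2 : 3 ≤ p := by
      have := hp.two_le
      omega
    rw [pow_one] at h1
    omega
  have hm : 3 ≤ Fintype.card α := by
    rw [hα]
    omega
  have hs : ∀ g : G, ∀ a b c : α, a ≠ b → b ≠ c → a ≠ c → g • a = a → g • b = b → g • c = c →
      g = 1 := by
    intro g a b c hab hbc hac ha hb hc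
    have hmem : g ∈ MulAction.stabilizer G
        (⟨![a, b, c], Cfsg.Agent.Helper1.ProjLine.inj3 a b c hab hac hbc⟩ : Fin 3 ↪ α) := by
      rw [MulAction.mem_stabilizer_iff]
      ext i
      fin_cases i
      · exact ha
      · exact hb
      · exact hc
    rw [hsharp] at hmem
    exact Subgroup.mem_bot.mp hmem
  obtain ⟨o, z, e, hoz, hoe, hze⟩ := Fintype.two_lt_card_iff.mp hm
  have hyp : Cfsg.Agent.Helper6.Sharp3o.HypO G α o z e :=
    ⟨hoz, hoe, hze, by rw [Nat.card_eq_fintype_card, hα]; exact (Odd.pow hpodd).add_one,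
      fun a b c a' b' c' h1 h2 h3' h4 h5 h6 =>
        Cfsg.Agent.Helper1.ProjLine.exists_of_pretrans h3 a b c a' b' c' h1 h2 h3' h4 h5 h6,
      hs⟩
  exact Cfsg.Agent.Helper6.Sharp3o.main_odd hyp hp hp2 hfo (by rw [Nat.card_eq_fintype_card, hα])

end Cfsg.Agent.S0730
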