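import Mathlib
import Cfsg.Statements.S0733

set_option autoImplicit false
open Cfsg

namespace Cfsg.Agent.S0733

open scoped Pointwise in
/-- A permutation group of affine type — generated by the translations of a finite vector space `V` over `ZMod p` together with a group `G₀` of linear automorphisms — is primitive on `V` if and only if `G₀` is irreducible on `V`. -/
theorem result {p : ℕ} [Fact p.Prime] {V : Type*} [AddCommGroup V] [Module (ZMod p) V] [Finite V] [Nontrivial V] (G₀ : Subgroup (V ≃ₗ[ZMod p] V)) (G : Subgroup (Equiv.Perm V)) (hG : ∀ σ : Equiv.Perm V, σ ∈ G ↔ ∃ g ∈ G₀, ∃ b : V, ∀ x : V, σ x = (g : V ≃ₗ[ZMod p] V) x + b) : MulAction.IsPreprimitive G V ↔ ∀ W : Submodule (ZMod p) V, (∀ g ∈ G₀, ∀ v ∈ W, (g : V ≃ₗ[ZMod p] V) v ∈ W) → W = ⊥ ∨ W = ⊤ := by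
  classical
  have htrans : ∀ b : V, Equiv.addRight b ∈ G := by
    intro b
    rw [hG]
    exact ⟨1, G₀.one_mem, b, fun x => rfl⟩
  constructor
  · intro hprim W hW
    have hblock : MulAction.IsBlock G (W : Set V) := by
      rw [MulAction.isBlock_iff_smul_eq_of_mem]
      intro σ a ha hσa
      obtain ⟨g, hg, b, hgb⟩ := (hG σ.1).mp σ.2
      have hσ : ∀ x : V, σ • x = g x + b := fun x => hgb x
      have hgi : ∀ z : V, g ((g⁻¹ : V ≃ₗ[ZMod p] V) z) = z := fun z => by
        rw [← LinearEquiv.mul_apply, mul_inv_cancel]; rfl
      have hb : b ∈ W := by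
        have h1 : g a + b ∈ W := by rw [← hσ]; exact hσa
        have h2 : g a ∈ W := hW g hg a ha
        have h3 := W.sub_mem h1 h2
        have e : g a + b - g a = b := by abel
        rwa [e] at h3
      ext y
      rw [Set.mem_smul_set_iff_inv_smul_mem]
      constructor
      · intro hy
        have h1 : y = g (σ⁻¹ • y) + b := by rw [← hσ, smul_inv_smul]
        rw [h1]
        exact W.add_mem (hW g hg _ hy) hb
      · intro hy
        have h1 : σ⁻¹ • y = (g⁻¹ : V ≃ₗ[ZMod p] V) (y - b) := by
          rw [inv_smul_eq_iff, hσ, hgi]
          abel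
        show σ⁻¹ • y ∈ W
        rw [h1]
        exact hW g⁻¹ (G₀.inv_mem hg) _ (W.sub_mem hy hb)
    rcases hprim.isTrivialBlock_of_isBlock hblock with hsub | huniv
    · left
      rw [eq_bot_iff]
      intro w hw
      rw [Submodule.mem_bot]
      exact hsub hw W.zero_mem
    · right
      rw [eq_top_iff]
      intro w _
      have : w ∈ (W : Set V) := huniv ▸ Set.mem_univ w
      exact this
  · intro hirr
    refine { toIsPretransitive := ⟨fun x y => ?_⟩, isTrivialBlock_of_isBlock := ?_ }
    · refine ⟨⟨Equiv.addRight (y - x), htrans _⟩, ?_⟩
      show x + (y - x) = y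
      abel
    · intro B hB
      by_cases hsub : B.Subsingleton
      · left; exact hsub
      · right
        rw [Set.not_subsingleton_iff] at hsub
        obtain ⟨a, ha, a', ha', haa'⟩ := hsub
        have hB' := MulAction.isBlock_iff_smul_eq_of_mem.mp hB
        have hkey : ∀ σ : Equiv.Perm V, σ ∈ G → ∀ c ∈ B, σ c ∈ B → ∀ x ∈ B, σ x ∈ B := by
          intro σ hσ c hc hσc x hx
          have h1 := @hB' ⟨σ, hσ⟩ c hc hσc
          have h3 : (⟨σ, hσ⟩ : G) • x ∈ (⟨σ, hσ⟩ : G) • B := Set.smul_mem_smul_set hx
          rw [h1] at h3
          exact h3
        have hadd : ∀ x ∈ B, ∀ y ∈ B, x + y - a ∈ B := by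
          intro x hx y hy
          have h2 : x + (y - a) ∈ B :=
            hkey (Equiv.addRight (y - a)) (htrans _) a ha
              (by show a + (y - a) ∈ B
                  have e : a + (y - a) = y := by abel
                  rw [e]; exact hy) x hx
          have e : x + (y - a) = x + y - a := by abel
          rwa [e] at h2
        have hneg : ∀ y ∈ B, a + a - y ∈ B := by
          intro y hy
          have h2 : a + (a - y) ∈ B :=
            hkey (Equiv.addRight (a - y)) (htrans _) y hy
              (by show y + (a - y) ∈ B
                  have e : y + (a - y) = a := by abel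
                  rw [e]; exact ha) a ha
          have e : a + (a - y) = a + a - y := by abel
          rwa [e] at h2
        let W₀ : AddSubgroup V :=
          { carrier := {v | v + a ∈ B}
            add_mem' := by
              intro u v hu hv
              have h1 := hadd _ hu _ hv
              show u + v + a ∈ B
              have e : u + a + (v + a) - a = u + v + a := by abel
              rwa [e] at h1
            zero_mem' := by
              show 0 + a ∈ B
              rw [zero_add]; exact ha
            neg_mem' := by
              intro u hu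
              have h1 := hneg _ hu
              show -u + a ∈ B
              have e : a + a - (u + a) = -u + a := by abel
              rwa [e] at h1 }
        have hWmem : ∀ v, v ∈ AddSubgroup.toZModSubmodule p W₀ ↔ v + a ∈ B := fun v => Iff.rfl
        have hinv : ∀ g ∈ G₀, ∀ v ∈ AddSubgroup.toZModSubmodule p W₀,
            (g : V ≃ₗ[ZMod p] V) v ∈ AddSubgroup.toZModSubmodule p W₀ := by
          intro g hg v hv
          rw [hWmem] at hv ⊢
          have hσ : (g.toEquiv.trans (Equiv.addRight (a - g a))) ∈ G := by
            rw [hG]; exact ⟨g, hg, a - g a, fun x => rfl⟩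
          have h2 : g (v + a) + (a - g a) ∈ B :=
            hkey _ hσ a ha
              (by show g a + (a - g a) ∈ B
                  have e : g a + (a - g a) = a := by abel
                  rw [e]; exact ha) (v + a) hv
          rw [map_add] at h2
          have e : g v + g a + (a - g a) = g v + a := by abel
          rwa [e] at h2
        rcases hirr _ hinv with hbot | htop
        · exfalso
          apply haa'
          have h1 : a' - a ∈ AddSubgroup.toZModSubmodule p W₀ := by
            rw [hWmem, sub_add_cancel]; exact ha'
          rw [hbot, Submodule.mem_bot, sub_eq_zero] at h1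
          exact h1.symm
        · apply Set.eq_univ_of_forall
          intro x
          have h1 : x - a ∈ AddSubgroup.toZModSubmodule p W₀ := htop ▸ Submodule.mem_top
          rw [hWmem, sub_add_cancel] at h1
          exact h1

end Cfsg.Agent.S0733
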