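import Mathlib
import Cfsg.Statements.S0734

set_option autoImplicit false
open Cfsg

namespace Cfsg.Agent.S0734

/-- Higman's criterion for primitivity: a transitive action on a finite set is primitive if and only if every non-trivial orbital graph (edges = images of a fixed pair of distinct points) is connected. -/
theorem result {G : Type*} [Group G] {Ω : Type*} [Finite Ω] [MulAction G Ω] [MulAction.IsPretransitive G Ω] [Nontrivial Ω] : MulAction.IsPreprimitive G Ω ↔ ∀ a b : Ω, a ≠ b → (SimpleGraph.fromRel fun x y : Ω => ∃ g : G, g • a = x ∧ g • b = y).Connected := by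
  constructor
  · intro hprim a b hab
    have hadj : ∀ (g : G) (x y : Ω),
        (SimpleGraph.fromRel fun x y : Ω => ∃ g : G, g • a = x ∧ g • b = y).Adj x y →
        (SimpleGraph.fromRel fun x y : Ω => ∃ g : G, g • a = x ∧ g • b = y).Adj (g • x) (g • y) := by
      intro g x y hxy
      rw [SimpleGraph.fromRel_adj] at hxy ⊢
      obtain ⟨hne, h⟩ := hxy
      refine ⟨fun h => hne (smul_left_cancel g h), ?_⟩
      rcases h with ⟨k, hk1, hk2⟩ | ⟨k, hk1, hk2⟩
      · left; exact ⟨g * k, by rw [mul_smul, hk1], by rw [mul_smul, hk2]⟩
      · right; exact ⟨g * k, by rw [mul_smul, hk1], by rw [mul_smul, hk2]⟩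
    have hreach : ∀ (g : G) (x y : Ω),
        (SimpleGraph.fromRel fun x y : Ω => ∃ g : G, g • a = x ∧ g • b = y).Reachable x y →
        (SimpleGraph.fromRel fun x y : Ω => ∃ g : G, g • a = x ∧ g • b = y).Reachable
          (g • x) (g • y) := by
      intro g x y hxy
      rw [SimpleGraph.reachable_iff_reflTransGen] at hxy ⊢
      induction hxy with
      | refl => exact Relation.ReflTransGen.refl
      | tail _ h2 ih => exact Relation.ReflTransGen.tail ih (hadj g _ _ h2)
    have hblock : MulAction.IsBlock G
        {x | (SimpleGraph.fromRel fun x y : Ω => ∃ g : G, g • a = x ∧ g • b = y).Reachable a x} := by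
      rw [MulAction.isBlock_iff_smul_eq_of_mem]
      intro g x hx hgx
      have h1 : (SimpleGraph.fromRel fun x y : Ω => ∃ g : G, g • a = x ∧ g • b = y).Reachable
          a (g • a) := SimpleGraph.Reachable.trans hgx (hreach g a x hx).symm
      ext y
      constructor
      · rintro ⟨z, hz, rfl⟩
        exact h1.trans (hreach g a z hz)
      · intro hy
        refine ⟨g⁻¹ • y, ?_, smul_inv_smul g y⟩
        have h2 := hreach g⁻¹ (g • a) y (h1.symm.trans hy)
        rwa [inv_smul_smul] at h2
    have htriv := hprim.isTrivialBlock_of_isBlock hblock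
    have hab' : (SimpleGraph.fromRel fun x y : Ω => ∃ g : G, g • a = x ∧ g • b = y).Adj a b := by
      rw [SimpleGraph.fromRel_adj]
      exact ⟨hab, Or.inl ⟨1, one_smul _ _, one_smul _ _⟩⟩
    rw [SimpleGraph.connected_iff_exists_forall_reachable]
    refine ⟨a, fun w => ?_⟩
    rcases htriv with hsub | huniv
    · exfalso
      exact hab (hsub (SimpleGraph.Reachable.refl a) hab'.reachable)
    · have : w ∈ {x | (SimpleGraph.fromRel fun x y : Ω =>
          ∃ g : G, g • a = x ∧ g • b = y).Reachable a x} := huniv ▸ Set.mem_univ w
      exact this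
  · intro hconn
    refine { toIsPretransitive := inferInstance, isTrivialBlock_of_isBlock := ?_ }
    intro B hB
    by_cases hsub : B.Subsingleton
    · left; exact hsub
    · right
      rw [Set.not_subsingleton_iff] at hsub
      obtain ⟨a, ha, b, hb, hab⟩ := hsub
      have hB' := MulAction.isBlock_iff_smul_eq_of_mem.mp hB
      apply Set.eq_univ_of_forall
      intro x
      have hr := (hconn a b hab).preconnected a x
      rw [SimpleGraph.reachable_iff_reflTransGen] at hr
      induction hr with
      | refl => exact ha
      | tail _ h2 ih =>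
        rw [SimpleGraph.fromRel_adj] at h2
        obtain ⟨-, ⟨g, hg1, hg2⟩ | ⟨g, hg1, hg2⟩⟩ := h2
        · have hgB := hB' ha (hg1 ▸ ih)
          rw [← hg2, ← hgB]
          exact Set.smul_mem_smul_set hb
        · have hgB := hB' hb (hg2 ▸ ih)
          rw [← hg1, ← hgB]
          exact Set.smul_mem_smul_set ha

end Cfsg.Agent.S0734
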