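import Mathlib
import Cfsg.Statements.S0735

set_option autoImplicit false
open Cfsg

namespace Cfsg.Agent.S0735

open scoped Pointwise in
theorem hom2 {α : Type*} [Fintype α] [DecidableEq α] (G : Subgroup (Equiv.Perm α))
    (h2 : MulAction.IsPretransitive G (Set.powersetCard α 2)) (x y x' y' : α) (hxy : x ≠ y)
    (hxy' : x' ≠ y') :
    ∃ g : G, (g • x = x' ∧ g • y = y') ∨ (g • x = y' ∧ g • y = x') := by
  obtain ⟨g, hg⟩ := h2.exists_smul_eq (⟨{x, y}, Finset.card_pair hxy⟩ : Set.powersetCard α 2)
    (⟨{x', y'}, Finset.card_pair hxy'⟩ : Set.powersetCard α 2)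
  have hg' : (g : Equiv.Perm α) • ({x, y} : Finset α) = {x', y'} := congrArg Subtype.val hg
  have h1 : (g : Equiv.Perm α) • x ∈ ({x', y'} : Finset α) := by
    rw [← hg']; exact Finset.smul_mem_smul_finset (by simp)
  have h2' : (g : Equiv.Perm α) • y ∈ ({x', y'} : Finset α) := by
    rw [← hg']; exact Finset.smul_mem_smul_finset (by simp)
  have hne : g • x ≠ g • y := fun h => hxy (smul_left_cancel g h)
  refine ⟨g, ?_⟩
  simp only [Finset.mem_insert, Finset.mem_singleton] at h1 h2'
  rcases h1 with h1 | h1 <;> rcases h2' with h2' | h2'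
  · exact absurd (h1.trans h2'.symm) hne
  · left; exact ⟨h1, h2'⟩
  · right; exact ⟨h1, h2'⟩
  · exact absurd (h1.trans h2'.symm) hne

/-- A 2-homogeneous permutation group (transitive on 2-subsets) of even order is doubly transitive; a non-trivial 2-homogeneous group is primitive. -/
theorem result {α : Type*} [Fintype α] [DecidableEq α] (G : Subgroup (Equiv.Perm α)) (h2 : MulAction.IsPretransitive G (Set.powersetCard α 2)) (hα : 3 ≤ Fintype.card α) : (Even (Nat.card G) → MulAction.IsMultiplyPretransitive G α 2) ∧ (G ≠ ⊥ → MulAction.IsPreprimitive G α) := by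
  have hthird : ∀ x y : α, ∃ z : α, z ≠ x ∧ z ≠ y := by
    intro x y
    by_contra hcon
    push Not at hcon
    have hsub : (Finset.univ : Finset α) ⊆ {x, y} := by
      intro z _
      by_cases hz : z = x
      · simp [hz]
      · simp [hcon z hz]
    have := Finset.card_le_card hsub
    rw [Finset.card_univ] at this
    have h2c : ({x, y} : Finset α).card ≤ 2 := Finset.card_le_two
    omega
  constructor
  · intro heven
    haveI : Fact (Nat.Prime 2) := ⟨Nat.prime_two⟩
    obtain ⟨t, ht⟩ := exists_prime_orderOf_dvd_card' (G := G) 2 heven.two_dvd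
    have ht1 : t ≠ 1 := by
      rintro rfl
      rw [orderOf_one] at ht
      norm_num at ht
    have hta : ∃ a : α, t • a ≠ a := by
      by_contra hcon
      push Not at hcon
      apply ht1
      apply Subtype.ext
      apply Equiv.ext
      intro a
      exact hcon a
    obtain ⟨a, ha⟩ := hta
    have htt : t • t • a = a := by
      rw [← mul_smul, ← sq, ← ht, pow_orderOf_eq_one, one_smul]
    have key : ∀ x y : α, x ≠ y → ∃ g : G, g • x = a ∧ g • y = t • a := by
      intro x y hxy
      obtain ⟨g, hg | hg⟩ := hom2 G h2 x y a (t • a) hxy (Ne.symm ha)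
      · exact ⟨g, hg⟩
      · refine ⟨t * g, ?_, ?_⟩
        · rw [mul_smul, hg.1, htt]
        · rw [mul_smul, hg.2]
    rw [MulAction.is_two_pretransitive_iff]
    intro x y x' y' hxy hxy'
    obtain ⟨g₁, h1, h1'⟩ := key x y hxy
    obtain ⟨g₂, h2a, h2b⟩ := key x' y' hxy'
    refine ⟨g₂⁻¹ * g₁, ?_, ?_⟩
    · rw [mul_smul, h1, inv_smul_eq_iff, h2a]
    · rw [mul_smul, h1', inv_smul_eq_iff, h2b]
  · intro _
    refine { toIsPretransitive := ⟨fun x y => ?_⟩, isTrivialBlock_of_isBlock := ?_ }
    · by_cases hxy : x = y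
      · exact ⟨1, by rw [one_smul, hxy]⟩
      · obtain ⟨z, hzx, hzy⟩ := hthird x y
        obtain ⟨g, hg | hg⟩ := hom2 G h2 x z y z (Ne.symm hzx) (Ne.symm hzy)
        · exact ⟨g, hg.1⟩
        · exact ⟨g * g, by rw [mul_smul, hg.1, hg.2]⟩
    · intro B hB
      by_cases hsub : B.Subsingleton
      · left; exact hsub
      · right
        rw [Set.not_subsingleton_iff] at hsub
        obtain ⟨a, ha, b, hb, hab⟩ := hsub
        have hB' := MulAction.isBlock_iff_smul_eq_of_mem.mp hB
        apply Set.eq_univ_of_forall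
        intro c
        by_cases hca : c = a
        · rw [hca]; exact ha
        · obtain ⟨g, hg | hg⟩ := hom2 G h2 a b a c hab (Ne.symm hca)
          · have hgB := hB' ha (hg.1.symm ▸ ha)
            rw [← hg.2, ← hgB]
            exact Set.smul_mem_smul_set hb
          · have hgB := hB' hb (hg.2.symm ▸ ha)
            rw [← hg.1, ← hgB]
            exact Set.smul_mem_smul_set ha

end Cfsg.Agent.S0735
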