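import Mathlib
import Cfsg.Statements.S0736
-- import your own Cfsg.Agent.* helpers here

set_option autoImplicit false
open Cfsg

namespace Cfsg.Agent.S0736


open scoped Pointwise

theorem choose_not_dvd (p : ℕ) [hp : Fact p.Prime] (a m : ℕ) :
    ¬ p ∣ Nat.choose (p ^ a * m + p ^ a - 1) (p ^ a - 1) := by
  induction a with
  | zero =>
    simp only [pow_zero, Nat.sub_self, Nat.choose_zero_right]
    exact hp.out.not_dvd_one
  | succ a ih =>
    have hp1 : 1 ≤ p := hp.out.one_lt.le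
    obtain ⟨t, ht⟩ : ∃ t, p ^ a = t + 1 :=
      ⟨p ^ a - 1, by have := Nat.one_le_pow a p hp1; omega⟩
    have h1 : p ^ (a+1) * m = p * (p ^ a * m) := by ring
    have h2 : p ^ (a+1) = p * t + p := by rw [pow_succ, ht]; ring
    have h3 : p * (p ^ a * m + t) = p * (p ^ a * m) + p * t := by ring
    have e1 : p ^ (a+1) * m + p ^ (a+1) - 1 = p * (p ^ a * m + t) + (p - 1) := by
      rw [h1, h2, h3]; omega
    have e2 : p ^ (a+1) - 1 = p * t + (p - 1) := by rw [h2]; omega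
    have e3 : p ^ a * m + p ^ a - 1 = p ^ a * m + t := by omega
    have e4 : p ^ a - 1 = t := by omega
    rw [e3, e4] at ih
    intro hdvd
    have hl := Choose.choose_modEq_choose_mod_mul_choose_div_nat (p := p)
      (n := p ^ (a+1) * m + p ^ (a+1) - 1) (k := p ^ (a+1) - 1)
    rw [e1, e2] at hl
    have hlt : p - 1 < p := by omega
    rw [Nat.mul_add_mod, Nat.mul_add_mod, Nat.mod_eq_of_lt hlt,
      Nat.mul_add_div (show p > 0 by omega), Nat.mul_add_div (show p > 0 by omega),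
      Nat.div_eq_of_lt hlt, Nat.choose_self, one_mul, add_zero, add_zero] at hl
    rw [e1, e2] at hdvd
    exact ih (Nat.modEq_zero_iff_dvd.mp (hl.symm.trans (Nat.modEq_zero_iff_dvd.mpr hdvd)))

theorem card_above {α : Type*} [DecidableEq α] (Λ Γ : Finset α) (hΓ : Γ ⊆ Λ) :
    ((Finset.powersetCard (Γ.card + 1) Λ).filter (fun Δ => Γ ⊆ Δ)).card = Λ.card - Γ.card := by
  rw [← Finset.card_sdiff_of_subset hΓ]
  symm
  apply Finset.card_bij (fun y _ => insert y Γ)
  · intro y hy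
    rw [Finset.mem_sdiff] at hy
    rw [Finset.mem_filter, Finset.mem_powersetCard]
    exact ⟨⟨Finset.insert_subset hy.1 hΓ, Finset.card_insert_of_notMem hy.2⟩,
      Finset.subset_insert _ _⟩
  · intro y hy y' hy' h
    have h : insert y Γ = insert y' Γ := h
    rw [Finset.mem_sdiff] at hy hy'
    have h3 : y ∈ insert y' Γ := by rw [← h]; exact Finset.mem_insert_self y Γ
    rcases Finset.mem_insert.mp h3 with h' | h'
    · exact h'
    · exact absurd h' hy.2
  · intro Δ hΔ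
    rw [Finset.mem_filter, Finset.mem_powersetCard] at hΔ
    obtain ⟨⟨hΔΛ, hΔc⟩, hΓΔ⟩ := hΔ
    have h1 : (Δ \ Γ).card = 1 := by rw [Finset.card_sdiff_of_subset hΓΔ, hΔc]; omega
    obtain ⟨y, hy⟩ := Finset.card_eq_one.mp h1
    have hyΔ : y ∈ Δ \ Γ := by rw [hy]; exact Finset.mem_singleton_self y
    rw [Finset.mem_sdiff] at hyΔ
    refine ⟨y, Finset.mem_sdiff.mpr ⟨hΔΛ hyΔ.1, hyΔ.2⟩, ?_⟩
    show insert y Γ = Δ
    rw [Finset.insert_eq, ← hy, Finset.union_comm]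
    exact Finset.union_sdiff_of_subset hΓΔ

theorem homog_aux {G α : Type*} [Group G] [MulAction G α] [Fintype α] [DecidableEq α] {j : ℕ}
    (hj : 1 ≤ j)
    (hG : ∀ Δ₁ Δ₂ : Finset α, Δ₁.card = j + 1 → Δ₂.card = j + 1 → ∃ g : G, g • Δ₁ = Δ₂)
    (hq : ∀ q : ℕ, IsPrimePow q → q ∣ j + 1 → j + q ≤ Fintype.card α)
    (Γ₁ Γ₂ : Finset α) (h₁ : Γ₁.card = j) (h₂ : Γ₂.card = j) : ∃ g : G, g • Γ₁ = Γ₂ := by
  classical
  obtain ⟨inO, hinO⟩ : ∃ inO : Finset α → Prop, ∀ Γ, inO Γ ↔ ∃ g : G, g • Γ₁ = Γ :=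
    ⟨_, fun _ => Iff.rfl⟩
  have inO_smul : ∀ (g : G) (Γ : Finset α), inO Γ → inO (g • Γ) := by
    intro g Γ hΓ
    obtain ⟨h, rfl⟩ := (hinO Γ).mp hΓ
    exact (hinO _).mpr ⟨g * h, mul_smul g h Γ₁⟩
  obtain ⟨c, hc⟩ : ∃ c : Finset α → ℕ,
      ∀ Δ, c Δ = ((Finset.powersetCard j Δ).filter inO).card := ⟨_, fun _ => rfl⟩
  have c_le : ∀ (g : G) (Δ : Finset α), c Δ ≤ c (g • Δ) := by
    intro g Δ
    rw [hc, hc]
    apply Finset.card_le_card_of_injOn (fun Γ => g • Γ)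
    · intro Γ hΓ
      rw [Finset.mem_coe, Finset.mem_filter, Finset.mem_powersetCard] at hΓ ⊢
      exact ⟨⟨Finset.smul_finset_subset_smul_finset hΓ.1.1,
        (Finset.card_smul_finset g Γ).trans hΓ.1.2⟩, inO_smul g Γ hΓ.2⟩
    · intro Γ _ Γ' _ h
      exact MulAction.injective g h
  have c_eq : ∀ Δ₁ Δ₂ : Finset α, Δ₁.card = j + 1 → Δ₂.card = j + 1 → c Δ₁ = c Δ₂ := by
    intro Δ₁ Δ₂ hΔ₁ hΔ₂
    obtain ⟨g, rfl⟩ := hG Δ₁ Δ₂ hΔ₁ hΔ₂
    apply le_antisymm (c_le g Δ₁)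
    have h3 := c_le g⁻¹ (g • Δ₁)
    rwa [inv_smul_smul] at h3
  have c_le_k : ∀ Δ : Finset α, Δ.card = j + 1 → c Δ ≤ j + 1 := by
    intro Δ hΔ
    rw [hc]
    calc ((Finset.powersetCard j Δ).filter inO).card
        ≤ (Finset.powersetCard j Δ).card := Finset.card_filter_le _ _
      _ = j + 1 := by rw [Finset.card_powersetCard, hΔ, Nat.choose_succ_self_right]
  have hn : j + 2 ≤ Fintype.card α := by
    have hp := Nat.minFac_prime (show j + 1 ≠ 1 by omega)
    have h3 := hq _ hp.isPrimePow (Nat.minFac_dvd _)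
    have h4 := hp.two_le
    omega
  obtain ⟨Δ₀, hΓΔ₀, -, hΔ₀⟩ := Finset.exists_subsuperset_card_eq (Finset.subset_univ Γ₁)
    (n := j + 1) (by omega) (by rw [Finset.card_univ]; omega)
  have hc0 : 1 ≤ c Δ₀ := by
    rw [hc]
    apply Finset.card_pos.mpr
    exact ⟨Γ₁, Finset.mem_filter.mpr ⟨Finset.mem_powersetCard.mpr ⟨hΓΔ₀, h₁⟩,
      (hinO _).mpr ⟨1, one_smul _ _⟩⟩⟩
  have hdiv : ∀ p : ℕ, p.Prime → p ^ (j + 1).factorization p ∣ c Δ₀ := by
    intro p hp
    haveI : Fact p.Prime := ⟨hp⟩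
    by_cases hpk : p ∣ j + 1
    · have ha : (j + 1).factorization p ≠ 0 :=
        (hp.factorization_pos_of_dvd (by omega) hpk).ne'
      obtain ⟨a, haa⟩ : ∃ a, (j + 1).factorization p = a := ⟨_, rfl⟩
      rw [haa] at ha ⊢
      have hqk : p ^ a ∣ j + 1 := by rw [← haa]; exact Nat.ordProj_dvd (j + 1) p
      have hqpp : IsPrimePow (p ^ a) := hp.isPrimePow.pow ha
      have hle := hq _ hqpp hqk
      obtain ⟨m, hm⟩ := hqk
      have hq1 : 1 ≤ p ^ a := Nat.one_le_pow _ _ hp.one_lt.le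
      obtain ⟨Λ, -, -, hΛ⟩ := Finset.exists_subsuperset_card_eq
        (Finset.subset_univ (∅ : Finset α)) (n := j + p ^ a) (by simp)
        (by rw [Finset.card_univ]; exact hle)
      have hdc := Finset.sum_card_bipartiteAbove_eq_sum_card_bipartiteBelow
        (fun (Γ Δ : Finset α) => Γ ⊆ Δ ∧ inO Γ) (s := Finset.powersetCard j Λ)
        (t := Finset.powersetCard (j + 1) Λ)
      have hR : ∀ Δ ∈ Finset.powersetCard (j + 1) Λ,
          ((Finset.powersetCard j Λ).bipartiteBelow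
            (fun (Γ Δ : Finset α) => Γ ⊆ Δ ∧ inO Γ) Δ).card = c Δ₀ := by
        intro Δ hΔ
        rw [Finset.mem_powersetCard] at hΔ
        rw [← c_eq Δ Δ₀ hΔ.2 hΔ₀, hc]
        congr 1
        ext Γ
        rw [Finset.mem_bipartiteBelow, Finset.mem_filter, Finset.mem_powersetCard,
          Finset.mem_powersetCard]
        constructor
        · rintro ⟨⟨-, h1⟩, h2, h3⟩
          exact ⟨⟨h2, h1⟩, h3⟩
        · rintro ⟨⟨h2, h1⟩, h3⟩
          exact ⟨⟨h2.trans hΔ.1, h1⟩, h2, h3⟩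
      have hL : ∀ Γ ∈ Finset.powersetCard j Λ, p ^ a ∣
          ((Finset.powersetCard (j + 1) Λ).bipartiteAbove
            (fun (Γ Δ : Finset α) => Γ ⊆ Δ ∧ inO Γ) Γ).card := by
        intro Γ hΓ
        rw [Finset.mem_powersetCard] at hΓ
        by_cases hO : inO Γ
        · have e : (Finset.powersetCard (j + 1) Λ).bipartiteAbove
              (fun (Γ Δ : Finset α) => Γ ⊆ Δ ∧ inO Γ) Γ =
              (Finset.powersetCard (Γ.card + 1) Λ).filter (fun Δ => Γ ⊆ Δ) := by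
            ext Δ
            rw [Finset.mem_bipartiteAbove, Finset.mem_filter, hΓ.2]
            exact ⟨fun h => ⟨h.1, h.2.1⟩, fun h => ⟨h.1, h.2, hO⟩⟩
          rw [e, card_above Λ Γ hΓ.1, hΛ, hΓ.2, Nat.add_sub_cancel_left]
        · have e : (Finset.powersetCard (j + 1) Λ).bipartiteAbove
              (fun (Γ Δ : Finset α) => Γ ⊆ Δ ∧ inO Γ) Γ = ∅ := by
            ext Δ
            rw [Finset.mem_bipartiteAbove]
            simp [hO]
          rw [e, Finset.card_empty]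
          exact dvd_zero _
      have h5 := Finset.dvd_sum hL
      rw [hdc, Finset.sum_congr rfl hR, Finset.sum_const, Finset.card_powersetCard, hΛ,
        smul_eq_mul] at h5
      have hcop : Nat.Coprime (p ^ a) ((j + p ^ a).choose (j + 1)) := by
        apply Nat.Coprime.pow_left
        rw [Nat.Prime.coprime_iff_not_dvd hp]
        have e5 : (j + p ^ a).choose (j + 1) =
            (p ^ a * m + p ^ a - 1).choose (p ^ a - 1) := by
          have e6 : p ^ a * m + p ^ a - 1 = j + p ^ a := by omega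
          rw [e6]
          exact Nat.choose_symm_of_eq_add (by omega)
        rw [e5]
        exact choose_not_dvd p a m
      exact hcop.dvd_of_dvd_mul_left h5
    · rw [Nat.factorization_eq_zero_of_not_dvd hpk, pow_zero]
      exact one_dvd _
  have hkc : j + 1 ∣ c Δ₀ := by
    rw [← Nat.factorization_le_iff_dvd (show j + 1 ≠ 0 by omega) (show c Δ₀ ≠ 0 by omega)]
    intro p
    by_cases hp : p.Prime
    · exact (hp.pow_dvd_iff_le_factorization (show c Δ₀ ≠ 0 by omega)).mp (hdiv p hp)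
    · rw [Nat.factorization_eq_zero_of_not_prime _ hp]; exact Nat.zero_le _
  have hceq : c Δ₀ = j + 1 := le_antisymm (c_le_k Δ₀ hΔ₀) (Nat.le_of_dvd (by omega) hkc)
  obtain ⟨Δ₂, hΓΔ₂, -, hΔ₂⟩ := Finset.exists_subsuperset_card_eq (Finset.subset_univ Γ₂)
    (n := j + 1) (by omega) (by rw [Finset.card_univ]; omega)
  have h5 : ((Finset.powersetCard j Δ₂).filter inO).card = (Finset.powersetCard j Δ₂).card := by
    rw [← hc, c_eq Δ₂ Δ₀ hΔ₂ hΔ₀, hceq, Finset.card_powersetCard, hΔ₂,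
      Nat.choose_succ_self_right]
  have h6 := Finset.card_filter_eq_iff.mp h5 Γ₂ (Finset.mem_powersetCard.mpr ⟨hΓΔ₂, h₂⟩)
  exact (hinO Γ₂).mp h6


/-- A `k`-homogeneous permutation group of degree `n`, `k ≥ 2`, with `k + q - 1 ≤ n` for every prime power `q` dividing `k`, is `(k-1)`-homogeneous. -/
theorem result {α : Type*} [Fintype α] [DecidableEq α] (G : Subgroup (Equiv.Perm α)) {k : ℕ} (hk : 2 ≤ k) (hG : MulAction.IsPretransitive G (Set.powersetCard α k)) (hq : ∀ q : ℕ, IsPrimePow q → q ∣ k → k + q - 1 ≤ Fintype.card α) : MulAction.IsPretransitive G (Set.powersetCard α (k - 1)) := by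
  obtain ⟨j, rfl⟩ : ∃ j, k = j + 1 := ⟨k - 1, by omega⟩
  have hq' : ∀ q : ℕ, IsPrimePow q → q ∣ j + 1 → j + q ≤ Fintype.card α := by
    intro q h1 h2
    have h3 := hq q h1 h2
    omega
  have hG' : ∀ Δ₁ Δ₂ : Finset α, Δ₁.card = j + 1 → Δ₂.card = j + 1 →
      ∃ g : G, g • Δ₁ = Δ₂ := by
    intro Δ₁ Δ₂ h1 h2
    obtain ⟨g, hg⟩ := hG.exists_smul_eq
      (⟨Δ₁, Set.powersetCard.mem_iff.mpr h1⟩ : Set.powersetCard α (j + 1))
      ⟨Δ₂, Set.powersetCard.mem_iff.mpr h2⟩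
    refine ⟨g, ?_⟩
    have h3 := congrArg Subtype.val hg
    exact h3
  show MulAction.IsPretransitive G (Set.powersetCard α j)
  refine ⟨fun x y => ?_⟩
  obtain ⟨g, hg⟩ := homog_aux (G := G) (show 1 ≤ j by omega) hG' hq' (x : Finset α)
    (y : Finset α) (Set.powersetCard.mem_iff.mp x.2) (Set.powersetCard.mem_iff.mp y.2)
  exact ⟨g, Subtype.ext hg⟩

end Cfsg.Agent.S0736
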