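import Cfsg.Statements.S0741
import Mathlib

set_option autoImplicit false
open Cfsg

namespace Cfsg.Agent.S0741

open MulAction

section lib

variable {G Ω : Type*} [Group G] [MulAction G Ω]

theorem two_trans (hZ : Cfsg.IsZassenhausGroup G Ω) {x y x' y' : Ω} (h : x ≠ y) (h' : x' ≠ y') :
    ∃ g : G, g • x = x' ∧ g • y = y' :=
  MulAction.is_two_pretransitive_iff.mp hZ.2.1 h h'

theorem three_fix (hZ : Cfsg.IsZassenhausGroup G Ω) (g : G) (x y z : Ω) (hxy : x ≠ y)
    (hyz : y ≠ z) (hxz : x ≠ z) (hx : g • x = x) (hy : g • y = y) (hz : g • z = z) : g = 1 :=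
  hZ.2.2.1 g x y z hxy hyz hxz hx hy hz

theorem card_stab2 (hZ : Cfsg.IsZassenhausGroup G Ω) {x y x' y' : Ω} (h : x ≠ y) (h' : x' ≠ y') :
    Nat.card ↥(stabilizer G x ⊓ stabilizer G y) = Nat.card ↥(stabilizer G x' ⊓ stabilizer G y') := by
  obtain ⟨g, gx, gy⟩ := two_trans hZ h h'
  have gix : g⁻¹ • x' = x := by rw [inv_smul_eq_iff, gx]
  have giy : g⁻¹ • y' = y := by rw [inv_smul_eq_iff, gy]
  refine Nat.card_congr ⟨fun k => ⟨g * k.1 * g⁻¹, ?_⟩, fun k => ⟨g⁻¹ * k.1 * g, ?_⟩, ?_, ?_⟩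
  · have hk := Subgroup.mem_inf.mp k.2
    have h1 : k.1 • x = x := hk.1
    have h2 : k.1 • y = y := hk.2
    refine Subgroup.mem_inf.mpr ⟨?_, ?_⟩
    · show (g * k.1 * g⁻¹) • x' = x'
      rw [mul_smul, mul_smul, gix, h1, gx]
    · show (g * k.1 * g⁻¹) • y' = y'
      rw [mul_smul, mul_smul, giy, h2, gy]
  · have hk := Subgroup.mem_inf.mp k.2
    have h1 : k.1 • x' = x' := hk.1
    have h2 : k.1 • y' = y' := hk.2
    refine Subgroup.mem_inf.mpr ⟨?_, ?_⟩
    · show (g⁻¹ * k.1 * g) • x = x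
      rw [mul_smul, mul_smul, gx, h1, gix]
    · show (g⁻¹ * k.1 * g) • y = y
      rw [mul_smul, mul_smul, gy, h2, giy]
  · intro k
    apply Subtype.ext
    show g⁻¹ * (g * k.1 * g⁻¹) * g = k.1
    group
  · intro k
    apply Subtype.ext
    show g * (g⁻¹ * k.1 * g) * g⁻¹ = k.1
    group

/-- An involution in each two point stabiliser, when these have even order. -/
theorem exists_invol [Finite G] (hZ : Cfsg.IsZassenhausGroup G Ω) {a b : Ω} (hab : a ≠ b)
    (heven : Even (Nat.card ↥(stabilizer G a ⊓ stabilizer G b))) (c c' : Ω) (hcc : c ≠ c') :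
    ∃ z : G, z * z = 1 ∧ z ≠ 1 ∧ z • c = c ∧ z • c' = c' := by
  have hcard := card_stab2 hZ hcc hab
  have h2dvd : 2 ∣ Nat.card ↥(stabilizer G c ⊓ stabilizer G c') := by
    rw [hcard]
    exact heven.two_dvd
  have : Fact (Nat.Prime 2) := ⟨Nat.prime_two⟩
  obtain ⟨z, hz⟩ := exists_prime_orderOf_dvd_card' 2 h2dvd
  have hmem := Subgroup.mem_inf.mp z.2
  refine ⟨z.1, ?_, ?_, hmem.1, hmem.2⟩
  · have h1 := pow_orderOf_eq_one z
    rw [hz, sq] at h1
    exact congrArg Subtype.val h1
  · intro h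
    have h1 : z = 1 := Subtype.ext h
    rw [h1, orderOf_one] at hz
    norm_num at hz

end lib

set_option maxHeartbeats 800000 in
/-- If the two-point stabilisers of a finite Zassenhaus group of degree `n + 1` have even order `d`, then `2d ≥ n - 1`. -/
theorem result {G Ω : Type*} [Group G] [Finite G] [MulAction G Ω] [Fintype Ω] (hZ : Cfsg.IsZassenhausGroup G Ω) {a b : Ω} (hab : a ≠ b) (heven : Even (Nat.card ↥(MulAction.stabilizer G a ⊓ MulAction.stabilizer G b))) : Fintype.card Ω - 2 ≤ 2 * Nat.card ↥(MulAction.stabilizer G a ⊓ MulAction.stabilizer G b) := by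
  classical
  have := Fintype.ofFinite G
  have hinv := exists_invol hZ hab heven
  choose! Φ hΦ using hinv
  have hAimg : ((Finset.univ.erase a).offDiag : Finset (Ω × Ω)).card ≤
      2 * (((Finset.univ.erase a).offDiag : Finset (Ω × Ω)).image (fun p => Φ p.1 p.2)).card := by
    apply Finset.card_le_mul_card_image
    intro z hz
    by_contra hgt
    push Not at hgt
    obtain ⟨⟨c1, c1'⟩, hp1, ⟨c2, c2'⟩, hp2, ⟨c3, c3'⟩, hp3, h12, h13, h23⟩ :=
      Finset.two_lt_card.mp hgt
    simp only [Finset.mem_filter, Finset.mem_offDiag, Finset.mem_erase, Finset.mem_univ,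
      and_true] at hp1 hp2 hp3
    obtain ⟨⟨-, -, e1⟩, rfl⟩ := hp1
    obtain ⟨⟨-, -, e2⟩, hz2⟩ := hp2
    obtain ⟨⟨-, -, e3⟩, hz3⟩ := hp3
    obtain ⟨-, z1, f1, f1'⟩ := hΦ c1 c1' e1
    obtain ⟨-, -, f2, f2'⟩ := hΦ c2 c2' e2
    obtain ⟨-, -, f3, f3'⟩ := hΦ c3 c3' e3
    rw [hz2] at f2 f2'
    rw [hz3] at f3 f3'
    have fix2 : ∀ w : Ω, Φ c1 c1' • w = w → w = c1 ∨ w = c1' := by
      intro w hw
      by_contra hcon
      push Not at hcon
      exact z1 (three_fix hZ _ c1 c1' w e1 (Ne.symm hcon.2) (Ne.symm hcon.1) f1 f1' hw)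
    have g2 := fix2 c2 f2
    have g2' := fix2 c2' f2'
    have g3 := fix2 c3 f3
    have g3' := fix2 c3' f3'
    rcases g2 with rfl | rfl <;> rcases g2' with rfl | rfl <;> rcases g3 with rfl | rfl <;>
      rcases g3' with rfl | rfl <;> simp_all
  have himg : (((Finset.univ.erase a).offDiag : Finset (Ω × Ω)).image (fun p => Φ p.1 p.2)) ⊆
      (Finset.univ.erase a).biUnion
        (fun e => Finset.univ.filter (fun g : G => g • a = e ∧ g • e = a)) := by
    intro z hz
    obtain ⟨⟨c, c'⟩, hp, rfl⟩ := Finset.mem_image.mp hz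
    simp only [Finset.mem_offDiag, Finset.mem_erase, Finset.mem_univ, and_true] at hp
    obtain ⟨ca, ca', e⟩ := hp
    obtain ⟨zz, z1, f, f'⟩ := hΦ c c' e
    have hza : Φ c c' • a ≠ a := fun h =>
      z1 (three_fix hZ _ c c' a e ca' ca f f' h)
    simp only [Finset.mem_biUnion, Finset.mem_erase, Finset.mem_univ, and_true,
      Finset.mem_filter, true_and]
    exact ⟨Φ c c' • a, hza, rfl, by rw [← mul_smul, zz, one_smul]⟩
  have hM : ∀ e ∈ (Finset.univ.erase a : Finset Ω),
      (Finset.univ.filter (fun g : G => g • a = e ∧ g • e = a)).card ≤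
        Nat.card ↥(stabilizer G a ⊓ stabilizer G b) := by
    intro e he
    have hea : e ≠ a := (Finset.mem_erase.mp he).1
    rw [card_stab2 hZ hab (Ne.symm hea)]
    have hcardS : Nat.card ↥(stabilizer G a ⊓ stabilizer G e) =
        (Finset.univ.filter (fun g : G => g • a = a ∧ g • e = e)).card := by
      apply Nat.subtype_card
      intro g
      simp only [Finset.mem_filter, Finset.mem_univ, true_and, Subgroup.mem_inf,
        mem_stabilizer_iff]
    rw [hcardS]
    rcases (Finset.univ.filter (fun g : G => g • a = e ∧ g • e = a)).eq_empty_or_nonempty with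
      h0 | ⟨g0, hg0⟩
    · rw [h0]
      simp
    · simp only [Finset.mem_filter, Finset.mem_univ, true_and] at hg0
      obtain ⟨g0a, g0e⟩ := hg0
      have gi1 : g0⁻¹ • e = a := by rw [inv_smul_eq_iff, g0a]
      have gi2 : g0⁻¹ • a = e := by rw [inv_smul_eq_iff, g0e]
      apply Finset.card_le_card_of_injOn (fun g => g0⁻¹ * g)
      · intro g hg
        simp only [Finset.coe_filter, Finset.mem_univ, true_and, Set.mem_ofPred_eq] at hg ⊢
        exact ⟨by rw [mul_smul, hg.1, gi1], by rw [mul_smul, hg.2, gi2]⟩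
      · intro g _ g' _ h
        exact mul_left_cancel h
  have hT := (Finset.card_le_card himg).trans Finset.card_biUnion_le
  have hsum := Finset.sum_le_card_nsmul (Finset.univ.erase a : Finset Ω)
    (fun e => (Finset.univ.filter (fun g : G => g • a = e ∧ g • e = a)).card) _ hM
  have hcardA : ((Finset.univ.erase a).offDiag : Finset (Ω × Ω)).card =
      (Fintype.card Ω - 1) * (Fintype.card Ω - 1) - (Fintype.card Ω - 1) := by
    rw [Finset.offDiag_card, Finset.card_erase_of_mem (Finset.mem_univ a), Finset.card_univ]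
  rw [Finset.card_erase_of_mem (Finset.mem_univ a), Finset.card_univ, smul_eq_mul] at hsum
  have hn2 : 2 ≤ Fintype.card Ω := by
    rw [← Finset.card_univ]
    calc 2 = ({a, b} : Finset Ω).card := (Finset.card_pair hab).symm
      _ ≤ (Finset.univ : Finset Ω).card := Finset.card_le_card (Finset.subset_univ _)
  obtain ⟨n, hn⟩ : ∃ n, Fintype.card Ω = n + 2 := ⟨Fintype.card Ω - 2, by omega⟩
  rw [hn] at hcardA hsum ⊢
  have h1 : (n + 1) * (n + 1) - (n + 1) = (n + 1) * n := by
    have : (n + 1) * (n + 1) = (n + 1) * n + (n + 1) := by ring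
    omega
  have key : (n + 1) * n ≤ (n + 1) * (2 * Nat.card ↥(stabilizer G a ⊓ stabilizer G b)) := by
    have e1 : n + 2 - 1 = n + 1 := by omega
    rw [e1] at hcardA hsum
    rw [h1] at hcardA
    calc (n + 1) * n = ((Finset.univ.erase a).offDiag : Finset (Ω × Ω)).card := hcardA.symm
      _ ≤ 2 * ((n + 1) * Nat.card ↥(stabilizer G a ⊓ stabilizer G b)) :=
          hAimg.trans (Nat.mul_le_mul_left 2 (hT.trans hsum))
      _ = (n + 1) * (2 * Nat.card ↥(stabilizer G a ⊓ stabilizer G b)) := by ring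
  have := Nat.le_of_mul_le_mul_left key (Nat.succ_pos n)
  omega

end Cfsg.Agent.S0741
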