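import Cfsg.Statements.S0738
import Mathlib
import Cfsg.Agent.S0741

set_option autoImplicit false
open Cfsg

namespace Cfsg.Agent.S0738

open MulAction

set_option maxHeartbeats 1600000 in
/-- Let a finite Zassenhaus group of degree `n + 1` have two-point stabilisers of order `d` with `2d ≥ n - 1`. Then a normal subgroup of a point stabiliser acting regularly on the remaining points is elementary abelian, and the degree is a prime power plus one. -/
theorem result {G Ω : Type*} [Group G] [Finite G] [MulAction G Ω] [Fintype Ω] (hZ : Cfsg.IsZassenhausGroup G Ω) {a b : Ω} (hab : a ≠ b) (hd : Fintype.card Ω - 2 ≤ 2 * Nat.card ↥(MulAction.stabilizer G a ⊓ MulAction.stabilizer G b)) (F : Subgroup G) (hFle : F ≤ MulAction.stabilizer G a) (hFn : (F.subgroupOf (MulAction.stabilizer G a)).Normal) (hreg : ∀ y z : Ω, y ≠ a → z ≠ a → ∃! u : F, (u : G) • y = z) : IsMulCommutative F ∧ ∃ p f : ℕ, p.Prime ∧ (∀ u ∈ F, u ^ p = 1) ∧ Fintype.card Ω = p ^ f + 1 := by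
  classical
  have := Fintype.ofFinite G
  obtain ⟨H, hH⟩ : ∃ H : Subgroup G, H = stabilizer G a ⊓ stabilizer G b := ⟨_, rfl⟩
  rw [← hH] at hd
  obtain ⟨d, hdd⟩ : ∃ d, d = Nat.card ↥H := ⟨_, rfl⟩
  rw [← hdd] at hd
  have hdpos : 0 < d := by rw [hdd]; exact Nat.card_pos
  -- basic facts
  have Fa : ∀ u ∈ F, u • a = a := fun u hu => hFle hu
  have Ha : ∀ h ∈ H, h • a = a := fun h hh => by
    rw [hH] at hh
    exact (Subgroup.mem_inf.mp hh).1
  have Hb : ∀ h ∈ H, h • b = b := fun h hh => by
    rw [hH] at hh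
    exact (Subgroup.mem_inf.mp hh).2
  have Freg : ∀ u ∈ F, u • b = b → u = 1 := by
    intro u hu hub
    obtain ⟨u0, -, huniq⟩ := hreg b b (Ne.symm hab) (Ne.symm hab)
    have h1 := huniq ⟨u, hu⟩ hub
    have h2 := huniq 1 (by simp)
    have h3 : (⟨u, hu⟩ : F) = 1 := h1.trans h2.symm
    exact congrArg Subtype.val h3
  have conjF : ∀ h ∈ H, ∀ u ∈ F, h * u * h⁻¹ ∈ F := by
    intro h hh u hu
    have hmem : h ∈ stabilizer G a := Ha h hh
    have h1 := hFn.conj_mem ⟨u, hFle hu⟩ (by rw [Subgroup.mem_subgroupOf]; exact hu) ⟨h, hmem⟩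
    rw [Subgroup.mem_subgroupOf] at h1
    exact h1
  have semireg : ∀ h ∈ H, ∀ u ∈ F, u ≠ 1 → h * u * h⁻¹ = u → h = 1 := by
    intro h hh u hu u1 hconj
    have hub : u • b ≠ b := fun e => u1 (Freg u hu e)
    have hua : u • b ≠ a := by
      intro e
      have e' : u • b = u • a := by rw [e, Fa u hu]
      exact hab (MulAction.injective u e').symm
    have hfix : h • (u • b) = u • b := by
      have e : h * u = u * h := by
        have e' : h * u = (h * u * h⁻¹) * h := by group
        rw [e', hconj]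
      rw [← mul_smul, e, mul_smul, Hb h hh]
    exact Cfsg.Agent.S0741.three_fix hZ h a b (u • b) hab (Ne.symm hub) (Ne.symm hua)
      (Ha h hh) (Hb h hh) hfix
  -- the order of F
  have hFcard : Nat.card ↥F = Fintype.card Ω - 1 := by
    have hbij : Function.Bijective (fun u : ↥F => (⟨(u : G) • b, by
        intro e
        have e' : (u : G) • b = (u : G) • a := by rw [e, Fa u.1 u.2]
        exact hab (MulAction.injective (u : G) e').symm⟩ : {y : Ω // y ≠ a})) := by
      constructor
      · intro u u' h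
        have h' : (u : G) • b = (u' : G) • b := congrArg Subtype.val h
        have h1 : ((u' : G)⁻¹ * (u : G)) • b = b := by rw [mul_smul, h', inv_smul_smul]
        have h2 := Freg _ (F.mul_mem (F.inv_mem u'.2) u.2) h1
        exact Subtype.ext (inv_mul_eq_one.mp h2).symm
      · rintro ⟨z, hz⟩
        obtain ⟨u, hu, -⟩ := hreg b z (Ne.symm hab) hz
        exact ⟨u, Subtype.ext hu⟩
    rw [Nat.card_congr (Equiv.ofBijective _ hbij),
      Nat.subtype_card (Finset.univ.erase a) (by simp), Finset.card_erase_of_mem (Finset.mem_univ a),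
      Finset.card_univ]
  have hFfin : Nat.card ↥F = (Finset.univ.filter (fun g : G => g ∈ F)).card :=
    Nat.subtype_card _ (by simp)
  have hHfin : d = (Finset.univ.filter (fun g : G => g ∈ H)).card := by
    rw [hdd]
    exact Nat.subtype_card _ (by simp)
  -- classes
  have hcl_card : ∀ u ∈ F, u ≠ 1 →
      ((Finset.univ.filter (fun g : G => g ∈ H)).image (fun h => h * u * h⁻¹)).card = d := by
    intro u hu u1
    rw [hHfin]
    apply Finset.card_image_of_injOn
    intro h hh h' hh' e
    simp only [Finset.coe_filter, Finset.mem_univ, true_and, Set.mem_ofPred_eq] at hh hh'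
    have e1 : (h'⁻¹ * h) * u * (h'⁻¹ * h)⁻¹ = u := by
      have e2 : (h'⁻¹ * h) * u * (h'⁻¹ * h)⁻¹ = h'⁻¹ * (h * u * h⁻¹) * h' := by group
      rw [e2]
      have e3 : h * u * h⁻¹ = h' * u * h'⁻¹ := e
      rw [e3]
      group
    have e4 := semireg _ (H.mul_mem (H.inv_mem hh') hh) u hu u1 e1
    exact (inv_mul_eq_one.mp e4).symm
  have hcl_sub : ∀ u ∈ F, u ≠ 1 →
      ((Finset.univ.filter (fun g : G => g ∈ H)).image (fun h => h * u * h⁻¹)) ⊆
        (Finset.univ.filter (fun g : G => g ∈ F)).erase 1 := by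
    intro u hu u1 g hg
    obtain ⟨h, hh, rfl⟩ := Finset.mem_image.mp hg
    simp only [Finset.mem_filter, Finset.mem_univ, true_and] at hh
    simp only [Finset.mem_erase, Finset.mem_filter, Finset.mem_univ, true_and]
    refine ⟨?_, conjF h hh u hu⟩
    intro e
    apply u1
    have e2 : u = h⁻¹ * (h * u * h⁻¹) * h := by group
    rw [e2, e]
    group
  have hFerase : ((Finset.univ.filter (fun g : G => g ∈ F)).erase 1).card = Fintype.card Ω - 2 := by
    rw [Finset.card_erase_of_mem (by simp [F.one_mem]), ← hFfin, hFcard]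
    omega
  have mem_cl : ∀ u v : G, v ∈ ((Finset.univ.filter (fun g : G => g ∈ H)).image
      (fun h => h * u * h⁻¹)) ↔ ∃ h ∈ H, h * u * h⁻¹ = v := by
    intro u v
    simp only [Finset.mem_image, Finset.mem_filter, Finset.mem_univ, true_and]
  have Csymm : ∀ u v : G, (∃ h ∈ H, h * u * h⁻¹ = v) → ∃ h ∈ H, h * v * h⁻¹ = u := by
    rintro u v ⟨h, hh, rfl⟩
    exact ⟨h⁻¹, H.inv_mem hh, by group⟩
  have Ctrans : ∀ u v w : G, (∃ h ∈ H, h * u * h⁻¹ = v) → (∃ h ∈ H, h * v * h⁻¹ = w) →
      ∃ h ∈ H, h * u * h⁻¹ = w := by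
    rintro u v w ⟨h, hh, rfl⟩ ⟨h', hh', rfl⟩
    exact ⟨h' * h, H.mul_mem hh' hh, by group⟩
  have Cpow : ∀ u v : G, (∃ h ∈ H, h * u * h⁻¹ = v) → ∀ k : ℕ, u ^ k = 1 ↔ v ^ k = 1 := by
    rintro u v ⟨h, hh, rfl⟩ k
    rw [conj_pow]
    constructor
    · intro e
      rw [e]
      group
    · intro e
      have e2 : u ^ k = h⁻¹ * (h * u ^ k * h⁻¹) * h := by group
      rw [e2, e]
      group
  have Cord : ∀ u v : G, (∃ h ∈ H, h * u * h⁻¹ = v) → orderOf u = orderOf v := fun u v h =>
    orderOf_eq_orderOf_iff.mpr (Cpow u v h)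
  -- at most two classes
  have K3 : ∀ u ∈ F, ∀ v ∈ F, ∀ w ∈ F, u ≠ 1 → v ≠ 1 → w ≠ 1 →
      (∃ h ∈ H, h * u * h⁻¹ = v) ∨ (∃ h ∈ H, h * u * h⁻¹ = w) ∨ (∃ h ∈ H, h * v * h⁻¹ = w) := by
    intro u hu v hv w hw u1 v1 w1
    by_contra hcon
    push Not at hcon
    obtain ⟨nuv, nuw, nvw⟩ := hcon
    have dis : ∀ x y : G, (¬ ∃ h ∈ H, h * x * h⁻¹ = y) →
        Disjoint ((Finset.univ.filter (fun g : G => g ∈ H)).image (fun h => h * x * h⁻¹))
          ((Finset.univ.filter (fun g : G => g ∈ H)).image (fun h => h * y * h⁻¹)) := by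
      intro x y hxy
      rw [Finset.disjoint_left]
      intro g hg hg'
      rw [mem_cl] at hg hg'
      exact hxy (Ctrans x g y hg (Csymm y g hg'))
    have d1 := dis u v (by push Not; exact nuv)
    have d2 := dis u w (by push Not; exact nuw)
    have d3 := dis v w (by push Not; exact nvw)
    have hunion := Finset.card_le_card
      (Finset.union_subset (Finset.union_subset (hcl_sub u hu u1) (hcl_sub v hv v1))
        (hcl_sub w hw w1))
    rw [Finset.card_union_of_disjoint (Finset.disjoint_union_left.mpr ⟨d2, d3⟩),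
      Finset.card_union_of_disjoint d1, hcl_card u hu u1, hcl_card v hv v1, hcl_card w hw w1,
      hFerase] at hunion
    omega
  -- p-groups are abelian here
  have ABEL : ∀ p : ℕ, p.Prime → (∀ u ∈ F, ∃ k : ℕ, u ^ p ^ k = 1) → (∃ u ∈ F, u ≠ 1) →
      ∀ u ∈ F, ∀ v ∈ F, u * v = v * u := by
    intro p hp hpg hnt
    have : Fact p.Prime := ⟨hp⟩
    have hPG : IsPGroup p ↥F := fun g => by
      obtain ⟨k, hk⟩ := hpg g.1 g.2
      exact ⟨k, Subtype.ext (by simpa using hk)⟩
    have hntF : Nontrivial ↥F := by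
      obtain ⟨u, hu, u1⟩ := hnt
      exact ⟨⟨⟨u, hu⟩, 1, fun e => u1 (congrArg Subtype.val e)⟩⟩
    have hcn := hPG.center_nontrivial
    obtain ⟨c, hc⟩ := exists_ne (1 : Subgroup.center ↥F)
    have hcF : ((c : ↥F) : G) ∈ F := (c : ↥F).2
    have hc1 : ((c : ↥F) : G) ≠ 1 := by
      intro e
      apply hc
      apply Subtype.ext
      apply Subtype.ext
      exact e
    have hccomm : ∀ u ∈ F, ((c : ↥F) : G) * u = u * ((c : ↥F) : G) := by
      intro u hu
      have h1 := Subgroup.mem_center_iff.mp c.2 ⟨u, hu⟩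
      exact (congrArg Subtype.val h1).symm
    have hZle : F ⊓ Subgroup.centralizer (F : Set G) ≤ F := inf_le_left
    have hclZ : insert 1 ((Finset.univ.filter (fun g : G => g ∈ H)).image
        (fun h => h * ((c : ↥F) : G) * h⁻¹)) ⊆
        Finset.univ.filter (fun g : G => g ∈ F ⊓ Subgroup.centralizer (F : Set G)) := by
      intro g hg
      simp only [Finset.mem_filter, Finset.mem_univ, true_and]
      rcases Finset.mem_insert.mp hg with rfl | hg
      · exact Subgroup.one_mem _
      · obtain ⟨h, hh, rfl⟩ := (mem_cl _ _).mp hg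
        refine Subgroup.mem_inf.mpr ⟨conjF h hh _ hcF, ?_⟩
        rw [Subgroup.mem_centralizer_iff]
        intro u hu
        have hu' : h⁻¹ * u * h ∈ F := by
          have h1 := conjF h⁻¹ (H.inv_mem hh) u hu
          rwa [inv_inv] at h1
        have h2 := hccomm _ hu'
        calc u * (h * ((c : ↥F) : G) * h⁻¹)
            = h * ((h⁻¹ * u * h) * ((c : ↥F) : G)) * h⁻¹ := by group
          _ = h * (((c : ↥F) : G) * (h⁻¹ * u * h)) * h⁻¹ := by rw [h2]
          _ = h * ((c : ↥F) : G) * h⁻¹ * u := by group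
    have hZcard : d + 1 ≤ Nat.card ↥(F ⊓ Subgroup.centralizer (F : Set G)) := by
      rw [Nat.subtype_card (Finset.univ.filter
        (fun g : G => g ∈ F ⊓ Subgroup.centralizer (F : Set G))) (by simp)]
      refine le_trans ?_ (Finset.card_le_card hclZ)
      rw [Finset.card_insert_of_notMem, hcl_card _ hcF hc1]
      intro h1
      have h2 := hcl_sub _ hcF hc1 h1
      simp at h2
    have hdvd := Subgroup.card_dvd_of_le hZle
    have hZF : F ⊓ Subgroup.centralizer (F : Set G) = F := by
      apply Subgroup.eq_of_le_of_card_ge hZle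
      obtain ⟨k, hk⟩ := hdvd
      have hFpos : 0 < Nat.card ↥F := Nat.card_pos
      rcases Nat.lt_or_ge k 2 with hk2 | hk2
      · have hk1 : k = 1 := by
          rcases Nat.eq_zero_or_pos k with h0 | h0
          · rw [h0, mul_zero] at hk
            omega
          · omega
        rw [hk, hk1, mul_one]
      · exfalso
        have h1 : 2 * Nat.card ↥(F ⊓ Subgroup.centralizer (F : Set G)) ≤ Nat.card ↥F := by
          rw [hk, mul_comm]
          exact Nat.mul_le_mul_left _ hk2
        omega
    intro u hu v hv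
    have hu' : u ∈ F ⊓ Subgroup.centralizer (F : Set G) := by rw [hZF]; exact hu
    exact ((Subgroup.mem_centralizer_iff.mp (Subgroup.mem_inf.mp hu').2) v hv).symm
  -- nontriviality
  have hFnt : 2 ≤ Nat.card ↥F := by
    obtain ⟨g, g1, x, y, hxy, gx, gy⟩ := hZ.2.2.2.1
    obtain ⟨c, hc⟩ : ∃ c : Ω, g • c ≠ c := by
      by_contra hcon
      push Not at hcon
      have := hZ.1
      exact g1 (eq_of_smul_eq_smul (α := Ω) (fun c => by rw [hcon c, one_smul]))
    have hcx : c ≠ x := by rintro rfl; exact hc gx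
    have hcy : c ≠ y := by rintro rfl; exact hc gy
    have h3 : 3 ≤ Fintype.card Ω := by
      rw [← Finset.card_univ]
      calc 3 = ({x, y, c} : Finset Ω).card := by
            rw [Finset.card_eq_three.mpr ⟨x, y, c, hxy, Ne.symm hcx, Ne.symm hcy, rfl⟩]
        _ ≤ (Finset.univ : Finset Ω).card := Finset.card_le_card (Finset.subset_univ _)
    omega
  have : Fact (Nat.minFac (Nat.card ↥F)).Prime := ⟨Nat.minFac_prime (by omega)⟩
  obtain ⟨x, hx⟩ := exists_prime_orderOf_dvd_card' (G := ↥F) (Nat.minFac (Nat.card ↥F))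
    (Nat.minFac_dvd _)
  obtain ⟨p, hpdef⟩ : ∃ p, p = Nat.minFac (Nat.card ↥F) := ⟨_, rfl⟩
  rw [← hpdef] at hx
  have hp : p.Prime := by rw [hpdef]; exact Nat.minFac_prime (by omega)
  have hxF : (x : G) ∈ F := x.2
  have hxord : orderOf (x : G) = p := by rw [Subgroup.orderOf_coe, hx]
  have hx1 : (x : G) ≠ 1 := by
    intro e
    rw [e, orderOf_one] at hxord
    exact hp.one_lt.ne hxord
  have hxp : (x : G) ^ p = 1 := by rw [← hxord]; exact pow_orderOf_eq_one _
  -- exponent p
  have hexp : ∀ u ∈ F, u ^ p = 1 := by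
    by_contra hcon
    push Not at hcon
    obtain ⟨y, hyF, hyp⟩ := hcon
    have hy1 : y ≠ 1 := by
      rintro rfl
      exact hyp (one_pow p)
    have nxy : ¬ ∃ h ∈ H, h * (x : G) * h⁻¹ = y := fun h => hyp ((Cpow _ _ h p).mp hxp)
    have dich1 : ∀ w ∈ F, w ≠ 1 → w ^ p = 1 → ∃ h ∈ H, h * (x : G) * h⁻¹ = w := by
      intro w hw w1 hwp
      rcases K3 _ hxF y hyF w hw hx1 hy1 w1 with h | h | h
      · exact absurd h nxy
      · exact h
      · exact absurd ((Cpow _ _ h p).mpr hwp) hyp
    have dich2 : ∀ w ∈ F, w ^ p ≠ 1 → ∃ h ∈ H, h * y * h⁻¹ = w := by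
      intro w hw hwp
      have w1 : w ≠ 1 := by
        rintro rfl
        exact hwp (one_pow p)
      rcases K3 _ hxF y hyF w hw hx1 hy1 w1 with h | h | h
      · exact absurd h nxy
      · exact absurd ((Cpow _ _ h p).mp hxp) hwp
      · exact h
    have hypF : y ^ p ∈ F := F.pow_mem hyF p
    by_cases hyy : (y ^ p) ^ p = 1
    · -- F is a p-group
      have hcomm := ABEL p hp (by
        intro u hu
        by_cases hup : u ^ p = 1
        · exact ⟨1, by rwa [pow_one]⟩
        · obtain ⟨h, hh, rfl⟩ := dich2 u hu hup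
          refine ⟨2, ?_⟩
          rw [conj_pow, pow_two, pow_mul, hyy]
          group) ⟨y, hyF, hy1⟩
      -- y * (cl x ∪ {1}) ⊆ cl y
      have hsub : (insert 1 ((Finset.univ.filter (fun g : G => g ∈ H)).image
          (fun h => h * (x : G) * h⁻¹))).image (fun u => y * u) ⊆
          (Finset.univ.filter (fun g : G => g ∈ H)).image (fun h => h * y * h⁻¹) := by
        intro g hg
        obtain ⟨u, hu, rfl⟩ := Finset.mem_image.mp hg
        rw [mem_cl]
        have huF : u ∈ F ∧ u ^ p = 1 := by
          rcases Finset.mem_insert.mp hu with rfl | hu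
          · exact ⟨F.one_mem, one_pow p⟩
          · have hc := (mem_cl _ _).mp hu
            obtain ⟨h, hh, rfl⟩ := hc
            exact ⟨conjF h hh _ hxF, (Cpow _ _ ⟨h, hh, rfl⟩ p).mp hxp⟩
        apply dich2 _ (F.mul_mem hyF huF.1)
        rw [(show Commute y u from hcomm y hyF u huF.1).mul_pow, huF.2, mul_one]
        exact hyp
      have hcard := Finset.card_le_card hsub
      rw [Finset.card_image_of_injective _ (mul_right_injective y), Finset.card_insert_of_notMem,
        hcl_card _ hxF hx1, hcl_card _ hyF hy1] at hcard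
      · omega
      · intro h1
        have h2 := hcl_sub _ hxF hx1 h1
        simp at h2
    · -- y has prime order q ≠ p
      have hc1 := dich2 _ hypF hyy
      have hord1 := Cord _ _ hc1
      have hmpos : 0 < orderOf y := orderOf_pos y
      have hcop : Nat.Coprime (orderOf y) p := by
        rw [orderOf_pow y] at hord1
        have h1 : orderOf y / Nat.gcd (orderOf y) p * Nat.gcd (orderOf y) p = orderOf y :=
          Nat.div_mul_cancel (Nat.gcd_dvd_left _ _)
        rw [← hord1] at h1
        have h2 : orderOf y * Nat.gcd (orderOf y) p = orderOf y * 1 := by rw [mul_one]; exact h1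
        exact Nat.eq_of_mul_eq_mul_left hmpos h2
      have hm1 : orderOf y ≠ 1 := fun e => hy1 (orderOf_eq_one_iff.mp e)
      obtain ⟨q, hqdef⟩ : ∃ q, q = Nat.minFac (orderOf y) := ⟨_, rfl⟩
      have hq : q.Prime := by rw [hqdef]; exact Nat.minFac_prime hm1
      have hqdvd : q ∣ orderOf y := by rw [hqdef]; exact Nat.minFac_dvd _
      have hqp : q ≠ p := by
        rintro rfl
        have := Nat.Coprime.eq_one_of_dvd hcop.symm hqdvd
        exact hq.one_lt.ne this.symm
      obtain ⟨k, hk⟩ := hqdvd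
      have hkpos : 0 < k := by
        rcases Nat.eq_zero_or_pos k with h0 | h0
        · rw [h0, mul_zero] at hk
          omega
        · exact h0
      have hy'ord : orderOf (y ^ k) = q := by
        rw [orderOf_pow_of_dvd hkpos.ne' ⟨q, by rw [hk, mul_comm]⟩, hk]
        exact Nat.mul_div_cancel _ hkpos
      have hy'p : (y ^ k) ^ p ≠ 1 := by
        intro e
        have h1 := orderOf_dvd_of_pow_eq_one e
        rw [hy'ord] at h1
        exact hqp ((Nat.prime_dvd_prime_iff_eq hq hp).mp h1)
      have hc2 := dich2 _ (F.pow_mem hyF k) hy'p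
      have hyord : orderOf y = q := by rw [Cord _ _ hc2, hy'ord]
      -- an element of odd prime order inverted by some h
      have hinvol : ∃ h ∈ H, h ≠ 1 ∧ h * h = 1 := by
        have key : ∀ w ∈ F, w ≠ 1 → orderOf w ≠ 2 → (∃ h ∈ H, h * w * h⁻¹ = w⁻¹) →
            ∃ h ∈ H, h ≠ 1 ∧ h * h = 1 := by
          rintro w hw w1 hw2 ⟨h, hh, e⟩
          refine ⟨h, hh, ?_, ?_⟩
          · rintro rfl
            have e1 : w * w = 1 := by
              have e2 : w = w⁻¹ := by simpa using e
              calc w * w = w * w⁻¹ := by rw [← e2]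
                _ = 1 := mul_inv_cancel w
            have h1 : orderOf w ∣ 2 := orderOf_dvd_of_pow_eq_one (by rw [sq]; exact e1)
            have h2 : orderOf w ≠ 1 := fun e3 => w1 (orderOf_eq_one_iff.mp e3)
            rcases (Nat.dvd_prime Nat.prime_two).mp h1 with h3 | h3
            · exact h2 h3
            · exact hw2 h3
          · apply semireg (h * h) (H.mul_mem hh hh) w hw w1
            calc h * h * w * (h * h)⁻¹ = h * (h * w * h⁻¹) * h⁻¹ := by group
              _ = h * w⁻¹ * h⁻¹ := by rw [e]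
              _ = (h * w * h⁻¹)⁻¹ := by group
              _ = w := by rw [e, inv_inv]
        by_cases hp2 : p = 2
        · have hq2 : q ≠ 2 := by rw [← hp2]; exact hqp
          apply key y hyF hy1 (by rw [hyord]; exact hq2)
          apply dich2 _ (F.inv_mem hyF)
          rw [inv_pow]
          exact inv_ne_one.mpr hyp
        · apply key _ hxF hx1 (by rw [hxord]; exact hp2)
          apply dich1 _ (F.inv_mem hxF) (inv_ne_one.mpr hx1)
          rw [inv_pow, hxp, inv_one]
      obtain ⟨h, hh, h1, hhh⟩ := hinvol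
      -- F is abelian
      have hcommF : ∀ u ∈ F, ∀ v ∈ F, u * v = v * u := by
        let τ : ↥F →* ↥F :=
          { toFun := fun u => ⟨h * u.1 * h⁻¹, conjF h hh u.1 u.2⟩
            map_one' := by
              apply Subtype.ext
              show h * (1 : G) * h⁻¹ = 1
              group
            map_mul' := by
              intro u v
              apply Subtype.ext
              show h * (u.1 * v.1) * h⁻¹ = h * u.1 * h⁻¹ * (h * v.1 * h⁻¹)
              group }
        have hfpf : MonoidHom.FixedPointFree τ := by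
          intro u hu
          by_contra hu1
          have e : h * u.1 * h⁻¹ = u.1 := congrArg Subtype.val hu
          exact h1 (semireg h hh u.1 u.2 (fun e1 => hu1 (Subtype.ext e1)) e)
        have hinvo : Function.Involutive τ := by
          intro u
          apply Subtype.ext
          show h * (h * u.1 * h⁻¹) * h⁻¹ = u.1
          have e : h * (h * u.1 * h⁻¹) * h⁻¹ = (h * h) * u.1 * (h * h)⁻¹ := by group
          rw [e, hhh]
          group
        intro u hu v hv
        have := hfpf.commute_all_of_involutive hinvo ⟨u, hu⟩ ⟨v, hv⟩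
        exact congrArg Subtype.val this
      -- x * y
      have hxy : Commute (x : G) y := hcommF _ hxF y hyF
      have h2 : ((x : G) * y) ^ p ≠ 1 := by
        rw [hxy.mul_pow, hxp, one_mul]
        exact hyp
      have hc3 := dich2 _ (F.mul_mem hxF hyF) h2
      have h3 : ((x : G) * y) ^ q = 1 := (Cpow _ _ hc3 q).mp (by rw [← hyord]; exact pow_orderOf_eq_one y)
      rw [hxy.mul_pow, ← hyord, pow_orderOf_eq_one, mul_one, hyord] at h3
      have h4 := orderOf_dvd_of_pow_eq_one h3
      rw [hxord] at h4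
      exact hqp ((Nat.prime_dvd_prime_iff_eq hp hq).mp h4).symm
  have hcomm := ABEL p hp (fun u hu => ⟨1, by rw [pow_one]; exact hexp u hu⟩) ⟨x, hxF, hx1⟩
  refine ⟨⟨⟨fun u v => Subtype.ext (hcomm u.1 u.2 v.1 v.2)⟩⟩, p, ?_⟩
  have : Fact p.Prime := ⟨hp⟩
  have hPG : IsPGroup p ↥F := fun g => ⟨1, Subtype.ext (by
    rw [pow_one]
    exact hexp g.1 g.2)⟩
  obtain ⟨f, hf⟩ := IsPGroup.iff_card.mp hPG
  refine ⟨f, hp, hexp, ?_⟩
  rw [← hf, hFcard]
  omega

end Cfsg.Agent.S0738
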