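import Cfsg.Statements.S0740
import Mathlib
import Cfsg.Agent.S0741

set_option autoImplicit false
open Cfsg

namespace Cfsg.Agent.S0740

open MulAction

section lib

variable {G Ω : Type*} [Group G] [MulAction G Ω]

theorem exists_moved (hZ : Cfsg.IsZassenhausGroup G Ω) (t : G) (ht : t ≠ 1) : ∃ c : Ω, t • c ≠ c := by
  by_contra hcon
  push Not at hcon
  have := hZ.1
  exact ht (eq_of_smul_eq_smul (α := Ω) (fun c => by rw [hcon c, one_smul]))

theorem fix_count [Fintype Ω] (hZ : Cfsg.IsZassenhausGroup G Ω) (s : G) (hs : s * s = 1)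
    (hs1 : s ≠ 1) : Nat.card (MulAction.fixedBy Ω s) ≤ 2 ∧
      Nat.card (MulAction.fixedBy Ω s) % 2 = Fintype.card Ω % 2 := by
  classical
  have hcard : Nat.card (MulAction.fixedBy Ω s) =
      (Finset.univ.filter (fun x : Ω => s • x = x)).card := by
    apply Nat.subtype_card
    intro x
    simp only [Finset.mem_filter, Finset.mem_univ, true_and, MulAction.mem_fixedBy]
  rw [hcard]
  constructor
  · by_contra hgt
    push Not at hgt
    obtain ⟨x, hx, y, hy, z, hz, hxy, hxz, hyz⟩ := Finset.two_lt_card.mp hgt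
    simp only [Finset.mem_filter, Finset.mem_univ, true_and] at hx hy hz
    exact hs1 (Cfsg.Agent.S0741.three_fix hZ s x y z hxy hyz hxz hx hy hz)
  · have : Fact (Nat.Prime 2) := ⟨Nat.prime_two⟩
    have h1 := Equiv.Perm.card_compl_support_modEq (p := 2) (n := 1)
      (σ := (MulAction.toPerm s : Equiv.Perm Ω)) (by
        rw [pow_one, sq]
        ext x
        simp only [Equiv.Perm.coe_mul, Function.comp_apply, MulAction.toPerm_apply,
          Equiv.Perm.coe_one, id_eq]
        rw [← mul_smul, hs, one_smul])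
    have h2 : (MulAction.toPerm s : Equiv.Perm Ω).supportᶜ =
        Finset.univ.filter (fun x : Ω => s • x = x) := by
      ext x
      simp only [Finset.mem_compl, Equiv.Perm.mem_support, MulAction.toPerm_apply, not_not,
        Finset.mem_filter, Finset.mem_univ, true_and]
    rw [h2] at h1
    exact h1

theorem invol_of_order {s : G} (h : orderOf s = 2) : s * s = 1 ∧ s ≠ 1 := by
  constructor
  · have h1 := pow_orderOf_eq_one s
    rwa [h, sq] at h1
  · intro h1
    rw [h1, orderOf_one] at h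
    norm_num at h

theorem order_of_invol {s : G} (h : s * s = 1) (h1 : s ≠ 1) : orderOf s = 2 := by
  have : Fact (Nat.Prime 2) := ⟨Nat.prime_two⟩
  exact orderOf_eq_prime (by rw [sq]; exact h) h1

/-- conjugating an involution with a 2-cycle `(c c')` to one swapping `a` and `b` -/
theorem conj_swap (hZ : Cfsg.IsZassenhausGroup G Ω) {a b : Ω} (hab : a ≠ b) (t : G)
    (ht : t * t = 1) (c : Ω) (hc : t • c ≠ c) :
    ∃ h : G, (h * t * h⁻¹) * (h * t * h⁻¹) = 1 ∧ h * t * h⁻¹ ≠ 1 ∧ (h * t * h⁻¹) • a = b ∧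
      (h * t * h⁻¹) • b = a ∧ h • c = a := by
  obtain ⟨h, h1, h2⟩ := Cfsg.Agent.S0741.two_trans hZ (Ne.symm hc) hab
  have hi1 : h⁻¹ • a = c := by rw [inv_smul_eq_iff, h1]
  have hi2 : h⁻¹ • b = t • c := by rw [inv_smul_eq_iff, h2]
  have e1 : (h * t * h⁻¹) • a = b := by rw [mul_smul, mul_smul, hi1, h2]
  refine ⟨h, ?_, ?_, e1, ?_, h1⟩
  · have e : h * t * h⁻¹ * (h * t * h⁻¹) = h * (t * t) * h⁻¹ := by group
    rw [e, ht]
    group
  · intro hh
    rw [hh, one_smul] at e1
    exact hab e1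
  · rw [mul_smul, mul_smul, hi2, ← mul_smul t t, ht, one_smul, h1]

end lib

/-- In a finite Zassenhaus group any two points `a ≠ b` are swapped by an involution; every such involution has exactly one fixed point when the degree is odd and 0 or 2 fixed points when the degree is even; and if the two-point stabiliser has even order, some such involution has exactly 2 fixed points. -/
theorem result {G Ω : Type*} [Group G] [Finite G] [MulAction G Ω] [Fintype Ω] (hZ : Cfsg.IsZassenhausGroup G Ω) {a b : Ω} (hab : a ≠ b) : (∃ s : G, orderOf s = 2 ∧ s • a = b ∧ s • b = a) ∧ (∀ s : G, orderOf s = 2 → s • a = b → s • b = a → (Odd (Fintype.card Ω) → Nat.card (MulAction.fixedBy Ω s) = 1) ∧ (Even (Fintype.card Ω) → Nat.card (MulAction.fixedBy Ω s) = 0 ∨ Nat.card (MulAction.fixedBy Ω s) = 2)) ∧ (Even (Fintype.card Ω) → Even (Nat.card ↥(MulAction.stabilizer G a ⊓ MulAction.stabilizer G b)) → ∃ s : G, orderOf s = 2 ∧ s • a = b ∧ s • b = a ∧ Nat.card (MulAction.fixedBy Ω s) = 2) := by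
  have part2 : ∀ s : G, s * s = 1 → s ≠ 1 →
      (Odd (Fintype.card Ω) → Nat.card (MulAction.fixedBy Ω s) = 1) ∧
      (Even (Fintype.card Ω) → Nat.card (MulAction.fixedBy Ω s) = 0 ∨
        Nat.card (MulAction.fixedBy Ω s) = 2) := by
    intro s hs hs1
    obtain ⟨h1, h2⟩ := fix_count hZ s hs hs1
    constructor
    · intro ho
      rw [Nat.odd_iff] at ho
      omega
    · intro he
      rw [Nat.even_iff] at he
      omega
  refine ⟨?_, ?_, ?_⟩
  · -- an involution swapping a and b
    obtain ⟨g, ga, gb⟩ := Cfsg.Agent.S0741.two_trans hZ hab (Ne.symm hab)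
    have hodd : ∀ j : ℕ, g ^ (2 * j + 1) • a = b := by
      intro j
      induction j with
      | zero => simpa using ga
      | succ j ih =>
        have e : g ^ (2 * (j + 1) + 1) = g * g * g ^ (2 * j + 1) := by
          rw [show 2 * (j + 1) + 1 = 2 + (2 * j + 1) by ring, pow_add, sq]
        rw [e, mul_smul, mul_smul, ih, gb, ga]
    have h2 : 2 ∣ orderOf g := by
      by_contra hnd
      obtain ⟨j, hj⟩ : ∃ j, orderOf g = 2 * j + 1 := ⟨orderOf g / 2, by omega⟩
      have h := hodd j
      rw [← hj, pow_orderOf_eq_one, one_smul] at h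
      exact hab h
    have : Fact (Nat.Prime 2) := ⟨Nat.prime_two⟩
    obtain ⟨t, ht⟩ := exists_prime_orderOf_dvd_card' 2 (dvd_trans h2 (orderOf_dvd_natCard g))
    obtain ⟨htt, ht1⟩ := invol_of_order ht
    obtain ⟨c, hc⟩ := exists_moved hZ t ht1
    obtain ⟨h, e1, e2, e3, e4, -⟩ := conj_swap hZ hab t htt c hc
    exact ⟨h * t * h⁻¹, order_of_invol e1 e2, e3, e4⟩
  · intro s hs _ _
    obtain ⟨h1, h2⟩ := invol_of_order hs
    exact part2 s h1 h2
  · intro hev hd
    obtain ⟨z, zz, z1, za, zb⟩ := Cfsg.Agent.S0741.exists_invol hZ hab hd a b hab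
    obtain ⟨c, hc⟩ := exists_moved hZ z z1
    obtain ⟨h, e1, e2, e3, e4, -⟩ := conj_swap hZ hab z zz c hc
    refine ⟨h * z * h⁻¹, order_of_invol e1 e2, e3, e4, ?_⟩
    have hfix : (h * z * h⁻¹) • (h • a) = h • a := by
      rw [mul_smul, mul_smul, inv_smul_smul, za]
    have hmem : h • a ∈ MulAction.fixedBy Ω (h * z * h⁻¹) := hfix
    have hpos : 0 < Nat.card (MulAction.fixedBy Ω (h * z * h⁻¹)) :=
      Nat.card_pos_iff.mpr ⟨⟨⟨h • a, hmem⟩⟩, inferInstance⟩
    rcases (part2 _ e1 e2).2 hev with h0 | h0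
    · omega
    · exact h0

end Cfsg.Agent.S0740
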