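import Mathlib
import Cfsg.Statements.S0743

set_option autoImplicit false
open Cfsg

namespace Cfsg.Agent.S0743

open MulAction SubMulAction

universe u v

theorem transfer {G : Type u} {α : Type v} [Group G] [MulAction G α] [Finite α] (p k : ℕ) (a : α)
    (h : ∀ s : Set α, s.ncard = k + 1 → ∃ P : Subgroup G, IsPGroup p P ∧ fixedPoints P α = s) :
    ∀ s : Set (ofStabilizer G a), s.ncard = k →
      ∃ P : Subgroup (stabilizer G a), IsPGroup p P ∧ fixedPoints P (ofStabilizer G a) = s := by
  intro s hs
  have ha' : a ∉ Subtype.val '' s := by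
    rintro ⟨x, _, hx⟩
    exact x.prop (by rw [hx]; exact Set.mem_singleton a)
  obtain ⟨P, hP, hfix⟩ := h (insert a (Subtype.val '' s)) (by
    rw [Set.ncard_insert_of_notMem ha', Set.ncard_image_of_injective s Subtype.val_injective, hs])
  have hPa : P ≤ stabilizer G a := by
    intro g hg
    have : a ∈ fixedPoints P α := by rw [hfix]; exact Set.mem_insert _ _
    exact this ⟨g, hg⟩
  refine ⟨P.subgroupOf (stabilizer G a), hP.comap_subtype, ?_⟩
  ext x
  constructor
  · intro hx
    have hx' : (x : α) ∈ fixedPoints P α := by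
      intro g
      have := hx ⟨⟨g.1, hPa g.2⟩, by simp [Subgroup.mem_subgroupOf]⟩
      exact congrArg Subtype.val this
    rw [hfix] at hx'
    rcases hx' with h1 | ⟨y, hy, hyx⟩
    · exact absurd h1 x.prop
    · have : y = x := Subtype.ext hyx
      exact this ▸ hy
  · intro hx g
    have hx' : (x : α) ∈ fixedPoints P α := by
      rw [hfix]; exact Set.mem_insert_of_mem _ ⟨x, hx, rfl⟩
    apply Subtype.ext
    exact hx' ⟨g.1.1, g.2⟩

theorem gleason_one {G : Type u} {α : Type v} [Group G] [MulAction G α] [Finite α] (p : ℕ)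
    (hp : p.Prime)
    (h : ∀ s : Set α, s.ncard = 0 + 1 → ∃ P : Subgroup G, IsPGroup p P ∧ fixedPoints P α = s) :
    IsPretransitive G α := by
  haveI : Fact p.Prime := ⟨hp⟩
  refine ⟨fun a b => ?_⟩
  by_contra hcon
  have hb : b ∉ orbit G a := fun hb => hcon hb
  obtain ⟨Pa, hPa, hfa⟩ := h {a} (by simp)
  obtain ⟨Pb, hPb, hfb⟩ := h {b} (by simp)
  have h1 : Nat.card (orbit G a) ≡ Nat.card (fixedPoints Pa (orbit G a)) [MOD p] :=
    hPa.card_modEq_card_fixedPoints (orbit G a)
  have h2 : Nat.card (orbit G a) ≡ Nat.card (fixedPoints Pb (orbit G a)) [MOD p] :=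
    hPb.card_modEq_card_fixedPoints (orbit G a)
  have h3 : Nat.card (fixedPoints Pa (orbit G a)) = 1 := by
    rw [Nat.card_eq_one_iff_unique]
    refine ⟨⟨?_⟩, ⟨⟨⟨a, mem_orbit_self a⟩, ?_⟩⟩⟩
    · rintro ⟨x, hx⟩ ⟨y, hy⟩
      have hx' : (x : α) ∈ fixedPoints Pa α := fun g => congrArg Subtype.val (hx g)
      have hy' : (y : α) ∈ fixedPoints Pa α := fun g => congrArg Subtype.val (hy g)
      rw [hfa, Set.mem_singleton_iff] at hx' hy'
      apply Subtype.ext; apply Subtype.ext
      rw [hx', hy']
    · intro g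
      apply Subtype.ext
      have : a ∈ fixedPoints Pa α := by rw [hfa]; rfl
      exact this g
  have h4 : Nat.card (fixedPoints Pb (orbit G a)) = 0 := by
    rw [Nat.card_eq_zero]; left
    refine ⟨fun ⟨x, hx⟩ => ?_⟩
    have hx' : (x : α) ∈ fixedPoints Pb α := fun g => congrArg Subtype.val (hx g)
    rw [hfb, Set.mem_singleton_iff] at hx'
    exact hb (hx' ▸ x.2)
  rw [h3] at h1; rw [h4] at h2
  have h5 : 1 % p = 0 % p := h1.symm.trans h2
  rw [Nat.mod_eq_of_lt hp.one_lt, Nat.zero_mod] at h5
  exact one_ne_zero h5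

theorem gleason_trans : ∀ (k : ℕ) {G : Type u} {α : Type v} [Group G] [MulAction G α] [Finite α]
    (p : ℕ) (_ : p.Prime) (_ : k + 1 < Nat.card α)
    (_ : ∀ s : Set α, s.ncard = k + 1 → ∃ P : Subgroup G, IsPGroup p P ∧ fixedPoints P α = s),
    IsPretransitive G α := by
  intro k
  induction k with
  | zero =>
    intro G α _ _ _ p hp hcard h
    exact gleason_one p hp h
  | succ n ih =>
    intro G α _ _ _ p hp hcard h
    refine ⟨fun a b => ?_⟩
    by_cases hab : a = b
    · exact ⟨1, by rw [one_smul, hab]⟩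
    · obtain ⟨c, hca, hcb⟩ : ∃ c : α, c ≠ a ∧ c ≠ b := by
        by_contra hcon
        push_neg at hcon
        have : Nat.card α ≤ 2 := by
          have hsub : (Set.univ : Set α) ⊆ {a, b} := by
            intro c _
            by_cases hc : c = a
            · left; exact hc
            · right; exact hcon c hc
          calc Nat.card α = (Set.univ : Set α).ncard := (Set.ncard_univ α).symm
            _ ≤ ({a, b} : Set α).ncard := Set.ncard_le_ncard hsub
            _ ≤ 2 := (Set.ncard_insert_le a {b}).trans (by rw [Set.ncard_singleton])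
        omega
      have hcard' : n + 1 < Nat.card (ofStabilizer G c) := by
        have := nat_card_ofStabilizer_add_one_eq G c
        omega
      have htr := ih (G := stabilizer G c) (α := ofStabilizer G c) p hp hcard'
        (transfer p (n + 1) c h)
      obtain ⟨g, hg⟩ := htr.exists_smul_eq ⟨a, fun h => hca h.symm⟩ ⟨b, fun h => hcb h.symm⟩
      exact ⟨g.1, congrArg Subtype.val hg⟩

theorem gleason_aux : ∀ (k : ℕ) {G : Type u} {α : Type v} [Group G] [MulAction G α] [Finite α]
    (p : ℕ) (_ : p.Prime) (_ : k < Nat.card α)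
    (_ : ∀ s : Set α, s.ncard = k → ∃ P : Subgroup G, IsPGroup p P ∧ fixedPoints P α = s),
    IsMultiplyPretransitive G α k := by
  intro k
  induction k with
  | zero => intros; exact is_zero_pretransitive'
  | succ n ih =>
    intro G α _ _ _ p hp hcard h
    haveI : IsPretransitive G α := gleason_trans n p hp hcard h
    have hne : Nonempty α := by
      rw [← Finite.card_pos_iff]; omega
    obtain ⟨a⟩ := hne
    rw [ofStabilizer.isMultiplyPretransitive (a := a)]
    exact ih p hp (by have := nat_card_ofStabilizer_add_one_eq G a; omega) (transfer p n a h)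

/-- Gleason's Lemma: let `p` be a prime and `1 ≤ k < n`; if every `k`-subset of the `n` points is exactly the fixed-point set of some `p`-subgroup of `G`, then `G` is `k`-transitive. -/
theorem result {α : Type*} [Fintype α] [DecidableEq α] (G : Subgroup (Equiv.Perm α)) {p k : ℕ} (hp : p.Prime) (hk : 1 ≤ k) (hkn : k < Fintype.card α) (h : ∀ s : Finset α, s.card = k → ∃ P : Subgroup G, IsPGroup p P ∧ MulAction.fixedPoints P α = (s : Set α)) : MulAction.IsMultiplyPretransitive G α k := by
  refine gleason_aux k p hp (by rw [Nat.card_eq_fintype_card]; exact hkn) ?_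
  intro s hs
  obtain ⟨P, hP, hfix⟩ := h (Set.toFinite s).toFinset
    (by rw [← Set.ncard_eq_toFinset_card s (Set.toFinite s)]; exact hs)
  exact ⟨P, hP, by rw [hfix, Set.Finite.coe_toFinset]⟩

end Cfsg.Agent.S0743
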