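import Mathlib
import Cfsg.Statements.S0744

set_option autoImplicit false
open Cfsg

namespace Cfsg.Agent.S0744

open MulAction SubMulAction

universe u v w

theorem orbit_count {H : Type u} {β : Type v} [Group H] [MulAction H β] [Finite H] [Finite β]
    (m : ℕ) (hm : ∀ x : β, Nat.card (stabilizer H x) = m) : (Nat.card H / m) ∣ Nat.card β := by
  classical
  haveI := Fintype.ofFinite H
  haveI := Fintype.ofFinite β
  haveI : Fintype (Quotient (orbitRel H β)) := Fintype.ofFinite _
  have key := card_eq_sum_card_group_div_card_stabilizer H β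
  rw [Nat.card_eq_fintype_card, Nat.card_eq_fintype_card, key]
  apply Finset.dvd_sum
  intro ω _
  rw [← Nat.card_eq_fintype_card (α := stabilizer H ω.out), hm]

theorem stab_card {G : Type u} {α : Type v} [Group G] [MulAction G α] (a : α) {β : Type w}
    [MulAction (stabilizer G a) β] (f : β → α)
    (hf : ∀ (h : stabilizer G a) (x : β), f (h • x) = (h : G) • f x)
    (hinj : Function.Injective f) (x : β) :
    Nat.card (stabilizer (stabilizer G a) x) =
      Nat.card (fixingSubgroup G ({a, f x} : Set α)) := by
  apply Nat.card_congr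
  refine ⟨fun g => ⟨g.1.1, ?_⟩, fun g => ⟨⟨g.1, ?_⟩, ?_⟩, fun g => rfl, fun g => rfl⟩
  · rw [mem_fixingSubgroup_iff]
    intro y hy
    rcases hy with rfl | hy
    · exact g.1.2
    · rw [Set.mem_singleton_iff] at hy; subst hy
      have h2 : g.1 • x = x := g.2
      rw [← hf, h2]
  · exact (mem_fixingSubgroup_iff G).mp g.2 a (Set.mem_insert _ _)
  · rw [mem_stabilizer_iff]
    apply hinj
    rw [hf]
    exact (mem_fixingSubgroup_iff G).mp g.2 (f x) (Set.mem_insert_of_mem _ rfl)

theorem base {G : Type u} {α : Type v} [Group G] [MulAction G α] [Finite G] [Finite α] (l m : ℕ)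
    (hlm : l ≠ m)
    (h1 : ∀ s : Set α, s.ncard = 0 + 1 → Nat.card (fixingSubgroup G s) = l)
    (h2 : ∀ s : Set α, s.ncard = 0 + 1 + 1 → Nat.card (fixingSubgroup G s) = m) :
    IsPretransitive G α := by
  refine ⟨fun a b => ?_⟩
  by_contra hcon
  have hb : b ∉ orbit G a := fun hb => hcon hb
  have hab : a ≠ b := by
    rintro rfl
    exact hb (mem_orbit_self a)
  have ha : a ∉ orbit G b := fun ha => hb (mem_orbit_symm.mp ha)
  have hstab : ∀ c : α, Nat.card (stabilizer G c) = l := by
    intro c
    have e : stabilizer G c = fixingSubgroup G {c} := by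
      ext g; simp [mem_fixingSubgroup_iff]
    rw [e]; exact h1 {c} (by simp)
  have hpair : ∀ c d : α, c ≠ d → Nat.card (fixingSubgroup G ({c, d} : Set α)) = m := by
    intro c d hcd
    exact h2 {c, d} (by rw [Set.ncard_pair hcd])
  have hi : (l / m) ∣ Nat.card (ofStabilizer G a) := by
    have := orbit_count (H := stabilizer G a) (β := ofStabilizer G a) m (fun x => by
      rw [stab_card a (fun y : ofStabilizer G a => (y : α)) (fun _ _ => rfl)
        Subtype.val_injective x]
      exact hpair a x (fun h => x.prop h.symm))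
    rwa [hstab a] at this
  have hii : (l / m) ∣ Nat.card (orbit G b) := by
    have := orbit_count (H := stabilizer G a) (β := orbit G b) m (fun x => by
      rw [stab_card a (fun y : orbit G b => (y : α)) (fun _ _ => rfl)
        Subtype.val_injective x]
      exact hpair a x (fun h => ha (h ▸ x.2)))
    rwa [hstab a] at this
  have hlpos : 0 < l := hstab a ▸ Nat.card_pos
  have hiii : Nat.card (orbit G b) ∣ Nat.card α := by
    have := orbit_count (H := G) (β := α) l hstab
    have h3 : Nat.card (orbit G b) = Nat.card G / l := by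
      have h4 := Subgroup.index_mul_card (stabilizer G b)
      rw [index_stabilizer, hstab b] at h4
      rw [Nat.card_coe_set_eq, ← h4]
      exact (Nat.mul_div_cancel _ hlpos).symm
    rwa [h3]
  have hn := nat_card_ofStabilizer_add_one_eq G a
  have hd1 : l / m ∣ 1 := by
    have h5 : l / m ∣ Nat.card α := hii.trans hiii
    rw [← hn] at h5
    exact (Nat.dvd_add_right hi).mp h5
  have hd : l / m = 1 := Nat.dvd_one.mp hd1
  have hml : m ∣ l := by
    rw [← hstab a, ← hpair a b hab]
    apply Subgroup.card_dvd_of_le
    intro g hg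
    exact (mem_fixingSubgroup_iff G).mp hg a (Set.mem_insert _ _)
  have := Nat.div_mul_cancel hml
  rw [hd, one_mul] at this
  exact hlm this.symm

theorem transfer {G : Type u} {α : Type v} [Group G] [MulAction G α] [Finite α] (j l : ℕ) (a : α)
    (h : ∀ s : Set α, s.ncard = j + 1 → Nat.card (fixingSubgroup G s) = l) :
    ∀ s : Set (ofStabilizer G a), s.ncard = j →
      Nat.card (fixingSubgroup (stabilizer G a) s) = l := by
  intro s hs
  have ha' : a ∉ Subtype.val '' s := by
    rintro ⟨x, _, hx⟩
    exact x.prop (by rw [hx]; exact Set.mem_singleton a)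
  rw [← Nat.card_congr (fixingSubgroupInsertEquiv a s).toEquiv]
  apply h
  rw [Set.ncard_insert_of_notMem ha', Set.ncard_image_of_injective s Subtype.val_injective, hs]

theorem trans_aux : ∀ (j : ℕ) {G : Type u} {α : Type v} [Group G] [MulAction G α] [Finite G]
    [Finite α] (l m : ℕ) (_ : l ≠ m) (_ : j + 2 ≤ Nat.card α)
    (_ : ∀ s : Set α, s.ncard = j + 1 → Nat.card (fixingSubgroup G s) = l)
    (_ : ∀ s : Set α, s.ncard = j + 1 + 1 → Nat.card (fixingSubgroup G s) = m),
    IsPretransitive G α := by
  intro j
  induction j with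
  | zero =>
    intro G α _ _ _ _ l m hlm hcard h1 h2
    exact base l m hlm h1 h2
  | succ n ih =>
    intro G α _ _ _ _ l m hlm hcard h1 h2
    refine ⟨fun a b => ?_⟩
    by_cases hab : a = b
    · exact ⟨1, by rw [one_smul, hab]⟩
    · obtain ⟨c, hca, hcb⟩ : ∃ c : α, c ≠ a ∧ c ≠ b := by
        by_contra hcon
        push_neg at hcon
        have : Nat.card α ≤ 2 := by
          have hsub : (Set.univ : Set α) ⊆ {a, b} := by
            intro c _
            by_cases hc : c = a
            · left; exact hc
            · right; exact hcon c hc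
          calc Nat.card α = (Set.univ : Set α).ncard := (Set.ncard_univ α).symm
            _ ≤ ({a, b} : Set α).ncard := Set.ncard_le_ncard hsub
            _ ≤ 2 := (Set.ncard_insert_le a {b}).trans (by rw [Set.ncard_singleton])
        omega
      have hcard' : n + 2 ≤ Nat.card (ofStabilizer G c) := by
        have := nat_card_ofStabilizer_add_one_eq G c
        omega
      have htr := ih (G := stabilizer G c) (α := ofStabilizer G c) l m hlm hcard'
        (transfer (n + 1) l c h1) (transfer (n + 1 + 1) m c h2)
      obtain ⟨g, hg⟩ := htr.exists_smul_eq ⟨a, fun h => hca h.symm⟩ ⟨b, fun h => hcb h.symm⟩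
      exact ⟨g.1, congrArg Subtype.val hg⟩

theorem main_aux : ∀ (j : ℕ) {G : Type u} {α : Type v} [Group G] [MulAction G α] [Finite G]
    [Finite α] (l m : ℕ) (_ : l ≠ m) (_ : j + 1 ≤ Nat.card α)
    (_ : ∀ s : Set α, s.ncard = j → Nat.card (fixingSubgroup G s) = l)
    (_ : ∀ s : Set α, s.ncard = j + 1 → Nat.card (fixingSubgroup G s) = m),
    IsMultiplyPretransitive G α j := by
  intro j
  induction j with
  | zero => intros; exact is_zero_pretransitive'
  | succ n ih =>
    intro G α _ _ _ _ l m hlm hcard h1 h2
    haveI : IsPretransitive G α := trans_aux n l m hlm hcard h1 h2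
    have hne : Nonempty α := by
      rw [← Finite.card_pos_iff]; omega
    obtain ⟨a⟩ := hne
    rw [ofStabilizer.isMultiplyPretransitive (a := a)]
    exact ih l m hlm (by have := nat_card_ofStabilizer_add_one_eq G a; omega)
      (transfer n l a h1) (transfer (n + 1) m a h2)

/-- If for some `k > 1` the pointwise stabilisers of all `(k-1)`-subsets have the same order `> 1` and those of all `k`-subsets have the same order, then the group is `(k-1)`-transitive. -/
theorem result {α : Type*} [Fintype α] [DecidableEq α] (G : Subgroup (Equiv.Perm α)) {k : ℕ} (hk : 1 < k) (hkn : k ≤ Fintype.card α) (l m : ℕ) (hl : 1 < l) (hkm1 : ∀ s : Finset α, s.card = k - 1 → Nat.card (fixingSubgroup G (s : Set α)) = l) (hkm : ∀ s : Finset α, s.card = k → Nat.card (fixingSubgroup G (s : Set α)) = m) : MulAction.IsMultiplyPretransitive G α (k - 1) := by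
  obtain ⟨j, rfl⟩ : ∃ j, k = j + 1 := ⟨k - 1, by omega⟩
  simp only [Nat.add_sub_cancel] at hkm1 ⊢
  have hG1 : ∀ s : Set α, s.ncard = j → Nat.card (fixingSubgroup G s) = l := by
    intro s hs
    have := hkm1 (Set.toFinite s).toFinset
      (by rw [← Set.ncard_eq_toFinset_card s (Set.toFinite s)]; exact hs)
    rwa [Set.Finite.coe_toFinset] at this
  have hG2 : ∀ s : Set α, s.ncard = j + 1 → Nat.card (fixingSubgroup G s) = m := by
    intro s hs
    have := hkm (Set.toFinite s).toFinset
      (by rw [← Set.ncard_eq_toFinset_card s (Set.toFinite s)]; exact hs)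
    rwa [Set.Finite.coe_toFinset] at this
  have hlm : l ≠ m := by
    obtain ⟨t, ht⟩ : ∃ t : Finset α, t.card = j := by
      obtain ⟨t, -, ht⟩ := Finset.exists_subset_card_eq (s := (Finset.univ : Finset α)) (n := j)
        (by rw [Finset.card_univ]; omega)
      exact ⟨t, ht⟩
    have hH := hkm1 t ht
    have hnt : ∃ g : G, g ∈ fixingSubgroup G (t : Set α) ∧ g ≠ 1 := by
      by_contra hcon
      push_neg at hcon
      have : fixingSubgroup G (t : Set α) = ⊥ := by
        rw [eq_bot_iff]; intro x hx; exact Subgroup.mem_bot.mpr (hcon x hx)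
      rw [this] at hH
      simp at hH
      omega
    obtain ⟨g, hgt, hg1⟩ := hnt
    have hxa : ∃ x : α, g • x ≠ x := by
      by_contra hcon
      push_neg at hcon
      apply hg1
      apply Subtype.ext
      apply Equiv.ext
      intro a
      exact hcon a
    obtain ⟨x, hx⟩ := hxa
    have hxt : x ∉ t := fun hxt =>
      hx ((mem_fixingSubgroup_iff G).mp hgt x (Finset.mem_coe.mpr hxt))
    have hK := hkm (insert x t) (by rw [Finset.card_insert_of_notMem hxt, ht])
    intro hEq
    have hle : fixingSubgroup G ((insert x t : Finset α) : Set α) ≤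
        fixingSubgroup G (t : Set α) := by
      apply fixingSubgroup_antitone
      intro y hy
      rw [Finset.coe_insert]
      exact Set.mem_insert_of_mem _ hy
    have := Subgroup.eq_of_le_of_card_ge hle (by rw [hH, hK, hEq])
    rw [← this] at hgt
    exact hx ((mem_fixingSubgroup_iff G).mp hgt x (by simp))
  exact main_aux j l m hlm (by rw [Nat.card_eq_fintype_card]; omega) hG1 hG2

end Cfsg.Agent.S0744
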