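import Mathlib
import Cfsg.Statements.S0754

set_option autoImplicit false
open Cfsg

namespace Cfsg.Agent.S0754

/-- In a field F with q^2 elements, every non-zero μ with μ^q = μ (that is, μ in the subfield of order q) has exactly q + 1 solutions λ of λ^(q+1) = μ. -/
theorem result {F : Type*} [Field F] [Fintype F] {q : ℕ} (hF : Fintype.card F = q ^ 2) (μ : F) (hμ : μ ≠ 0) (hμq : μ ^ q = μ) : Nat.card {x : F // x ^ (q + 1) = μ} = q + 1 := by
  classical
  have hq2 : 2 ≤ q := by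
    have h1 : 1 < Fintype.card F := Fintype.one_lt_card
    rw [hF] at h1
    by_contra hlt
    have : q ≤ 1 := by omega
    have : q ^ 2 ≤ 1 := by
      calc q ^ 2 ≤ 1 ^ 2 := Nat.pow_le_pow_left this 2
        _ = 1 := by norm_num
    omega
  have hcardU : Nat.card Fˣ = (q - 1) * (q + 1) := by
    rw [Nat.card_eq_fintype_card, Fintype.card_units, hF]
    obtain ⟨k, rfl⟩ : ∃ k, q = k + 2 := ⟨q - 2, by omega⟩
    have h1 : k + 2 - 1 = k + 1 := rfl
    have : (k + 2) ^ 2 = (k + 2 - 1) * (k + 2 + 1) + 1 := by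
      rw [h1]
      ring
    omega
  set φ : Fˣ →* Fˣ := powMonoidHom (q + 1) with hφ
  set ψ : Fˣ →* Fˣ := powMonoidHom (q - 1) with hψ
  have hker : Nat.card φ.ker = q + 1 := by
    rw [hφ, IsCyclic.card_powMonoidHom_ker, hcardU]
    exact Nat.gcd_eq_right (Dvd.intro_left _ rfl)
  have hrange : Nat.card φ.range = q - 1 := by
    rw [hφ, IsCyclic.card_powMonoidHom_range, hcardU, Nat.gcd_eq_right (Dvd.intro_left _ rfl)]
    exact Nat.mul_div_cancel _ (by omega)
  have hkerψ : Nat.card ψ.ker = q - 1 := by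
    rw [hψ, IsCyclic.card_powMonoidHom_ker, hcardU]
    exact Nat.gcd_eq_right (Dvd.intro _ rfl)
  have hle : φ.range ≤ ψ.ker := by
    rintro _ ⟨x, rfl⟩
    rw [MonoidHom.mem_ker, hφ, hψ, powMonoidHom_apply, powMonoidHom_apply, ← pow_mul]
    have h1 : x ^ Nat.card Fˣ = 1 := pow_card_eq_one'
    rw [hcardU] at h1
    rw [mul_comm]; exact h1
  have heq : φ.range = ψ.ker := Subgroup.eq_of_le_of_card_ge hle (by rw [hkerψ, hrange])
  -- μ as a unit
  set u : Fˣ := Units.mk0 μ hμ with hu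
  have hu1 : u ^ (q - 1) = 1 := by
    apply Units.ext
    rw [Units.val_pow_eq_pow_val, Units.val_one, hu, Units.val_mk0]
    have h1 : μ ^ (q - 1) * μ = μ := by
      rw [← pow_succ, show q - 1 + 1 = q by omega]; exact hμq
    have h2 : μ ^ (q - 1) * μ = 1 * μ := by rw [h1, one_mul]
    exact mul_right_cancel₀ hμ h2
  have humem : u ∈ φ.range := by
    rw [heq, MonoidHom.mem_ker, hψ, powMonoidHom_apply]; exact hu1
  obtain ⟨x₀, hx₀⟩ := humem
  have hx₀' : x₀ ^ (q + 1) = u := hx₀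
  have hgoal : Nat.card φ.ker = Nat.card {x : F // x ^ (q + 1) = μ} := by
    let f : φ.ker → {x : F // x ^ (q + 1) = μ} := fun k =>
      ⟨((x₀ * (k : Fˣ) : Fˣ) : F), by
        have hk : (k : Fˣ) ^ (q + 1) = 1 := k.2
        have : (x₀ * (k : Fˣ)) ^ (q + 1) = u := by rw [mul_pow, hk, mul_one, hx₀']
        have h2 := congrArg Units.val this
        rw [Units.val_pow_eq_pow_val] at h2
        rw [h2, hu, Units.val_mk0]⟩
    apply Nat.card_eq_of_bijective f
    constructor
    · intro k₁ k₂ h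
      have h1 : ((x₀ * (k₁ : Fˣ) : Fˣ) : F) = ((x₀ * (k₂ : Fˣ) : Fˣ) : F) := congrArg Subtype.val h
      have h2 : x₀ * (k₁ : Fˣ) = x₀ * (k₂ : Fˣ) := Units.ext h1
      exact Subtype.ext (mul_left_cancel h2)
    · rintro ⟨x, hx⟩
      have hx0 : x ≠ 0 := by
        rintro rfl
        rw [zero_pow (by omega)] at hx
        exact hμ hx.symm
      set x' : Fˣ := Units.mk0 x hx0 with hx'
      have hxu : x' ^ (q + 1) = u := by
        apply Units.ext
        rw [Units.val_pow_eq_pow_val, hx', Units.val_mk0, hu, Units.val_mk0]; exact hx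
      refine ⟨⟨x₀⁻¹ * x', ?_⟩, ?_⟩
      · rw [MonoidHom.mem_ker, hφ, powMonoidHom_apply, mul_pow, inv_pow, hx₀', hxu, inv_mul_cancel]
      · apply Subtype.ext
        change ((x₀ * (x₀⁻¹ * x') : Fˣ) : F) = x
        rw [mul_inv_cancel_left, hx', Units.val_mk0]
  rw [← hgoal, hker]

end Cfsg.Agent.S0754
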