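import Cfsg.Statements.S2620
import Mathlib
-- import your own Cfsg.Agent.* helpers here

set_option autoImplicit false
open Cfsg

namespace Cfsg.Agent.S2620

/-- Gram determinant of a bilinear form in an arbitrary basis: a nonzero square times the
determinant in the standard basis. -/
theorem gram_det {F : Type*} [Field F] {n : Type*} [Fintype n] [DecidableEq n]
    {ι : Type*} [Fintype ι] [DecidableEq ι] (B : LinearMap.BilinForm F (n → F))
    (b : Module.Basis ι F (n → F)) :
    ∃ d : F, d ≠ 0 ∧ (Matrix.of (fun i j : ι => B (b i) (b j))).det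
      = d ^ 2 * (LinearMap.BilinForm.toMatrix' B).det := by
  classical
  let e : ι ≃ n := b.indexEquiv (Pi.basisFun F n)
  let c := b.reindex e
  let P := (Pi.basisFun F n).toMatrix c
  have h1 : (Matrix.of (fun i j : ι => B (b i) (b j)))
      = (LinearMap.BilinForm.toMatrix c B).submatrix e e := by
    ext i j
    simp [c, LinearMap.BilinForm.toMatrix_apply]
  have h2 : P.transpose * LinearMap.BilinForm.toMatrix (Pi.basisFun F n) B * P
      = LinearMap.BilinForm.toMatrix c B :=
    LinearMap.BilinForm.toMatrix_mul_basis_toMatrix _ c B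
  have h3 : P * c.toMatrix (Pi.basisFun F n) = 1 := Module.Basis.toMatrix_mul_toMatrix_flip _ _
  refine ⟨P.det, ?_, ?_⟩
  · intro h0
    have := congrArg Matrix.det h3
    rw [Matrix.det_mul, h0, zero_mul, Matrix.det_one] at this
    exact zero_ne_one this
  · rw [h1, Matrix.det_submatrix_equiv_self, ← h2, Matrix.det_mul, Matrix.det_mul,
      Matrix.det_transpose, LinearMap.BilinForm.toMatrix_basisFun]
    ring

/-- The Gram matrix of the hyperbolic form in the standard basis. -/
def smat (m : ℕ) (F : Type*) [Field F] : Matrix (Fin m ⊕ Fin m) (Fin m ⊕ Fin m) F :=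
  Matrix.fromBlocks (0 : Matrix (Fin m) (Fin m) F) (1 : Matrix (Fin m) (Fin m) F)
    (1 : Matrix (Fin m) (Fin m) F) (0 : Matrix (Fin m) (Fin m) F)

theorem det_S {F : Type*} [Field F] (m : ℕ) :
    (smat m F).det = (-1) ^ m := by
  have h : smat m F
      * Matrix.fromBlocks (1 : Matrix (Fin m) (Fin m) F) (0 : Matrix (Fin m) (Fin m) F)
          (1 : Matrix (Fin m) (Fin m) F) (1 : Matrix (Fin m) (Fin m) F)
      = Matrix.fromBlocks (1 : Matrix (Fin m) (Fin m) F) (1 : Matrix (Fin m) (Fin m) F)
          (1 : Matrix (Fin m) (Fin m) F) (0 : Matrix (Fin m) (Fin m) F) := by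
    unfold smat
    rw [Matrix.fromBlocks_multiply]
    simp
  have h2 := congrArg Matrix.det h
  rw [Matrix.det_mul, Matrix.det_fromBlocks_one₁₁, Matrix.det_fromBlocks_one₁₁] at h2
  simpa [Matrix.det_neg] using h2

theorem polar_eq {F : Type*} [Field F] (m : ℕ) (x y : Fin m ⊕ Fin m → F) :
    QuadraticMap.polar (Cfsg.quadFormPlus m F) x y
      = Matrix.toBilin' (smat m F) x y := by
  rw [Matrix.toBilin'_apply']
  simp only [smat, QuadraticMap.polar, Cfsg.quadFormPlus, dotProduct, Fintype.sum_sum_type,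
    Matrix.mulVec, Matrix.fromBlocks_apply₁₁, Matrix.fromBlocks_apply₁₂,
    Matrix.fromBlocks_apply₂₁, Matrix.fromBlocks_apply₂₂, Matrix.zero_apply, Matrix.one_apply,
    Pi.add_apply]
  simp only [zero_mul, Finset.sum_const_zero, zero_add, add_zero, ite_mul, one_mul,
    Finset.sum_ite_eq, Finset.mem_univ, if_true]
  rw [← Finset.sum_add_distrib, ← Finset.sum_sub_distrib, ← Finset.sum_sub_distrib]
  exact Finset.sum_congr rfl (fun i _ => by ring)

theorem isSquare_sq_mul {F : Type*} [Field F] {d : F} (hd : d ≠ 0) (x : F) :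
    IsSquare (d ^ 2 * x) ↔ IsSquare x := by
  constructor
  · rintro ⟨r, hr⟩
    refine ⟨r / d, ?_⟩
    field_simp
    rw [mul_comm, hr]; ring
  · rintro ⟨r, rfl⟩
    exact ⟨d * r, by ring⟩

theorem even_iff {q m : ℕ} (hq : Odd q) : Even (m * (q - 1) / 2) ↔ (Even m ∨ q % 4 ≠ 3) := by
  obtain ⟨k, rfl⟩ := hq
  have : m * (2 * k + 1 - 1) / 2 = m * k := by
    rw [Nat.add_sub_cancel, mul_left_comm, Nat.mul_div_cancel_left _ (by norm_num : 0 < 2)]
  rw [this, Nat.even_mul]
  constructor
  · rintro (h | h)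
    · exact Or.inl h
    · right; obtain ⟨r, rfl⟩ := h; omega
  · rintro (h | h)
    · exact Or.inl h
    · right; rw [Nat.even_iff]; omega

theorem isSquare_neg_one_pow {F : Type*} [Field F] [Fintype F] (m : ℕ) :
    IsSquare ((-1 : F) ^ m) ↔ (Even m ∨ Fintype.card F % 4 ≠ 3) := by
  rw [← FiniteField.isSquare_neg_one_iff]
  rcases Nat.even_or_odd m with h | h
  · simp [h.neg_one_pow, h]
  · rw [h.neg_one_pow]; simp [Nat.not_even_iff_odd.mpr h]

/-- Discriminant of the hyperbolic quadratic form Σ_(i<m) x_i y_i over a field with q elements, q odd, m ≥ 1: the determinant of the Gram matrix of its polar form in any basis is a square if and only if m(q − 1)/2 is even (equivalently q^m ≡ 1 (mod 4)). -/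
theorem result {F : Type*} [Field F] [Fintype F] {q : ℕ} (hF : Fintype.card F = q) (hq : Odd q) {m : ℕ} (hm : 1 ≤ m) {ι : Type*} [Fintype ι] [DecidableEq ι] (b : Module.Basis ι F (Fin m ⊕ Fin m → F)) : IsSquare (Matrix.of (fun i j : ι => QuadraticMap.polar (Cfsg.quadFormPlus m F) (b i) (b j))).det ↔ Even (m * (q - 1) / 2) := by
  classical
  have hpol : (Matrix.of (fun i j : ι => QuadraticMap.polar (Cfsg.quadFormPlus m F) (b i) (b j)))
      = Matrix.of (fun i j : ι => Matrix.toBilin' (smat m F) (b i) (b j)) := by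
    ext i j; simp only [Matrix.of_apply]; exact polar_eq m _ _
  obtain ⟨d, hd, hdet⟩ := gram_det (Matrix.toBilin' (smat m F)) b
  rw [hpol, hdet, LinearMap.BilinForm.toMatrix'_toBilin', det_S, isSquare_sq_mul hd,
    even_iff hq, ← hF]
  exact isSquare_neg_one_pow m

end Cfsg.Agent.S2620
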