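import Cfsg.Statements.S2621
import Mathlib
import Cfsg.Agent.S2620
-- import your own Cfsg.Agent.* helpers here

set_option autoImplicit false
open Cfsg

namespace Cfsg.Agent.S2621

open Cfsg.Agent.S2620

/-- The Gram matrix of the elliptic form in the standard basis. -/
def tmat (k : ℕ) (F : Type*) [Field F] (a c : F) :
    Matrix ((Fin k ⊕ Fin k) ⊕ Fin 2) ((Fin k ⊕ Fin k) ⊕ Fin 2) F :=
  Matrix.fromBlocks (smat k F) (0 : Matrix (Fin k ⊕ Fin k) (Fin 2) F)
    (0 : Matrix (Fin 2) (Fin k ⊕ Fin k) F) (!![2, a; a, 2 * c] : Matrix (Fin 2) (Fin 2) F)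

theorem det_T {F : Type*} [Field F] (k : ℕ) (a c : F) :
    (tmat k F a c).det = (-1) ^ k * (4 * c - a ^ 2) := by
  unfold tmat
  rw [Matrix.det_fromBlocks_zero₂₁, det_S, Matrix.det_fin_two_of]
  ring

theorem polar_eq' {F : Type*} [Field F] (k : ℕ) (a c : F)
    (x y : (Fin k ⊕ Fin k) ⊕ Fin 2 → F) :
    QuadraticMap.polar (Cfsg.quadFormMinus k F a c) x y
      = Matrix.toBilin' (tmat k F a c) x y := by
  rw [Matrix.toBilin'_apply']
  simp only [tmat, smat, QuadraticMap.polar, Cfsg.quadFormMinus, dotProduct, Fintype.sum_sum_type,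
    Matrix.mulVec, Matrix.fromBlocks_apply₁₁, Matrix.fromBlocks_apply₁₂,
    Matrix.fromBlocks_apply₂₁, Matrix.fromBlocks_apply₂₂, Matrix.zero_apply, Matrix.one_apply,
    Pi.add_apply, Fin.sum_univ_two]
  simp only [zero_mul, Finset.sum_const_zero, zero_add, add_zero, ite_mul, one_mul,
    Finset.sum_ite_eq, Finset.mem_univ, if_true]
  simp only [Matrix.of_apply, Matrix.cons_val', Matrix.cons_val_zero, Matrix.cons_val_one,
    Matrix.cons_val_fin_one]
  have e1 : ∑ i : Fin k, (x (Sum.inl (Sum.inl i)) + y (Sum.inl (Sum.inl i)))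
        * (x (Sum.inl (Sum.inr i)) + y (Sum.inl (Sum.inr i)))
      = ∑ i : Fin k, x (Sum.inl (Sum.inl i)) * x (Sum.inl (Sum.inr i))
        + ∑ i : Fin k, y (Sum.inl (Sum.inl i)) * y (Sum.inl (Sum.inr i))
        + (∑ i : Fin k, x (Sum.inl (Sum.inl i)) * y (Sum.inl (Sum.inr i))
        + ∑ i : Fin k, x (Sum.inl (Sum.inr i)) * y (Sum.inl (Sum.inl i))) := by
    rw [← Finset.sum_add_distrib, ← Finset.sum_add_distrib, ← Finset.sum_add_distrib]
    exact Finset.sum_congr rfl (fun i _ => by ring)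
  rw [e1]
  ring

theorem two_ne_zero' {F : Type*} [Field F] [Fintype F] (hq : Odd (Fintype.card F)) :
    ringChar F ≠ 2 := by
  intro h
  have := FiniteField.even_card_of_char_two h
  rw [Nat.odd_iff] at hq
  omega

theorem disc_nonsquare {F : Type*} [Field F] [Fintype F] (hq : Odd (Fintype.card F)) (a c : F)
    (hac : ∀ z₁ z₂ : F, z₁ ^ 2 + a * z₁ * z₂ + c * z₂ ^ 2 = 0 → z₁ = 0 ∧ z₂ = 0) :
    ¬ IsSquare (a ^ 2 - 4 * c) := by
  rintro ⟨r, hr⟩
  have h2 : (2 : F) ≠ 0 := Ring.two_ne_zero (two_ne_zero' hq)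
  have := (hac ((-a + r) / 2) 1 (by
    field_simp
    linear_combination (-1 : F) * hr)).2
  exact one_ne_zero this

theorem isSquare_mul_nonsquare {F : Type*} [Field F] [Fintype F]
    {x D : F} (hx : x ≠ 0) (hD : ¬ IsSquare D) : IsSquare (x * D) ↔ ¬ IsSquare x := by
  classical
  have hD0 : D ≠ 0 := fun h => hD (h ▸ IsSquare.zero)
  rw [← quadraticChar_one_iff_isSquare (mul_ne_zero hx hD0),
    ← quadraticChar_neg_one_iff_not_isSquare, map_mul,
    quadraticChar_neg_one_iff_not_isSquare.mpr hD]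
  constructor
  · intro h; linarith
  · intro h; rw [h]; norm_num

/-- Discriminant of an elliptic quadratic form Σ_(i<m−1) x_i y_i + z₁² + a z₁z₂ + c z₂² (binary part anisotropic) in dimension 2m over a field with q elements, q odd, m ≥ 1: the determinant of the Gram matrix of its polar form in any basis is a square if and only if m(q − 1)/2 is odd (equivalently q^m ≡ 3 (mod 4)). -/
theorem result {F : Type*} [Field F] [Fintype F] {q : ℕ} (hF : Fintype.card F = q) (hq : Odd q) {m : ℕ} (hm : 1 ≤ m) (a c : F) (hac : ∀ z₁ z₂ : F, z₁ ^ 2 + a * z₁ * z₂ + c * z₂ ^ 2 = 0 → z₁ = 0 ∧ z₂ = 0) {ι : Type*} [Fintype ι] [DecidableEq ι] (b : Module.Basis ι F ((Fin (m - 1) ⊕ Fin (m - 1)) ⊕ Fin 2 → F)) : IsSquare (Matrix.of (fun i j : ι => QuadraticMap.polar (Cfsg.quadFormMinus (m - 1) F a c) (b i) (b j))).det ↔ ¬ Even (m * (q - 1) / 2) := by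
  classical
  have hpol : (Matrix.of (fun i j : ι =>
        QuadraticMap.polar (Cfsg.quadFormMinus (m - 1) F a c) (b i) (b j)))
      = Matrix.of (fun i j : ι => Matrix.toBilin' (tmat (m - 1) F a c) (b i) (b j)) := by
    ext i j; simp only [Matrix.of_apply]; exact polar_eq' (m - 1) a c _ _
  obtain ⟨d, hd, hdet⟩ := gram_det (Matrix.toBilin' (tmat (m - 1) F a c)) b
  have hD := disc_nonsquare (hF ▸ hq) a c hac
  have hx : ((-1 : F)) ^ m ≠ 0 := pow_ne_zero _ (neg_ne_zero.mpr one_ne_zero)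
  have e : (-1 : F) ^ (m - 1) * (4 * c - a ^ 2) = (-1) ^ m * (a ^ 2 - 4 * c) := by
    obtain ⟨k, rfl⟩ : ∃ k, m = k + 1 := ⟨m - 1, by omega⟩
    rw [Nat.add_sub_cancel, pow_succ]; ring
  rw [hpol, hdet, LinearMap.BilinForm.toMatrix'_toBilin', det_T, isSquare_sq_mul hd, e,
    isSquare_mul_nonsquare hx hD, even_iff hq, ← hF, isSquare_neg_one_pow]

end Cfsg.Agent.S2621
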