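import Cfsg.Statements.S0756
import Mathlib
import Cfsg.Agent.S2621
-- import your own Cfsg.Agent.* helpers here

set_option autoImplicit false
open Cfsg

namespace Cfsg.Agent.S0756

theorem finrank_ker {F V : Type*} [Field F] [AddCommGroup V] [Module F V] [FiniteDimensional F V]
    (B : LinearMap.BilinForm F V) (v : V) (hv : B v v ≠ 0) :
    Module.finrank F (LinearMap.ker (B v)) + 1 = Module.finrank F V := by
  have h1 : Module.finrank F (LinearMap.range (B v)) + Module.finrank F (LinearMap.ker (B v))
      = Module.finrank F V := LinearMap.finrank_range_add_finrank_ker (B v)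
  have h2 : LinearMap.range (B v) = ⊤ := by
    rw [LinearMap.range_eq_top]
    intro c
    refine ⟨(c / B v v) • v, ?_⟩
    simp [hv]
  rw [h2, finrank_top, Module.finrank_self] at h1
  omega

theorem restrict_nondeg {F V : Type*} [Field F] [AddCommGroup V] [Module F V]
    (B : LinearMap.BilinForm F V) (hS : B.IsSymm) (hB : B.Nondegenerate) (v : V)
    (hv : B v v ≠ 0) :
    (B.restrict (LinearMap.ker (B v))).IsSymm ∧
      (B.restrict (LinearMap.ker (B v))).Nondegenerate := by
  have hS' : (B.restrict (LinearMap.ker (B v))).IsSymm := ⟨fun x y => hS.eq x y⟩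
  have hsep : ∀ x : LinearMap.ker (B v),
      (∀ y : LinearMap.ker (B v), B (x : V) (y : V) = 0) → x = 0 := by
    intro x hx
    apply Subtype.ext
    apply hB.1 x
    intro u
    have hu : u - (B v u / B v v) • v ∈ LinearMap.ker (B v) := by
      show B v (u - (B v u / B v v) • v) = 0
      simp [hv]
    have h3 := hx ⟨_, hu⟩
    have hxv : B (x : V) v = 0 := by rw [hS.eq]; exact x.2
    simpa [hxv] using h3
  refine ⟨hS', fun x hx => hsep x (fun y => hx y), fun y hy => hsep y (fun x => ?_)⟩
  rw [hS.eq]; exact hy x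

theorem exists_cons_basis {F V : Type*} [Field F] [AddCommGroup V] [Module F V]
    (B : LinearMap.BilinForm F V) (v : V) (hv : B v v ≠ 0) {k : ℕ}
    (b : Module.Basis (Fin k) F (LinearMap.ker (B v))) :
    ∃ c : Module.Basis (Fin (k+1)) F V, c 0 = v ∧ ∀ i : Fin k, c i.succ = (b i : V) := by
  refine ⟨Module.Basis.mkFinCons v b
      (by
        intro c x hx hc
        have h4 := congrArg (B v) hc
        have hx' : B v x = 0 := hx
        simpa [hv, hx'] using h4)
      (by
        intro z
        refine ⟨-(B v z / B v v), ?_⟩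
        show B v (z + (-(B v z / B v v)) • v) = 0
        simp [hv]), ?_, ?_⟩
  · rw [Module.Basis.coe_mkFinCons]; simp
  · intro i; rw [Module.Basis.coe_mkFinCons]; simp

theorem exists_aniso {F V : Type*} [Field F] [AddCommGroup V] [Module F V]
    [FiniteDimensional F V]
    (h2 : (2 : F) ≠ 0) (B : LinearMap.BilinForm F V) (hS : B.IsSymm) (hB : B.Nondegenerate)
    (hV : 0 < Module.finrank F V) : ∃ v : V, B v v ≠ 0 := by
  by_contra hall
  push Not at hall
  obtain ⟨x, hx⟩ := Module.finrank_pos_iff_exists_ne_zero.mp hV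
  apply hx
  apply hB.1 x
  intro y
  have h1 := hall (x + y)
  have e : B (x + y) (x + y) = B x x + B y y + (B x y + B y x) := by
    simp only [map_add, LinearMap.add_apply]; ring
  rw [e, hall x, hall y, hS.eq y x] at h1
  have h3 : (2 : F) * B x y = 0 := by linear_combination h1
  rcases mul_eq_zero.mp h3 with h | h
  · exact absurd h h2
  · exact h

theorem exists_norm_one {F V : Type*} [Field F] [Finite F] [AddCommGroup V] [Module F V]
    [FiniteDimensional F V] (h2 : (2 : F) ≠ 0) (B : LinearMap.BilinForm F V) (hS : B.IsSymm)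
    (hB : B.Nondegenerate) (hV : 2 ≤ Module.finrank F V) : ∃ v : V, B v v = 1 := by
  classical
  cases nonempty_fintype F
  obtain ⟨u, hu⟩ := exists_aniso h2 B hS hB (by omega)
  obtain ⟨hS', hB'⟩ := restrict_nondeg B hS hB u hu
  have hdim := finrank_ker B u hu
  obtain ⟨w, hw⟩ := exists_aniso h2 (B.restrict (LinearMap.ker (B u))) hS' hB' (by omega)
  have huw : B u (w : V) = 0 := w.2
  have hwu : B (w : V) u = 0 := by rw [hS.eq]; exact huw
  have hww : B (w : V) (w : V) ≠ 0 := hw
  have hchar : ringChar F ≠ 2 := by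
    intro h
    apply h2
    have : CharP F 2 := ringChar.of_eq h
    exact_mod_cast CharP.cast_eq_zero F 2
  have hodd := FiniteField.odd_card_of_char_ne_two hchar
  have hf0 : (Polynomial.C (B u u) * Polynomial.X ^ 2 : Polynomial F).degree = 2 := by
    exact_mod_cast Polynomial.degree_C_mul_X_pow 2 hu
  have hf : (Polynomial.C (B u u) * Polynomial.X ^ 2 - Polynomial.C 1 : Polynomial F).degree
      = 2 := by
    rw [Polynomial.degree_sub_C (by rw [hf0]; exact zero_lt_two), hf0]
  have hg : (Polynomial.C (B (w : V) (w : V)) * Polynomial.X ^ 2 : Polynomial F).degree = 2 := by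
    exact_mod_cast Polynomial.degree_C_mul_X_pow 2 hww
  obtain ⟨x, y, hxy⟩ := FiniteField.exists_root_sum_quadratic hf hg hodd
  simp only [Polynomial.eval_sub, Polynomial.eval_mul, Polynomial.eval_C, Polynomial.eval_pow,
    Polynomial.eval_X] at hxy
  refine ⟨x • u + y • (w : V), ?_⟩
  simp only [map_add, map_smul, LinearMap.add_apply, LinearMap.smul_apply, smul_eq_mul, huw, hwu,
    mul_zero, add_zero, zero_add]
  linear_combination hxy

theorem exists_norm_one_or {F V : Type*} [Field F] [Finite F] [AddCommGroup V] [Module F V]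
    [FiniteDimensional F V] (h2 : (2 : F) ≠ 0) (α : F) (hα : ¬ IsSquare α)
    (B : LinearMap.BilinForm F V) (hS : B.IsSymm) (hB : B.Nondegenerate)
    (hV : 0 < Module.finrank F V) : ∃ v : V, B v v = 1 ∨ B v v = α := by
  classical
  cases nonempty_fintype F
  obtain ⟨u, hu⟩ := exists_aniso h2 B hS hB hV
  have hα0 : α ≠ 0 := fun h => hα (h ▸ IsSquare.zero)
  by_cases hsq : IsSquare (B u u)
  · obtain ⟨d, hd⟩ := hsq
    have hd0 : d ≠ 0 := by
      rintro rfl
      simp at hd
      exact hu hd
    refine ⟨d⁻¹ • u, Or.inl ?_⟩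
    simp only [map_smul, LinearMap.smul_apply, smul_eq_mul, hd]
    field_simp
  · have h1 : IsSquare (B u u * α) := (S2621.isSquare_mul_nonsquare hu hα).mpr hsq
    obtain ⟨d, hd⟩ := h1
    have hd0 : d ≠ 0 := by
      rintro rfl
      simp at hd
      rcases hd with h | h
      · exact hu h
      · exact hα0 h
    refine ⟨(α / d) • u, Or.inr ?_⟩
    simp only [map_smul, LinearMap.smul_apply, smul_eq_mul]
    have h3 : B u u = d * d / α := eq_div_of_mul_eq hα0 hd
    rw [h3]
    field_simp

theorem main {F : Type*} [Field F] [Finite F] (h2 : (2 : F) ≠ 0) (α : F) (hα : ¬ IsSquare α)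
    (n : ℕ) {V : Type*} [AddCommGroup V] [Module F V] [FiniteDimensional F V]
    (B : LinearMap.BilinForm F V) (hS : B.IsSymm) (hB : B.Nondegenerate)
    (hn : Module.finrank F V = n + 1) :
    ∃ b : Module.Basis (Fin (n + 1)) F V, (∀ i j, i ≠ j → B (b i) (b j) = 0) ∧
      (∀ i, i ≠ Fin.last n → B (b i) (b i) = 1) ∧
      (B (b (Fin.last n)) (b (Fin.last n)) = 1 ∨ B (b (Fin.last n)) (b (Fin.last n)) = α) := by
  induction n generalizing V with
  | zero =>
    obtain ⟨v, hv⟩ := exists_norm_one_or h2 α hα B hS hB (by omega)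
    have hv0 : B v v ≠ 0 := by
      rcases hv with h | h
      · rw [h]; exact one_ne_zero
      · rw [h]; exact fun h0 => hα (h0 ▸ IsSquare.zero)
    have hdim := finrank_ker B v hv0
    have hk0 : Module.finrank F (LinearMap.ker (B v)) = 0 := by omega
    obtain ⟨c, hc0, hcs⟩ := exists_cons_basis B v hv0 (k := 0)
      (Module.finBasisOfFinrankEq F (LinearMap.ker (B v)) hk0)
    refine ⟨c, ?_, ?_, ?_⟩
    · intro i j hij
      exact absurd (Fin.ext (by omega)) hij
    · intro i hi
      exact absurd (Fin.ext (by simp)) hi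
    · have h0 : Fin.last 0 = 0 := rfl
      rw [h0, hc0]
      exact hv
  | succ k ih =>
    obtain ⟨v, hv⟩ := exists_norm_one h2 B hS hB (by omega)
    have hv0 : B v v ≠ 0 := by rw [hv]; exact one_ne_zero
    have hdim := finrank_ker B v hv0
    obtain ⟨hS', hB'⟩ := restrict_nondeg B hS hB v hv0
    obtain ⟨b, hb1, hb2, hb3⟩ := ih (B.restrict (LinearMap.ker (B v))) hS' hB' (by omega)
    obtain ⟨c, hc0, hcs⟩ := exists_cons_basis B v hv0 b
    have hvb : ∀ i, B v (b i : V) = 0 := fun i => (b i).2
    have hbv : ∀ i, B (b i : V) v = 0 := fun i => by rw [hS.eq]; exact hvb i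
    refine ⟨c, ?_, ?_, ?_⟩
    · intro i j
      refine Fin.cases ?_ (fun i => ?_) i <;> refine Fin.cases ?_ (fun j => ?_) j
      · intro h; exact absurd rfl h
      · intro _; rw [hc0, hcs]; exact hvb j
      · intro _; rw [hc0, hcs]; exact hbv i
      · intro h
        rw [hcs, hcs]
        have h5 := hb1 i j (fun h' => h (congrArg Fin.succ h'))
        simpa using h5
    · intro i
      refine Fin.cases ?_ (fun i => ?_) i
      · intro _; rw [hc0]; exact hv
      · intro h
        rw [hcs]
        have h5 := hb2 i (fun h' => h (by rw [h', Fin.succ_last]))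
        simpa using h5
    · rw [← Fin.succ_last, hcs]
      simpa using hb3


/-- Classification of symmetric bilinear forms over finite fields of odd characteristic: if B is non-degenerate symmetric on V of dimension n + 1 and α is a fixed non-square of F, there is an orthogonal basis b_0, ..., b_n with B(b_i, b_i) = 1 for i < n and B(b_n, b_n) ∈ {1, α}. -/
theorem result {F V : Type*} [Field F] [Finite F] [AddCommGroup V] [Module F V] [FiniteDimensional F V] (h2 : (2 : F) ≠ 0) (B : LinearMap.BilinForm F V) (hS : B.IsSymm) (hB : B.Nondegenerate) {n : ℕ} (hn : Module.finrank F V = n + 1) (α : F) (hα : ¬ IsSquare α) : ∃ b : Module.Basis (Fin (n + 1)) F V, (∀ i j, i ≠ j → B (b i) (b j) = 0) ∧ (∀ i, i ≠ Fin.last n → B (b i) (b i) = 1) ∧ (B (b (Fin.last n)) (b (Fin.last n)) = 1 ∨ B (b (Fin.last n)) (b (Fin.last n)) = α) := by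
  exact main h2 α hα n B hS hB hn


end Cfsg.Agent.S0756
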