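import Mathlib
import Cfsg.Statements.S0757

set_option autoImplicit false
open Cfsg

namespace Cfsg.Agent.S0757

open Matrix

/-- Gram matrix of the polar form of a weighted sum of squares. -/
lemma gram_weighted {F : Type*} [Field F] {m : ℕ} (w : Fin m → F) :
    LinearMap.BilinForm.toMatrix' (QuadraticMap.polarBilin (QuadraticMap.weightedSumSquares F w)) =
      Matrix.diagonal (fun i => 2 * w i) := by
  ext i j
  rw [LinearMap.BilinForm.toMatrix'_apply, QuadraticMap.polarBilin_apply_apply, QuadraticMap.polar,
    QuadraticMap.weightedSumSquares_apply, QuadraticMap.weightedSumSquares_apply,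
    QuadraticMap.weightedSumSquares_apply, ← Finset.sum_sub_distrib, ← Finset.sum_sub_distrib]
  have h : ∀ k : Fin m, w k • (((Pi.single i (1 : F) : Fin m → F) + (Pi.single j (1 : F) : Fin m → F)) k *
      ((Pi.single i (1 : F) : Fin m → F) + (Pi.single j (1 : F) : Fin m → F)) k) -
      w k • ((Pi.single i (1 : F) : Fin m → F) k * (Pi.single i (1 : F) : Fin m → F) k) -
      w k • ((Pi.single j (1 : F) : Fin m → F) k * (Pi.single j (1 : F) : Fin m → F) k) =
      if k = i then (if i = j then 2 * w i else 0) else 0 := by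
    intro k
    simp only [Pi.add_apply, Pi.single_apply, smul_eq_mul]
    by_cases hki : k = i
    · by_cases hij : i = j
      · subst hki; subst hij; simp; ring
      · have hkj : ¬ k = j := by rw [hki]; exact hij
        simp [hki, hij]
    · by_cases hkj : k = j
      · have hij : ¬ i = j := by rw [← hkj]; exact fun h => hki h.symm
        have hji : ¬ j = i := fun h => hij h.symm
        subst hkj
        simp [hji]
      · simp [hki, hkj]
  rw [Finset.sum_congr rfl (fun k _ => h k), Finset.sum_ite_eq' Finset.univ i]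
  simp only [Finset.mem_univ, if_true]
  by_cases hij : i = j
  · subst hij; simp
  · simp [hij]

/-- The Gram matrices of the polar forms are related by an isometry. -/
lemma gram_related {F : Type*} [Field F] {m : ℕ} (Q₁ Q₂ : QuadraticForm F (Fin m → F))
    (A : Matrix (Fin m) (Fin m) F) (hA : ∀ x, Q₂ (A *ᵥ x) = Q₁ x) :
    Aᵀ * LinearMap.BilinForm.toMatrix' (QuadraticMap.polarBilin Q₂) * A =
      LinearMap.BilinForm.toMatrix' (QuadraticMap.polarBilin Q₁) := by
  have hcomp : LinearMap.BilinForm.comp (QuadraticMap.polarBilin Q₂) (Matrix.toLin' A)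
      (Matrix.toLin' A) = QuadraticMap.polarBilin Q₁ := by
    refine LinearMap.ext fun x => LinearMap.ext fun y => ?_
    rw [LinearMap.BilinForm.comp_apply, Matrix.toLin'_apply, Matrix.toLin'_apply,
      QuadraticMap.polarBilin_apply_apply, QuadraticMap.polarBilin_apply_apply,
      QuadraticMap.polar, QuadraticMap.polar, ← Matrix.mulVec_add, hA, hA, hA]
  have h := LinearMap.BilinForm.toMatrix'_comp (QuadraticMap.polarBilin Q₂) (Matrix.toLin' A)
    (Matrix.toLin' A)
  rw [hcomp, LinearMap.toMatrix'_toLin'] at h
  exact h.symm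

/-- The two diagonal forms Σ x_i^2 and Σ_(i<n) x_i^2 + α x_n^2 on F^(n+1), with α a non-square and 2 ≠ 0 in F, are inequivalent quadratic forms (so over a finite field of odd order there are exactly two classes of non-singular symmetric bilinear forms in each dimension). -/
theorem result {F : Type*} [Field F] (h2 : (2 : F) ≠ 0) (n : ℕ) (α : F) (hα : ¬ IsSquare α) : ¬ (QuadraticMap.weightedSumSquares F (fun _ : Fin (n + 1) => (1 : F))).Equivalent (QuadraticMap.weightedSumSquares F (fun i : Fin (n + 1) => if i = Fin.last n then α else (1 : F))) := by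
  rintro ⟨e⟩
  set Q₁ := QuadraticMap.weightedSumSquares F (fun _ : Fin (n + 1) => (1 : F)) with hQ₁
  set Q₂ := QuadraticMap.weightedSumSquares F (fun i : Fin (n + 1) => if i = Fin.last n then α else (1 : F)) with hQ₂
  set A := LinearMap.toMatrix' (e.toLinearEquiv : (Fin (n + 1) → F) →ₗ[F] (Fin (n + 1) → F)) with hA
  have hAx : ∀ x, Q₂ (A *ᵥ x) = Q₁ x := by
    intro x
    rw [hA, LinearMap.toMatrix'_mulVec]
    exact e.map_app x
  have h := gram_related Q₁ Q₂ A hAx
  rw [hQ₁, hQ₂, gram_weighted, gram_weighted] at h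
  have hd := congrArg Matrix.det h
  rw [Matrix.det_mul, Matrix.det_mul, Matrix.det_transpose, Matrix.det_diagonal,
    Matrix.det_diagonal] at hd
  have hp1 : ∏ i : Fin (n + 1), (2 : F) * 1 = 2 ^ (n + 1) := by
    simp [Finset.prod_const]
  have hp2 : ∏ i : Fin (n + 1), (2 : F) * (if i = Fin.last n then α else 1) = 2 ^ (n + 1) * α := by
    rw [Finset.prod_mul_distrib, Finset.prod_ite_eq' Finset.univ (Fin.last n)]
    simp [Finset.prod_const]
  rw [hp1, hp2] at hd
  have h2n : (2 : F) ^ (n + 1) ≠ 0 := pow_ne_zero _ h2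
  have hdet : A.det ≠ 0 := by
    intro h0
    rw [h0] at hd
    simp at hd
    exact h2n hd.symm
  apply hα
  refine ⟨(A.det)⁻¹, ?_⟩
  have h3 : A.det * A.det * α = 1 := by
    have h4 : (2 : F) ^ (n + 1) * (A.det * A.det * α) = 2 ^ (n + 1) * 1 := by
      linear_combination hd
    exact mul_left_cancel₀ h2n h4
  field_simp
  linear_combination h3

end Cfsg.Agent.S0757
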