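import Mathlib
import Cfsg.Statements.S0758

set_option autoImplicit false
open Cfsg

namespace Cfsg.Agent.S0758

/-- For a finite field F of odd order q and a non-square α: the form x² + y² is isotropic iff q ≡ 1 mod 4, and the form x² + α y² is isotropic iff q ≡ 3 mod 4. -/
theorem result {F : Type*} [Field F] [Fintype F] (h2 : (2 : F) ≠ 0) (α : F) (hα : ¬ IsSquare α) : ((∃ x y : F, (x ≠ 0 ∨ y ≠ 0) ∧ x ^ 2 + y ^ 2 = 0) ↔ Fintype.card F % 4 = 1) ∧ ((∃ x y : F, (x ≠ 0 ∨ y ≠ 0) ∧ x ^ 2 + α * y ^ 2 = 0) ↔ Fintype.card F % 4 = 3) := by
  classical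
  have hchar : ringChar F ≠ 2 := by
    intro h
    apply h2
    haveI : CharP F 2 := by rw [← h]; exact ringChar.charP F
    exact_mod_cast CharP.cast_eq_zero F 2
  have hodd : Fintype.card F % 2 = 1 := FiniteField.odd_card_of_char_ne_two hchar
  have hsq : IsSquare (-1 : F) ↔ Fintype.card F % 4 ≠ 3 := FiniteField.isSquare_neg_one_iff
  have hα0 : α ≠ 0 := by
    rintro rfl
    exact hα ⟨0, by simp⟩
  constructor
  · constructor
    · rintro ⟨x, y, hxy, h⟩
      have hy : y ≠ 0 := by
        rintro rfl
        have hx : x = 0 := by simpa using h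
        rcases hxy with h' | h'
        · exact h' hx
        · exact h' rfl
      have hs : IsSquare (-1 : F) := by
        refine ⟨x / y, ?_⟩
        field_simp
        linear_combination -h
      have := hsq.mp hs
      omega
    · intro h
      have hs : IsSquare (-1 : F) := hsq.mpr (by omega)
      obtain ⟨c, hc⟩ := hs
      refine ⟨c, 1, Or.inr one_ne_zero, ?_⟩
      linear_combination -hc
  · constructor
    · rintro ⟨x, y, hxy, h⟩
      have hy : y ≠ 0 := by
        rintro rfl
        have hx : x = 0 := by simpa using h
        rcases hxy with h' | h'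
        · exact h' hx
        · exact h' rfl
      have hs : IsSquare (-α) := by
        refine ⟨x / y, ?_⟩
        field_simp
        linear_combination -h
      by_contra hne
      have hm1 : IsSquare (-1 : F) := hsq.mpr hne
      apply hα
      have : α = (-1) * (-α) := by ring
      rw [this]
      exact hm1.mul hs
    · intro h
      have hm1 : ¬ IsSquare (-1 : F) := by
        intro hs
        exact (hsq.mp hs) h
      have h1 : quadraticChar F (-1) = -1 := quadraticChar_neg_one_iff_not_isSquare.mpr hm1
      have h3 : quadraticChar F α = -1 := quadraticChar_neg_one_iff_not_isSquare.mpr hα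
      have h4 : quadraticChar F (-α) = 1 := by
        have : -α = (-1) * α := by ring
        rw [this, map_mul, h1, h3]
        norm_num
      have hs : IsSquare (-α) := (quadraticChar_one_iff_isSquare (neg_ne_zero.mpr hα0)).mp h4
      obtain ⟨c, hc⟩ := hs
      refine ⟨c, 1, Or.inr one_ne_zero, ?_⟩
      linear_combination -hc

end Cfsg.Agent.S0758
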