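import Cfsg.Statements.S0759
import Mathlib
import Cfsg.Agent.S0288
import Cfsg.Agent.S0832
-- import your own Cfsg.Agent.* helpers here

set_option autoImplicit false
open Cfsg

namespace Cfsg.Agent.S0759


section partA
variable {F : Type*} [Field F] [Fintype F]

theorem hab_of (hns : ¬ IsSquare (-1 : F)) :
    ∀ z₁ z₂ : F, z₁ ^ 2 + 0 * z₁ * z₂ + 1 * z₂ ^ 2 = 0 → z₁ = 0 ∧ z₂ = 0 := by
  intro z₁ z₂ h
  have hz2 : z₂ = 0 := by
    by_contra hne
    apply hns
    refine ⟨z₁ / z₂, ?_⟩
    field_simp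
    linear_combination (-1 : F) * h
  subst hz2
  simpa using h

theorem n0M_val [DecidableEq F] (hab : ∀ z₁ z₂ : F, z₁ ^ 2 + 0 * z₁ * z₂ + 1 * z₂ ^ 2 = 0 → z₁ = 0 ∧ z₂ = 0)
    (c : F) : S0288.n0M 0 1 c = if c = 0 then 1 else Fintype.card F + 1 := by
  split_ifs with hc
  · rw [hc]; exact S0288.n0M_zero hab
  · obtain ⟨u, hu⟩ := S0288.nrm_repr hab c
    have := S0288.n0M_scale hab u (by rw [hu]; exact hc) 1
    rw [hu, mul_one] at this
    rw [this]; exact S0288.n0M_one hab

/-- sum of the binary norms -/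
def Qp (m : ℕ) (z : Fin m → F × F) : F := ∑ j, S0288.nrm 0 1 (z j)

theorem Qp_succ (m : ℕ) (z : Fin (m + 1) → F × F) :
    Qp (m + 1) z = S0288.nrm 0 1 (z 0) + Qp m (Fin.tail z) := by
  unfold Qp
  rw [Fin.sum_univ_succ]
  rfl

theorem rec_step (hab : ∀ z₁ z₂ : F, z₁ ^ 2 + 0 * z₁ * z₂ + 1 * z₂ ^ 2 = 0 → z₁ = 0 ∧ z₂ = 0)
    (m : ℕ) :
    Nat.card {z : Fin (m + 1) → F × F // Qp (m + 1) z = 0}
      + Fintype.card F * Nat.card {z : Fin m → F × F // Qp m z = 0}
      = (Fintype.card F + 1) * Fintype.card F ^ (2 * m) := by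
  classical
  have key : ∀ w : Fin m → F × F,
      Nat.card {z : {z : Fin (m + 1) → F × F // Qp (m + 1) z = 0} // Fin.tail z.1 = w}
        = if Qp m w = 0 then 1 else Fintype.card F + 1 := by
    intro w
    have e : {z : {z : Fin (m + 1) → F × F // Qp (m + 1) z = 0} // Fin.tail z.1 = w}
        ≃ {p : F × F // S0288.nrm 0 1 p = - Qp m w} :=
      { toFun := fun z => ⟨z.1.1 0, by
            have h1 := z.1.2
            rw [Qp_succ, z.2] at h1
            exact eq_neg_of_add_eq_zero_left h1⟩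
        invFun := fun x => ⟨⟨Fin.cons x.1 w, by
            rw [Qp_succ, Fin.cons_zero, Fin.tail_cons, x.2]
            ring⟩, Fin.tail_cons _ _⟩
        left_inv := fun z => by
          apply Subtype.ext
          apply Subtype.ext
          show Fin.cons (z.1.1 0) w = z.1.1
          have h2 : (Fin.cons (z.1.1 0) w : Fin (m + 1) → F × F)
              = Fin.cons (z.1.1 0) (Fin.tail z.1.1) := by rw [z.2]
          exact h2.trans (Fin.cons_self_tail _)
        right_inv := fun x => by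
          apply Subtype.ext
          show (Fin.cons x.1 w : Fin (m + 1) → F × F) 0 = x.1
          exact Fin.cons_zero _ _ }
    rw [Nat.card_congr e]
    have h3 := n0M_val hab (- Qp m w)
    unfold S0288.n0M at h3
    rw [h3]
    by_cases hh : Qp m w = 0
    · rw [if_pos hh, if_pos (by rw [hh, neg_zero])]
    · rw [if_neg hh, if_neg (fun h0 => hh (neg_eq_zero.mp h0))]
  have h1 : Nat.card {z : Fin (m + 1) → F × F // Qp (m + 1) z = 0}
      = ∑ w : Fin m → F × F, (if Qp m w = 0 then 1 else Fintype.card F + 1) := by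
    rw [← Nat.card_congr (Equiv.sigmaFiberEquiv
      (fun z : {z : Fin (m + 1) → F × F // Qp (m + 1) z = 0} => Fin.tail z.1)),
      Nat.card_sigma]
    exact Finset.sum_congr rfl (fun w _ => key w)
  have h2 : Nat.card {z : Fin m → F × F // Qp m z = 0}
      = ∑ w : Fin m → F × F, (if Qp m w = 0 then 1 else 0) := by
    rw [Nat.card_eq_fintype_card, Fintype.card_subtype, Finset.card_filter]
  rw [h1, h2, Finset.mul_sum, ← Finset.sum_add_distrib]
  have h3 : ∀ w : Fin m → F × F, (if Qp m w = 0 then 1 else Fintype.card F + 1)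
      + Fintype.card F * (if Qp m w = 0 then 1 else 0) = Fintype.card F + 1 := by
    intro w
    split_ifs <;> ring
  rw [Finset.sum_congr rfl (fun w _ => h3 w), Finset.sum_const, Finset.card_univ,
    Fintype.card_fun, Fintype.card_fin, Fintype.card_prod, smul_eq_mul, ← sq, ← pow_mul, mul_comm]

theorem closed (hab : ∀ z₁ z₂ : F, z₁ ^ 2 + 0 * z₁ * z₂ + 1 * z₂ ^ 2 = 0 → z₁ = 0 ∧ z₂ = 0)
    (m : ℕ) :
    (Fintype.card F : ℤ) * (Nat.card {z : Fin m → F × F // Qp m z = 0} : ℤ)
      = (Fintype.card F : ℤ) ^ (2 * m)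
        + (-1) ^ m * ((Fintype.card F : ℤ) ^ (m + 1) - (Fintype.card F : ℤ) ^ m) := by
  induction m with
  | zero =>
    have : Nat.card {z : Fin 0 → F × F // Qp 0 z = 0} = 1 := by
      rw [Nat.card_eq_one_iff_unique]
      exact ⟨⟨fun a b => Subtype.ext (Subsingleton.elim _ _)⟩, ⟨⟨fun i => i.elim0, by simp [Qp]⟩⟩⟩
    rw [this]; simp
  | succ m ih =>
    have h := rec_step hab m
    have h' : (Nat.card {z : Fin (m + 1) → F × F // Qp (m + 1) z = 0} : ℤ)
        + (Fintype.card F : ℤ) * (Nat.card {z : Fin m → F × F // Qp m z = 0} : ℤ)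
        = ((Fintype.card F : ℤ) + 1) * (Fintype.card F : ℤ) ^ (2 * m) := by exact_mod_cast h
    rw [ih] at h'
    have e1 : (Nat.card {z : Fin (m + 1) → F × F // Qp (m + 1) z = 0} : ℤ)
        = ((Fintype.card F : ℤ) + 1) * (Fintype.card F : ℤ) ^ (2 * m)
          - ((Fintype.card F : ℤ) ^ (2 * m)
          + (-1) ^ m * ((Fintype.card F : ℤ) ^ (m + 1) - (Fintype.card F : ℤ) ^ m)) := by
      linarith
    rw [e1]
    ring

end partA

section partB
variable {F : Type*} [Field F] [Fintype F]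

/-- index equivalence -/
def eI (m : ℕ) : Fin m × Fin 2 ≃ Fin (2 * m) := finProdFinEquiv.trans (finCongr (mul_comm m 2))

def T (m : ℕ) : (Fin (2 * m) → F) ≃ (Fin m → F × F) :=
  (Equiv.arrowCongr (eI m).symm (Equiv.refl F)).trans
    ((Equiv.curry (Fin m) (Fin 2) F).trans (Equiv.piCongrRight fun _ => finTwoArrowEquiv F))

theorem T_apply (m : ℕ) (x : Fin (2 * m) → F) (j : Fin m) :
    T m x j = (x (eI m (j, 0)), x (eI m (j, 1))) := rfl

theorem sum_sq (m : ℕ) (x : Fin (2 * m) → F) : ∑ i, x i ^ 2 = Qp m (T m x) := by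
  unfold Qp
  rw [← Equiv.sum_comp (eI m) (fun i => x i ^ 2), Fintype.sum_prod_type]
  apply Finset.sum_congr rfl
  intro j _
  rw [Fin.sum_univ_two, T_apply]
  unfold S0288.nrm
  ring

theorem card_zeros (m : ℕ) :
    Nat.card {x : Fin (2 * m) → F // ∑ i, x i ^ 2 = 0}
      = Nat.card {z : Fin m → F × F // Qp m z = 0} :=
  Nat.card_congr ((T m).subtypeEquiv (fun x => by rw [sum_sq]))

def Bd (n : ℕ) : LinearMap.BilinForm F (Fin n → F) :=
  LinearMap.mk₂ F (fun x y => 2 * ∑ i, x i * y i)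
    (by intro x x' y; simp only [Pi.add_apply, add_mul, Finset.sum_add_distrib]; ring)
    (by intro a x y; simp only [Pi.smul_apply, smul_eq_mul, mul_assoc, ← Finset.mul_sum]; ring)
    (by intro x y y'; simp only [Pi.add_apply, mul_add, Finset.sum_add_distrib])
    (by
      intro a x y
      simp only [Pi.smul_apply, smul_eq_mul, Finset.mul_sum]
      exact Finset.sum_congr rfl (fun i _ => by ring))

theorem Bd_apply (n : ℕ) (x y : Fin n → F) : Bd n x y = 2 * ∑ i, x i * y i := rfl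

theorem d_sep (h2 : (2 : F) ≠ 0) (n : ℕ) (x : Fin n → F) (hx : ∀ y, Bd n x y = 0) : x = 0 := by
  classical
  funext i
  have h := hx (Pi.single i 1)
  rw [Bd_apply] at h
  simp only [Pi.single_apply, mul_ite, mul_one, mul_zero, Finset.sum_ite_eq',
    Finset.mem_univ, if_true] at h
  exact (mul_eq_zero.mp h).resolve_left h2

theorem d_qs (h2 : (2 : F) ≠ 0) (n : ℕ) :
    S0287.IsQS (Bd n) (fun x : Fin n → F => ∑ i, x i ^ 2) := by
  refine ⟨?_, ?_, S0287.nd_of_sep _ (d_sep h2 n)⟩
  · intro x y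
    rw [Bd_apply, Finset.mul_sum, ← Finset.sum_add_distrib, ← Finset.sum_add_distrib]
    apply Finset.sum_congr rfl
    intro i _
    simp only [Pi.add_apply]
    ring
  · intro a x
    show ∑ i, (a • x) i ^ 2 = a * a * ∑ i, x i ^ 2
    rw [Finset.mul_sum]
    apply Finset.sum_congr rfl
    intro i _
    simp only [Pi.smul_apply, smul_eq_mul]
    ring

theorem no_ts (h2 : (2 : F) ≠ 0) (hns : ¬ IsSquare (-1 : F)) (m : ℕ) (hm : Odd m)
    (W : Submodule F (Fin (2 * m) → F)) (hW : Module.finrank F W = m)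
    (hQ : ∀ w ∈ W, ∑ i, w i ^ 2 = 0) : False := by
  classical
  have hab := hab_of hns
  have hqs := d_qs (F := F) h2 (2 * m)
  have hts := S0832.ts_count hqs W hQ
  have hnd : (Bd (F := F) (2 * m)).Nondegenerate := by
    rw [LinearMap.BilinForm.nondegenerate_iff_ker_eq_bot]
    exact LinearMap.ker_eq_bot'.2 (fun x hx => d_sep h2 (2 * m) x (fun y => by
      rw [hx]
      rfl))
  have hle : W ≤ (Bd (F := F) (2 * m)).orthogonal W := by
    intro x hx y hy
    have h1 := hqs.add y x
    rw [hQ _ (W.add_mem hy hx), hQ y hy, hQ x hx] at h1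
    show Bd (2 * m) y x = 0
    simpa using h1.symm
  have hfr : Module.finrank F ((Bd (F := F) (2 * m)).orthogonal W) = m := by
    rw [LinearMap.BilinForm.finrank_orthogonal hnd W, hW, Module.finrank_fin_fun]; omega
  have heq : (Bd (F := F) (2 * m)).orthogonal W = W :=
    (Submodule.eq_of_le_of_finrank_eq hle (by rw [hW, hfr])).symm
  rw [heq] at hts
  have c1 : Nat.card W = Fintype.card F ^ m := S0828.card_sub W m hW
  have c2 : Nat.card {x : Fin (2 * m) → F // x ∈ W ∧ ∑ i, x i ^ 2 = 0} = Fintype.card F ^ m := by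
    rw [← c1]
    exact Nat.card_congr (Equiv.subtypeEquivRight (fun x => ⟨fun h => h.1, fun h => ⟨h, hQ x h⟩⟩))
  have c3 : Nat.card {x : Fin (2 * m) → F // x ∉ W} + Fintype.card F ^ m
      = Fintype.card F ^ (2 * m) := by
    have hcV : Nat.card (Fin (2 * m) → F) = Fintype.card F ^ (2 * m) := by
      rw [Nat.card_eq_fintype_card, Fintype.card_fun, Fintype.card_fin]
    rw [← c1, ← hcV]
    have h1 := Nat.card_congr (Equiv.sumCompl (fun x : Fin (2 * m) → F => x ∈ W))
    rw [Nat.card_sum] at h1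
    rw [← h1]
    exact add_comm _ _
  have hts' : Fintype.card F * (Nat.card W * Nat.card {x : Fin (2 * m) → F // ∑ i, x i ^ 2 = 0})
      = Fintype.card F * (Nat.card W *
          Nat.card {x : Fin (2 * m) → F // x ∈ W ∧ ∑ i, x i ^ 2 = 0})
        + Nat.card W * Nat.card {x : Fin (2 * m) → F // x ∉ W} := hts
  rw [c1, c2, card_zeros] at hts'
  have hcl := closed hab m
  rw [hm.neg_one_pow] at hcl
  obtain ⟨N, hN⟩ : ∃ N, N = Nat.card {z : Fin m → F × F // Qp m z = 0} := ⟨_, rfl⟩
  obtain ⟨c, hc⟩ : ∃ c, c = Nat.card {x : Fin (2 * m) → F // x ∉ W} := ⟨_, rfl⟩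
  rw [← hN] at hts' hcl
  rw [← hc] at hts' c3
  obtain ⟨q, hq⟩ : ∃ q, q = Fintype.card F := ⟨_, rfl⟩
  rw [← hq] at hts' hcl c3
  have hq2 : 2 ≤ q := by rw [hq]; exact Fintype.one_lt_card
  have hts2 : (q : ℤ) * ((q : ℤ) ^ m * (N : ℤ)) = (q : ℤ) * ((q : ℤ) ^ m * (q : ℤ) ^ m)
      + (q : ℤ) ^ m * (c : ℤ) := by exact_mod_cast hts'
  have c3' : (c : ℤ) + (q : ℤ) ^ m = (q : ℤ) ^ (2 * m) := by exact_mod_cast c3
  have hA : (0 : ℤ) < (q : ℤ) ^ m := by positivity
  have e1 : (q : ℤ) ^ (2 * m) = (q : ℤ) ^ m * (q : ℤ) ^ m := by rw [two_mul, pow_add]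
  have e2 : (q : ℤ) ^ (m + 1) = (q : ℤ) ^ m * (q : ℤ) := pow_succ _ _
  rw [e1, e2] at hcl
  rw [e1] at c3'
  have key : (q : ℤ) ^ m * (q : ℤ) ^ m * ((q : ℤ) - 1) = 0 := by
    have hc' : (c : ℤ) = (q : ℤ) ^ m * (q : ℤ) ^ m - (q : ℤ) ^ m := by linarith
    rw [hc'] at hts2
    have h5 : (q : ℤ) ^ m * ((q : ℤ) * (N : ℤ)) = (q : ℤ) * ((q : ℤ) ^ m * (q : ℤ) ^ m)
      + (q : ℤ) ^ m * ((q : ℤ) ^ m * (q : ℤ) ^ m - (q : ℤ) ^ m) := by linarith
    rw [hcl] at h5
    have h6 : (2 : ℤ) * ((q : ℤ) ^ m * (q : ℤ) ^ m * ((q : ℤ) - 1)) = 0 := by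
      linear_combination (-1 : ℤ) * h5
    exact (mul_eq_zero.mp h6).resolve_left (by norm_num)
  rcases mul_eq_zero.mp key with h | h
  · have := mul_pos hA hA
    omega
  · have : (q : ℤ) = 1 := by linarith
    have : q = 1 := by exact_mod_cast this
    omega

end partB

section partC
variable {F : Type*} [Field F] [Fintype F]

theorem ex_gen {ι κ τ : Type*} [Fintype ι] [Fintype κ] [Fintype τ] (m : ℕ)
    (e : ι × κ ≃ Fin (2 * m)) (hcard : Fintype.card ι * Fintype.card τ = m)
    (M : κ → τ → F) (hM0 : ∀ u : τ → F, ∑ s, (∑ t, M s t * u t) ^ 2 = 0)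
    (hMinj : ∀ u : τ → F, (∀ s, ∑ t, M s t * u t = 0) → u = 0) :
    ∃ W : Submodule F (Fin (2 * m) → F), Module.finrank F W = m ∧
      ∀ w ∈ W, ∑ i, w i ^ 2 = 0 := by
  classical
  let L : (ι × τ → F) →ₗ[F] (Fin (2 * m) → F) :=
    { toFun := fun y idx => ∑ t, M (e.symm idx).2 t * y ((e.symm idx).1, t)
      map_add' := by
        intro y y'
        funext idx
        simp only [Pi.add_apply, mul_add, Finset.sum_add_distrib]
      map_smul' := by
        intro c y
        funext idx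
        simp only [Pi.smul_apply, smul_eq_mul, RingHom.id_apply, Finset.mul_sum]
        exact Finset.sum_congr rfl (fun t _ => by ring) }
  have hL : ∀ y k s, L y (e (k, s)) = ∑ t, M s t * y (k, t) := by
    intro y k s
    show ∑ t, M (e.symm (e (k, s))).2 t * y ((e.symm (e (k, s))).1, t) = _
    rw [Equiv.symm_apply_apply]
  refine ⟨LinearMap.range L, ?_, ?_⟩
  · have hinj : Function.Injective L := by
      rw [injective_iff_map_eq_zero]
      intro y hy
      funext p
      obtain ⟨k, t⟩ := p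
      have h1 := hMinj (fun t => y (k, t)) (fun s => by
        rw [← hL y k s, hy]; rfl)
      exact congrFun h1 t
    rw [LinearMap.finrank_range_of_inj hinj, Module.finrank_fintype_fun_eq_card,
      Fintype.card_prod, hcard]
  · rintro w ⟨y, rfl⟩
    rw [← Equiv.sum_comp e (fun i => L y i ^ 2), Fintype.sum_prod_type]
    apply Finset.sum_eq_zero
    intro k _
    simp only [hL]
    exact hM0 (fun t => y (k, t))

theorem main (h2 : (2 : F) ≠ 0) (m : ℕ) :
    (∃ W : Submodule F (Fin (2 * m) → F), Module.finrank F W = m ∧ ∀ w ∈ W, ∑ i, w i ^ 2 = 0) ↔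
      ¬ (Fintype.card F % 4 = 3 ∧ Odd m) := by
  classical
  constructor
  · rintro ⟨W, hW, hQ⟩ ⟨h3, hodd⟩
    have hns : ¬ IsSquare (-1 : F) := by
      rw [FiniteField.isSquare_neg_one_iff]
      exact fun h => h h3
    exact no_ts h2 hns m hodd W hW hQ
  · intro h
    by_cases hsq : IsSquare (-1 : F)
    · obtain ⟨i, hi⟩ := hsq
      refine ex_gen (ι := Fin m) (κ := Fin 2) (τ := Unit) m
        (Fintype.equivOfCardEq (by simp [Fintype.card_prod]; ring)) (by simp)
        (fun s _ => ![1, i] s) ?_ ?_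
      · intro u
        simp only [Finset.univ_unique, Finset.sum_singleton, Fin.sum_univ_two,
          Matrix.cons_val_zero, Matrix.cons_val_one]
        linear_combination (-(u default) ^ 2) * hi
      · intro u hu
        funext t
        have := hu 0
        simpa using this
    · have h3 : Fintype.card F % 4 = 3 := by
        by_contra h3
        exact hsq (FiniteField.isSquare_neg_one_iff.mpr h3)
      have hev : Even m := by
        rw [← Nat.not_odd_iff_even]
        exact fun ho => h ⟨h3, ho⟩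
      obtain ⟨r, hr⟩ := hev
      obtain ⟨u, hu⟩ := S0288.nrm_repr (hab_of hsq) (-1)
      unfold S0288.nrm at hu
      refine ex_gen (ι := Fin r) (κ := Fin 2 × Fin 2) (τ := Fin 2) m
        (Fintype.equivOfCardEq (by simp [Fintype.card_prod]; omega)) (by simp; omega)
        (fun p => ![![![1, 0], ![0, 1]], ![![u.1, -u.2], ![u.2, u.1]]] p.1 p.2) ?_ ?_
      · intro v
        simp only [Fintype.sum_prod_type, Fin.sum_univ_two, Matrix.cons_val_zero,
          Matrix.cons_val_one]
        linear_combination (v 0 ^ 2 + v 1 ^ 2) * hu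
      · intro v hv
        funext t
        have h00 := hv (0, 0)
        have h01 := hv (0, 1)
        simp only [Fin.sum_univ_two, Matrix.cons_val_zero, Matrix.cons_val_one] at h00 h01
        fin_cases t
        · simpa using h00
        · simpa using h01

end partC


/-- Type of the orthonormal form: over a finite field of odd order q and for m ≥ 1, the quadratic form Σ_(i<2m) x_i² on F^(2m) admits an m-dimensional subspace on which it vanishes identically if and only if it is not the case that q ≡ 3 (mod 4) and m is odd. -/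
theorem result {F : Type*} [Field F] [Fintype F] (h2 : (2 : F) ≠ 0) (m : ℕ) (hm : 1 ≤ m) : (∃ W : Submodule F (Fin (2 * m) → F), Module.finrank F W = m ∧ ∀ w ∈ W, ∑ i, w i ^ 2 = 0) ↔ ¬ (Fintype.card F % 4 = 3 ∧ Odd m) := by
  exact main h2 m


end Cfsg.Agent.S0759
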