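import Cfsg.Statements.S0760
import Mathlib
import Cfsg.Agent.S2618
-- import your own Cfsg.Agent.* helpers here

set_option autoImplicit false
open Cfsg

namespace Cfsg.Agent.S0760


variable {F V : Type*} [Field F] [AddCommGroup V] [Module F V]

theorem ts_orth (Q : QuadraticForm F V) (W : Submodule F V) (h : ∀ w ∈ W, Q w = 0) :
    ∀ a ∈ W, ∀ b ∈ W, QuadraticMap.polarBilin Q a b = 0 := by
  intro a ha b hb
  have h1 := S2618.Q_add Q a b
  rw [h (a + b) (W.add_mem ha hb), h a ha, h b hb, zero_add, zero_add] at h1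
  exact h1.symm

theorem key [FiniteDimensional F V] (Q : QuadraticForm F V)
    (hQ : (QuadraticMap.polarBilin Q).Nondegenerate) (W₁ W₂ : Submodule F V)
    (h₁ : ∀ w ∈ W₁, Q w = 0) (h₂ : ∀ w ∈ W₂, Q w = 0)
    (hmax₁ : ∀ W : Submodule F V, W₁ ≤ W → (∀ w ∈ W, Q w = 0) → W = W₁) :
    Module.finrank F W₂ ≤ Module.finrank F W₁ ∧ 2 * Module.finrank F W₁ ≤ Module.finrank F V := by
  obtain ⟨O, hO⟩ : ∃ O : Submodule F V,
      O = LinearMap.BilinForm.orthogonal (QuadraticMap.polarBilin Q) W₁ := ⟨_, rfl⟩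
  have hOmem : ∀ b ∈ O, ∀ a ∈ W₁, QuadraticMap.polarBilin Q a b = 0 := by
    intro b hb a ha
    rw [hO] at hb
    exact hb a ha
  have hT : W₁ ⊔ (W₂ ⊓ O) = W₁ := by
    apply hmax₁ _ le_sup_left
    intro w hw
    obtain ⟨a, ha, b, hb, rfl⟩ := Submodule.mem_sup.mp hw
    rw [S2618.Q_add, h₁ a ha, h₂ b hb.1, hOmem b hb.2 a ha]
    simp
  have ha : W₂ ⊓ O ≤ W₁ ⊓ W₂ := by
    refine le_inf ?_ inf_le_left
    rw [← hT]
    exact le_sup_right
  have hc : W₂ ⊔ O ≤ LinearMap.BilinForm.orthogonal (QuadraticMap.polarBilin Q) (W₁ ⊓ W₂) := by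
    apply sup_le
    · intro w hw d hd
      exact ts_orth Q W₂ h₂ d hd.2 w hw
    · rw [hO]
      exact LinearMap.BilinForm.orthogonal_le inf_le_left
  have hW1O : W₁ ≤ O := by
    intro w hw
    rw [hO]
    intro a ha'
    exact ts_orth Q W₁ h₁ a ha' w hw
  have e1 := Submodule.finrank_mono ha
  have e2 := Submodule.finrank_mono hc
  have e3 := Submodule.finrank_mono hW1O
  have e4 := LinearMap.BilinForm.finrank_orthogonal hQ (W₁ ⊓ W₂)
  have e5 := LinearMap.BilinForm.finrank_orthogonal hQ W₁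
  rw [← hO] at e5
  have e6 := Submodule.finrank_sup_add_finrank_inf_eq W₂ O
  have e7 := Submodule.finrank_le W₁
  have e8 := Submodule.finrank_le (W₁ ⊓ W₂)
  constructor <;> omega



/-- Witt index is well defined: if Q is a quadratic form on a finite-dimensional space V over a finite field with non-degenerate polar form, and W₁, W₂ are subspaces on which Q vanishes that are maximal with this property, then W₁ and W₂ have the same dimension, and twice this dimension is at most dim V. -/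
theorem result {F V : Type*} [Field F] [Finite F] [AddCommGroup V] [Module F V] [FiniteDimensional F V] (Q : QuadraticForm F V) (hQ : (QuadraticMap.polarBilin Q).Nondegenerate) (W₁ W₂ : Submodule F V) (h₁ : ∀ w ∈ W₁, Q w = 0) (h₂ : ∀ w ∈ W₂, Q w = 0) (hmax₁ : ∀ W : Submodule F V, W₁ ≤ W → (∀ w ∈ W, Q w = 0) → W = W₁) (hmax₂ : ∀ W : Submodule F V, W₂ ≤ W → (∀ w ∈ W, Q w = 0) → W = W₂) : Module.finrank F W₁ = Module.finrank F W₂ ∧ 2 * Module.finrank F W₁ ≤ Module.finrank F V := by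
  have k1 := key Q hQ W₁ W₂ h₁ h₂ hmax₁
  have k2 := key Q hQ W₂ W₁ h₂ h₁ hmax₂
  exact ⟨le_antisymm k2.1 k1.1, k1.2⟩


end Cfsg.Agent.S0760
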