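import Mathlib
import Cfsg.Statements.S0761

set_option autoImplicit false
open Cfsg

namespace Cfsg.Agent.S0761

/-- Hyperbolic partners: let B be a non-degenerate bilinear form on a finite-dimensional space, either alternating, or symmetric with 2 ≠ 0. If Z is a subspace on which B vanishes, x ∉ Z is isotropic and orthogonal to Z, then there is an isotropic y with B x y = 1 which is orthogonal to Z. -/
theorem result {F V : Type*} [Field F] [AddCommGroup V] [Module F V] [FiniteDimensional F V] (B : LinearMap.BilinForm F V) (hB : B.Nondegenerate) (hform : B.IsAlt ∨ (B.IsSymm ∧ (2 : F) ≠ 0)) (x : V) (Z : Submodule F V) (hxZ : x ∉ Z) (hx : B x x = 0) (hxz : ∀ z ∈ Z, B x z = 0) (hZ : ∀ z ∈ Z, ∀ z' ∈ Z, B z z' = 0) : ∃ y : V, B y y = 0 ∧ B x y = 1 ∧ ∀ z ∈ Z, B z y = 0 := by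
  obtain ⟨f, hfx, hfZ⟩ := Submodule.exists_dual_map_eq_bot_of_notMem hxZ inferInstance
  have hfz : ∀ z ∈ Z, f z = 0 := by
    intro z hz
    have h1 : f z ∈ Z.map f := Submodule.mem_map_of_mem hz
    rw [hfZ] at h1
    exact (Submodule.mem_bot F).mp h1
  -- representation through the flipped form
  have hBf : B.flip.Nondegenerate := hB.flip
  set y0 := (B.flip.toDual hBf).symm ((f x)⁻¹ • f) with hy0
  have hy0v : ∀ v, B v y0 = (f x)⁻¹ * f v := by
    intro v
    have h1 := LinearMap.BilinForm.apply_toDual_symm_apply (B := B.flip) (hB := hBf)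
      ((f x)⁻¹ • f) v
    rw [← hy0] at h1
    simpa [LinearMap.BilinForm.flip_apply] using h1
  have hxy0 : B x y0 = 1 := by rw [hy0v]; exact inv_mul_cancel₀ hfx
  have hzy0 : ∀ z ∈ Z, B z y0 = 0 := by
    intro z hz; rw [hy0v, hfz z hz, mul_zero]
  rcases hform with halt | ⟨hsymm, h2⟩
  · exact ⟨y0, halt y0, hxy0, hzy0⟩
  · have hyx : B y0 x = 1 := by rw [hsymm.eq y0 x]; exact hxy0
    refine ⟨y0 - (B y0 y0 / 2) • x, ?_, ?_, ?_⟩
    · simp only [map_sub, map_smul, LinearMap.sub_apply, LinearMap.smul_apply, smul_eq_mul, hx,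
        hyx, hxy0, mul_zero, mul_one, sub_zero]
      field_simp
      ring
    · simp only [map_sub, map_smul, smul_eq_mul, hx, hxy0, mul_zero, sub_zero]
    · intro z hz
      have hzx : B z x = 0 := by rw [hsymm.eq z x]; exact hxz z hz
      simp only [map_sub, map_smul, smul_eq_mul, hzx, hzy0 z hz, mul_zero, sub_zero]

end Cfsg.Agent.S0761
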