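import Mathlib
import Cfsg.Statements.S0762

set_option autoImplicit false
open Cfsg

namespace Cfsg.Agent.S0762

/-- In characteristic two over a finite field, a quadratic form on a space of dimension at least 3 vanishes on some non-zero vector. -/
theorem result {F V : Type*} [Field F] [Finite F] [CharP F 2] [AddCommGroup V] [Module F V] [FiniteDimensional F V] (Q : QuadraticForm F V) (h3 : 3 ≤ Module.finrank F V) : ∃ v : V, v ≠ 0 ∧ Q v = 0 := by
  have hpos : 0 < Module.finrank F V := by omega
  haveI : Nontrivial V := Module.nontrivial_of_finrank_pos (R := F) hpos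
  obtain ⟨v, hv⟩ := exists_ne (0 : V)
  by_cases hQv : Q v = 0
  · exact ⟨v, hv, hQv⟩
  -- the functional `polar Q v`
  set φ : V →ₗ[F] F := QuadraticMap.polarBilin Q v with hφ
  have hφapp : ∀ w, φ w = QuadraticMap.polar Q v w := fun w => rfl
  have hker : 2 ≤ Module.finrank F (LinearMap.ker φ) := by
    have h1 := LinearMap.finrank_range_add_finrank_ker φ
    have h2 : Module.finrank F (LinearMap.range φ) ≤ 1 := by
      have := Submodule.finrank_le (LinearMap.range φ)
      simpa using this
    omega
  have hspan : Module.finrank F (Submodule.span F ({v} : Set V)) = 1 := finrank_span_singleton hv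
  obtain ⟨w, hwker, hwspan⟩ : ∃ w, w ∈ LinearMap.ker φ ∧ w ∉ Submodule.span F ({v} : Set V) := by
    by_contra hcon
    have hle : LinearMap.ker φ ≤ Submodule.span F ({v} : Set V) := by
      intro w hw
      by_contra hw'
      exact hcon ⟨w, hw, hw'⟩
    have := Submodule.finrank_mono hle
    omega
  have hpol : QuadraticMap.polar Q v w = 0 := by
    rw [← hφapp]; exact hwker
  have hchar : ringChar F = 2 := ringChar.eq F 2
  obtain ⟨a, ha⟩ := FiniteField.isSquare_of_char_two hchar (Q w / Q v)
  refine ⟨a • v + w, ?_, ?_⟩
  · intro h0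
    apply hwspan
    have : w = (-a) • v := by
      rw [neg_smul]
      exact eq_neg_of_add_eq_zero_right h0
    rw [this]
    exact Submodule.smul_mem _ _ (Submodule.mem_span_singleton_self v)
  · rw [QuadraticMap.map_add (⇑Q) (a • v) w, QuadraticMap.map_smul, QuadraticMap.polar_smul_left, hpol, smul_zero,
      add_zero, smul_eq_mul, ← ha, div_mul_cancel₀ _ hQv]
    exact CharTwo.add_self_eq_zero (Q w)

end Cfsg.Agent.S0762
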