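import Mathlib
import Cfsg.Statements.S0763

set_option autoImplicit false
open Cfsg

namespace Cfsg.Agent.S0763

open QuadraticMap

/-- Binary quadratic forms in characteristic two over a finite field: if Q is a quadratic form on a 2-dimensional space whose polar form is non-degenerate, then either there are vectors v, w with Q v = Q w = 0 and polar value 1 (Q is xy in these coordinates), or there are v, w and μ with Q v = 1, Q w = μ, polar value 1 and x² + x + μ without roots in F (Q is x² + xy + μy²). -/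
theorem result {F V : Type*} [Field F] [Finite F] [CharP F 2] [AddCommGroup V] [Module F V] (Q : QuadraticForm F V) (h2 : Module.finrank F V = 2) (hQ : (QuadraticMap.polarBilin Q).Nondegenerate) : (∃ v w : V, LinearIndependent F ![v, w] ∧ Q v = 0 ∧ Q w = 0 ∧ QuadraticMap.polar Q v w = 1) ∨ (∃ (v w : V) (μ : F), LinearIndependent F ![v, w] ∧ (∀ x : F, x ^ 2 + x + μ ≠ 0) ∧ Q v = 1 ∧ Q w = μ ∧ QuadraticMap.polar Q v w = 1) := by
  have hself : ∀ x : V, polar Q x x = 0 := by
    intro x
    rw [QuadraticMap.polar_self, two_nsmul]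
    exact CharTwo.add_self_eq_zero _
  have hli : ∀ v w : V, polar Q v w = 1 → LinearIndependent F ![v, w] := by
    intro v w h
    rw [LinearIndependent.pair_iff]
    intro s t hst
    have h1 : polar Q v (s • v + t • w) = t := by
      rw [QuadraticMap.polar_add_right, QuadraticMap.polar_smul_right,
        QuadraticMap.polar_smul_right, hself, h]
      simp
    have h2' : polar Q (s • v + t • w) w = s := by
      rw [QuadraticMap.polar_add_left, QuadraticMap.polar_smul_left,
        QuadraticMap.polar_smul_left, hself, h]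
      simp
    rw [hst] at h1 h2'
    rw [QuadraticMap.polar_zero_right] at h1
    rw [QuadraticMap.polar_zero_left] at h2'
    exact ⟨h2'.symm, h1.symm⟩
  have hex : ∀ v : V, v ≠ 0 → ∃ w : V, polar Q v w = 1 := by
    intro v hv
    have : ∃ w', polar Q v w' ≠ 0 := by
      by_contra hcon
      push Not at hcon
      exact hv (hQ.1 v (fun y => hcon y))
    obtain ⟨w', hw'⟩ := this
    refine ⟨(polar Q v w')⁻¹ • w', ?_⟩
    rw [QuadraticMap.polar_smul_right, smul_eq_mul, inv_mul_cancel₀ hw']
  by_cases hsing : ∃ v : V, v ≠ 0 ∧ Q v = 0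
  · obtain ⟨v, hv0, hQv⟩ := hsing
    obtain ⟨w₁, h1⟩ := hex v hv0
    left
    have hpol : polar Q v (w₁ + Q w₁ • v) = 1 := by
      rw [QuadraticMap.polar_add_right, QuadraticMap.polar_smul_right, hself, h1]
      simp
    refine ⟨v, w₁ + Q w₁ • v, hli _ _ hpol, hQv, ?_, hpol⟩
    rw [QuadraticMap.map_add (⇑Q), QuadraticMap.map_smul, hQv, QuadraticMap.polar_smul_right,
      QuadraticMap.polar_comm (⇑Q) w₁ v, h1]
    simp only [smul_eq_mul, mul_zero, mul_one, add_zero]
    exact CharTwo.add_self_eq_zero (Q w₁)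
  · push Not at hsing
    haveI : Nontrivial V := Module.nontrivial_of_finrank_pos (R := F) (by rw [h2]; norm_num)
    obtain ⟨v₀, hv₀⟩ := exists_ne (0 : V)
    have ha := hsing v₀ hv₀
    obtain ⟨b, hb⟩ := FiniteField.isSquare_of_char_two (ringChar.eq F 2) (Q v₀)
    have hb0 : b ≠ 0 := by
      rintro rfl
      rw [mul_zero] at hb
      exact ha hb
    have hQv : Q (b⁻¹ • v₀) = 1 := by
      rw [QuadraticMap.map_smul, hb, smul_eq_mul]
      field_simp
    have hv0 : b⁻¹ • v₀ ≠ 0 := smul_ne_zero (inv_ne_zero hb0) hv₀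
    obtain ⟨w, h1⟩ := hex _ hv0
    right
    refine ⟨b⁻¹ • v₀, w, Q w, hli _ _ h1, ?_, hQv, rfl, h1⟩
    intro x hx
    have hQ' : Q (x • (b⁻¹ • v₀) + w) = x ^ 2 + x + Q w := by
      rw [QuadraticMap.map_add (⇑Q), QuadraticMap.map_smul, hQv, QuadraticMap.polar_smul_left, h1]
      simp only [smul_eq_mul, mul_one]
      ring
    have hz : x • (b⁻¹ • v₀) + w = 0 := by
      by_contra hne
      exact hsing _ hne (by rw [hQ', hx])
    have := (LinearIndependent.pair_iff.mp (hli _ _ h1)) x 1 (by rw [one_smul]; exact hz)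
    exact one_ne_zero this.2

end Cfsg.Agent.S0763
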