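import Mathlib
import Cfsg.Statements.S0769

set_option autoImplicit false
open Cfsg

namespace Cfsg.Agent.S0769

open Matrix

/-- The lower triangular matrix with prescribed strictly-lower entries and diagonal. -/
def mat {F : Type*} [Field F] {n : ℕ} (f : (Σ i : Fin n, Fin i) → F) (d : Fin n → Fˣ) :
    Matrix (Fin n) (Fin n) F :=
  fun i j => if h : j < i then f ⟨i, ⟨j, h⟩⟩ else if i = j then (d i : F) else 0

theorem mat_upper {F : Type*} [Field F] {n : ℕ} (f : (Σ i : Fin n, Fin i) → F) (d : Fin n → Fˣ)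
    (i j : Fin n) (hij : i < j) : mat f d i j = 0 := by
  unfold mat
  rw [dif_neg (not_lt.mpr hij.le), if_neg hij.ne]

theorem mat_diag {F : Type*} [Field F] {n : ℕ} (f : (Σ i : Fin n, Fin i) → F) (d : Fin n → Fˣ)
    (i : Fin n) : mat f d i i = d i := by
  unfold mat; rw [dif_neg (lt_irrefl i), if_pos rfl]

theorem mat_lower {F : Type*} [Field F] {n : ℕ} (f : (Σ i : Fin n, Fin i) → F) (d : Fin n → Fˣ)
    (i j : Fin n) (h : j < i) : mat f d i j = f ⟨i, ⟨j, h⟩⟩ := by
  unfold mat; rw [dif_pos h]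

theorem det_mat {F : Type*} [Field F] {n : ℕ} (f : (Σ i : Fin n, Fin i) → F) (d : Fin n → Fˣ) :
    (mat f d).det = ∏ i, (d i : F) := by
  rw [Matrix.det_of_isLowerTriangular (mat f d)
    (fun i j hij => mat_upper f d i j (OrderDual.toDual_lt_toDual.mp hij))]
  exact Finset.prod_congr rfl (fun i _ => mat_diag f d i)

theorem diag_ne_zero {F : Type*} [Field F] {n : ℕ} (g : Matrix.GeneralLinearGroup (Fin n) F)
    (hg : ∀ i j : Fin n, i < j → (g : Matrix (Fin n) (Fin n) F) i j = 0) (i : Fin n) :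
    (g : Matrix (Fin n) (Fin n) F) i i ≠ 0 := by
  have hdet : (g : Matrix (Fin n) (Fin n) F).det ≠ 0 :=
    ((Matrix.isUnit_iff_isUnit_det _).mp g.isUnit).ne_zero
  rw [Matrix.det_of_isLowerTriangular _
    (fun i j hij => hg i j (OrderDual.toDual_lt_toDual.mp hij))] at hdet
  exact (Finset.prod_ne_zero_iff.mp hdet) i (Finset.mem_univ i)

noncomputable def lowerEquiv (F : Type*) [Field F] (n : ℕ) :
    {g : Matrix.GeneralLinearGroup (Fin n) F //
        ∀ i j : Fin n, i < j → (g : Matrix (Fin n) (Fin n) F) i j = 0} ≃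
      ((Σ i : Fin n, Fin i) → F) × (Fin n → Fˣ) where
  toFun g := (fun s => (g.1 : Matrix (Fin n) (Fin n) F) s.1 ⟨s.2, s.2.2.trans s.1.2⟩,
    fun i => Units.mk0 ((g.1 : Matrix (Fin n) (Fin n) F) i i) (diag_ne_zero g.1 g.2 i))
  invFun fd := ⟨Matrix.GeneralLinearGroup.mkOfDetNeZero (mat fd.1 fd.2)
      (by rw [det_mat]; exact Finset.prod_ne_zero_iff.mpr (fun i _ => (fd.2 i).ne_zero)),
    fun i j hij => mat_upper fd.1 fd.2 i j hij⟩
  left_inv g := by
    apply Subtype.ext
    apply Units.ext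
    ext i j
    show mat _ _ i j = (g.1 : Matrix (Fin n) (Fin n) F) i j
    rcases lt_trichotomy i j with h | h | h
    · rw [mat_upper _ _ i j h, g.2 i j h]
    · subst h; rw [mat_diag]; rfl
    · rw [mat_lower _ _ i j h]
  right_inv fd := by
    apply Prod.ext
    · funext s
      show mat fd.1 fd.2 s.1 ⟨s.2, _⟩ = fd.1 s
      have h : (⟨s.2, s.2.2.trans s.1.2⟩ : Fin n) < s.1 := s.2.2
      rw [mat_lower _ _ _ _ h]
    · funext i
      apply Units.ext
      show mat fd.1 fd.2 i i = _
      rw [mat_diag]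

/-- Order of the Borel subgroup of GL_n(q): the invertible lower-triangular n × n matrices over a field with q elements number q^(n(n-1)/2) (q-1)^n (unitriangular part times the diagonal torus). -/
theorem result {F : Type*} [Field F] [Fintype F] {q : ℕ} (hF : Fintype.card F = q) (n : ℕ) : Nat.card {g : Matrix.GeneralLinearGroup (Fin n) F // ∀ i j : Fin n, i < j → (g : Matrix (Fin n) (Fin n) F) i j = 0} = q ^ (n * (n - 1) / 2) * (q - 1) ^ n := by
  classical
  rw [Nat.card_congr (lowerEquiv F n), Nat.card_prod, Nat.card_fun, Nat.card_fun, Nat.card_units,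
    Nat.card_eq_fintype_card (α := F), hF, Nat.card_sigma, Nat.card_eq_fintype_card (α := Fin n),
    Fintype.card_fin]
  congr 2
  simp only [Nat.card_eq_fintype_card, Fintype.card_fin]
  rw [Fin.sum_univ_eq_sum_range (fun i => i) n, Finset.sum_range_id]

end Cfsg.Agent.S0769
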