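import Mathlib
import Cfsg.Statements.S0770

set_option autoImplicit false
open Cfsg

namespace Cfsg.Agent.S0770

theorem mem_diag_iff {F : Type*} [Field F] (n : ℕ) (h : Matrix.GeneralLinearGroup (Fin n) F) :
    h ∈ (Units.map (Matrix.diagonalRingHom (Fin n) F).toMonoidHom).range ↔
      ∀ i j : Fin n, i ≠ j → h.1 i j = 0 := by
  constructor
  · rintro ⟨u, rfl⟩ i j hij
    show Matrix.diagonal (u : Fin n → F) i j = 0
    exact Matrix.diagonal_apply_ne _ hij
  · intro hdiag
    have hmul : h.1 * (h⁻¹).1 = 1 := by
      rw [← Units.val_mul, mul_inv_cancel]; rfl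
    have hd : ∀ i, h.1 i i ≠ 0 := by
      intro i hi
      have := congrFun (congrFun hmul i) i
      rw [Matrix.mul_apply, Matrix.one_apply_eq] at this
      rw [Finset.sum_eq_zero] at this
      · exact zero_ne_one this
      · intro l _
        by_cases hl : l = i
        · rw [hl, hi, zero_mul]
        · rw [hdiag i l (Ne.symm hl), zero_mul]
    refine ⟨⟨fun i => h.1 i i, fun i => (h.1 i i)⁻¹, ?_, ?_⟩, ?_⟩
    · funext i; exact mul_inv_cancel₀ (hd i)
    · funext i; exact inv_mul_cancel₀ (hd i)
    · apply Units.ext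
      show Matrix.diagonal (fun i => h.1 i i) = h.1
      ext i j
      by_cases hij : i = j
      · subst hij; rw [Matrix.diagonal_apply_eq]
      · rw [Matrix.diagonal_apply_ne _ hij, hdiag i j hij]

/-- For a field with at least 3 elements, an invertible matrix normalises the subgroup of invertible diagonal matrices of GL_n if and only if it is monomial (exactly one non-zero entry in each row). -/
theorem result {F : Type*} [Field F] (hF : ∃ a : F, a ≠ 0 ∧ a ≠ 1) (n : ℕ) (g : Matrix.GeneralLinearGroup (Fin n) F) : g ∈ Subgroup.normalizer ((Units.map (Matrix.diagonalRingHom (Fin n) F).toMonoidHom).range : Subgroup (Matrix.GeneralLinearGroup (Fin n) F)) ↔ ∀ i : Fin n, ∃! j : Fin n, (g : Matrix (Fin n) (Fin n) F) i j ≠ 0 := by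
  classical
  rw [Subgroup.mem_normalizer_iff]
  have hGG' : g.1 * (g⁻¹).1 = 1 := by
    rw [← Units.val_mul, mul_inv_cancel]; rfl
  constructor
  · intro hnorm i
    have hrow : ∃ j, g.1 i j ≠ 0 := by
      by_contra hcon
      push Not at hcon
      have := congrFun (congrFun hGG' i) i
      rw [Matrix.mul_apply, Matrix.one_apply_eq,
        Finset.sum_eq_zero (fun l _ => by rw [hcon l, zero_mul])] at this
      exact zero_ne_one this
    obtain ⟨j, hj⟩ := hrow
    refine ⟨j, hj, fun j' hj' => ?_⟩
    by_contra hne
    obtain ⟨a, ha0, ha1⟩ := hF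
    have hdv : ∀ l : Fin n, (if l = j then a else 1) ≠ 0 := by
      intro l
      by_cases hl : l = j
      · rw [if_pos hl]; exact ha0
      · rw [if_neg hl]; exact one_ne_zero
    let u : (Fin n → F)ˣ := ⟨fun l => if l = j then a else 1, fun l => (if l = j then a else 1)⁻¹,
      by funext l; exact mul_inv_cancel₀ (hdv l), by funext l; exact inv_mul_cancel₀ (hdv l)⟩
    have hdD : Units.map (Matrix.diagonalRingHom (Fin n) F).toMonoidHom u ∈
        (Units.map (Matrix.diagonalRingHom (Fin n) F).toMonoidHom).range := ⟨u, rfl⟩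
    have hconj := (hnorm _).mp hdD
    rw [mem_diag_iff] at hconj
    have h3 : (g * Units.map (Matrix.diagonalRingHom (Fin n) F).toMonoidHom u * g⁻¹) * g
        = g * Units.map (Matrix.diagonalRingHom (Fin n) F).toMonoidHom u := by group
    have hMg : (g * Units.map (Matrix.diagonalRingHom (Fin n) F).toMonoidHom u * g⁻¹).1 * g.1
        = g.1 * Matrix.diagonal (fun l => if l = j then a else 1) := by
      calc (g * Units.map (Matrix.diagonalRingHom (Fin n) F).toMonoidHom u * g⁻¹).1 * g.1
          = ((g * Units.map (Matrix.diagonalRingHom (Fin n) F).toMonoidHom u * g⁻¹) * g).1 :=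
            (Units.val_mul _ _).symm
        _ = (g * Units.map (Matrix.diagonalRingHom (Fin n) F).toMonoidHom u).1 := by rw [h3]
        _ = g.1 * (Units.map (Matrix.diagonalRingHom (Fin n) F).toMonoidHom u).1 :=
            Units.val_mul _ _
        _ = g.1 * Matrix.diagonal (fun l => if l = j then a else 1) := rfl
    have hentry : ∀ l, (g * Units.map (Matrix.diagonalRingHom (Fin n) F).toMonoidHom u * g⁻¹).1 i i
        * g.1 i l = g.1 i l * (if l = j then a else 1) := by
      intro l
      have := congrFun (congrFun hMg i) l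
      rw [Matrix.mul_apply, Matrix.mul_diagonal, Finset.sum_eq_single i] at this
      · exact this
      · intro k _ hk; rw [hconj i k (Ne.symm hk), zero_mul]
      · intro h; exact absurd (Finset.mem_univ i) h
    have e1 := hentry j
    have e2 := hentry j'
    rw [if_pos rfl] at e1
    rw [if_neg hne, mul_one] at e2
    have h1 := mul_right_cancel₀ hj (e1.trans (mul_comm _ _))
    have h2 := mul_right_cancel₀ hj' (e2.trans (one_mul _).symm)
    exact ha1 (h1.symm.trans h2)
  · intro hmono h
    have hmono' : ∀ i, ∃ j, g.1 i j ≠ 0 ∧ ∀ y, g.1 i y ≠ 0 → y = j := fun i => hmono i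
    choose π hπ hπuniq using hmono'
    have hzero : ∀ i j, j ≠ π i → g.1 i j = 0 := fun i j hj => by
      by_contra h; exact hj (hπuniq i j h)
    have hrowmul : ∀ (H : Matrix (Fin n) (Fin n) F) (i l : Fin n),
        (g.1 * H) i l = g.1 i (π i) * H (π i) l := by
      intro H i l
      rw [Matrix.mul_apply, Finset.sum_eq_single (π i)]
      · intro j _ hj; rw [hzero i j hj, zero_mul]
      · intro h; exact absurd (Finset.mem_univ _) h
    have hG'val : ∀ i k, (g⁻¹).1 (π i) k = (g.1 i (π i))⁻¹ * (if i = k then 1 else 0) := by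
      intro i k
      have := congrFun (congrFun hGG' i) k
      rw [hrowmul, Matrix.one_apply] at this
      rw [← this, ← mul_assoc, inv_mul_cancel₀ (hπ i), one_mul]
    have hπinj : Function.Injective π := by
      intro i i' hii
      by_contra hne
      have h1 := hG'val i i
      have h2 := hG'val i' i
      rw [if_pos rfl] at h1
      rw [if_neg (Ne.symm hne), mul_zero] at h2
      rw [← hii, h1] at h2
      exact (mul_ne_zero (inv_ne_zero (hπ i)) one_ne_zero) h2
    have hπsurj : Function.Surjective π := Finite.injective_iff_surjective.mp hπinj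
    have hconj : ∀ (H : Matrix (Fin n) (Fin n) F) (i k : Fin n),
        (g.1 * H * (g⁻¹).1) i k = g.1 i (π i) * H (π i) (π k) * (g.1 k (π k))⁻¹ := by
      intro H i k
      rw [Matrix.mul_assoc, hrowmul, Matrix.mul_apply, Finset.sum_eq_single (π k)]
      · rw [hG'val k k, if_pos rfl, mul_one, mul_assoc]
      · intro l _ hl
        obtain ⟨i', rfl⟩ := hπsurj l
        have hi'k : i' ≠ k := fun h => hl (h ▸ rfl)
        rw [hG'val i' k, if_neg hi'k, mul_zero, mul_zero]
      · intro h; exact absurd (Finset.mem_univ _) h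
    rw [mem_diag_iff, mem_diag_iff]
    have hcoe : (g * h * g⁻¹).1 = g.1 * h.1 * (g⁻¹).1 := by
      rw [Units.val_mul, Units.val_mul]
    constructor
    · intro hh i k hik
      rw [hcoe, hconj, hh (π i) (π k) (fun h => hik (hπinj h)), mul_zero, zero_mul]
    · intro hh j l hjl
      obtain ⟨i, rfl⟩ := hπsurj j
      obtain ⟨k, rfl⟩ := hπsurj l
      have hik : i ≠ k := fun h => hjl (h ▸ rfl)
      have := hh i k hik
      rw [hcoe, hconj] at this
      rcases mul_eq_zero.mp this with h1 | h1
      · rcases mul_eq_zero.mp h1 with h2 | h2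
        · exact absurd h2 (hπ i)
        · exact h2
      · exact absurd h1 (inv_ne_zero (hπ k))

end Cfsg.Agent.S0770
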