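import Mathlib
import Cfsg.Statements.S0771

set_option autoImplicit false
open Cfsg

namespace Cfsg.Agent.S0771

open Matrix

/-- The index equivalence `Fin k ⊕ Fin (n - k) ≃ Fin n`. -/
def idx (n k : ℕ) (hk : k ≤ n) : Fin k ⊕ Fin (n - k) ≃ Fin n :=
  finSumFinEquiv.trans (finCongr (Nat.add_sub_of_le hk))

theorem idx_inl (n k : ℕ) (hk : k ≤ n) (a : Fin k) :
    ((idx n k hk (Sum.inl a) : Fin n) : ℕ) = a := by
  simp [idx]

theorem idx_inr (n k : ℕ) (hk : k ≤ n) (b : Fin (n - k)) :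
    ((idx n k hk (Sum.inr b) : Fin n) : ℕ) = k + b := by
  simp [idx]

theorem mem_S_iff {F : Type*} [Field F] (n k : ℕ) (hk : k ≤ n) (v : Fin n → F) :
    (∀ i : Fin n, k ≤ (i : ℕ) → v i = 0) ↔ (v ∘ idx n k hk) ∘ Sum.inr = 0 := by
  constructor
  · intro h
    funext b
    exact h _ (by rw [idx_inr]; omega)
  · intro h i hi
    have hb : (i : ℕ) - k < n - k := by
      have := i.isLt
      omega
    have h2 : v (idx n k hk (Sum.inr ⟨(i : ℕ) - k, hb⟩)) = 0 := congrFun h _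
    have he : idx n k hk (Sum.inr ⟨(i : ℕ) - k, hb⟩) = i := by
      apply Fin.ext
      rw [idx_inr]
      show k + ((i : ℕ) - k) = (i : ℕ)
      omega
    rwa [he] at h2

theorem mulVec_lower {F : Type*} [Field F] (n k : ℕ) (hk : k ≤ n)
    (A : Matrix (Fin k) (Fin k) F) (B : Matrix (Fin k) (Fin (n - k)) F)
    (C : Matrix (Fin (n - k)) (Fin k) F) (D : Matrix (Fin (n - k)) (Fin (n - k)) F)
    (v : Fin n → F) :
    ((((fromBlocks A B C D).submatrix (idx n k hk).symm (idx n k hk).symm) *ᵥ v) ∘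
        idx n k hk) ∘ Sum.inr
      = C *ᵥ ((v ∘ idx n k hk) ∘ Sum.inl) + D *ᵥ ((v ∘ idx n k hk) ∘ Sum.inr) := by
  rw [submatrix_mulVec_equiv, fromBlocks_mulVec]
  funext b
  simp

theorem stab_of_blocks {F : Type*} [Field F] (n k : ℕ) (hk : k ≤ n)
    (A : Matrix (Fin k) (Fin k) F) (B : Matrix (Fin k) (Fin (n - k)) F)
    (D : Matrix (Fin (n - k)) (Fin (n - k)) F) (hD : IsUnit D)
    (g : Matrix.GeneralLinearGroup (Fin n) F)
    (hg : (g : Matrix (Fin n) (Fin n) F) =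
      (fromBlocks A B 0 D).submatrix (idx n k hk).symm (idx n k hk).symm) :
    g ∈ Cfsg.stabilizing (Cfsg.glToMat (Fin n) F)
      {v : Fin n → F | ∀ i : Fin n, k ≤ (i : ℕ) → v i = 0} := by
  intro v
  show (∀ i : Fin n, k ≤ (i : ℕ) → v i = 0) ↔
    (∀ i : Fin n, k ≤ (i : ℕ) → ((g : Matrix (Fin n) (Fin n) F) *ᵥ v) i = 0)
  rw [mem_S_iff n k hk, mem_S_iff n k hk, hg, mulVec_lower, zero_mulVec, zero_add]
  obtain ⟨D', hD'⟩ := hD
  constructor
  · intro h
    rw [h, mulVec_zero]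
  · intro h
    have h3 : ((D'⁻¹ : (Matrix (Fin (n - k)) (Fin (n - k)) F)ˣ) :
        Matrix (Fin (n - k)) (Fin (n - k)) F) *ᵥ (D *ᵥ ((v ∘ idx n k hk) ∘ Sum.inr))
          = (v ∘ idx n k hk) ∘ Sum.inr := by
      rw [mulVec_mulVec, ← hD', ← Units.val_mul, inv_mul_cancel, Units.val_one, one_mulVec]
    rw [← h3, h, mulVec_zero]

theorem blocks_of_stab {F : Type*} [Field F] (n k : ℕ) (hk : k ≤ n)
    (g : Matrix.GeneralLinearGroup (Fin n) F)
    (hg : g ∈ Cfsg.stabilizing (Cfsg.glToMat (Fin n) F)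
      {v : Fin n → F | ∀ i : Fin n, k ≤ (i : ℕ) → v i = 0}) :
    ((g : Matrix (Fin n) (Fin n) F).submatrix (idx n k hk) (idx n k hk)).toBlocks₂₁ = 0 := by
  ext b a
  show (g : Matrix (Fin n) (Fin n) F) (idx n k hk (Sum.inr b)) (idx n k hk (Sum.inl a)) = 0
  have hv : (Pi.single (idx n k hk (Sum.inl a)) (1 : F) : Fin n → F) ∈
      {v : Fin n → F | ∀ i : Fin n, k ≤ (i : ℕ) → v i = 0} := by
    intro i hi
    rw [Pi.single_apply, if_neg]
    intro hia
    have h1 := idx_inl n k hk a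
    rw [← hia] at h1
    have := a.isLt
    omega
  have h2 := (hg (Pi.single (idx n k hk (Sum.inl a)) (1 : F))).mp hv
  have h3 := h2 (idx n k hk (Sum.inr b)) (by rw [idx_inr]; omega)
  have h4 : (Cfsg.glToMat (Fin n) F) g = (g : Matrix (Fin n) (Fin n) F) := rfl
  rw [h4, mulVec_single_one] at h3
  exact h3

/-- Maximal parabolic of GL_n(q): the stabiliser of the coordinate subspace spanned by the first k basis vectors has order q^(k(n-k)) · |GL_k(q)| · |GL_(n-k)(q)| (unipotent radical of order q^(k(n-k)) and Levi complement GL_k × GL_(n-k)). -/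
theorem result {F : Type*} [Field F] [Fintype F] {q : ℕ} (hF : Fintype.card F = q) (n k : ℕ) (hk : k ≤ n) : Nat.card ↥(Cfsg.stabilizing (Cfsg.glToMat (Fin n) F) {v : Fin n → F | ∀ i : Fin n, k ≤ (i : ℕ) → v i = 0}) = q ^ (k * (n - k)) * (∏ i : Fin k, (q ^ k - q ^ (i : ℕ))) * ∏ i : Fin (n - k), (q ^ (n - k) - q ^ (i : ℕ)) := by
  classical
  have hunit : ∀ (x : Matrix.GeneralLinearGroup (Fin k) F × Matrix (Fin k) (Fin (n - k)) F ×
      Matrix.GeneralLinearGroup (Fin (n - k)) F),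
      IsUnit ((fromBlocks (x.1 : Matrix (Fin k) (Fin k) F) x.2.1 0
        (x.2.2 : Matrix (Fin (n - k)) (Fin (n - k)) F)).submatrix
          (idx n k hk).symm (idx n k hk).symm) := by
    intro x
    rw [Matrix.isUnit_submatrix_equiv]
    exact Matrix.isUnit_fromBlocks_zero₂₁.mpr ⟨x.1.isUnit, x.2.2.isUnit⟩
  let f : Matrix.GeneralLinearGroup (Fin k) F × Matrix (Fin k) (Fin (n - k)) F ×
      Matrix.GeneralLinearGroup (Fin (n - k)) F →
      ↥(Cfsg.stabilizing (Cfsg.glToMat (Fin n) F)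
        {v : Fin n → F | ∀ i : Fin n, k ≤ (i : ℕ) → v i = 0}) :=
    fun x => ⟨(hunit x).unit,
      stab_of_blocks n k hk _ _ _ x.2.2.isUnit _ (IsUnit.unit_spec (hunit x))⟩
  have hfval : ∀ x, (((f x : Matrix.GeneralLinearGroup (Fin n) F)) : Matrix (Fin n) (Fin n) F) =
      (fromBlocks (x.1 : Matrix (Fin k) (Fin k) F) x.2.1 0
        (x.2.2 : Matrix (Fin (n - k)) (Fin (n - k)) F)).submatrix
          (idx n k hk).symm (idx n k hk).symm := fun x => IsUnit.unit_spec (hunit x)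
  have hsub : ∀ N N' : Matrix (Fin k ⊕ Fin (n - k)) (Fin k ⊕ Fin (n - k)) F,
      N.submatrix (idx n k hk).symm (idx n k hk).symm =
        N'.submatrix (idx n k hk).symm (idx n k hk).symm → N = N' := by
    intro N N' h
    ext i j
    have := congrFun (congrFun h (idx n k hk i)) (idx n k hk j)
    simpa using this
  have hinj : Function.Injective f := by
    rintro ⟨A, B, D⟩ ⟨A', B', D'⟩ h
    have h1 : (((f (A, B, D) : Matrix.GeneralLinearGroup (Fin n) F)) :
        Matrix (Fin n) (Fin n) F) = ((f (A', B', D') : Matrix.GeneralLinearGroup (Fin n) F)) := by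
      rw [h]
    rw [hfval, hfval] at h1
    have h2 := hsub _ _ h1
    obtain ⟨e1, e2, -, e4⟩ := fromBlocks_inj.mp h2
    have e1' : A = A' := Units.ext e1
    have e4' : D = D' := Units.ext e4
    have e2' : B = B' := e2
    rw [e1', e2', e4']
  have hsurj : Function.Surjective f := by
    rintro ⟨g, hg⟩
    obtain ⟨N, hNdef⟩ : ∃ N : Matrix (Fin k ⊕ Fin (n - k)) (Fin k ⊕ Fin (n - k)) F,
        N = (g : Matrix (Fin n) (Fin n) F).submatrix (idx n k hk) (idx n k hk) := ⟨_, rfl⟩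
    have hN21 : N.toBlocks₂₁ = 0 := by
      rw [hNdef]
      exact blocks_of_stab n k hk g hg
    have hN : fromBlocks N.toBlocks₁₁ N.toBlocks₁₂ 0 N.toBlocks₂₂ = N := by
      rw [← hN21, fromBlocks_toBlocks]
    have hNu : IsUnit N := by
      rw [hNdef, Matrix.isUnit_submatrix_equiv]
      exact g.isUnit
    rw [← hN, Matrix.isUnit_fromBlocks_zero₂₁] at hNu
    obtain ⟨hA, hD⟩ := hNu
    refine ⟨(hA.unit, N.toBlocks₁₂, hD.unit), ?_⟩
    apply Subtype.ext
    apply Units.ext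
    rw [hfval]
    show (fromBlocks (hA.unit : Matrix (Fin k) (Fin k) F) N.toBlocks₁₂ 0
      (hD.unit : Matrix (Fin (n - k)) (Fin (n - k)) F)).submatrix
        (idx n k hk).symm (idx n k hk).symm = (g : Matrix (Fin n) (Fin n) F)
    rw [IsUnit.unit_spec, IsUnit.unit_spec, hN, hNdef]
    ext i j
    simp
  have hcard := Nat.card_congr (Equiv.ofBijective f ⟨hinj, hsurj⟩)
  have hmat : Nat.card (Matrix (Fin k) (Fin (n - k)) F) = q ^ (k * (n - k)) := by
    show Nat.card (Fin k → Fin (n - k) → F) = q ^ (k * (n - k))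
    rw [Nat.card_fun, Nat.card_fun, Nat.card_eq_fintype_card (α := F), hF]
    simp [← pow_mul, mul_comm]
  rw [← hcard, Nat.card_prod, Nat.card_prod, Matrix.card_GL_field, Matrix.card_GL_field, hmat, hF]
  ring

end Cfsg.Agent.S0771
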