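import Cfsg.Statements.S0772
import Cfsg.Agent.Helper2.ParabCoord

set_option autoImplicit false
open Cfsg

namespace Cfsg.Agent.S0772

/-- Maximal parabolics are maximal: over a finite field, for 0 < k < n the stabiliser in GL_n of the span of the first k coordinate vectors is a maximal proper subgroup. -/
theorem result {F : Type*} [Field F] [Finite F] (n k : ℕ) (hk0 : 0 < k) (hkn : k < n) : IsCoatom (Cfsg.stabilizing (Cfsg.glToMat (Fin n) F) {v : Fin n → F | ∀ i : Fin n, k ≤ (i : ℕ) → v i = 0}) := by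
  haveI : Nontrivial (Fin n) := Fin.nontrivial_iff_two_le.2 (by omega)
  have hW0 := Helper2.Parab.Wk_ne_bot (F := F) n k hk0 hkn
  have hW1 := Helper2.Parab.Wk_ne_top (F := F) n k hkn
  show IsCoatom (Cfsg.stabilizing (Cfsg.glToMat (Fin n) F)
    ((Helper2.Parab.Wk F n k : Submodule F (Fin n → F)) : Set (Fin n → F)))
  constructor
  · intro htop
    obtain ⟨g, -, hg⟩ := Helper2.Parab.exists_sl_not_stab _ hW0 hW1
    apply hg
    rw [htop]
    exact Subgroup.mem_top g
  · intro K hK
    obtain ⟨g, hgK, hg⟩ := SetLike.exists_of_lt hK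
    have hSL := Helper2.Parab.sl_le_of_stab (Helper2.Parab.Wk F n k) K
      (inf_le_left.trans hK.le) ⟨g, hgK, hg⟩
    rw [eq_top_iff]
    intro x _
    have hφu : (Pi.single (⟨0, by omega⟩ : Fin n) 1 : Fin n → F) ⬝ᵥ
        (((x : Matrix (Fin n) (Fin n) F).det - 1) • (Pi.single (⟨0, by omega⟩ : Fin n) 1 : Fin n → F))
        = (x : Matrix (Fin n) (Fin n) F).det - 1 := by
      rw [dotProduct_smul, single_dotProduct, Pi.single_eq_same, mul_one, smul_eq_mul, mul_one]
    have hne : 1 + (Pi.single (⟨0, by omega⟩ : Fin n) 1 : Fin n → F) ⬝ᵥ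
        (((x : Matrix (Fin n) (Fin n) F).det - 1) • (Pi.single (⟨0, by omega⟩ : Fin n) 1 : Fin n → F))
        ≠ 0 := by
      rw [hφu, add_sub_cancel]
      exact Matrix.GeneralLinearGroup.det_ne_zero x
    have hp : Helper2.Parab.tgl _ _ hne ∈ Cfsg.stabilizing (Cfsg.glToMat (Fin n) F)
        ((Helper2.Parab.Wk F n k : Submodule F (Fin n → F)) : Set (Fin n → F)) :=
      Helper2.Parab.mem_stab_of_mem _ _ _ _ (Helper2.Parab.tgl_val _ _ hne)
        (Submodule.smul_mem _ _ (Helper2.Parab.single_mem_Wk n k _ hk0 1))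
    have hdet : Matrix.GeneralLinearGroup.det x
        = Matrix.GeneralLinearGroup.det (Helper2.Parab.tgl _ _ hne) := by
      apply Units.ext
      show (x : Matrix (Fin n) (Fin n) F).det = (Helper2.Parab.tgl _ _ hne).val.det
      rw [Helper2.Parab.tgl_val, Helper2.Parab.tmat_det, hφu, add_sub_cancel]
    have hsl : x * (Helper2.Parab.tgl _ _ hne)⁻¹ ∈ Cfsg.Geo.specialLinear (Fin n) F := by
      show Matrix.GeneralLinearGroup.det (x * (Helper2.Parab.tgl _ _ hne)⁻¹) = 1
      rw [map_mul, map_inv, hdet, mul_inv_cancel]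
    have h3 := K.mul_mem (hSL hsl) (hK.le hp)
    rw [inv_mul_cancel_right] at h3
    exact h3

end Cfsg.Agent.S0772
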