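import Cfsg.Statements.S0774
import Mathlib
-- import your own Cfsg.Agent.* helpers here

set_option autoImplicit false
open Cfsg

namespace Cfsg.Agent.S0774

section
open Matrix

def Aof {F : Type*} [Field F] {m : ℕ} (d : Fin m → Fˣ) (N : Matrix (Fin m) (Fin m) F) :
    Matrix (Fin m) (Fin m) F :=
  Matrix.of fun i j => if i = j then (d i : F) else if i < j then N j i else 0

def Sof {F : Type*} [Field F] {m : ℕ} (N : Matrix (Fin m) (Fin m) F) : Matrix (Fin m) (Fin m) F :=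
  Matrix.of fun i j => if i ≤ j then N i j else N j i

def Uset (m : ℕ) (F : Type*) [Field F] (k : Fin m) : Set (Fin m ⊕ Fin m → F) :=
  {v : Fin m ⊕ Fin m → F | (∀ i : Fin m, (k : ℕ) < (i : ℕ) → v (Sum.inl i) = 0) ∧
    ∀ i : Fin m, v (Sum.inr i) = 0}

theorem Aof_upper {F : Type*} [Field F] {m : ℕ} (d : Fin m → Fˣ) (N : Matrix (Fin m) (Fin m) F) :
    (Aof d N).BlockTriangular id := by
  intro i j hij
  have hij' : j < i := hij
  simp [Aof, hij'.ne', not_lt.mpr hij'.le]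

theorem Aof_isUnit {F : Type*} [Field F] {m : ℕ} (d : Fin m → Fˣ)
    (N : Matrix (Fin m) (Fin m) F) : IsUnit (Aof d N).det := by
  rw [Matrix.det_of_isUpperTriangular (Aof_upper d N)]
  have : ∀ i, Aof d N i i = (d i : F) := fun i => by simp [Aof]
  simp only [this]
  exact isUnit_iff_ne_zero.mpr (Finset.prod_ne_zero_iff.mpr fun i _ => (d i).ne_zero)

theorem Sof_symm {F : Type*} [Field F] {m : ℕ} (N : Matrix (Fin m) (Fin m) F) :
    (Sof N)ᵀ = Sof N := by
  ext i j
  simp only [Matrix.transpose_apply, Sof, Matrix.of_apply]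
  rcases lt_trichotomy i j with h | h | h
  · simp [h.le, not_le.mpr h]
  · subst h; simp
  · simp [h.le, not_le.mpr h]

theorem upper_supp {F : Type*} [Field F] {m : ℕ} (A : Matrix (Fin m) (Fin m) F)
    (hA : A.BlockTriangular id) (k : Fin m) (x : Fin m → F)
    (hx : ∀ i : Fin m, (k : ℕ) < (i : ℕ) → x i = 0) :
    ∀ i : Fin m, (k : ℕ) < (i : ℕ) → (A *ᵥ x) i = 0 := by
  intro i hi
  simp only [Matrix.mulVec, dotProduct]
  apply Finset.sum_eq_zero
  intro j _
  by_cases hji : j < i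
  · rw [hA hji, zero_mul]
  · have h1 : (i : ℕ) ≤ (j : ℕ) := not_lt.mp hji
    rw [hx j (by omega), mul_zero]

theorem mk_symp {F : Type*} [Field F] {m : ℕ} (A S : Matrix (Fin m) (Fin m) F)
    (hA : IsUnit A.det) (hS : Sᵀ = S) :
    Matrix.fromBlocks A (A * S) 0 (A⁻¹)ᵀ ∈ Matrix.symplecticGroup (Fin m) F := by
  rw [SymplecticGroup.mem_iff']
  have h1 : A⁻¹ * A = 1 := Matrix.nonsing_inv_mul A hA
  have h2 : Aᵀ * (A⁻¹)ᵀ = 1 := by rw [← Matrix.transpose_mul, h1, Matrix.transpose_one]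
  unfold Matrix.J
  rw [Matrix.fromBlocks_transpose, Matrix.fromBlocks_multiply, Matrix.fromBlocks_multiply]
  refine Matrix.fromBlocks_inj.mpr ⟨?_, ?_, ?_, ?_⟩
  · simp
  · simp [h2]
  · simp [h1]
  · simp only [Matrix.transpose_transpose, Matrix.mul_zero, Matrix.mul_one, zero_add,
      Matrix.mul_neg, add_zero, Matrix.transpose_mul, hS, Matrix.neg_mul]
    rw [← Matrix.mul_assoc, h1, Matrix.one_mul, Matrix.mul_assoc, h2, Matrix.mul_one]
    simp

theorem mk_stab {F : Type*} [Field F] {m : ℕ} (A B D : Matrix (Fin m) (Fin m) F)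
    (hA : A.BlockTriangular id) (hAu : IsUnit A.det) (hD : Aᵀ * D = 1) (k : Fin m)
    (v : Fin m ⊕ Fin m → F) :
    v ∈ Uset m F k ↔ (Matrix.fromBlocks A B 0 D) *ᵥ v ∈ Uset m F k := by
  rw [Matrix.fromBlocks_mulVec]
  constructor
  · rintro ⟨h1, h2⟩
    have h3 : v ∘ Sum.inr = 0 := funext h2
    refine ⟨fun i hi => ?_, fun i => ?_⟩
    · simp only [Sum.elim_inl, h3, Matrix.mulVec_zero, add_zero]
      exact upper_supp A hA k _ h1 i hi
    · simp [h3]
  · rintro ⟨h1, h2⟩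
    have h3 : v ∘ Sum.inr = 0 := by
      have h4 : D *ᵥ (v ∘ Sum.inr) = 0 := by
        funext i; have := h2 i; simpa using this
      have h5 : Aᵀ *ᵥ (D *ᵥ (v ∘ Sum.inr)) = v ∘ Sum.inr := by
        rw [Matrix.mulVec_mulVec, hD, Matrix.one_mulVec]
      rw [← h5, h4, Matrix.mulVec_zero]
    refine ⟨fun i hi => ?_, fun i => congrFun h3 i⟩
    have h6 : ∀ i : Fin m, (k:ℕ) < (i:ℕ) → (A *ᵥ (v ∘ Sum.inl)) i = 0 := by
      intro i hi; have := h1 i hi; simpa [h3] using this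
    haveI : Invertible A := Matrix.invertibleOfIsUnitDet A hAu
    have h7 : (A⁻¹).BlockTriangular id := Matrix.blockTriangular_inv_of_blockTriangular hA
    have h8 := upper_supp A⁻¹ h7 k _ h6 i hi
    rw [Matrix.mulVec_mulVec, Matrix.nonsing_inv_mul A hAu, Matrix.one_mulVec] at h8
    exact h8

theorem borel_struct {F : Type*} [Field F] {m : ℕ}
    (g : Matrix (Fin m ⊕ Fin m) (Fin m ⊕ Fin m) F)
    (hg : g ∈ Matrix.symplecticGroup (Fin m) F)
    (hst : ∀ (k : Fin m) (v : Fin m ⊕ Fin m → F), v ∈ Uset m F k ↔ g *ᵥ v ∈ Uset m F k) :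
    g.toBlocks₂₁ = 0 ∧ g.toBlocks₁₁.BlockTriangular id ∧ g.toBlocks₂₂ᵀ * g.toBlocks₁₁ = 1 ∧
      (g.toBlocks₂₂ᵀ * g.toBlocks₁₂)ᵀ = g.toBlocks₂₂ᵀ * g.toBlocks₁₂ := by
  classical
  have hcol : ∀ j : Fin m, g *ᵥ Pi.single (Sum.inl j) 1 ∈ Uset m F j := by
    intro j
    apply (hst j _).mp
    refine ⟨fun i hi => ?_, fun i => ?_⟩
    · rw [Pi.single_eq_of_ne]
      intro h
      have := Sum.inl.inj h
      subst this; omega
    · simp
  have h21 : g.toBlocks₂₁ = 0 := by
    ext i j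
    have := (hcol j).2 i
    rw [Matrix.mulVec_single_one] at this
    exact this
  have hup : g.toBlocks₁₁.BlockTriangular id := by
    intro i j hij
    have hij' : (j : ℕ) < (i : ℕ) := hij
    have := (hcol j).1 i hij'
    rw [Matrix.mulVec_single_one] at this
    exact this
  have hg' := SymplecticGroup.mem_iff'.mp hg
  have hM' : g = Matrix.fromBlocks g.toBlocks₁₁ g.toBlocks₁₂ 0 g.toBlocks₂₂ := by
    rw [← h21, Matrix.fromBlocks_toBlocks]
  refine ⟨h21, hup, ?_⟩
  generalize g.toBlocks₁₁ = A at hM' ⊢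
  generalize g.toBlocks₁₂ = B at hM' ⊢
  generalize g.toBlocks₂₂ = D at hM' ⊢
  rw [hM'] at hg'
  unfold Matrix.J at hg'
  rw [Matrix.fromBlocks_transpose, Matrix.fromBlocks_multiply, Matrix.fromBlocks_multiply,
    Matrix.fromBlocks_inj] at hg'
  simp only [Matrix.transpose_zero, Matrix.mul_zero, Matrix.zero_mul, add_zero, zero_add,
    Matrix.mul_one, Matrix.mul_neg, Matrix.neg_mul] at hg'
  obtain ⟨-, h12, h21', h22⟩ := hg'
  refine ⟨h21', ?_⟩
  rw [Matrix.transpose_mul, Matrix.transpose_transpose]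
  have := eq_neg_of_add_eq_zero_left h22
  rw [neg_neg] at this
  exact this.symm

theorem main {F : Type*} [Field F] [Fintype F] (m : ℕ) :
    Nat.card ↥(⨅ k : Fin m, Cfsg.stabilizing (Cfsg.spToMat m F) (Uset m F k))
      = (Fintype.card F) ^ (m ^ 2) * (Fintype.card F - 1) ^ m := by
  classical
  have hmem : ∀ g : Matrix.symplecticGroup (Fin m) F,
      g ∈ (⨅ k : Fin m, Cfsg.stabilizing (Cfsg.spToMat m F) (Uset m F k)) ↔
        ∀ (k : Fin m) (v : Fin m ⊕ Fin m → F), v ∈ Uset m F k ↔ g.1 *ᵥ v ∈ Uset m F k := by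
    intro g; rw [Subgroup.mem_iInf]; rfl
  have hinvT : ∀ (d : Fin m → Fˣ) (N : Matrix (Fin m) (Fin m) F),
      (Aof d N)ᵀ * ((Aof d N)⁻¹)ᵀ = 1 := by
    intro d N
    rw [← Matrix.transpose_mul, Matrix.nonsing_inv_mul _ (Aof_isUnit d N), Matrix.transpose_one]
  let Ψ : (Fin m → Fˣ) × Matrix (Fin m) (Fin m) F →
      ↥(⨅ k : Fin m, Cfsg.stabilizing (Cfsg.spToMat m F) (Uset m F k)) :=
    fun dN => ⟨⟨Matrix.fromBlocks (Aof dN.1 dN.2) (Aof dN.1 dN.2 * Sof dN.2) 0
        ((Aof dN.1 dN.2)⁻¹)ᵀ, mk_symp _ _ (Aof_isUnit _ _) (Sof_symm _)⟩,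
      (hmem _).mpr (fun k v => mk_stab _ _ _ (Aof_upper _ _) (Aof_isUnit _ _) (hinvT _ _) k v)⟩
  have hinj : Function.Injective Ψ := by
    rintro ⟨d, N⟩ ⟨d', N'⟩ hxy
    have h1 : Matrix.fromBlocks (Aof d N) (Aof d N * Sof N) 0 ((Aof d N)⁻¹)ᵀ
        = Matrix.fromBlocks (Aof d' N') (Aof d' N' * Sof N') 0 ((Aof d' N')⁻¹)ᵀ :=
      congrArg (fun g => g.1.1) hxy
    rw [Matrix.fromBlocks_inj] at h1
    obtain ⟨hA, hAS, -, -⟩ := h1
    have hS : Sof N = Sof N' := by
      have h2 : (Aof d N)⁻¹ * (Aof d N * Sof N) = (Aof d N)⁻¹ * (Aof d' N' * Sof N') := by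
        rw [hAS]
      rw [← hA, ← Matrix.mul_assoc, ← Matrix.mul_assoc,
        Matrix.nonsing_inv_mul _ (Aof_isUnit d N), Matrix.one_mul, Matrix.one_mul] at h2
      exact h2
    have hd : d = d' := by
      funext i
      apply Units.ext
      have := congrFun (congrFun hA i) i
      simpa [Aof] using this
    have hN : N = N' := by
      ext i j
      by_cases hij : i ≤ j
      · have := congrFun (congrFun hS i) j
        simpa [Sof, hij] using this
      · have hji : j < i := not_le.mp hij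
        have := congrFun (congrFun hA j) i
        simpa [Aof, hji.ne, hji] using this
    rw [hd, hN]
  have hsurj : Function.Surjective Ψ := by
    rintro ⟨g, hg⟩
    obtain ⟨h21, hup, hDA, hsym⟩ := borel_struct g.1 g.2 ((hmem g).mp hg)
    have hAu : IsUnit g.1.toBlocks₁₁.det := Matrix.isUnit_det_of_left_inverse hDA
    have hne : ∀ i, g.1.toBlocks₁₁ i i ≠ 0 := by
      intro i
      have h1 := hAu
      rw [Matrix.det_of_isUpperTriangular hup, isUnit_iff_ne_zero, Finset.prod_ne_zero_iff] at h1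
      exact h1 i (Finset.mem_univ i)
    have hAD : g.1.toBlocks₁₁ * g.1.toBlocks₂₂ᵀ = 1 := mul_eq_one_comm.mp hDA
    have hinv : (g.1.toBlocks₁₁)⁻¹ = g.1.toBlocks₂₂ᵀ := Matrix.inv_eq_left_inv hDA
    refine ⟨(fun i => Units.mk0 (g.1.toBlocks₁₁ i i) (hne i),
      Matrix.of fun i j => if i ≤ j then (g.1.toBlocks₂₂ᵀ * g.1.toBlocks₁₂) i j
        else g.1.toBlocks₁₁ j i), ?_⟩
    have hAof : Aof (fun i => Units.mk0 (g.1.toBlocks₁₁ i i) (hne i))
        (Matrix.of fun i j => if i ≤ j then (g.1.toBlocks₂₂ᵀ * g.1.toBlocks₁₂) i j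
          else g.1.toBlocks₁₁ j i) = g.1.toBlocks₁₁ := by
      ext i j
      simp only [Aof, Matrix.of_apply]
      split_ifs with h1 h2 h3
      · subst h1; rfl
      · exact absurd h3 (not_le.mpr h2)
      · rfl
      · have hji : j < i := lt_of_le_of_ne (not_lt.mp h2) (Ne.symm h1)
        exact (hup hji).symm
    have hSof : Sof (Matrix.of fun i j => if i ≤ j then (g.1.toBlocks₂₂ᵀ * g.1.toBlocks₁₂) i j
          else g.1.toBlocks₁₁ j i) = g.1.toBlocks₂₂ᵀ * g.1.toBlocks₁₂ := by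
      ext i j
      simp only [Sof, Matrix.of_apply]
      by_cases hij : i ≤ j
      · rw [if_pos hij, if_pos hij]
      · have hji : j ≤ i := (not_le.mp hij).le
        rw [if_neg hij, if_pos hji]
        have := congrFun (congrFun hsym i) j
        rw [Matrix.transpose_apply] at this
        exact this
    apply Subtype.ext; apply Subtype.ext
    show Matrix.fromBlocks (Aof _ _) (Aof _ _ * Sof _) 0 ((Aof _ _)⁻¹)ᵀ = g.1
    rw [hAof, hSof, hinv, Matrix.transpose_transpose, ← Matrix.mul_assoc, hAD, Matrix.one_mul]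
    have h5 := Matrix.fromBlocks_toBlocks g.1
    rw [h21] at h5
    exact h5
  rw [← Nat.card_eq_of_bijective Ψ ⟨hinj, hsurj⟩, Nat.card_prod, Nat.card_pi]
  simp only [Nat.card_units, Finset.prod_const, Finset.card_univ, Fintype.card_fin]
  rw [Nat.card_eq_fintype_card (α := F), Nat.card_eq_fintype_card (α := Matrix (Fin m) (Fin m) F)]
  have h1 : Fintype.card (Matrix (Fin m) (Fin m) F) = Fintype.card F ^ (m ^ 2) := by
    show Fintype.card (Fin m → Fin m → F) = _
    rw [Fintype.card_fun, Fintype.card_fun, Fintype.card_fin, ← pow_mul, sq]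
  rw [h1, mul_comm]

end


/-- Borel subgroup of the symplectic group: the elements of Sp_2m(q) stabilising each of the totally isotropic coordinate subspaces ⟨e_0, ..., e_k⟩ (k < m) form a subgroup of order q^(m²) (q − 1)^m. -/
theorem result {F : Type*} [Field F] [Fintype F] {q : ℕ} (hF : Fintype.card F = q) (m : ℕ) : Nat.card ↥(⨅ k : Fin m, Cfsg.stabilizing (Cfsg.spToMat m F) {v : Fin m ⊕ Fin m → F | (∀ i : Fin m, (k : ℕ) < (i : ℕ) → v (Sum.inl i) = 0) ∧ ∀ i : Fin m, v (Sum.inr i) = 0}) = q ^ (m ^ 2) * (q - 1) ^ m := by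
  rw [← hF]
  exact main m


end Cfsg.Agent.S0774
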