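import Cfsg.Statements.S0776
import Mathlib
import Cfsg.Agent.S0766
import Cfsg.Agent.S0752
-- import your own Cfsg.Agent.* helpers here

set_option autoImplicit false
open Cfsg

namespace Cfsg.Agent.S0776

section
open Matrix

abbrev K (k l : ℕ) := (Fin k ⊕ Fin k) ⊕ (Fin l ⊕ Fin l)

def J2 (k l : ℕ) (F : Type*) [CommRing F] : Matrix (K k l) (K k l) F :=
  Matrix.fromBlocks (Matrix.J (Fin k) F) 0 0 (Matrix.J (Fin l) F)

theorem J2_sq (k l : ℕ) (F : Type*) [CommRing F] : J2 k l F * J2 k l F = -1 := by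
  unfold J2
  rw [Matrix.fromBlocks_multiply]
  simp only [Matrix.J_squared, Matrix.mul_zero, Matrix.zero_mul, add_zero, zero_add]
  rw [show (-1 : Matrix (K k l) (K k l) F) = -Matrix.fromBlocks 1 0 0 1 by
    rw [Matrix.fromBlocks_one], Matrix.fromBlocks_neg]
  simp

theorem diag_symp {F : Type*} [CommRing F] (k l : ℕ)
    (A : Matrix (Fin k ⊕ Fin k) (Fin k ⊕ Fin k) F) (D : Matrix (Fin l ⊕ Fin l) (Fin l ⊕ Fin l) F)
    (hA : Aᵀ * Matrix.J (Fin k) F * A = Matrix.J (Fin k) F)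
    (hD : Dᵀ * Matrix.J (Fin l) F * D = Matrix.J (Fin l) F) :
    (Matrix.fromBlocks A 0 0 D)ᵀ * J2 k l F * Matrix.fromBlocks A 0 0 D = J2 k l F := by
  unfold J2
  rw [Matrix.fromBlocks_transpose, Matrix.fromBlocks_multiply, Matrix.fromBlocks_multiply]
  simp [hA, hD]

theorem blk {F : Type*} [CommRing F] (k l : ℕ) (M : Matrix (K k l) (K k l) F)
    (hM : Mᵀ * J2 k l F * M = J2 k l F) (h21 : M.toBlocks₂₁ = 0) :
    M.toBlocks₁₂ = 0 ∧ M.toBlocks₁₁ ∈ Matrix.symplecticGroup (Fin k) F ∧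
      M.toBlocks₂₂ ∈ Matrix.symplecticGroup (Fin l) F := by
  have hM' : M = Matrix.fromBlocks M.toBlocks₁₁ M.toBlocks₁₂ 0 M.toBlocks₂₂ := by
    rw [← h21, Matrix.fromBlocks_toBlocks]
  generalize M.toBlocks₁₁ = A at hM' ⊢
  generalize M.toBlocks₁₂ = B at hM' ⊢
  generalize M.toBlocks₂₂ = D at hM' ⊢
  subst hM'
  unfold J2 at hM
  rw [Matrix.fromBlocks_transpose, Matrix.fromBlocks_multiply, Matrix.fromBlocks_multiply,
    Matrix.fromBlocks_inj] at hM
  simp only [Matrix.transpose_zero, Matrix.mul_zero, Matrix.zero_mul, add_zero, zero_add] at hM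
  obtain ⟨h1, h2, h3, h4⟩ := hM
  have hA : A ∈ Matrix.symplecticGroup (Fin k) F := SymplecticGroup.mem_iff'.mpr h1
  have hB : B = 0 := by
    have hA2 : A * Matrix.J (Fin k) F * Aᵀ = Matrix.J (Fin k) F := hA
    have h5 : A * Matrix.J (Fin k) F * (Aᵀ * Matrix.J (Fin k) F * B) = 0 := by rw [h2, Matrix.mul_zero]
    have h6 : A * Matrix.J (Fin k) F * (Aᵀ * Matrix.J (Fin k) F * B)
        = (A * Matrix.J (Fin k) F * Aᵀ) * Matrix.J (Fin k) F * B := by
      simp only [Matrix.mul_assoc]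
    rw [h6, hA2, Matrix.J_squared] at h5
    simpa using h5
  subst hB
  refine ⟨rfl, hA, SymplecticGroup.mem_iff'.mpr ?_⟩
  simpa using h4

theorem alg {F : Type*} [Field F] (m k l : ℕ) (W : Submodule F (Fin m ⊕ Fin m → F))
    (P : Matrix (Fin m ⊕ Fin m) (K k l) F) (Q : Matrix (K k l) (Fin m ⊕ Fin m) F)
    (hQP : Q * P = 1) (hPQ : P * Q = 1) (hJ : Pᵀ * Matrix.J (Fin m) F * P = J2 k l F)
    (hW : ∀ v, v ∈ W ↔ ∀ b, (Q *ᵥ v) (Sum.inr b) = 0) :
    Nonempty (↥(Cfsg.stabilizing (Cfsg.spToMat m F) (W : Set (Fin m ⊕ Fin m → F))) ≃*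
      Matrix.symplecticGroup (Fin k) F × Matrix.symplecticGroup (Fin l) F) := by
  classical
  have hJ' : Qᵀ * J2 k l F * Q = Matrix.J (Fin m) F := by
    rw [← hJ]
    have : Qᵀ * (Pᵀ * Matrix.J (Fin m) F * P) * Q = (P * Q)ᵀ * Matrix.J (Fin m) F * (P * Q) := by
      rw [Matrix.transpose_mul]; simp only [Matrix.mul_assoc]
    rw [this, hPQ]; simp
  have hmem1 : ∀ (A : Matrix.symplecticGroup (Fin k) F) (D : Matrix.symplecticGroup (Fin l) F),
      P * Matrix.fromBlocks A.1 0 0 D.1 * Q ∈ Matrix.symplecticGroup (Fin m) F := by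
    intro A D
    rw [SymplecticGroup.mem_iff']
    have h1 := diag_symp k l A.1 D.1 (SymplecticGroup.mem_iff'.mp A.2)
      (SymplecticGroup.mem_iff'.mp D.2)
    have : (P * Matrix.fromBlocks A.1 0 0 D.1 * Q)ᵀ * Matrix.J (Fin m) F *
        (P * Matrix.fromBlocks A.1 0 0 D.1 * Q)
        = Qᵀ * ((Matrix.fromBlocks A.1 0 0 D.1)ᵀ * (Pᵀ * Matrix.J (Fin m) F * P) *
          Matrix.fromBlocks A.1 0 0 D.1) * Q := by
      simp only [Matrix.transpose_mul, Matrix.mul_assoc]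
    rw [this, hJ, h1, hJ']
  have hmem2 : ∀ (A : Matrix.symplecticGroup (Fin k) F) (D : Matrix.symplecticGroup (Fin l) F)
      (v : Fin m ⊕ Fin m → F),
      v ∈ W ↔ (P * Matrix.fromBlocks A.1 0 0 D.1 * Q) *ᵥ v ∈ W := by
    intro A D v
    rw [hW, hW]
    have h1 : Q *ᵥ ((P * Matrix.fromBlocks A.1 0 0 D.1 * Q) *ᵥ v)
        = Matrix.fromBlocks A.1 0 0 D.1 *ᵥ (Q *ᵥ v) := by
      rw [Matrix.mulVec_mulVec, Matrix.mulVec_mulVec, ← Matrix.mul_assoc, ← Matrix.mul_assoc, hQP,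
        Matrix.one_mul]
    rw [h1, Matrix.fromBlocks_mulVec]
    simp only [Sum.elim_inr, Matrix.zero_mulVec, zero_add]
    constructor
    · intro h b
      have : (Q *ᵥ v) ∘ Sum.inr = 0 := funext h
      rw [this, Matrix.mulVec_zero]; rfl
    · intro h b
      have h2 : D.1 *ᵥ ((Q *ᵥ v) ∘ Sum.inr) = 0 := funext h
      have h3 : (D⁻¹).1 *ᵥ (D.1 *ᵥ ((Q *ᵥ v) ∘ Sum.inr)) = (Q *ᵥ v) ∘ Sum.inr := by
        rw [Matrix.mulVec_mulVec]
        have : (D⁻¹).1 * D.1 = 1 := congrArg Subtype.val (inv_mul_cancel D)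
        rw [this, Matrix.one_mulVec]
      rw [h2, Matrix.mulVec_zero] at h3
      exact (congrFun h3 b).symm
  let ψ : Matrix.symplecticGroup (Fin k) F × Matrix.symplecticGroup (Fin l) F →*
      ↥(Cfsg.stabilizing (Cfsg.spToMat m F) (W : Set (Fin m ⊕ Fin m → F))) :=
    { toFun := fun AD => ⟨⟨P * Matrix.fromBlocks AD.1.1 0 0 AD.2.1 * Q, hmem1 AD.1 AD.2⟩,
        hmem2 AD.1 AD.2⟩
      map_one' := by
        apply Subtype.ext; apply Subtype.ext
        show P * Matrix.fromBlocks (1 : Matrix _ _ F) 0 0 (1 : Matrix _ _ F) * Q = 1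
        rw [Matrix.fromBlocks_one, Matrix.mul_one, hPQ]
      map_mul' := by
        intro x y
        apply Subtype.ext; apply Subtype.ext
        show P * Matrix.fromBlocks (x.1.1 * y.1.1) 0 0 (x.2.1 * y.2.1) * Q
          = (P * Matrix.fromBlocks x.1.1 0 0 x.2.1 * Q) *
            (P * Matrix.fromBlocks y.1.1 0 0 y.2.1 * Q)
        have : (P * Matrix.fromBlocks x.1.1 0 0 x.2.1 * Q) *
            (P * Matrix.fromBlocks y.1.1 0 0 y.2.1 * Q)
            = P * (Matrix.fromBlocks x.1.1 0 0 x.2.1 * (Q * P) *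
              Matrix.fromBlocks y.1.1 0 0 y.2.1) * Q := by
          simp only [Matrix.mul_assoc]
        rw [this, hQP, Matrix.mul_one, Matrix.fromBlocks_multiply]
        simp }
  have hinj : Function.Injective ψ := by
    intro x y hxy
    have h1 : P * Matrix.fromBlocks x.1.1 0 0 x.2.1 * Q
        = P * Matrix.fromBlocks y.1.1 0 0 y.2.1 * Q :=
      congrArg (fun g => g.1.1) hxy
    have h2 : ∀ M : Matrix (K k l) (K k l) F, Q * (P * M * Q) * P = M := by
      intro M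
      have : Q * (P * M * Q) * P = (Q * P) * M * (Q * P) := by simp only [Matrix.mul_assoc]
      rw [this, hQP, Matrix.one_mul, Matrix.mul_one]
    have h3 := congrArg (fun g => Q * g * P) h1
    simp only [h2] at h3
    rw [Matrix.fromBlocks_inj] at h3
    exact Prod.ext (Subtype.ext h3.1) (Subtype.ext h3.2.2.2)
  have hsurj : Function.Surjective ψ := by
    rintro ⟨g, hg⟩
    have hg' : ∀ v, v ∈ W ↔ g.1 *ᵥ v ∈ W := hg
    have hM : (Q * g.1 * P)ᵀ * J2 k l F * (Q * g.1 * P) = J2 k l F := by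
      have : (Q * g.1 * P)ᵀ * J2 k l F * (Q * g.1 * P)
          = Pᵀ * (g.1ᵀ * (Qᵀ * J2 k l F * Q) * g.1) * P := by
        simp only [Matrix.transpose_mul, Matrix.mul_assoc]
      rw [this, hJ', SymplecticGroup.mem_iff'.mp g.2, hJ]
    have h21 : (Q * g.1 * P).toBlocks₂₁ = 0 := by
      ext b a
      show (Q * g.1 * P) (Sum.inr b) (Sum.inl a) = 0
      have h1 : P *ᵥ Pi.single (Sum.inl a) 1 ∈ W := by
        rw [hW]
        intro b'
        rw [Matrix.mulVec_mulVec, hQP, Matrix.one_mulVec]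
        simp
      have h2 := (hg' _).mp h1
      rw [hW] at h2
      have h3 := h2 b
      rw [Matrix.mulVec_mulVec, Matrix.mulVec_mulVec, Matrix.mulVec_single_one] at h3
      exact h3
    obtain ⟨h12, hA, hD⟩ := blk k l _ hM h21
    refine ⟨(⟨_, hA⟩, ⟨_, hD⟩), ?_⟩
    apply Subtype.ext; apply Subtype.ext
    show P * Matrix.fromBlocks (Q * g.1 * P).toBlocks₁₁ 0 0 (Q * g.1 * P).toBlocks₂₂ * Q = g.1
    have h5 := Matrix.fromBlocks_toBlocks (Q * g.1 * P)
    rw [h12, h21] at h5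
    rw [h5]
    have : P * (Q * g.1 * P) * Q = (P * Q) * g.1 * (P * Q) := by simp only [Matrix.mul_assoc]
    rw [this, hPQ, Matrix.one_mul, Matrix.mul_one]
  exact ⟨(MulEquiv.ofBijective ψ ⟨hinj, hsurj⟩).symm⟩

theorem hyp_of_nondeg {F V : Type*} [Field F] [AddCommGroup V] [Module F V]
    [FiniteDimensional F V]
    (B : LinearMap.BilinForm F V) (hA : B.IsAlt) (hnd : ∀ u, (∀ v, B u v = 0) → u = 0)
    (k : ℕ) (hk : Module.finrank F V = 2 * k) :
    ∃ e f : Fin k → V, S0752.IsHyp B k e f := by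
  obtain ⟨m', k', b, h1, h2, h3, h4⟩ := S0752.main B hA
  have hk' : k' = 0 := by
    by_contra hne
    exact b.ne_zero (Sum.inr (⟨0, Nat.pos_of_ne_zero hne⟩ : Fin k')) (hnd _ (h4 _))
  subst hk'
  have hcard := Module.finrank_eq_card_basis b
  simp only [Fintype.card_sum, Fintype.card_fin] at hcard
  have : m' = k := by omega
  subst this
  exact ⟨fun i => b (Sum.inl (Sum.inl i)), fun i => b (Sum.inl (Sum.inr i)), h1, h2, h3⟩

theorem adapted {F V : Type*} [Field F] [AddCommGroup V] [Module F V] [FiniteDimensional F V]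
    (B : LinearMap.BilinForm F V) (hA : B.IsAlt) (hB : B.Nondegenerate)
    (m k : ℕ) (hV : Module.finrank F V = 2 * m) (W : Submodule F V)
    (hWk : Module.finrank F W = 2 * k) (hW : ∀ u ∈ W, (∀ v ∈ W, B u v = 0) → u = 0) :
    ∃ (e f : Fin k → V) (e' f' : Fin (m - k) → V), S0752.IsHyp B k e f ∧
      S0752.IsHyp B (m - k) e' f' ∧
      (∀ i, e i ∈ W ∧ f i ∈ W) ∧ (∀ j, ∀ w ∈ W, B w (e' j) = 0 ∧ B w (f' j) = 0) := by
  have hkm : 2 * k ≤ 2 * m := by
    rw [← hWk, ← hV]; exact Submodule.finrank_le W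
  obtain ⟨e0, f0, h0⟩ := hyp_of_nondeg (B.restrict W) (fun x => hA x)
    (fun u hu => Subtype.ext (hW u u.2 (fun v hv => hu ⟨v, hv⟩))) k hWk
  have hU : Module.finrank F (B.orthogonal W) = 2 * (m - k) := by
    rw [LinearMap.BilinForm.finrank_orthogonal hB W, hV, hWk]; omega
  have hdisj : W ⊓ B.orthogonal W = ⊥ := by
    rw [eq_bot_iff]
    intro x hx
    obtain ⟨hx1, hx2⟩ := Submodule.mem_inf.mp hx
    rw [Submodule.mem_bot]
    apply hW x hx1
    intro v hv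
    have := hx2 v hv
    rw [← hA.neg_eq, this, neg_zero]
  have hsup : W ⊔ B.orthogonal W = ⊤ := by
    apply Submodule.eq_top_of_finrank_eq
    have := Submodule.finrank_sup_add_finrank_inf_eq W (B.orthogonal W)
    rw [hdisj, finrank_bot, add_zero] at this
    rw [this, hWk, hU, hV]
    omega
  obtain ⟨e1, f1, h1⟩ := hyp_of_nondeg (B.restrict (B.orthogonal W)) (fun x => hA x)
    (fun u hu => by
      apply Subtype.ext
      apply hB.1
      intro y
      have hy : y ∈ W ⊔ B.orthogonal W := by rw [hsup]; trivial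
      obtain ⟨w, hw, u', hu', rfl⟩ := Submodule.mem_sup.mp hy
      rw [map_add]
      have h5 : B u.1 w = 0 := by rw [← hA.neg_eq, u.2 w hw, neg_zero]
      have h6 : B u.1 u' = 0 := hu ⟨u', hu'⟩
      rw [h5, h6, add_zero]) (m - k) hU
  refine ⟨fun i => (e0 i).1, fun i => (f0 i).1, fun j => (e1 j).1, fun j => (f1 j).1, ?_, ?_, ?_, ?_⟩
  · exact ⟨fun i j => h0.1 i j, fun i j => h0.2.1 i j, fun i j => h0.2.2 i j⟩
  · exact ⟨fun i j => h1.1 i j, fun i j => h1.2.1 i j, fun i j => h1.2.2 i j⟩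
  · exact fun i => ⟨(e0 i).2, (f0 i).2⟩
  · exact fun j w hw => ⟨(e1 j).2 w hw, (f1 j).2 w hw⟩

theorem geo {F : Type*} [Field F] (m k : ℕ) (W : Submodule F (Fin m ⊕ Fin m → F))
    (hWk : Module.finrank F W = 2 * k)
    (hW : ∀ u ∈ W, (∀ v ∈ W, Cfsg.sympForm m F u v = 0) → u = 0) :
    ∃ (P : Matrix (Fin m ⊕ Fin m) (K k (m - k)) F) (Q : Matrix (K k (m - k)) (Fin m ⊕ Fin m) F),
      Q * P = 1 ∧ P * Q = 1 ∧ Pᵀ * Matrix.J (Fin m) F * P = J2 k (m - k) F ∧
      ∀ v, v ∈ W ↔ ∀ b, (Q *ᵥ v) (Sum.inr b) = 0 := by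
  classical
  have hV : Module.finrank F (Fin m ⊕ Fin m → F) = 2 * m := by
    rw [Module.finrank_fintype_fun_eq_card, Fintype.card_sum, Fintype.card_fin]; omega
  have hkm : 2 * k ≤ 2 * m := by
    rw [← hWk, ← hV]; exact Submodule.finrank_le W
  have hA := S0766.sB_alt m F
  obtain ⟨e, f, e', f', h1, h2, h3, h4⟩ := adapted (S0766.sB m F) hA
    (S0766.sB_nondeg m F) m k hV W hWk (by
      intro u hu h; apply hW u hu; intro v hv; rw [← S0766.sB_apply]; exact h v hv)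
  have h1' := S0752.hyp_fe _ hA _ _ _ h1
  have h2' := S0752.hyp_fe _ hA _ _ _ h2
  have h4' : ∀ j, ∀ w ∈ W, S0766.sB m F (e' j) w = 0 ∧ S0766.sB m F (f' j) w = 0 := by
    intro j w hw
    rw [← hA.neg_eq, ← hA.neg_eq w, (h4 j w hw).1, (h4 j w hw).2]
    simp
  let c : K k (m - k) → (Fin m ⊕ Fin m → F) := Sum.elim (Sum.elim f e) (Sum.elim f' e')
  have hc : ∀ a b, Cfsg.sympForm m F (c a) (c b) = J2 k (m - k) F a b := by
    intro a b
    rw [← S0766.sB_apply]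
    rcases a with (i | i) | (i | i) <;> rcases b with (j | j) | (j | j)
    · simp [c, J2, Matrix.J, h1.2.2]
    · simp [c, J2, Matrix.J, h1', Matrix.one_apply]; split_ifs <;> simp
    · simp [c, J2, Matrix.J, (h4 j _ (h3 i).2).2]
    · simp [c, J2, Matrix.J, (h4 j _ (h3 i).2).1]
    · simp [c, J2, Matrix.J, h1.1, Matrix.one_apply]
    · simp [c, J2, Matrix.J, h1.2.1]
    · simp [c, J2, Matrix.J, (h4 j _ (h3 i).1).2]
    · simp [c, J2, Matrix.J, (h4 j _ (h3 i).1).1]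
    · simp [c, J2, Matrix.J, (h4' i _ (h3 j).2).2]
    · simp [c, J2, Matrix.J, (h4' i _ (h3 j).1).2]
    · simp [c, J2, Matrix.J, h2.2.2]
    · simp [c, J2, Matrix.J, h2', Matrix.one_apply]; split_ifs <;> simp
    · simp [c, J2, Matrix.J, (h4' i _ (h3 j).2).1]
    · simp [c, J2, Matrix.J, (h4' i _ (h3 j).1).1]
    · simp [c, J2, Matrix.J, h2.1, Matrix.one_apply]
    · simp [c, J2, Matrix.J, h2.2.1]
  let P : Matrix (Fin m ⊕ Fin m) (K k (m - k)) F := Matrix.of fun i a => c a i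
  have hP : Pᵀ * Matrix.J (Fin m) F * P = J2 k (m - k) F := by
    ext a b
    rw [← hc a b, Matrix.mul_assoc]
    rfl
  have hQP : (-(J2 k (m - k) F) * Pᵀ * Matrix.J (Fin m) F) * P = 1 := by
    rw [Matrix.mul_assoc, Matrix.mul_assoc, ← Matrix.mul_assoc Pᵀ, hP, Matrix.neg_mul, J2_sq,
      neg_neg]
  have hPQ : P * (-(J2 k (m - k) F) * Pᵀ * Matrix.J (Fin m) F) = 1 := by
    refine (Matrix.mul_eq_one_comm_of_card_eq _ _ _ ?_).mp hQP
    simp only [Fintype.card_sum, Fintype.card_fin]; omega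
  refine ⟨P, -(J2 k (m - k) F) * Pᵀ * Matrix.J (Fin m) F, hQP, hPQ, hP, ?_⟩
  intro v
  have hQv : ∀ a, (Pᵀ *ᵥ (Matrix.J (Fin m) F *ᵥ v)) a = Cfsg.sympForm m F (c a) v :=
    fun a => rfl
  constructor
  · intro hv b
    have hsplit : (-(J2 k (m - k) F) * Pᵀ * Matrix.J (Fin m) F) *ᵥ v
        = -(J2 k (m - k) F *ᵥ (Pᵀ *ᵥ (Matrix.J (Fin m) F *ᵥ v))) := by
      rw [Matrix.mulVec_mulVec, Matrix.mulVec_mulVec, Matrix.neg_mul, Matrix.neg_mul,
        Matrix.neg_mulVec]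
    rw [hsplit]
    have hy : (Pᵀ *ᵥ (Matrix.J (Fin m) F *ᵥ v)) ∘ Sum.inr = 0 := by
      funext b'
      show (Pᵀ *ᵥ (Matrix.J (Fin m) F *ᵥ v)) (Sum.inr b') = 0
      rw [hQv, ← S0766.sB_apply]
      rcases b' with j | j
      · exact (h4' j v hv).2
      · exact (h4' j v hv).1
    generalize Pᵀ *ᵥ (Matrix.J (Fin m) F *ᵥ v) = y at hy ⊢
    unfold J2; rw [Matrix.fromBlocks_mulVec]; simp [hy]
  · intro hv
    have hv2 : v = P *ᵥ ((-(J2 k (m - k) F) * Pᵀ * Matrix.J (Fin m) F) *ᵥ v) := by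
      rw [Matrix.mulVec_mulVec, hPQ, Matrix.one_mulVec]
    rw [hv2]
    have hPy : ∀ y : K k (m - k) → F, P *ᵥ y = ∑ a, y a • c a := by
      intro y; ext i; simp [Matrix.mulVec, dotProduct, P, mul_comm]
    rw [hPy, Fintype.sum_sum_type]
    simp only [hv, zero_smul, Finset.sum_const_zero, add_zero]
    apply Submodule.sum_mem; intro a _; apply Submodule.smul_mem
    rcases a with i | i
    · exact (h3 i).2
    · exact (h3 i).1

theorem main {F : Type*} [Field F] (m k : ℕ) (W : Submodule F (Fin m ⊕ Fin m → F))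
    (hWk : Module.finrank F W = 2 * k)
    (hW : ∀ u ∈ W, (∀ v ∈ W, Cfsg.sympForm m F u v = 0) → u = 0) :
    Nonempty (↥(Cfsg.stabilizing (Cfsg.spToMat m F) (W : Set (Fin m ⊕ Fin m → F))) ≃*
      Matrix.symplecticGroup (Fin k) F × Matrix.symplecticGroup (Fin (m - k)) F) := by
  obtain ⟨P, Q, h1, h2, h3, h4⟩ := geo m k W hWk hW
  exact alg m k (m - k) W P Q h1 h2 h3 h4

end


/-- If W ≤ F^(2m) is a 2k-dimensional subspace on which the symplectic form is non-degenerate, then the stabiliser of W in Sp_2m(F) is isomorphic to Sp_2k(F) × Sp_(2m−2k)(F). -/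
theorem result {F : Type*} [Field F] (m k : ℕ) (hk : k ≤ m) (W : Submodule F (Fin m ⊕ Fin m → F)) (hWk : Module.finrank F W = 2 * k) (hW : ∀ u ∈ W, (∀ v ∈ W, Cfsg.sympForm m F u v = 0) → u = 0) : Nonempty (↥(Cfsg.stabilizing (Cfsg.spToMat m F) (W : Set (Fin m ⊕ Fin m → F))) ≃* Matrix.symplecticGroup (Fin k) F × Matrix.symplecticGroup (Fin (m - k)) F) := by
  exact main m k W hWk hW


end Cfsg.Agent.S0776
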