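import Cfsg.Statements.S0777
import Mathlib
import Cfsg.Agent.S0245
-- import your own Cfsg.Agent.* helpers here

set_option autoImplicit false
open Cfsg

namespace Cfsg.Agent.S0777

section
open Matrix

def bas {F : Type*} [Field F] {m : ℕ} (a : Fin m ⊕ Fin m) : Fin m ⊕ Fin m → F := Pi.single a 1

def tau {m : ℕ} : Fin m ⊕ Fin m → Fin m ⊕ Fin m := Sum.swap

def eps (F : Type*) [Field F] {m : ℕ} : Fin m ⊕ Fin m → F := Sum.elim (fun _ => -1) (fun _ => 1)

theorem tau_ne {m : ℕ} (a : Fin m ⊕ Fin m) : tau a ≠ a := by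
  cases a <;> simp [tau]

theorem tau_tau {m : ℕ} (a : Fin m ⊕ Fin m) : tau (tau a) = a := by
  cases a <;> simp [tau]

theorem eps_ne {F : Type*} [Field F] {m : ℕ} (a : Fin m ⊕ Fin m) : eps F a ≠ 0 := by
  cases a <;> simp [eps]

theorem B_bas {F : Type*} [Field F] {m : ℕ} (a b : Fin m ⊕ Fin m) :
    S0766.sB m F (bas a) (bas b) = if b = tau a then eps F a else 0 := by
  show Matrix.toBilin' (Matrix.J (Fin m) F) (Pi.single a 1) (Pi.single b 1) = _
  rw [Matrix.toBilin'_single]
  rcases a with i | i <;> rcases b with j | j <;>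
    simp [Matrix.J, tau, eps, Matrix.one_apply, eq_comm] <;> split_ifs <;> simp

theorem B_smul {F : Type*} [Field F] {m : ℕ} (c d : F) (a b : Fin m ⊕ Fin m) :
    S0766.sB m F (c • bas a) (d • bas b) = if b = tau a then c * d * eps F a else 0 := by
  simp only [map_smul, LinearMap.smul_apply, smul_eq_mul, B_bas]
  split_ifs
  · ring
  · simp

theorem bas_ne {F : Type*} [Field F] {m : ℕ} (a : Fin m ⊕ Fin m) : (bas a : Fin m ⊕ Fin m → F) ≠ 0 := by
  intro h
  have := congrFun h a
  simp [bas] at this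

theorem smul_bas_inj {F : Type*} [Field F] {m : ℕ} (c c' : F) (a a' : Fin m ⊕ Fin m) (hc : c ≠ 0)
    (h : c • (bas a : Fin m ⊕ Fin m → F) = c' • bas a') : a = a' ∧ c = c' := by
  have h1 := congrFun h a
  simp only [bas, Pi.smul_apply, Pi.single_eq_same, smul_eq_mul, mul_one] at h1
  by_cases haa : a = a'
  · subst haa
    simp at h1
    exact ⟨rfl, h1⟩
  · rw [Pi.single_eq_of_ne haa] at h1
    simp at h1
    exact absurd h1 hc

/-- the group law on matrices -/
theorem inv_mulVec {F : Type*} [Field F] {m : ℕ} (g : Matrix.symplecticGroup (Fin m) F)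
    (v : Fin m ⊕ Fin m → F) :
    (g⁻¹ : Matrix.symplecticGroup (Fin m) F).1 *ᵥ (g.1 *ᵥ v) = v := by
  rw [Matrix.mulVec_mulVec]
  have : (g⁻¹ : Matrix.symplecticGroup (Fin m) F).1 * g.1 = 1 := by
    have h := inv_mul_cancel g
    exact congrArg Subtype.val h
  rw [this, Matrix.one_mulVec]

theorem mulVec_inj {F : Type*} [Field F] {m : ℕ} (g : Matrix.symplecticGroup (Fin m) F)
    (v w : Fin m ⊕ Fin m → F) (h : g.1 *ᵥ v = g.1 *ᵥ w) : v = w := by
  rw [← inv_mulVec g v, ← inv_mulVec g w, h]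

/-- the torus -/
def Tor (m : ℕ) (F : Type*) [Field F] : Subgroup (Matrix.symplecticGroup (Fin m) F) :=
  ⨅ i : Fin m ⊕ Fin m, Cfsg.stabilizing (Cfsg.spToMat m F)
    ((Submodule.span F {(Pi.single i (1 : F) : Fin m ⊕ Fin m → F)} :
      Submodule F (Fin m ⊕ Fin m → F)) : Set (Fin m ⊕ Fin m → F))

theorem mem_Tor {F : Type*} [Field F] {m : ℕ} (h : Matrix.symplecticGroup (Fin m) F) :
    h ∈ Tor m F ↔ ∀ a, ∃ c : F, h.1 *ᵥ bas a = c • bas a := by
  unfold Tor
  rw [Subgroup.mem_iInf]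
  constructor
  · intro hh a
    have h1 := (hh a (bas a)).mp (Submodule.subset_span rfl)
    rw [SetLike.mem_coe, Submodule.mem_span_singleton] at h1
    obtain ⟨c, hc⟩ := h1
    exact ⟨c, hc.symm⟩
  · intro hh a v
    obtain ⟨c, hc⟩ := hh a
    have hc0 : c ≠ 0 := by
      rintro rfl
      rw [zero_smul] at hc
      have := mulVec_inj h (bas a) 0 (by rw [hc, Matrix.mulVec_zero])
      exact bas_ne a this
    show v ∈ (Submodule.span F {(Pi.single a (1 : F) : Fin m ⊕ Fin m → F)} :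
      Submodule F (Fin m ⊕ Fin m → F)) ↔ h.1 *ᵥ v ∈ (Submodule.span F
        {(Pi.single a (1 : F) : Fin m ⊕ Fin m → F)} : Submodule F (Fin m ⊕ Fin m → F))
    rw [Submodule.mem_span_singleton, Submodule.mem_span_singleton]
    constructor
    · rintro ⟨r, rfl⟩
      refine ⟨r * c, ?_⟩
      rw [Matrix.mulVec_smul]
      show _ = r • h.1 *ᵥ bas a
      rw [hc, smul_smul]
      rfl
    · rintro ⟨r, hr⟩
      refine ⟨r * c⁻¹, ?_⟩
      apply mulVec_inj h
      rw [Matrix.mulVec_smul]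
      show (r * c⁻¹) • h.1 *ᵥ bas a = _
      rw [hc, smul_smul, mul_assoc, inv_mul_cancel₀ hc0, mul_one, ← hr]
      rfl

/-- symplectic matrix with prescribed hyperbolic columns -/
theorem frame_to_sp {F : Type*} [Field F] {m : ℕ} (e f : Fin m → (Fin m ⊕ Fin m → F))
    (h : S0752.IsHyp (S0766.sB m F) m e f) :
    ∃ g : Matrix.symplecticGroup (Fin m) F, (∀ i, g.1 *ᵥ bas (Sum.inr i) = e i) ∧
      ∀ i, g.1 *ᵥ bas (Sum.inl i) = f i := by
  obtain ⟨g, hg⟩ := (S0245.spToHyp_bij m F).2 ⟨(e, f), h⟩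
  have h1 := congrArg (fun p => p.1.1) hg
  have h2 := congrArg (fun p => p.1.2) hg
  exact ⟨g, fun i => congrFun h1 i, fun i => congrFun h2 i⟩

def Mono {F : Type*} [Field F] {m : ℕ} (g : Matrix.symplecticGroup (Fin m) F) : Prop :=
  ∀ a, ∃ (b : Fin m ⊕ Fin m) (c : F), c ≠ 0 ∧ g.1 *ᵥ bas a = c • bas b

theorem mono_inv {F : Type*} [Field F] {m : ℕ} (g : Matrix.symplecticGroup (Fin m) F)
    (hg : Mono g) : Mono g⁻¹ := by
  choose π c hc hπ using hg
  have hinj : Function.Injective π := by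
    intro a a' haa
    have h1 : g.1 *ᵥ (c a' • bas a) = g.1 *ᵥ (c a • bas a') := by
      rw [Matrix.mulVec_smul, Matrix.mulVec_smul, hπ, hπ, haa, smul_smul, smul_smul, mul_comm]
    exact (smul_bas_inj _ _ _ _ (hc a') (mulVec_inj g _ _ h1)).1
  have hsurj := Finite.surjective_of_injective hinj
  intro a
  obtain ⟨b, rfl⟩ := hsurj a
  refine ⟨b, (c b)⁻¹, inv_ne_zero (hc b), ?_⟩
  have h1 : (bas (π b) : Fin m ⊕ Fin m → F) = g.1 *ᵥ ((c b)⁻¹ • bas b) := by
    rw [Matrix.mulVec_smul, hπ, smul_smul, inv_mul_cancel₀ (hc b), one_smul]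
  rw [h1, inv_mulVec]

theorem conj_mem_Tor {F : Type*} [Field F] {m : ℕ} (g : Matrix.symplecticGroup (Fin m) F)
    (hg : Mono g) (h : Matrix.symplecticGroup (Fin m) F) (hh : h ∈ Tor m F) :
    g * h * g⁻¹ ∈ Tor m F := by
  rw [mem_Tor] at hh ⊢
  intro a
  obtain ⟨b, c', hc', hb⟩ := mono_inv g hg a
  obtain ⟨d, hd⟩ := hh b
  refine ⟨d, ?_⟩
  have h1 : g.1 *ᵥ bas b = c'⁻¹ • bas a := by
    have h2 : (bas a : Fin m ⊕ Fin m → F) = c' • g.1 *ᵥ bas b := by
      rw [← Matrix.mulVec_smul, ← hb]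
      have := inv_mulVec g⁻¹ (bas a)
      rw [inv_inv] at this
      exact this.symm
    rw [h2, smul_smul, inv_mul_cancel₀ hc', one_smul]
  show (g.1 * h.1 * (g⁻¹ : Matrix.symplecticGroup (Fin m) F).1) *ᵥ bas a = _
  rw [← Matrix.mulVec_mulVec, ← Matrix.mulVec_mulVec, hb, Matrix.mulVec_smul, hd,
    Matrix.mulVec_smul, Matrix.mulVec_smul, h1, smul_smul, smul_smul]
  congr 1
  field_simp

theorem mono_mem_norm {F : Type*} [Field F] {m : ℕ} (g : Matrix.symplecticGroup (Fin m) F)
    (hg : Mono g) : g ∈ Subgroup.normalizer (Tor m F : Set (Matrix.symplecticGroup (Fin m) F)) := by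
  rw [Subgroup.mem_normalizer_iff]
  intro h
  constructor
  · exact conj_mem_Tor g hg h
  · intro hh
    have := conj_mem_Tor g⁻¹ (mono_inv g hg) _ hh
    simpa [mul_assoc] using this

theorem exists_diag {F : Type*} [Field F] {m : ℕ} (d : Fin m ⊕ Fin m → F)
    (hd : ∀ i, d (Sum.inr i) * d (Sum.inl i) = 1) :
    ∃ t : Matrix.symplecticGroup (Fin m) F, t ∈ Tor m F ∧ ∀ a, t.1 *ᵥ bas a = d a • bas a := by
  obtain ⟨t, h1, h2⟩ := frame_to_sp (fun i => d (Sum.inr i) • bas (Sum.inr i))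
    (fun i => d (Sum.inl i) • bas (Sum.inl i)) (by
      refine ⟨fun i j => ?_, fun i j => ?_, fun i j => ?_⟩
      · rw [B_smul]
        by_cases hij : i = j
        · subst hij
          simp [tau, eps, hd]
        · simp [tau, hij, eq_comm]
      · rw [B_smul]
        simp [tau]
      · rw [B_smul]
        simp [tau])
  have h3 : ∀ a, t.1 *ᵥ bas a = d a • bas a := by
    rintro (i | i)
    · exact h2 i
    · exact h1 i
  exact ⟨t, (mem_Tor t).mpr (fun a => ⟨d a, h3 a⟩), h3⟩

theorem exists_lam {F : Type*} [Field F] [Fintype F] (hq : 4 ≤ Fintype.card F) :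
    ∃ l : F, l ≠ 0 ∧ l ≠ 1 ∧ l⁻¹ ≠ l := by
  classical
  by_contra hcon
  push Not at hcon
  have h1 : (Finset.univ : Finset F) ⊆ {0, 1, -1} := by
    intro l _
    simp only [Finset.mem_insert, Finset.mem_singleton]
    by_cases h0 : l = 0
    · exact Or.inl h0
    by_cases h1 : l = 1
    · exact Or.inr (Or.inl h1)
    have h2 := hcon l h0 h1
    have h3 : l * l = 1 := by
      nth_rewrite 1 [← h2]
      exact inv_mul_cancel₀ h0
    have h4 : (l - 1) * (l + 1) = 0 := by linear_combination h3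
    rcases mul_eq_zero.mp h4 with h5 | h5
    · exact absurd (sub_eq_zero.mp h5) h1
    · exact Or.inr (Or.inr (eq_neg_of_add_eq_zero_left h5))
  have h2 := Finset.card_le_card h1
  have h3 : ({0, 1, -1} : Finset F).card ≤ 3 := Finset.card_le_three
  rw [Finset.card_univ] at h2
  omega

theorem norm_mono {F : Type*} [Field F] [Fintype F] (hq : 4 ≤ Fintype.card F) {m : ℕ}
    (g : Matrix.symplecticGroup (Fin m) F)
    (hg : g ∈ Subgroup.normalizer (Tor m F : Set (Matrix.symplecticGroup (Fin m) F))) :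
    Mono g := by
  classical
  intro a
  obtain ⟨l, hl0, hl1, hl2⟩ := exists_lam hq
  obtain ⟨t, ht, htd⟩ := exists_diag (m := m)
    (fun b => if b = a then l else if b = tau a then l⁻¹ else (1 : F)) (by
      intro i
      rcases a with i0 | i0
      · by_cases hi : i = i0
        · subst hi
          simp [tau, hl0]
        · simp [tau, hi]
      · by_cases hi : i = i0
        · subst hi
          simp [tau, hl0]
        · simp [tau, hi])
  have hda : ∀ b, b ≠ a →
      (if b = a then l else if b = tau a then l⁻¹ else (1 : F)) ≠ l := by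
    intro b hb
    rw [if_neg hb]
    split_ifs
    · exact hl2
    · exact fun h => hl1 h.symm
  have ht' := (Subgroup.mem_normalizer_iff.mp hg t).mp ht
  rw [mem_Tor] at ht'
  choose d' hd' using ht'
  -- entries of the diagonal matrix t'
  have hent : ∀ i k, (g * t * g⁻¹ : Matrix.symplecticGroup (Fin m) F).1 i k
      = d' k * (if i = k then 1 else 0) := by
    intro i k
    have h1 := congrFun (hd' k) i
    rw [show (bas k : Fin m ⊕ Fin m → F) = Pi.single k 1 from rfl, Matrix.mulVec_single_one] at h1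
    rw [show (g * t * g⁻¹ : Matrix.symplecticGroup (Fin m) F).1 i k
      = (g * t * g⁻¹ : Matrix.symplecticGroup (Fin m) F).1.col k i from rfl, h1]
    simp [Pi.single_apply]
  have hcomm : (g * t * g⁻¹ : Matrix.symplecticGroup (Fin m) F).1 * g.1 = g.1 * t.1 := by
    have h1 : g * t * g⁻¹ * g = g * t := by group
    exact congrArg Subtype.val h1
  have hrel : ∀ b i, d' i * (g.1 *ᵥ bas b) i
      = (if b = a then l else if b = tau a then l⁻¹ else (1 : F)) * (g.1 *ᵥ bas b) i := by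
    intro b i
    have h1 : (g * t * g⁻¹ : Matrix.symplecticGroup (Fin m) F).1 *ᵥ (g.1 *ᵥ bas b)
        = g.1 *ᵥ (t.1 *ᵥ bas b) := by
      rw [Matrix.mulVec_mulVec, Matrix.mulVec_mulVec, hcomm]
    have h2 := congrFun h1 i
    rw [htd, Matrix.mulVec_smul] at h2
    rw [Matrix.mulVec, dotProduct] at h2
    simp only [hent] at h2
    rw [Finset.sum_eq_single i (by intro k _ hk; simp [Ne.symm hk]) (by simp)] at h2
    simpa using h2
  -- support of column a
  have hwa : g.1 *ᵥ (bas a : Fin m ⊕ Fin m → F) ≠ 0 := by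
    intro h0
    exact bas_ne a (mulVec_inj g (bas a) 0 (by rw [h0, Matrix.mulVec_zero]))
  obtain ⟨b0, hb0⟩ : ∃ b0, (g.1 *ᵥ (bas a : Fin m ⊕ Fin m → F)) b0 ≠ 0 := by
    by_contra hcon
    push Not at hcon
    exact hwa (funext hcon)
  -- rows in the support of column a vanish elsewhere
  have hrow : ∀ i, (g.1 *ᵥ (bas a : Fin m ⊕ Fin m → F)) i ≠ 0 → ∀ b, b ≠ a →
      (g.1 *ᵥ (bas b : Fin m ⊕ Fin m → F)) i = 0 := by
    intro i hi b hb
    have h1 := hrel a i
    rw [if_pos rfl] at h1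
    have h2 : d' i = l := mul_right_cancel₀ hi h1
    have h3 := hrel b i
    rw [h2] at h3
    by_contra h4
    exact hda b hb (mul_right_cancel₀ h4 h3).symm
  have hcol : ∀ (b i : Fin m ⊕ Fin m), (g.1 *ᵥ (bas b : Fin m ⊕ Fin m → F)) i = g.1 i b := by
    intro b i
    rw [show (bas b : Fin m ⊕ Fin m → F) = Pi.single b 1 from rfl, Matrix.mulVec_single_one]
    rfl
  have hginv : g.1 * (g⁻¹ : Matrix.symplecticGroup (Fin m) F).1 = 1 := by
    have h1 : g * g⁻¹ = 1 := mul_inv_cancel g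
    exact congrArg Subtype.val h1
  have huniq : ∀ i, (g.1 *ᵥ (bas a : Fin m ⊕ Fin m → F)) i ≠ 0 → i = b0 := by
    intro i hi
    by_contra hne
    have e1 := congrFun (congrFun hginv i) b0
    have e2 := congrFun (congrFun hginv b0) b0
    rw [Matrix.mul_apply, Matrix.one_apply_ne hne,
      Finset.sum_eq_single a (by
        intro b _ hb
        rw [← hcol, hrow i hi b hb, zero_mul]) (by simp)] at e1
    rw [Matrix.mul_apply, Matrix.one_apply_eq,
      Finset.sum_eq_single a (by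
        intro b _ hb
        rw [← hcol, hrow b0 hb0 b hb, zero_mul]) (by simp)] at e2
    rw [← hcol] at e1 e2
    rcases mul_eq_zero.mp e1 with h | h
    · exact hi h
    · rw [h, mul_zero] at e2
      exact zero_ne_one e2
  refine ⟨b0, (g.1 *ᵥ (bas a : Fin m ⊕ Fin m → F)) b0, hb0, ?_⟩
  funext k
  by_cases hk : k = b0
  · subst hk
    simp [bas]
  · have : (g.1 *ᵥ (bas a : Fin m ⊕ Fin m → F)) k = 0 := by
      by_contra h
      exact hk (huniq k h)
    rw [this]
    simp [bas, hk]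

def und {m : ℕ} : Fin m ⊕ Fin m → Fin m := Sum.elim id id

def Good {m : ℕ} (p : Fin m → Fin m ⊕ Fin m) : Prop :=
  Function.Injective p ∧ ∀ i j, p j ≠ tau (p i)

theorem und_eq {m : ℕ} (a b : Fin m ⊕ Fin m) (h : und a = und b) : b = a ∨ b = tau a := by
  rcases a with i | i <;> rcases b with j | j <;> simp [und, tau] at h ⊢ <;> exact h.symm

theorem und_tau {m : ℕ} (a : Fin m ⊕ Fin m) : und (tau a) = und a := by
  cases a <;> rfl

theorem und_ite {m : ℕ} (c : Bool) (i : Fin m) :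
    und (if c then (Sum.inl i : Fin m ⊕ Fin m) else Sum.inr i) = i := by
  cases c <;> rfl

def goodEquiv (m : ℕ) :
    {p : Fin m → Fin m ⊕ Fin m // Good p} ≃ (Fin m ↪ Fin m) × (Fin m → Bool) where
  toFun p := (⟨fun i => und (p.1 i), by
      intro i j hij
      rcases und_eq _ _ hij with h | h
      · exact (p.2.1 h).symm
      · exact absurd h (p.2.2 i j)⟩, fun i => (p.1 i).isLeft)
  invFun x := ⟨fun i => if x.2 i then Sum.inl (x.1 i) else Sum.inr (x.1 i), by
      constructor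
      · intro i j hij
        apply x.1.injective
        have := congrArg und hij
        simpa only [und_ite] using this
      · intro i j h
        have h1 := congrArg und h
        simp only [und_tau, und_ite] at h1
        have h2 := x.1.injective h1
        subst h2
        exact tau_ne _ h.symm⟩
  left_inv := by
    intro p
    apply Subtype.ext
    funext i
    show (if (p.1 i).isLeft then Sum.inl (und (p.1 i)) else Sum.inr (und (p.1 i))) = p.1 i
    rcases p.1 i with k | k <;> simp [und]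
  right_inv := by
    rintro ⟨σ, s⟩
    apply Prod.ext
    · apply Function.Embedding.ext
      intro i
      show und (if s i then (Sum.inl (σ i) : Fin m ⊕ Fin m) else Sum.inr (σ i)) = σ i
      exact und_ite _ _
    · funext i
      show (if s i then (Sum.inl (σ i) : Fin m ⊕ Fin m) else Sum.inr (σ i)).isLeft = s i
      cases s i <;> rfl

theorem tau_inj {m : ℕ} : Function.Injective (tau (m := m)) := by
  intro a b h
  have := congrArg tau h
  rwa [tau_tau, tau_tau] at this

theorem frame_hyp {F : Type*} [Field F] {m : ℕ} (p : Fin m → Fin m ⊕ Fin m) (hp : Good p)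
    (c : Fin m → Fˣ) :
    S0752.IsHyp (S0766.sB m F) m (fun i => (c i : F) • bas (p i))
      (fun i => ((c i : F) * eps F (p i))⁻¹ • bas (tau (p i))) := by
  refine ⟨fun i j => ?_, fun i j => ?_, fun i j => ?_⟩
  · rw [B_smul]
    by_cases hij : i = j
    · subst hij
      rw [if_pos rfl, if_pos rfl]
      have h1 : (c i : F) ≠ 0 := Units.ne_zero _
      have h2 := eps_ne (F := F) (p i)
      field_simp
    · rw [if_neg hij, if_neg]
      intro h
      exact hij (hp.1 (tau_inj h)).symm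
  · rw [B_smul, if_neg (hp.2 i j)]
  · rw [B_smul, if_neg]
    intro h
    rw [tau_tau] at h
    exact hp.2 j i h.symm

noncomputable def Phi {F : Type*} [Field F] {m : ℕ}
    (x : {p : Fin m → Fin m ⊕ Fin m // Good p} × (Fin m → Fˣ)) :
    Matrix.symplecticGroup (Fin m) F :=
  Classical.choose (frame_to_sp _ _ (frame_hyp x.1.1 x.1.2 x.2))

theorem Phi_spec {F : Type*} [Field F] {m : ℕ}
    (x : {p : Fin m → Fin m ⊕ Fin m // Good p} × (Fin m → Fˣ)) :
    (∀ i, (Phi x).1 *ᵥ bas (Sum.inr i) = (x.2 i : F) • bas (x.1.1 i)) ∧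
      ∀ i, (Phi x).1 *ᵥ bas (Sum.inl i)
        = ((x.2 i : F) * eps F (x.1.1 i))⁻¹ • bas (tau (x.1.1 i)) :=
  Classical.choose_spec (frame_to_sp _ _ (frame_hyp x.1.1 x.1.2 x.2))

theorem Phi_mono {F : Type*} [Field F] {m : ℕ}
    (x : {p : Fin m → Fin m ⊕ Fin m // Good p} × (Fin m → Fˣ)) : Mono (Phi (F := F) x) := by
  rintro (i | i)
  · exact ⟨tau (x.1.1 i), _, inv_ne_zero (mul_ne_zero (Units.ne_zero _) (eps_ne _)),
      (Phi_spec x).2 i⟩
  · exact ⟨x.1.1 i, _, Units.ne_zero _, (Phi_spec x).1 i⟩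

theorem Phi_inj {F : Type*} [Field F] {m : ℕ} : Function.Injective (Phi (F := F) (m := m)) := by
  rintro ⟨⟨p, hp⟩, c⟩ ⟨⟨p', hp'⟩, c'⟩ h
  have h1 : ∀ i, (c i : F) • (bas (p i) : Fin m ⊕ Fin m → F) = (c' i : F) • bas (p' i) := by
    intro i
    rw [← (Phi_spec ⟨⟨p, hp⟩, c⟩).1 i, ← (Phi_spec ⟨⟨p', hp'⟩, c'⟩).1 i, h]
  have h2 : ∀ i, p i = p' i ∧ (c i : F) = c' i :=
    fun i => smul_bas_inj _ _ _ _ (Units.ne_zero _) (h1 i)
  have hp_eq : p = p' := funext fun i => (h2 i).1
  have hc_eq : c = c' := funext fun i => Units.ext (h2 i).2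
  subst hp_eq
  subst hc_eq
  rfl

theorem Phi_surj {F : Type*} [Field F] [Fintype F] (hq : 4 ≤ Fintype.card F) {m : ℕ}
    (g : Matrix.symplecticGroup (Fin m) F)
    (hg : g ∈ Subgroup.normalizer (Tor m F : Set (Matrix.symplecticGroup (Fin m) F))) :
    ∃ x, Phi x = g := by
  have hm := norm_mono hq g hg
  choose π c hc hπ using hm
  have hyp := S0245.sp_hyp m F g.1 (SymplecticGroup.mem_iff'.mp g.2)
  have he : ∀ i, g.1 *ᵥ S0245.e0 m F i = c (Sum.inr i) • bas (π (Sum.inr i)) :=
    fun i => hπ (Sum.inr i)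
  have hf : ∀ i, g.1 *ᵥ S0245.f0 m F i = c (Sum.inl i) • bas (π (Sum.inl i)) :=
    fun i => hπ (Sum.inl i)
  have hgood : Good (fun i => π (Sum.inr i)) := by
    constructor
    · intro i j hij
      have hij' : π (Sum.inr i) = π (Sum.inr j) := hij
      have h1 : g.1 *ᵥ (c (Sum.inr j) • bas (Sum.inr i))
          = g.1 *ᵥ (c (Sum.inr i) • bas (Sum.inr j)) := by
        rw [Matrix.mulVec_smul, Matrix.mulVec_smul, hπ, hπ, hij', smul_smul, smul_smul, mul_comm]
      have h2 := (smul_bas_inj _ _ _ _ (hc _) (mulVec_inj g _ _ h1)).1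
      exact Sum.inr_injective h2
    · intro i j h
      have h1 : S0766.sB m F (g.1 *ᵥ S0245.e0 m F i) (g.1 *ᵥ S0245.e0 m F j) = 0 :=
        hyp.2.1 i j
      rw [he, he, B_smul, if_pos h] at h1
      exact absurd h1 (mul_ne_zero (mul_ne_zero (hc _) (hc _)) (eps_ne _))
  have hfi : ∀ i, π (Sum.inl i) = tau (π (Sum.inr i)) ∧
      c (Sum.inl i) = (c (Sum.inr i) * eps F (π (Sum.inr i)))⁻¹ := by
    intro i
    have h1 : S0766.sB m F (g.1 *ᵥ S0245.e0 m F i) (g.1 *ᵥ S0245.f0 m F i)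
        = if i = i then 1 else 0 := hyp.1 i i
    rw [he, hf, B_smul, if_pos rfl] at h1
    split_ifs at h1 with h
    · refine ⟨h, ?_⟩
      exact eq_inv_of_mul_eq_one_left (by linear_combination h1)
    · exact absurd h1 zero_ne_one
  refine ⟨⟨⟨fun i => π (Sum.inr i), hgood⟩, fun i => Units.mk0 (c (Sum.inr i)) (hc _)⟩, ?_⟩
  apply (S0245.spToHyp_bij m F).1
  apply Subtype.ext
  apply Prod.ext
  · funext i
    show (Phi _).1 *ᵥ S0245.e0 m F i = g.1 *ᵥ S0245.e0 m F i
    rw [he]
    exact (Phi_spec _).1 i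
  · funext i
    show (Phi _).1 *ᵥ S0245.f0 m F i = g.1 *ᵥ S0245.f0 m F i
    rw [hf, (hfi i).1, (hfi i).2]
    exact (Phi_spec _).2 i

theorem main {F : Type*} [Field F] [Fintype F] (hq : 4 ≤ Fintype.card F) (m : ℕ) :
    Nat.card (Subgroup.normalizer (Tor m F : Set (Matrix.symplecticGroup (Fin m) F)))
      = 2 ^ m * Nat.factorial m * (Fintype.card F - 1) ^ m := by
  classical
  have e : ({p : Fin m → Fin m ⊕ Fin m // Good p} × (Fin m → Fˣ))
      ≃ Subgroup.normalizer (Tor m F : Set (Matrix.symplecticGroup (Fin m) F)) :=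
    Equiv.ofBijective (fun x => ⟨Phi x, mono_mem_norm _ (Phi_mono x)⟩)
      ⟨fun x y h => Phi_inj (congrArg Subtype.val h), fun ⟨g, hg⟩ => by
        obtain ⟨x, hx⟩ := Phi_surj hq g hg
        exact ⟨x, Subtype.ext hx⟩⟩
  rw [← Nat.card_congr e, Nat.card_prod, Nat.card_congr (goodEquiv m), Nat.card_prod,
    Nat.card_eq_fintype_card, Nat.card_eq_fintype_card, Nat.card_eq_fintype_card,
    Fintype.card_embedding_eq, Fintype.card_fin, Nat.descFactorial_self, Fintype.card_fun,
    Fintype.card_bool, Fintype.card_fin, Fintype.card_fun, Fintype.card_units, Fintype.card_fin]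
  ring

end


/-- Weyl group of type C_m: for q ≥ 4 the diagonal matrices of Sp_2m(q) form a torus T ≅ (C_(q−1))^m (the elements stabilising every coordinate axis), and the normaliser of T in Sp_2m(q) has order 2^m · m! · (q − 1)^m. -/
theorem result {F : Type*} [Field F] [Fintype F] {q : ℕ} (hF : Fintype.card F = q) (hq : 4 ≤ q) (m : ℕ) : Nat.card ↥(Subgroup.normalizer (⨅ i : Fin m ⊕ Fin m, Cfsg.stabilizing (Cfsg.spToMat m F) ((Submodule.span F {(Pi.single i (1 : F) : Fin m ⊕ Fin m → F)} : Submodule F (Fin m ⊕ Fin m → F)) : Set (Fin m ⊕ Fin m → F)) : Set (Matrix.symplecticGroup (Fin m) F))) = 2 ^ m * Nat.factorial m * (q - 1) ^ m := by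
  subst hF
  have h := main (F := F) hq m
  unfold Tor at h
  rw [Subgroup.coe_iInf] at h
  exact h


end Cfsg.Agent.S0777
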