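import Mathlib
import Cfsg.Statements.S0779

set_option autoImplicit false
open Cfsg

namespace Cfsg.Agent.S0779

/-- Unitary transvections: let |F| = q², h the standard Hermitian form Σ x_i y_i^q and v ≠ 0 with h(v, v) = 0. The linear map x ↦ x + c h(x, v) v is an isometry of h if and only if c = 0 or c^(q−1) = −1. -/
theorem result {F : Type*} [Field F] [Fintype F] {q : ℕ} (hF : Fintype.card F = q ^ 2) (n : ℕ) (v : Fin n → F) (hv : v ≠ 0) (hv0 : Cfsg.hermForm n F q v v = 0) (c : F) : (∀ x y : Fin n → F, Cfsg.hermForm n F q ((Cfsg.unitaryTransvection n q v c).mulVec x) ((Cfsg.unitaryTransvection n q v c).mulVec y) = Cfsg.hermForm n F q x y) ↔ (c = 0 ∨ c ^ (q - 1) = -1) := by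
  classical
  obtain ⟨p, hp⟩ := CharP.exists F
  haveI := hp
  haveI hpp : Fact p.Prime := ⟨CharP.char_is_prime F p⟩
  obtain ⟨n', -, hn'⟩ := FiniteField.card F p
  obtain ⟨m, -, hm⟩ := (Nat.dvd_prime_pow hpp.out).mp
    (show q ∣ p ^ (n' : ℕ) by rw [← hn', hF]; exact Dvd.intro_left q (by ring))
  have hq0 : q ≠ 0 := by
    rintro rfl
    rw [zero_pow (by norm_num)] at hF
    exact Fintype.card_ne_zero hF
  have hadd : ∀ a b : F, (a + b) ^ q = a ^ q + b ^ q := by
    intro a b; rw [hm]; exact add_pow_char_pow a b p m
  have hqq : ∀ a : F, (a ^ q) ^ q = a := by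
    intro a; rw [← pow_mul, ← sq, ← hF]; exact FiniteField.pow_card a
  let φ : F →+* F :=
    { toFun := fun a => a ^ q
      map_one' := one_pow q
      map_mul' := fun a b => mul_pow a b q
      map_zero' := zero_pow hq0
      map_add' := hadd }
  have hφ : ∀ a, φ a = a ^ q := fun a => rfl
  have hsum : ∀ f : Fin n → F, (∑ i, f i) ^ q = ∑ i, (f i) ^ q := by
    intro f
    rw [← hφ, map_sum]
    rfl
  have hconj : ∀ x y : Fin n → F, (hermForm n F q x y) ^ q = hermForm n F q y x := by
    intro x y
    unfold hermForm
    rw [hsum]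
    apply Finset.sum_congr rfl
    intro i _
    rw [mul_pow, hqq, mul_comm]
  have hdot : ∀ x : Fin n → F, (fun j => v j ^ q) ⬝ᵥ x = hermForm n F q x v := by
    intro x
    unfold hermForm dotProduct
    exact Finset.sum_congr rfl (fun i _ => mul_comm _ _)
  have hT : ∀ x : Fin n → F, (unitaryTransvection n q v c).mulVec x
      = x + (c * hermForm n F q x v) • v := by
    intro x
    unfold unitaryTransvection
    rw [Matrix.add_mulVec, Matrix.one_mulVec, Matrix.smul_mulVec, Matrix.vecMulVec_mulVec, hdot]
    ext i
    simp only [Pi.add_apply, Pi.smul_apply, smul_eq_mul, MulOpposite.smul_eq_mul_unop,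
      MulOpposite.unop_op]
    ring
  have hadd1 : ∀ x x' y : Fin n → F, hermForm n F q (x + x') y
      = hermForm n F q x y + hermForm n F q x' y := by
    intro x x' y
    unfold hermForm
    simp [add_mul, Finset.sum_add_distrib]
  have hadd2 : ∀ x y y' : Fin n → F, hermForm n F q x (y + y')
      = hermForm n F q x y + hermForm n F q x y' := by
    intro x y y'
    unfold hermForm
    simp [hadd, mul_add, Finset.sum_add_distrib]
  have hsmul1 : ∀ (a : F) (x y : Fin n → F), hermForm n F q (a • x) y
      = a * hermForm n F q x y := by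
    intro a x y
    unfold hermForm
    simp [Finset.mul_sum, mul_assoc]
  have hsmul2 : ∀ (a : F) (x y : Fin n → F), hermForm n F q x (a • y)
      = a ^ q * hermForm n F q x y := by
    intro a x y
    unfold hermForm
    simp only [Pi.smul_apply, smul_eq_mul, mul_pow, Finset.mul_sum]
    exact Finset.sum_congr rfl (fun i _ => by ring)
  have key : ∀ x y : Fin n → F, hermForm n F q ((unitaryTransvection n q v c).mulVec x)
      ((unitaryTransvection n q v c).mulVec y)
      = hermForm n F q x y + (c + c ^ q) * (hermForm n F q x v * hermForm n F q v y) := by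
    intro x y
    simp only [hT, hadd1, hadd2, hsmul1, hsmul2, hv0, mul_pow, hconj y v]
    ring
  have hcq : c ^ q = c * c ^ (q - 1) := by
    rw [← pow_succ', Nat.sub_add_cancel (Nat.one_le_iff_ne_zero.mpr hq0)]
  constructor
  · intro hiso
    obtain ⟨i, hi⟩ : ∃ i, v i ≠ 0 := by
      by_contra hcon
      push Not at hcon
      exact hv (funext hcon)
    have h1 := hiso (Pi.single i 1) (Pi.single i 1)
    rw [key] at h1
    have hxv : hermForm n F q (Pi.single i 1) v = (v i) ^ q := by
      unfold hermForm
      rw [Finset.sum_eq_single i]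
      · simp
      · intro j _ hji
        simp [Pi.single_eq_of_ne hji]
      · intro h; exact absurd (Finset.mem_univ i) h
    have hvy : hermForm n F q v (Pi.single i 1) = v i := by
      unfold hermForm
      rw [Finset.sum_eq_single i]
      · simp
      · intro j _ hji
        simp [Pi.single_eq_of_ne hji, hq0]
      · intro h; exact absurd (Finset.mem_univ i) h
    rw [hxv, hvy] at h1
    have h2 : (c + c ^ q) * (v i ^ q * v i) = 0 := by linear_combination h1
    have h3 : c + c ^ q = 0 := by
      rcases mul_eq_zero.mp h2 with h | h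
      · exact h
      · exact absurd h (mul_ne_zero (pow_ne_zero q hi) hi)
    by_cases hc : c = 0
    · left; exact hc
    · right
      have h4 : c * (c ^ (q - 1) + 1) = 0 := by
        rw [hcq] at h3; linear_combination h3
      rcases mul_eq_zero.mp h4 with h | h
      · exact absurd h hc
      · exact eq_neg_of_add_eq_zero_left h
  · rintro (rfl | hc) x y
    · rw [key, zero_pow hq0]; ring
    · rw [key, hcq, hc]; ring

end Cfsg.Agent.S0779
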