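import Mathlib
import Cfsg.Statements.S0785
import Cfsg.Agent.Helper4.QuadMat

set_option autoImplicit false
open Cfsg

namespace Cfsg.Agent.S0785

open Matrix

/-- The Gram matrix of the polar form is preserved by an isometry. -/
lemma gram_preserved {F : Type*} [Field F] {n : ℕ} (Q : QuadraticForm F (Fin n → F))
    (A : Matrix (Fin n) (Fin n) F) (hA : ∀ x, Q (A *ᵥ x) = Q x) :
    Aᵀ * LinearMap.BilinForm.toMatrix' (QuadraticMap.polarBilin Q) * A =
      LinearMap.BilinForm.toMatrix' (QuadraticMap.polarBilin Q) := by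
  have hcomp : LinearMap.BilinForm.comp (QuadraticMap.polarBilin Q) (Matrix.toLin' A)
      (Matrix.toLin' A) = QuadraticMap.polarBilin Q := by
    refine LinearMap.ext fun x => LinearMap.ext fun y => ?_
    rw [LinearMap.BilinForm.comp_apply, Matrix.toLin'_apply, Matrix.toLin'_apply,
      QuadraticMap.polarBilin_apply_apply, QuadraticMap.polarBilin_apply_apply,
      QuadraticMap.polar, QuadraticMap.polar, ← Matrix.mulVec_add, hA, hA, hA]
  have h := LinearMap.BilinForm.toMatrix'_comp (QuadraticMap.polarBilin Q) (Matrix.toLin' A)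
    (Matrix.toLin' A)
  rw [hcomp, LinearMap.toMatrix'_toLin'] at h
  exact h.symm

/-- det(I) = {±1}: for a quadratic form on F^n whose polar form is non-degenerate, every element of the isometry group has determinant 1 or −1, and as soon as Q takes a non-zero value some isometry has determinant −1. -/
theorem result {F : Type*} [Field F] {n : ℕ} (Q : QuadraticForm F (Fin n → F)) (hQ : (QuadraticMap.polarBilin Q).Nondegenerate) : (∀ g : ↥(Cfsg.isometryGroup F ⇑Q), ((g : Matrix.GeneralLinearGroup (Fin n) F) : Matrix (Fin n) (Fin n) F).det = 1 ∨ ((g : Matrix.GeneralLinearGroup (Fin n) F) : Matrix (Fin n) (Fin n) F).det = -1) ∧ ((∃ v, Q v ≠ 0) → ∃ g : ↥(Cfsg.isometryGroup F ⇑Q), ((g : Matrix.GeneralLinearGroup (Fin n) F) : Matrix (Fin n) (Fin n) F).det = -1) := by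
  constructor
  · intro g
    have hg : ∀ x, Q (((g : Matrix.GeneralLinearGroup (Fin n) F) : Matrix (Fin n) (Fin n) F) *ᵥ x) = Q x := by
      intro x
      exact g.2 x x
    have h := gram_preserved Q _ hg
    have hdet : (LinearMap.BilinForm.toMatrix' (QuadraticMap.polarBilin Q)).det ≠ 0 :=
      Matrix.nondegenerate_iff_det_ne_zero.mp (LinearMap.BilinForm.Nondegenerate.toMatrix' hQ)
    have h2 := congrArg Matrix.det h
    rw [Matrix.det_mul, Matrix.det_mul, Matrix.det_transpose] at h2
    set d := ((g : Matrix.GeneralLinearGroup (Fin n) F) : Matrix (Fin n) (Fin n) F).det with hd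
    set m := (LinearMap.BilinForm.toMatrix' (QuadraticMap.polarBilin Q)).det with hm
    have h3 : (d - 1) * (d + 1) = 0 := by
      have h4 : (d * d - 1) * m = 0 := by linear_combination h2
      rcases mul_eq_zero.mp h4 with h5 | h5
      · linear_combination h5
      · exact absurd h5 hdet
    rcases mul_eq_zero.mp h3 with h5 | h5
    · left; linear_combination h5
    · right; linear_combination h5
  · rintro ⟨v, hv⟩
    have hdet : (Cfsg.reflectionMatrix ⇑Q v).det = -1 :=
      Cfsg.Agent.Helper4.reflectionMatrix_det Q v hv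
    have hne : (Cfsg.reflectionMatrix ⇑Q v).det ≠ 0 := by
      rw [hdet]; exact neg_ne_zero.mpr one_ne_zero
    refine ⟨⟨Matrix.GeneralLinearGroup.mkOfDetNeZero (Cfsg.reflectionMatrix ⇑Q v) hne, ?_⟩, ?_⟩
    · intro x _
      exact Cfsg.Agent.Helper4.reflectionMatrix_isometry Q v hv x
    · exact hdet

end Cfsg.Agent.S0785
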