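import Mathlib
import Cfsg.Statements.S0786
import Cfsg.Agent.Helper4.CartanD

set_option autoImplicit false
open Cfsg

namespace Cfsg.Agent.S0786

/-- Generation by reflections: if F is finite, Q is a quadratic form on F^n with non-degenerate polar form, and (|F|, n) ≠ (2, 4), then the isometry group of Q is generated by the reflections r_v, Q(v) ≠ 0. -/
theorem result {F : Type*} [Field F] [Fintype F] {n : ℕ} (Q : QuadraticForm F (Fin n → F)) (hQ : (QuadraticMap.polarBilin Q).Nondegenerate) (h : Fintype.card F ≠ 2 ∨ n ≠ 4) : Subgroup.closure {g : ↥(Cfsg.isometryGroup F ⇑Q) | ∃ v : Fin n → F, Q v ≠ 0 ∧ ((g : Matrix.GeneralLinearGroup (Fin n) F) : Matrix (Fin n) (Fin n) F) = Cfsg.reflectionMatrix ⇑Q v} = ⊤ := by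
  have hQ' : Cfsg.Geo.IsNondegenerateQuadraticForm (⇑Q) := by
    refine ⟨fun c v => ?_, ⟨?_, ?_, ?_, ?_⟩, ?_⟩
    · rw [QuadraticMap.map_smul, smul_eq_mul]; ring
    · intro x y v; exact QuadraticMap.polar_add_left Q x y v
    · intro c x v; rw [QuadraticMap.polar_smul_left, smul_eq_mul]
    · intro v x y; exact QuadraticMap.polar_add_right Q v x y
    · intro c v x; rw [QuadraticMap.polar_smul_right, smul_eq_mul]
    · intro v hv
      constructor
      · by_contra hcon
        push_neg at hcon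
        exact hv (hQ.2 v (fun x => hcon x))
      · by_contra hcon
        push_neg at hcon
        exact hv (hQ.1 v (fun x => hcon x))
  rw [eq_top_iff]
  intro g _
  have hS : ∀ v (hv : Q v ≠ 0), Cfsg.Agent.Helper4.OrthPlane.rG (⇑Q) hQ' v hv ∈
      (Subgroup.closure {g : ↥(Cfsg.isometryGroup F ⇑Q) | ∃ v : Fin n → F, Q v ≠ 0 ∧ ((g : Matrix.GeneralLinearGroup (Fin n) F) : Matrix (Fin n) (Fin n) F) = Cfsg.reflectionMatrix ⇑Q v}).map (Cfsg.isometryGroup F ⇑Q).subtype := by
    intro v hv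
    refine Subgroup.mem_map.mpr ⟨⟨_, Cfsg.Agent.Helper4.OrthPlane.rG_mem (⇑Q) hQ' v hv⟩, ?_, rfl⟩
    apply Subgroup.subset_closure
    refine ⟨v, hv, ?_⟩
    exact Cfsg.Agent.Helper4.CartanD.R_eq (⇑Q) hQ' v
  have h2 := Cfsg.Agent.Helper4.CartanD.gen (⇑Q) hQ' (by rw [Fintype.card_fin]; exact h) _ hS g.2
  obtain ⟨g', hg', hgg⟩ := Subgroup.mem_map.mp h2
  have h3 : g' = g := Subtype.ext hgg
  rw [← h3]
  exact hg'

end Cfsg.Agent.S0786
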