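import Mathlib
import Cfsg.Statements.S0788
import Cfsg.Agent.Helper4.Spinor3

set_option autoImplicit false
open Cfsg

namespace Cfsg.Agent.S0788

open Cfsg.Agent.Helper4.OrthPlane Cfsg.Agent.Helper4.CartanD Cfsg.Agent.Helper4.Dickson
  Cfsg.Agent.Helper4.Spinor

/-- Ω has index 4 in O for q odd: if F is finite of odd characteristic, n ≥ 2 and Q is a quadratic form on F^n with non-degenerate polar form, then the commutator subgroup of the isometry group of Q (the group Ω of our definitions) has index 4 in it. -/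
theorem result {F : Type*} [Field F] [Fintype F] (h2 : (2 : F) ≠ 0) {n : ℕ} (hn : 2 ≤ n) (Q : QuadraticForm F (Fin n → F)) (hQ : (QuadraticMap.polarBilin Q).Nondegenerate) : (Cfsg.Omega F ⇑Q).index = 4 := by
  have hQ' := of_form Q hQ
  have hn' : 2 ≤ Fintype.card (Fin n) := by rw [Fintype.card_fin]; exact hn
  obtain ⟨φ, θ, hφ, hθ, hmem⟩ := exists_invariants (⇑Q) hQ' h2 hn'
  obtain ⟨wp, hwp⟩ := univ (⇑Q) hQ' h2 hn' 1
  obtain ⟨ε, hε⟩ := FiniteField.exists_nonsquare (ringChar_ne_two h2)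
  obtain ⟨wm, hwm⟩ := univ (⇑Q) hQ' h2 hn' ε
  have hwp0 : Q wp ≠ 0 := by rw [hwp]; exact one_ne_zero
  have hwm0 : Q wm ≠ 0 := by
    rw [hwm]
    rintro rfl
    exact hε ⟨0, by rw [mul_zero]⟩
  have cp : chi (Q wp) = 1 := by rw [hwp, chi_one]
  have cm : chi (Q wm) = -1 := by rw [hwm]; exact (chi_neg_one_iff ε).mpr hε
  obtain ⟨Φ, hΦ⟩ : ∃ Φ : ↥(Cfsg.isometryGroup F ⇑Q) →* Multiplicative (ZMod 2) × ℤˣ,
    Φ = φ.prod θ.toHomUnits := ⟨_, rfl⟩
  have hker : Cfsg.Omega F ⇑Q = Φ.ker := by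
    ext g
    rw [MonoidHom.mem_ker, hΦ, MonoidHom.prod_apply, Prod.mk_eq_one]
    rw [show (g ∈ Cfsg.Omega F ⇑Q) ↔ φ g = 1 ∧ θ g = 1 from hmem g]
    constructor
    · rintro ⟨a, b⟩
      exact ⟨a, Units.ext (by rw [MonoidHom.coe_toHomUnits, b, Units.val_one])⟩
    · rintro ⟨a, b⟩
      refine ⟨a, ?_⟩
      have h3 := congrArg Units.val b
      rw [MonoidHom.coe_toHomUnits] at h3
      exact h3
  have hsurj : Function.Surjective Φ := by
    rintro ⟨x, y⟩
    have hθp : θ.toHomUnits (rO (⇑Q) hQ' wp hwp0) = 1 :=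
      Units.ext (by rw [MonoidHom.coe_toHomUnits, hθ, cp, Units.val_one])
    have hθm : θ.toHomUnits (rO (⇑Q) hQ' wm hwm0) = -1 :=
      Units.ext (by rw [MonoidHom.coe_toHomUnits, hθ, cm, Units.val_neg, Units.val_one])
    have hz : ∀ x' : ZMod 2, x' = 0 ∨ x' = 1 := by decide
    have hx : x = 1 ∨ x = Multiplicative.ofAdd 1 := by
      rcases hz (Multiplicative.toAdd x) with h | h
      · left
        exact congrArg Multiplicative.ofAdd h
      · right
        exact congrArg Multiplicative.ofAdd h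
    have h11 : (Multiplicative.ofAdd (1 : ZMod 2)) * Multiplicative.ofAdd 1 = 1 := by
      rw [← ofAdd_add]
      rfl
    rcases hx with rfl | rfl <;> rcases Int.units_eq_one_or y with rfl | rfl
    · exact ⟨1, map_one _⟩
    · refine ⟨rO (⇑Q) hQ' wp hwp0 * rO (⇑Q) hQ' wm hwm0, ?_⟩
      rw [hΦ, MonoidHom.prod_apply, map_mul, map_mul, hφ, hφ, hθp, hθm, h11, one_mul]
    · refine ⟨rO (⇑Q) hQ' wp hwp0, ?_⟩
      rw [hΦ, MonoidHom.prod_apply, hφ, hθp]
    · refine ⟨rO (⇑Q) hQ' wm hwm0, ?_⟩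
      rw [hΦ, MonoidHom.prod_apply, hφ, hθm]
  rw [hker, Subgroup.index_eq_card,
    Nat.card_congr (QuotientGroup.quotientKerEquivOfSurjective Φ hsurj).toEquiv]
  simp [Nat.card_eq_fintype_card]

end Cfsg.Agent.S0788
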