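import Mathlib
import Cfsg.Statements.S0789
import Cfsg.Agent.Helper4.Dickson

set_option autoImplicit false
open Cfsg

namespace Cfsg.Agent.S0789

/-- Ω has index 2 in O for q even: if F is finite of characteristic two, n ≥ 2, Q is a quadratic form on F^n with non-degenerate polar form, and (|F|, n) ≠ (2, 4), then the commutator subgroup of the isometry group of Q has index 2 in it. -/
theorem result {F : Type*} [Field F] [Fintype F] [CharP F 2] {n : ℕ} (hn : 2 ≤ n) (Q : QuadraticForm F (Fin n → F)) (hQ : (QuadraticMap.polarBilin Q).Nondegenerate) (h : Fintype.card F ≠ 2 ∨ n ≠ 4) : (Cfsg.Omega F ⇑Q).index = 2 := by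
  have hQ' := Cfsg.Agent.Helper4.Dickson.of_form Q hQ
  have h' : Fintype.card F ≠ 2 ∨ Fintype.card (Fin n) ≠ 4 := by rw [Fintype.card_fin]; exact h
  have hch : (2 : F) = 0 := CharTwo.two_eq_zero
  have hsq : ∀ a : F, ∃ s, s * s = a := by
    intro a
    obtain ⟨r, hr⟩ := FiniteField.isSquare_of_char_two (ringChar.eq F 2) a
    exact ⟨r, hr.symm⟩
  have hx : (fun _ : Fin n => (1 : F)) ≠ 0 := by
    intro h0
    have h5 := congrFun h0 ⟨0, by omega⟩
    simp at h5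
  obtain ⟨v₀, hv₀⟩ := Cfsg.Agent.Helper4.CartanD.exists_ns (⇑Q) hQ' _ hx
  have hnot := Cfsg.Agent.Helper4.Dickson.refl_not_mem (⇑Q) hQ' h' v₀ hv₀
  have hE := Cfsg.Agent.Helper4.Dickson.E_le (⇑Q) hQ' h' hch hsq
  show (commutator ↥(Cfsg.isometryGroup F ⇑Q)).index = 2
  rw [Subgroup.index_eq_two_iff]
  refine ⟨Cfsg.Agent.Helper4.Dickson.rO (⇑Q) hQ' v₀ hv₀, fun b => ?_⟩
  rcases Cfsg.Agent.Helper4.Dickson.E_or (⇑Q) hQ' h' v₀ hv₀ b with h1 | h1
  · refine Or.inr ⟨hE h1, fun h2 => hnot ?_⟩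
    have h3 := mul_mem (inv_mem (hE h1)) h2
    rwa [inv_mul_cancel_left] at h3
  · refine Or.inl ⟨hE h1, fun h2 => hnot ?_⟩
    have h3 := mul_mem (inv_mem h2) (hE h1)
    rwa [inv_mul_cancel_left] at h3

end Cfsg.Agent.S0789
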