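import Mathlib
import Cfsg.Statements.S0793
import Cfsg.Agent.Helper4.QuadMat

set_option autoImplicit false
open Cfsg

namespace Cfsg.Agent.S0793

open Matrix Cfsg.Agent.Helper4

lemma siegel_mulVec {F : Type*} [Field F] {n : ℕ} (Q : QuadraticForm F (Fin n → F))
    (u v : Fin n → F) (c : F) (x : Fin n → F) :
    Cfsg.siegelMatrix ⇑Q u v c *ᵥ x =
      x + c • (QuadraticMap.polar ⇑Q u x • v - QuadraticMap.polar ⇑Q v x • u) := by
  unfold Cfsg.siegelMatrix
  rw [Matrix.add_mulVec, Matrix.one_mulVec, Matrix.smul_mulVec, Matrix.sub_mulVec,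
    vecMulVec_polarVec_mulVec, vecMulVec_polarVec_mulVec]

/-- Root elements: if Q(u) = Q(v) = 0 and f(u, v) = 0 (f the polar form), then for every c the Siegel matrix T_(u,v)(c) preserves Q, fixes u and v, and T(c) T(d) = T(c + d). -/
theorem result {F : Type*} [Field F] {n : ℕ} (Q : QuadraticForm F (Fin n → F)) (u v : Fin n → F) (hu : Q u = 0) (hv : Q v = 0) (huv : QuadraticMap.polar ⇑Q u v = 0) : (∀ c x, Q ((Cfsg.siegelMatrix ⇑Q u v c).mulVec x) = Q x) ∧ (∀ c, (Cfsg.siegelMatrix ⇑Q u v c).mulVec u = u ∧ (Cfsg.siegelMatrix ⇑Q u v c).mulVec v = v) ∧ ∀ c d, Cfsg.siegelMatrix ⇑Q u v c * Cfsg.siegelMatrix ⇑Q u v d = Cfsg.siegelMatrix ⇑Q u v (c + d) := by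
  have hvu : QuadraticMap.polar ⇑Q v u = 0 := by rw [QuadraticMap.polar_comm]; exact huv
  have huu : QuadraticMap.polar ⇑Q u u = 0 := by rw [QuadraticMap.polar_self, hu, smul_zero]
  have hvv : QuadraticMap.polar ⇑Q v v = 0 := by rw [QuadraticMap.polar_self, hv, smul_zero]
  refine ⟨?_, ?_, ?_⟩
  · intro c x
    rw [siegel_mulVec, smul_sub, smul_smul, smul_smul, sub_eq_add_neg, ← neg_smul, ← add_assoc,
      QuadraticMap.map_add (⇑Q), QuadraticMap.map_add (⇑Q), QuadraticMap.map_smul,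
      QuadraticMap.map_smul, hu, hv, QuadraticMap.polar_smul_right, QuadraticMap.polar_smul_right,
      QuadraticMap.polar_add_left, QuadraticMap.polar_smul_left, hvu,
      QuadraticMap.polar_comm (⇑Q) x v, QuadraticMap.polar_comm (⇑Q) x u]
    simp only [smul_eq_mul, mul_zero, add_zero]
    ring
  · intro c
    constructor
    · rw [siegel_mulVec, huu, hvu, zero_smul, zero_smul, sub_zero, smul_zero, add_zero]
    · rw [siegel_mulVec, huv, hvv, zero_smul, zero_smul, sub_zero, smul_zero, add_zero]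
  · intro c d
    have hN : (Matrix.vecMulVec v (Cfsg.polarVec ⇑Q u) - Matrix.vecMulVec u (Cfsg.polarVec ⇑Q v)) *
        (Matrix.vecMulVec v (Cfsg.polarVec ⇑Q u) - Matrix.vecMulVec u (Cfsg.polarVec ⇑Q v)) = 0 := by
      simp only [Matrix.sub_mul, Matrix.mul_sub, Matrix.vecMulVec_mul_vecMulVec, polarVec_dot, huv,
        hvu, huu, hvv, zero_smul, Matrix.vecMulVec_zero, sub_zero]
    unfold Cfsg.siegelMatrix
    simp only [Matrix.add_mul, Matrix.mul_add, Matrix.one_mul, Matrix.mul_one, Matrix.smul_mul,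
      Matrix.mul_smul, hN, smul_zero, add_zero, add_smul]
    abel

end Cfsg.Agent.S0793
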