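import Cfsg.Statements.S0794
import Mathlib
import Cfsg.Agent.Helper4.QuadMat
import Cfsg.Agent.S0792
-- import your own Cfsg.Agent.* helpers here

set_option autoImplicit false
open Cfsg

namespace Cfsg.Agent.S0794

open Matrix Cfsg.Agent.Helper4

section
variable {F : Type*} [Field F] {n : ℕ}

theorem siegel_mulVec (Q : QuadraticForm F (Fin n → F)) (u v : Fin n → F) (c : F)
    (x : Fin n → F) :
    siegelMatrix ⇑Q u v c *ᵥ x
      = x + c • (QuadraticMap.polar ⇑Q u x • v - QuadraticMap.polar ⇑Q v x • u) := by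
  unfold siegelMatrix
  rw [Matrix.add_mulVec, Matrix.one_mulVec, Matrix.smul_mulVec, Matrix.sub_mulVec,
    vecMulVec_polarVec_mulVec, vecMulVec_polarVec_mulVec]

theorem main (h2 : (2 : F) ≠ 0) (Q : QuadraticForm F (Fin n → F))
    (hQ : (QuadraticMap.polarBilin Q).Nondegenerate) (u v : Fin n → F) (hu : Q u = 0)
    (hv : Q v = 0) (huv : QuadraticMap.polar ⇑Q u v = 0) (c : F)
    (g : ↥(Cfsg.isometryGroup F ⇑Q))
    (hg : ((g : Matrix.GeneralLinearGroup (Fin n) F) : Matrix (Fin n) (Fin n) F)
      = Cfsg.siegelMatrix ⇑Q u v c) :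
    g ∈ commutatorSet ↥(Cfsg.isometryGroup F ⇑Q) := by
  classical
  set B : LinearMap.BilinForm F (Fin n → F) := QuadraticMap.polarBilin Q with hB
  have hBp : ∀ x y, B x y = QuadraticMap.polar ⇑Q x y := fun x y => rfl
  have hsym : ∀ x y, B x y = B y x := fun x y => QuadraticMap.polar_comm Q x y
  have hQadd : ∀ x y, Q (x + y) = Q x + Q y + B x y := fun x y => QuadraticMap.map_add Q x y
  have hQsmul : ∀ (a : F) x, Q (a • x) = a * a * Q x := fun a x => by
    rw [QuadraticMap.map_smul, smul_eq_mul]
  have hself : ∀ x, B x x = 2 * Q x := fun x => by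
    have := QuadraticMap.polar_self Q x
    rw [hBp, this]
    simp
  have huu : B u u = 0 := by rw [hself, hu, mul_zero]
  have hvv : B v v = 0 := by rw [hself, hv, mul_zero]
  have huv' : B u v = 0 := huv
  have hvu : B v u = 0 := by rw [hsym]; exact huv'
  have hT : ∀ (c : F) x, siegelMatrix ⇑Q u v c *ᵥ x = x + c • (B u x • v - B v x • u) :=
    fun c x => siegel_mulVec Q u v c x
  -- additivity
  have hTadd : ∀ (c c' : F) x, siegelMatrix ⇑Q u v c *ᵥ (siegelMatrix ⇑Q u v c' *ᵥ x)
      = siegelMatrix ⇑Q u v (c + c') *ᵥ x := by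
    intro c c' x
    rw [hT c, hT c' x, hT (c + c') x]
    have e1 : B u (x + c' • (B u x • v - B v x • u)) = B u x := by
      simp only [map_add, map_smul, map_sub, smul_eq_mul, huu, huv']
      ring
    have e2 : B v (x + c' • (B u x • v - B v x • u)) = B v x := by
      simp only [map_add, map_smul, map_sub, smul_eq_mul, hvv, hvu]
      ring
    rw [e1, e2]
    module
  have hTiso : ∀ (c : F) x, Q (siegelMatrix ⇑Q u v c *ᵥ x) = Q x := by
    intro c x
    rw [hT c x, hQadd, hQsmul]
    have e1 : Q (B u x • v - B v x • u) = 0 := by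
      rw [sub_eq_add_neg, ← neg_smul, hQadd, hQsmul, hQsmul, hu, hv]
      simp only [map_smul, LinearMap.smul_apply, smul_eq_mul, hvu]
      ring
    have e2 : B x (c • (B u x • v - B v x • u)) = 0 := by
      simp only [map_smul, map_sub, smul_eq_mul]
      rw [hsym x v, hsym x u]
      ring
    rw [e1, e2]
    ring
  have hTone : siegelMatrix ⇑Q u v 0 = 1 := by
    apply S0792.mat_ext_mulVec
    intro x
    rw [hT 0 x, Matrix.one_mulVec, zero_smul, add_zero]
  have hTinv : ∀ c : F, siegelMatrix ⇑Q u v c * siegelMatrix ⇑Q u v (-c) = 1 := by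
    intro c
    apply S0792.mat_ext_mulVec
    intro x
    rw [← Matrix.mulVec_mulVec, hTadd, add_neg_cancel, hTone]
  -- the isometry-group element with matrix T(c)
  have hTel : ∀ c : F, ∃ t : ↥(Cfsg.isometryGroup F ⇑Q),
      ((t : Matrix.GeneralLinearGroup (Fin n) F) : Matrix (Fin n) (Fin n) F)
        = siegelMatrix ⇑Q u v c := by
    intro c
    refine ⟨⟨⟨siegelMatrix ⇑Q u v c, siegelMatrix ⇑Q u v (-c), hTinv c, ?_⟩,
      fun x _ => hTiso c x⟩, rfl⟩
    have := hTinv (-c)
    rwa [neg_neg] at this
  by_cases hw : ∃ w, B u w = 1 ∧ B v w = 0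
  · obtain ⟨w, hw1, hw2⟩ := hw
    set u' : Fin n → F := w - Q w • u with hu'
    have hu1 : B u u' = 1 := by
      rw [hu', map_sub, map_smul, huu, hw1, smul_zero, sub_zero]
    have hu2 : B v u' = 0 := by
      rw [hu', map_sub, map_smul, hvu, hw2, smul_zero, sub_zero]
    have hu3 : Q u' = 0 := by
      rw [hu', sub_eq_add_neg, ← neg_smul, hQadd, hQsmul, hu, map_smul, smul_eq_mul,
        hsym w u, hw1]
      ring
    set a : Fin n → F := u + u' with ha
    set b : Fin n → F := u - u' with hb
    have hQa : Q a = 1 := by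
      rw [ha, hQadd, hu, hu3, hu1]
      ring
    have hQb : Q b = -1 := by
      rw [hb, sub_eq_add_neg, hQadd, QuadraticMap.map_neg, hu, hu3, map_neg, hu1]
      ring
    have hQa0 : Q a ≠ 0 := by rw [hQa]; exact one_ne_zero
    have hQb0 : Q b ≠ 0 := by rw [hQb]; exact neg_ne_zero.mpr one_ne_zero
    set h : ↥(Cfsg.isometryGroup F ⇑Q) := S0792.rO Q ⟨a, hQa0⟩ * S0792.rO Q ⟨b, hQb0⟩ with hh
    have hhm : ∀ x, ((h : Matrix.GeneralLinearGroup (Fin n) F) : Matrix (Fin n) (Fin n) F) *ᵥ x
        = reflectionMatrix ⇑Q a *ᵥ (reflectionMatrix ⇑Q b *ᵥ x) := by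
      intro x
      rw [Matrix.mulVec_mulVec]
      rfl
    have hhu : ((h : Matrix.GeneralLinearGroup (Fin n) F) : Matrix (Fin n) (Fin n) F) *ᵥ u
        = -u := by
      rw [hhm, reflectionMatrix_mulVec Q b u]
      have e1 : QuadraticMap.polar ⇑Q b u = -1 := by
        rw [← hBp, hb, map_sub, LinearMap.sub_apply, huu, hsym u' u, hu1]
        ring
      rw [e1, hQb]
      have e2 : u - ((-1 : F)⁻¹ * -1) • b = u' := by
        rw [hb]
        have : ((-1 : F)⁻¹ * -1) = 1 := by norm_num
        rw [this, one_smul]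
        abel
      rw [e2, reflectionMatrix_mulVec Q a u']
      have e3 : QuadraticMap.polar ⇑Q a u' = 1 := by
        rw [← hBp, ha, map_add, LinearMap.add_apply, hu1, hself, hu3]
        ring
      rw [e3, hQa, ha]
      simp
    have hhv : ((h : Matrix.GeneralLinearGroup (Fin n) F) : Matrix (Fin n) (Fin n) F) *ᵥ v
        = v := by
      rw [hhm, reflectionMatrix_mulVec Q b v]
      have e1 : QuadraticMap.polar ⇑Q b v = 0 := by
        rw [← hBp, hb, map_sub, LinearMap.sub_apply, huv', hsym u' v, hu2]
        ring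
      rw [e1, mul_zero, zero_smul, sub_zero, reflectionMatrix_mulVec Q a v]
      have e3 : QuadraticMap.polar ⇑Q a v = 0 := by
        rw [← hBp, ha, map_add, LinearMap.add_apply, huv', hsym u' v, hu2]
        ring
      rw [e3, mul_zero, zero_smul, sub_zero]
    have hhB : ∀ x y, B (((h : Matrix.GeneralLinearGroup (Fin n) F) :
        Matrix (Fin n) (Fin n) F) *ᵥ x) (((h : Matrix.GeneralLinearGroup (Fin n) F) :
        Matrix (Fin n) (Fin n) F) *ᵥ y) = B x y :=
      fun x y => S0792.polar_pres Q _ (fun z => h.2 z z) x y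
    obtain ⟨t1, ht1⟩ := hTel (-c / 2)
    refine ⟨h, t1, ?_⟩
    -- ⁅h, t1⁆ = g  ⟸  g * t1 * h = h * t1
    have key : g * t1 * h = h * t1 := by
      apply Subtype.ext
      apply Units.ext
      apply S0792.mat_ext_mulVec
      intro x
      show (((g : Matrix.GeneralLinearGroup (Fin n) F) : Matrix (Fin n) (Fin n) F)
        * ((t1 : Matrix.GeneralLinearGroup (Fin n) F) : Matrix (Fin n) (Fin n) F)
        * ((h : Matrix.GeneralLinearGroup (Fin n) F) : Matrix (Fin n) (Fin n) F)) *ᵥ x
        = (((h : Matrix.GeneralLinearGroup (Fin n) F) : Matrix (Fin n) (Fin n) F)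
        * ((t1 : Matrix.GeneralLinearGroup (Fin n) F) : Matrix (Fin n) (Fin n) F)) *ᵥ x
      rw [← Matrix.mulVec_mulVec, ← Matrix.mulVec_mulVec, ← Matrix.mulVec_mulVec, hg, ht1,
        hTadd]
      set y := ((h : Matrix.GeneralLinearGroup (Fin n) F) : Matrix (Fin n) (Fin n) F) *ᵥ x
        with hy
      rw [hT, hT, Matrix.mulVec_add, Matrix.mulVec_smul, Matrix.mulVec_sub, Matrix.mulVec_smul,
        Matrix.mulVec_smul, hhu, hhv, ← hy]
      have e1 : B u y = - B u x := by
        have := hhB x u
        rw [hhu, ← hy, map_neg] at this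
        rw [hsym u y, hsym u x]
        linear_combination -this
      have e2 : B v y = B v x := by
        have := hhB x v
        rw [hhv, ← hy] at this
        rw [hsym v y, hsym v x]
        exact this
      rw [e1, e2]
      have e3 : c + -c / 2 = c / 2 := by
        field_simp
        ring
      rw [e3]
      module
    rw [commutatorElement_def]
    rw [← key]
    group
  · -- degenerate case: the matrix is the identity
    push Not at hw
    have hker : ∀ x, B v x = 0 → B u x = 0 := by
      intro x hx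
      by_contra hne
      have := hw ((B u x)⁻¹ • x) (by rw [map_smul, smul_eq_mul, inv_mul_cancel₀ hne])
      apply this
      rw [map_smul, hx, smul_zero]
    have hone : siegelMatrix ⇑Q u v c = 1 := by
      apply S0792.mat_ext_mulVec
      intro x
      rw [hT, Matrix.one_mulVec]
      by_cases hv0 : v = 0
      · have hu0 : u = 0 := by
          apply hQ.1
          intro y
          apply hker
          rw [hv0, map_zero, LinearMap.zero_apply]
        rw [hu0, hv0]
        simp
      · obtain ⟨w0, hw0⟩ : ∃ w0, B v w0 = 1 := by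
          have : ∃ w, B v w ≠ 0 := by
            by_contra hcon
            push Not at hcon
            exact hv0 (hQ.1 v hcon)
          obtain ⟨w, hw'⟩ := this
          exact ⟨(B v w)⁻¹ • w, by rw [map_smul, smul_eq_mul, inv_mul_cancel₀ hw']⟩
        have hμ : ∀ y, B u y = B u w0 * B v y := by
          intro y
          have := hker (y - B v y • w0) (by
            rw [map_sub, map_smul, hw0, smul_eq_mul, mul_one, sub_self])
          rw [map_sub, map_smul, smul_eq_mul] at this
          linear_combination this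
        have huμ : u = B u w0 • v := by
          have : u - B u w0 • v = 0 := by
            apply hQ.1
            intro y
            rw [map_sub, LinearMap.sub_apply, map_smul, LinearMap.smul_apply, smul_eq_mul, hμ y]
            ring
          exact sub_eq_zero.mp this
        have e1 : B u x • v - B v x • u = 0 := by
          rw [hμ x]
          nth_rewrite 2 [huμ]
          module
        rw [e1, smul_zero, add_zero]
    have hg1 : g = 1 := by
      apply Subtype.ext
      apply Units.ext
      rw [hg, hone]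
      rfl
    rw [hg1]
    exact ⟨1, 1, by simp⟩

end


/-- For q odd, n ≥ 5 and Q with non-degenerate polar form: an isometry whose matrix is a Siegel transformation T_(u,v)(c) (u, v singular and orthogonal) is a commutator in the isometry group, so lies in Ω. -/
theorem result {F : Type*} [Field F] [Fintype F] (h2 : (2 : F) ≠ 0) {n : ℕ} (hn : 5 ≤ n) (Q : QuadraticForm F (Fin n → F)) (hQ : (QuadraticMap.polarBilin Q).Nondegenerate) (u v : Fin n → F) (hu : Q u = 0) (hv : Q v = 0) (huv : QuadraticMap.polar ⇑Q u v = 0) (c : F) (g : ↥(Cfsg.isometryGroup F ⇑Q)) (hg : ((g : Matrix.GeneralLinearGroup (Fin n) F) : Matrix (Fin n) (Fin n) F) = Cfsg.siegelMatrix ⇑Q u v c) : g ∈ commutatorSet ↥(Cfsg.isometryGroup F ⇑Q) ∧ g ∈ Cfsg.Omega F ⇑Q := by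
  have h1 := main h2 Q hQ u v hu hv huv c g hg
  refine ⟨h1, ?_⟩
  show g ∈ commutator _
  rw [commutator_eq_closure]
  exact Subgroup.subset_closure h1


end Cfsg.Agent.S0794
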