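import Mathlib
import Cfsg.Statements.S0796

set_option autoImplicit false
open Cfsg

namespace Cfsg.Agent.S0796

/-- If G is finite and acts faithfully and primitively on X, H is the stabiliser of a point, A is a normal subgroup of H whose normal closure in G is G, then for every non-trivial normal subgroup K of G the quotient G ⧸ K is isomorphic to A ⧸ B for some normal subgroup B of A. -/
theorem result {G X : Type*} [Group G] [Finite G] [MulAction G X] [FaithfulSMul G X] (hprim : MulAction.IsPreprimitive G X) (x : X) (A : Subgroup G) (hA : A ≤ MulAction.stabilizer G x) (hAn : (A.subgroupOf (MulAction.stabilizer G x)).Normal) (hgen : Subgroup.normalClosure (A : Set G) = ⊤) (K : Subgroup G) [K.Normal] (hK : K ≠ ⊥) : ∃ (B : Subgroup A) (_ : B.Normal), Nonempty (G ⧸ K ≃* A ⧸ B) := by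
  -- K acts transitively
  have hfix : MulAction.fixedPoints K X ≠ Set.univ := by
    intro h
    apply hK
    rw [Subgroup.eq_bot_iff_forall]
    intro k hk
    apply FaithfulSMul.eq_of_smul_eq_smul (α := X)
    intro y
    have hy : y ∈ MulAction.fixedPoints K X := by rw [h]; trivial
    have := hy ⟨k, hk⟩
    simpa using this
  have htrans : MulAction.IsPretransitive K X :=
    MulAction.IsQuasiPreprimitive.isPretransitive_of_normal hfix
  -- every element is k * h
  have hdecomp : ∀ g : G, ∃ k ∈ K, ∃ h ∈ MulAction.stabilizer G x, g = k * h := by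
    intro g
    obtain ⟨k, hk⟩ := htrans.exists_smul_eq x (g • x)
    refine ⟨k, k.2, (k : G)⁻¹ * g, ?_, by group⟩
    rw [MulAction.mem_stabilizer_iff, mul_smul]
    have hk' : (k : G) • x = g • x := hk
    rw [← hk', inv_smul_smul]
  -- conjugates of A lie in K ⊔ A
  have hKA : K ⊔ A = ⊤ := by
    rw [eq_top_iff, ← hgen]
    unfold Subgroup.normalClosure
    rw [Subgroup.closure_le]
    intro y hy
    rw [Group.mem_conjugatesOfSet_iff] at hy
    obtain ⟨a, ha, hconj⟩ := hy
    rw [isConj_iff] at hconj
    obtain ⟨g, rfl⟩ := hconj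
    obtain ⟨k, hk, h, hh, rfl⟩ := hdecomp g
    have hha : h * a * h⁻¹ ∈ A := by
      have h1 : (⟨a, hA ha⟩ : MulAction.stabilizer G x) ∈ A.subgroupOf (MulAction.stabilizer G x) := by
        rw [Subgroup.mem_subgroupOf]; exact ha
      have h2 := hAn.conj_mem _ h1 ⟨h, hh⟩
      rw [Subgroup.mem_subgroupOf] at h2
      simpa using h2
    have heq : k * h * a * (k * h)⁻¹ = k * (h * a * h⁻¹) * k⁻¹ := by group
    change k * h * a * (k * h)⁻¹ ∈ K ⊔ A
    rw [heq]
    have hkm : k ∈ K ⊔ A := (le_sup_left : K ≤ K ⊔ A) hk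
    exact mul_mem (mul_mem hkm ((le_sup_right : A ≤ K ⊔ A) hha)) (inv_mem hkm)
  -- the restriction of the quotient map to A is surjective
  let φ : A →* G ⧸ K := (QuotientGroup.mk' K).comp A.subtype
  have hφ : Function.Surjective φ := by
    intro y
    obtain ⟨g, rfl⟩ := QuotientGroup.mk_surjective y
    have hg : g ∈ ((A ⊔ K : Subgroup G) : Set G) := by
      rw [sup_comm, hKA]; trivial
    rw [Subgroup.mul_normal] at hg
    obtain ⟨a, ha, k, hk, rfl⟩ := Set.mem_mul.mp hg
    refine ⟨⟨a, ha⟩, ?_⟩
    change (QuotientGroup.mk a : G ⧸ K) = QuotientGroup.mk (a * k)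
    rw [QuotientGroup.mk_mul, (QuotientGroup.eq_one_iff k).mpr hk, mul_one]
  exact ⟨φ.ker, inferInstance, ⟨(QuotientGroup.quotientKerEquivOfSurjective φ hφ).symm⟩⟩

end Cfsg.Agent.S0796
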