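import Cfsg.Statements.S0800
import Cfsg.Agent.Helper12.SL2Orders

set_option autoImplicit false
open Cfsg

namespace Cfsg.Agent.S0800

open Cfsg.Agent.Helper12

/-- Tori of SL_2(q): if g ∈ SL_2(q) has order coprime to the characteristic p, then the order of g divides q − 1 or q + 1. -/
theorem result {F : Type*} [Field F] [Fintype F] {q : ℕ} (hF : Fintype.card F = q) (p : ℕ) [Fact p.Prime] [CharP F p] (g : Matrix.SpecialLinearGroup (Fin 2) F) (hg : Nat.Coprime (orderOf g) p) : orderOf g ∣ q - 1 ∨ orderOf g ∣ q + 1 := by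
  subst hF
  have hone : ∀ n : ℕ, (g : Matrix (Fin 2) (Fin 2) F) ^ n = (1 : F) • (1 : Matrix (Fin 2) (Fin 2) F) →
      orderOf g ∣ n := by
    intro n h
    apply orderOf_dvd_of_pow_eq_one
    apply Subtype.ext
    rw [Matrix.SpecialLinearGroup.coe_pow, h, one_smul, Matrix.SpecialLinearGroup.coe_one]
  by_cases hroot : ∃ z : F, z ^ 2 - (g : Matrix (Fin 2) (Fin 2) F).trace * z + 1 = 0
  · left
    obtain ⟨lam, hlam⟩ := hroot
    have hprod : lam * ((g : Matrix (Fin 2) (Fin 2) F).trace - lam) = 1 := by linear_combination -hlam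
    have hsum : lam + ((g : Matrix (Fin 2) (Fin 2) F).trace - lam) = (g : Matrix (Fin 2) (Fin 2) F).trace := by
      ring
    have hlam0 : lam ≠ 0 := by
      rintro rfl
      simp at hprod
    have hmu0 : (g : Matrix (Fin 2) (Fin 2) F).trace - lam ≠ 0 := by
      intro h
      rw [h] at hprod
      simp at hprod
    by_cases hne : lam = (g : Matrix (Fin 2) (Fin 2) F).trace - lam
    · have htr : (g : Matrix (Fin 2) (Fin 2) F).trace = 2 * lam := by linear_combination -hne
      have hll : lam * lam = 1 := by
        rw [← hne] at hprod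
        exact hprod
      have h1 := sl2_unip_pow p g lam htr hll
      have h2 : (g : Matrix (Fin 2) (Fin 2) F) ^ (p * (Fintype.card F - 1)) =
          (1 : F) • (1 : Matrix (Fin 2) (Fin 2) F) := by
        rw [pow_mul, h1, smul_pow, one_pow, ← pow_mul, mul_comm, pow_mul,
          FiniteField.pow_card_sub_one_eq_one lam hlam0, one_pow]
      have h3 := hone _ h2
      exact Nat.Coprime.dvd_of_dvd_mul_left hg h3
    · apply hone
      exact sl2_split_pow g lam _ 1 hsum hprod hne _ (FiniteField.pow_card_sub_one_eq_one lam hlam0)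
        (FiniteField.pow_card_sub_one_eq_one _ hmu0)
  · right
    push Not at hroot
    apply orderOf_dvd_of_pow_eq_one
    exact sl2_elliptic_pow g hroot

end Cfsg.Agent.S0800
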