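import Cfsg.Statements.S0802
import Cfsg.Agent.Helper12.A4PSL

set_option autoImplicit false
open Cfsg

namespace Cfsg.Agent.S0802

open Cfsg.Agent.Helper12

/-- PSL_2(p^n) has a subgroup isomorphic to A_4 if and only if it is not the case that p = 2 and n is odd. -/
theorem result {F : Type*} [Field F] [Fintype F] (p n : ℕ) [Fact p.Prime] [CharP F p] (hF : Fintype.card F = p ^ n) : (∃ H : Subgroup (Matrix.ProjectiveSpecialLinearGroup (Fin 2) F), Nonempty (H ≃* alternatingGroup (Fin 4))) ↔ ¬ (p = 2 ∧ Odd n) := by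
  constructor
  · rintro ⟨H, ⟨e⟩⟩ ⟨rfl, hn⟩
    obtain ⟨k, rfl⟩ := hn
    have h2 : (2 : F) = 0 := char2_two_eq_zero
    have hπ : Function.Bijective
        (QuotientGroup.mk' (Subgroup.center (Matrix.SpecialLinearGroup (Fin 2) F))) :=
      ⟨psl2_mk_injective_char2 h2, QuotientGroup.mk'_surjective _⟩
    obtain ⟨E⟩ : Nonempty (Matrix.SpecialLinearGroup (Fin 2) F ≃*
        Matrix.ProjectiveSpecialLinearGroup (Fin 2) F) := ⟨MulEquiv.ofBijective _ hπ⟩
    obtain ⟨f, hf⟩ : ∃ f : alternatingGroup (Fin 4) →* Matrix.SpecialLinearGroup (Fin 2) F,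
        Function.Injective f :=
      ⟨E.symm.toMonoidHom.comp (H.subtype.comp e.symm.toMonoidHom),
        E.symm.injective.comp (H.subtype_injective.comp e.symm.injective)⟩
    obtain ⟨X, C, h1, h2', h3, h4, h5⟩ := a4_elements f hf
    exact no_a4_char2 k hF X C h1 h2' h3 h4 h5
  · intro h
    by_cases hp : p = 2
    · subst hp
      have hn : Even n := by
        by_contra hne
        exact h ⟨rfl, Nat.not_even_iff_odd.mp hne⟩
      exact psl2_exists_a4_char2 n hn hF
    · have hodd : Odd (Fintype.card F) := by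
        rw [hF]
        exact Odd.pow ((Fact.out : p.Prime).odd_of_ne_two hp)
      exact psl2_exists_a4_of_odd hodd

end Cfsg.Agent.S0802
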