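import Cfsg.Statements.S0806
import Cfsg.Agent.Helper18.DicksonBound3
-- import your own Cfsg.Agent.* helpers here

set_option autoImplicit false
open Cfsg

namespace Cfsg.Agent.S0806

/-- Minimal index (Galois): if q ∉ {2, 3, 5, 7, 9, 11} then every proper subgroup of PSL_2(q) has index ≥ q + 1, and some subgroup has index exactly q + 1. -/
theorem result {F : Type*} [Field F] [Fintype F] {q : ℕ} (hF : Fintype.card F = q) (hq : q ∉ ({2, 3, 5, 7, 9, 11} : Finset ℕ)) : (∀ H : Subgroup (Matrix.ProjectiveSpecialLinearGroup (Fin 2) F), H ≠ ⊤ → q + 1 ≤ H.index) ∧ ∃ H : Subgroup (Matrix.ProjectiveSpecialLinearGroup (Fin 2) F), H.index = q + 1 := by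
  subst hF
  have hq2 : 2 ≤ Fintype.card F := Fintype.one_lt_card
  obtain ⟨p, hpK⟩ := CharP.exists F
  haveI := hpK
  obtain ⟨n, hpp, hcard⟩ := FiniteField.card F p
  simp only [Finset.mem_insert, Finset.mem_singleton, not_or] at hq
  have hodd : (2 : F) ≠ 0 → 13 ≤ Fintype.card F := by
    intro h2
    have hp2 : p ≠ 2 := by
      rintro rfl
      apply h2
      have h5 : ((2 : ℕ) : F) = 0 := CharP.cast_eq_zero F 2
      exact_mod_cast h5
    have hpodd : Odd p := hpp.odd_of_ne_two hp2
    have hqodd : Odd (Fintype.card F) := by rw [hcard]; exact hpodd.pow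
    obtain ⟨k, hk⟩ := hqodd
    omega
  have h4 : 4 ≤ Fintype.card F := by
    by_cases h2 : (2 : F) = 0
    · have hp2 : p = 2 := by
        have h5 : ((2 : ℕ) : F) = 0 := by exact_mod_cast h2
        have h6 := (CharP.cast_eq_zero_iff F p 2).mp h5
        exact (Nat.prime_dvd_prime_iff_eq hpp Nat.prime_two).mp h6
      subst hp2
      have hn2 : 2 ≤ (n : ℕ) := by
        have hn1 : 1 ≤ (n : ℕ) := n.pos
        rcases Nat.lt_or_ge (n : ℕ) 2 with h | h
        · exfalso
          have hn : (n : ℕ) = 1 := by omega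
          rw [hn, pow_one] at hcard
          exact hq.1 hcard
        · exact h
      rw [hcard]
      calc 4 = 2 ^ 2 := by norm_num
        _ ≤ 2 ^ (n : ℕ) := Nat.pow_le_pow_right (by norm_num) hn2
    · have := hodd h2
      omega
  exact ⟨fun H hH => Cfsg.Agent.Helper18.Dickson.min_index hodd h4 H hH,
    Cfsg.Agent.Helper18.Dickson.exists_index hq2⟩

end Cfsg.Agent.S0806
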