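import Cfsg.Statements.S0808
import Cfsg.Agent.S0807

set_option autoImplicit false
open Cfsg

namespace Cfsg.Agent.S0808

open Cfsg.Agent.Helper12

variable {F : Type*} [Field F]

/-- The projection onto `PSL₂`. -/
abbrev pr (X : Matrix.SpecialLinearGroup (Fin 2) F) :
    Matrix.ProjectiveSpecialLinearGroup (Fin 2) F :=
  QuotientGroup.mk X

/-- Anticommuting elements of `SL₂`. -/
abbrev Anti (X Y : Matrix.SpecialLinearGroup (Fin 2) F) : Prop :=
  X * Y = sl2NegOne * (Y * X)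

/-- Simultaneous conjugacy of pairs. -/
def PConj (X Y X' Y' : Matrix.SpecialLinearGroup (Fin 2) F) : Prop :=
  ∃ g : Matrix.SpecialLinearGroup (Fin 2) F, g * X * g⁻¹ = X' ∧ g * Y * g⁻¹ = Y'

theorem pconj_refl (X Y : Matrix.SpecialLinearGroup (Fin 2) F) : PConj X Y X Y :=
  ⟨1, by group, by group⟩

theorem pconj_symm {X Y X' Y' : Matrix.SpecialLinearGroup (Fin 2) F} (h : PConj X Y X' Y') :
    PConj X' Y' X Y := by
  obtain ⟨g, rfl, rfl⟩ := h
  exact ⟨g⁻¹, by group, by group⟩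

theorem pconj_trans {X Y X' Y' X'' Y'' : Matrix.SpecialLinearGroup (Fin 2) F}
    (h : PConj X Y X' Y') (h' : PConj X' Y' X'' Y'') : PConj X Y X'' Y'' := by
  obtain ⟨g, rfl, rfl⟩ := h
  obtain ⟨k, rfl, rfl⟩ := h'
  exact ⟨k * g, by group, by group⟩

theorem anti_pconj {X Y X' Y' : Matrix.SpecialLinearGroup (Fin 2) F} (hXY : Anti X Y)
    (h : PConj X Y X' Y') : Anti X' Y' := by
  obtain ⟨g, rfl, rfl⟩ := h
  exact S0807.anti_conj X Y g hXY

theorem sq_of_anti_left (h2 : (2 : F) ≠ 0) {X Y : Matrix.SpecialLinearGroup (Fin 2) F}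
    (h : Anti X Y) : X * X = sl2NegOne :=
  S0809.sq_eq_negOne_of_trace X (S0807.anti_trace h2 Y X (S0807.anti_symm X Y h))

theorem sq_of_anti_right (h2 : (2 : F) ≠ 0) {X Y : Matrix.SpecialLinearGroup (Fin 2) F}
    (h : Anti X Y) : Y * Y = sl2NegOne :=
  S0809.sq_eq_negOne_of_trace Y (S0807.anti_trace h2 X Y h)

theorem negOne_sq_mul (X : Matrix.SpecialLinearGroup (Fin 2) F) :
    sl2NegOne * (sl2NegOne * X) = X := by
  rw [← mul_assoc, sl2NegOne_mul_self, one_mul]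

theorem mul_mul_self_of_anti (h2 : (2 : F) ≠ 0) {X Y : Matrix.SpecialLinearGroup (Fin 2) F}
    (h : Anti X Y) : X * Y * X = Y := by
  have hXX := sq_of_anti_left h2 h
  calc X * Y * X = sl2NegOne * (Y * X) * X := by rw [h]
    _ = sl2NegOne * Y * (X * X) := by group
    _ = sl2NegOne * Y * sl2NegOne := by rw [hXX]
    _ = sl2NegOne * (sl2NegOne * Y) := S0807.negOne_comm _
    _ = Y := negOne_sq_mul Y

theorem anti_mul_right (h2 : (2 : F) ≠ 0) {X Y : Matrix.SpecialLinearGroup (Fin 2) F}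
    (h : Anti X Y) : Anti X (X * Y) := by
  have hXX := sq_of_anti_left h2 h
  show X * (X * Y) = sl2NegOne * (X * Y * X)
  rw [mul_mul_self_of_anti h2 h, ← mul_assoc, hXX]

theorem anti_prod_left (h2 : (2 : F) ≠ 0) {X Y : Matrix.SpecialLinearGroup (Fin 2) F}
    (h : Anti X Y) : Anti (X * Y) X :=
  S0807.anti_symm X (X * Y) (anti_mul_right h2 h)

theorem anti_prod_right (h2 : (2 : F) ≠ 0) {X Y : Matrix.SpecialLinearGroup (Fin 2) F}
    (h : Anti X Y) : Anti (X * Y) Y := by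
  have hYY := sq_of_anti_right h2 h
  have hYX : Y * X = sl2NegOne * (X * Y) := S0807.anti_symm X Y h
  show X * Y * Y = sl2NegOne * (Y * (X * Y))
  have e1 : X * Y * Y = sl2NegOne * X := by
    rw [mul_assoc, hYY]; exact S0807.negOne_comm X
  have e2 : Y * (X * Y) = X := by
    calc Y * (X * Y) = (Y * X) * Y := by group
      _ = sl2NegOne * (X * Y) * Y := by rw [hYX]
      _ = sl2NegOne * (X * (Y * Y)) := by group
      _ = sl2NegOne * (X * sl2NegOne) := by rw [hYY]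
      _ = sl2NegOne * (sl2NegOne * X) := by rw [S0807.negOne_comm X]
      _ = X := negOne_sq_mul X
  rw [e1, e2]

/-- An element commuting with `A` conjugates an element anticommuting with `A` by its square. -/
theorem conj_by_comm (h2 : (2 : F) ≠ 0) {A B t : Matrix.SpecialLinearGroup (Fin 2) F}
    (hAB : Anti A B) (ht : t * A = A * t) : t * B * t⁻¹ = t * t * B := by
  have htB : Anti A (t * B) := by
    show A * (t * B) = sl2NegOne * (t * B * A)
    calc A * (t * B) = (A * t) * B := by group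
      _ = (t * A) * B := by rw [ht]
      _ = t * (A * B) := by group
      _ = t * (sl2NegOne * (B * A)) := by rw [hAB]
      _ = (t * sl2NegOne) * (B * A) := by group
      _ = (sl2NegOne * t) * (B * A) := by rw [S0807.negOne_comm t]
      _ = sl2NegOne * (t * B * A) := by group
  have sqB := sq_of_anti_right h2 hAB
  have sqtB := sq_of_anti_right h2 htB
  have h : t * B * t = B := by
    apply mul_right_cancel (b := B)
    rw [sqB, ← sqtB]; group
  have h' : B * t⁻¹ = t * B := by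
    calc B * t⁻¹ = (t * B * t) * t⁻¹ := by rw [h]
      _ = t * B := by group
  calc t * B * t⁻¹ = t * (B * t⁻¹) := by group
    _ = t * (t * B) := by rw [h']
    _ = t * t * B := by group

/-- The stabiliser of an anticommuting pair is the centre. -/
theorem stab_central [Fintype F] (hodd : Odd (Fintype.card F))
    {A B g : Matrix.SpecialLinearGroup (Fin 2) F} (hAB : Anti A B)
    (h1 : g * A * g⁻¹ = A) (h2 : g * B * g⁻¹ = B) :
    g ∈ Subgroup.center (Matrix.SpecialLinearGroup (Fin 2) F) := by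
  have h2F := two_ne_zero_of_odd hodd
  have hgA : g * A = A * g := mul_inv_eq_iff_eq_mul.mp h1
  have h3 := conj_by_comm h2F hAB hgA
  rw [h2] at h3
  have hgg : g * g = 1 := mul_right_cancel (b := B) (by rw [← h3, one_mul])
  exact S0807.central_of_sq_one hodd g hgg

/-- If 2 is not a square, `(A, B)` and `(A, AB)` are not conjugate. -/
theorem not_pconj_prod (h2F : (2 : F) ≠ 0) (hns : ¬ IsSquare (2 : F))
    {A B : Matrix.SpecialLinearGroup (Fin 2) F} (hAB : Anti A B) : ¬ PConj A B A (A * B) := by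
  rintro ⟨g, h1, h2⟩
  have hgA : g * A = A * g := mul_inv_eq_iff_eq_mul.mp h1
  have h3 := conj_by_comm h2F hAB hgA
  rw [h2] at h3
  have hgg : g * g = A := (mul_right_cancel h3).symm
  have htrA : (A : Matrix (Fin 2) (Fin 2) F).trace = 0 :=
    S0807.anti_trace h2F B A (S0807.anti_symm A B hAB)
  obtain ⟨a, b, c, d, hg, hdet⟩ := sl2_eta g
  rw [← hgg, Matrix.SpecialLinearGroup.coe_mul, hg, Matrix.mul_fin_two,
    Matrix.trace_fin_two_of] at htrA
  exact hns ⟨a + d, by linear_combination (-1 : F) * htrA - 2 * hdet⟩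

/-- If 2 is a square, every trace zero element is the square of an element commuting with it. -/
theorem exists_sqrt_elt (s : F) (hs : (2 : F) = s * s) (h2F : (2 : F) ≠ 0)
    (X : Matrix.SpecialLinearGroup (Fin 2) F) (hX : (X : Matrix (Fin 2) (Fin 2) F).trace = 0) :
    ∃ t : Matrix.SpecialLinearGroup (Fin 2) F, t * X = X * t ∧ t * t = X := by
  have hs0 : s ≠ 0 := by
    intro h0
    apply h2F
    rw [hs, h0, mul_zero]
  have hss : s * s⁻¹ = 1 := mul_inv_cancel₀ hs0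
  have hσ : s⁻¹ ^ 2 * 2 = 1 := by linear_combination s⁻¹ ^ 2 * hs + (s * s⁻¹ + 1) * hss
  obtain ⟨a, b, c, d, hXm, hdetX⟩ := sl2_eta X
  have htr : a + d = 0 := by
    rw [hXm, Matrix.trace_fin_two_of] at hX; exact hX
  have hdet : (1 + a) * s⁻¹ * ((1 + d) * s⁻¹) - b * s⁻¹ * (c * s⁻¹) = 1 := by
    linear_combination hσ + s⁻¹ ^ 2 * htr + s⁻¹ ^ 2 * hdetX
  refine ⟨sl2mk ((1 + a) * s⁻¹) (b * s⁻¹) (c * s⁻¹) ((1 + d) * s⁻¹) hdet, ?_, ?_⟩
  · rw [sl2_mul_eq_iff, hXm, sl2mk_val, Matrix.mul_fin_two, Matrix.mul_fin_two]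
    apply S5016.mat2_ext <;> ring
  · apply Subtype.ext
    rw [Matrix.SpecialLinearGroup.coe_mul, hXm, sl2mk_val, Matrix.mul_fin_two]
    apply S5016.mat2_ext
    · linear_combination a * hσ + s⁻¹ ^ 2 * a * htr - s⁻¹ ^ 2 * hdetX
    · linear_combination b * hσ + s⁻¹ ^ 2 * b * htr
    · linear_combination c * hσ + s⁻¹ ^ 2 * c * htr
    · linear_combination d * hσ + s⁻¹ ^ 2 * d * htr - s⁻¹ ^ 2 * hdetX

theorem mv1 {X Y : Matrix.SpecialLinearGroup (Fin 2) F} (h : Anti X Y) :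
    PConj X Y X (sl2NegOne * Y) :=
  ⟨X, by group, by rw [h]; group⟩

theorem mv2 {X Y : Matrix.SpecialLinearGroup (Fin 2) F} (h : Anti X Y) :
    PConj X Y (sl2NegOne * X) Y :=
  ⟨Y, by rw [S0807.anti_symm X Y h]; group, by group⟩

theorem mv3 (s : F) (hs : (2 : F) = s * s) (h2F : (2 : F) ≠ 0)
    {X Y : Matrix.SpecialLinearGroup (Fin 2) F} (h : Anti X Y) : PConj X Y X (X * Y) := by
  have htrX : (X : Matrix (Fin 2) (Fin 2) F).trace = 0 :=
    S0807.anti_trace h2F Y X (S0807.anti_symm X Y h)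
  obtain ⟨t, htX, htt⟩ := exists_sqrt_elt s hs h2F X htrX
  refine ⟨t, mul_inv_eq_iff_eq_mul.mpr htX, ?_⟩
  rw [conj_by_comm h2F h htX, htt]

theorem mv4 (s : F) (hs : (2 : F) = s * s) (h2F : (2 : F) ≠ 0)
    {X Y : Matrix.SpecialLinearGroup (Fin 2) F} (h : Anti X Y) :
    PConj X Y Y (sl2NegOne * X) := by
  have hZX : Anti (X * Y) X := anti_prod_left h2F h
  have hZY : Anti (X * Y) Y := anti_prod_right h2F h
  have htrZ : ((X * Y : Matrix.SpecialLinearGroup (Fin 2) F) : Matrix (Fin 2) (Fin 2) F).trace = 0 :=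
    S0807.anti_trace h2F X (X * Y) (anti_mul_right h2F h)
  obtain ⟨t, htZ, htt⟩ := exists_sqrt_elt s hs h2F (X * Y) htrZ
  refine ⟨t, ?_, ?_⟩
  · rw [conj_by_comm h2F hZX htZ, htt]
    exact mul_mul_self_of_anti h2F h
  · rw [conj_by_comm h2F hZY htZ, htt, mul_assoc, sq_of_anti_right h2F h]
    exact S0807.negOne_comm X

theorem sw (s : F) (hs : (2 : F) = s * s) (h2F : (2 : F) ≠ 0)
    {X Y : Matrix.SpecialLinearGroup (Fin 2) F} (h : Anti X Y) : PConj X Y Y X := by
  have h1 := mv4 s hs h2F h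
  have h2 := mv1 (anti_pconj h h1)
  rw [negOne_sq_mul] at h2
  exact pconj_trans h1 h2

theorem mvYX (s : F) (hs : (2 : F) = s * s) (h2F : (2 : F) ≠ 0)
    {X Y : Matrix.SpecialLinearGroup (Fin 2) F} (h : Anti X Y) : PConj X Y X (Y * X) := by
  have h1 := mv3 s hs h2F h
  have h2 := mv1 (anti_pconj h h1)
  have e : sl2NegOne * (X * Y) = Y * X := by
    rw [h]; exact negOne_sq_mul _
  rw [e] at h2
  exact pconj_trans h1 h2

theorem signs {X Y : Matrix.SpecialLinearGroup (Fin 2) F} (h : Anti X Y)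
    {X' Y' : Matrix.SpecialLinearGroup (Fin 2) F}
    (hX : X' = X ∨ X' = sl2NegOne * X) (hY : Y' = Y ∨ Y' = sl2NegOne * Y) : PConj X Y X' Y' := by
  rcases hX with hX | hX <;> rcases hY with hY | hY <;> rw [hX, hY]
  · exact pconj_refl _ _
  · exact mv1 h
  · exact mv2 h
  · exact pconj_trans (mv1 h) (mv2 (anti_pconj h (mv1 h)))

theorem lift_cases (X A' : Matrix.SpecialLinearGroup (Fin 2) F) (h : pr A' = pr X) :
    A' = X ∨ A' = sl2NegOne * X := by
  have hz : X⁻¹ * A' ∈ Subgroup.center (Matrix.SpecialLinearGroup (Fin 2) F) :=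
    QuotientGroup.eq.mp h.symm
  rcases sl2_center_cases _ hz with h1 | h1
  · left
    exact (inv_mul_eq_one.mp h1).symm
  · right
    calc A' = X * (X⁻¹ * A') := by group
      _ = X * sl2NegOne := by rw [h1]
      _ = sl2NegOne * X := S0807.negOne_comm X

/-- If 2 is a square, all anticommuting pairs over the same four-group are conjugate. -/
theorem fiber_conj [Fintype F] (hodd : Odd (Fintype.card F)) (s : F) (hs : (2 : F) = s * s)
    {A B A' B' : Matrix.SpecialLinearGroup (Fin 2) F} (hAB : Anti A B) (hA'B' : Anti A' B')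
    (hA' : pr A' = pr A ∨ pr A' = pr B ∨ pr A' = pr (A * B))
    (hB' : pr B' = pr A ∨ pr B' = pr B ∨ pr B' = pr (A * B)) : PConj A B A' B' := by
  have h2F := two_ne_zero_of_odd hodd
  have hne : pr A' ≠ pr B' := (S0807.kpair_of_anti h2F A' B' hA'B').2.2.1
  have b2 : PConj A B A (A * B) := mv3 s hs h2F hAB
  have b3 : PConj A B B A := sw s hs h2F hAB
  have b4 : PConj A B B (A * B) := pconj_trans b3 (mvYX s hs h2F (anti_pconj hAB b3))
  have b5 : PConj A B (A * B) A := pconj_trans b2 (sw s hs h2F (anti_pconj hAB b2))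
  have b6 : PConj A B (A * B) B := pconj_trans b4 (sw s hs h2F (anti_pconj hAB b4))
  have key : ∀ {X Y : Matrix.SpecialLinearGroup (Fin 2) F}, PConj A B X Y → pr A' = pr X →
      pr B' = pr Y → PConj A B A' B' := by
    intro X Y hb h1 h2
    exact pconj_trans hb (signs (anti_pconj hAB hb) (lift_cases X A' h1) (lift_cases Y B' h2))
  rcases hA' with h1 | h1 | h1 <;> rcases hB' with h2 | h2 | h2
  · exact absurd (h1.trans h2.symm) hne
  · exact key (pconj_refl A B) h1 h2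
  · exact key b2 h1 h2
  · exact key b3 h1 h2
  · exact absurd (h1.trans h2.symm) hne
  · exact key b4 h1 h2
  · exact key b5 h1 h2
  · exact key b6 h1 h2
  · exact absurd (h1.trans h2.symm) hne

/-- Simultaneous conjugation of a pair. -/
def cj (w : Matrix.SpecialLinearGroup (Fin 2) F × Matrix.SpecialLinearGroup (Fin 2) F)
    (g : Matrix.SpecialLinearGroup (Fin 2) F) :
    Matrix.SpecialLinearGroup (Fin 2) F × Matrix.SpecialLinearGroup (Fin 2) F :=
  (g * w.1 * g⁻¹, g * w.2 * g⁻¹)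

theorem mem_range_iff
    (w w' : Matrix.SpecialLinearGroup (Fin 2) F × Matrix.SpecialLinearGroup (Fin 2) F) :
    w' ∈ Set.range (cj w) ↔ PConj w.1 w.2 w'.1 w'.2 := by
  constructor
  · rintro ⟨g, rfl⟩
    exact ⟨g, rfl, rfl⟩
  · rintro ⟨g, h1, h2⟩
    exact ⟨g, Prod.ext h1 h2⟩

theorem range_subset
    {w : Matrix.SpecialLinearGroup (Fin 2) F × Matrix.SpecialLinearGroup (Fin 2) F}
    (hw : Anti w.1 w.2) :
    Set.range (cj w) ⊆ {w' : Matrix.SpecialLinearGroup (Fin 2) F ×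
      Matrix.SpecialLinearGroup (Fin 2) F | Anti w'.1 w'.2} := by
  rintro _ ⟨g, rfl⟩
  exact S0807.anti_conj _ _ g hw

/-- Every orbit of anticommuting pairs has `|SL₂| / 2` elements. -/
theorem card_orbit [Fintype F] (hodd : Odd (Fintype.card F))
    (w : Matrix.SpecialLinearGroup (Fin 2) F × Matrix.SpecialLinearGroup (Fin 2) F)
    (hw : Anti w.1 w.2) :
    2 * (Set.range (cj w)).ncard = Nat.card (Matrix.SpecialLinearGroup (Fin 2) F) := by
  have h2F := two_ne_zero_of_odd hodd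
  have key : ∀ y : Set.range (cj w),
      Nat.card {g : Matrix.SpecialLinearGroup (Fin 2) F // Set.rangeFactorization (cj w) g = y} = 2 := by
    rintro ⟨y, g₀, rfl⟩
    have hto : ∀ g : Matrix.SpecialLinearGroup (Fin 2) F, cj w g = cj w g₀ →
        g₀⁻¹ * g ∈ Subgroup.center (Matrix.SpecialLinearGroup (Fin 2) F) := by
      intro g hg
      have e1 : g * w.1 * g⁻¹ = g₀ * w.1 * g₀⁻¹ := congrArg Prod.fst hg
      have e2 : g * w.2 * g⁻¹ = g₀ * w.2 * g₀⁻¹ := congrArg Prod.snd hg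
      apply stab_central hodd hw
      · calc (g₀⁻¹ * g) * w.1 * (g₀⁻¹ * g)⁻¹ = g₀⁻¹ * (g * w.1 * g⁻¹) * g₀ := by group
          _ = g₀⁻¹ * (g₀ * w.1 * g₀⁻¹) * g₀ := by rw [e1]
          _ = w.1 := by group
      · calc (g₀⁻¹ * g) * w.2 * (g₀⁻¹ * g)⁻¹ = g₀⁻¹ * (g * w.2 * g⁻¹) * g₀ := by group
          _ = g₀⁻¹ * (g₀ * w.2 * g₀⁻¹) * g₀ := by rw [e2]
          _ = w.2 := by group
    have hfrom : ∀ z : Matrix.SpecialLinearGroup (Fin 2) F,
        z ∈ Subgroup.center (Matrix.SpecialLinearGroup (Fin 2) F) → cj w (g₀ * z) = cj w g₀ := by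
      intro z hz
      have hc := Subgroup.mem_center_iff.mp hz
      apply Prod.ext
      · show (g₀ * z) * w.1 * (g₀ * z)⁻¹ = g₀ * w.1 * g₀⁻¹
        calc (g₀ * z) * w.1 * (g₀ * z)⁻¹ = g₀ * (z * w.1) * z⁻¹ * g₀⁻¹ := by group
          _ = g₀ * (w.1 * z) * z⁻¹ * g₀⁻¹ := by rw [hc w.1]
          _ = g₀ * w.1 * g₀⁻¹ := by group
      · show (g₀ * z) * w.2 * (g₀ * z)⁻¹ = g₀ * w.2 * g₀⁻¹
        calc (g₀ * z) * w.2 * (g₀ * z)⁻¹ = g₀ * (z * w.2) * z⁻¹ * g₀⁻¹ := by group
          _ = g₀ * (w.2 * z) * z⁻¹ * g₀⁻¹ := by rw [hc w.2]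
          _ = g₀ * w.2 * g₀⁻¹ := by group
    refine (Nat.card_congr ?_).trans (sl2_center_card_odd h2F)
    exact
      { toFun := fun x => ⟨g₀⁻¹ * x.1, hto x.1 (congrArg Subtype.val x.2)⟩
        invFun := fun z => ⟨g₀ * z.1, Subtype.ext (hfrom z.1 z.2)⟩
        left_inv := fun x => Subtype.ext (mul_inv_cancel_left g₀ x.1)
        right_inv := fun z => Subtype.ext (inv_mul_cancel_left g₀ z.1) }
  have e := S0807.card_sigma_const
    (fun y : Set.range (cj w) =>
      {g : Matrix.SpecialLinearGroup (Fin 2) F // Set.rangeFactorization (cj w) g = y}) 2 key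
  rw [Nat.card_congr (Equiv.sigmaFiberEquiv (Set.rangeFactorization (cj w)))] at e
  rw [e, Nat.card_coe_set_eq]

theorem omega_ncard [Fintype F] (hodd : Odd (Fintype.card F)) :
    {w : Matrix.SpecialLinearGroup (Fin 2) F × Matrix.SpecialLinearGroup (Fin 2) F |
      Anti w.1 w.2}.ncard = Nat.card (Matrix.SpecialLinearGroup (Fin 2) F) := by
  rw [← Nat.card_coe_set_eq]
  exact S0807.card_omega hodd

/-- There are exactly two orbits of anticommuting pairs. -/
theorem two_orbits [Fintype F] (hodd : Odd (Fintype.card F))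
    {A₁ B₁ A₂ B₂ A B : Matrix.SpecialLinearGroup (Fin 2) F} (h1 : Anti A₁ B₁) (h2 : Anti A₂ B₂)
    (hne : ¬ PConj A₁ B₁ A₂ B₂) (h : Anti A B) : PConj A₁ B₁ A B ∨ PConj A₂ B₂ A B := by
  have c1 := card_orbit hodd (A₁, B₁) h1
  have c2 := card_orbit hodd (A₂, B₂) h2
  have hdisj : Disjoint (Set.range (cj (A₁, B₁))) (Set.range (cj (A₂, B₂))) := by
    rw [Set.disjoint_left]
    intro w hw1 hw2
    apply hne
    have p1 : PConj A₁ B₁ w.1 w.2 := (mem_range_iff (A₁, B₁) w).mp hw1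
    have p2 : PConj A₂ B₂ w.1 w.2 := (mem_range_iff (A₂, B₂) w).mp hw2
    exact pconj_trans p1 (pconj_symm p2)
  have hunion := Set.ncard_union_eq hdisj
  have hsub : Set.range (cj (A₁, B₁)) ∪ Set.range (cj (A₂, B₂)) ⊆
      {w' : Matrix.SpecialLinearGroup (Fin 2) F × Matrix.SpecialLinearGroup (Fin 2) F |
        Anti w'.1 w'.2} :=
    Set.union_subset (range_subset h1) (range_subset h2)
  have heq := Set.eq_of_subset_of_ncard_le hsub (by rw [omega_ncard hodd, hunion]; omega)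
  have hmem : ((A, B) : Matrix.SpecialLinearGroup (Fin 2) F × Matrix.SpecialLinearGroup (Fin 2) F) ∈
      Set.range (cj (A₁, B₁)) ∪ Set.range (cj (A₂, B₂)) := by
    rw [heq]; exact h
  rcases hmem with hm | hm
  · left; exact (mem_range_iff (A₁, B₁) (A, B)).mp hm
  · right; exact (mem_range_iff (A₂, B₂) (A, B)).mp hm

theorem exists_nonconj [Fintype F] (hodd : Odd (Fintype.card F))
    {A₁ B₁ : Matrix.SpecialLinearGroup (Fin 2) F} (h1 : Anti A₁ B₁) :
    ∃ A₂ B₂ : Matrix.SpecialLinearGroup (Fin 2) F, Anti A₂ B₂ ∧ ¬ PConj A₁ B₁ A₂ B₂ := by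
  by_contra hcon
  have hcon' : ∀ A₂ B₂ : Matrix.SpecialLinearGroup (Fin 2) F, Anti A₂ B₂ → PConj A₁ B₁ A₂ B₂ := by
    intro A₂ B₂ h2
    by_contra h3
    exact hcon ⟨A₂, B₂, h2, h3⟩
  have c1 := card_orbit hodd (A₁, B₁) h1
  have heq : Set.range (cj (A₁, B₁)) =
      {w' : Matrix.SpecialLinearGroup (Fin 2) F × Matrix.SpecialLinearGroup (Fin 2) F |
        Anti w'.1 w'.2} := by
    apply Set.Subset.antisymm (range_subset h1)
    intro w hw
    exact (mem_range_iff (A₁, B₁) w).mpr (hcon' w.1 w.2 hw)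
  rw [heq, omega_ncard hodd] at c1
  have hpos : 0 < Nat.card (Matrix.SpecialLinearGroup (Fin 2) F) := Nat.card_pos
  omega

/-- Every four-group of `PSL₂` is covered by an anticommuting pair. -/
theorem exists_pair_over [Fintype F] (hodd : Odd (Fintype.card F))
    (V : Subgroup (Matrix.ProjectiveSpecialLinearGroup (Fin 2) F)) [IsKleinFour V] :
    ∃ A B : Matrix.SpecialLinearGroup (Fin 2) F, Anti A B ∧ pr A ∈ V ∧ pr B ∈ V := by
  have h6 := S0807.card_pairs_six V 1 IsKleinFour.card_four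
  have hpos : 0 < Nat.card {p : V × V // p.1 ≠ 1 ∧ p.2 ≠ 1 ∧ p.1 ≠ p.2} := by
    rw [h6]; norm_num
  obtain ⟨⟨⟨⟨a, ha⟩, ⟨b, hb⟩⟩, h1, h2, h3⟩⟩ := (Nat.card_pos_iff.mp hpos).1
  obtain ⟨A, rfl⟩ := QuotientGroup.mk_surjective a
  obtain ⟨B, rfl⟩ := QuotientGroup.mk_surjective b
  refine ⟨A, B, ?_, ha, hb⟩
  exact S0807.anti_of_kpair hodd A B (fun h => h1 (Subtype.ext h)) (fun h => h2 (Subtype.ext h))
    (fun h => h3 (Subtype.ext h)) (S0807.klein_mul_self V _ ha) (S0807.klein_mul_self V _ hb)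
    (S0807.klein_comm V _ _ ha hb)

/-- A conjugating element of `SL₂` carrying a pair over `V` to a pair over `W` conjugates `V` to `W`. -/
theorem conj_of_pair [Fintype F] (hodd : Odd (Fintype.card F))
    (V W : Subgroup (Matrix.ProjectiveSpecialLinearGroup (Fin 2) F)) [IsKleinFour V] [IsKleinFour W]
    {A B : Matrix.SpecialLinearGroup (Fin 2) F} (g : Matrix.SpecialLinearGroup (Fin 2) F)
    (hAB : Anti A B) (hA : pr A ∈ V) (hB : pr B ∈ V)
    (hA' : pr (g * A * g⁻¹) ∈ W) (hB' : pr (g * B * g⁻¹) ∈ W) :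
    W = V.map (MulAut.conj (pr g)).toMonoidHom := by
  have h2F := two_ne_zero_of_odd hodd
  obtain ⟨k1, k2, k3, -, -, -⟩ := S0807.kpair_of_anti h2F A B hAB
  symm
  apply Subgroup.eq_of_le_of_card_ge
  · rw [Subgroup.map_le_iff_le_comap]
    intro v hv
    show (MulAut.conj (pr g)).toMonoidHom v ∈ W
    rcases S0807.klein_mem_cases V (pr A) (pr B) hA hB k1 k2 k3 v hv with h | h | h | h
    · rw [h, map_one]; exact W.one_mem
    · rw [h]; exact hA'
    · rw [h]; exact hB'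
    · rw [h, map_mul]; exact W.mul_mem hA' hB'
  · apply le_of_eq
    rw [Subgroup.card_map_of_injective (MulAut.conj (pr g)).injective, IsKleinFour.card_four,
      IsKleinFour.card_four]

theorem kv_mem_left {G : Type*} [Group G] (a b : G) (haa : a * a = 1) (hbb : b * b = 1)
    (hab : a * b = b * a) : a ∈ S0807.kv a b haa hbb hab := Or.inr (Or.inl rfl)

theorem kv_mem_right {G : Type*} [Group G] (a b : G) (haa : a * a = 1) (hbb : b * b = 1)
    (hab : a * b = b * a) : b ∈ S0807.kv a b haa hbb hab := Or.inr (Or.inr (Or.inl rfl))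

/-- Conjugacy classes of four-groups in PSL_2(q), q odd: if q ≡ 3 or 5 (mod 8) all Klein four-subgroups are conjugate; if q ≡ 1 or 7 (mod 8) there are two Klein four-subgroups which are not conjugate, and every Klein four-subgroup is conjugate to one of them. -/
theorem result {F : Type*} [Field F] [Fintype F] {q : ℕ} (hF : Fintype.card F = q) (hodd : Odd q) : ((q % 8 = 3 ∨ q % 8 = 5) → ∀ V W : Subgroup (Matrix.ProjectiveSpecialLinearGroup (Fin 2) F), IsKleinFour V → IsKleinFour W → ∃ g : Matrix.ProjectiveSpecialLinearGroup (Fin 2) F, W = V.map (MulAut.conj g).toMonoidHom) ∧ ((q % 8 = 1 ∨ q % 8 = 7) → ∃ V₁ V₂ : Subgroup (Matrix.ProjectiveSpecialLinearGroup (Fin 2) F), IsKleinFour V₁ ∧ IsKleinFour V₂ ∧ (¬ ∃ g : Matrix.ProjectiveSpecialLinearGroup (Fin 2) F, V₂ = V₁.map (MulAut.conj g).toMonoidHom) ∧ ∀ W : Subgroup (Matrix.ProjectiveSpecialLinearGroup (Fin 2) F), IsKleinFour W → (∃ g : Matrix.ProjectiveSpecialLinearGroup (Fin 2) F,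 W = V₁.map (MulAut.conj g).toMonoidHom) ∨ (∃ g : Matrix.ProjectiveSpecialLinearGroup (Fin 2) F, W = V₂.map (MulAut.conj g).toMonoidHom)) := by
  subst hF
  have h2F : (2 : F) ≠ 0 := two_ne_zero_of_odd hodd
  have hsq := FiniteField.isSquare_two_iff (F := F)
  constructor
  · intro hq V W hV hW
    have hns : ¬ IsSquare (2 : F) := by
      rw [hsq]; omega
    obtain ⟨A, B, hAB, hA, hB⟩ := exists_pair_over hodd V
    obtain ⟨A', B', hA'B', hA', hB'⟩ := exists_pair_over hodd W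
    have hAP : Anti A (A * B) := anti_mul_right h2F hAB
    have hnc : ¬ PConj A B A (A * B) := not_pconj_prod h2F hns hAB
    rcases two_orbits hodd hAB hAP hnc hA'B' with ⟨g, h1, h2⟩ | ⟨g, h1, h2⟩
    · refine ⟨pr g, conj_of_pair hodd V W g hAB hA hB ?_ ?_⟩
      · rw [h1]; exact hA'
      · rw [h2]; exact hB'
    · refine ⟨pr g, conj_of_pair hodd V W g hAP hA (V.mul_mem hA hB) ?_ ?_⟩
      · rw [h1]; exact hA'
      · rw [h2]; exact hB'
  · intro hq
    have hs2 : IsSquare (2 : F) := by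
      rw [hsq]; omega
    obtain ⟨s, hs⟩ := hs2
    have hpos : 0 < Nat.card (S0807.Omega F) := by
      rw [S0807.card_omega hodd]; exact Nat.card_pos
    obtain ⟨⟨⟨A₁, B₁⟩, h1'⟩⟩ := (Nat.card_pos_iff.mp hpos).1
    have h1 : Anti A₁ B₁ := h1'
    obtain ⟨A₂, B₂, h2, hne⟩ := exists_nonconj hodd h1
    obtain ⟨k1, k2, k3, k4, k5, k6⟩ := S0807.kpair_of_anti h2F A₁ B₁ h1
    obtain ⟨l1, l2, l3, l4, l5, l6⟩ := S0807.kpair_of_anti h2F A₂ B₂ h2
    have hV₁ := S0807.isKleinFour_kv (pr A₁) (pr B₁) k4 k5 k6 k1 k2 k3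
    have hV₂ := S0807.isKleinFour_kv (pr A₂) (pr B₂) l4 l5 l6 l1 l2 l3
    refine ⟨S0807.kv (pr A₁) (pr B₁) k4 k5 k6, S0807.kv (pr A₂) (pr B₂) l4 l5 l6, hV₁, hV₂, ?_, ?_⟩
    · rintro ⟨gbar, hg⟩
      obtain ⟨g, rfl⟩ := QuotientGroup.mk_surjective gbar
      have hA' : pr (g * A₁ * g⁻¹) ∈ S0807.kv (pr A₂) (pr B₂) l4 l5 l6 := by
        rw [hg]
        exact Subgroup.mem_map_of_mem _ (kv_mem_left (pr A₁) (pr B₁) k4 k5 k6)
      have hB' : pr (g * B₁ * g⁻¹) ∈ S0807.kv (pr A₂) (pr B₂) l4 l5 l6 := by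
        rw [hg]
        exact Subgroup.mem_map_of_mem _ (kv_mem_right (pr A₁) (pr B₁) k4 k5 k6)
      have hanti : Anti (g * A₁ * g⁻¹) (g * B₁ * g⁻¹) := S0807.anti_conj A₁ B₁ g h1
      obtain ⟨m1, m2, -, -, -, -⟩ := S0807.kpair_of_anti h2F _ _ hanti
      have c1 : pr (g * A₁ * g⁻¹) = pr A₂ ∨ pr (g * A₁ * g⁻¹) = pr B₂ ∨
          pr (g * A₁ * g⁻¹) = pr (A₂ * B₂) := by
        rcases S0807.mem_kv.mp hA' with h | h | h | h
        · exact absurd h m1
        · exact Or.inl h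
        · exact Or.inr (Or.inl h)
        · exact Or.inr (Or.inr h)
      have c2 : pr (g * B₁ * g⁻¹) = pr A₂ ∨ pr (g * B₁ * g⁻¹) = pr B₂ ∨
          pr (g * B₁ * g⁻¹) = pr (A₂ * B₂) := by
        rcases S0807.mem_kv.mp hB' with h | h | h | h
        · exact absurd h m2
        · exact Or.inl h
        · exact Or.inr (Or.inl h)
        · exact Or.inr (Or.inr h)
      have hp := fiber_conj hodd s hs h2 hanti c1 c2
      exact hne (pconj_trans ⟨g, rfl, rfl⟩ (pconj_symm hp))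
    · intro W hW
      obtain ⟨A', B', hA'B', hA', hB'⟩ := exists_pair_over hodd W
      rcases two_orbits hodd h1 h2 hne hA'B' with ⟨g, e1, e2⟩ | ⟨g, e1, e2⟩
      · left
        refine ⟨pr g, conj_of_pair hodd (S0807.kv (pr A₁) (pr B₁) k4 k5 k6) W g h1
          (kv_mem_left _ _ k4 k5 k6) (kv_mem_right _ _ k4 k5 k6) ?_ ?_⟩
        · rw [e1]; exact hA'
        · rw [e2]; exact hB'
      · right
        refine ⟨pr g, conj_of_pair hodd (S0807.kv (pr A₂) (pr B₂) l4 l5 l6) W g h2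
          (kv_mem_left _ _ l4 l5 l6) (kv_mem_right _ _ l4 l5 l6) ?_ ?_⟩
        · rw [e1]; exact hA'
        · rw [e2]; exact hB'

end Cfsg.Agent.S0808
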