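import Cfsg.Statements.S0812
import Cfsg.Agent.Helper18.DicksonTorus3
-- import your own Cfsg.Agent.* helpers here

set_option autoImplicit false
open Cfsg

namespace Cfsg.Agent.S0812

/-- For q ∉ {2, 3, 5, 7, 9, 11}, PSL_2(q) has a maximal subgroup isomorphic to the dihedral group of order 2(q − 1)/d, d = gcd(2, q − 1). -/
theorem result {F : Type*} [Field F] [Fintype F] {q : ℕ} (hF : Fintype.card F = q) (hq : q ∉ ({2, 3, 5, 7, 9, 11} : Finset ℕ)) : ∃ H : Subgroup (Matrix.ProjectiveSpecialLinearGroup (Fin 2) F), IsCoatom H ∧ Nonempty (H ≃* DihedralGroup ((q - 1) / Nat.gcd 2 (q - 1))) := by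
  subst hF
  simp only [Finset.mem_insert, Finset.mem_singleton, not_or] at hq
  obtain ⟨hpo, hpe⟩ := Cfsg.Agent.Helper18.Dickson.field_parity (K := F)
  have hq2 : 2 ≤ Fintype.card F := Fintype.one_lt_card
  have hodd : (2 : F) ≠ 0 → 13 ≤ Fintype.card F := by
    intro h2
    obtain ⟨j, hj⟩ := hpo h2
    omega
  have h4 : 4 ≤ Fintype.card F := by
    by_cases h2 : (2 : F) = 0
    · obtain ⟨j, hj⟩ := hpe h2
      omega
    · have := hodd h2
      omega
  exact Cfsg.Agent.Helper18.Dickson.split_dihedral h4 hodd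

end Cfsg.Agent.S0812
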