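import Mathlib
import Cfsg.Statements.S0819
import Cfsg.Agent.Helper4.F4

set_option autoImplicit false
open Cfsg

namespace Cfsg.Agent.S0819

open Cfsg.Agent.Helper4

/-- coefficients `(a, b, c)` of `x^k = a x² + b x + c` modulo `x³ = t x² + s x + 1` -/
def pw {R : Type*} [CommRing R] (t s : R) : ℕ → R × R × R
  | 0 => (0, 0, 1)
  | k + 1 => ((pw t s k).2.1 + t * (pw t s k).1, (pw t s k).2.2 + s * (pw t s k).1,
      (pw t s k).1)

theorem pw_spec {R : Type*} [CommRing R] {n : Type*} [Fintype n] [DecidableEq n]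
    (A : Matrix n n R) (t s : R) (h : A ^ 3 = t • A ^ 2 + s • A + 1) (k : ℕ) :
    A ^ k = (pw t s k).1 • A ^ 2 + (pw t s k).2.1 • A
      + (pw t s k).2.2 • (1 : Matrix n n R) := by
  induction k with
  | zero => simp [pw]
  | succ k ih =>
    rw [pow_succ, ih]
    show _ = ((pw t s k).2.1 + t * (pw t s k).1) • A ^ 2
      + ((pw t s k).2.2 + s * (pw t s k).1) • A + (pw t s k).1 • (1 : Matrix n n R)
    generalize (pw t s k).1 = a
    generalize (pw t s k).2.1 = b
    generalize (pw t s k).2.2 = c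
    have h3 : A ^ 2 * A = A ^ 3 := by rw [← pow_succ]
    have h2 : A * A = A ^ 2 := by rw [pow_two]
    rw [add_mul, add_mul, smul_mul_assoc, smul_mul_assoc, smul_mul_assoc, one_mul, h3, h2, h]
    module

theorem pw_map {R S : Type*} [CommRing R] [CommRing S] (f : R →+* S) (t s : R) (k : ℕ) :
    pw (f t) (f s) k = (f (pw t s k).1, f (pw t s k).2.1, f (pw t s k).2.2) := by
  induction k with
  | zero => simp [pw]
  | succ k ih => simp [pw, ih]

theorem tri4 : ∀ t s : F4, pw t s 12 = (0, 0, 1) ∨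
    ((pw t s 5).1 = 0 ∧ (pw t s 5).2.1 = 0) ∨ pw t s 63 = (0, 0, 1) := by
  decide +kernel

theorem tri {F : Type*} [Field F] [Fintype F] (hF : Fintype.card F = 4) (t s : F) :
    pw t s 12 = (0, 0, 1) ∨ ((pw t s 5).1 = 0 ∧ (pw t s 5).2.1 = 0) ∨
      pw t s 63 = (0, 0, 1) := by
  have e := toF4 hF
  have key : ∀ k, pw (e t) (e s) k = (e (pw t s k).1, e (pw t s k).2.1, e (pw t s k).2.2) :=
    fun k => pw_map (e : F →+* F4) t s k
  have hback : ∀ k, pw (e t) (e s) k = (0, 0, 1) → pw t s k = (0, 0, 1) := by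
    intro k hk
    rw [key] at hk
    have h1 : e (pw t s k).1 = 0 := congrArg Prod.fst hk
    have h2 : e (pw t s k).2.1 = 0 := congrArg (fun x : F4 × F4 × F4 => x.2.1) hk
    have h3 : e (pw t s k).2.2 = 1 := congrArg (fun x : F4 × F4 × F4 => x.2.2) hk
    exact Prod.ext (e.injective (h1.trans (map_zero e).symm))
      (Prod.ext (e.injective (h2.trans (map_zero e).symm))
        (e.injective (h3.trans (map_one e).symm)))
  rcases tri4 (e t) (e s) with h | h | h
  · exact Or.inl (hback 12 h)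
  · right; left
    rw [key] at h
    exact ⟨e.injective (h.1.trans (map_zero e).symm), e.injective (h.2.trans (map_zero e).symm)⟩
  · exact Or.inr (Or.inr (hback 63 h))

theorem ch3 {F : Type*} [Field F] (h2 : (2 : F) = 0) (A : Matrix (Fin 3) (Fin 3) F)
    (hdet : A.det = 1) : ∃ t s : F, A ^ 3 = t • A ^ 2 + s • A + 1 := by
  have hmon := Matrix.charpoly_monic A
  have hdeg : A.charpoly.natDegree = 3 := by
    rw [Matrix.charpoly_natDegree_eq_dim]; rfl
  have hsum := hmon.as_sum
  rw [hdeg] at hsum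
  have hch := Matrix.aeval_self_charpoly A
  rw [hsum] at hch
  have hc0 : A.charpoly.coeff 0 = 1 := by
    have h := Matrix.det_eq_sign_charpoly_coeff A
    rw [hdet] at h
    have hneg : (-1 : F) = 1 := by linear_combination (-1 : F) * h2
    rw [hneg, one_pow, one_mul] at h
    exact h.symm
  simp only [Finset.sum_range_succ, Finset.sum_range_zero, zero_add, map_add, map_mul, map_pow,
    Polynomial.aeval_X, Polynomial.aeval_C, pow_zero, pow_one, mul_one, hc0, map_one,
    Algebra.algebraMap_eq_smul_one, smul_mul_assoc, one_mul] at hch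
  refine ⟨A.charpoly.coeff 2, A.charpoly.coeff 1, ?_⟩
  have key : ∀ M : Matrix (Fin 3) (Fin 3) F, M + M = 0 := fun M => by
    rw [← two_smul F M, h2, zero_smul]
  have hS : A ^ 3 + (A.charpoly.coeff 2 • A ^ 2 + A.charpoly.coeff 1 • A + 1) = 0 := by
    rw [← hch]; abel
  calc A ^ 3 = A ^ 3 + ((A.charpoly.coeff 2 • A ^ 2 + A.charpoly.coeff 1 • A + 1)
        + (A.charpoly.coeff 2 • A ^ 2 + A.charpoly.coeff 1 • A + 1)) := by rw [key, add_zero]
    _ = (A ^ 3 + (A.charpoly.coeff 2 • A ^ 2 + A.charpoly.coeff 1 • A + 1))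
        + (A.charpoly.coeff 2 • A ^ 2 + A.charpoly.coeff 1 • A + 1) := by abel
    _ = _ := by rw [hS, zero_add]

/-- No element of PSL_3(4) has order 15. -/
theorem result {F : Type*} [Field F] [Fintype F] (hF : Fintype.card F = 4) (g : Matrix.ProjectiveSpecialLinearGroup (Fin 3) F) : orderOf g ≠ 15 := by
  intro hg
  obtain ⟨a, rfl⟩ := QuotientGroup.mk_surjective g
  have h2 : (2 : F) = 0 := two_eq_zero_of_card hF
  obtain ⟨A, hA⟩ : ∃ A : Matrix (Fin 3) (Fin 3) F, A = (a : Matrix (Fin 3) (Fin 3) F) :=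
    ⟨_, rfl⟩
  have hdet : A.det = 1 := by rw [hA]; exact a.det_coe
  obtain ⟨t, s, hCH⟩ := ch3 h2 A hdet
  have hspec := pw_spec A t s hCH
  have hZ3 : ∀ z ∈ Subgroup.center (Matrix.SpecialLinearGroup (Fin 3) F), z ^ 3 = 1 := by
    intro z hz
    obtain ⟨r, hr, hrz⟩ := Matrix.SpecialLinearGroup.mem_center_iff.1 hz
    have hr3 : r ^ 3 = 1 := by simpa using hr
    apply Subtype.ext
    rw [Matrix.SpecialLinearGroup.coe_pow, ← hrz, ← map_pow, hr3, map_one]; rfl
  have h15 : a ^ 15 ∈ Subgroup.center (Matrix.SpecialLinearGroup (Fin 3) F) := by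
    have h := pow_orderOf_eq_one
      (QuotientGroup.mk a : Matrix.ProjectiveSpecialLinearGroup (Fin 3) F)
    rw [hg, ← QuotientGroup.mk_pow] at h
    exact (QuotientGroup.eq_one_iff _).1 h
  have hmat : ∀ k, A ^ k = 1 → a ^ k = 1 := by
    intro k hk
    apply Subtype.ext
    rw [Matrix.SpecialLinearGroup.coe_pow, ← hA, hk]; rfl
  have hfin : ∀ k, a ^ k ∈ Subgroup.center (Matrix.SpecialLinearGroup (Fin 3) F) →
      k = 3 ∨ k = 5 → False := by
    intro k hk hk35
    have h1 : (QuotientGroup.mk a : Matrix.ProjectiveSpecialLinearGroup (Fin 3) F) ^ k = 1 := by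
      rw [← QuotientGroup.mk_pow]; exact (QuotientGroup.eq_one_iff _).2 hk
    have h3 := orderOf_dvd_of_pow_eq_one h1
    rw [hg] at h3
    rcases hk35 with rfl | rfl <;> omega
  rcases tri hF t s with h | h | h
  · have hA12 : A ^ 12 = 1 := by
      have := hspec 12; rw [h] at this; simpa using this
    have ha12 := hmat 12 hA12
    have h153 : a ^ 15 = a ^ 3 := by
      have : a ^ 15 = a ^ 12 * a ^ 3 := by rw [← pow_add]
      rw [this, ha12, one_mul]
    rw [h153] at h15
    exact hfin 3 h15 (Or.inl rfl)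
  · have hA5 : A ^ 5 = (pw t s 5).2.2 • (1 : Matrix (Fin 3) (Fin 3) F) := by
      have := hspec 5; rw [h.1, h.2] at this; simpa using this
    have hc3 : (pw t s 5).2.2 ^ 3 = 1 := by
      have := congrArg Matrix.det hA5
      rw [Matrix.det_pow, hdet, one_pow, Matrix.det_smul, Matrix.det_one, mul_one] at this
      simpa using this.symm
    have h5 : a ^ 5 ∈ Subgroup.center (Matrix.SpecialLinearGroup (Fin 3) F) := by
      rw [Matrix.SpecialLinearGroup.mem_center_iff]
      refine ⟨(pw t s 5).2.2, by simpa using hc3, ?_⟩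
      rw [Matrix.SpecialLinearGroup.coe_pow, ← hA, hA5, Matrix.scalar_apply,
        Matrix.smul_one_eq_diagonal]
    exact hfin 5 h5 (Or.inr rfl)
  · have hA63 : A ^ 63 = 1 := by
      have := hspec 63; rw [h] at this; simpa using this
    have h63 := hmat 63 hA63
    have h45 : a ^ 45 = 1 := by
      have := hZ3 _ h15
      rwa [← pow_mul] at this
    have h18 : a ^ 18 = 1 := by
      have : a ^ 63 = a ^ 45 * a ^ 18 := by rw [← pow_add]
      rw [h63, h45, one_mul] at this
      exact this.symm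
    have h9 : a ^ 9 = 1 := by
      have : a ^ 45 = a ^ 18 * a ^ 18 * a ^ 9 := by rw [← pow_add, ← pow_add]
      rw [h45, h18, one_mul, one_mul] at this
      exact this.symm
    have h6 : a ^ 6 ∈ Subgroup.center (Matrix.SpecialLinearGroup (Fin 3) F) := by
      have : a ^ 15 = a ^ 9 * a ^ 6 := by rw [← pow_add]
      rw [h9, one_mul] at this
      rw [← this]; exact h15
    have h3 : a ^ 3 ∈ Subgroup.center (Matrix.SpecialLinearGroup (Fin 3) F) := by
      have : a ^ 6 * a ^ 3 = 1 := by rw [← pow_add]; exact h9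
      rw [eq_inv_of_mul_eq_one_right this]
      exact Subgroup.inv_mem _ h6
    exact hfin 3 h3 (Or.inl rfl)

end Cfsg.Agent.S0819
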