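import Mathlib
import Cfsg.Agent.Helper4.F4
import Cfsg.Statements.S0820

set_option autoImplicit false
open Cfsg

namespace Cfsg.Agent.S0820

variable {F : Type*} [Field F]

/-- A nonzero `3 × 3` matrix of square zero has rank one. -/
theorem rank_one (N : Matrix (Fin 3) (Fin 3) F) (hN : N * N = 0) (hN0 : N ≠ 0) :
    ∃ u v : Fin 3 → F, N = Matrix.vecMulVec u v ∧ u ≠ 0 ∧ v ≠ 0 ∧ dotProduct v u = 0 := by
  have hrk : LinearMap.range (Matrix.toLin' N) ≤ LinearMap.ker (Matrix.toLin' N) := by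
    rintro y ⟨x, rfl⟩
    rw [LinearMap.mem_ker, Matrix.toLin'_apply, Matrix.toLin'_apply, Matrix.mulVec_mulVec, hN,
      Matrix.zero_mulVec]
  have hdim := (Matrix.toLin' N).finrank_range_add_finrank_ker
  rw [Module.finrank_fin_fun] at hdim
  have hmono := Submodule.finrank_mono hrk
  have h1 : Module.finrank F (LinearMap.range (Matrix.toLin' N)) ≤ 1 := by omega
  obtain ⟨w, hw⟩ := finrank_le_one_iff.1 h1
  choose c hc using fun j : Fin 3 =>
    hw ⟨Matrix.toLin' N (Pi.single j 1), LinearMap.mem_range_self _ _⟩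
  have hent : ∀ i j, N i j = (w : Fin 3 → F) i * c j := by
    intro i j
    have h := congrFun (congrArg Subtype.val (hc j)) i
    have h' : c j * (w : Fin 3 → F) i = N i j := by
      have e : (Matrix.toLin' N (Pi.single j 1)) i = N i j := by
        rw [Matrix.toLin'_apply]
        simp [Matrix.mulVec, dotProduct, Pi.single_apply]
      rw [← e]
      exact h
    rw [← h', mul_comm]
  have hNuv : N = Matrix.vecMulVec (w : Fin 3 → F) c := by
    ext i j
    rw [Matrix.vecMulVec_apply]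
    exact hent i j
  have hu : (w : Fin 3 → F) ≠ 0 := by
    intro h
    apply hN0
    ext i j
    rw [hent i j, h]
    simp
  have hv : c ≠ 0 := by
    intro h
    apply hN0
    ext i j
    rw [hent i j, h]
    simp
  refine ⟨(w : Fin 3 → F), c, hNuv, hu, hv, ?_⟩
  obtain ⟨i₀, hi₀⟩ : ∃ i, (w : Fin 3 → F) i ≠ 0 := by
    by_contra h
    push_neg at h
    exact hu (funext h)
  obtain ⟨j₀, hj₀⟩ : ∃ j, c j ≠ 0 := by
    by_contra h
    push_neg at h
    exact hv (funext h)
  have h := congrFun (congrFun hN i₀) j₀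
  rw [Matrix.mul_apply] at h
  have e : ∑ k, N i₀ k * N k j₀ = (w : Fin 3 → F) i₀ * (∑ k, c k * (w : Fin 3 → F) k) * c j₀ := by
    rw [Finset.mul_sum, Finset.sum_mul]
    refine Finset.sum_congr rfl fun k _ => ?_
    rw [hent i₀ k, hent k j₀]
    ring
  rw [e] at h
  have h0 : (0 : Matrix (Fin 3) (Fin 3) F) i₀ j₀ = 0 := rfl
  rw [h0] at h
  rcases mul_eq_zero.1 h with h | h
  · rcases mul_eq_zero.1 h with h | h
    · exact absurd h hi₀
    · exact h
  · exact absurd h hj₀

theorem exists_dual (u : Fin 3 → F) (hu : u ≠ 0) :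
    ∃ r : Fin 3 → F, r 0 * u 0 + r 1 * u 1 + r 2 * u 2 = 1 := by
  obtain ⟨i, hi⟩ : ∃ i, u i ≠ 0 := by
    by_contra h
    push_neg at h
    exact hu (funext h)
  refine ⟨Pi.single i (u i)⁻¹, ?_⟩
  have h1 : ∑ k, (Pi.single i (u i)⁻¹ : Fin 3 → F) k * u k = 1 := by
    rw [Finset.sum_eq_single i]
    · rw [Pi.single_eq_same, inv_mul_cancel₀ hi]
    · intro b _ hb
      rw [Pi.single_eq_of_ne hb, zero_mul]
    · intro h; exact absurd (Finset.mem_univ i) h
  rw [Fin.sum_univ_three] at h1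
  exact h1

/-- the standard transvection -/
def tM (F : Type*) [Field F] : Matrix (Fin 3) (Fin 3) F := !![1,1,0; 0,1,0; 0,0,1]

theorem det_tM : (tM F).det = 1 := by
  rw [Matrix.det_fin_three]; simp [tM]

def tS (F : Type*) [Field F] : Matrix.SpecialLinearGroup (Fin 3) F := ⟨tM F, det_tM⟩

/-- In characteristic 2 every involution of `SL₃(F)` is conjugate to the standard
transvection. -/
theorem conj_transvection (h2 : (2 : F) = 0) (b : Matrix.SpecialLinearGroup (Fin 3) F)
    (hb2 : b * b = 1) (hb1 : b ≠ 1) :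
    ∃ g : Matrix.SpecialLinearGroup (Fin 3) F, g * b = tS F * g := by
  obtain ⟨B, hBdef⟩ : ∃ B : Matrix (Fin 3) (Fin 3) F, B = b.1 := ⟨_, rfl⟩
  have hBB : B * B = 1 := by
    rw [hBdef]
    exact congrArg Subtype.val hb2
  have hB1 : B ≠ 1 := by
    intro h
    apply hb1
    apply Subtype.ext
    rw [← hBdef, h]
    rfl
  have hBpB : B + B = 0 := by rw [← two_smul F B, h2, zero_smul]
  have h11 : (1 : Matrix (Fin 3) (Fin 3) F) + 1 = 0 := by
    rw [← two_smul F (1 : Matrix (Fin 3) (Fin 3) F), h2, zero_smul]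
  have hNN : (B - 1) * (B - 1) = 0 := by
    have e : (B - 1) * (B - 1) = B * B - (B + B) + 1 := by
      rw [sub_mul, mul_sub, mul_sub, mul_one, one_mul, one_mul]; abel
    rw [e, hBB, hBpB, sub_zero, h11]
  have hN0 : B - 1 ≠ 0 := sub_ne_zero.2 hB1
  obtain ⟨u, v, hNuv, hu, hv, hvu⟩ := rank_one (B - 1) hNN hN0
  rw [dotProduct, Fin.sum_univ_three] at hvu
  have hB : B = 1 + Matrix.vecMulVec u v := by
    rw [← hNuv]; abel
  obtain ⟨r, hr⟩ := exists_dual u hu
  obtain ⟨t, ht⟩ := exists_dual v hv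
  obtain ⟨g, hgdef⟩ : ∃ g : Matrix (Fin 3) (Fin 3) F, g = !![r 0, r 1, r 2; v 0, v 1, v 2;
      u 1 * t 2 - u 2 * t 1, u 2 * t 0 - u 0 * t 2, u 0 * t 1 - u 1 * t 0] := ⟨_, rfl⟩
  have hdet : g.det = 1 := by
    rw [Matrix.det_fin_three, hgdef]
    simp
    linear_combination (t 0 * v 0 + t 1 * v 1 + t 2 * v 2) * hr + ht -
      (r 0 * t 0 + r 1 * t 1 + r 2 * t 2) * hvu
  have hkey : g * B = tM F * g := by
    rw [hB, hgdef]
    ext i j
    fin_cases i <;> fin_cases j <;>
      simp [tM, Matrix.mul_apply, Fin.sum_univ_three, Matrix.vecMulVec_apply, Matrix.one_apply] <;>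
      first
        | linear_combination (v 0) * hr
        | linear_combination (v 1) * hr
        | linear_combination (v 2) * hr
        | linear_combination (v 0) * hvu
        | linear_combination (v 1) * hvu
        | linear_combination (v 2) * hvu
        | ring
  refine ⟨⟨g, hdet⟩, Subtype.ext ?_⟩
  show g * b.1 = tM F * g
  rw [← hBdef]
  exact hkey

/-- All involutions of PSL_3(4) are conjugate. -/
theorem result {F : Type*} [Field F] [Fintype F] (hF : Fintype.card F = 4) (x y : Matrix.ProjectiveSpecialLinearGroup (Fin 3) F) (hx : orderOf x = 2) (hy : orderOf y = 2) : IsConj x y := by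
  have h2 : (2 : F) = 0 := Cfsg.Agent.Helper4.two_eq_zero_of_card hF
  have key : ∀ z : Matrix.ProjectiveSpecialLinearGroup (Fin 3) F, orderOf z = 2 →
      IsConj z ((tS F : Matrix.SpecialLinearGroup (Fin 3) F) :
        Matrix.ProjectiveSpecialLinearGroup (Fin 3) F) := by
    intro z hz
    obtain ⟨a, rfl⟩ := QuotientGroup.mk_surjective z
    have hz2 : (a : Matrix.ProjectiveSpecialLinearGroup (Fin 3) F) ^ 2 = 1 := by
      rw [← hz]; exact pow_orderOf_eq_one _
    have hz1 : (a : Matrix.ProjectiveSpecialLinearGroup (Fin 3) F) ≠ 1 := by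
      intro h
      rw [h, orderOf_one] at hz
      norm_num at hz
    have ha2 : a ^ 2 ∈ Subgroup.center (Matrix.SpecialLinearGroup (Fin 3) F) :=
      (QuotientGroup.eq_one_iff _).1 (by rw [QuotientGroup.mk_pow]; exact hz2)
    obtain ⟨c, hc3, hc⟩ := Matrix.SpecialLinearGroup.mem_center_iff.1 ha2
    have hc3' : c ^ 3 = 1 := by simpa using hc3
    have hb : ((a ^ 3 : Matrix.SpecialLinearGroup (Fin 3) F) :
        Matrix.ProjectiveSpecialLinearGroup (Fin 3) F) = a := by
      rw [QuotientGroup.mk_pow, pow_succ, hz2, one_mul]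
    have h6 : (a ^ 2) ^ 3 = 1 := by
      have h1 : ((a ^ 2 : Matrix.SpecialLinearGroup (Fin 3) F) : Matrix (Fin 3) (Fin 3) F) ^ 3
          = 1 := by
        rw [← hc, ← map_pow, hc3', map_one]
      apply Subtype.ext
      rw [Matrix.SpecialLinearGroup.coe_pow]
      exact h1
    have hb2 : a ^ 3 * a ^ 3 = 1 := by
      have e : a ^ 3 * a ^ 3 = (a ^ 2) ^ 3 := by group
      rw [e, h6]
    have hb1 : a ^ 3 ≠ 1 := by
      intro h
      apply hz1
      rw [← hb, h]
      rfl
    obtain ⟨g, hg⟩ := conj_transvection h2 (a ^ 3) hb2 hb1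
    rw [isConj_iff]
    refine ⟨(g : Matrix.ProjectiveSpecialLinearGroup (Fin 3) F), ?_⟩
    rw [← hb, ← QuotientGroup.mk_mul, hg, QuotientGroup.mk_mul, mul_inv_cancel_right]
  exact (key x hx).trans (key y hy).symm

end Cfsg.Agent.S0820
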