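import Cfsg.Statements.S0830
import Mathlib
import Cfsg.Agent.S0284
import Cfsg.Agent.S0285
import Cfsg.Agent.S0829
-- import your own Cfsg.Agent.* helpers here

set_option autoImplicit false
open Cfsg

namespace Cfsg.Agent.S0830



/-- The unitary quadrangle of PSU_5(q): with |F| = q², the number of 2-dimensional subspaces of F^5 on which the Hermitian form vanishes is (q³ + 1)(q⁵ + 1). -/
theorem result {F : Type*} [Field F] [Fintype F] {q : ℕ} (hF : Fintype.card F = q ^ 2) : Nat.card {W : Submodule F (Fin 5 → F) // Module.finrank F W = 2 ∧ ∀ u ∈ W, ∀ v ∈ W, Cfsg.hermForm 5 F q u v = 0} = (q ^ 3 + 1) * (q ^ 5 + 1) := by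
  have hq := S0284.q_two_le hF
  have hq2 : 1 ≤ q ^ 2 := Nat.one_le_pow _ _ (by omega)
  have hq4 : 1 ≤ q ^ 4 := Nat.one_le_pow _ _ (by omega)
  have hq42 : q ^ 2 ≤ q ^ 4 := Nat.pow_le_pow_right (by omega) (by norm_num)
  have hI3 : Nat.card {v : Fin 3 → F // Cfsg.hermForm 3 F q v v = 0}
      = (q ^ 3 + 1) * (q ^ 2 - 1) + 1 := by
    have h := S0285.result hF 3
    rw [if_neg (by decide)] at h
    exact h
  have hI5 : Nat.card {v : Fin 5 → F // Cfsg.hermForm 5 F q v v = 0}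
      = (q ^ 5 + 1) * (q ^ 4 - 1) + 1 := by
    have h := S0285.result hF 5
    rw [if_neg (by decide)] at h
    exact h
  have h := S0829.planes_count hF 3 (q ^ 3 + 1) (by
    rw [hI3]
    zify [hq2, hq42]
    ring)
  rw [hI5] at h
  have h3 : 0 < q ^ 4 - 1 := by
    have : 1 < q ^ 4 := Nat.one_lt_pow (by norm_num) (by omega)
    omega
  have h6 : Nat.card {W : Submodule F (Fin 5 → F) // Module.finrank F W = 2 ∧
      ∀ u ∈ W, ∀ v ∈ W, Cfsg.hermForm 5 F q u v = 0} * (q ^ 4 - 1) + (q ^ 3 + 1)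
      = (q ^ 3 + 1) * ((q ^ 5 + 1) * (q ^ 4 - 1) + 1) := h
  apply Nat.eq_of_mul_eq_mul_right h3
  have h7 : (q ^ 3 + 1) * ((q ^ 5 + 1) * (q ^ 4 - 1) + 1)
      = (q ^ 3 + 1) * (q ^ 5 + 1) * (q ^ 4 - 1) + (q ^ 3 + 1) := by ring
  omega


end Cfsg.Agent.S0830
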