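import Mathlib
import Cfsg.Statements.S0833

namespace Cfsg.Agent.S0833

open TensorProduct LinearMap.BilinForm

variable {F U W : Type*} [Field F] [AddCommGroup U] [Module F U] [FiniteDimensional F U]
  [AddCommGroup W] [Module F W] [FiniteDimensional F W]

theorem tmul_apply' (B₁ : LinearMap.BilinForm F U) (B₂ : LinearMap.BilinForm F W)
    (u u' : U) (w w' : W) : (B₁.tmul B₂) (u ⊗ₜ w) (u' ⊗ₜ w') = B₂ w w' • B₁ u u' := rfl

attribute [local ext] TensorProduct.ext in
theorem tmul_symm (B₁ : LinearMap.BilinForm F U) (B₂ : LinearMap.BilinForm F W)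
    (hA₁ : B₁.IsAlt) (hA₂ : B₂.IsAlt) : (B₁.tmul B₂).IsSymm := by
  rw [LinearMap.isSymm_iff_eq_flip]
  ext x₁ x₂ y₁ y₂
  show B₂ x₂ y₂ • B₁ x₁ y₁ = B₂ y₂ x₂ • B₁ y₁ x₁
  rw [← hA₁.neg_eq x₁ y₁, ← hA₂.neg_eq x₂ y₂]
  simp

theorem tmul_nondegenerate (B₁ : LinearMap.BilinForm F U) (B₂ : LinearMap.BilinForm F W)
    (h₁ : B₁.Nondegenerate) (h₂ : B₂.Nondegenerate) (hs : (B₁.tmul B₂).IsSymm) :
    (B₁.tmul B₂).Nondegenerate := by
  classical
  rw [hs.isRefl.nondegenerate_iff_separatingRight]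
  intro y hy
  let b := Module.Free.chooseBasis F U
  let c := Module.Free.chooseBasis F W
  let bt := b.tensorProduct c
  have key : ∀ k l, bt.repr y (k, l) = 0 := by
    intro k l
    have h := hy (B₁.dualBasis h₁ b k ⊗ₜ[F] B₂.dualBasis h₂ c l)
    have h2 : ∀ x, (B₁.tmul B₂) (B₁.dualBasis h₁ b k ⊗ₜ[F] B₂.dualBasis h₂ c l) (bt x) =
        if x = (k, l) then 1 else 0 := by
      rintro ⟨i, j⟩
      rw [Module.Basis.tensorProduct_apply, tmul_apply', apply_dualBasis_left,
        apply_dualBasis_left]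
      by_cases hi : i = k <;> by_cases hj : j = l <;> simp [hi, hj]
    rw [← bt.sum_repr y] at h
    simp only [map_sum, map_smul, h2, smul_eq_mul, mul_ite, mul_one, mul_zero,
      Finset.sum_ite_eq', Finset.mem_univ, if_true] at h
    exact h
  apply bt.ext_elem
  rintro ⟨k, l⟩
  simp [key k l]

theorem exists_lagrangian (B : LinearMap.BilinForm F U) (h : B.Nondegenerate) (hA : B.IsAlt)
    (k : ℕ) (hU : Module.finrank F U = 2 * k) :
    ∃ L : Submodule F U, Module.finrank F L = k ∧ ∀ x ∈ L, ∀ y ∈ L, B x y = 0 := by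
  have hwf : WellFounded ((· > ·) : Submodule F U → Submodule F U → Prop) := wellFounded_gt
  obtain ⟨L, hL, hmax⟩ := hwf.has_min {L : Submodule F U | ∀ x ∈ L, ∀ y ∈ L, B x y = 0}
    ⟨⊥, by
      intro x hx y hy
      rw [Submodule.mem_bot] at hx
      rw [hx]; simp⟩
  have hperp : ∀ v, (∀ a ∈ L, B a v = 0) → v ∈ L := by
    intro v hv
    by_contra hvL
    apply hmax (L ⊔ Submodule.span F {v})
    · intro x hx y hy
      obtain ⟨a, ha, z, hz, rfl⟩ := Submodule.mem_sup.mp hx
      obtain ⟨a', ha', z', hz', rfl⟩ := Submodule.mem_sup.mp hy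
      obtain ⟨α, rfl⟩ := Submodule.mem_span_singleton.mp hz
      obtain ⟨β, rfl⟩ := Submodule.mem_span_singleton.mp hz'
      have h1 : B v a' = 0 := by rw [← hA.neg_eq a' v, hv a' ha', neg_zero]
      simp [hL a ha a' ha', hv a ha, h1, hA.self_eq_zero v]
    · show L < L ⊔ Submodule.span F {v}
      apply lt_of_le_of_ne le_sup_left
      intro heq
      apply hvL
      rw [heq]
      exact Submodule.mem_sup_right (Submodule.mem_span_singleton_self v)
  have horth : B.orthogonal L = L := by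
    apply le_antisymm
    · intro v hv
      rw [LinearMap.BilinForm.mem_orthogonal_iff] at hv
      exact hperp v (fun a ha => hv a ha)
    · intro v hv
      rw [LinearMap.BilinForm.mem_orthogonal_iff]
      intro a ha
      exact hL a ha v hv
  have hfin := LinearMap.BilinForm.finrank_orthogonal h L
  rw [horth, hU] at hfin
  have hle := Submodule.finrank_le L
  rw [hU] at hle
  exact ⟨L, by omega, hL⟩

theorem result {F U W : Type*} [Field F] [Fintype F] [AddCommGroup U] [Module F U] [FiniteDimensional F U] [AddCommGroup W] [Module F W] [FiniteDimensional F W] (B₁ : LinearMap.BilinForm F U) (B₂ : LinearMap.BilinForm F W) (h₁ : B₁.Nondegenerate) (h₂ : B₂.Nondegenerate) (hA₁ : B₁.IsAlt) (hA₂ : B₂.IsAlt) (k l : ℕ) (hU : Module.finrank F U = 2 * k) (hW : Module.finrank F W = 2 * l) : (B₁.tmul B₂).IsSymm ∧ (B₁.tmul B₂).Nondegenerate ∧ (∃ X : Submodule F (TensorProduct F U W), Module.finrank F X = 2 * k * l ∧ ∀ x ∈ X, ∀ y ∈ X, (B₁.tmul B₂) x y = 0) := by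
  have hs := tmul_symm B₁ B₂ hA₁ hA₂
  refine ⟨hs, tmul_nondegenerate B₁ B₂ h₁ h₂ hs, ?_⟩
  obtain ⟨L, hLk, hL⟩ := exists_lagrangian B₁ h₁ hA₁ k hU
  refine ⟨LinearMap.range (LinearMap.rTensor W L.subtype), ?_, ?_⟩
  · rw [LinearMap.finrank_range_of_inj
      (Module.Flat.rTensor_preserves_injective_linearMap _ L.injective_subtype),
      Module.finrank_tensorProduct, hLk, hW]
    ring
  · rintro _ ⟨x, rfl⟩ _ ⟨y, rfl⟩
    induction x using TensorProduct.induction_on with
    | zero => simp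
    | tmul l w =>
      induction y using TensorProduct.induction_on with
      | zero => simp
      | tmul l' w' =>
        simp only [LinearMap.rTensor_tmul, Submodule.subtype_apply]
        rw [tmul_apply', hL l l.2 l' l'.2, smul_zero]
      | add y₁ y₂ ih₁ ih₂ => simp only [map_add, ih₁, ih₂, add_zero]
    | add x₁ x₂ ih₁ ih₂ => simp only [map_add, LinearMap.add_apply, ih₁, ih₂, add_zero]

end Cfsg.Agent.S0833
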