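import Cfsg.Statements.S0835
import Mathlib
import Cfsg.Agent.Helper2.SymDisc

set_option autoImplicit false
open Cfsg

namespace Cfsg.Agent.S0835

/-- Over a finite field with 2 ≠ 0: if B₁ on U (dim 2k, k ≥ 1) is non-degenerate symmetric of minus type (no totally isotropic k-subspace) and B₂ on W (dim 2l + 1) is non-degenerate symmetric, then B₁ ⊗ B₂ (dimension 2k(2l+1)) admits no totally isotropic subspace of dimension k(2l+1) (minus type). -/
theorem result {F U W : Type*} [Field F] [Fintype F] [AddCommGroup U] [Module F U] [FiniteDimensional F U] [AddCommGroup W] [Module F W] [FiniteDimensional F W] (h2 : (2 : F) ≠ 0) (B₁ : LinearMap.BilinForm F U) (B₂ : LinearMap.BilinForm F W) (h₁ : B₁.Nondegenerate) (h₂ : B₂.Nondegenerate) (hS₁ : B₁.IsSymm) (hS₂ : B₂.IsSymm) (k l : ℕ) (hk : 1 ≤ k) (hU : Module.finrank F U = 2 * k) (hW : Module.finrank F W = 2 * l + 1) (hm₁ : ¬ (∃ X : Submodule F (U), Module.finrank F X = k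 ∧ ∀ x ∈ X, ∀ y ∈ X, (B₁) x y = 0)) : ¬ (∃ X : Submodule F (TensorProduct F U W), Module.finrank F X = k * (2 * l + 1) ∧ ∀ x ∈ X, ∀ y ∈ X, (B₁.tmul B₂) x y = 0) := by
  classical
  rintro ⟨X, hX, hti⟩
  let b₁ := Module.finBasisOfFinrankEq F U hU
  let b₂ := Module.finBasisOfFinrankEq F W hW
  have hdim : Module.finrank F (TensorProduct F U W) = 2 * (k * (2 * l + 1)) := by
    rw [Module.finrank_tensorProduct, hU, hW]; ring
  have hG := Helper2.SymDisc.gram_tmul B₁ B₂ b₁ b₂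
  have hd1 : (LinearMap.BilinForm.toMatrix b₁ B₁).det ≠ 0 :=
    (LinearMap.BilinForm.nondegenerate_iff_det_ne_zero b₁).1 h₁
  have hd2 : (LinearMap.BilinForm.toMatrix b₂ B₂).det ≠ 0 :=
    (LinearMap.BilinForm.nondegenerate_iff_det_ne_zero b₂).1 h₂
  have hsym := Helper2.SymDisc.tmul_symm B₁ B₂ hS₁ hS₂
  have hA := Helper2.SymDisc.sq_of_ti (B₁.tmul B₂) hsym (k * (2 * l + 1)) hdim X hX hti
    (b₁.tensorProduct b₂)
  have hB := Helper2.SymDisc.not_sq_of_no_ti h2 B₁ hS₁ h₁ k hk hU hm₁ b₁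
  apply hB
  rw [hG, Matrix.det_kronecker, Fintype.card_fin, Fintype.card_fin,
    pow_mul (-1 : F) k (2 * l + 1)] at hA
  obtain ⟨s, hs⟩ := hA
  have hε : (-1 : F) ^ k ≠ 0 := pow_ne_zero _ (neg_ne_zero.2 one_ne_zero)
  generalize (LinearMap.BilinForm.toMatrix b₁ B₁).det = a at hs hd1 ⊢
  generalize (LinearMap.BilinForm.toMatrix b₂ B₂).det = c at hs hd2
  generalize (-1 : F) ^ k = ε at hs hε ⊢
  have hw : (ε * a) ^ l * c ^ k ≠ 0 :=
    mul_ne_zero (pow_ne_zero _ (mul_ne_zero hε hd1)) (pow_ne_zero _ hd2)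
  have key : ε * a * (((ε * a) ^ l * c ^ k) * ((ε * a) ^ l * c ^ k)) = s * s := by
    rw [← hs]; ring
  refine ⟨s / ((ε * a) ^ l * c ^ k), ?_⟩
  rw [div_mul_div_comm, eq_div_iff (mul_ne_zero hw hw)]
  exact key

end Cfsg.Agent.S0835
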