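import Mathlib
import Cfsg.Statements.S0836

namespace Cfsg.Agent.S0836

open Matrix

theorem result {F : Type*} [Field F] (n : ℕ) (hn : 3 ≤ n ∨ (n = 2 ∧ ∃ x : F, x ≠ 0 ∧ x ^ 2 ≠ 1)) (i j : Fin n) (hij : i ≠ j) (c : F) (t : Matrix.SpecialLinearGroup (Fin n) F) (ht : (t : Matrix (Fin n) (Fin n) F) = Matrix.transvection i j c) : t ∈ commutatorSet (Matrix.SpecialLinearGroup (Fin n) F) := by
  rcases hn with hn | ⟨rfl, x, hx0, hx1⟩
  · obtain ⟨k, hki, hkj⟩ : ∃ k : Fin n, k ≠ i ∧ k ≠ j := by
      by_contra hcon
      push Not at hcon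
      have hsub : (Finset.univ : Finset (Fin n)) ⊆ {i, j} := by
        intro k _
        by_cases h : k = i
        · simp [h]
        · simp [hcon k h]
      have h1 := Finset.card_le_card hsub
      have h2 : ({i, j} : Finset (Fin n)).card ≤ 2 := Finset.card_le_two
      simp at h1
      omega
    let A : SpecialLinearGroup (Fin n) F :=
      ⟨transvection i k c, det_transvection_of_ne i k hki.symm c⟩
    let B : SpecialLinearGroup (Fin n) F :=
      ⟨transvection k j 1, det_transvection_of_ne k j hkj 1⟩
    refine ⟨A, B, ?_⟩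
    rw [commutatorElement_def, mul_inv_eq_iff_eq_mul, mul_inv_eq_iff_eq_mul]
    apply Subtype.ext
    show (A : Matrix (Fin n) (Fin n) F) * (B : Matrix (Fin n) (Fin n) F) =
      (t : Matrix (Fin n) (Fin n) F) * (B : Matrix (Fin n) (Fin n) F) * (A : Matrix (Fin n) (Fin n) F)
    rw [ht]
    show transvection i k c * transvection k j 1 =
      transvection i j c * transvection k j 1 * transvection i k c
    simp only [transvection, mul_add, add_mul, mul_one, one_mul, single_mul_single_same,
      single_mul_single_of_ne _ _ _ _ hij.symm, single_mul_single_of_ne _ _ _ _ hkj.symm,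
      add_zero]
    abel
  · have hx2 : x ^ 2 - 1 ≠ 0 := sub_ne_zero.mpr hx1
    let H : SpecialLinearGroup (Fin 2) F :=
      ⟨Matrix.diagonal (fun l => if l = i then x else x⁻¹), by
        rw [det_diagonal, Fin.prod_univ_two]
        fin_cases i <;> fin_cases j <;> simp_all⟩
    let U : SpecialLinearGroup (Fin 2) F :=
      ⟨transvection i j (c / (x ^ 2 - 1)), det_transvection_of_ne i j hij _⟩
    refine ⟨H, U, ?_⟩
    rw [commutatorElement_def, mul_inv_eq_iff_eq_mul, mul_inv_eq_iff_eq_mul]
    apply Subtype.ext
    show (H : Matrix (Fin 2) (Fin 2) F) * (U : Matrix (Fin 2) (Fin 2) F) =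
      (t : Matrix (Fin 2) (Fin 2) F) * (U : Matrix (Fin 2) (Fin 2) F) * (H : Matrix (Fin 2) (Fin 2) F)
    rw [ht]
    show Matrix.diagonal (fun l => if l = i then x else x⁻¹) * transvection i j (c / (x ^ 2 - 1)) =
      transvection i j c * transvection i j (c / (x ^ 2 - 1)) *
        Matrix.diagonal (fun l => if l = i then x else x⁻¹)
    fin_cases i <;> fin_cases j
    · exact absurd rfl hij
    · ext a b
      fin_cases a <;> fin_cases b <;>
        simp [transvection, Matrix.mul_apply, Fin.sum_univ_two, single_apply, diagonal_apply,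
          Matrix.add_apply]
      field_simp
      ring
    · ext a b
      fin_cases a <;> fin_cases b <;>
        simp [transvection, Matrix.mul_apply, Fin.sum_univ_two, single_apply, diagonal_apply,
          Matrix.add_apply]
      field_simp
      ring
    · exact absurd rfl hij

end Cfsg.Agent.S0836
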