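import Cfsg.Statements.S2623
import Mathlib
import Cfsg.Agent.S2620
import Cfsg.Agent.S0756
-- import your own Cfsg.Agent.* helpers here

set_option autoImplicit false
open Cfsg

namespace Cfsg.Agent.S2623

theorem polar_self_eq {F : Type*} [Field F] {M : Type*} [AddCommGroup M] [Module F M]
    (Q : QuadraticForm F M) (v : M) : QuadraticMap.polarBilin Q v v = 2 * Q v := by
  rw [QuadraticMap.polarBilin_apply_apply, QuadraticMap.polar_self, two_nsmul, two_mul]

theorem polar_symm {F : Type*} [Field F] {M : Type*} [AddCommGroup M] [Module F M]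
    (Q : QuadraticForm F M) : LinearMap.BilinForm.IsSymm (QuadraticMap.polarBilin Q) :=
  ⟨fun x y => by
    simp only [QuadraticMap.polarBilin_apply_apply]
    exact QuadraticMap.polar_comm _ _ _⟩

theorem toMatrix_eq {F : Type*} [Field F] {n : ℕ} (Q : QuadraticForm F (Fin n → F)) :
    LinearMap.BilinForm.toMatrix' (QuadraticMap.polarBilin Q)
      = Matrix.of (fun i j : Fin n => QuadraticMap.polar ⇑Q (Pi.single i 1) (Pi.single j 1)) := by
  ext i j
  simp [LinearMap.BilinForm.toMatrix'_apply]

theorem gram_diag {F : Type*} [Field F] {k : ℕ} (B : LinearMap.BilinForm F (Fin (k+1) → F))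
    (b : Module.Basis (Fin (k+1)) F (Fin (k+1) → F))
    (ho : ∀ i j, i ≠ j → B (b i) (b j) = 0)
    (hn : ∀ i, i ≠ Fin.last k → B (b i) (b i) = 1) :
    (Matrix.of (fun i j => B (b i) (b j))).det = B (b (Fin.last k)) (b (Fin.last k)) := by
  have h : (Matrix.of (fun i j => B (b i) (b j)))
      = Matrix.diagonal (fun i => if i = Fin.last k then B (b (Fin.last k)) (b (Fin.last k))
          else 1) := by
    ext i j
    by_cases hij : i = j
    · subst hij
      by_cases hi : i = Fin.last k
      · subst hi; simp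
      · simp [hi, hn i hi]
    · rw [Matrix.diagonal_apply_ne _ hij, Matrix.of_apply, ho i j hij]
  rw [h, Matrix.det_diagonal]
  simp


/-- Over a finite field of odd order, two quadratic forms on F^n with non-degenerate polar forms are isometric (related by an invertible linear change of variables) if and only if their discriminants (determinants of the Gram matrices of their polar forms) lie in the same square class. -/
theorem result {F : Type*} [Field F] [Fintype F] (h2 : (2 : F) ≠ 0) {n : ℕ} (Q₁ Q₂ : QuadraticForm F (Fin n → F)) (h₁ : (QuadraticMap.polarBilin Q₁).Nondegenerate) (h₂ : (QuadraticMap.polarBilin Q₂).Nondegenerate) : (∃ g : (Fin n → F) ≃ₗ[F] (Fin n → F), ∀ v, Q₂ (g v) = Q₁ v) ↔ IsSquare ((Matrix.of (fun i j : Fin n => QuadraticMap.polar ⇑Q₁ (Pi.single i 1) (Pi.single j 1))).det * (Matrix.of (fun i j : Fin n => QuadraticMap.polar ⇑Q₂ (Pi.single i 1) (Pi.single j 1))).det) := by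
  classical
  obtain ⟨D₁, hD₁⟩ : ∃ D, D = (Matrix.of (fun i j : Fin n =>
    QuadraticMap.polar ⇑Q₁ (Pi.single i 1) (Pi.single j 1))).det := ⟨_, rfl⟩
  obtain ⟨D₂, hD₂⟩ : ∃ D, D = (Matrix.of (fun i j : Fin n =>
    QuadraticMap.polar ⇑Q₂ (Pi.single i 1) (Pi.single j 1))).det := ⟨_, rfl⟩
  rw [← hD₁, ← hD₂]
  constructor
  · rintro ⟨g, hg⟩
    obtain ⟨d, hd0, hd⟩ := S2620.gram_det (QuadraticMap.polarBilin Q₂)
      ((Pi.basisFun F (Fin n)).map g)
    have h1 : (Matrix.of (fun i j : Fin n => (QuadraticMap.polarBilin Q₂)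
        (((Pi.basisFun F (Fin n)).map g) i) (((Pi.basisFun F (Fin n)).map g) j)))
        = Matrix.of (fun i j : Fin n =>
          QuadraticMap.polar ⇑Q₁ (Pi.single i 1) (Pi.single j 1)) := by
      ext i j
      simp only [Matrix.of_apply, QuadraticMap.polarBilin_apply_apply, Module.Basis.map_apply,
        Pi.basisFun_apply]
      show Q₂ (g _ + g _) - Q₂ (g _) - Q₂ (g _) = Q₁ (_ + _) - Q₁ _ - Q₁ _
      rw [← map_add, hg, hg, hg]
    rw [h1, toMatrix_eq, ← hD₁, ← hD₂] at hd
    rw [hd]
    exact ⟨d * D₂, by ring⟩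
  · rintro ⟨r, hr⟩
    rcases Nat.eq_zero_or_pos n with hn0 | hnpos
    · subst hn0
      refine ⟨LinearEquiv.refl F _, fun v => ?_⟩
      have hv : v = 0 := Subsingleton.elim v 0
      rw [hv, LinearEquiv.refl_apply, map_zero, map_zero]
    · obtain ⟨k, rfl⟩ : ∃ k, n = k + 1 := ⟨n - 1, by omega⟩
      have hchar : ringChar F ≠ 2 := by
        intro h
        apply h2
        have : CharP F 2 := ringChar.of_eq h
        exact_mod_cast CharP.cast_eq_zero F 2
      obtain ⟨α, hα⟩ := FiniteField.exists_nonsquare hchar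
      have hfin : Module.finrank F (Fin (k+1) → F) = k + 1 := Module.finrank_fin_fun F
      obtain ⟨b₁, ho₁, hn₁, hl₁⟩ := S0756.main h2 α hα k (QuadraticMap.polarBilin Q₁)
        (polar_symm Q₁) h₁ hfin
      obtain ⟨b₂, ho₂, hn₂, hl₂⟩ := S0756.main h2 α hα k (QuadraticMap.polarBilin Q₂)
        (polar_symm Q₂) h₂ hfin
      obtain ⟨c₁, hc₁, hg₁⟩ := S2620.gram_det (QuadraticMap.polarBilin Q₁) b₁
      obtain ⟨c₂, hc₂, hg₂⟩ := S2620.gram_det (QuadraticMap.polarBilin Q₂) b₂
      rw [gram_diag _ b₁ ho₁ hn₁, toMatrix_eq, ← hD₁] at hg₁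
      rw [gram_diag _ b₂ ho₂ hn₂, toMatrix_eq, ← hD₂] at hg₂
      have hsq : IsSquare ((QuadraticMap.polarBilin Q₁) (b₁ (Fin.last k)) (b₁ (Fin.last k)) *
          (QuadraticMap.polarBilin Q₂) (b₂ (Fin.last k)) (b₂ (Fin.last k))) := by
        refine ⟨c₁ * c₂ * r, ?_⟩
        rw [hg₁, hg₂]
        linear_combination (c₁ ^ 2 * c₂ ^ 2) * hr
      have hlast : (QuadraticMap.polarBilin Q₁) (b₁ (Fin.last k)) (b₁ (Fin.last k)) =
          (QuadraticMap.polarBilin Q₂) (b₂ (Fin.last k)) (b₂ (Fin.last k)) := by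
        rcases hl₁ with h | h <;> rcases hl₂ with h' | h'
        · rw [h, h']
        · rw [h, h', one_mul] at hsq
          exact absurd hsq hα
        · rw [h, h', mul_one] at hsq
          exact absurd hsq hα
        · rw [h, h']
      have hgram : ∀ s t, (QuadraticMap.polarBilin Q₁) (b₁ s) (b₁ t) =
          (QuadraticMap.polarBilin Q₂) (b₂ s) (b₂ t) := by
        intro s t
        by_cases hst : s = t
        · subst hst
          by_cases hs : s = Fin.last k
          · subst hs; exact hlast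
          · rw [hn₁ s hs, hn₂ s hs]
        · rw [ho₁ s t hst, ho₂ s t hst]
      have hB : QuadraticMap.polarBilin Q₁ = LinearMap.BilinForm.comp (QuadraticMap.polarBilin Q₂)
          (b₁.equiv b₂ (Equiv.refl _) : (Fin (k+1) → F) →ₗ[F] (Fin (k+1) → F))
          (b₁.equiv b₂ (Equiv.refl _) : (Fin (k+1) → F) →ₗ[F] (Fin (k+1) → F)) := by
        apply LinearMap.BilinForm.ext_basis b₁
        intro i j
        rw [LinearMap.BilinForm.comp_apply]
        simp only [LinearEquiv.coe_coe, Module.Basis.equiv_apply, Equiv.refl_apply]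
        exact hgram i j
      refine ⟨b₁.equiv b₂ (Equiv.refl _), fun v => ?_⟩
      have h := LinearMap.congr_fun (LinearMap.congr_fun hB v) v
      rw [LinearMap.BilinForm.comp_apply] at h
      simp only [LinearEquiv.coe_coe] at h
      rw [polar_self_eq, polar_self_eq] at h
      exact (mul_left_cancel₀ h2 h).symm


end Cfsg.Agent.S2623
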