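import Cfsg.Statements.S2624
import Mathlib
import Cfsg.Agent.S2623
-- import your own Cfsg.Agent.* helpers here

set_option autoImplicit false
open Cfsg

namespace Cfsg.Agent.S2624

theorem smul_nondeg {F : Type*} [Field F] {n : ℕ} (Q : QuadraticForm F (Fin n → F))
    (hQ : (QuadraticMap.polarBilin Q).Nondegenerate) (c : F) (hc : c ≠ 0) :
    (QuadraticMap.polarBilin (c • Q)).Nondegenerate := by
  have key : ∀ x y, QuadraticMap.polarBilin (c • Q) x y = c * QuadraticMap.polarBilin Q x y := by
    intro x y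
    simp only [QuadraticMap.polarBilin_apply_apply, FunLike.coe_smul,
      QuadraticMap.polar_smul, smul_eq_mul]
  refine ⟨fun x hx => hQ.1 x (fun y => ?_), fun y hy => hQ.2 y (fun x => ?_)⟩
  · have h := hx y
    rw [key] at h
    exact (mul_eq_zero.mp h).resolve_left hc
  · have h := hy x
    rw [key] at h
    exact (mul_eq_zero.mp h).resolve_left hc

theorem smul_disc {F : Type*} [Field F] {n : ℕ} (Q : QuadraticForm F (Fin n → F)) (c : F) :
    (Matrix.of (fun i j : Fin n =>
      QuadraticMap.polar ⇑(c • Q) (Pi.single i 1) (Pi.single j 1))).det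
    = c ^ n * (Matrix.of (fun i j : Fin n =>
      QuadraticMap.polar ⇑Q (Pi.single i 1) (Pi.single j 1))).det := by
  have h : (Matrix.of (fun i j : Fin n =>
      QuadraticMap.polar ⇑(c • Q) (Pi.single i 1) (Pi.single j 1)))
      = c • (Matrix.of (fun i j : Fin n =>
      QuadraticMap.polar ⇑Q (Pi.single i 1) (Pi.single j 1))) := by
    ext i j
    simp only [Matrix.of_apply, FunLike.coe_smul, QuadraticMap.polar_smul, smul_eq_mul,
      Matrix.smul_apply]
  rw [h, Matrix.det_smul, Fintype.card_fin]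


/-- For a quadratic form Q on F^n with non-degenerate polar form, F finite and n ≥ 2 even, every non-zero scalar c is the multiplier of some similarity: there is an invertible linear map g with Q(g v) = c·Q(v) for all v. -/
theorem result {F : Type*} [Field F] [Fintype F] {n : ℕ} (hn : 2 ≤ n) (he : Even n) (Q : QuadraticForm F (Fin n → F)) (hQ : (QuadraticMap.polarBilin Q).Nondegenerate) (c : F) (hc : c ≠ 0) : ∃ g : (Fin n → F) ≃ₗ[F] (Fin n → F), ∀ v, Q (g v) = c * Q v := by
  classical
  by_cases hchar : ringChar F = 2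
  · obtain ⟨a, ha⟩ := FiniteField.isSquare_of_char_two hchar c
    have ha0 : a ≠ 0 := by
      rintro rfl
      simp at ha
      exact hc ha
    refine ⟨LinearEquiv.smulOfNeZero F _ a ha0, fun v => ?_⟩
    rw [LinearEquiv.smulOfNeZero_apply, QuadraticMap.map_smul, ha, smul_eq_mul]
  · have h2 : (2 : F) ≠ 0 := Ring.two_ne_zero hchar
    have hc' : c⁻¹ ≠ 0 := inv_ne_zero hc
    obtain ⟨k, hk⟩ := he
    obtain ⟨D, hD⟩ : ∃ D, D = (Matrix.of (fun i j : Fin n =>
      QuadraticMap.polar ⇑Q (Pi.single i 1) (Pi.single j 1))).det := ⟨_, rfl⟩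
    have hsq : IsSquare ((Matrix.of (fun i j : Fin n =>
        QuadraticMap.polar ⇑Q (Pi.single i 1) (Pi.single j 1))).det *
        (Matrix.of (fun i j : Fin n =>
        QuadraticMap.polar ⇑(c⁻¹ • Q) (Pi.single i 1) (Pi.single j 1))).det) := by
      rw [smul_disc, ← hD, hk]
      exact ⟨c⁻¹ ^ k * D, by ring⟩
    obtain ⟨g, hg⟩ := (S2623.result h2 Q (c⁻¹ • Q) hQ (smul_nondeg Q hQ c⁻¹ hc')).mpr hsq
    refine ⟨g, fun v => ?_⟩
    have h := hg v
    rw [QuadraticMap.smul_apply, smul_eq_mul] at h
    rw [← h]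
    field_simp


end Cfsg.Agent.S2624
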