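import Cfsg.Statements.S0838
import Mathlib
import Cfsg.Agent.S2623
import Cfsg.Agent.S2624
-- import your own Cfsg.Agent.* helpers here

set_option autoImplicit false
open Cfsg

namespace Cfsg.Agent.S0838



/-- Over a finite field with 2 ≠ 0 and n odd: two quadratic forms Q₁, Q₂ on F^n with non-degenerate polar forms are similar — there are an invertible linear map g and a scalar c ≠ 0 with Q₂ (g v) = c · Q₁ v for all v. -/
theorem result {F : Type*} [Field F] [Fintype F] (h2 : (2 : F) ≠ 0) {n : ℕ} (hn : Odd n) (Q₁ Q₂ : QuadraticForm F (Fin n → F)) (h₁ : (QuadraticMap.polarBilin Q₁).Nondegenerate) (h₂ : (QuadraticMap.polarBilin Q₂).Nondegenerate) : ∃ (g : (Fin n → F) ≃ₗ[F] (Fin n → F)) (c : F), c ≠ 0 ∧ ∀ v, Q₂ (g v) = c * Q₁ v := by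
  classical
  obtain ⟨D₁, hD₁⟩ : ∃ D, D = (Matrix.of (fun i j : Fin n =>
    QuadraticMap.polar ⇑Q₁ (Pi.single i 1) (Pi.single j 1))).det := ⟨_, rfl⟩
  obtain ⟨D₂, hD₂⟩ : ∃ D, D = (Matrix.of (fun i j : Fin n =>
    QuadraticMap.polar ⇑Q₂ (Pi.single i 1) (Pi.single j 1))).det := ⟨_, rfl⟩
  obtain ⟨c, hc, hsq⟩ : ∃ c : F, c ≠ 0 ∧ IsSquare (c ^ n * D₁ * D₂) := by
    by_cases h0 : D₁ * D₂ = 0
    · refine ⟨1, one_ne_zero, ?_⟩
      rw [one_pow, one_mul, h0]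
      exact IsSquare.zero
    · obtain ⟨k, hk⟩ := hn
      refine ⟨D₁ * D₂, h0, ⟨(D₁ * D₂) ^ (k + 1), ?_⟩⟩
      rw [hk]
      ring
  obtain ⟨g, hg⟩ := (S2623.result h2 (c • Q₁) Q₂ (S2624.smul_nondeg Q₁ h₁ c hc) h₂).mpr
    (by rw [S2624.smul_disc, ← hD₁, ← hD₂]; exact hsq)
  refine ⟨g, c, hc, fun v => ?_⟩
  rw [hg v, QuadraticMap.smul_apply, smul_eq_mul]


end Cfsg.Agent.S0838
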