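import Cfsg.Statements.S0839
import Cfsg.Agent.S2579

set_option autoImplicit false
open Cfsg

namespace Cfsg.Agent.S0839

open Matrix


/-- Every transvection t ∈ SL_(n+2)(F) (rank(t − 1) = 1, (t − 1)² = 0) is conjugate in SL_(n+2)(F) to 1 + v·e_0ᵀ for some column vector v with v_0 = 0 (the group A of matrices that are the identity except in the first column below the diagonal); the dimension is written n + 2 ≥ 2. -/
theorem result {F : Type*} [Field F] (n : ℕ) (t : Matrix.SpecialLinearGroup (Fin (n + 2)) F) (ht : Cfsg.IsTransvection (t : Matrix (Fin (n + 2)) (Fin (n + 2)) F)) : ∃ (g : Matrix.SpecialLinearGroup (Fin (n + 2)) F) (v : Fin (n + 2) → F), v 0 = 0 ∧ ((g⁻¹ * t * g : Matrix.SpecialLinearGroup (Fin (n + 2)) F) : Matrix (Fin (n + 2)) (Fin (n + 2)) F) = 1 + Matrix.vecMulVec v (Pi.single 0 1) := by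

  classical
  have hV : Module.finrank F (Fin (n + 2) → F) = n + 2 := by simp
  obtain ⟨b, hb0, hb⟩ : ∃ b : Module.Basis (Fin (n + 2)) F (Fin (n + 2) → F),
      Matrix.mulVecLin ((t : Matrix (Fin (n + 2)) (Fin (n + 2)) F) - 1) (b 0) = b 1 ∧
      ∀ i, i ≠ 0 →
        Matrix.mulVecLin ((t : Matrix (Fin (n + 2)) (Fin (n + 2)) F) - 1) (b i) = 0 := by
    refine S2579.adapted_basis n hV
      (Matrix.mulVecLin ((t : Matrix (Fin (n + 2)) (Fin (n + 2)) F) - 1)) ht.1 ?_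
    rw [← Matrix.mulVecLin_mul, ht.2, Matrix.mulVecLin_zero]
  obtain ⟨e, he⟩ : ∃ e : Module.Basis (Fin (n + 2)) F (Fin (n + 2) → F),
      ∀ i, e i = Pi.single i 1 := ⟨Pi.basisFun F _, fun i => by simp⟩
  have hd : e.det ⇑b ≠ 0 := (e.isUnit_det b).ne_zero
  have h01 : (1 : Fin (n + 2)) ≠ 0 := by
    intro h
    have h' := congrArg Fin.val h
    simp at h'
  obtain ⟨w, hw⟩ : ∃ w : Fin (n + 2) → Fˣ,
      w = fun i => if i = 0 then (Units.mk0 _ hd)⁻¹ else 1 := ⟨_, rfl⟩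
  have hw0 : (w 0 : F) = (e.det ⇑b)⁻¹ := by rw [hw]; simp
  have hwi : ∀ i, i ≠ 0 → w i = 1 := by
    intro i hi
    rw [hw]
    simp [hi]
  obtain ⟨b'', hb''⟩ : ∃ b'' : Module.Basis (Fin (n + 2)) F (Fin (n + 2) → F),
      ∀ i, b'' i = (w i : F) • b i :=
    ⟨b.unitsSMul w, fun i => by rw [Module.Basis.unitsSMul_apply, Units.smul_def]⟩
  obtain ⟨gL, hgL⟩ : ∃ g : (Fin (n + 2) → F) ≃ₗ[F] (Fin (n + 2) → F), ∀ i, g (e i) = b'' i :=
    ⟨e.equiv b'' (Equiv.refl _), fun i => by simp⟩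
  have hdet : LinearMap.det (gL : (Fin (n + 2) → F) →ₗ[F] (Fin (n + 2) → F)) = 1 := by
    have h1 := e.det_comp (gL : (Fin (n + 2) → F) →ₗ[F] (Fin (n + 2) → F)) ⇑e
    rw [Module.Basis.det_self, mul_one] at h1
    rw [← h1]
    have h2 : (⇑(gL : (Fin (n + 2) → F) →ₗ[F] (Fin (n + 2) → F)) ∘ ⇑e)
        = fun i => (w i : F) • b i := by
      funext i
      simp only [Function.comp_apply, LinearEquiv.coe_coe, hgL, hb'']
    rw [h2, AlternatingMap.map_smul_univ]
    have h3 : ∏ i, (w i : F) = (e.det ⇑b)⁻¹ := by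
      rw [Finset.prod_eq_single 0]
      · exact hw0
      · intro i _ hi
        rw [hwi i hi, Units.val_one]
      · intro h
        exact absurd (Finset.mem_univ _) h
    rw [h3, smul_eq_mul]
    exact inv_mul_cancel₀ hd
  obtain ⟨v, hv⟩ : ∃ v : Fin (n + 2) → F, v = (e.det ⇑b)⁻¹ • Pi.single 1 1 := ⟨_, rfl⟩
  have hv0 : v 0 = 0 := by
    rw [hv]
    simp [Pi.single_apply, h01.symm]
  have hvm : ∀ x : Fin (n + 2) → F,
      (Matrix.vecMulVec v (Pi.single 0 1)) *ᵥ x = x 0 • v := by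
    intro x
    ext j
    simp only [Matrix.mulVec, dotProduct, Matrix.vecMulVec_apply, Pi.smul_apply, smul_eq_mul]
    rw [Finset.sum_eq_single 0]
    · simp [mul_comm]
    · intro k _ hk
      simp [Pi.single_apply, hk]
    · intro h
      exact absurd (Finset.mem_univ _) h
  have hint : Matrix.mulVecLin ((t : Matrix (Fin (n + 2)) (Fin (n + 2)) F) - 1) ∘ₗ
        (gL : (Fin (n + 2) → F) →ₗ[F] (Fin (n + 2) → F))
      = (gL : (Fin (n + 2) → F) →ₗ[F] (Fin (n + 2) → F)) ∘ₗ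
        Matrix.mulVecLin (Matrix.vecMulVec v (Pi.single 0 1)) := by
    apply e.ext
    intro i
    simp only [LinearMap.comp_apply, LinearEquiv.coe_coe, Matrix.mulVecLin_apply]
    rw [hvm, hgL, hb'']
    by_cases hi : i = 0
    · subst hi
      rw [he, Pi.single_eq_same, one_smul, hv, map_smul, ← he 1, hgL, hb'', hwi 1 h01,
        Units.val_one, one_smul, hw0, ← Matrix.mulVecLin_apply, map_smul, hb0]
    · rw [hwi i hi, Units.val_one, one_smul, ← Matrix.mulVecLin_apply, hb i hi, he,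
        Pi.single_eq_of_ne (Ne.symm hi), zero_smul, map_zero]
  obtain ⟨g, hg⟩ : ∃ g : Matrix.SpecialLinearGroup (Fin (n + 2)) F,
      (g : Matrix (Fin (n + 2)) (Fin (n + 2)) F)
        = LinearMap.toMatrix' (gL : (Fin (n + 2) → F) →ₗ[F] (Fin (n + 2) → F)) :=
    ⟨⟨LinearMap.toMatrix' (gL : (Fin (n + 2) → F) →ₗ[F] (Fin (n + 2) → F)), by
      rw [LinearMap.det_toMatrix']; exact hdet⟩, rfl⟩
  have hkey : (t : Matrix (Fin (n + 2)) (Fin (n + 2)) F) *
        (g : Matrix (Fin (n + 2)) (Fin (n + 2)) F)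
      = (g : Matrix (Fin (n + 2)) (Fin (n + 2)) F) *
        (1 + Matrix.vecMulVec v (Pi.single 0 1)) := by
    have h1 := congrArg LinearMap.toMatrix' hint
    rw [LinearMap.toMatrix'_comp, LinearMap.toMatrix'_comp] at h1
    have h2 : ∀ M : Matrix (Fin (n + 2)) (Fin (n + 2)) F,
        LinearMap.toMatrix' (Matrix.mulVecLin M) = M := fun M => LinearMap.toMatrix'_toLin' M
    rw [h2, h2, ← hg, Matrix.sub_mul, Matrix.one_mul] at h1
    rw [Matrix.mul_add, Matrix.mul_one, ← h1]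
    abel
  refine ⟨g, v, hv0, ?_⟩
  rw [Matrix.SpecialLinearGroup.coe_mul, Matrix.SpecialLinearGroup.coe_mul, Matrix.mul_assoc,
    hkey, ← Matrix.mul_assoc, ← Matrix.SpecialLinearGroup.coe_mul, inv_mul_cancel,
    Matrix.SpecialLinearGroup.coe_one, Matrix.one_mul]

end Cfsg.Agent.S0839
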