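import Mathlib
import Cfsg.Statements.S0840
import Cfsg.Agent.Helper5.CentralChar

set_option autoImplicit false
open Cfsg
open scoped ComplexConjugate

namespace Cfsg.Agent.S0840

open Cfsg.Agent.Helper24 Cfsg.Agent.Helper5

/-- Class multiplication coefficients from the character table: for elements a, b, c of a finite group G, the number of ordered pairs (x, y) with x conjugate to a, y conjugate to b and x * y = c equals the product of the sizes of the conjugacy classes of a and b, divided by the order of G, times the sum over the irreducible characters χ of χ a * χ b * conj (χ c) / χ 1. -/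
theorem result {G : Type*} [Group G] [Finite G] (a b c : G) : (Nat.card {p : G × G // IsConj a p.1 ∧ IsConj b p.2 ∧ p.1 * p.2 = c} : ℂ) = (Nat.card {x : G // IsConj a x} : ℂ) * (Nat.card {x : G // IsConj b x} : ℂ) / (Nat.card G : ℂ) * ∑ᶠ χ : Cfsg.IrrCharacter G, (χ : G → ℂ) a * (χ : G → ℂ) b * conj ((χ : G → ℂ) c) / (χ : G → ℂ) 1 := by
  classical
  haveI := Fintype.ofFinite G
  set A := Finset.univ.filter (fun x : G => IsConj a x) with hA
  set B := Finset.univ.filter (fun y : G => IsConj b y) with hB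
  have hN : Nat.card {p : G × G // IsConj a p.1 ∧ IsConj b p.2 ∧ p.1 * p.2 = c}
      = ((A ×ˢ B).filter (fun p : G × G => p.1 * p.2 = c)).card := by
    rw [Nat.card_eq_fintype_card, Fintype.card_subtype]
    congr 1
    ext p
    simp [hA, hB, and_assoc]
  have hAc : Nat.card {x : G // IsConj a x} = A.card := by
    rw [Nat.card_eq_fintype_card, Fintype.card_subtype]
  have hBc : Nat.card {x : G // IsConj b x} = B.card := by
    rw [Nat.card_eq_fintype_card, Fintype.card_subtype]
  rw [hN, hAc, hBc, finsum_irr_eq_sum]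
  -- conjugation invariance of the count
  have hk : ∀ k : G, ((A ×ˢ B).filter (fun p : G × G => k * (p.1 * p.2) * k⁻¹ = c)).card
      = ((A ×ˢ B).filter (fun p : G × G => p.1 * p.2 = c)).card := by
    intro k
    apply Finset.card_nbij' (fun p : G × G => (k * p.1 * k⁻¹, k * p.2 * k⁻¹))
      (fun p : G × G => (k⁻¹ * p.1 * k, k⁻¹ * p.2 * k))
    · intro p hp
      simp only [hA, hB, Finset.coe_filter, Finset.mem_product, Finset.mem_filter, Finset.mem_univ,
        true_and, Set.mem_ofPred_eq] at hp ⊢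
      refine ⟨⟨hp.1.1.trans (isConj_iff.mpr ⟨k, rfl⟩), hp.1.2.trans (isConj_iff.mpr ⟨k, rfl⟩)⟩, ?_⟩
      rw [← hp.2]; group
    · intro p hp
      simp only [hA, hB, Finset.coe_filter, Finset.mem_product, Finset.mem_filter, Finset.mem_univ,
        true_and, Set.mem_ofPred_eq] at hp ⊢
      refine ⟨⟨hp.1.1.trans (isConj_iff.mpr ⟨k⁻¹, by simp⟩),
        hp.1.2.trans (isConj_iff.mpr ⟨k⁻¹, by simp⟩)⟩, ?_⟩
      rw [← hp.2]; group
    · intro p _
      ext <;> simp [mul_assoc]
    · intro p _
      ext <;> simp [mul_assoc]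
  have key : ∑ χ : IrrCharacter G, (∑ p ∈ A ×ˢ B, (χ : G → ℂ) (p.1 * p.2)) * conj ((χ : G → ℂ) c)
      = (Nat.card G : ℂ) * (((A ×ˢ B).filter (fun p : G × G => p.1 * p.2 = c)).card : ℂ) := by
    simp only [Finset.sum_mul]
    rw [Finset.sum_comm]
    simp only [sum_irr_mul_conj_eq_card]
    have : ∀ p : G × G, ((Finset.univ.filter (fun x : G => x * (p.1 * p.2) * x⁻¹ = c)).card : ℂ)
        = ∑ k : G, if k * (p.1 * p.2) * k⁻¹ = c then (1 : ℂ) else 0 := by
      intro p
      rw [Finset.card_filter]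
      push_cast
      rfl
    simp only [this]
    rw [Finset.sum_comm]
    have h2 : ∀ k : G, ∑ p ∈ A ×ˢ B, (if k * (p.1 * p.2) * k⁻¹ = c then (1 : ℂ) else 0)
        = (((A ×ˢ B).filter (fun p : G × G => p.1 * p.2 = c)).card : ℂ) := by
      intro k
      rw [← hk k, Finset.card_filter]
      push_cast
      rfl
    rw [Finset.sum_congr rfl (fun k _ => h2 k), Finset.sum_const, Finset.card_univ, nsmul_eq_mul,
      Nat.card_eq_fintype_card]
  have hscm : ∀ χ : IrrCharacter G, ∑ p ∈ A ×ˢ B, (χ : G → ℂ) (p.1 * p.2)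
      = (A.card : ℂ) * (B.card : ℂ) * (χ : G → ℂ) a * (χ : G → ℂ) b / (χ : G → ℂ) 1 := by
    intro χ
    rw [Finset.sum_product' (f := fun x y => (χ : G → ℂ) (x * y))]
    exact sum_class_mul χ a b
  simp only [hscm] at key
  have hG0 : (Nat.card G : ℂ) ≠ 0 := by
    exact_mod_cast (Nat.card_pos (α := G)).ne'
  have e : (A.card : ℂ) * (B.card : ℂ) / (Nat.card G : ℂ)
        * ∑ χ : IrrCharacter G, (χ : G → ℂ) a * (χ : G → ℂ) b * conj ((χ : G → ℂ) c) / (χ : G → ℂ) 1
      = (Nat.card G : ℂ)⁻¹ * ∑ χ : IrrCharacter G,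
          (A.card : ℂ) * (B.card : ℂ) * (χ : G → ℂ) a * (χ : G → ℂ) b / (χ : G → ℂ) 1
            * conj ((χ : G → ℂ) c) := by
    rw [Finset.mul_sum, Finset.mul_sum]
    apply Finset.sum_congr rfl
    intro χ _
    ring
  rw [e, key]
  field_simp

end Cfsg.Agent.S0840
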