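-- helper9: generalized quaternion Sylow 2-subgroup, D = S': N(D) = K S, C(D) = K (S ∩ C(D)), index 2.
import Mathlib
import Cfsg.Statements.S0842
import Cfsg.Agent.Helper9.Quat
import Cfsg.Agent.Helper1.Frobenius

set_option autoImplicit false
open Cfsg

namespace Cfsg.Agent.S0842

/-- Suppose a Sylow 2-subgroup S of the finite group G is generalized quaternion of order at least 16, and let D be the commutator subgroup of S, C its centralizer and N its normalizer in G. Then there is a subgroup K of odd order, contained in C and normalized by N, with K ⊔ S = N and K ⊔ (S ⊓ C) = C, and C has index 2 in N. -/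
theorem result {G : Type*} [Group G] [Finite G] (S : Sylow 2 G) (n : ℕ) (e : (S : Subgroup G) ≃* QuaternionGroup (2 ^ (n + 2))) (D : Subgroup G) (hD : D = ⁅(S : Subgroup G), (S : Subgroup G)⁆) : ∃ K : Subgroup G, Odd (Nat.card K) ∧ K ≤ Subgroup.centralizer (D : Set G) ∧ Subgroup.normalizer (D : Set G) ≤ Subgroup.normalizer (K : Set G) ∧ K ⊔ (S : Subgroup G) = Subgroup.normalizer (D : Set G) ∧ K ⊔ ((S : Subgroup G) ⊓ Subgroup.centralizer (D : Set G)) = Subgroup.centralizer (D : Set G) ∧ ((Subgroup.centralizer (D : Set G)).subgroupOf (Subgroup.normalizer (D : Set G))).index = 2 := by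
  haveI : Fact (Nat.Prime 2) := ⟨Nat.prime_two⟩
  obtain ⟨A, x, hAS, hxS, hoA, hxA, hpow4, hmul, hAAD, hDA, hCS, hSN, hoddC⟩ :=
    Helper9.quat_struct (S : Subgroup G) S.isPGroup' n e D hD
  have hCN : Subgroup.centralizer (D : Set G) ≤ Subgroup.normalizer (D : Set G) :=
    Subgroup.centralizer_le_normalizer _
  obtain ⟨N, hNdef⟩ : ∃ N : Subgroup G, N = Subgroup.normalizer (D : Set G) := ⟨_, rfl⟩
  rw [← hNdef] at hSN hoddC hCN ⊢
  have hloc : Helper1.LocalP 2 ↥N := by
    apply Helper1.localP_of_sylow (S.subtype hSN)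
    intro Q hQP g hg hgo
    have hgodd : Odd (orderOf (g : G)) := by
      rw [Subgroup.orderOf_coe]
      exact Nat.coprime_two_right.1 hgo
    have hgC : (g : G) ∈ Subgroup.centralizer (D : Set G) := hoddC (g : G) g.2 hgodd
    have hQS : Q.map N.subtype ≤ (S : Subgroup G) := by
      rintro _ ⟨q, hq, rfl⟩
      have h1 := hQP hq
      rw [Sylow.coe_subtype, Subgroup.mem_subgroupOf] at h1
      exact h1
    have hgQ : ∀ q ∈ Q.map N.subtype, (g : G) * q * (g : G)⁻¹ ∈ Q.map N.subtype := by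
      rintro _ ⟨q, hq, rfl⟩
      exact ⟨g * q * g⁻¹, (Subgroup.mem_normalizer_iff.1 hg q).1 hq, by simp⟩
    have hall := Helper9.idx_two_centralizes_of_inter (S : Subgroup G) S.isPGroup'
      (Subgroup.zpowers A) hmul (Q.map N.subtype) hQS (g : G) hgQ hgodd (by
        intro q hq hqA
        exact Helper9.quat_comm_of_mem (S : Subgroup G) n A hoA hpow4 D hAAD (g : G) hgC hgodd q
          hqA (hQS (hgQ q hq)))
    rw [Subgroup.mem_centralizer_iff]
    intro q hq
    apply Subtype.ext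
    show (q : G) * (g : G) = (g : G) * (q : G)
    exact (hall (q : G) ⟨q, hq, rfl⟩).symm
  have hnpc : Cfsg.HasNormalPComplement 2 ↥N := Helper1.npc_of_local hloc
  obtain ⟨K₀, hK₀n, hcompl, hcop⟩ := Helper1.compl_of_npc (S.subtype hSN) hnpc
  have hKN : ∀ k ∈ K₀.map N.subtype, k ∈ N := by
    rintro _ ⟨k, -, rfl⟩
    exact k.2
  have hKodd : ∀ k ∈ K₀.map N.subtype, Odd (orderOf k) := by
    rintro _ ⟨k, hk, rfl⟩
    have h1 : orderOf (N.subtype k) = orderOf (⟨k, hk⟩ : ↥K₀) := by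
      rw [Subgroup.coe_subtype, Subgroup.orderOf_coe, ← Subgroup.orderOf_coe (⟨k, hk⟩ : ↥K₀)]
    rw [h1]
    exact Odd.of_dvd_nat (Nat.coprime_two_right.1 hcop) (orderOf_dvd_natCard _)
  have hKC : K₀.map N.subtype ≤ Subgroup.centralizer (D : Set G) := fun k hk =>
    hoddC k (hKN k hk) (hKodd k hk)
  have hdec : ∀ g ∈ N, ∃ k ∈ K₀.map N.subtype, ∃ s ∈ (S : Subgroup G), g = k * s := by
    intro g hg
    obtain ⟨⟨⟨k, hk⟩, ⟨s, hs⟩⟩, hks⟩ := hcompl.2 ⟨g, hg⟩
    have hs' : (s : G) ∈ (S : Subgroup G) := by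
      have h1 : s ∈ ((S.subtype hSN : Sylow 2 ↥N) : Subgroup ↥N) := hs
      rw [Sylow.coe_subtype, Subgroup.mem_subgroupOf] at h1
      exact h1
    refine ⟨(k : G), ⟨k, hk, rfl⟩, (s : G), hs', ?_⟩
    have h2 := congrArg Subtype.val hks
    simpa using h2.symm
  have hCiff : ∀ k ∈ K₀.map N.subtype, ∀ s ∈ (S : Subgroup G),
      (k * s ∈ Subgroup.centralizer (D : Set G) ↔ s ∈ Subgroup.zpowers A) := by
    intro k hk s hs
    rw [Subgroup.mul_mem_cancel_left _ (hKC hk)]
    exact hCS s hs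
  refine ⟨K₀.map N.subtype, ?_, hKC, ?_, ?_, ?_, ?_⟩
  · rw [Subgroup.card_map_of_injective N.subtype_injective]
    exact Nat.coprime_two_right.1 hcop
  · intro g hg
    apply Helper9.mem_normalizer_of_conj_le (K₀.map N.subtype) g
    rintro _ ⟨k, hk, rfl⟩
    exact ⟨⟨g, hg⟩ * k * ⟨g, hg⟩⁻¹, hK₀n.conj_mem k hk ⟨g, hg⟩, by simp⟩
  · apply le_antisymm
    · exact sup_le (fun k hk => hKN k hk) hSN
    · intro g hg
      obtain ⟨k, hk, s, hs, rfl⟩ := hdec g hg
      exact Subgroup.mul_mem_sup hk hs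
  · apply le_antisymm
    · exact sup_le hKC inf_le_right
    · intro g hg
      obtain ⟨k, hk, s, hs, rfl⟩ := hdec g (hCN hg)
      have hsC : s ∈ Subgroup.centralizer (D : Set G) :=
        (Subgroup.mul_mem_cancel_left _ (hKC hk)).1 hg
      exact Subgroup.mul_mem_sup hk ⟨hs, hsC⟩
  · rw [Subgroup.index_eq_two_iff]
    refine ⟨⟨x, hSN hxS⟩, fun b => ?_⟩
    obtain ⟨k, hk, s, hs, hbks⟩ := hdec (b : G) b.2
    have hb_iff : b ∈ (Subgroup.centralizer (D : Set G)).subgroupOf N ↔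
        s ∈ Subgroup.zpowers A := by
      rw [Subgroup.mem_subgroupOf, hbks]
      exact hCiff k hk s hs
    have hba_iff : b * ⟨x, hSN hxS⟩ ∈ (Subgroup.centralizer (D : Set G)).subgroupOf N ↔
        s * x ∈ Subgroup.zpowers A := by
      rw [Subgroup.mem_subgroupOf]
      have e1 : ((b * ⟨x, hSN hxS⟩ : ↥N) : G) = k * (s * x) := by
        rw [Subgroup.coe_mul, hbks, mul_assoc]
      rw [e1]
      exact hCiff k hk (s * x) (Subgroup.mul_mem _ hs hxS)
    by_cases hsA : s ∈ Subgroup.zpowers A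
    · refine Or.inr ⟨hb_iff.2 hsA, fun h => hxA ?_⟩
      have h1 := hba_iff.1 h
      exact (Subgroup.mul_mem_cancel_left _ hsA).1 h1
    · exact Or.inl ⟨hba_iff.2 (hmul s hs x hxS hsA hxA), fun h => hsA (hb_iff.1 h)⟩

end Cfsg.Agent.S0842
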