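-- helper9: generalized quaternion Sylow 2-subgroup, D = S': elements of C(D) of order divisible by |D|.
import Mathlib
import Cfsg.Statements.S0843
import Cfsg.Agent.Helper9.Quat
import Cfsg.Agent.Helper1.Frobenius

set_option autoImplicit false
open Cfsg

namespace Cfsg.Agent.S0843

/-- Suppose a Sylow 2-subgroup S of the finite group G is generalized quaternion of order at least 16; let D be the commutator subgroup of S and X the set of elements of the centralizer of D whose order is divisible by the order of D. Then D is contained in the cyclic subgroup generated by any element of X; an element of G conjugating some element of X into the centralizer of D normalizes D; and the normalizer of D maps X to itself under conjugation. -/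
theorem result {G : Type*} [Group G] [Finite G] (S : Sylow 2 G) (n : ℕ) (e : (S : Subgroup G) ≃* QuaternionGroup (2 ^ (n + 2))) (D : Subgroup G) (hD : D = ⁅(S : Subgroup G), (S : Subgroup G)⁆) : (∀ y : G, y ∈ Subgroup.centralizer (D : Set G) → Nat.card D ∣ orderOf y → D ≤ Subgroup.zpowers y) ∧ (∀ g y : G, y ∈ Subgroup.centralizer (D : Set G) → Nat.card D ∣ orderOf y → g * y * g⁻¹ ∈ Subgroup.centralizer (D : Set G) → g ∈ Subgroup.normalizer (D : Set G)) ∧ (∀ g y : G, g ∈ Subgroup.normalizer (D : Set G) → y ∈ Subgroup.centralizer (D : Set G) → Nat.card D ∣ orderOf y → g * y * g⁻¹ ∈ Subgroup.centralizer (D : Set G) ∧ Nat.card D ∣ orderOf (g * y * g⁻¹)) := by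
  haveI : Fact (Nat.Prime 2) := ⟨Nat.prime_two⟩
  obtain ⟨A, x, hAS, hxS, hoA, hxA, hpow4, hmul, hAAD, hDA, hCS, hSN, hoddC⟩ :=
    Helper9.quat_struct (S : Subgroup G) S.isPGroup' n e D hD
  obtain ⟨d, hd⟩ := Helper9.exists_zpowers_eq_of_le D A hDA
  have hdD : d ∈ D := by rw [hd]; exact Subgroup.mem_zpowers d
  have hcardD : Nat.card D = orderOf d := by rw [hd, Nat.card_zpowers]
  have hdS : d ∈ (S : Subgroup G) := (Subgroup.zpowers_le.2 hAS) (hDA hdD)
  obtain ⟨f, hf⟩ := Helper9.exists_orderOf_eq_two_pow (S : Subgroup G) S.isPGroup' d hdS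
  have hoconj : ∀ g y : G, orderOf (g * y * g⁻¹) = orderOf y := by
    intro g y
    have h := (MulAut.conj g).orderOf_eq y
    rwa [MulAut.conj_apply] at h
  have hCnorm : ∀ g ∈ Subgroup.normalizer (D : Set G), ∀ y ∈ Subgroup.centralizer (D : Set G),
      g * y * g⁻¹ ∈ Subgroup.centralizer (D : Set G) := by
    intro g hg y hy
    rw [Subgroup.mem_centralizer_iff]
    intro t ht
    have ht' : g⁻¹ * t * g ∈ D := by
      have h0 : g⁻¹ * t * g⁻¹⁻¹ ∈ D :=
        (Subgroup.mem_normalizer_iff.1 (Subgroup.inv_mem _ hg) t).1 ht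
      rw [inv_inv] at h0
      exact h0
    have h1 : g⁻¹ * t * g * y = y * (g⁻¹ * t * g) := Subgroup.mem_centralizer_iff.1 hy _ ht'
    calc t * (g * y * g⁻¹) = g * (g⁻¹ * t * g * y) * g⁻¹ := by group
      _ = g * (y * (g⁻¹ * t * g)) * g⁻¹ := by rw [h1]
      _ = g * y * g⁻¹ * t := by group
  have key1 : ∀ y : G, y ∈ Subgroup.centralizer (D : Set G) → Nat.card D ∣ orderOf y →
      D ≤ Subgroup.zpowers y := by
    intro y hyC hdvd
    rw [hcardD] at hdvd
    obtain ⟨c, hc⟩ : ∃ c, c = orderOf y / orderOf d := ⟨_, rfl⟩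
    have hypos : 0 < orderOf y := orderOf_pos y
    have hcpos : 0 < c := by
      rw [hc]; exact Nat.div_pos (Nat.le_of_dvd hypos hdvd) (orderOf_pos d)
    have hcdvd : c ∣ orderOf y := by rw [hc]; exact Nat.div_dvd_of_dvd hdvd
    have hou : orderOf (y ^ c) = orderOf d := by
      rw [orderOf_pow_of_dvd hcpos.ne' hcdvd, hc]
      exact Nat.div_div_self hdvd hypos.ne'
    obtain ⟨u, hu⟩ : ∃ u, u = y ^ c := ⟨_, rfl⟩
    rw [← hu] at hou
    have huC : u ∈ Subgroup.centralizer (D : Set G) := by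
      rw [hu]; exact Subgroup.pow_mem _ hyC c
    have huN : u ∈ Subgroup.normalizer (D : Set G) := Subgroup.centralizer_le_normalizer _ huC
    have huy : u ∈ Subgroup.zpowers y := by
      rw [hu]; exact Subgroup.pow_mem _ (Subgroup.mem_zpowers y) c
    have hp2 : IsPGroup 2 (Subgroup.zpowers (⟨u, huN⟩ : ↥(Subgroup.normalizer (D : Set G)))) := by
      apply Helper1.isPGroup_zpowers _ f
      apply Subtype.ext
      rw [Subgroup.coe_pow, Subgroup.coe_one]
      show u ^ 2 ^ f = 1
      rw [← hf, ← hou]; exact pow_orderOf_eq_one u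
    obtain ⟨m, hm⟩ := Helper14.exists_le_sylow_conj (S.subtype hSN) _ hp2
    have h1 := hm (Subgroup.mem_zpowers _)
    rw [Helper14.mem_map_conj, Sylow.coe_subtype, Subgroup.mem_subgroupOf] at h1
    obtain ⟨m', hm'⟩ : ∃ m' : G, m' = ((m : G))⁻¹ := ⟨_, rfl⟩
    have hm'N : m' ∈ Subgroup.normalizer (D : Set G) := by
      rw [hm']; exact Subgroup.inv_mem _ m.2
    have hvS : m' * u * m'⁻¹ ∈ (S : Subgroup G) := by
      have e1 : ((m⁻¹ * ⟨u, huN⟩ * m : ↥(Subgroup.normalizer (D : Set G))) : G)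
          = m' * u * m'⁻¹ := by
        rw [hm', inv_inv]; rfl
      rw [← e1]; exact h1
    have hvC : m' * u * m'⁻¹ ∈ Subgroup.centralizer (D : Set G) := hCnorm m' hm'N u huC
    have hvA : m' * u * m'⁻¹ ∈ Subgroup.zpowers A := (hCS _ hvS).1 hvC
    have hov : orderOf (m' * u * m'⁻¹) = orderOf d := by
      rw [← hou]; exact hoconj m' u
    have hdv : d ∈ Subgroup.zpowers (m' * u * m'⁻¹) :=
      Helper9.mem_zpowers_of_orderOf_dvd A d _ (hDA hdD) hvA (dvd_of_eq hov.symm)
    intro t ht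
    have ht' : m' * t * m'⁻¹ ∈ D := (Subgroup.mem_normalizer_iff.1 hm'N t).1 ht
    have ht'v : m' * t * m'⁻¹ ∈ Subgroup.zpowers (m' * u * m'⁻¹) := by
      have h2 : m' * t * m'⁻¹ ∈ Subgroup.zpowers d := by rw [← hd]; exact ht'
      exact (Subgroup.zpowers_le.2 hdv) h2
    obtain ⟨j, hj⟩ := Subgroup.mem_zpowers_iff.1 ht'v
    rw [conj_zpow] at hj
    have h3 : u ^ j = t := mul_left_cancel (mul_right_cancel hj)
    rw [← h3]
    exact Subgroup.zpow_mem _ huy j
  refine ⟨key1, ?_, ?_⟩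
  · intro g y hy hdvd hgy
    have hD1 : D ≤ Subgroup.zpowers y := key1 y hy hdvd
    have hD2 : D ≤ Subgroup.zpowers (g * y * g⁻¹) :=
      key1 _ hgy (by rw [hoconj g y]; exact hdvd)
    apply Helper9.mem_normalizer_of_conj_le D g
    intro t ht
    have ht_d : t ∈ Subgroup.zpowers d := by rw [← hd]; exact ht
    obtain ⟨j, rfl⟩ := Subgroup.mem_zpowers_iff.1 ht_d
    rw [← conj_zpow]
    apply Subgroup.zpow_mem
    have hgd : g * d * g⁻¹ ∈ Subgroup.zpowers (g * y * g⁻¹) := by
      obtain ⟨i, hi⟩ := Subgroup.mem_zpowers_iff.1 (hD1 hdD)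
      rw [← hi, ← conj_zpow]
      exact Subgroup.zpow_mem _ (Subgroup.mem_zpowers _) i
    have h2 : g * d * g⁻¹ ∈ Subgroup.zpowers d :=
      Helper9.mem_zpowers_of_orderOf_dvd (g * y * g⁻¹) (g * d * g⁻¹) d hgd (hD2 hdD)
        (dvd_of_eq (hoconj g d))
    rw [hd]; exact h2
  · intro g y hg hy hdvd
    refine ⟨hCnorm g hg y hy, ?_⟩
    rw [hoconj g y]; exact hdvd

end Cfsg.Agent.S0843
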