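import Mathlib
import Cfsg.Statements.S0849

set_option autoImplicit false
open Cfsg

namespace Cfsg.Agent.S0849

/-- Let H be a subgroup of a finite group G and S a subset of H that is mapped to itself under conjugation by H, is disjoint from its conjugate by any element outside H, and is closed under inverses. Let φ be a class function of H vanishing on H away from S, and let u, v be involutions of G. Then the sum of the induced function of φ over all products a * b with a conjugate to u and b conjugate to v equals the index of H times the sum of φ (a * b) over such pairs with a and b in H. -/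
theorem result {G : Type*} [Group G] [Fintype G] (H : Subgroup G) (S : Set G) (hSH : S ⊆ H) (hHS : ∀ h ∈ H, ∀ s ∈ S, h * s * h⁻¹ ∈ S) (hTI : ∀ g : G, g ∉ H → ∀ s ∈ S, g * s * g⁻¹ ∉ S) (hinv : ∀ s ∈ S, s⁻¹ ∈ S) (φ : H → ℂ) (hφ : Cfsg.IsClassFunction H φ) (hφS : ∀ x : H, (x : G) ∉ S → φ x = 0) (u v : G) (hu : orderOf u = 2) (hv : orderOf v = 2) : ∑ᶠ p ∈ {p : G × G | IsConj u p.1 ∧ IsConj v p.2}, Cfsg.indFun H φ (p.1 * p.2) = (H.index : ℂ) * ∑ᶠ p ∈ {p : H × H | IsConj u (p.1 : G) ∧ IsConj v (p.2 : G)}, φ (p.1 * p.2) := by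
  classical
  have ext_mem : ∀ (g : G) (hg : g ∈ H), Cfsg.extendByZero H φ g = φ ⟨g, hg⟩ := by
    intro g hg
    exact Subtype.val_injective.extend_apply φ 0 ⟨g, hg⟩
  have ext_not_mem : ∀ g : G, g ∉ H → Cfsg.extendByZero H φ g = 0 := by
    intro g hg
    unfold Cfsg.extendByZero
    rw [Function.extend_apply']
    · rfl
    · rintro ⟨a, ha⟩
      exact hg (ha ▸ a.2)
  have hinvol : ∀ w : G, orderOf w = 2 → ∀ a : G, IsConj w a → a * a = 1 := by
    intro w hw a ha
    obtain ⟨c, hc⟩ := isConj_iff.mp ha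
    have hww : w * w = 1 := by rw [← pow_two, ← hw, pow_orderOf_eq_one]
    rw [← hc]
    calc c * w * c⁻¹ * (c * w * c⁻¹) = c * (w * w) * c⁻¹ := by group
      _ = 1 := by rw [hww]; group
  -- the key vanishing fact
  have key : ∀ a b : G, IsConj u a → IsConj v b → Cfsg.extendByZero H φ (a * b) ≠ 0 →
      a ∈ H ∧ b ∈ H := by
    intro a b ha hb hne
    have haa := hinvol u hu a ha
    have hbb := hinvol v hv b hb
    have habH : a * b ∈ H := by
      by_contra h
      exact hne (ext_not_mem _ h)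
    have habS : a * b ∈ S := by
      by_contra h
      apply hne
      rw [ext_mem _ habH]
      exact hφS ⟨a * b, habH⟩ h
    have hainv : a⁻¹ = a := inv_eq_of_mul_eq_one_right haa
    have hbinv : b⁻¹ = b := inv_eq_of_mul_eq_one_right hbb
    have h1 : a * (a * b) * a⁻¹ = (a * b)⁻¹ := by
      rw [mul_inv_rev, hainv, hbinv, ← mul_assoc, haa, one_mul]
    have haH : a ∈ H := by
      by_contra h
      have := hTI a h (a * b) habS
      rw [h1] at this
      exact this (hinv _ habS)
    refine ⟨haH, ?_⟩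
    have : b = a⁻¹ * (a * b) := by group
    rw [this]
    exact H.mul_mem (H.inv_mem haH) habH
  -- convert finsums to finset sums
  set A : Finset (G × G) := Finset.univ.filter (fun p : G × G => IsConj u p.1 ∧ IsConj v p.2)
    with hA
  set B : Finset (H × H) :=
    Finset.univ.filter (fun p : H × H => IsConj u (p.1 : G) ∧ IsConj v (p.2 : G)) with hB
  have hL : ∑ᶠ p ∈ {p : G × G | IsConj u p.1 ∧ IsConj v p.2}, Cfsg.indFun H φ (p.1 * p.2)
      = ∑ p ∈ A, Cfsg.indFun H φ (p.1 * p.2) := by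
    rw [finsum_mem_eq_finite_toFinset_sum _ (Set.toFinite _)]
    apply Finset.sum_congr
    · ext p; simp [hA]
    · intros; rfl
  have hR : ∑ᶠ p ∈ {p : H × H | IsConj u (p.1 : G) ∧ IsConj v (p.2 : G)}, φ (p.1 * p.2)
      = ∑ p ∈ B, φ (p.1 * p.2) := by
    rw [finsum_mem_eq_finite_toFinset_sum _ (Set.toFinite _)]
    apply Finset.sum_congr
    · ext p; simp [hB]
    · intros; rfl
  rw [hL, hR]
  -- reindexing by conjugation
  have hconj : ∀ x : G, ∑ p ∈ A, Cfsg.extendByZero H φ (x⁻¹ * (p.1 * p.2) * x)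
      = ∑ p ∈ A, Cfsg.extendByZero H φ (p.1 * p.2) := by
    intro x
    apply Finset.sum_nbij' (fun p : G × G => (x⁻¹ * p.1 * x, x⁻¹ * p.2 * x))
      (fun p : G × G => (x * p.1 * x⁻¹, x * p.2 * x⁻¹))
    · intro p hp
      simp only [hA, Finset.mem_filter, Finset.mem_univ, true_and] at hp ⊢
      refine ⟨hp.1.trans (isConj_iff.mpr ⟨x⁻¹, by simp⟩), hp.2.trans (isConj_iff.mpr ⟨x⁻¹, by simp⟩)⟩
    · intro p hp
      simp only [hA, Finset.mem_filter, Finset.mem_univ, true_and] at hp ⊢
      refine ⟨hp.1.trans (isConj_iff.mpr ⟨x, rfl⟩), hp.2.trans (isConj_iff.mpr ⟨x, rfl⟩)⟩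
    · intro p _
      ext <;> simp [mul_assoc]
    · intro p _
      ext <;> simp [mul_assoc]
    · intro p _
      congr 1
      simp [mul_assoc]
  have hsum1 : ∑ p ∈ A, Cfsg.indFun H φ (p.1 * p.2)
      = (Nat.card H : ℂ)⁻¹ * ((Nat.card G : ℂ) * ∑ p ∈ A, Cfsg.extendByZero H φ (p.1 * p.2)) := by
    unfold Cfsg.indFun
    rw [← Finset.mul_sum, Finset.sum_comm]
    congr 1
    rw [Finset.sum_congr rfl (fun x _ => hconj x)]
    rw [Finset.sum_const, Finset.card_univ, nsmul_eq_mul, Nat.card_eq_fintype_card]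
  have hsum2 : ∑ p ∈ A, Cfsg.extendByZero H φ (p.1 * p.2) = ∑ p ∈ B, φ (p.1 * p.2) := by
    symm
    apply Finset.sum_bij_ne_zero (fun (p : H × H) _ _ => ((p.1 : G), (p.2 : G)))
    · intro p hp _
      simp only [hA, hB, Finset.mem_filter, Finset.mem_univ, true_and] at hp ⊢
      exact hp
    · intro p₁ _ _ p₂ _ _ h
      simp only [Prod.mk.injEq] at h
      exact Prod.ext (Subtype.ext h.1) (Subtype.ext h.2)
    · intro p hp hne
      simp only [hA, Finset.mem_filter, Finset.mem_univ, true_and] at hp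
      obtain ⟨h1, h2⟩ := key p.1 p.2 hp.1 hp.2 hne
      refine ⟨(⟨p.1, h1⟩, ⟨p.2, h2⟩), ?_, ?_, rfl⟩
      · simp only [hB, Finset.mem_filter, Finset.mem_univ, true_and]
        exact hp
      · rw [ext_mem _ (H.mul_mem h1 h2)] at hne
        exact hne
    · intro p _ _
      rw [ext_mem _ (H.mul_mem p.1.2 p.2.2)]
      rfl
  rw [hsum1, hsum2, ← mul_assoc]
  congr 1
  have hcard : (Nat.card H : ℂ) * (H.index : ℂ) = (Nat.card G : ℂ) := by
    rw [← Nat.cast_mul, Subgroup.card_mul_index]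
  have hH0 : (Nat.card H : ℂ) ≠ 0 := by
    exact_mod_cast (Nat.card_pos (α := H)).ne'
  rw [← hcard, ← mul_assoc, inv_mul_cancel₀ hH0, one_mul]

end Cfsg.Agent.S0849
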