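import Mathlib
import Cfsg.Statements.S0850
import Cfsg.Agent.Helper5.Grp
import Cfsg.Agent.Helper5.Ind

namespace Cfsg.Agent.S0850

open Cfsg.Agent.Helper5

theorem part1 {G : Type*} [Group G] [Fintype G] (K : Subgroup G) (hTI : ∀ g : G, g ∉ Subgroup.normalizer (K : Set G) → ∀ k ∈ K, g * k * g⁻¹ ∈ K → k = 1) (hC : ∀ k ∈ K, k ≠ 1 → Subgroup.centralizer ({k} : Set G) ≤ K) :
    ∀ x ∈ Subgroup.normalizer (K : Set G), x ∉ K → ∀ g : G, g * x * g⁻¹ ∉ K := by
  classical
  intro x hxN hxK g hgx
  have hgN : g ∉ Subgroup.normalizer (K : Set G) := by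
    intro hg
    apply hxK
    have := conj_inv_mem_of_mem_normalizer hg hgx
    have e : g⁻¹ * (g * x * g⁻¹) * g = x := by group
    rwa [e] at this
  have hx1 : x ≠ 1 := fun h => hxK (h ▸ K.one_mem)
  have hzK : ∀ z ∈ Subgroup.zpowers x, z ∈ K → z = 1 := by
    intro z hz hzK
    obtain ⟨i, rfl⟩ := Subgroup.mem_zpowers_iff.mp hz
    apply hTI g hgN _ hzK
    rw [← conj_zpow]
    exact K.zpow_mem hgx i
  let act : MulAction (Subgroup.zpowers x) {k : K // k ≠ 1} :=
    { smul := fun z k => ⟨⟨(z : G) * (k.1 : G) * (z : G)⁻¹,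
          conj_mem_of_mem_normalizer ((Subgroup.zpowers_le.mpr hxN) z.2) k.1.2⟩, by
        intro h
        apply k.2
        have h' : (z : G) * (k.1 : G) * (z : G)⁻¹ = 1 := congrArg Subtype.val h
        apply Subtype.ext
        have : (k.1 : G) = (z : G)⁻¹ * ((z : G) * (k.1 : G) * (z : G)⁻¹) * (z : G) := by group
        rw [this, h']; simp⟩
      one_smul := fun k => by
        apply Subtype.ext; apply Subtype.ext
        show ((1 : Subgroup.zpowers x) : G) * (k.1 : G) * ((1 : Subgroup.zpowers x) : G)⁻¹ = _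
        simp
      mul_smul := fun a b k => by
        apply Subtype.ext; apply Subtype.ext
        show ((a * b : Subgroup.zpowers x) : G) * (k.1 : G) *
            ((a * b : Subgroup.zpowers x) : G)⁻¹ =
          (a : G) * ((b : G) * (k.1 : G) * (b : G)⁻¹) * (a : G)⁻¹
        simp [mul_assoc] }
  have hfree : ∀ k : {k : K // k ≠ 1}, MulAction.stabilizer (Subgroup.zpowers x) k = ⊥ := by
    intro k
    rw [Subgroup.eq_bot_iff_forall]
    intro z hz
    rw [MulAction.mem_stabilizer_iff] at hz
    have hz' : (z : G) * (k.1 : G) * (z : G)⁻¹ = (k.1 : G) :=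
      congrArg (fun t : {k : K // k ≠ 1} => ((t.1 : K) : G)) hz
    have hk1 : (k.1 : G) ≠ 1 := fun h => k.2 (Subtype.ext h)
    have hzC : (z : G) ∈ Subgroup.centralizer ({(k.1 : G)} : Set G) := by
      rw [Subgroup.mem_centralizer_iff]
      intro h hh
      rw [Set.mem_singleton_iff] at hh
      rw [hh]
      calc (k.1 : G) * (z : G) = ((z : G) * (k.1 : G) * (z : G)⁻¹) * (z : G) := by rw [hz']
        _ = (z : G) * (k.1 : G) := by group
    have := hzK (z : G) z.2 (hC _ k.1.2 hk1 hzC)
    exact Subtype.ext this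
  have e := MulAction.selfEquivOrbitsQuotientProd hfree
  have hcard : Nat.card {k : K // k ≠ 1} =
      Nat.card (Quotient (MulAction.orbitRel (Subgroup.zpowers x) {k : K // k ≠ 1})) *
        Nat.card (Subgroup.zpowers x) := by
    rw [Nat.card_congr e, Nat.card_prod]
  have hdvd1 : orderOf x ∣ Nat.card {k : K // k ≠ 1} := by
    rw [hcard, Nat.card_zpowers]; exact dvd_mul_left _ _
  have hcard2 : Nat.card {k : K // k ≠ 1} = Nat.card K - 1 := by
    have : Fintype K := Fintype.ofFinite K
    rw [Nat.card_eq_fintype_card, Fintype.card_subtype_compl, Fintype.card_subtype_eq,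
      Nat.card_eq_fintype_card]
  have hdvd2 : orderOf x ∣ Nat.card K := by
    have h1 : orderOf (g * x * g⁻¹) = orderOf x := by
      have := (MulAut.conj g).orderOf_eq x
      simpa using this
    rw [← h1]
    have := orderOf_dvd_natCard (⟨g * x * g⁻¹, hgx⟩ : K)
    rwa [← Subgroup.orderOf_coe] at this
  have hone : orderOf x ∣ 1 := by
    have hpos : 0 < Nat.card K := Nat.card_pos
    rw [hcard2] at hdvd1
    have := Nat.dvd_sub hdvd2 hdvd1
    have h2 : Nat.card K - (Nat.card K - 1) = 1 := by omega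
    rwa [h2] at this
  exact hx1 (orderOf_eq_one_iff.mp (Nat.dvd_one.mp hone))

theorem result {G : Type*} [Group G] [Fintype G] (K : Subgroup G) (hTI : ∀ g : G, g ∉ Subgroup.normalizer (K : Set G) → ∀ k ∈ K, g * k * g⁻¹ ∈ K → k = 1) (hlt : K < Subgroup.normalizer (K : Set G)) (hC : ∀ k ∈ K, k ≠ 1 → Subgroup.centralizer ({k} : Set G) ≤ K) : (∀ x ∈ Subgroup.normalizer (K : Set G), x ∉ K → ∀ g : G, g * x * g⁻¹ ∉ K) ∧ ∀ (ϑ : Subgroup.normalizer (K : Set G) → ℂ), Cfsg.IsClassFunction (Subgroup.normalizer (K : Set G)) ϑ → (∀ x : Subgroup.normalizer (K : Set G), (x : G) ∉ K → ϑ x = 0) → ϑ 1 = 0 → ∀ x : Subgroup.normalizer (K : Set G), Cfsg.indFun (Subgroup.normalizer (K : Set G)) ϑ x = ϑ x := by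
  classical
  have p1 := part1 K hTI hC
  refine ⟨p1, ?_⟩
  intro ϑ hcf hvan h1 x
  have hterm : ∀ g : G, Cfsg.extendByZero (Subgroup.normalizer (K : Set G)) ϑ (g⁻¹ * (x : G) * g) =
      if g ∈ Subgroup.normalizer (K : Set G) then ϑ x else 0 := by
    intro g
    by_cases hg : g ∈ Subgroup.normalizer (K : Set G)
    · rw [if_pos hg]
      have hmem : g⁻¹ * (x : G) * g ∈ Subgroup.normalizer (K : Set G) :=
        Subgroup.mul_mem _ (Subgroup.mul_mem _ (Subgroup.inv_mem _ hg) x.2) hg
      rw [extendByZero_of_mem _ ϑ hmem]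
      have := hcf x ⟨g⁻¹, Subgroup.inv_mem _ hg⟩
      convert this using 2
      apply Subtype.ext; simp
    · rw [if_neg hg]
      by_cases hmem : g⁻¹ * (x : G) * g ∈ Subgroup.normalizer (K : Set G)
      · rw [extendByZero_of_mem _ ϑ hmem]
        by_cases hK : g⁻¹ * (x : G) * g ∈ K
        · by_cases hone : g⁻¹ * (x : G) * g = 1
          · have : (⟨g⁻¹ * (x : G) * g, hmem⟩ : Subgroup.normalizer (K : Set G)) = 1 :=
              Subtype.ext hone
            rw [this, h1]
          · exfalso
            have hxK : (x : G) ∈ K := by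
              by_contra hxK
              have := p1 (x : G) x.2 hxK g⁻¹
              rw [inv_inv] at this
              exact this hK
            have hgN' : g⁻¹ ∉ Subgroup.normalizer (K : Set G) := fun h =>
              hg (by simpa using Subgroup.inv_mem _ h)
            have := hTI g⁻¹ hgN' (x : G) hxK (by rw [inv_inv]; exact hK)
            apply hone
            rw [this]; group
        · exact hvan ⟨_, hmem⟩ hK
      · exact extendByZero_of_notMem _ ϑ hmem
  rw [indFun_apply]
  simp only [hterm]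
  rw [Finset.sum_ite, Finset.sum_const, Finset.sum_const_zero, add_zero, nsmul_eq_mul,
    card_filter_mem_subgroup]
  have hne : (Nat.card (Subgroup.normalizer (K : Set G)) : ℂ) ≠ 0 := by
    exact_mod_cast Nat.card_pos.ne'
  field_simp

end Cfsg.Agent.S0850
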