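import Mathlib
import Cfsg.Statements.S0855
import Cfsg.Agent.Helper5.PRes
import Cfsg.Agent.S0887

set_option autoImplicit false
open Cfsg

namespace Cfsg.Agent.S0855

open Cfsg.Agent.Helper5 Cfsg.Agent.Helper24

/-- For a finite group G and a prime p: every irreducible character of G has degree a power of p if and only if G has an abelian normal subgroup whose order is prime to p and whose index is a power of p. -/
theorem result {G : Type*} [Group G] [Finite G] (p : ℕ) (hp : p.Prime) : (∀ χ : Cfsg.IrrCharacter G, ∃ k : ℕ, (χ : G → ℂ) 1 = (p : ℂ) ^ k) ↔ ∃ A : Subgroup G, A.Normal ∧ (∀ a ∈ A, ∀ b ∈ A, a * b = b * a) ∧ Nat.Coprime (Nat.card A) p ∧ ∃ k : ℕ, A.index = p ^ k := by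
  classical
  haveI : Fact p.Prime := ⟨hp⟩
  have : Fintype G := Fintype.ofFinite G
  constructor
  · intro hall
    have hdeg : ∀ χ : IrrCharacter G, charDegree (χ : G → ℂ) ≠ 1 →
        p ∣ charDegree (χ : G → ℂ) := by
      intro χ h1
      obtain ⟨k, hk⟩ := hall χ
      have h2 : charDegree (χ : G → ℂ) = p ^ k := by
        have h3 := (Cfsg.Agent.Helper22.charDegree_irr χ).1
        rw [hk] at h3
        exact_mod_cast h3
      rw [h2] at h1 ⊢
      rcases Nat.eq_zero_or_pos k with h0 | h0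
      · subst h0; exact absurd (pow_zero p) h1
      · exact dvd_pow_self p h0.ne'
    have hN := Cfsg.Agent.Helper6.pResidual_normal p G
    have hpg : IsPGroup p (G ⧸ pResidual p G) :=
      Cfsg.Agent.Helper6.isPGroup_quotient_pResidual p _ le_rfl
    obtain ⟨k, hk⟩ := IsPGroup.iff_card.mp hpg
    have hidx : ∃ k : ℕ, (pResidual p G).index = p ^ k :=
      ⟨k, by rw [Subgroup.index_eq_card]; exact hk⟩
    have hnd := not_dvd_card_of_degrees p (pResidual p G) hidx (pResidual_pResidual p G) hdeg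
    have hcop : (Nat.card (pResidual p G)).Coprime p :=
      ((Nat.Prime.coprime_iff_not_dvd hp).mpr hnd).symm
    refine ⟨pResidual p G, hN, ?_, hcop, hidx⟩
    have : Fintype (pResidual p G) := Fintype.ofFinite _
    have hlin : ∀ ψ : IrrCharacter (pResidual p G), (ψ : (pResidual p G) → ℂ) 1 = 1 := by
      intro ψ
      obtain ⟨χ, hχ⟩ := exists_irr_over (pResidual p G) (ψ : (pResidual p G) → ℂ) ψ.2
      obtain ⟨j, hj⟩ := hall χ
      obtain ⟨n, ρ, hρ, hρψ⟩ := ψ.2
      have hψ1 : (ψ : (pResidual p G) → ℂ) 1 = n := by rw [← hρψ, char_one_fin]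
      have hS := Cfsg.Agent.S0887.result (pResidual p G) (χ : G → ℂ) χ.2
        (ψ : (pResidual p G) → ℂ) ψ.2 hχ (p ^ j) n (by rw [hj]; push_cast; rfl) hψ1
      obtain ⟨i, -, hi⟩ := (Nat.dvd_prime_pow hp).mp hS.1
      have : ρ.IsIrreducible := hρ
      have hdvd := degree_dvd_card ρ
      rw [Module.finrank_fin_fun, hi] at hdvd
      rcases Nat.eq_zero_or_pos i with h0 | h0
      · rw [hψ1, hi, h0]; simp
      · exact absurd ((dvd_pow_self p h0.ne').trans hdvd) hnd
    intro a ha b hb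
    have h := comm_of_forall_irr_one hlin ⟨a, ha⟩ ⟨b, hb⟩
    exact congrArg Subtype.val h
  · rintro ⟨A, hA, hab, -, k, hk⟩ χ
    obtain ⟨d, hd1, hd2⟩ := Cfsg.Agent.Helper22.ito χ.2 A hab
    rw [hk] at hd2
    obtain ⟨j, -, hj⟩ := (Nat.dvd_prime_pow hp).mp hd2
    exact ⟨j, by rw [hd1, hj]; push_cast; rfl⟩

end Cfsg.Agent.S0855
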