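import Mathlib
import Cfsg.Statements.S0856
import Cfsg.Agent.Helper5.Isom

set_option autoImplicit false
open Cfsg

namespace Cfsg.Agent.S0856

open Cfsg.Agent.Helper24 Cfsg.Agent.Helper5

theorem result {G : Type*} [Group G] [Fintype G] (N : Subgroup G) [hN : N.Normal] (φ ϑ : N → ℂ) (hφ : Cfsg.IsIrrCharacter N φ) (hϑ : Cfsg.IsIrrCharacter N ϑ) (hφinv : ∀ (g : G) (n : N), φ ⟨g * n * g⁻¹, hN.conj_mem (n : G) n.2 g⟩ = φ n) (hϑinv : ∀ (g : G) (n : N), ϑ ⟨g * n * g⁻¹, hN.conj_mem (n : G) n.2 g⟩ = ϑ n) (hprod : Cfsg.IsIrrCharacter N (φ * ϑ)) (χ : G → ℂ) (hχ : Cfsg.IsIrrCharacter G χ) (hext : ∀ n : N, χ n = ϑ n) : Set.BijOn (fun β : G → ℂ => β * χ) {β : G → ℂ | Cfsg.IsIrrCharacter G β ∧ Cfsg.classInner (Cfsg.indFun N φ) β ≠ 0} {ψ : G → ℂ | Cfsg.IsIrrCharacter G ψ ∧ Cfsg.classInner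 (Cfsg.indFun N (φ * ϑ)) ψ ≠ 0} := by
  obtain ⟨h1, h2, h3⟩ := gallagher_bij N φ ϑ hφ hφinv hϑinv hprod χ hχ hext
  refine ⟨?_, ?_, ?_⟩
  · rintro β ⟨hβ, hne⟩
    obtain ⟨hirr, hm⟩ := h1 ⟨β, hβ⟩ hne
    exact ⟨hirr, by rw [hm]; exact hne⟩
  · rintro β ⟨hβ, hne⟩ β' ⟨hβ', hne'⟩ heq
    exact congrArg Subtype.val (h2 ⟨β, hβ⟩ ⟨β', hβ'⟩ hne hne' heq)
  · rintro ψ ⟨hψ, hne⟩
    obtain ⟨β, hβ, hβψ⟩ := h3 ψ hψ hne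
    exact ⟨(β : G → ℂ), ⟨β.2, hβ⟩, hβψ⟩

end Cfsg.Agent.S0856
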