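import Cfsg.Statements.S0857
import Cfsg.Agent.Helper21.GoDown

set_option autoImplicit false
open Cfsg

namespace Cfsg.Agent.S0857

/-- Let L < K be normal subgroups of the finite group G with no normal subgroup of G strictly between them and with K / L abelian (the commutator subgroup of K lies in L). Let ϑ be an irreducible character of K invariant under conjugation by G. Then the restriction of ϑ to L is irreducible; or it equals e times an irreducible character of L with e ^ 2 equal to the index of L in K; or it is the sum of a family of pairwise distinct irreducible characters of L indexed by a set whose size is the index of L in K. -/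
theorem result {G : Type*} [Group G] [Fintype G] (K L : Subgroup G) [hK : K.Normal] [L.Normal] (hLK : L < K) (hchief : ∀ M : Subgroup G, M.Normal → L ≤ M → M ≤ K → M = L ∨ M = K) (hab : ⁅K, K⁆ ≤ L) (ϑ : K → ℂ) (hϑ : Cfsg.IsIrrCharacter K ϑ) (hinv : ∀ (g : G) (n : K), ϑ ⟨g * n * g⁻¹, hK.conj_mem (n : G) n.2 g⟩ = ϑ n) : Cfsg.IsIrrCharacter L (fun x : L => ϑ ⟨(x : G), hLK.le x.2⟩) ∨ (∃ (φ : L → ℂ) (e : ℕ), Cfsg.IsIrrCharacter L φ ∧ (fun x : L => ϑ ⟨(x : G), hLK.le x.2⟩) = (e : ℂ) • φ ∧ e ^ 2 = L.relIndex K) ∨ (∃ F : Finset (L → ℂ), (∀ φ ∈ F, Cfsg.IsIrrCharacter L φ) ∧ F.card = L.relIndex K ∧ (fun x : L => ϑ ⟨(x : G), hLK.le x.2⟩) = ∑ φ ∈ F, φ) := by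
  classical
  haveI : Fintype K := Fintype.ofFinite K
  haveI : Fintype (L.subgroupOf K) := Fintype.ofFinite _
  have hLn : L.Normal := inferInstance
  obtain ⟨j, hj, hjc⟩ : ∃ j : L →* (L.subgroupOf K), Function.Surjective j ∧
      ∀ x : L, (((j x : L.subgroupOf K) : K) : G) = x :=
    ⟨(Subgroup.subgroupOfEquivOfLe hLK.le).symm.toMonoidHom,
      (Subgroup.subgroupOfEquivOfLe hLK.le).symm.surjective, fun x => rfl⟩
  have hψ : (fun x : L => ϑ ⟨(x : G), hLK.le x.2⟩) =
      fun x : L => (fun n : L.subgroupOf K => ϑ n) (j x) := by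
    funext x
    show ϑ ⟨(x : G), _⟩ = ϑ ((j x : L.subgroupOf K) : K)
    congr 1
    apply Subtype.ext
    exact (hjc x).symm
  have hab' : ∀ x y : K, x * y * x⁻¹ * y⁻¹ ∈ L.subgroupOf K := by
    intro x y
    rw [Subgroup.mem_subgroupOf]
    exact hab (Subgroup.commutator_mem_commutator x.2 y.2)
  have hAN : ∀ a ∈ Set.range (fun g : G => (MulAut.conjNormal g : K ≃* K)),
      ∀ n ∈ L.subgroupOf K, a n ∈ L.subgroupOf K := by
    rintro _ ⟨g, rfl⟩ n hn
    rw [Subgroup.mem_subgroupOf] at hn ⊢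
    show ((MulAut.conjNormal g n : K) : G) ∈ L
    rw [MulAut.conjNormal_apply]
    exact hLn.conj_mem _ hn g
  have hAϑ : ∀ a ∈ Set.range (fun g : G => (MulAut.conjNormal g : K ≃* K)),
      ∀ x, ϑ (a x) = ϑ x := by
    rintro _ ⟨g, rfl⟩ x
    have h := hinv g x
    have e : (MulAut.conjNormal g x : K) = ⟨g * x * g⁻¹, hK.conj_mem (x : G) x.2 g⟩ :=
      Subtype.ext (MulAut.conjNormal_apply g x)
    show ϑ (MulAut.conjNormal g x) = ϑ x
    rw [e]
    exact h
  have hchief' : ∀ M : Subgroup K, L.subgroupOf K ≤ M →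
      (∀ a ∈ Set.range (fun g : G => (MulAut.conjNormal g : K ≃* K)), ∀ m ∈ M, a m ∈ M) →
      M = L.subgroupOf K ∨ M = ⊤ := by
    intro M hNM hMinv
    have hM'n : (M.map K.subtype).Normal := by
      refine ⟨fun x hx g => ?_⟩
      obtain ⟨m, hm, rfl⟩ := Subgroup.mem_map.mp hx
      exact Subgroup.mem_map.mpr ⟨MulAut.conjNormal g m, hMinv _ ⟨g, rfl⟩ m hm,
        MulAut.conjNormal_apply g m⟩
    have hLM' : L ≤ M.map K.subtype := by
      intro x hx
      exact Subgroup.mem_map.mpr ⟨⟨x, hLK.le hx⟩, hNM (Subgroup.mem_subgroupOf.mpr hx), rfl⟩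
    have hM'K : M.map K.subtype ≤ K := Subgroup.map_subtype_le M
    rcases hchief _ hM'n hLM' hM'K with h | h
    · left
      apply le_antisymm _ hNM
      intro m hm
      rw [Subgroup.mem_subgroupOf, ← h]
      exact Subgroup.mem_map_of_mem K.subtype hm
    · right
      rw [Subgroup.eq_top_iff']
      intro m
      have h1 : (m : G) ∈ M.map K.subtype := by rw [h]; exact m.2
      obtain ⟨m', hm', e⟩ := Subgroup.mem_map.mp h1
      have h2 : m' = m := Subtype.ext e
      rw [← h2]
      exact hm'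
  rcases Cfsg.Agent.Helper21.GoDown.core (L.subgroupOf K) ϑ hϑ hab'
      (Set.range (fun g : G => (MulAut.conjNormal g : K ≃* K))) hAN hAϑ hchief' with
    h | ⟨φ, e, hφ, hdec, he⟩ | ⟨F, hF, hcard, hdec⟩
  · left
    rw [hψ]
    exact Cfsg.Agent.Helper24.isIrrCharacter_comp_surj j hj _ h
  · right; left
    refine ⟨fun x => φ (j x), e, Cfsg.Agent.Helper24.isIrrCharacter_comp_surj j hj φ hφ, ?_, he⟩
    rw [hψ]
    funext x
    exact congrFun hdec (j x)
  · right; right
    have hinj : Function.Injective (fun (φ : L.subgroupOf K → ℂ) => fun x : L => φ (j x)) :=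
      hj.injective_comp_right
    refine ⟨F.image (fun (φ : L.subgroupOf K → ℂ) => fun x : L => φ (j x)), ?_, ?_, ?_⟩
    · intro φ' h
      obtain ⟨φ, hφ, rfl⟩ := Finset.mem_image.mp h
      exact Cfsg.Agent.Helper24.isIrrCharacter_comp_surj j hj φ (hF φ hφ)
    · rw [Finset.card_image_of_injective F hinj]
      exact hcard
    · rw [Finset.sum_image (fun a _ b _ h => hinj h), hψ]
      funext x
      have h := congrFun hdec (j x)
      rw [Finset.sum_apply] at h ⊢
      exact h

end Cfsg.Agent.S0857
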