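import Cfsg.Statements.S0858
import Cfsg.Agent.S0857
import Cfsg.Agent.Helper22.MGroup

set_option autoImplicit false
open Cfsg

namespace Cfsg.Agent.S0858

open Cfsg.Agent.Helper24 Cfsg.Agent.Helper21.GoDown

universe u

/-- A chief factor of a group with solvable quotient is abelian. -/
theorem comm_le {G : Type u} [Group G] [Finite G] (K L : Subgroup G) [K.Normal] [L.Normal]
    (hLK : L < K) (hsolv : Group.IsSolvable (G ⧸ L))
    (hchief : ∀ M : Subgroup G, M.Normal → L ≤ M → M ≤ K → M = L ∨ M = K) : ⁅K, K⁆ ≤ L := by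
  have hMn : (L ⊔ ⁅K, K⁆).Normal := inferInstance
  have hcK : ⁅K, K⁆ ≤ K := Subgroup.commutator_le_right K K
  rcases hchief (L ⊔ ⁅K, K⁆) hMn le_sup_left (sup_le hLK.le hcK) with h | h
  · rw [← h]; exact le_sup_right
  · exfalso
    obtain ⟨n, hn⟩ := (Group.isSolvable_def (G ⧸ L)).mp hsolv
    have hperf : ⁅K.map (QuotientGroup.mk' L), K.map (QuotientGroup.mk' L)⁆ =
        K.map (QuotientGroup.mk' L) := by
      have h2 : Subgroup.map (QuotientGroup.mk' L) (L ⊔ ⁅K, K⁆) =
          Subgroup.map (QuotientGroup.mk' L) ⁅K, K⁆ := by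
        rw [Subgroup.map_sup, QuotientGroup.map_mk'_self, bot_sup_eq]
      rw [← Subgroup.map_commutator, ← h2, h]
    have hle : ∀ i, K.map (QuotientGroup.mk' L) ≤ derivedSeries (G ⧸ L) i := by
      intro i
      induction i with
      | zero => rw [derivedSeries_zero]; exact le_top
      | succ i ih =>
        rw [derivedSeries_succ, ← hperf]
        exact Subgroup.commutator_mono ih ih
    have hbot := hle n
    rw [hn, le_bot_iff] at hbot
    apply not_le_of_gt hLK
    intro k hk
    have h1 : (QuotientGroup.mk' L k) ∈ K.map (QuotientGroup.mk' L) :=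
      Subgroup.mem_map_of_mem _ hk
    rw [hbot, Subgroup.mem_bot] at h1
    exact (QuotientGroup.eq_one_iff k).mp h1

/-- One Clifford step: a character not irreducible on `N` is induced from a proper subgroup
containing `N`. -/
theorem step {G : Type u} [Group G] [Fintype G] (N : Subgroup G) [hNn : N.Normal]
    (hsolv : Group.IsSolvable (G ⧸ N))
    (hchief : ∀ (K L : Subgroup G), K.Normal → L.Normal → N ≤ L → L < K →
      (∀ M : Subgroup G, M.Normal → L ≤ M → M ≤ K → M = L ∨ M = K) →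
      ¬ IsSquare (L.relIndex K))
    (χ : G → ℂ) (hχ : IsIrrCharacter G χ)
    (hnot : ¬ IsIrrCharacter N (fun n : N => χ n)) :
    ∃ T : Subgroup G, T ≠ ⊤ ∧ N ≤ T ∧ ∃ ψ : T → ℂ, IsIrrCharacter T ψ ∧ indFun T ψ = χ := by
  classical
  have hχc := isCharacter_of_isIrrCharacter hχ
  have hχcf : IsClassFunction G χ := isCharacter_isClassFunction hχc
  obtain ⟨K, ⟨hKn, hNK, hKirr⟩, hKmin⟩ := Set.exists_min_image
    {K : Subgroup G | K.Normal ∧ N ≤ K ∧ IsIrrCharacter K (fun k : K => χ k)}
    (fun K => Nat.card K) (Set.toFinite _)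
    ⟨⊤, inferInstance, le_top, isIrrCharacter_comp_surj (⊤ : Subgroup G).subtype
      (fun g => ⟨⟨g, Subgroup.mem_top g⟩, rfl⟩) χ hχ⟩
  have hNltK : N < K := by
    refine lt_of_le_of_ne hNK ?_
    intro h
    apply hnot
    subst h
    exact hKirr
  obtain ⟨L, ⟨hLn, hNL, hLK⟩, hLmax⟩ := Set.exists_max_image
    {L : Subgroup G | L.Normal ∧ N ≤ L ∧ L < K} (fun L => Nat.card L) (Set.toFinite _)
    ⟨N, hNn, le_refl N, hNltK⟩
  have hch : ∀ M : Subgroup G, M.Normal → L ≤ M → M ≤ K → M = L ∨ M = K := by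
    intro M hMn hLM hMK
    by_cases hMK' : M = K
    · exact Or.inr hMK'
    · left
      have h1 : Nat.card M ≤ Nat.card L :=
        hLmax M ⟨hMn, hNL.trans hLM, lt_of_le_of_ne hMK hMK'⟩
      exact (Subgroup.eq_of_le_of_card_ge hLM h1).symm
  haveI := hKn
  haveI := hLn
  have hsolvL : Group.IsSolvable (G ⧸ L) := by
    haveI := hsolv
    exact Group.isSolvable_of_surjective
      (f := QuotientGroup.map N L (MonoidHom.id G) (fun x hx => hNL hx))
      (fun y => by
        obtain ⟨g, rfl⟩ := QuotientGroup.mk_surjective y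
        exact ⟨(g : G ⧸ N), rfl⟩)
  have hab : ⁅K, K⁆ ≤ L := comm_le K L hLK hsolvL hch
  have hinv : ∀ (g : G) (n : K),
      (fun k : K => χ k) ⟨g * n * g⁻¹, hKn.conj_mem (n : G) n.2 g⟩ = (fun k : K => χ k) n :=
    fun g n => hχcf n g
  rcases Cfsg.Agent.S0857.result K L hLK hch hab (fun k : K => χ k) hKirr hinv with
    h | ⟨φ, e, hφ, hdec, he⟩ | ⟨F, hF, hcard, hdec⟩
  · exfalso
    have h1 : Nat.card K ≤ Nat.card L := hKmin L ⟨hLn, hNL, h⟩
    exact (ne_of_lt hLK) (Subgroup.eq_of_le_of_card_ge hLK.le h1)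
  · exfalso
    exact hchief K L hKn hLn hNL hLK hch ⟨e, by rw [← he, sq]⟩
  · have hrel2 : 1 < F.card := by
      rw [hcard]
      have h0 : L.relIndex K ≠ 0 := Subgroup.index_ne_zero_of_finite
      have h1 : L.relIndex K ≠ 1 := fun h => not_le_of_gt hLK (Subgroup.relIndex_eq_one.mp h)
      omega
    obtain ⟨φ₁, hφ₁F, φ₂, hφ₂F, hne⟩ := Finset.one_lt_card.mp hrel2
    have hφ₁ := hF φ₁ hφ₁F
    have hφ₂ := hF φ₂ hφ₂F
    haveI : Fintype L := Fintype.ofFinite L
    have hresL : (fun x : L => χ x) = ∑ φ ∈ F, φ := hdec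
    have hinner : ∀ φ' ∈ F, classInner (fun x : L => χ x) φ' = 1 := by
      intro φ' hφ'
      rw [hresL, classInner_sum_left, Finset.sum_eq_single_of_mem φ' hφ']
      · exact irr_inner_self (⟨φ', hF φ' hφ'⟩ : IrrCharacter L)
      · intro ψ hψ hne'
        exact irr_inner_ne (χ := (⟨ψ, hF ψ hψ⟩ : IrrCharacter L)) (ψ := ⟨φ', hF φ' hφ'⟩)
          (fun h => hne' (congrArg Subtype.val h))
    have hT : ∀ g : G, g ∈ inertia L φ₁ ↔
        ∀ n : L, φ₁ ⟨g * n * g⁻¹, hLn.conj_mem (n : G) n.2 g⟩ = φ₁ n := by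
      intro g
      constructor
      · intro h n
        exact congrFun (show twist L φ₁ g = φ₁ from h) n
      · intro h
        show twist L φ₁ g = φ₁
        funext n
        exact h n
    have hLT : L ≤ inertia L φ₁ := le_inertia L φ₁ hφ₁
    have hc1 : classInner (fun x : L => χ x) φ₁ ≠ 0 := by
      rw [hinner φ₁ hφ₁F]; exact one_ne_zero
    have hTtop : inertia L φ₁ ≠ ⊤ := by
      intro htop
      have hcl := clifford_restrict L hLn χ hχ φ₁ hφ₁ hc1
      have hset : {ψ : L → ℂ | ∃ g : G, ψ =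
          fun n : L => φ₁ ⟨g * n * g⁻¹, hLn.conj_mem n n.2 g⟩} = {φ₁} := by
        ext ψ
        constructor
        · rintro ⟨g, rfl⟩
          have hg : g ∈ inertia L φ₁ := by rw [htop]; exact Subgroup.mem_top g
          exact (show twist L φ₁ g = φ₁ from hg)
        · intro h
          rw [Set.mem_singleton_iff] at h
          exact ⟨1, by rw [h]; exact (twist_one L φ₁).symm⟩
      rw [hset, finsum_mem_singleton] at hcl
      have h2 : classInner (fun x : L => χ x) φ₂ = 0 := by
        rw [hcl, classInner_smul_left,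
          irr_inner_ne (χ := (⟨φ₁, hφ₁⟩ : IrrCharacter L)) (ψ := ⟨φ₂, hφ₂⟩)
            (fun h => hne (congrArg Subtype.val h)), mul_zero]
      rw [hinner φ₂ hφ₂F] at h2
      exact one_ne_zero h2
    haveI : Fintype (inertia L φ₁) := Fintype.ofFinite _
    obtain ⟨-, -, h3⟩ := Cfsg.Agent.Helper5.clifford_corr L φ₁ hφ₁ (inertia L φ₁) hT hLT
    obtain ⟨ψ, hψ, hind⟩ := h3 χ hχ hc1
    exact ⟨inertia L φ₁, hTtop, hNL.trans hLT, ψ, ψ.2, hind⟩

theorem rel_aux : ∀ (n : ℕ) (G : Type u) [Group G] [Fintype G] (N : Subgroup G) [N.Normal],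
    Nat.card G = n → Group.IsSolvable (G ⧸ N) →
    (∀ (H K L : Subgroup G), N ≤ L → L < K → K ≤ H → (∀ h ∈ H, ∀ k ∈ K, h * k * h⁻¹ ∈ K) →
      (∀ h ∈ H, ∀ l ∈ L, h * l * h⁻¹ ∈ L) →
      (∀ M : Subgroup G, L ≤ M → M ≤ K → (∀ h ∈ H, ∀ m ∈ M, h * m * h⁻¹ ∈ M) →
        M = L ∨ M = K) → ¬ IsSquare (L.relIndex K)) →
    ∀ (χ : G → ℂ), IsIrrCharacter G χ →
      ∃ (H : Subgroup G) (hNH : N ≤ H) (ψ : H → ℂ), IsIrrCharacter H ψ ∧ indFun H ψ = χ ∧
        IsIrrCharacter N (fun n : N => ψ ⟨(n : G), hNH n.2⟩) := by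
  intro n
  induction n using Nat.strong_induction_on with
  | _ n ih =>
    intro G _ _ N hNn hcard hsolv hchief χ hχ
    classical
    by_cases hirr : IsIrrCharacter N (fun n : N => χ n)
    · refine ⟨⊤, le_top, fun h => χ h, ?_, ?_, hirr⟩
      · exact isIrrCharacter_comp_surj (⊤ : Subgroup G).subtype
          (fun g => ⟨⟨g, Subgroup.mem_top g⟩, rfl⟩) χ hχ
      · exact Cfsg.Agent.Helper22.indFun_top χ
          (isCharacter_isClassFunction (isCharacter_of_isIrrCharacter hχ))
    · have hchief' : ∀ (K L : Subgroup G), K.Normal → L.Normal → N ≤ L → L < K →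
          (∀ M : Subgroup G, M.Normal → L ≤ M → M ≤ K → M = L ∨ M = K) →
          ¬ IsSquare (L.relIndex K) := by
        intro K L hKn hLn hNL hLK hch
        exact hchief ⊤ K L hNL hLK le_top (fun h _ k hk => hKn.conj_mem k hk h)
          (fun h _ l hl => hLn.conj_mem l hl h)
          (fun M hLM hMK hM => hch M ⟨fun m hm g => hM g (Subgroup.mem_top g) m hm⟩ hLM hMK)
      obtain ⟨T, hTtop, hNT, ψ, hψ, hind⟩ := step N hsolv hchief' χ hχ hirr
      haveI : Fintype T := Fintype.ofFinite T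
      have hlt : Nat.card T < n := by
        rw [← hcard]
        exact lt_of_le_of_ne (Subgroup.card_le_card_group T)
          (fun h => hTtop (Subgroup.eq_top_of_card_eq T h))
      have hsolvT : Group.IsSolvable (T ⧸ N.subgroupOf T) := by
        haveI := hsolv
        refine Group.isSolvable_of_isSolvable_injective
          (f := QuotientGroup.map (N.subgroupOf T) N T.subtype
            (fun x hx => Subgroup.mem_subgroupOf.mp hx)) ?_
        rw [injective_iff_map_eq_one]
        intro q hq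
        obtain ⟨x, rfl⟩ := QuotientGroup.mk_surjective q
        have hq' : ((x : G) : G ⧸ N) = 1 := hq
        exact (QuotientGroup.eq_one_iff x).mpr
          (Subgroup.mem_subgroupOf.mpr ((QuotientGroup.eq_one_iff (x : G)).mp hq'))
      have hinjT : Function.Injective T.subtype := Subgroup.subtype_injective T
      have hchiefT : ∀ (H K L : Subgroup T), N.subgroupOf T ≤ L → L < K → K ≤ H →
          (∀ h ∈ H, ∀ k ∈ K, h * k * h⁻¹ ∈ K) → (∀ h ∈ H, ∀ l ∈ L, h * l * h⁻¹ ∈ L) →
          (∀ M : Subgroup T, L ≤ M → M ≤ K → (∀ h ∈ H, ∀ m ∈ M, h * m * h⁻¹ ∈ M) →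
            M = L ∨ M = K) → ¬ IsSquare (L.relIndex K) := by
        intro H K L hNL hLK hKH hHK hHL hch
        rw [← Subgroup.relIndex_map_map_of_injective L K hinjT]
        apply hchief (H.map T.subtype) (K.map T.subtype) (L.map T.subtype)
        · intro x hx
          exact Subgroup.mem_map.mpr
            ⟨⟨x, hNT hx⟩, hNL (Subgroup.mem_subgroupOf.mpr hx), rfl⟩
        · exact (Subgroup.map_lt_map_iff_of_injective hinjT).mpr hLK
        · exact Subgroup.map_mono hKH
        · rintro _ ⟨h, hh, rfl⟩ _ ⟨k, hk, rfl⟩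
          exact Subgroup.mem_map.mpr ⟨h * k * h⁻¹, hHK h hh k hk, rfl⟩
        · rintro _ ⟨h, hh, rfl⟩ _ ⟨l, hl, rfl⟩
          exact Subgroup.mem_map.mpr ⟨h * l * h⁻¹, hHL h hh l hl, rfl⟩
        · intro M hLM hMK hM
          have hMT : M ≤ T.subtype.range := by
            rw [Subgroup.range_subtype]
            exact hMK.trans (Subgroup.map_subtype_le K)
          have h1 : L ≤ M.comap T.subtype := fun x hx => hLM (Subgroup.mem_map_of_mem _ hx)
          have h2 : M.comap T.subtype ≤ K := by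
            intro x hx
            obtain ⟨k, hk, e⟩ := Subgroup.mem_map.mp (hMK hx)
            have h' : k = x := hinjT e
            rw [← h']; exact hk
          have h3 : ∀ h ∈ H, ∀ m ∈ M.comap T.subtype, h * m * h⁻¹ ∈ M.comap T.subtype := by
            intro h hh m hm
            exact hM h (Subgroup.mem_map_of_mem _ hh) m hm
          rcases hch (M.comap T.subtype) h1 h2 h3 with h | h
          · left; rw [← h, Subgroup.map_comap_eq_self hMT]
          · right; rw [← h, Subgroup.map_comap_eq_self hMT]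
      obtain ⟨H₀, hN₀, ψ₀, hψ₀, hind₀, hres₀⟩ :=
        ih (Nat.card T) hlt T (N.subgroupOf T) rfl hsolvT hchiefT ψ hψ
      obtain ⟨e, he⟩ : ∃ e : H₀ ≃* H₀.map T.subtype,
          ∀ y : H₀, ((e y : H₀.map T.subtype) : G) = ((y : T) : G) :=
        ⟨H₀.equivMapOfInjective T.subtype hinjT, fun y => rfl⟩
      have hHT : H₀.map T.subtype ≤ T := Subgroup.map_subtype_le H₀
      have hNH : N ≤ H₀.map T.subtype := by
        intro x hx
        exact Subgroup.mem_map.mpr
          ⟨⟨x, hNT hx⟩, hN₀ (Subgroup.mem_subgroupOf.mpr hx), rfl⟩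
      refine ⟨H₀.map T.subtype, hNH, fun h => ψ₀ (e.symm h), ?_, ?_, ?_⟩
      · exact isIrrCharacter_comp_surj e.symm.toMonoidHom e.symm.surjective ψ₀ hψ₀
      · rw [← hind, ← hind₀]
        rw [← indFun_trans (H₀.map T.subtype) T hHT (fun h => ψ₀ (e.symm h))]
        congr 1
        apply Cfsg.Agent.Helper22.indFun_congr_subgroup
          (Subgroup.comap_map_eq_self_of_injective hinjT H₀)
        intro y h1 h2
        show ψ₀ (e.symm ⟨(y : G), _⟩) = ψ₀ ⟨y, h2⟩
        refine congrArg ψ₀ ?_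
        rw [MulEquiv.symm_apply_eq]
        exact Subtype.ext (he ⟨y, h2⟩).symm
      · obtain ⟨j, hj, hjc⟩ : ∃ j : N →* (N.subgroupOf T), Function.Surjective j ∧
            ∀ x : N, (((j x : N.subgroupOf T) : T) : G) = x :=
          ⟨(Subgroup.subgroupOfEquivOfLe hNT).symm.toMonoidHom,
            (Subgroup.subgroupOfEquivOfLe hNT).symm.surjective, fun x => rfl⟩
        have h4 := isIrrCharacter_comp_surj j hj _ hres₀
        have h5 : (fun n : N => ψ₀ (e.symm ⟨(n : G), hNH n.2⟩)) =
            fun n : N => (fun n' : N.subgroupOf T => ψ₀ ⟨(n' : T), hN₀ n'.2⟩) (j n) := by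
          funext x
          show ψ₀ (e.symm ⟨(x : G), _⟩) = ψ₀ ⟨((j x : N.subgroupOf T) : T), _⟩
          refine congrArg ψ₀ ?_
          rw [MulEquiv.symm_apply_eq]
          apply Subtype.ext
          rw [he]
          exact (hjc x).symm
        show IsIrrCharacter N (fun n : N => ψ₀ (e.symm ⟨(n : G), hNH n.2⟩))
        rw [h5]
        exact h4

/-- Let N be a normal subgroup of the finite group G with G / N solvable, and suppose that for every subgroup H containing N and all subgroups L < K between N and H that are normal in H with no subgroup normal in H strictly between them, the index of L in K is not a perfect square. Then every irreducible character χ of G is induced from an irreducible character ψ of some subgroup H containing N such that the restriction of ψ to N is irreducible. -/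
theorem result {G : Type*} [Group G] [Fintype G] (N : Subgroup G) [N.Normal] (hsolv : Group.IsSolvable (G ⧸ N)) (hchief : ∀ (H K L : Subgroup G), N ≤ L → L < K → K ≤ H → (∀ h ∈ H, ∀ k ∈ K, h * k * h⁻¹ ∈ K) → (∀ h ∈ H, ∀ l ∈ L, h * l * h⁻¹ ∈ L) → (∀ M : Subgroup G, L ≤ M → M ≤ K → (∀ h ∈ H, ∀ m ∈ M, h * m * h⁻¹ ∈ M) → M = L ∨ M = K) → ¬ IsSquare (L.relIndex K)) (χ : G → ℂ) (hχ : Cfsg.IsIrrCharacter G χ) : ∃ (H : Subgroup G) (hNH : N ≤ H) (ψ : H → ℂ), Cfsg.IsIrrCharacter H ψ ∧ Cfsg.indFun H ψ = χ ∧ Cfsg.IsIrrCharacter N (fun n : N => ψ ⟨(n : G), hNH n.2⟩) := by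
  exact rel_aux (Nat.card G) G N rfl hsolv hchief χ hχ

end Cfsg.Agent.S0858
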