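import Cfsg.Statements.S0859
import Cfsg.Agent.S0858
import Cfsg.Agent.Helper24.CharGagola

set_option autoImplicit false
open Cfsg

namespace Cfsg.Agent.S0859

open Cfsg.Agent.Helper24 Cfsg.Agent.Helper21.GoDown

universe u

/-- "All Sylow subgroups abelian" passes along injective homomorphisms. -/
theorem sylAb_of_injective {X Y : Type*} [Group X] [Group Y] (f : X →* Y)
    (hf : Function.Injective f)
    (hY : ∀ (p : ℕ) [Fact p.Prime] (Q : Sylow p Y), ∀ a ∈ Q, ∀ b ∈ Q, a * b = b * a) :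
    ∀ (p : ℕ) [Fact p.Prime] (P : Sylow p X), ∀ a ∈ P, ∀ b ∈ P, a * b = b * a := by
  intro p _ P a ha b hb
  obtain ⟨Q, hQ⟩ := IsPGroup.exists_le_sylow (P.isPGroup'.map f)
  apply hf
  rw [map_mul, map_mul]
  exact hY p Q (f a) (hQ (Subgroup.mem_map_of_mem f ha)) (f b)
    (hQ (Subgroup.mem_map_of_mem f hb))

/-- A finite group is generated by one Sylow subgroup for each prime. -/
theorem closure_sylows {X : Type*} [Group X] [Finite X] (P : ∀ p : ℕ, Sylow p X) :
    Subgroup.closure {x : X | ∃ p : ℕ, p.Prime ∧ x ∈ (P p : Subgroup X)} = ⊤ := by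
  apply Subgroup.eq_top_of_card_eq
  apply Nat.dvd_antisymm (Subgroup.card_subgroup_dvd_card _)
  have hJ0 : Nat.card (Subgroup.closure
      {x : X | ∃ p : ℕ, p.Prime ∧ x ∈ (P p : Subgroup X)}) ≠ 0 := Nat.card_pos.ne'
  rw [← Nat.factorization_prime_le_iff_dvd Nat.card_pos.ne' hJ0]
  intro p hp
  haveI : Fact p.Prime := ⟨hp⟩
  have h1 : (P p : Subgroup X) ≤ Subgroup.closure
      {x : X | ∃ p : ℕ, p.Prime ∧ x ∈ (P p : Subgroup X)} :=
    fun x hx => Subgroup.subset_closure ⟨p, hp, hx⟩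
  have h2 := Subgroup.card_dvd_of_le h1
  rw [(P p).card_eq_multiplicity] at h2
  exact (hp.pow_dvd_iff_le_factorization hJ0).mp h2

theorem comm_closure {X M : Type*} [Group X] [Monoid M] (f : X →* M) (S : Set X) (w : M)
    (h : ∀ s ∈ S, w * f s = f s * w) : ∀ b ∈ Subgroup.closure S, w * f b = f b * w := by
  intro b hb
  induction hb using Subgroup.closure_induction with
  | mem x hx => exact h x hx
  | one => rw [map_one, one_mul, mul_one]
  | mul x y _ _ hx hy => rw [map_mul, ← mul_assoc, hx, mul_assoc, hy, mul_assoc]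
  | inv x _ hx =>
    have h1 : f x⁻¹ * f x = 1 := by rw [← map_mul, inv_mul_cancel, map_one]
    have h2 : f x * f x⁻¹ = 1 := by rw [← map_mul, mul_inv_cancel, map_one]
    calc w * f x⁻¹ = (f x⁻¹ * f x) * (w * f x⁻¹) := by rw [h1, one_mul]
      _ = f x⁻¹ * ((f x * w) * f x⁻¹) := by simp only [mul_assoc]
      _ = f x⁻¹ * ((w * f x) * f x⁻¹) := by rw [hx]
      _ = f x⁻¹ * w * (f x * f x⁻¹) := by simp only [mul_assoc]
      _ = f x⁻¹ * w := by rw [h2, mul_one]

/-- A homomorphism to endomorphisms with scalar commutators, from a group with abelian Sylow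
subgroups, has commutative image. -/
theorem comm_image {X : Type*} [Group X] [Finite X] {V : Type*} [AddCommGroup V] [Module ℂ V]
    (f : X →* Module.End ℂ V)
    (hsc : ∀ x y : X, ∃ c : ℂ, f (x * y * x⁻¹ * y⁻¹) = c • (1 : Module.End ℂ V))
    (hab : ∀ (p : ℕ) [Fact p.Prime] (P : Sylow p X), ∀ a ∈ P, ∀ b ∈ P, a * b = b * a) :
    ∀ a b : X, f a * f b = f b * f a := by
  classical
  obtain ⟨P, -⟩ : ∃ P : ∀ p : ℕ, Sylow p X, True := ⟨fun p => Classical.arbitrary _, trivial⟩
  have hgen := closure_sylows P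
  have hpair : ∀ x ∈ {x : X | ∃ p : ℕ, p.Prime ∧ x ∈ (P p : Subgroup X)},
      ∀ y ∈ {x : X | ∃ p : ℕ, p.Prime ∧ x ∈ (P p : Subgroup X)}, f x * f y = f y * f x := by
    rintro x ⟨p, hp, hx⟩ y ⟨q, hq, hy⟩
    by_cases hpq : p = q
    · subst hpq
      haveI : Fact p.Prime := ⟨hp⟩
      rw [← map_mul, ← map_mul, hab p (P p) x hx y hy]
    · obtain ⟨c, hc⟩ := hsc x y
      have hxy : f x * f y = c • (f y * f x) := by
        have h1 : f x * f y = f (x * y * x⁻¹ * y⁻¹) * (f y * f x) := by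
          rw [← map_mul, ← map_mul, ← map_mul]
          congr 1
          group
        rw [h1, hc, smul_mul_assoc, one_mul]
      have hxinv : f x * f x⁻¹ = 1 := by rw [← map_mul, mul_inv_cancel, map_one]
      have hyinv : f y * f y⁻¹ = 1 := by rw [← map_mul, mul_inv_cancel, map_one]
      have h1 : ∀ i : ℕ, f x ^ i * f y = c ^ i • (f y * f x ^ i) := by
        intro i
        induction i with
        | zero => simp
        | succ i ih =>
          calc f x ^ (i + 1) * f y = f x ^ i * (f x * f y) := by rw [pow_succ, mul_assoc]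
            _ = c • (f x ^ i * f y * f x) := by rw [hxy, mul_smul_comm, mul_assoc]
            _ = c • (c ^ i • (f y * f x ^ i) * f x) := by rw [ih]
            _ = c ^ (i + 1) • (f y * f x ^ (i + 1)) := by
              rw [smul_mul_assoc, smul_smul, pow_succ, pow_succ, mul_assoc, mul_comm c]
      have h2 : ∀ j : ℕ, f x * f y ^ j = c ^ j • (f y ^ j * f x) := by
        intro j
        induction j with
        | zero => simp
        | succ j ih =>
          calc f x * f y ^ (j + 1) = f x * f y ^ j * f y := by rw [pow_succ, mul_assoc]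
            _ = c ^ j • (f y ^ j * (f x * f y)) := by rw [ih, smul_mul_assoc, mul_assoc]
            _ = c ^ j • (f y ^ j * (c • (f y * f x))) := by rw [hxy]
            _ = c ^ (j + 1) • (f y ^ (j + 1) * f x) := by
              rw [mul_smul_comm, smul_smul, pow_succ, pow_succ, mul_assoc]
      obtain ⟨k, hk⟩ := (P p).isPGroup' ⟨x, hx⟩
      obtain ⟨l, hl⟩ := (P q).isPGroup' ⟨y, hy⟩
      have hk' : x ^ p ^ k = 1 := by
        have h := congrArg Subtype.val hk
        simpa using h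
      have hl' : y ^ q ^ l = 1 := by
        have h := congrArg Subtype.val hl
        simpa using h
      have hE1 : (c • (1 : Module.End ℂ V)) ^ p ^ k = 1 := by
        have h3 := h1 (p ^ k)
        rw [← map_pow, hk', map_one, one_mul, mul_one] at h3
        have h4 : f y * f y⁻¹ = (c ^ p ^ k • f y) * f y⁻¹ := by rw [← h3]
        rw [smul_mul_assoc, hyinv] at h4
        rw [smul_pow, one_pow]
        exact h4.symm
      have hE2 : (c • (1 : Module.End ℂ V)) ^ q ^ l = 1 := by
        have h3 := h2 (q ^ l)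
        rw [← map_pow, hl', map_one, one_mul, mul_one] at h3
        have h4 : f x * f x⁻¹ = (c ^ q ^ l • f x) * f x⁻¹ := by rw [← h3]
        rw [smul_mul_assoc, hxinv] at h4
        rw [smul_pow, one_pow]
        exact h4.symm
      have hcop : Nat.gcd (p ^ k) (q ^ l) = 1 :=
        Nat.Coprime.pow k l ((Nat.coprime_primes hp hq).mpr hpq)
      have hE : (c • (1 : Module.End ℂ V)) = 1 := by
        have h5 := pow_gcd_eq_one.mpr ⟨hE1, hE2⟩
        rw [hcop, pow_one] at h5
        exact h5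
      rw [hxy, ← one_mul (f y * f x), ← smul_mul_assoc, hE, one_mul]
  have step1 : ∀ b : X, ∀ s ∈ {x : X | ∃ p : ℕ, p.Prime ∧ x ∈ (P p : Subgroup X)},
      f b * f s = f s * f b := by
    intro b s hs
    have h := comm_closure f _ (f s) (fun s' hs' => hpair s hs s' hs') b
      (by rw [hgen]; exact Subgroup.mem_top b)
    exact h.symm
  intro a b
  exact comm_closure f _ (f a) (fun s hs => step1 a s hs) b
    (by rw [hgen]; exact Subgroup.mem_top b)

theorem degree_le {X : Type u} [Group X] [Fintype X] {Φ : X → ℂ} (hΦ : IsCharacter X Φ)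
    (χ : IrrCharacter X) (hne : classInner Φ (χ : X → ℂ) ≠ 0) (d n : ℕ) (hΦ1 : Φ 1 = d)
    (hχ1 : (χ : X → ℂ) 1 = n) : n ≤ d := by
  classical
  obtain ⟨c, hc, hdec⟩ := isCharacter_decomp hΦ
  choose m hm using fun ψ : IrrCharacter X => irr_one_eq_natCast ψ
  have h1 : (d : ℂ) = ((∑ ψ : IrrCharacter X, c ψ * m ψ : ℕ) : ℂ) := by
    rw [← hΦ1]
    have h2 := congrFun hdec 1
    rw [h2, Finset.sum_apply]
    push_cast
    refine Finset.sum_congr rfl (fun ψ _ => ?_)
    rw [Pi.smul_apply, smul_eq_mul, hm ψ]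
  have h3 : d = ∑ ψ : IrrCharacter X, c ψ * m ψ := by exact_mod_cast h1
  have hcχ : c χ ≠ 0 := by
    intro h0
    apply hne
    rw [hc χ, h0, Nat.cast_zero]
  have hmχ : m χ = n := by
    have h4 : ((m χ : ℕ) : ℂ) = (n : ℂ) := by rw [← hm χ, hχ1]
    exact_mod_cast h4
  have h5 : c χ * m χ ≤ ∑ ψ : IrrCharacter X, c ψ * m ψ :=
    Finset.single_le_sum (f := fun ψ => c ψ * m ψ) (fun ψ _ => Nat.zero_le _)
      (Finset.mem_univ χ)
  rw [h3, ← hmχ]
  calc m χ = 1 * m χ := (one_mul _).symm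
    _ ≤ c χ * m χ := Nat.mul_le_mul_right _ (Nat.pos_of_ne_zero hcχ)
    _ ≤ _ := h5

theorem constituent_res {X : Type u} [Group X] [Fintype X] (D : Subgroup X) [Fintype D]
    {A : X → ℂ} (hA : IsCharacter X A) (ξ : IrrCharacter X)
    (hAξ : classInner A (ξ : X → ℂ) ≠ 0) (η : IrrCharacter D)
    (hξη : classInner (fun d : D => (ξ : X → ℂ) d) (η : D → ℂ) ≠ 0) :
    classInner (fun d : D => A d) (η : D → ℂ) ≠ 0 := by
  classical
  obtain ⟨c, hc, hdec⟩ := isCharacter_decomp hA
  choose k hk using fun ψ : IrrCharacter X =>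
    isCharacter_inner_irr (isCharacter_restrict D (isCharacter_of_isIrrCharacter ψ.2)) η
  have h1 : (fun d : D => A d) =
      ∑ ψ : IrrCharacter X, (c ψ : ℂ) • (fun d : D => (ψ : X → ℂ) d) := by
    funext d
    have h2 := congrFun hdec (d : X)
    rw [h2, Finset.sum_apply, Finset.sum_apply]
    rfl
  have h3 : classInner (fun d : D => A d) (η : D → ℂ) =
      ((∑ ψ : IrrCharacter X, c ψ * k ψ : ℕ) : ℂ) := by
    rw [h1, classInner_sum_left]
    push_cast
    refine Finset.sum_congr rfl (fun ψ _ => ?_)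
    rw [classInner_smul_left, hk ψ]
  rw [h3]
  have hcξ : c ξ ≠ 0 := by
    intro h0; apply hAξ; rw [hc ξ, h0, Nat.cast_zero]
  have hkξ : k ξ ≠ 0 := by
    intro h0; apply hξη; rw [hk ξ, h0, Nat.cast_zero]
  have h5 : c ξ * k ξ ≤ ∑ ψ : IrrCharacter X, c ψ * k ψ :=
    Finset.single_le_sum (f := fun ψ => c ψ * k ψ) (fun ψ _ => Nat.zero_le _)
      (Finset.mem_univ ξ)
  have h6 : 0 < c ξ * k ξ := Nat.mul_pos (Nat.pos_of_ne_zero hcξ) (Nat.pos_of_ne_zero hkξ)
  exact Nat.cast_ne_zero.mpr (by omega)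

/-- If `ξ^G` is irreducible and restricts irreducibly to `N`, then `ξ` restricts irreducibly
to `N ∩ T`. -/
theorem res_irr {G : Type u} [Group G] [Fintype G] (T N : Subgroup G) [Fintype T] [Fintype N]
    (ξ : T → ℂ) (hξ : IsIrrCharacter T ξ) (hψ : IsIrrCharacter G (indFun T ξ))
    (hN : IsIrrCharacter N (fun n : N => indFun T ξ n)) :
    IsIrrCharacter (N.subgroupOf T) (fun x : N.subgroupOf T => ξ x) := by
  classical
  haveI : Fintype (N.subgroupOf T) := Fintype.ofFinite _
  haveI : Fintype (T.subgroupOf N) := Fintype.ofFinite _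
  obtain ⟨ψ, hψdef⟩ : ∃ ψ : G → ℂ, ψ = indFun T ξ := ⟨_, rfl⟩
  rw [← hψdef] at hψ hN
  have hψc := isCharacter_of_isIrrCharacter hψ
  have hψcf := isCharacter_isClassFunction hψc
  have hξc := isCharacter_of_isIrrCharacter hξ
  have hFr : classInner (fun t : T => ψ t) ξ ≠ 0 := by
    have h1 := classInner_indFun T ξ ψ hψcf
    rw [← hψdef] at h1
    have h2 : classInner ψ ψ = 1 := irr_inner_self (⟨ψ, hψ⟩ : IrrCharacter G)
    rw [h2] at h1
    rw [classInner_conj_symm, ← h1, map_one]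
    exact one_ne_zero
  have hξD : IsCharacter (N.subgroupOf T) (fun x : N.subgroupOf T => ξ x) :=
    isCharacter_restrict _ hξc
  have hξ1 : (fun x : N.subgroupOf T => ξ x) 1 ≠ 0 :=
    irr_one_ne_zero (⟨ξ, hξ⟩ : IrrCharacter T)
  obtain ⟨η, hη⟩ := Cfsg.Agent.Helper22.exists_irr_constituent hξD hξ1
  have hηψ : classInner (fun x : N.subgroupOf T => ψ ((x : T) : G))
      (η : N.subgroupOf T → ℂ) ≠ 0 :=
    constituent_res (N.subgroupOf T) (isCharacter_restrict T hψc) ⟨ξ, hξ⟩ hFr η hη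
  obtain ⟨e, he⟩ : ∃ e : (N.subgroupOf T) ≃* (T.subgroupOf N),
      ∀ x : N.subgroupOf T, (((e x : T.subgroupOf N) : N) : G) = ((x : T) : G) := by
    refine ⟨{ toFun := fun x => ⟨⟨((x : T) : G), x.2⟩, x.1.2⟩
              invFun := fun y => ⟨⟨((y : N) : G), y.2⟩, y.1.2⟩
              left_inv := fun x => rfl
              right_inv := fun y => rfl
              map_mul' := fun x y => rfl }, fun x => rfl⟩
  have hη₂ : IsIrrCharacter (T.subgroupOf N)
      (fun y => (η : N.subgroupOf T → ℂ) (e.symm y)) :=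
    isIrrCharacter_comp_surj e.symm.toMonoidHom e.symm.surjective _ η.2
  have hΘc : IsCharacter N (indFun (T.subgroupOf N)
      (fun y => (η : N.subgroupOf T → ℂ) (e.symm y))) :=
    isCharacter_induced _ _ (isCharacter_of_isIrrCharacter hη₂)
  have hφcf : IsClassFunction N (fun n : N => ψ n) :=
    isCharacter_isClassFunction (isCharacter_of_isIrrCharacter hN)
  have hΘφ : classInner (indFun (T.subgroupOf N)
      (fun y => (η : N.subgroupOf T → ℂ) (e.symm y))) (fun n : N => ψ n) ≠ 0 := by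
    rw [classInner_indFun (T.subgroupOf N) _ (fun n : N => ψ n) hφcf]
    have h1 : classInner (fun y : T.subgroupOf N => (η : N.subgroupOf T → ℂ) (e.symm y))
        (fun h : T.subgroupOf N => ψ ((h : N) : G)) =
        classInner (η : N.subgroupOf T → ℂ) (fun x : N.subgroupOf T => ψ ((x : T) : G)) := by
      rw [classInner_def', classInner_def']
      congr 1
      · rw [Nat.card_congr e.toEquiv]
      · refine (Fintype.sum_equiv e.toEquiv _ _ (fun x => ?_)).symm
        show (η : N.subgroupOf T → ℂ) x * starRingEnd ℂ (ψ ((x : T) : G)) =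
          (η : N.subgroupOf T → ℂ) (e.symm (e x)) *
            starRingEnd ℂ (ψ (((e x : T.subgroupOf N) : N) : G))
        rw [e.symm_apply_apply, he]
    rw [h1, classInner_conj_symm]
    intro h0
    apply hηψ
    exact (map_eq_zero (starRingEnd ℂ)).mp h0
  obtain ⟨nξ, hnξ⟩ := irr_one_eq_natCast (⟨ξ, hξ⟩ : IrrCharacter T)
  obtain ⟨nη, hnη⟩ := irr_one_eq_natCast η
  have hle1 : nη ≤ nξ := degree_le hξD η hη nξ nη hnξ hnη
  have hψ1 : ψ 1 = ((T.index * nξ : ℕ) : ℂ) := by
    have h1 : ξ 1 = (nξ : ℂ) := hnξ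
    rw [hψdef, indFun_one, h1]
    push_cast
    ring
  have hΘ1 : indFun (T.subgroupOf N) (fun y => (η : N.subgroupOf T → ℂ) (e.symm y)) 1 =
      (((T.subgroupOf N).index * nη : ℕ) : ℂ) := by
    rw [indFun_one, map_one, hnη]
    push_cast
    ring
  have hle2 : T.index * nξ ≤ (T.subgroupOf N).index * nη :=
    degree_le hΘc ⟨fun n : N => ψ n, hN⟩ hΘφ _ _ hΘ1 hψ1
  have hle3 : (T.subgroupOf N).index ≤ T.index := by
    have h0 : T.relIndex ⊤ ≠ 0 := by
      rw [Subgroup.relIndex_top_right]; exact Subgroup.index_ne_zero_of_finite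
    have h := Subgroup.relIndex_le_of_le_right (le_top : N ≤ ⊤) h0
    rw [Subgroup.relIndex_top_right] at h
    exact h
  have hpos : 0 < T.index := Nat.pos_of_ne_zero Subgroup.index_ne_zero_of_finite
  have hle4 : nξ ≤ nη := by
    have h1 : T.index * nξ ≤ T.index * nη := hle2.trans (Nat.mul_le_mul_right _ hle3)
    exact Nat.le_of_mul_le_mul_left h1 hpos
  have hfin := eq_of_inner_ne_zero_of_degree_le hξD η hη nξ nη hnξ hnη hle4
  rw [hfin]
  exact η.2

/-- The Clifford step: a nonlinear irreducible character restricting irreducibly to a normal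
subgroup with abelian Sylow subgroups is induced from a proper subgroup. -/
theorem step {H : Type u} [Group H] [Fintype H] [Group.IsSolvable H] (N : Subgroup H)
    [hNn : N.Normal]
    (hab : ∀ (p : ℕ) [Fact p.Prime] (P : Sylow p N), ∀ a ∈ P, ∀ b ∈ P, a * b = b * a)
    (ψ : H → ℂ) (hψ : IsIrrCharacter H ψ)
    (hψN : IsIrrCharacter N (fun n : N => ψ n)) (hψ1 : ψ 1 ≠ 1) :
    ∃ T : Subgroup H, T ≠ ⊤ ∧ ∃ ξ : T → ℂ, IsIrrCharacter T ξ ∧ indFun T ξ = ψ := by
  classical
  have hψ' := hψ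
  obtain ⟨m, ρ, hρ, hρψ⟩ := hψ'
  haveI : ρ.IsIrreducible := hρ
  subst hρψ
  haveI : Fintype N := Fintype.ofFinite N
  -- the scalar subgroup
  obtain ⟨Z₁, hZ₁⟩ : ∃ Z₁ : Subgroup H, ∀ g : H, g ∈ Z₁ ↔
      (g ∈ N ∧ ∃ c : ℂ, ρ g = c • LinearMap.id) := by
    refine ⟨{ carrier := {g | g ∈ N ∧ ∃ c : ℂ, ρ g = c • LinearMap.id}
              mul_mem' := ?_
              one_mem' := ?_
              inv_mem' := ?_ }, fun g => Iff.rfl⟩
    · rintro a b ⟨ha, c, hc⟩ ⟨hb, c', hc'⟩
      refine ⟨N.mul_mem ha hb, c * c', ?_⟩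
      rw [map_mul, hc, hc']
      refine LinearMap.ext fun v => ?_
      simp [mul_smul]
      exact smul_comm _ _ _
    · refine ⟨N.one_mem, 1, ?_⟩
      rw [map_one, one_smul]
      rfl
    · rintro a ⟨ha, c, hc⟩
      refine ⟨N.inv_mem ha, ?_⟩
      have h1 : c • ρ a⁻¹ = 1 := by
        have h2 : ρ a * ρ a⁻¹ = 1 := by rw [← map_mul, mul_inv_cancel, map_one]
        rw [hc] at h2
        rw [← h2]
        refine LinearMap.ext fun v => ?_
        simp
      by_cases hc0 : c = 0
      · refine ⟨0, ?_⟩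
        rw [hc0, zero_smul] at h1
        rw [zero_smul, ← mul_one (ρ a⁻¹), ← h1, mul_zero]
      · refine ⟨c⁻¹, ?_⟩
        have h3 : ρ a⁻¹ = c⁻¹ • (c • ρ a⁻¹) := by rw [smul_smul, inv_mul_cancel₀ hc0, one_smul]
        rw [h3, h1]
        rfl
  have hZ₁N : Z₁ ≤ N := fun g hg => ((hZ₁ g).mp hg).1
  haveI hZ₁n : Z₁.Normal := by
    refine ⟨fun g hg x => ?_⟩
    obtain ⟨hgN, c, hc⟩ := (hZ₁ g).mp hg
    refine (hZ₁ _).mpr ⟨hNn.conj_mem g hgN x, c, ?_⟩
    have h2 : ρ x * ρ x⁻¹ = 1 := by rw [← map_mul, mul_inv_cancel, map_one]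
    rw [map_mul, map_mul, hc]
    refine LinearMap.ext fun v => ?_
    have h3 := congrArg (fun F : Module.End ℂ (Fin m → ℂ) => F v) h2
    simp only [Module.End.mul_apply] at h3 ⊢
    simp only [LinearMap.smul_apply, LinearMap.id_coe, id_eq, map_smul]
    rw [h3]
    rfl
  have hψc := isCharacter_of_isIrrCharacter hψ
  -- Z₁ ≠ N
  have hZ₁lt : Z₁ < N := by
    refine lt_of_le_of_ne hZ₁N ?_
    intro hZN
    apply hψ1
    have hcomm : ∀ a b : N, (MonoidHom.comp ρ N.subtype) a * (MonoidHom.comp ρ N.subtype) b =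
        (MonoidHom.comp ρ N.subtype) b * (MonoidHom.comp ρ N.subtype) a := by
      intro a b
      obtain ⟨-, c, hc⟩ := (hZ₁ (a : H)).mp (by rw [hZN]; exact a.2)
      show ρ a * ρ b = ρ b * ρ a
      rw [hc]
      refine LinearMap.ext fun v => ?_
      simp
    have h1 := Cfsg.Agent.Helper22.irr_one_of_comm_image (MonoidHom.comp ρ N.subtype) hcomm
      ⟨fun n : N => ρ.character n, hψN⟩
      (by
        have h2 : classInner (fun n : N => ρ.character n) (fun n : N => ρ.character n) = 1 :=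
          irr_inner_self (⟨fun n : N => ρ.character n, hψN⟩ : IrrCharacter N)
        show classInner (fun n : N => ρ.character n) (fun n : N => ρ.character n) ≠ 0
        rw [h2]
        exact one_ne_zero)
    exact h1
  -- minimal B
  obtain ⟨B, ⟨hBn, hZB, hBN⟩, hBmin⟩ := Set.exists_min_image
    {B : Subgroup H | B.Normal ∧ Z₁ < B ∧ B ≤ N} (fun B => Nat.card B) (Set.toFinite _)
    ⟨N, hNn, hZ₁lt, le_refl N⟩
  haveI := hBn
  have hch : ∀ M : Subgroup H, M.Normal → Z₁ ≤ M → M ≤ B → M = Z₁ ∨ M = B := by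
    intro M hMn hZM hMB
    by_cases hMZ : M = Z₁
    · exact Or.inl hMZ
    · right
      have h1 : Nat.card B ≤ Nat.card M :=
        hBmin M ⟨hMn, lt_of_le_of_ne hZM (Ne.symm hMZ), hMB.trans hBN⟩
      exact Subgroup.eq_of_le_of_card_ge hMB h1
  have hsolvZ : Group.IsSolvable (H ⧸ Z₁) :=
    Group.isSolvable_of_surjective (QuotientGroup.mk'_surjective Z₁)
  have hBB : ⁅B, B⁆ ≤ Z₁ := Cfsg.Agent.S0858.comm_le B Z₁ hZB hsolvZ hch
  haveI : Fintype B := Fintype.ofFinite B
  -- commutative image of B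
  have habB : ∀ (p : ℕ) [Fact p.Prime] (P : Sylow p B), ∀ a ∈ P, ∀ b ∈ P, a * b = b * a :=
    sylAb_of_injective (Subgroup.inclusion hBN) (Subgroup.inclusion_injective hBN) hab
  have hcommB : ∀ a b : B, (MonoidHom.comp ρ B.subtype) a * (MonoidHom.comp ρ B.subtype) b =
      (MonoidHom.comp ρ B.subtype) b * (MonoidHom.comp ρ B.subtype) a := by
    apply comm_image (MonoidHom.comp ρ B.subtype) _ habB
    intro x y
    have h1 : (x : H) * y * (x : H)⁻¹ * (y : H)⁻¹ ∈ Z₁ :=
      hBB (Subgroup.commutator_mem_commutator x.2 y.2)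
    obtain ⟨-, c, hc⟩ := (hZ₁ _).mp h1
    exact ⟨c, hc⟩
  have hres : IsCharacter B (fun h : B => ρ.character h) := isCharacter_restrict B hψc
  have hχ10 : ρ.character 1 ≠ 0 := irr_one_ne_zero ⟨_, hψ⟩
  obtain ⟨lam, hlam⟩ := Cfsg.Agent.Helper22.exists_irr_constituent hres hχ10
  have hlam1 : (lam : B → ℂ) 1 = 1 := by
    apply Cfsg.Agent.Helper22.irr_one_of_comm_image (MonoidHom.comp ρ B.subtype) hcommB lam
    exact hlam
  have hT : ∀ g : H, g ∈ inertia B (lam : B → ℂ) ↔
      ∀ n : B, (lam : B → ℂ) ⟨g * n * g⁻¹, hBn.conj_mem (n : H) n.2 g⟩ = (lam : B → ℂ) n := by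
    intro g
    constructor
    · intro h n
      exact congrFun (show twist B (lam : B → ℂ) g = lam from h) n
    · intro h
      show twist B (lam : B → ℂ) g = lam
      funext n
      exact h n
  have hBT : B ≤ inertia B (lam : B → ℂ) := le_inertia B _ lam.2
  have hTtop : inertia B (lam : B → ℂ) ≠ ⊤ := by
    intro htop
    have hinv : ∀ (g : H) (n : B),
        (lam : B → ℂ) ⟨g * n * g⁻¹, hBn.conj_mem (n : H) n.2 g⟩ = (lam : B → ℂ) n :=
      fun g => (hT g).mp (by rw [htop]; exact Subgroup.mem_top g)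
    have hscal := Cfsg.Agent.Helper22.rep_eq_smul_of_invariant_linear B ρ hρ lam hlam hlam1 hinv
    apply not_le_of_gt hZB
    intro b hb
    exact (hZ₁ b).mpr ⟨hBN hb, _, hscal ⟨b, hb⟩⟩
  haveI : Fintype (inertia B (lam : B → ℂ)) := Fintype.ofFinite _
  obtain ⟨-, -, h3⟩ := Cfsg.Agent.Helper5.clifford_corr B (lam : B → ℂ) lam.2
    (inertia B (lam : B → ℂ)) hT hBT
  obtain ⟨ξ, -, hind⟩ := h3 ρ.character hψ hlam
  exact ⟨inertia B (lam : B → ℂ), hTtop, ξ, ξ.2, hind⟩

theorem mono_aux : ∀ (n : ℕ) (H : Type u) [Group H] [Fintype H] [Group.IsSolvable H]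
    (N : Subgroup H) [N.Normal], Nat.card H = n →
    (∀ (p : ℕ) [Fact p.Prime] (P : Sylow p N), ∀ a ∈ P, ∀ b ∈ P, a * b = b * a) →
    ∀ (ψ : H → ℂ), IsIrrCharacter H ψ → IsIrrCharacter N (fun n : N => ψ n) →
      ∃ (U : Subgroup H) (lam : U → ℂ), IsCharacter U lam ∧ lam 1 = 1 ∧ indFun U lam = ψ := by
  intro n
  induction n using Nat.strong_induction_on with
  | _ n ih =>
    intro H _ _ _ N hNn hcard hab ψ hψ hψN
    classical
    have hψc := isCharacter_of_isIrrCharacter hψ
    by_cases hψ1 : ψ 1 = 1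
    · refine ⟨⊤, fun h => ψ h, isCharacter_restrict ⊤ hψc, hψ1, ?_⟩
      exact Cfsg.Agent.Helper22.indFun_top ψ (isCharacter_isClassFunction hψc)
    · obtain ⟨T, hTtop, ξ, hξ, hind⟩ := step N hab ψ hψ hψN hψ1
      haveI : Fintype T := Fintype.ofFinite T
      haveI : Fintype N := Fintype.ofFinite N
      have hlt : Nat.card T < n := by
        rw [← hcard]
        exact lt_of_le_of_ne (Subgroup.card_le_card_group T)
          (fun h => hTtop (Subgroup.eq_top_of_card_eq T h))
      have hinjT : Function.Injective T.subtype := Subgroup.subtype_injective T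
      have habT : ∀ (p : ℕ) [Fact p.Prime] (P : Sylow p (N.subgroupOf T)),
          ∀ a ∈ P, ∀ b ∈ P, a * b = b * a :=
        sylAb_of_injective
          (((Subgroup.subtype T).comp (Subgroup.subtype (N.subgroupOf T))).codRestrict N
            (fun x => x.2))
          (fun x y hxy => by
            have h : ((x : T) : H) = ((y : T) : H) := congrArg (fun z : N => (z : H)) hxy
            exact Subtype.ext (Subtype.ext h)) hab
      have hresT : IsIrrCharacter (N.subgroupOf T) (fun x : N.subgroupOf T => ξ x) := by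
        apply res_irr T N ξ hξ
        · rw [hind]; exact hψ
        · rw [hind]; exact hψN
      obtain ⟨U₀, lam₀, hlam₀, hlam₀1, hind₀⟩ :=
        ih (Nat.card T) hlt T (N.subgroupOf T) rfl habT ξ hξ hresT
      obtain ⟨e, he⟩ : ∃ e : U₀ ≃* U₀.map T.subtype,
          ∀ y : U₀, ((e y : U₀.map T.subtype) : H) = ((y : T) : H) :=
        ⟨U₀.equivMapOfInjective T.subtype hinjT, fun y => rfl⟩
      have hUT : U₀.map T.subtype ≤ T := Subgroup.map_subtype_le U₀
      refine ⟨U₀.map T.subtype, fun h => lam₀ (e.symm h), ?_, ?_, ?_⟩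
      · obtain ⟨k, σ, hσ⟩ := hlam₀
        exact ⟨k, MonoidHom.comp σ e.symm.toMonoidHom, by rw [← hσ]; rfl⟩
      · show lam₀ (e.symm 1) = 1
        rw [map_one]; exact hlam₀1
      · rw [← hind, ← hind₀]
        rw [← indFun_trans (U₀.map T.subtype) T hUT (fun h => lam₀ (e.symm h))]
        congr 1
        apply Cfsg.Agent.Helper22.indFun_congr_subgroup
          (Subgroup.comap_map_eq_self_of_injective hinjT U₀)
        intro y h1 h2
        show lam₀ (e.symm ⟨(y : H), _⟩) = lam₀ ⟨y, h2⟩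
        refine congrArg lam₀ ?_
        rw [MulEquiv.symm_apply_eq]
        exact Subtype.ext (he ⟨y, h2⟩).symm

/-- Let G be a finite solvable group and N a normal subgroup such that for every prime p every Sylow p-subgroup of N is abelian. Suppose every irreducible character of G is induced from an irreducible character of some subgroup containing N whose restriction to N is irreducible. Then every irreducible character of G is induced from a character of degree 1 of some subgroup. -/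
theorem result {G : Type*} [Group G] [Fintype G] [Group.IsSolvable G] (N : Subgroup G) [N.Normal] (hab : ∀ (p : ℕ) [Fact p.Prime] (P : Sylow p N), ∀ a ∈ P, ∀ b ∈ P, a * b = b * a) (hrel : ∀ χ : G → ℂ, Cfsg.IsIrrCharacter G χ → ∃ (H : Subgroup G) (hNH : N ≤ H) (ψ : H → ℂ), Cfsg.IsIrrCharacter H ψ ∧ Cfsg.indFun H ψ = χ ∧ Cfsg.IsIrrCharacter N (fun n : N => ψ ⟨(n : G), hNH n.2⟩)) (χ : G → ℂ) (hχ : Cfsg.IsIrrCharacter G χ) : ∃ (U : Subgroup G) (lam : U → ℂ), Cfsg.IsCharacter U lam ∧ lam 1 = 1 ∧ Cfsg.indFun U lam = χ := by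
  classical
  obtain ⟨H, hNH, ψ, hψ, hind, hψN⟩ := hrel χ hχ
  haveI : Fintype H := Fintype.ofFinite H
  haveI : Fintype N := Fintype.ofFinite N
  have hinjH : Function.Injective H.subtype := Subgroup.subtype_injective H
  have habH : ∀ (p : ℕ) [Fact p.Prime] (P : Sylow p (N.subgroupOf H)),
      ∀ a ∈ P, ∀ b ∈ P, a * b = b * a :=
    sylAb_of_injective (Subgroup.subgroupOfEquivOfLe hNH).toMonoidHom
      (Subgroup.subgroupOfEquivOfLe hNH).injective hab
  have hresH : IsIrrCharacter (N.subgroupOf H) (fun x : N.subgroupOf H => ψ x) :=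
    Cfsg.Agent.Helper5.isIrrCharacter_resSub hNH _ hψN
  obtain ⟨U₀, lam₀, hlam₀, hlam₀1, hind₀⟩ :=
    mono_aux (Nat.card H) H (N.subgroupOf H) rfl habH ψ hψ hresH
  obtain ⟨e, he⟩ : ∃ e : U₀ ≃* U₀.map H.subtype,
      ∀ y : U₀, ((e y : U₀.map H.subtype) : G) = ((y : H) : G) :=
    ⟨U₀.equivMapOfInjective H.subtype hinjH, fun y => rfl⟩
  have hUH : U₀.map H.subtype ≤ H := Subgroup.map_subtype_le U₀
  refine ⟨U₀.map H.subtype, fun h => lam₀ (e.symm h), ?_, ?_, ?_⟩
  · obtain ⟨k, σ, hσ⟩ := hlam₀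
    exact ⟨k, MonoidHom.comp σ e.symm.toMonoidHom, by rw [← hσ]; rfl⟩
  · show lam₀ (e.symm 1) = 1
    rw [map_one]; exact hlam₀1
  · rw [← hind, ← hind₀]
    rw [← Cfsg.Agent.Helper24.indFun_trans (U₀.map H.subtype) H hUH (fun h => lam₀ (e.symm h))]
    congr 1
    apply Cfsg.Agent.Helper22.indFun_congr_subgroup
      (Subgroup.comap_map_eq_self_of_injective hinjH U₀)
    intro y h1 h2
    show lam₀ (e.symm ⟨(y : G), _⟩) = lam₀ ⟨y, h2⟩
    refine congrArg lam₀ ?_
    rw [MulEquiv.symm_apply_eq]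
    exact Subtype.ext (he ⟨y, h2⟩).symm

end Cfsg.Agent.S0859
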