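import Mathlib
import Cfsg.Statements.S0860
import Cfsg.Agent.Helper24.CharComplete

set_option autoImplicit false
open Cfsg

namespace Cfsg.Agent.S0860

open Cfsg.Agent.Helper24

/-- Let a group A act on the set of irreducible characters and on the set of conjugacy classes of a finite group G in such a way that (a • χ) evaluated on the class a • C equals χ evaluated on C, for all a, χ and C. Then every element of A fixes exactly as many irreducible characters as it fixes conjugacy classes. -/
theorem result {G : Type*} [Group G] [Finite G] {A : Type*} [Group A] [MulAction A (Cfsg.IrrCharacter G)] [MulAction A (ConjClasses G)] (hcompat : ∀ (a : A) (χ : Cfsg.IrrCharacter G) (g g' : G), ConjClasses.mk g' = a • ConjClasses.mk g → ((a • χ : Cfsg.IrrCharacter G) : G → ℂ) g' = (χ : G → ℂ) g) (a : A) : Nat.card {χ : Cfsg.IrrCharacter G // a • χ = χ} = Nat.card {C : ConjClasses G // a • C = C} := by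
  classical
  haveI := Fintype.ofFinite G
  haveI : Fintype (ConjClasses G) := Fintype.ofFinite _
  -- a representative of the class a⁻¹ • C
  let ρ : ConjClasses G → G := fun C => Function.surjInv ConjClasses.mk_surjective (a⁻¹ • C)
  have hρ : ∀ C : ConjClasses G, ConjClasses.mk (ρ C) = a⁻¹ • C := fun C =>
    Function.surjInv_eq ConjClasses.mk_surjective (a⁻¹ • C)
  have hval : ∀ (χ : IrrCharacter G) (g : G),
      ((a • χ : IrrCharacter G) : G → ℂ) g = (χ : G → ℂ) (ρ (ConjClasses.mk g)) := by
    intro χ g
    apply hcompat a χ (ρ (ConjClasses.mk g)) g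
    rw [hρ, smul_inv_smul]
  have hG0 : (Nat.card G : ℂ) ≠ 0 := by
    exact_mod_cast (Nat.card_pos (α := G)).ne'
  -- the number of fixed characters as a sum of inner products
  have h1 : (Nat.card {χ : IrrCharacter G // a • χ = χ} : ℂ)
      = ∑ χ : IrrCharacter G, classInner ((a • χ : IrrCharacter G) : G → ℂ) (χ : G → ℂ) := by
    rw [Nat.card_eq_fintype_card, Fintype.card_subtype, Finset.card_filter]
    push_cast
    apply Finset.sum_congr rfl
    intro χ _
    rw [irr_orthonormal]
  -- for each x, the solutions of g = x ρ(cl g) x⁻¹ correspond to the fixed classes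
  have h2 : ∀ x : G, (Finset.univ.filter (fun g : G => x * ρ (ConjClasses.mk g) * x⁻¹ = g)).card
      = (Finset.univ.filter (fun C : ConjClasses G => a • C = C)).card := by
    intro x
    apply Finset.card_nbij' (fun g : G => ConjClasses.mk g) (fun C : ConjClasses G => x * ρ C * x⁻¹)
    · intro g hg
      simp only [Finset.coe_filter, Finset.mem_univ, true_and, Set.mem_ofPred_eq] at hg ⊢
      have : ConjClasses.mk g = ConjClasses.mk (ρ (ConjClasses.mk g)) := by
        rw [ConjClasses.mk_eq_mk_iff_isConj]
        exact (isConj_iff.mpr ⟨x, hg⟩).symm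
      rw [hρ] at this
      rw [this, smul_inv_smul, ← this]
    · intro C hC
      simp only [Finset.coe_filter, Finset.mem_univ, true_and, Set.mem_ofPred_eq] at hC ⊢
      have h3 : ConjClasses.mk (x * ρ C * x⁻¹) = C := by
        have : ConjClasses.mk (x * ρ C * x⁻¹) = ConjClasses.mk (ρ C) := by
          rw [ConjClasses.mk_eq_mk_iff_isConj]
          exact (isConj_iff.mpr ⟨x, rfl⟩).symm
        rw [this, hρ, inv_smul_eq_iff, hC]
      rw [h3]
    · intro g hg
      simp only [Finset.coe_filter, Finset.mem_univ, true_and, Set.mem_ofPred_eq] at hg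
      exact hg
    · intro C hC
      simp only [Finset.coe_filter, Finset.mem_univ, true_and, Set.mem_ofPred_eq] at hC
      have : ConjClasses.mk (x * ρ C * x⁻¹) = ConjClasses.mk (ρ C) := by
        rw [ConjClasses.mk_eq_mk_iff_isConj]
        exact (isConj_iff.mpr ⟨x, rfl⟩).symm
      show ConjClasses.mk (x * ρ C * x⁻¹) = C
      rw [this, hρ, inv_smul_eq_iff, hC]
  have h3 : (Nat.card {χ : IrrCharacter G // a • χ = χ} : ℂ)
      = ((Finset.univ.filter (fun C : ConjClasses G => a • C = C)).card : ℂ) := by
    rw [h1]
    simp only [classInner_def', hval]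
    rw [← Finset.mul_sum, Finset.sum_comm]
    simp only [sum_irr_mul_conj_eq_card]
    have h4 : ∀ g : G, ((Finset.univ.filter (fun x : G => x * ρ (ConjClasses.mk g) * x⁻¹ = g)).card : ℂ)
        = ∑ x : G, if x * ρ (ConjClasses.mk g) * x⁻¹ = g then (1 : ℂ) else 0 := by
      intro g
      rw [Finset.card_filter]
      push_cast
      rfl
    simp only [h4]
    rw [Finset.sum_comm]
    have h5 : ∀ x : G, ∑ g : G, (if x * ρ (ConjClasses.mk g) * x⁻¹ = g then (1 : ℂ) else 0)
        = ((Finset.univ.filter (fun C : ConjClasses G => a • C = C)).card : ℂ) := by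
      intro x
      rw [← h2 x, Finset.card_filter]
      push_cast
      rfl
    rw [Finset.sum_congr rfl (fun x _ => h5 x), Finset.sum_const, Finset.card_univ, nsmul_eq_mul,
      Nat.card_eq_fintype_card]
    field_simp
  have h6 : Nat.card {C : ConjClasses G // a • C = C}
      = (Finset.univ.filter (fun C : ConjClasses G => a • C = C)).card := by
    rw [Nat.card_eq_fintype_card, Fintype.card_subtype]
  rw [h6]
  exact_mod_cast h3

end Cfsg.Agent.S0860
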