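import Cfsg.Statements.S0861
import Cfsg.Agent.Helper22.Ito
import Cfsg.Agent.Helper22.PVal
import Cfsg.Agent.Helper22.GalChar2
import Cfsg.Agent.Helper24.CharProd

set_option autoImplicit false
open Cfsg
open Cfsg.Agent.Helper24 Cfsg.Agent.Helper5 Cfsg.Agent.Helper22

namespace Cfsg.Agent.S0861

/-- Let P be a normal abelian Sylow p-subgroup of the finite group G and suppose some element g of P has centralizer exactly P. Then the number of irreducible characters of G is at most the order of P, and if equality holds then G / P is abelian (the commutator subgroup lies in P). -/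
theorem result {G : Type*} [Group G] [Finite G] (p : ℕ) [Fact p.Prime] (P : Sylow p G) [(P : Subgroup G).Normal] (hab : ∀ a ∈ P, ∀ b ∈ P, a * b = b * a) (g : G) (hg : g ∈ P) (hC : Subgroup.centralizer ({g} : Set G) = P) : Nat.card (Cfsg.IrrCharacter G) ≤ Nat.card P ∧ (Nat.card (Cfsg.IrrCharacter G) = Nat.card P → commutator G ≤ P) := by
  classical
  haveI := Fintype.ofFinite G
  show Nat.card (IrrCharacter G) ≤ Nat.card (P : Subgroup G) ∧
    (Nat.card (IrrCharacter G) = Nat.card (P : Subgroup G) → commutator G ≤ (P : Subgroup G))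
  have hnz : ∀ (χ : IrrCharacter G) (x : G), x ∈ (P : Subgroup G) → (χ : G → ℂ) x ≠ 0 := by
    intro χ x hx
    obtain ⟨d, hd, hdvd⟩ := ito χ.2 (P : Subgroup G) hab
    obtain ⟨m, ρ, hρ, hρχ⟩ := χ.2
    have hfin : Module.finrank ℂ (Fin m → ℂ) = d := by
      have h1 : ρ.character 1 = (m : ℂ) := char_one_fin ρ
      rw [hρχ, hd] at h1
      rw [Module.finrank_fin_fun]
      exact_mod_cast h1.symm
    obtain ⟨a, ha⟩ := P.isPGroup' ⟨x, hx⟩
    have hxa : x ^ (p ^ a) = 1 := by
      have := congrArg Subtype.val ha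
      simpa using this
    have h2 := char_ne_zero_of_pow_prime ρ p a x hxa
      (by rw [hfin]; intro hpd; exact P.not_dvd_index (hpd.trans hdvd))
    rw [hρχ] at h2
    exact h2
  have hgk : ∀ k : (ZMod (Nat.card G))ˣ,
      g ^ (k : ZMod (Nat.card G)).val ∈ (P : Subgroup G) :=
    fun k => Subgroup.pow_mem _ hg _
  have hcent : ∀ k : (ZMod (Nat.card G))ˣ,
      Subgroup.centralizer ({g ^ (k : ZMod (Nat.card G)).val} : Set G) = (P : Subgroup G) := by
    intro k
    rw [← hC]
    apply le_antisymm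
    · intro y hy
      rw [Subgroup.mem_centralizer_singleton_iff] at hy ⊢
      have h1 := pow_unit_inv k g
      have h2 : y * (g ^ (k : ZMod (Nat.card G)).val) ^
            ((k⁻¹ : (ZMod (Nat.card G))ˣ) : ZMod (Nat.card G)).val =
          (g ^ (k : ZMod (Nat.card G)).val) ^
            ((k⁻¹ : (ZMod (Nat.card G))ˣ) : ZMod (Nat.card G)).val * y :=
        ((show Commute y (g ^ (k : ZMod (Nat.card G)).val) from hy).pow_right _).eq
      rw [h1] at h2
      exact h2
    · intro y hy
      rw [Subgroup.mem_centralizer_singleton_iff] at hy ⊢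
      exact ((show Commute y g from hy).pow_right _).eq
  have hcol : ∀ k : (ZMod (Nat.card G))ˣ,
      ∑ χ : IrrCharacter G, ‖(χ : G → ℂ) (g ^ (k : ZMod (Nat.card G)).val)‖ ^ 2 =
        (Nat.card (P : Subgroup G) : ℝ) := by
    intro k
    have h := (sum_irr_mul_conj (g ^ (k : ZMod (Nat.card G)).val)
      (g ^ (k : ZMod (Nat.card G)).val)).1 (IsConj.refl _)
    rw [hcent k] at h
    have h2 : ((∑ χ : IrrCharacter G,
        ‖(χ : G → ℂ) (g ^ (k : ZMod (Nat.card G)).val)‖ ^ 2 : ℝ) : ℂ) =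
        (Nat.card (P : Subgroup G) : ℂ) := by
      rw [← h, Complex.ofReal_sum]
      refine Finset.sum_congr rfl fun χ _ => ?_
      rw [Complex.mul_conj, Complex.normSq_eq_norm_sq]
    exact_mod_cast h2
  obtain ⟨φ, hφ⟩ : ∃ φ : ℝ, φ = (Fintype.card (ZMod (Nat.card G))ˣ : ℝ) := ⟨_, rfl⟩
  have hφpos : 0 < φ := by
    rw [hφ]
    exact Nat.cast_pos.mpr Fintype.card_pos
  have hF : ∀ χ : IrrCharacter G, φ ≤ ∑ k : (ZMod (Nat.card G))ˣ,
      ‖(χ : G → ℂ) (g ^ (k : ZMod (Nat.card G)).val)‖ ^ 2 := by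
    intro χ
    rw [hφ]
    exact sum_units_normSq_ge (isCharacter_of_isIrrCharacter χ.2) (hnz χ g hg)
  have hTot : ∑ χ : IrrCharacter G, ∑ k : (ZMod (Nat.card G))ˣ,
      ‖(χ : G → ℂ) (g ^ (k : ZMod (Nat.card G)).val)‖ ^ 2 =
        φ * (Nat.card (P : Subgroup G) : ℝ) := by
    rw [Finset.sum_comm, Finset.sum_congr rfl (fun k _ => hcol k), Finset.sum_const,
      Finset.card_univ, nsmul_eq_mul, hφ]
  have hkG : (Nat.card (IrrCharacter G) : ℝ) * φ = ∑ _χ : IrrCharacter G, φ := by
    rw [Finset.sum_const, Finset.card_univ, nsmul_eq_mul, Nat.card_eq_fintype_card]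
  constructor
  · have h1 : (Nat.card (IrrCharacter G) : ℝ) * φ ≤ φ * (Nat.card (P : Subgroup G) : ℝ) := by
      rw [hkG, ← hTot]
      exact Finset.sum_le_sum fun χ _ => hF χ
    have h2 : (Nat.card (IrrCharacter G) : ℝ) ≤ (Nat.card (P : Subgroup G) : ℝ) := by
      by_contra hlt
      push Not at hlt
      have := mul_lt_mul_of_pos_left hlt hφpos
      linarith
    exact_mod_cast h2
  · intro heq
    by_contra hnot
    obtain ⟨c, hc, hcP⟩ := SetLike.not_le_iff_exists.mp hnot
    have hcne : ((c : G) : G ⧸ (P : Subgroup G)) ≠ 1 :=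
      fun h => hcP ((QuotientGroup.eq_one_iff c).mp h)
    obtain ⟨m, σ, hσ, hσc⟩ := exists_irr_not_mem_ker ((c : G) : G ⧸ (P : Subgroup G)) hcne
    obtain ⟨ρ', hρ'⟩ : ∃ ρ' : Representation ℂ G (Fin m → ℂ),
        ρ' = MonoidHom.comp σ (QuotientGroup.mk' (P : Subgroup G)) := ⟨_, rfl⟩
    have hirr : ρ'.IsIrreducible := by
      rw [hρ']
      exact (isIrreducible_comp_iff (QuotientGroup.mk' (P : Subgroup G))
        (QuotientGroup.mk'_surjective _) σ).mpr hσ
    have hχ₀ : IsIrrCharacter G ρ'.character := ⟨m, ρ', hirr, rfl⟩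
    have hP1 : ∀ x ∈ (P : Subgroup G), ρ' x = 1 := by
      intro x hx
      rw [hρ']
      show σ ((QuotientGroup.mk' (P : Subgroup G)) x) = 1
      rw [show (QuotientGroup.mk' (P : Subgroup G)) x = 1 from
        (QuotientGroup.eq_one_iff x).mpr hx, map_one]
    have hval : ∀ x ∈ (P : Subgroup G), ρ'.character x = (m : ℂ) := by
      intro x hx
      have h1 : ρ'.character x = ρ'.character 1 := by
        show LinearMap.trace ℂ (Fin m → ℂ) (ρ' x) = LinearMap.trace ℂ (Fin m → ℂ) (ρ' 1)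
        rw [hP1 x hx, hP1 1 (Subgroup.one_mem _)]
      rw [h1]
      exact char_one_fin ρ'
    have hm0 : m ≠ 0 := by
      intro h0
      have h := Helper24.irr_one_ne_zero ⟨ρ'.character, hχ₀⟩
      apply h
      show ρ'.character 1 = 0
      rw [char_one_fin ρ', h0]
      simp
    have hm1 : m ≠ 1 := by
      intro h1
      have hlin : ρ'.character 1 = 1 := by
        rw [char_one_fin ρ', h1]
        simp
      obtain ⟨f, hf⟩ := linChar_exists_hom (isCharacter_of_isIrrCharacter hχ₀) hlin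
      have hfc : f c = 1 := MonoidHom.mem_ker.mp (Abelianization.commutator_subset_ker f hc)
      have hcc : ρ'.character c = (Module.finrank ℂ (Fin m → ℂ) : ℂ) := by
        rw [← hf c, hfc, Module.finrank_fin_fun, h1]
        simp
      have hid := (char_eq_finrank_iff ρ' c).mp hcc
      apply hσc
      rw [hρ'] at hid
      exact hid
    have hm2 : 2 ≤ m := by omega
    have hstrict : ∑ _χ : IrrCharacter G, φ < ∑ χ : IrrCharacter G,
        ∑ k : (ZMod (Nat.card G))ˣ, ‖(χ : G → ℂ) (g ^ (k : ZMod (Nat.card G)).val)‖ ^ 2 := by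
      apply Finset.sum_lt_sum (fun χ _ => hF χ)
      refine ⟨⟨ρ'.character, hχ₀⟩, Finset.mem_univ _, ?_⟩
      have h3 : ∀ k : (ZMod (Nat.card G))ˣ,
          ‖ρ'.character (g ^ (k : ZMod (Nat.card G)).val)‖ ^ 2 = (m : ℝ) ^ 2 := by
        intro k
        rw [hval _ (hgk k)]
        simp
      show φ < ∑ k : (ZMod (Nat.card G))ˣ,
        ‖ρ'.character (g ^ (k : ZMod (Nat.card G)).val)‖ ^ 2
      rw [Finset.sum_congr rfl (fun k _ => h3 k), Finset.sum_const, Finset.card_univ,
        nsmul_eq_mul, ← hφ]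
      have hm2' : (2 : ℝ) ≤ m := by exact_mod_cast hm2
      have hm4 : (4 : ℝ) ≤ (m : ℝ) ^ 2 := by nlinarith
      nlinarith [mul_pos hφpos (show (0 : ℝ) < (m : ℝ) ^ 2 - 1 by linarith)]
    rw [← hkG, hTot] at hstrict
    have h5 : (Nat.card (IrrCharacter G) : ℝ) < (Nat.card (P : Subgroup G) : ℝ) := by
      by_contra hle
      push Not at hle
      have := mul_le_mul_of_nonneg_left hle hφpos.le
      linarith
    have h6 : Nat.card (IrrCharacter G) < Nat.card (P : Subgroup G) := by exact_mod_cast h5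
    omega

end Cfsg.Agent.S0861
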