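import Mathlib
import Cfsg.Statements.S0864
import Cfsg.Agent.Helper5.DetChar

set_option autoImplicit false
open Cfsg

namespace Cfsg.Agent.S0864

open Cfsg.Agent.Helper5

/-- The transfer from a subgroup `H ≥ N` of a homomorphism whose restriction to the normal
subgroup `N` is `G`-invariant is the `H.index`-th power on `N`. -/
theorem transfer_eq_pow_of_inv_of_le {G : Type*} [Group G] [Finite G] (N H : Subgroup G)
    [hN : N.Normal] (hNH : N ≤ H) {A : Type*} [CommGroup A] (φ : H →* A) (f : N →* A)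
    (hφ : ∀ n : N, φ ⟨n, hNH n.2⟩ = f n)
    (hinv : ∀ (g : G) (n : N), f ⟨g * n * g⁻¹, hN.conj_mem (n : G) n.2 g⟩ = f n) (n : N) :
    MonoidHom.transfer φ (n : G) = f n ^ H.index := by
  classical
  have : Fintype (Quotient (MulAction.orbitRel (Subgroup.zpowers (n : G)) (G ⧸ H))) :=
    Fintype.ofFinite _
  rw [MonoidHom.transfer_eq_prod_quotient_orbitRel_zpowers_quot,
    Subgroup.index_eq_sum_minimalPeriod H (n : G), ← Finset.prod_pow_eq_pow_sum]
  refine Finset.prod_congr rfl fun q _ => ?_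
  have h1 := hinv (q.out.out⁻¹) (n ^ Function.minimalPeriod ((n : G) • ·) q.out)
  rw [map_pow] at h1
  rw [← h1, ← hφ]
  refine congrArg φ (Subtype.ext ?_)
  simp

theorem result {G : Type*} [Group G] [Finite G] (N : Subgroup G) [hN : N.Normal] (lam : N → ℂ) (hlam : Cfsg.IsCharacter N lam ∧ lam 1 = 1) (hinv : ∀ (g : G) (n : N), lam ⟨g * n * g⁻¹, hN.conj_mem (n : G) n.2 g⟩ = lam n) (hsyl : ∀ p : ℕ, p.Prime → p ∣ orderOf lam → ∃ (H : Subgroup G) (hNH : N ≤ H) (ν : H → ℂ), Nat.Coprime H.index p ∧ (∃ k : ℕ, N.relIndex H = p ^ k) ∧ Cfsg.IsCharacter H ν ∧ ν 1 = 1 ∧ ∀ n : N, ν ⟨(n : G), hNH n.2⟩ = lam n) : ∃ μ : G → ℂ, Cfsg.IsCharacter G μ ∧ μ 1 = 1 ∧ ∀ n : N, μ n = lam n := by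
  classical
  obtain ⟨hlamc, hlam1⟩ := hlam
  obtain ⟨f, hf⟩ := linChar_exists_hom hlamc hlam1
  have hfinv : ∀ (g : G) (n : N), f ⟨g * n * g⁻¹, hN.conj_mem (n : G) n.2 g⟩ = f n := by
    intro g n
    apply Units.ext
    rw [hf, hf]
    exact hinv g n
  have hpowlam : ∀ k : ℕ, lam ^ k = 1 ↔ ∀ n : N, f n ^ k = 1 := by
    intro k
    constructor
    · intro h n
      apply Units.ext
      rw [Units.val_pow_eq_pow_val, hf]
      have h1 := congrFun h n
      simpa using h1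
    · intro h
      funext n
      have h1 := congrArg Units.val (h n)
      rw [Units.val_pow_eq_pow_val, hf] at h1
      simpa using h1
  have hfm : ∀ n : N, f n ^ orderOf lam = 1 := (hpowlam _).mp (pow_orderOf_eq_one lam)
  have hm_pos : 0 < orderOf lam := by
    apply orderOf_pos_iff.mpr
    rw [isOfFinOrder_iff_pow_eq_one]
    refine ⟨Nat.card N, Nat.card_pos, ?_⟩
    rw [hpowlam]
    intro n
    rw [← map_pow, pow_card_eq_one', map_one]
  -- the set of exponents `e` such that `lam ^ e` extends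
  obtain ⟨P, hP⟩ : ∃ P : ℤ → Prop, ∀ e : ℤ, P e ↔ ∃ μ : G →* ℂˣ, ∀ n : N, μ (n : G) = f n ^ e :=
    ⟨fun e => ∃ μ : G →* ℂˣ, ∀ n : N, μ (n : G) = f n ^ e, fun e => Iff.rfl⟩
  have hadd : ∀ a b : ℤ, P a → P b → P (a + b) := by
    intro a b ha hb
    obtain ⟨μa, hμa⟩ := (hP a).mp ha
    obtain ⟨μb, hμb⟩ := (hP b).mp hb
    exact (hP _).mpr ⟨μa * μb, fun n => by rw [MonoidHom.mul_apply, hμa, hμb, zpow_add]⟩
  have hsmul : ∀ k a : ℤ, P a → P (k * a) := by
    intro k a ha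
    obtain ⟨μa, hμa⟩ := (hP a).mp ha
    refine (hP _).mpr ⟨(zpowGroupHom k).comp μa, fun n => ?_⟩
    show μa (n : G) ^ k = f n ^ (k * a)
    rw [hμa, ← zpow_mul, mul_comm]
  have hPm : P (orderOf lam : ℤ) :=
    (hP _).mpr ⟨1, fun n => by rw [zpow_natCast, hfm n]; rfl⟩
  have hex : ∃ k : ℕ, 0 < k ∧ P (k : ℤ) := ⟨orderOf lam, hm_pos, hPm⟩
  obtain ⟨d, hd⟩ : ∃ d : ℕ, d = Nat.find hex := ⟨_, rfl⟩
  have hdpos : 0 < d := by rw [hd]; exact (Nat.find_spec hex).1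
  have hPd : P (d : ℤ) := by rw [hd]; exact (Nat.find_spec hex).2
  have hdiv : ∀ e : ℤ, P e → (d : ℤ) ∣ e := by
    intro e he
    have hd0 : (d : ℤ) ≠ 0 := by exact_mod_cast hdpos.ne'
    have hr0 : 0 ≤ e % (d : ℤ) := Int.emod_nonneg e hd0
    have hr1 : e % (d : ℤ) < d := Int.emod_lt_of_pos e (by exact_mod_cast hdpos)
    have hPr : P (e % (d : ℤ)) := by
      have h1 : e % (d : ℤ) = e + (-(e / (d : ℤ))) * (d : ℤ) := by
        rw [Int.emod_def]; ring
      rw [h1]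
      exact hadd _ _ he (hsmul _ _ hPd)
    by_contra hnd
    have hrne : e % (d : ℤ) ≠ 0 := fun h => hnd (Int.dvd_of_emod_eq_zero h)
    have hrpos : 0 < e % (d : ℤ) := lt_of_le_of_ne hr0 (Ne.symm hrne)
    have h2 : ((e % (d : ℤ)).toNat : ℤ) = e % (d : ℤ) := Int.toNat_of_nonneg hr0
    have h3 : (e % (d : ℤ)).toNat < d := by
      have : ((e % (d : ℤ)).toNat : ℤ) < d := by rw [h2]; exact hr1
      exact_mod_cast this
    have h4 : 0 < (e % (d : ℤ)).toNat := by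
      have : (0 : ℤ) < ((e % (d : ℤ)).toNat : ℤ) := by rw [h2]; exact hrpos
      exact_mod_cast this
    have h3' : (e % (d : ℤ)).toNat < Nat.find hex := by rw [← hd]; exact h3
    exact Nat.find_min hex h3' ⟨h4, by rw [h2]; exact hPr⟩
  have hd1 : d = 1 := by
    by_contra hne
    obtain ⟨p, hp, hpd⟩ := Nat.exists_prime_and_dvd hne
    have hdm : d ∣ orderOf lam := by
      have := hdiv _ hPm
      exact_mod_cast this
    obtain ⟨H, hNH, ν, hcop, -, hνc, hν1, hνN⟩ := hsyl p hp (hpd.trans hdm)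
    obtain ⟨νh, hνh⟩ := linChar_exists_hom hνc hν1
    have hφ : ∀ n : N, νh ⟨n, hNH n.2⟩ = f n := by
      intro n
      apply Units.ext
      rw [hνh, hf]
      exact hνN n
    have hPH : P (H.index : ℤ) :=
      (hP _).mpr ⟨MonoidHom.transfer νh, fun n => by
        rw [transfer_eq_pow_of_inv_of_le N H hNH νh f hφ hfinv n, zpow_natCast]⟩
    have hdH : d ∣ H.index := by
      have := hdiv _ hPH
      exact_mod_cast this
    have hpH : p ∣ H.index := hpd.trans hdH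
    have h1 : p ∣ Nat.gcd H.index p := Nat.dvd_gcd hpH dvd_rfl
    rw [Nat.Coprime.gcd_eq_one hcop] at h1
    exact hp.one_lt.ne' (Nat.dvd_one.mp h1)
  rw [hd1] at hPd
  obtain ⟨μ, hμ⟩ := (hP _).mp hPd
  refine ⟨fun g => ((μ g : ℂˣ) : ℂ), isCharacter_unitHom μ, ?_, ?_⟩
  · show ((μ 1 : ℂˣ) : ℂ) = 1
    rw [map_one]; rfl
  · intro n
    show ((μ (n : G) : ℂˣ) : ℂ) = lam n
    rw [hμ n, ← hf n]
    simp

end Cfsg.Agent.S0864
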