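import Cfsg.Statements.S0874
import Cfsg.Agent.Helper22.Brauer2

set_option autoImplicit false
open Cfsg
open Cfsg.Agent.Helper24 Cfsg.Agent.Helper5 Cfsg.Agent.Helper22

namespace Cfsg.Agent.S0874

theorem list_neg_sum' {G : Type*} [Group G] [Fintype G]
    (l : List ((E : Subgroup G) × ((E → ℂ) × ℤ))) :
    ((l.map fun t => (⟨t.1, t.2.1, -t.2.2⟩ : (E : Subgroup G) × ((E → ℂ) × ℤ))).map
        fun t => (t.2.2 : ℂ) • indFun t.1 t.2.1).sum =
      -(l.map fun t => (t.2.2 : ℂ) • indFun t.1 t.2.1).sum := by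
  induction l with
  | nil => simp
  | cons t l ih =>
    rw [List.map_cons, List.map_cons, List.sum_cons, List.map_cons, List.sum_cons, ih, neg_add]
    congr 1
    show (((-t.2.2 : ℤ) : ℂ)) • _ = -(_ • _)
    rw [Int.cast_neg, neg_smul]

/-- functions given by a list of induced characters of `p`-elementary subgroups -/
noncomputable def listSubgroup (p : ℕ) (G : Type*) [Group G] [Fintype G] :
    AddSubgroup (G → ℂ) where
  carrier := {f | ∃ l : List ((E : Subgroup G) × ((E → ℂ) × ℤ)),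
    (∀ t ∈ l, IsElementary p t.1 ∧ IsCharacter t.1 t.2.1) ∧
    f = (l.map fun t => (t.2.2 : ℂ) • indFun t.1 t.2.1).sum}
  zero_mem' := ⟨[], by simp, by simp⟩
  add_mem' := by
    rintro _ _ ⟨l₁, h₁, rfl⟩ ⟨l₂, h₂, rfl⟩
    refine ⟨l₁ ++ l₂, ?_, ?_⟩
    · intro t ht
      rcases List.mem_append.mp ht with h | h
      · exact h₁ t h
      · exact h₂ t h
    · rw [List.map_append, List.sum_append]
  neg_mem' := by
    rintro _ ⟨l, h, rfl⟩
    refine ⟨l.map fun t => ⟨t.1, t.2.1, -t.2.2⟩, ?_, ?_⟩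
    · intro t ht
      obtain ⟨t', ht', rfl⟩ := List.mem_map.mp ht
      exact h t' ht'
    · exact (list_neg_sum' l).symm


/-- For a finite group G and a prime p there are an integer m not divisible by p and a list of triples (E, φ, c), with E a p-elementary subgroup, φ a character of E and c an integer, such that the constant function m on G equals the sum of the c • (function induced from φ). -/
theorem result {G : Type*} [Group G] [Fintype G] (p : ℕ) (hp : p.Prime) : ∃ (m : ℤ) (l : List ((E : Subgroup G) × ((E → ℂ) × ℤ))), ¬ (p : ℤ) ∣ m ∧ (∀ t ∈ l, Cfsg.IsElementary p t.1 ∧ Cfsg.IsCharacter t.1 t.2.1) ∧ (fun _ : G => (m : ℂ)) = (l.map fun t => (t.2.2 : ℂ) • Cfsg.indFun t.1 t.2.1).sum := by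
  haveI : Fact p.Prime := ⟨hp⟩
  obtain ⟨m, hm, hmem⟩ := solomon_mem_brauerSpan p G
  have hle : brauerSpan p G ≤ listSubgroup p G := by
    show AddSubgroup.closure _ ≤ _
    rw [AddSubgroup.closure_le]
    rintro f ⟨E, lam, hE, rfl⟩
    refine ⟨[⟨E, fun e => ((lam e : ℂˣ) : ℂ), 1⟩], ?_, ?_⟩
    · intro t ht
      rw [List.mem_singleton] at ht
      subst ht
      exact ⟨hE, Cfsg.Agent.S0865.isCharacter_of_hom lam⟩
    · simp
  obtain ⟨l, hl, hsum⟩ := hle hmem
  exact ⟨m, l, hm, hl, hsum⟩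

end Cfsg.Agent.S0874
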