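import Cfsg.Statements.S0877
import Cfsg.Agent.Helper22.BrauerSuzuki


set_option autoImplicit false
open Cfsg
open Cfsg.Agent.Helper22 Cfsg.Agent.Helper24 Cfsg.Agent.Helper5

namespace Cfsg.Agent.S0877

/-- Let H be a subgroup of the finite group G whose order is coprime to its index. Suppose that elements of H conjugate in G are conjugate in H, and that every subgroup E of G that is elementary for some prime (in the sense used for Brauer's characterisation of characters) and whose order divides the order of H is conjugate to a subgroup of H. Then there is a normal subgroup K with K ⊔ H = ⊤ and K ⊓ H trivial. -/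
theorem result {G : Type*} [Group G] [Finite G] (H : Subgroup G) (hHall : Nat.Coprime (Nat.card H) H.index) (hfus : ∀ x ∈ H, ∀ y ∈ H, IsConj x y → ∃ h ∈ H, h * x * h⁻¹ = y) (helem : ∀ (E : Subgroup G) (p : ℕ), p.Prime → Cfsg.IsElementary p E → Nat.card E ∣ Nat.card H → ∃ g : G, E.map (MulAut.conj g).toMonoidHom ≤ H) : ∃ K : Subgroup G, K.Normal ∧ K ⊔ H = ⊤ ∧ K ⊓ H = ⊥ := by
  classical
  haveI : Fintype G := Fintype.ofFinite G
  haveI : Fintype H := Fintype.ofFinite H
  have hcardG : Nat.card H * H.index = Nat.card G := H.card_mul_index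
  have hN : (Nat.card G : ℂ) ≠ 0 := Nat.cast_ne_zero.mpr Nat.card_pos.ne'
  have hn : (Nat.card H : ℂ) ≠ 0 := Nat.cast_ne_zero.mpr Nat.card_pos.ne'
  obtain ⟨r, hr1, hr0⟩ := Nat.chineseRemainder hHall 1 0
  -- every element of order dividing |H| is conjugate into H
  have hconjH : ∀ y : G, y ^ Nat.card H = 1 → ∃ c : G, c * y * c⁻¹ ∈ H := by
    intro y hy
    obtain ⟨p, hp, hel⟩ := isElementary_zpowers y
    have hdvd : Nat.card (Subgroup.zpowers y) ∣ Nat.card H := by
      rw [Nat.card_zpowers]; exact orderOf_dvd_of_pow_eq_one hy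
    obtain ⟨g, hg⟩ := helem (Subgroup.zpowers y) p hp hel hdvd
    exact ⟨g, hg (Subgroup.mem_map.mpr ⟨y, Subgroup.mem_zpowers y, rfl⟩)⟩
  have hpow : ∀ g : G, (g ^ r) ^ Nat.card H = 1 :=
    pow_mul_eq_one_of_modEq (by rw [hcardG]) hr0
  choose c hc using fun g => hconjH (g ^ r) (hpow g)
  obtain ⟨xg, hxg⟩ : ∃ xg : G → H, ∀ g, (xg g : G) = c g * g ^ r * (c g)⁻¹ :=
    ⟨fun g => ⟨_, hc g⟩, fun g => rfl⟩
  have hxconj : ∀ g, IsConj (g ^ r) (xg g : G) := fun g => isConj_iff.mpr ⟨c g, (hxg g).symm⟩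
  have P2 : ∀ θ : H → ℂ, IsClassFunction H θ → ∀ (g : G) (y : H), IsConj (g ^ r) (y : G) →
      θ (xg g) = θ y := by
    intro θ hθ g y hy
    have h1 : IsConj (xg g : G) (y : G) := (hxconj g).symm.trans hy
    obtain ⟨h, hh, hhe⟩ := hfus _ (xg g).2 _ y.2 h1
    have h2 : (⟨h, hh⟩ : H) * xg g * (⟨h, hh⟩ : H)⁻¹ = y := Subtype.ext hhe
    rw [← h2, hθ]
  have hHpow : ∀ h : H, ((h : G)) ^ r = h := by
    intro h
    apply pow_eq_self_of_modEq hr1
    have h1 : (h : H) ^ Nat.card H = 1 := pow_card_eq_one'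
    have h2 : ((h ^ Nat.card H : H) : G) = 1 := by rw [h1]; rfl
    rwa [Subgroup.coe_pow] at h2
  have P4 : ∀ θ : H → ℂ, IsClassFunction H θ → ∀ h : H, θ (xg (h : G)) = θ h := by
    intro θ hθ h
    apply P2 θ hθ (h : G) h
    rw [hHpow h]
  have hxg1 : ∀ θ : H → ℂ, IsClassFunction H θ → θ (xg 1) = θ 1 := fun θ hθ => P4 θ hθ 1
  have hself : ∀ h : H, ∃ k : H, k * xg (h : G) * k⁻¹ = h := by
    intro h
    have h1 : IsConj (xg (h : G) : G) (h : G) := by
      have := hxconj (h : G)
      rw [hHpow h] at this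
      exact this.symm
    obtain ⟨k, hk, hke⟩ := hfus _ (xg (h : G)).2 _ h.2 h1
    exact ⟨⟨k, hk⟩, Subtype.ext hke⟩
  have tildeCF : ∀ θ : H → ℂ, IsClassFunction H θ → IsClassFunction G (fun g => θ (xg g)) := by
    intro θ hθ g k
    show θ (xg (k * g * k⁻¹)) = θ (xg g)
    apply P2 θ hθ (k * g * k⁻¹) (xg g)
    rw [conj_pow]
    exact (isConj_iff.mpr ⟨k, rfl⟩ : IsConj (g ^ r) (k * g ^ r * k⁻¹)).symm.trans (hxconj g)
  -- the lifted function is a generalized character
  have hgen : ∀ θ : H → ℂ, IsCharacter H θ → IsGeneralizedCharacter G (fun g => θ (xg g)) := by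
    intro θ hθ
    have hθcf := isCharacter_isClassFunction hθ
    apply Cfsg.Agent.S0164.result _ (tildeCF θ hθcf)
    intro E p hp hEl
    have hEcard : Nat.card E ∣ Nat.card H * H.index := by
      rw [hcardG]; exact Subgroup.card_subgroup_dvd_card E
    obtain ⟨f, hf⟩ : ∃ f : E →* G, ∀ e : E, f e = (e : G) ^ r :=
      ⟨{ toFun := fun e => (e : G) ^ r
         map_one' := by simp
         map_mul' := fun a b => by
           have h1 := elementary_pow_mul hp hEl hHall hEcard hr1 hr0 a b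
           have h2 := congrArg (Subtype.val) h1
           simpa using h2 }, fun e => rfl⟩
    have hRel : IsElementary p f.range :=
      isElementary_of_surjective hp f.rangeRestrict f.rangeRestrict_surjective hEl
    have hRn : ∀ y ∈ f.range, y ^ Nat.card H = 1 := by
      rintro _ ⟨e, rfl⟩
      rw [hf e]
      exact hpow (e : G)
    have hRcard : Nat.card f.range ∣ Nat.card H := by
      have h1 : Nat.card f.range ∣ Nat.card H * H.index := by
        rw [hcardG]; exact Subgroup.card_subgroup_dvd_card _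
      have hcop : Nat.Coprime (Nat.card f.range) H.index := by
        by_contra hnc
        obtain ⟨l, hl, hl1, hl2⟩ := Nat.Prime.not_coprime_iff_dvd.mp hnc
        haveI : Fact l.Prime := ⟨hl⟩
        obtain ⟨y, hy⟩ := exists_prime_orderOf_dvd_card' l hl1
        have hyn : (y : G) ^ Nat.card H = 1 := hRn y y.2
        have hln : l ∣ Nat.card H := by
          rw [← hy, ← Subgroup.orderOf_coe]; exact orderOf_dvd_of_pow_eq_one hyn
        exact (Nat.Prime.coprime_iff_not_dvd hl).mp (Nat.Coprime.coprime_dvd_left hln hHall) hl2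
      exact hcop.dvd_of_dvd_mul_right h1
    obtain ⟨g₀, hg₀⟩ := helem f.range p hp hRel hRcard
    obtain ⟨φ, hφe⟩ : ∃ φ : E →* H, ∀ e : E, (φ e : G) = g₀ * (e : G) ^ r * g₀⁻¹ :=
      ⟨((MulAut.conj g₀).toMonoidHom.comp f).codRestrict H
        (fun e => hg₀ (Subgroup.mem_map.mpr ⟨f e, MonoidHom.mem_range.mpr ⟨e, rfl⟩, rfl⟩)),
        fun e => by rw [← hf e]; rfl⟩
    have hφ : (fun e : E => θ (xg (e : G))) = fun e => θ (φ e) := by
      funext e
      apply P2 θ hθcf (e : G) (φ e)
      exact isConj_iff.mpr ⟨g₀, (hφe e).symm⟩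
    show IsGeneralizedCharacter E (fun e : E => θ (xg (e : G)))
    rw [hφ]
    obtain ⟨d, ρ, rfl⟩ := hθ
    exact isGenChar_of_isCharacter ⟨d, ρ.comp φ, rfl⟩
  have hgen' : ∀ θ : IrrCharacter H,
      IsGeneralizedCharacter G (fun g => (θ : H → ℂ) (xg g)) :=
    fun θ => hgen θ (isCharacter_of_isIrrCharacter θ.2)
  have htrans := bs_sum_transfer H xg hgen' hself
  -- the lift is an isometry on irreducible characters
  have hinner : ∀ θ : IrrCharacter H, classInner (fun g => (θ : H → ℂ) (xg g))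
      (fun g => (θ : H → ℂ) (xg g)) = 1 := by
    intro θ
    have hθcf := isCharacter_isClassFunction (isCharacter_of_isIrrCharacter θ.2)
    have hΞ : IsClassFunction H (fun h => (θ : H → ℂ) h * starRingEnd ℂ ((θ : H → ℂ) h)) := by
      intro g k
      show (θ : H → ℂ) (k * g * k⁻¹) * starRingEnd ℂ ((θ : H → ℂ) (k * g * k⁻¹)) = _
      rw [hθcf g k]
    have h1 := htrans _ hΞ
    have h2 := irr_inner_self θ
    unfold classInner at h2 ⊢
    have e1 : ∑ g : G, (θ : H → ℂ) (xg g) * starRingEnd ℂ ((θ : H → ℂ) (xg g)) =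
        (Nat.card H : ℂ)⁻¹ * ((Nat.card G : ℂ) *
          ∑ h : H, (θ : H → ℂ) h * starRingEnd ℂ ((θ : H → ℂ) h)) := by
      rw [← h1, ← mul_assoc, inv_mul_cancel₀ hn, one_mul]
    rw [e1, ← h2]
    field_simp
  have hirr : ∀ θ : IrrCharacter H, IsIrrCharacter G (fun g => (θ : H → ℂ) (xg g)) := by
    intro θ
    have hθcf := isCharacter_isClassFunction (isCharacter_of_isIrrCharacter θ.2)
    obtain ⟨μ, hμ | hμ⟩ := genChar_norm_one (hgen' θ) (hinner θ)
    · rw [hμ]; exact μ.2
    · exfalso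
      obtain ⟨a, ha, hθ1⟩ := irr_one_eq_natCast_pos θ
      obtain ⟨b, hb, hμ1⟩ := irr_one_eq_natCast_pos μ
      have h1 : (θ : H → ℂ) (xg 1) = -((μ : G → ℂ) 1) := congrFun hμ 1
      rw [hxg1 _ hθcf, hθ1, hμ1] at h1
      have h2 : ((a + b : ℕ) : ℂ) = 0 := by push_cast; rw [h1]; ring
      have h3 : a + b = 0 := by exact_mod_cast h2
      omega
  choose d ρ hρirr hρchar using hirr
  have hdeg : ∀ θ : IrrCharacter H, (θ : H → ℂ) 1 = (d θ : ℂ) := by
    intro θ
    have hθcf := isCharacter_isClassFunction (isCharacter_of_isIrrCharacter θ.2)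
    have h1 := congrFun (hρchar θ) 1
    rw [char_one_fin] at h1
    have h2 : (d θ : ℂ) = (θ : H → ℂ) (xg 1) := h1
    rw [h2, hxg1 _ hθcf]
  obtain ⟨K, hKn, hKmem⟩ : ∃ K : Subgroup G, K.Normal ∧
      ∀ g, g ∈ K ↔ ∀ θ : IrrCharacter H, ρ θ g = 1 :=
    ⟨⨅ θ : IrrCharacter H, MonoidHom.ker (ρ θ),
      Subgroup.normal_iInf_normal (fun θ => MonoidHom.normal_ker _),
      fun g => by simp [Subgroup.mem_iInf, MonoidHom.mem_ker]⟩
  have hKH : K ⊓ H = ⊥ := by
    rw [eq_bot_iff]
    rintro h ⟨hK, hH⟩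
    rw [Subgroup.mem_bot]
    have hall : ∀ θ : IrrCharacter H, (θ : H → ℂ) ⟨h, hH⟩ = (θ : H → ℂ) 1 := by
      intro θ
      have hθcf := isCharacter_isClassFunction (isCharacter_of_isIrrCharacter θ.2)
      have h1 : (ρ θ) h = 1 := (hKmem h).mp hK θ
      have h2 : (ρ θ).character h = (ρ θ).character 1 := by
        unfold Representation.character
        rw [h1, map_one (ρ θ)]
      rw [hρchar θ] at h2
      have h2' : (θ : H → ℂ) (xg h) = (θ : H → ℂ) (xg 1) := h2
      have h3 : (θ : H → ℂ) (xg h) = (θ : H → ℂ) ⟨h, hH⟩ := P4 _ hθcf ⟨h, hH⟩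
      rw [← h3, h2', hxg1 _ hθcf]
    by_contra hne
    have hne' : (⟨h, hH⟩ : H) ≠ 1 := fun hh => hne (congrArg Subtype.val hh)
    have s1 := sum_irr_one_mul (G := H) (⟨h, hH⟩ : H)
    rw [if_neg hne'] at s1
    have s2 := sum_irr_one_mul (G := H) (1 : H)
    rw [if_pos rfl] at s2
    have s3 : ∑ χ : IrrCharacter H, (χ : H → ℂ) 1 * (χ : H → ℂ) ⟨h, hH⟩ =
        ∑ χ : IrrCharacter H, (χ : H → ℂ) 1 * (χ : H → ℂ) 1 :=
      Finset.sum_congr rfl (fun θ _ => by rw [hall θ])
    rw [s1, s2] at s3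
    exact hn s3.symm
  refine ⟨K, hKn, ?_, hKH⟩
  -- elements with trivial π-part lie in K
  have hS_K : ∀ g : G, g ^ r = 1 → g ∈ K := by
    intro g hg
    rw [hKmem]
    intro θ
    have hx1 : xg g = 1 := Subtype.ext (by rw [hxg g, hg]; simp)
    have h1 : (ρ θ).character g = (Module.finrank ℂ (Fin (d θ) → ℂ) : ℂ) := by
      rw [hρchar θ, Module.finrank_fin_fun]
      show (θ : H → ℂ) (xg g) = _
      rw [hx1, hdeg θ]
    exact (char_eq_finrank_iff (ρ θ) g).mp h1
  have hScard : Nat.card H * (Finset.univ.filter (fun g : G => g ^ r = 1)).card = Nat.card G := by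
    have hΞ : IsClassFunction H (fun h : H => if h = 1 then (1 : ℂ) else 0) := by
      intro g k
      show (if k * g * k⁻¹ = 1 then (1 : ℂ) else 0) = if g = 1 then (1 : ℂ) else 0
      have hiff : (k * g * k⁻¹ = 1) = (g = 1) := propext conj_eq_one_iff
      simp only [hiff]
    have h1 := htrans _ hΞ
    have h2 : ∑ g : G, (if xg g = 1 then (1 : ℂ) else 0) =
        ((Finset.univ.filter (fun g : G => g ^ r = 1)).card : ℂ) := by
      rw [Finset.sum_boole]
      congr 2
      apply Finset.filter_congr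
      intro g _
      constructor
      · intro hx
        have := congrArg Subtype.val hx
        rw [hxg g] at this
        exact conj_eq_one_iff.mp this
      · intro hg
        exact Subtype.ext (by rw [hxg g, hg]; simp)
    have h3 : ∑ h : H, (if h = 1 then (1 : ℂ) else 0) = 1 := by simp
    rw [h2, h3, mul_one] at h1
    exact_mod_cast h1
  have hSK : (Finset.univ.filter (fun g : G => g ^ r = 1)).card ≤ Nat.card K := by
    have e1 : Nat.card K = (K : Set G).ncard := Nat.card_coe_set_eq (K : Set G)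
    rw [e1, ← Set.ncard_coe_finset]
    apply Set.ncard_le_ncard
    · intro g hg
      exact hS_K g (Finset.mem_filter.mp (Finset.mem_coe.mp hg)).2
    · exact Set.toFinite _
  have hsub : K.subgroupOf H = ⊥ := by
    rw [Subgroup.subgroupOf_eq_bot]; exact disjoint_iff.mpr hKH
  have hrel : K.relIndex H = Nat.card H := by
    rw [Subgroup.relIndex, hsub, Subgroup.index_bot]
  have hdvd : Nat.card H ∣ K.index := by
    rw [← hrel]; exact Subgroup.relIndex_dvd_index_of_normal K H
  have hKidx : Nat.card K * K.index = Nat.card G := Subgroup.card_mul_index K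
  obtain ⟨j, hj⟩ := hdvd
  have hNle : Nat.card G ≤ Nat.card H * Nat.card K := by
    rw [← hScard]; exact Nat.mul_le_mul_left _ hSK
  have hj1 : j = 1 := by
    have hpos : 0 < Nat.card H * Nat.card K := Nat.mul_pos Nat.card_pos Nat.card_pos
    have h1 : Nat.card H * Nat.card K * j ≤ Nat.card H * Nat.card K * 1 := by
      rw [mul_one]
      calc Nat.card H * Nat.card K * j = Nat.card K * K.index := by rw [hj]; ring
        _ = Nat.card G := hKidx
        _ ≤ Nat.card H * Nat.card K := hNle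
    have hj_le := Nat.le_of_mul_le_mul_left h1 hpos
    have hj0 : j ≠ 0 := by
      rintro rfl
      rw [mul_zero] at hj
      exact Subgroup.index_ne_zero_of_finite hj
    omega
  have hmul : Nat.card K * Nat.card H = Nat.card G := by
    rw [← hKidx, hj, hj1, mul_one]
  exact (Subgroup.isComplement'_of_card_mul_and_disjoint hmul (disjoint_iff.mpr hKH)).sup_eq_top

end Cfsg.Agent.S0877
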