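import Mathlib
import Cfsg.Statements.S0878
import Cfsg.Agent.Helper5.Grp

namespace Cfsg.Agent.S0878

open Cfsg.Agent.Helper5

theorem result {G Ω : Type*} [Group G] [Finite G] [MulAction G Ω] [Fintype Ω] (hZ : Cfsg.IsZassenhausGroup G Ω) (a : Ω) (H : Subgroup G) (hHa : H ≤ MulAction.stabilizer G a) (hHcard : Nat.card H + 1 = Fintype.card Ω) (hHfix : ∀ u ∈ H, u ≠ 1 → ∀ c : Ω, u • c = c → c = a) : (∀ g : G, g ∉ MulAction.stabilizer G a → ∀ u ∈ H, g * u * g⁻¹ ∈ H → u = 1) ∧ Subgroup.normalizer (H : Set G) = MulAction.stabilizer G a := by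
  classical
  obtain ⟨hfaith, h2t, h3, ⟨g0, hg0, a0, b0, hab0, hga0, hgb0⟩, -⟩ := hZ
  have hHa' : ∀ u ∈ H, u • a = a := fun u hu => MulAction.mem_stabilizer_iff.mp (hHa hu)
  have part1 : ∀ g : G, g ∉ MulAction.stabilizer G a → ∀ u ∈ H, g * u * g⁻¹ ∈ H → u = 1 := by
    intro g hg u hu hgu
    by_contra hu1
    apply hg
    rw [MulAction.mem_stabilizer_iff]
    apply hHfix (g * u * g⁻¹) hgu
    · intro h
      apply hu1
      have : u = g⁻¹ * (g * u * g⁻¹) * g := by group
      rw [this, h]; group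
    · rw [mul_smul, mul_smul, inv_smul_smul, hHa' u hu]
  refine ⟨part1, ?_⟩
  have hcard3 : 3 ≤ Fintype.card Ω := by
    by_contra hcon
    push Not at hcon
    apply hg0
    apply hfaith.eq_of_smul_eq_smul
    intro c
    rw [one_smul]
    by_contra hc
    have hca : c ≠ a0 := fun h => hc (h ▸ hga0)
    have hcb : c ≠ b0 := fun h => hc (h ▸ hgb0)
    have h1 : ({a0, b0, c} : Finset Ω).card = 3 := by
      rw [Finset.card_insert_of_notMem, Finset.card_insert_of_notMem, Finset.card_singleton]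
      · simp [hcb.symm]
      · simp [hab0, hca.symm]
    have h2 := Finset.card_le_univ ({a0, b0, c} : Finset Ω)
    omega
  have hHcard' : 2 ≤ Nat.card H := by omega
  obtain ⟨u0, hu0H, hu01⟩ : ∃ u ∈ H, u ≠ 1 := by
    by_contra hcon
    push Not at hcon
    have : H = ⊥ := (Subgroup.eq_bot_iff_forall _).mpr hcon
    rw [this, Subgroup.card_bot] at hHcard'
    omega
  have hF : ∀ k : G, k • a = a → (∀ c, k • c = c → c = a) → k ∈ H := by
    intro k hka hkfix
    have : Fintype H := Fintype.ofFinite H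
    have hcH : Fintype.card H + 1 = Fintype.card Ω := by
      rw [← Nat.card_eq_fintype_card]; exact hHcard
    have hcX : Fintype.card {c : Ω // c ≠ a} = Fintype.card H := by
      rw [Fintype.card_subtype_compl, Fintype.card_subtype_eq]; omega
    have hsurj : ∀ c : Ω, c ≠ a → ∀ d : Ω, d ≠ a → ∃ u ∈ H, u • c = d := by
      intro c hc d hd
      let f : H → {d : Ω // d ≠ a} := fun u => ⟨(u : G) • c, by
        intro h
        apply hc
        have h' : (u : G) • c = (u : G) • a := h.trans (hHa' u u.2).symm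
        exact smul_left_cancel _ h'⟩
      have hinj : Function.Injective f := by
        intro u₁ u₂ h12
        have h12' : (u₁ : G) • c = (u₂ : G) • c := congrArg Subtype.val h12
        by_contra hne
        have h1 : ((u₂ : G)⁻¹ * (u₁ : G)) • c = c := by
          rw [mul_smul, h12', inv_smul_smul]
        have h2 : (u₂ : G)⁻¹ * (u₁ : G) ≠ 1 := by
          intro h; apply hne
          apply Subtype.ext
          exact (inv_mul_eq_one.mp h).symm
        exact hc (hHfix _ (H.mul_mem (H.inv_mem u₂.2) u₁.2) h2 c h1)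
      have hbij := (Fintype.bijective_iff_injective_and_card f).mpr ⟨hinj, hcX.symm⟩
      obtain ⟨u, hu⟩ := hbij.2 ⟨d, hd⟩
      exact ⟨u, u.2, congrArg Subtype.val hu⟩
    have hkc : ∀ c : Ω, c ≠ a → k • c ≠ a := by
      intro c hc h
      have h' : k • c = k • a := h.trans hka.symm
      exact hc (smul_left_cancel _ h')
    choose φ hφH hφ using fun c : {c : Ω // c ≠ a} => hsurj c.1 c.2 (k • c.1) (hkc c.1 c.2)
    have hφ1 : ∀ c, φ c ≠ 1 := by
      intro c h
      have := hφ c
      rw [h, one_smul] at this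
      exact c.2 (hkfix c.1 this.symm)
    let ψ : {c : Ω // c ≠ a} → {u : H // u ≠ 1} := fun c => ⟨⟨φ c, hφH c⟩, by
      intro h; exact hφ1 c (congrArg Subtype.val h)⟩
    have hlt : Fintype.card {u : H // u ≠ 1} < Fintype.card {c : Ω // c ≠ a} := by
      rw [hcX, Fintype.card_subtype_compl, Fintype.card_subtype_eq]
      have : 0 < Fintype.card H := Fintype.card_pos
      omega
    obtain ⟨c, d, hcd, hψ⟩ := Fintype.exists_ne_map_eq_of_card_lt ψ hlt
    have hφcd : φ c = φ d := congrArg (fun x : {u : H // u ≠ 1} => ((x : H) : G)) hψ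
    have h1 : ((φ c)⁻¹ * k) • a = a := by
      rw [mul_smul, hka, inv_smul_eq_iff, hHa' _ (hφH c)]
    have h2 : ((φ c)⁻¹ * k) • c.1 = c.1 := by
      rw [mul_smul, ← hφ c, inv_smul_smul]
    have h3' : ((φ c)⁻¹ * k) • d.1 = d.1 := by
      rw [hφcd, mul_smul, ← hφ d, inv_smul_smul]
    have hone := h3 _ a c.1 d.1 c.2.symm (fun h => hcd (Subtype.ext h)) d.2.symm h1 h2 h3'
    have : k = φ c := (inv_mul_eq_one.mp hone).symm
    rw [this]; exact hφH c
  apply le_antisymm
  · intro n hn
    by_contra hna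
    exact hu01 (part1 n hna u0 hu0H (conj_mem_of_mem_normalizer hn hu0H))
  · intro g hg
    rw [MulAction.mem_stabilizer_iff] at hg
    apply mem_normalizer_of_conj_mem
    intro u hu
    by_cases hu1 : u = 1
    · rw [hu1]; simp
    apply hF
    · rw [mul_smul, mul_smul, inv_smul_eq_iff.mpr hg.symm, hHa' u hu, hg]
    · intro c hc
      have h1 : u • (g⁻¹ • c) = g⁻¹ • c := by
        rw [mul_smul, mul_smul] at hc
        exact eq_inv_smul_iff.mpr hc
      have h2 := hHfix u hu hu1 _ h1
      rw [inv_smul_eq_iff] at h2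
      rw [h2, hg]

end Cfsg.Agent.S0878
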