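import Mathlib
import Cfsg.Statements.S0879
import Cfsg.Agent.Helper5.Grp

namespace Cfsg.Agent.S0879

open Cfsg.Agent.Helper5

theorem conj_fix {G Ω : Type*} [Group G] [MulAction G Ω] {g q : G} {c d : Ω}
    (hgc : g • c = d) (hqd : q • d = d) : (g⁻¹ * q * g) • c = c := by
  rw [mul_smul, mul_smul, hgc, hqd, inv_smul_eq_iff, hgc]

theorem result {G Ω : Type*} [Group G] [Finite G] [MulAction G Ω] [Fintype Ω] (hZ : Cfsg.IsZassenhausGroup G Ω) {a b : Ω} (hab : a ≠ b) : (∀ g : G, g ∉ Subgroup.normalizer ((MulAction.stabilizer G a ⊓ MulAction.stabilizer G b : Subgroup G) : Set G) → ∀ x ∈ (MulAction.stabilizer G a ⊓ MulAction.stabilizer G b : Subgroup G), g * x * g⁻¹ ∈ (MulAction.stabilizer G a ⊓ MulAction.stabilizer G b : Subgroup G) → x = 1) ∧ ((MulAction.stabilizer G a ⊓ MulAction.stabilizer G b : Subgroup G).subgroupOf (Subgroup.normalizer ((MulAction.stabilizer G a ⊓ MulAction.stabilizer G b : Subgroup G) : Set G))).index = 2 := by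
  obtain ⟨hfaith, h2t, h3, ⟨g0, hg0, a0, b0, hab0, hga0, hgb0⟩, -⟩ := hZ
  rw [MulAction.is_two_pretransitive_iff] at h2t
  set H := (MulAction.stabilizer G a ⊓ MulAction.stabilizer G b : Subgroup G) with hH
  have hHmem : ∀ x, x ∈ H ↔ x • a = a ∧ x • b = b := by
    intro x; rw [hH, Subgroup.mem_inf, MulAction.mem_stabilizer_iff, MulAction.mem_stabilizer_iff]
  have hfix : ∀ x ∈ H, x ≠ 1 → ∀ c, x • c = c → c = a ∨ c = b := by
    intro x hx hx1 c hc
    by_contra hcon
    push Not at hcon
    exact hx1 (h3 x a b c hab (Ne.symm hcon.2) (Ne.symm hcon.1) ((hHmem x).mp hx).1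
      ((hHmem x).mp hx).2 hc)
  have hset : ∀ g : G, (g • a = a ∨ g • a = b) → (g • b = a ∨ g • b = b) →
      g ∈ Subgroup.normalizer (H : Set G) := by
    intro g ha hb
    have : g⁻¹ ∈ Subgroup.normalizer (H : Set G) := by
      apply mem_normalizer_of_conj_mem
      intro q hq
      rw [inv_inv, hHmem]
      rw [hHmem] at hq
      constructor
      · rcases ha with h | h
        · exact conj_fix h hq.1
        · exact conj_fix h hq.2
      · rcases hb with h | h
        · exact conj_fix h hq.1
        · exact conj_fix h hq.2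
    simpa using (Subgroup.normalizer (H : Set G)).inv_mem this
  constructor
  · intro g hg x hx hgx
    by_contra hx1
    apply hg
    have hxa : x • (g⁻¹ • a) = g⁻¹ • a := by
      have := ((hHmem _).mp hgx).1
      rw [mul_smul, mul_smul] at this
      exact eq_inv_smul_iff.mpr this
    have hxb : x • (g⁻¹ • b) = g⁻¹ • b := by
      have := ((hHmem _).mp hgx).2
      rw [mul_smul, mul_smul] at this
      exact eq_inv_smul_iff.mpr this
    have := hset g⁻¹ (hfix x hx hx1 _ hxa) (hfix x hx hx1 _ hxb)
    simpa using (Subgroup.normalizer (H : Set G)).inv_mem this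
  · -- a nonidentity element of H
    obtain ⟨k, hka, hkb⟩ := h2t hab0 hab
    have hx0 : k * g0 * k⁻¹ ∈ H := by
      rw [hHmem]
      constructor
      · have := conj_fix (g := k⁻¹) (q := g0) (c := a) (d := a0) (inv_smul_eq_iff.mpr hka.symm) hga0
        simpa using this
      · have := conj_fix (g := k⁻¹) (q := g0) (c := b) (d := b0) (inv_smul_eq_iff.mpr hkb.symm) hgb0
        simpa using this
    have hx01 : k * g0 * k⁻¹ ≠ 1 := by
      intro h
      apply hg0
      have : g0 = k⁻¹ * (k * g0 * k⁻¹) * k := by group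
      rw [this, h]; group
    have hnorm : ∀ n ∈ Subgroup.normalizer (H : Set G), ∀ c, (c = a ∨ c = b) →
        (n • c = a ∨ n • c = b) := by
      intro n hn c hc
      have h1 := conj_inv_mem_of_mem_normalizer hn hx0
      rw [hHmem] at h1
      apply hfix _ hx0 hx01
      rcases hc with rfl | rfl
      · have := h1.1
        rw [mul_smul, mul_smul] at this
        exact inv_smul_eq_iff.mp this
      · have := h1.2
        rw [mul_smul, mul_smul] at this
        exact inv_smul_eq_iff.mp this
    obtain ⟨s, hsa, hsb⟩ := h2t hab hab.symm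
    have hsN : s ∈ Subgroup.normalizer (H : Set G) := hset s (Or.inr hsa) (Or.inl hsb)
    rw [Subgroup.index_eq_two_iff]
    refine ⟨⟨s, hsN⟩, ?_⟩
    rintro ⟨n, hn⟩
    simp only [Subgroup.mem_subgroupOf, Subgroup.coe_mul, hHmem]
    have hna := hnorm n hn a (Or.inl rfl)
    have hnb := hnorm n hn b (Or.inr rfl)
    have hinj : n • a ≠ n • b := fun h => hab (smul_left_cancel n h)
    rcases hna with hna | hna
    · have hnb' : n • b = b := by
        rcases hnb with h | h
        · exact absurd (hna.trans h.symm) hinj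
        · exact h
      right
      refine ⟨⟨hna, hnb'⟩, ?_⟩
      rintro ⟨h1, -⟩
      rw [mul_smul, hsa, hnb'] at h1
      exact hab h1.symm
    · have hnb' : n • b = a := by
        rcases hnb with h | h
        · exact h
        · exact absurd (hna.trans h.symm) hinj
      left
      refine ⟨⟨by rw [mul_smul, hsa, hnb'], by rw [mul_smul, hsb, hna]⟩, ?_⟩
      rintro ⟨h1, -⟩
      rw [hna] at h1
      exact hab h1.symm

end Cfsg.Agent.S0879
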