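import Cfsg.Statements.S0881
import Cfsg.Agent.Helper24.CharGagola
import Cfsg.Agent.Helper5.LinChar

set_option autoImplicit false
open Cfsg

namespace Cfsg.Agent.S0881

open Cfsg.Agent.Helper24

/-- The transfer into a subgroup `N`, evaluated at an element `n` of `N` whose only fixed cosets
(up to powers) are `N` and `xN`. -/
theorem transfer_two {G A : Type*} [Group G] [Finite G] [CommGroup A] (N : Subgroup G)
    (ϕ : N →* A) (n : N) (x : G) (hx : x ∉ N) (hmem : x⁻¹ * (n : G) * x ∈ N)
    (h3 : ∀ (k : ℕ) (g : G), g⁻¹ * (n : G) ^ k * g ∈ N →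
      (n : G) ^ k = 1 ∨ g ∈ N ∨ x⁻¹ * g ∈ N) :
    MonoidHom.transfer ϕ (n : G) = ϕ n * ϕ ⟨x⁻¹ * n * x, hmem⟩ := by
  classical
  haveI : Fintype (Quotient (MulAction.orbitRel (Subgroup.zpowers (n : G)) (G ⧸ N))) :=
    Fintype.ofFinite _
  rw [MonoidHom.transfer_eq_prod_quotient_orbitRel_zpowers_quot ϕ (n : G)]
  have hz1 : ∀ z ∈ Subgroup.zpowers (n : G), z • ((1 : G) : G ⧸ N) = ((1 : G) : G ⧸ N) := by
    intro z hz
    have hzN : z ∈ N := (Subgroup.zpowers_le.mpr n.2) hz
    rw [MulAction.Quotient.smul_mk, QuotientGroup.eq]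
    simpa using N.inv_mem hzN
  have hzx : ∀ z ∈ Subgroup.zpowers (n : G), z • ((x : G) : G ⧸ N) = ((x : G) : G ⧸ N) := by
    intro z hz
    have hst : (n : G) ∈ MulAction.stabilizer G ((x : G) : G ⧸ N) := by
      rw [MulAction.mem_stabilizer_iff, MulAction.Quotient.smul_mk, QuotientGroup.eq]
      have := N.inv_mem hmem
      simpa [mul_assoc] using this
    exact (Subgroup.zpowers_le.mpr hst) hz
  have hval : ∀ (y : G) (hy : y ∈ N) (y' : N), y = (y' : G) → ϕ ⟨y, hy⟩ = ϕ y' := by
    intro y hy y' h; subst h; rfl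
  have horb1 : ∀ r : G ⧸ N,
      (Quotient.mk'' r : Quotient (MulAction.orbitRel (Subgroup.zpowers (n : G)) (G ⧸ N))) =
        Quotient.mk'' ((1 : G) : G ⧸ N) → r = ((1 : G) : G ⧸ N) := by
    intro r h
    obtain ⟨z, hz⟩ := Quotient.exact' h
    rw [← hz]; exact hz1 z.1 z.2
  have horbx : ∀ r : G ⧸ N,
      (Quotient.mk'' r : Quotient (MulAction.orbitRel (Subgroup.zpowers (n : G)) (G ⧸ N))) =
        Quotient.mk'' ((x : G) : G ⧸ N) → r = ((x : G) : G ⧸ N) := by
    intro r h
    obtain ⟨z, hz⟩ := Quotient.exact' h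
    rw [← hz]; exact hzx z.1 z.2
  have hper : ∀ r : G ⧸ N, (n : G) • r = r →
      Function.minimalPeriod ((n : G) • ·) r = 1 := by
    intro r hr
    exact Function.minimalPeriod_eq_one_iff_isFixedPt.mpr hr
  have hne : (Quotient.mk'' ((1 : G) : G ⧸ N) :
      Quotient (MulAction.orbitRel (Subgroup.zpowers (n : G)) (G ⧸ N))) ≠
        Quotient.mk'' ((x : G) : G ⧸ N) := by
    intro h
    have h1 := horbx _ h
    rw [QuotientGroup.eq] at h1
    exact hx (by simpa using h1)
  have hfac1 : ∀ q : Quotient (MulAction.orbitRel (Subgroup.zpowers (n : G)) (G ⧸ N)),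
      q.out = ((1 : G) : G ⧸ N) →
      ϕ ⟨q.out.out⁻¹ * (n : G) ^ Function.minimalPeriod ((n : G) • ·) q.out * q.out.out,
            QuotientGroup.out_conj_pow_minimalPeriod_mem N (n : G) q.out⟩ = ϕ n := by
    intro q hq
    have hg : q.out.out ∈ N := by
      have h1 : ((q.out.out : G) : G ⧸ N) = ((1 : G) : G ⧸ N) :=
        (QuotientGroup.out_eq' q.out).trans hq
      rw [QuotientGroup.eq] at h1
      have := N.inv_mem h1
      simpa using this
    have hp : Function.minimalPeriod ((n : G) • ·) q.out = 1 := by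
      apply hper; rw [hq]; exact hz1 _ (Subgroup.mem_zpowers _)
    refine (hval _ _ ((⟨q.out.out, hg⟩ : N)⁻¹ * n * ⟨q.out.out, hg⟩) ?_).trans ?_
    · rw [hp, pow_one]; rfl
    · rw [map_mul, map_mul, map_inv, mul_comm, ← mul_assoc, mul_inv_cancel, one_mul]
  have hfacx : ∀ q : Quotient (MulAction.orbitRel (Subgroup.zpowers (n : G)) (G ⧸ N)),
      q.out = ((x : G) : G ⧸ N) →
      ϕ ⟨q.out.out⁻¹ * (n : G) ^ Function.minimalPeriod ((n : G) • ·) q.out * q.out.out,
            QuotientGroup.out_conj_pow_minimalPeriod_mem N (n : G) q.out⟩ =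
        ϕ ⟨x⁻¹ * n * x, hmem⟩ := by
    intro q hq
    have hg : x⁻¹ * q.out.out ∈ N := by
      have h1 : ((x : G) : G ⧸ N) = ((q.out.out : G) : G ⧸ N) :=
        hq.symm.trans (QuotientGroup.out_eq' q.out).symm
      exact QuotientGroup.eq.mp h1
    have hp : Function.minimalPeriod ((n : G) • ·) q.out = 1 := by
      apply hper; rw [hq]; exact hzx _ (Subgroup.mem_zpowers _)
    refine (hval _ _ ((⟨x⁻¹ * q.out.out, hg⟩ : N)⁻¹ * ⟨x⁻¹ * n * x, hmem⟩ *
      ⟨x⁻¹ * q.out.out, hg⟩) ?_).trans ?_
    · rw [hp, pow_one]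
      show _ = (x⁻¹ * q.out.out)⁻¹ * (x⁻¹ * ↑n * x) * (x⁻¹ * q.out.out)
      group
    · rw [map_mul, map_mul, map_inv, mul_comm, ← mul_assoc, mul_inv_cancel, one_mul]
  refine (Finset.prod_eq_mul (Quotient.mk'' ((1 : G) : G ⧸ N))
    (Quotient.mk'' ((x : G) : G ⧸ N)) hne ?_ ?_ ?_).trans ?_
  · intro q _ hq
    have hmemq := QuotientGroup.out_conj_pow_minimalPeriod_mem N (n : G) q.out
    rcases h3 _ _ hmemq with h | h | h
    · refine (hval _ _ 1 ?_).trans (map_one ϕ)
      rw [h]; simp
    · exfalso; apply hq.1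
      have h1 : q.out = ((1 : G) : G ⧸ N) :=
        (QuotientGroup.out_eq' q.out).symm.trans
          (QuotientGroup.eq.mpr (by simpa using N.inv_mem h))
      exact (Quotient.out_eq' q).symm.trans (congrArg Quotient.mk'' h1)
    · exfalso; apply hq.2
      have h1 : q.out = ((x : G) : G ⧸ N) :=
        (QuotientGroup.out_eq' q.out).symm.trans (QuotientGroup.eq.mpr h).symm
      exact (Quotient.out_eq' q).symm.trans (congrArg Quotient.mk'' h1)
  · intro h; exact absurd (Finset.mem_univ _) h
  · intro h; exact absurd (Finset.mem_univ _) h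
  · exact congrArg₂ (· * ·) (hfac1 _ (horb1 _ (Quotient.out_eq' _)))
      (hfacx _ (horbx _ (Quotient.out_eq' _)))


/-- Let G be a finite simple Zassenhaus group on Ω with n points, a ≠ b points with two-point stabilizer E of odd order less than n - 2, and let H be the subgroup of the stabilizer of a consisting of the identity and the elements fixing no point other than a (given here as a subgroup of the stabilizer of order one less than the number of points whose non-identity elements fix only a; it is the Frobenius kernel of the stabilizer). Let μ be a character of degree 1 of the stabilizer of a that is identically 1 on H but not identically 1. Then the function induced from μ to G is an irreducible character of G, and it takes the value 1 at every non-identity element of H. -/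
theorem result {G Ω : Type*} [Group G] [Fintype G] [MulAction G Ω] [Fintype Ω] (hZ : Cfsg.IsZassenhausGroup G Ω) {a b : Ω} (hab : a ≠ b) [IsSimpleGroup G] (hodd : Odd (Nat.card ↥(MulAction.stabilizer G a ⊓ MulAction.stabilizer G b : Subgroup G))) (hlt : Nat.card ↥(MulAction.stabilizer G a ⊓ MulAction.stabilizer G b : Subgroup G) < Fintype.card Ω - 2) (H : Subgroup G) (hHa : H ≤ MulAction.stabilizer G a) (hHcard : Nat.card H + 1 = Fintype.card Ω) (hHfix : ∀ u ∈ H, u ≠ 1 → ∀ c : Ω, u • c = c → c = a) (μ : MulAction.stabilizer G a → ℂ) (hμ : Cfsg.IsCharacter (MulAction.stabilizer G a) μ ∧ μ 1 = 1) (hμH : ∀ u : MulAction.stabilizer G a, (u : G) ∈ H → μ u = 1) (hμne : μ ≠ fun _ => 1) : Cfsg.IsIrrCharacter G (Cfsg.indFun (MulAction.stabilizer G a) μ) ∧ ∀ u ∈ H, u ≠ 1 → Cfsg.indFun (MulAction.stabilizer G a) μ u = 1 := by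
  classical
  obtain ⟨hfaith, h2t, h3, ⟨g₀, hg₀, a₀, b₀, hab₀, hga₀, hgb₀⟩, -⟩ := hZ
  have h2 : ∀ {a b c d : Ω}, a ≠ b → c ≠ d → ∃ g : G, g • a = c ∧ g • b = d :=
    MulAction.is_two_pretransitive_iff.mp h2t
  haveI : Fintype (MulAction.stabilizer G a) := Fintype.ofFinite _
  obtain ⟨ϕ, hϕ⟩ := Cfsg.Agent.Helper5.linChar_exists_hom hμ.1 hμ.2
  -- the transfer is trivial
  have htr : ∀ g : G, MonoidHom.transfer ϕ g = 1 := by
    intro g
    have hker : (MonoidHom.transfer ϕ).ker = ⊤ := by
      rcases (MonoidHom.normal_ker (MonoidHom.transfer ϕ)).eq_bot_or_eq_top with hb | ht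
      · exfalso
        have hinj : Function.Injective (MonoidHom.transfer ϕ) :=
          (MonoidHom.ker_eq_bot_iff _).mp hb
        have hcomm : ∀ p q : G, p * q = q * p := fun p q =>
          hinj (by rw [map_mul, map_mul, mul_comm])
        apply hg₀
        apply hfaith.eq_of_smul_eq_smul
        intro c
        rw [one_smul]
        by_cases hc : c = a₀
        · rw [hc]; exact hga₀
        · obtain ⟨y, hy1, -⟩ := h2 hab₀ (show c ≠ a₀ from hc)
          rw [← hy1, ← mul_smul, hcomm, mul_smul, hga₀]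
      · exact ht
    have : g ∈ (MonoidHom.transfer ϕ).ker := hker ▸ Subgroup.mem_top g
    exact this
  have hkey : ∀ (n : MulAction.stabilizer G a) (x : G) (hx : x • a ≠ a)
      (hmem : x⁻¹ * (n : G) * x ∈ MulAction.stabilizer G a),
      ϕ n * ϕ ⟨x⁻¹ * n * x, hmem⟩ = 1 := by
    intro n x hx hmem
    have h3' : ∀ (k : ℕ) (g : G), g⁻¹ * (n : G) ^ k * g ∈ MulAction.stabilizer G a →
        (n : G) ^ k = 1 ∨ g ∈ MulAction.stabilizer G a ∨
          x⁻¹ * g ∈ MulAction.stabilizer G a := by
      intro k g hg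
      by_cases h1 : g • a = a
      · exact Or.inr (Or.inl h1)
      by_cases h2' : g • a = x • a
      · refine Or.inr (Or.inr ?_)
        rw [MulAction.mem_stabilizer_iff, mul_smul, h2', inv_smul_smul]
      · left
        have hnx : (n : G) • x • a = x • a := by
          have h := hmem
          rw [MulAction.mem_stabilizer_iff, mul_smul, mul_smul] at h
          exact inv_smul_eq_iff.mp h
        have hka : (n : G) ^ k • a = a :=
          (MulAction.stabilizer G a).pow_mem n.2 k
        have hkx : (n : G) ^ k • x • a = x • a :=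
          (MulAction.stabilizer G (x • a)).pow_mem hnx k
        have hkg : (n : G) ^ k • g • a = g • a := by
          have h := hg
          rw [MulAction.mem_stabilizer_iff, mul_smul, mul_smul] at h
          exact inv_smul_eq_iff.mp h
        exact h3 _ a (x • a) (g • a) (Ne.symm hx) (Ne.symm h2') (Ne.symm h1) hka hkx hkg
    have hxN : x ∉ MulAction.stabilizer G a := hx
    rw [← transfer_two (MulAction.stabilizer G a) ϕ n x hxN hmem h3', htr]
  -- regularity of H off a
  have hreg : ∀ c : Ω, c ≠ a → ∀ d : Ω, d ≠ a → ∃ u ∈ H, u • c = d := by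
    intro c hc d hd
    let f : H → {d : Ω // d ≠ a} := fun u => ⟨(u : G) • c, fun h => hc (by
      have hu : (u : G) • a = a := hHa u.2
      exact smul_left_cancel (u : G) (h.trans hu.symm))⟩
    have hf : Function.Injective f := by
      intro u v huv
      have h1 : (u : G) • c = (v : G) • c := congrArg Subtype.val huv
      have h2' : ((v : G)⁻¹ * (u : G)) • c = c := by rw [mul_smul, h1, inv_smul_smul]
      by_contra hne
      have h3' : (v : G)⁻¹ * (u : G) ≠ 1 := by
        intro h; apply hne; apply Subtype.ext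
        exact (inv_mul_eq_one.mp h).symm
      exact hc (hHfix _ (H.mul_mem (H.inv_mem v.2) u.2) h3' c h2')
    have hcard : Nat.card {d : Ω // d ≠ a} ≤ Nat.card H := by
      have : Nat.card {d : Ω // d ≠ a} = Fintype.card Ω - 1 := by
        rw [Nat.card_eq_fintype_card, Fintype.card_subtype_compl, Fintype.card_subtype_eq]
      omega
    obtain ⟨u, hu⟩ := (hf.bijective_of_nat_card_le hcard).2 ⟨d, hd⟩
    exact ⟨u, u.2, congrArg Subtype.val hu⟩
  -- elements of two-point stabilizers have odd order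
  have hodd' : ∀ c : Ω, c ≠ a → ∀ n : G, n • a = a → n • c = c →
      n ^ Nat.card ↥(MulAction.stabilizer G a ⊓ MulAction.stabilizer G b : Subgroup G) = 1 := by
    intro c hc n hna hnc
    obtain ⟨g, hga, hgb⟩ := h2 hab (Ne.symm hc)
    have hmemE : g⁻¹ * n * g ∈
        (MulAction.stabilizer G a ⊓ MulAction.stabilizer G b : Subgroup G) := by
      refine Subgroup.mem_inf.mpr ⟨?_, ?_⟩
      · show (g⁻¹ * n * g) • a = a
        rw [mul_smul, mul_smul, hga, hna]; exact inv_smul_eq_iff.mpr hga.symm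
      · show (g⁻¹ * n * g) • b = b
        rw [mul_smul, mul_smul, hgb, hnc]; exact inv_smul_eq_iff.mpr hgb.symm
    have hp := pow_card_eq_one'
      (G := ↥(MulAction.stabilizer G a ⊓ MulAction.stabilizer G b : Subgroup G))
      (x := ⟨g⁻¹ * n * g, hmemE⟩)
    have hp' : (g⁻¹ * n * g) ^
        Nat.card ↥(MulAction.stabilizer G a ⊓ MulAction.stabilizer G b : Subgroup G) = 1 :=
      congrArg Subtype.val hp
    have hconj : ∀ i : ℕ, (g⁻¹ * n * g) ^ i = g⁻¹ * n ^ i * g := by
      intro i
      have := conj_pow (a := g⁻¹) (b := n) (i := i)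
      simpa using this
    rw [hconj] at hp'
    have h4 : ∀ m : G, g⁻¹ * m * g = 1 → m = 1 := by
      intro m hm
      have : m = g * (g⁻¹ * m * g) * g⁻¹ := by group
      rw [this, hm]; group
    exact h4 _ hp'
  have hn0 : ∀ c : Ω, c ≠ a → ∃ n₀ : MulAction.stabilizer G a,
      (n₀ : G) • c = c ∧ ϕ n₀ ^ 2 ≠ 1 := by
    intro c hc
    have hex : ∃ n₁ : MulAction.stabilizer G a, μ n₁ ≠ 1 := by
      by_contra hcon
      apply hμne; funext n₁
      by_contra h; exact hcon ⟨n₁, h⟩
    obtain ⟨n₁, hn₁⟩ := hex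
    have hn₁c : (n₁ : G) • c ≠ a := by
      intro h
      apply hc
      have h1 : (n₁ : G) • a = a := n₁.2
      exact smul_left_cancel (n₁ : G) (h.trans h1.symm)
    obtain ⟨u, hu, huc⟩ := hreg c hc _ hn₁c
    have hfix : (((⟨u, hHa hu⟩ : MulAction.stabilizer G a)⁻¹ * n₁ :
        MulAction.stabilizer G a) : G) • c = c := by
      show (u⁻¹ * (n₁ : G)) • c = c
      rw [mul_smul, ← huc, inv_smul_smul]
    refine ⟨⟨u, hHa hu⟩⁻¹ * n₁, hfix, ?_⟩
    have hϕu : ϕ ⟨u, hHa hu⟩ = 1 := Units.ext (by rw [hϕ]; exact hμH _ hu)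
    have hϕn : ϕ ((⟨u, hHa hu⟩ : MulAction.stabilizer G a)⁻¹ * n₁) = ϕ n₁ := by
      rw [map_mul, map_inv, hϕu, inv_one, one_mul]
    have hne1 : ϕ n₁ ≠ 1 := by
      intro h; apply hn₁; rw [← hϕ, h]; rfl
    have hpe : ϕ ((⟨u, hHa hu⟩ : MulAction.stabilizer G a)⁻¹ * n₁) ^
        Nat.card ↥(MulAction.stabilizer G a ⊓ MulAction.stabilizer G b : Subgroup G) = 1 := by
      rw [← map_pow]
      have : ((⟨u, hHa hu⟩ : MulAction.stabilizer G a)⁻¹ * n₁) ^
          Nat.card ↥(MulAction.stabilizer G a ⊓ MulAction.stabilizer G b : Subgroup G) = 1 :=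
        Subtype.ext (hodd' c hc _
          ((⟨u, hHa hu⟩ : MulAction.stabilizer G a)⁻¹ * n₁).2 hfix)
      rw [this, map_one]
    rw [hϕn] at hpe ⊢
    intro hsq
    obtain ⟨j, hj⟩ := hodd
    rw [hj, pow_succ, pow_mul, hsq, one_pow, one_mul] at hpe
    exact hne1 hpe
  have hconj : ∀ n : MulAction.stabilizer G a, starRingEnd ℂ (μ n) = ((ϕ n)⁻¹ : ℂˣ) := by
    intro n
    rw [← isCharacter_inv hμ.1 n, ← hϕ, map_inv]
  have hT1 : ∀ x : G, x • a = a → ∑ n : MulAction.stabilizer G a, μ n * starRingEnd ℂ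
      (extendByZero (MulAction.stabilizer G a) μ (x⁻¹ * n * x)) =
        (Nat.card (MulAction.stabilizer G a) : ℂ) := by
    intro x hx
    have hone : ∀ n : MulAction.stabilizer G a, μ n * starRingEnd ℂ
        (extendByZero (MulAction.stabilizer G a) μ (x⁻¹ * n * x)) = 1 := by
      intro n
      have hm : x⁻¹ * (n : G) * x ∈ MulAction.stabilizer G a :=
        (MulAction.stabilizer G a).mul_mem ((MulAction.stabilizer G a).mul_mem
          ((MulAction.stabilizer G a).inv_mem hx) n.2) hx
      rw [extendByZero_apply_mem _ _ hm]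
      have h1 : (⟨x⁻¹ * (n : G) * x, hm⟩ : MulAction.stabilizer G a) =
          (⟨x, hx⟩ : MulAction.stabilizer G a)⁻¹ * n * ⟨x, hx⟩ := rfl
      rw [hconj, h1, map_mul, map_mul, map_inv, ← hϕ n, ← Units.val_mul]
      have h2' : ϕ n * ((ϕ ⟨x, hx⟩)⁻¹ * ϕ n * ϕ ⟨x, hx⟩)⁻¹ = 1 := by
        apply mul_inv_eq_one.mpr
        rw [mul_comm, ← mul_assoc, mul_inv_cancel, one_mul]
      rw [h2']; rfl
    rw [Finset.sum_congr rfl (fun n _ => hone n)]
    simp [Nat.card_eq_fintype_card]
  have hT0 : ∀ x : G, x • a ≠ a → ∑ n : MulAction.stabilizer G a, μ n * starRingEnd ℂ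
      (extendByZero (MulAction.stabilizer G a) μ (x⁻¹ * n * x)) = 0 := by
    intro x hx
    have hterm : ∀ n : MulAction.stabilizer G a, μ n * starRingEnd ℂ
        (extendByZero (MulAction.stabilizer G a) μ (x⁻¹ * n * x)) =
          if (n : G) • x • a = x • a then ((ϕ n ^ 2 : ℂˣ) : ℂ) else 0 := by
      intro n
      by_cases hm : x⁻¹ * (n : G) * x ∈ MulAction.stabilizer G a
      · have hfix : (n : G) • x • a = x • a := by
          have h := hm
          rw [MulAction.mem_stabilizer_iff, mul_smul, mul_smul] at h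
          exact inv_smul_eq_iff.mp h
        rw [if_pos hfix, extendByZero_apply_mem _ _ hm, hconj, ← hϕ n, ← Units.val_mul]
        have := hkey n x hx hm
        rw [inv_eq_of_mul_eq_one_left this, sq]
      · have hfix : ¬ (n : G) • x • a = x • a := by
          intro h; apply hm
          rw [MulAction.mem_stabilizer_iff, mul_smul, mul_smul, h, inv_smul_smul]
        rw [if_neg hfix, extendByZero_apply_not_mem _ _ hm, map_zero, mul_zero]
    rw [Finset.sum_congr rfl (fun n _ => hterm n)]
    obtain ⟨n₀, hn₀c, hn₀⟩ := hn0 (x • a) hx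
    have hshift : ∑ n : MulAction.stabilizer G a,
        (if (n : G) • x • a = x • a then ((ϕ n ^ 2 : ℂˣ) : ℂ) else 0) =
        ((ϕ n₀ ^ 2 : ℂˣ) : ℂ) * ∑ n : MulAction.stabilizer G a,
          (if (n : G) • x • a = x • a then ((ϕ n ^ 2 : ℂˣ) : ℂ) else 0) := by
      refine (Equiv.sum_comp (Equiv.mulLeft n₀) (fun n : MulAction.stabilizer G a =>
        if (n : G) • x • a = x • a then ((ϕ n ^ 2 : ℂˣ) : ℂ) else 0)).symm.trans ?_
      rw [Finset.mul_sum]
      apply Finset.sum_congr rfl
      intro n _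
      show (if ((n₀ * n : MulAction.stabilizer G a) : G) • x • a = x • a then
        ((ϕ (n₀ * n) ^ 2 : ℂˣ) : ℂ) else 0) = _
      have hiff : ((n₀ * n : MulAction.stabilizer G a) : G) • x • a = x • a ↔
          (n : G) • x • a = x • a := by
        show ((n₀ : G) * (n : G)) • x • a = x • a ↔ _
        rw [mul_smul]
        constructor
        · intro h
          exact smul_left_cancel (n₀ : G) (h.trans hn₀c.symm)
        · intro h; rw [h]; exact hn₀c
      by_cases h : (n : G) • x • a = x • a
      · rw [if_pos h, if_pos (hiff.mpr h), map_mul, mul_pow, Units.val_mul]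
      · rw [if_neg h, if_neg (fun h' => h (hiff.mp h')), mul_zero]
    have hne1 : ((ϕ n₀ ^ 2 : ℂˣ) : ℂ) ≠ 1 := by
      intro h; apply hn₀; exact Units.ext h
    by_contra hS
    apply hne1
    exact mul_right_cancel₀ hS (hshift.symm.trans (one_mul _).symm)
  have hN0 : (Nat.card (MulAction.stabilizer G a) : ℂ) ≠ 0 :=
    Nat.cast_ne_zero.mpr Nat.card_pos.ne'
  have hc : Nat.card (MulAction.stabilizer G a) =
      (Finset.univ.filter (fun x : G => x ∈ MulAction.stabilizer G a)).card := by
    rw [Nat.card_eq_fintype_card]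
    exact Fintype.card_of_subtype _ (fun x => by simp)
  constructor
  · apply isIrrCharacter_of_inner_self (isCharacter_induced _ μ hμ.1)
    rw [classInner_indFun _ μ _ (indFun_isClassFunction _ μ), classInner_def']
    beta_reduce
    have hexp : ∀ n : MulAction.stabilizer G a, μ n * starRingEnd ℂ
        (indFun (MulAction.stabilizer G a) μ (n : G)) =
        (Nat.card (MulAction.stabilizer G a) : ℂ)⁻¹ * ∑ x : G, μ n * starRingEnd ℂ
          (extendByZero (MulAction.stabilizer G a) μ (x⁻¹ * n * x)) := by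
      intro n
      show μ n * starRingEnd ℂ ((Nat.card (MulAction.stabilizer G a) : ℂ)⁻¹ *
        ∑ x : G, extendByZero (MulAction.stabilizer G a) μ (x⁻¹ * n * x)) = _
      rw [map_mul, map_inv₀, map_natCast, map_sum, Finset.mul_sum, Finset.mul_sum,
        Finset.mul_sum]
      apply Finset.sum_congr rfl
      intro x _
      ring
    rw [Finset.sum_congr rfl (fun n _ => hexp n), ← Finset.mul_sum, Finset.sum_comm]
    have hsum : ∑ x : G, ∑ n : MulAction.stabilizer G a, μ n * starRingEnd ℂ
        (extendByZero (MulAction.stabilizer G a) μ (x⁻¹ * n * x)) =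
        (Nat.card (MulAction.stabilizer G a) : ℂ) *
          (Nat.card (MulAction.stabilizer G a) : ℂ) := by
      have hx' : ∀ x : G, ∑ n : MulAction.stabilizer G a, μ n * starRingEnd ℂ
          (extendByZero (MulAction.stabilizer G a) μ (x⁻¹ * n * x)) =
          if x ∈ MulAction.stabilizer G a then (Nat.card (MulAction.stabilizer G a) : ℂ)
            else 0 := by
        intro x
        by_cases hx : x ∈ MulAction.stabilizer G a
        · rw [if_pos hx]; exact hT1 x hx
        · rw [if_neg hx]; exact hT0 x hx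
      rw [Finset.sum_congr rfl (fun x _ => hx' x), Finset.sum_ite, Finset.sum_const_zero,
        add_zero, Finset.sum_const, nsmul_eq_mul, ← hc]
    rw [hsum]
    field_simp
  · intro u hu hu1
    show (Nat.card (MulAction.stabilizer G a) : ℂ)⁻¹ *
      ∑ x : G, extendByZero (MulAction.stabilizer G a) μ (x⁻¹ * u * x) = 1
    have hx' : ∀ x : G, extendByZero (MulAction.stabilizer G a) μ (x⁻¹ * u * x) =
        if x ∈ MulAction.stabilizer G a then 1 else 0 := by
      intro x
      by_cases hx : x ∈ MulAction.stabilizer G a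
      · rw [if_pos hx]
        have hm : x⁻¹ * u * x ∈ MulAction.stabilizer G a :=
          (MulAction.stabilizer G a).mul_mem ((MulAction.stabilizer G a).mul_mem
            ((MulAction.stabilizer G a).inv_mem hx) (hHa hu)) hx
        rw [extendByZero_apply_mem _ _ hm]
        have h1 : (⟨x⁻¹ * u * x, hm⟩ : MulAction.stabilizer G a) =
            (⟨x, hx⟩ : MulAction.stabilizer G a)⁻¹ * ⟨u, hHa hu⟩ * ⟨x, hx⟩ := rfl
        have hϕu : ϕ ⟨u, hHa hu⟩ = 1 := Units.ext (by rw [hϕ]; exact hμH _ hu)
        rw [h1, ← hϕ, map_mul, map_mul, map_inv, hϕu, mul_one, inv_mul_cancel]; rfl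
      · rw [if_neg hx]
        apply extendByZero_apply_not_mem
        intro hm
        apply hx
        have h := hm
        rw [MulAction.mem_stabilizer_iff, mul_smul, mul_smul] at h
        exact hHfix u hu hu1 _ (inv_smul_eq_iff.mp h)
    rw [Finset.sum_congr rfl (fun x _ => hx' x), Finset.sum_ite, Finset.sum_const_zero,
      add_zero, Finset.sum_const, nsmul_eq_mul, mul_one, ← hc]
    exact inv_mul_cancel₀ hN0


end Cfsg.Agent.S0881
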