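import Mathlib
import Cfsg.Statements.S0893
import Cfsg.Agent.Helper5.Ind
import Cfsg.Agent.Helper5.LinChar
import Cfsg.Agent.Helper24.CharInd

namespace Cfsg.Agent.S0893

open Cfsg.Agent.Helper5
open scoped commutatorElement

theorem result {P : Type*} [Group P] [Fintype P] (p n : ℕ) [Fact p.Prime] (hP : Cfsg.IsExtraspecial p P) (hcard : Nat.card P = p ^ (2 * n + 1)) (A : Subgroup P) (hab : ∀ a ∈ A, ∀ b ∈ A, a * b = b * a) (hA : Nat.card A = p ^ (n + 1)) (lam : A → ℂ) (hlam : Cfsg.IsCharacter A lam ∧ lam 1 = 1) (hZ : ∃ a : A, (a : P) ∈ Subgroup.center P ∧ lam a ≠ 1) : Cfsg.IsIrrCharacter P (Cfsg.indFun A lam) ∧ ∀ x : P, x ∉ Subgroup.center P → Cfsg.indFun A lam x = 0 := by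
  obtain ⟨⟨hpg, hfrat, hcomm⟩, hZcard⟩ := hP
  obtain ⟨a, haZ, hla⟩ := hZ
  have ha1 : (a : P) ≠ 1 := by
    intro h
    apply hla
    have : a = 1 := Subtype.ext h
    rw [this]; exact hlam.2
  have hgen : ∀ c : P, c ∈ Subgroup.center P → c ≠ 1 → ∀ z ∈ Subgroup.center P,
      ∃ k : ℤ, c ^ k = z := by
    intro c hc hc1 z hz
    have hc' : (⟨c, hc⟩ : Subgroup.center P) ≠ 1 := by
      intro h; exact hc1 (congrArg Subtype.val h)
    have hmem := mem_zpowers_of_prime_card (G := Subgroup.center P) hZcard hc' (g' := ⟨z, hz⟩)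
    obtain ⟨k, hk⟩ := Subgroup.mem_zpowers_iff.mp hmem
    exact ⟨k, by simpa using congrArg Subtype.val hk⟩
  have hZA : Subgroup.center P ≤ A := by
    intro z hz
    obtain ⟨k, rfl⟩ := hgen (a : P) haZ ha1 z hz
    exact A.zpow_mem a.2 k
  have hmul : ∀ u v : A, lam (u * v) = lam u * lam v := linChar_mul hlam.1 hlam.2
  obtain ⟨φ, hφ⟩ := linChar_exists_hom hlam.1 hlam.2
  have hlam_ne : ∀ c : P, ∀ hc : c ∈ Subgroup.center P, c ≠ 1 → lam ⟨c, hZA hc⟩ ≠ 1 := by
    intro c hc hc1 h1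
    obtain ⟨k, hk⟩ := hgen c hc hc1 (a : P) haZ
    have ha_eq : a = (⟨c, hZA hc⟩ : A) ^ k :=
      Subtype.ext (by rw [Subgroup.coe_zpow]; exact hk.symm)
    apply hla
    rw [ha_eq, ← hφ, map_zpow, Units.val_zpow_eq_zpow_val, hφ, h1, one_zpow]
  have hshift : ∀ (y c : P) (hc : c ∈ A),
      Cfsg.extendByZero A lam (y * c) = Cfsg.extendByZero A lam y * lam ⟨c, hc⟩ := by
    intro y c hc
    by_cases hy : y ∈ A
    · rw [extendByZero_of_mem A lam (A.mul_mem hy hc), extendByZero_of_mem A lam hy, ← hmul]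
      rfl
    · have hyc : y * c ∉ A := fun h => hy (by
        have := A.mul_mem h (A.inv_mem hc); simpa using this)
      rw [extendByZero_of_notMem A lam hyc, extendByZero_of_notMem A lam hy, zero_mul]
  have hψshift : ∀ (x c : P) (hc : c ∈ Subgroup.center P),
      Cfsg.indFun A lam (x * c) = Cfsg.indFun A lam x * lam ⟨c, hZA hc⟩ := by
    intro x c hc
    rw [indFun_apply, indFun_apply, mul_assoc, Finset.sum_mul]
    congr 1
    apply Finset.sum_congr rfl
    intro g _
    rw [← hshift _ c (hZA hc)]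
    congr 1
    have := Subgroup.mem_center_iff.mp hc g
    calc g⁻¹ * (x * c) * g = g⁻¹ * x * (c * g) := by group
      _ = g⁻¹ * x * (g * c) := by rw [← this]
      _ = g⁻¹ * x * g * c := by group
  have hvanish : ∀ x : P, x ∉ Subgroup.center P → Cfsg.indFun A lam x = 0 := by
    intro x hx
    rw [Subgroup.mem_center_iff] at hx
    obtain ⟨h, hh⟩ := not_forall.mp hx
    obtain ⟨c, hc_def⟩ : ∃ c : P, c = x⁻¹ * h⁻¹ * x * h := ⟨_, rfl⟩
    have hcZ : c ∈ Subgroup.center P := by
      rw [← hcomm]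
      have : c = ⁅x⁻¹, h⁻¹⁆ := by rw [commutatorElement_def, hc_def]; simp
      rw [this]
      exact Subgroup.commutator_mem_commutator (Subgroup.mem_top _) (Subgroup.mem_top _)
    have hc1 : c ≠ 1 := by
      intro h1
      apply hh
      have h2 : h * x * c = x * h := by rw [hc_def]; group
      rw [← h2, h1, mul_one]
    have hconj : h⁻¹ * x * h = x * c := by rw [hc_def]; group
    have hcf := Cfsg.Agent.Helper24.indFun_isClassFunction A lam x h⁻¹
    rw [inv_inv, hconj, hψshift x c hcZ] at hcf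
    have hne := hlam_ne c hcZ hc1
    have : Cfsg.indFun A lam x * (lam ⟨c, hZA hcZ⟩ - 1) = 0 := by
      rw [mul_sub, hcf, mul_one, sub_self]
    rcases mul_eq_zero.mp this with h0 | h0
    · exact h0
    · exact absurd (sub_eq_zero.mp h0) hne
  have hcenter : ∀ x : P, ∀ hx : x ∈ Subgroup.center P,
      Cfsg.indFun A lam x = (Nat.card A : ℂ)⁻¹ * (Nat.card P : ℂ) * lam ⟨x, hZA hx⟩ := by
    intro x hx
    rw [indFun_apply]
    have : ∀ g : P, Cfsg.extendByZero A lam (g⁻¹ * x * g) = lam ⟨x, hZA hx⟩ := by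
      intro g
      have hg : g⁻¹ * x * g = x := by
        have := Subgroup.mem_center_iff.mp hx g
        rw [mul_assoc, ← this, inv_mul_cancel_left]
      rw [extendByZero_of_mem A lam (by rw [hg]; exact hZA hx)]
      congr 1
      exact Subtype.ext hg
    rw [Finset.sum_congr rfl (fun g _ => this g), Finset.sum_const, Finset.card_univ,
      ← Nat.card_eq_fintype_card, nsmul_eq_mul, mul_assoc]
  have hnorm : ∀ u : A, lam u * (starRingEnd ℂ) (lam u) = 1 := by
    intro u
    have hpow : (lam u) ^ (Nat.card A) = 1 := by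
      rw [← hφ, ← Units.val_pow_eq_pow_val, ← map_pow, pow_card_eq_one', map_one, Units.val_one]
    have hn : ‖lam u‖ = 1 := Complex.norm_eq_one_of_pow_eq_one hpow Nat.card_pos.ne'
    rw [RCLike.mul_conj, hn]; simp
  have hinner : Cfsg.classInner (Cfsg.indFun A lam) (Cfsg.indFun A lam) = 1 := by
    classical
    unfold Cfsg.classInner
    have hterm : ∀ x : P, Cfsg.indFun A lam x * (starRingEnd ℂ) (Cfsg.indFun A lam x) =
        if x ∈ Subgroup.center P then ((Nat.card A : ℂ)⁻¹ * (Nat.card P : ℂ)) ^ 2 else 0 := by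
      intro x
      by_cases hx : x ∈ Subgroup.center P
      · rw [if_pos hx, hcenter x hx, map_mul, map_mul, map_inv₀, Complex.conj_natCast,
          Complex.conj_natCast]
        have := hnorm ⟨x, hZA hx⟩
        calc _ = ((Nat.card A : ℂ)⁻¹ * (Nat.card P : ℂ)) ^ 2 *
              (lam ⟨x, hZA hx⟩ * (starRingEnd ℂ) (lam ⟨x, hZA hx⟩)) := by ring
          _ = _ := by rw [this, mul_one]
      · rw [if_neg hx, hvanish x hx, zero_mul]
    rw [Finset.sum_congr rfl (fun x _ => hterm x), Finset.sum_ite]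
    simp only [Finset.sum_const, smul_zero, add_zero, nsmul_eq_mul]
    have hPc : (Nat.card P : ℂ) = (p : ℂ) ^ (2 * n + 1) := by rw [hcard, Nat.cast_pow]
    have hAc : (Nat.card A : ℂ) = (p : ℂ) ^ (n + 1) := by rw [hA, Nat.cast_pow]
    have hp0 : (p : ℂ) ≠ 0 := Nat.cast_ne_zero.mpr (Fact.out : p.Prime).ne_zero
    rw [card_filter_mem_subgroup, hZcard, hPc, hAc]
    field_simp
    ring
  exact ⟨Cfsg.Agent.Helper24.isIrrCharacter_of_inner_self
    (Cfsg.Agent.Helper24.isCharacter_induced A lam hlam.1) hinner, hvanish⟩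

end Cfsg.Agent.S0893
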