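import Mathlib
import Cfsg.Statements.S0894
import Cfsg.Agent.Helper5.Ind
import Cfsg.Agent.Helper24.CharInd

namespace Cfsg.Agent.S0894

open Cfsg Cfsg.Agent.Helper24
open scoped commutatorElement

theorem degree_aux {P : Type*} [Group P] [Fintype P] (p n : ℕ) [Fact p.Prime]
    (hcomm : commutator P = Subgroup.center P) (hZcard : Nat.card (Subgroup.center P) = p)
    (hcard : Nat.card P = p ^ (2 * n + 1)) (d : ℕ) (ρ : Representation ℂ P (Fin d → ℂ))
    (hρ : ρ.IsIrreducible) : d = 1 ∨ d = p ^ n := by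
  classical
  have hfr : Module.finrank ℂ (Fin d → ℂ) = d := by simp
  have hP0 : (Nat.card P : ℂ) ≠ 0 := Nat.cast_ne_zero.mpr Nat.card_pos.ne'
  have hinner : ∑ g : P, ρ.character g * (starRingEnd ℂ) (ρ.character g) = (Nat.card P : ℂ) := by
    have h1 := irr_inner_self (⟨ρ.character, ⟨d, ρ, hρ, rfl⟩⟩ : IrrCharacter P)
    exact ((inv_mul_eq_one₀ hP0).mp h1).symm
  have : ρ.IsIrreducible := hρ
  have hscal : ∀ g : P, (∀ h : P, ρ g * ρ h = ρ h * ρ g) →
      ρ.character g * (starRingEnd ℂ) (ρ.character g) = (d : ℂ) ^ 2 := by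
    intro g hg
    have h1 := eq_smul_of_comm_of_irreducible ρ (ρ g) (fun h => hg h)
    have h2 := (norm_char_eq_finrank_iff ρ g).mpr ⟨_, h1⟩
    rw [hfr] at h2
    rw [RCLike.mul_conj, h2]
    simp
  by_cases hA : ∀ z ∈ Subgroup.center P, ρ z = 1
  · left
    have hcommAll : ∀ g h : P, ρ g * ρ h = ρ h * ρ g := by
      intro g h
      have hc : g * h * g⁻¹ * h⁻¹ ∈ Subgroup.center P := by
        rw [← hcomm]
        exact Subgroup.commutator_mem_commutator (Subgroup.mem_top g) (Subgroup.mem_top h)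
      have h1 := hA _ hc
      have h2 : g * h = (g * h * g⁻¹ * h⁻¹) * (h * g) := by group
      rw [← map_mul ρ g h, h2, map_mul, h1, one_mul, map_mul]
    rw [Finset.sum_congr rfl (fun g _ => hscal g (hcommAll g)), Finset.sum_const,
      Finset.card_univ, nsmul_eq_mul, ← Nat.card_eq_fintype_card] at hinner
    have hd2 : (d : ℂ) ^ 2 = 1 := mul_left_cancel₀ hP0 (hinner.trans (mul_one _).symm)
    have hd2' : d ^ 2 = 1 := by exact_mod_cast hd2
    exact (Nat.pow_eq_one.mp hd2').resolve_right (by norm_num)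
  · right
    obtain ⟨z₀, hz₀, hz₀ne⟩ : ∃ z₀ ∈ Subgroup.center P, ρ z₀ ≠ 1 := by
      by_contra hcon
      apply hA
      intro z hz
      by_contra h
      exact hcon ⟨z, hz, h⟩
    have hcentcomm : ∀ c ∈ Subgroup.center P, ∀ h : P, ρ c * ρ h = ρ h * ρ c := by
      intro c hc h
      rw [← map_mul, ← map_mul, Subgroup.mem_center_iff.mp hc h]
    have hne : ∀ c ∈ Subgroup.center P, c ≠ 1 → ρ c ≠ 1 := by
      intro c hc hc1 hρc
      apply hz₀ne
      have hc' : (⟨c, hc⟩ : Subgroup.center P) ≠ 1 := fun h => hc1 (congrArg Subtype.val h)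
      have hmem := mem_zpowers_of_prime_card (G := Subgroup.center P) hZcard hc' (g' := ⟨z₀, hz₀⟩)
      rw [← mem_powers_iff_mem_zpowers] at hmem
      obtain ⟨k, hk⟩ := hmem
      have hk' : c ^ k = z₀ := by simpa using congrArg Subtype.val hk
      rw [← hk', map_pow, hρc, one_pow]
    have hvanish : ∀ x : P, x ∉ Subgroup.center P → ρ.character x = 0 := by
      intro x hx
      rw [Subgroup.mem_center_iff] at hx
      obtain ⟨h, hh⟩ := not_forall.mp hx
      obtain ⟨c, hc_def⟩ : ∃ c : P, c = x⁻¹ * h⁻¹ * x * h := ⟨_, rfl⟩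
      have hcZ : c ∈ Subgroup.center P := by
        rw [← hcomm]
        have : c = ⁅x⁻¹, h⁻¹⁆ := by rw [commutatorElement_def, hc_def]; simp
        rw [this]
        exact Subgroup.commutator_mem_commutator (Subgroup.mem_top _) (Subgroup.mem_top _)
      have hc1 : c ≠ 1 := by
        intro h1
        apply hh
        have h2 : h * x * c = x * h := by rw [hc_def]; group
        rw [← h2, h1, mul_one]
      have hconj : h⁻¹ * x * h = x * c := by rw [hc_def]; group
      have hω := eq_smul_of_comm_of_irreducible ρ (ρ c) (fun g => hcentcomm c hcZ g)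
      obtain ⟨ω, hω'⟩ : ∃ ω : ℂ, ρ c = ω • (1 : Module.End ℂ (Fin d → ℂ)) := ⟨_, hω⟩
      have hω1 : ω ≠ 1 := by
        intro h1; apply hne c hcZ hc1; rw [hω', h1, one_smul]
      have hcf : ρ.character (h⁻¹ * x * h) = ρ.character x := by
        have := ρ.char_conj x h⁻¹
        rwa [inv_inv] at this
      have hxc : ρ.character (x * c) = ω * ρ.character x := by
        show LinearMap.trace ℂ _ (ρ (x * c)) = ω * LinearMap.trace ℂ _ (ρ x)
        rw [map_mul, hω', mul_smul_comm, mul_one, map_smul, smul_eq_mul]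
      rw [hconj, hxc] at hcf
      have : (ω - 1) * ρ.character x = 0 := by rw [sub_mul, hcf, one_mul, sub_self]
      rcases mul_eq_zero.mp this with h0 | h0
      · exact absurd (sub_eq_zero.mp h0) hω1
      · exact h0
    have hterm : ∀ x : P, ρ.character x * (starRingEnd ℂ) (ρ.character x) =
        if x ∈ Subgroup.center P then (d : ℂ) ^ 2 else 0 := by
      intro x
      by_cases hx : x ∈ Subgroup.center P
      · rw [if_pos hx]; exact hscal x (hcentcomm x hx)
      · rw [if_neg hx, hvanish x hx, zero_mul]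
    rw [Finset.sum_congr rfl (fun x _ => hterm x), Finset.sum_ite] at hinner
    simp only [Finset.sum_const, smul_zero, add_zero, nsmul_eq_mul] at hinner
    rw [Cfsg.Agent.Helper5.card_filter_mem_subgroup, hZcard, hcard] at hinner
    have h1 : p * d ^ 2 = p ^ (2 * n + 1) := by exact_mod_cast hinner
    have h2 : d ^ 2 = (p ^ n) ^ 2 := by
      apply Nat.eq_of_mul_eq_mul_left (Fact.out : p.Prime).pos
      rw [h1]; ring
    exact Nat.pow_left_injective (by norm_num : 2 ≠ 0) h2

theorem result {P : Type*} [Group P] [Finite P] (p n : ℕ) [Fact p.Prime] (hP : Cfsg.IsExtraspecial p P) (hcard : Nat.card P = p ^ (2 * n + 1)) : (∀ χ : Cfsg.IrrCharacter P, (χ : P → ℂ) 1 = 1 ∨ (χ : P → ℂ) 1 = (p : ℂ) ^ n) ∧ Nat.card {χ : Cfsg.IrrCharacter P // (χ : P → ℂ) 1 = (p : ℂ) ^ n} = p - 1 := by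
  classical
  have := Fintype.ofFinite P
  obtain ⟨⟨hpg, hfrat, hcomm⟩, hZcard⟩ := hP
  have hp := (Fact.out : p.Prime)
  have hdeg : ∀ χ : Cfsg.IrrCharacter P,
      (χ : P → ℂ) 1 = 1 ∨ (χ : P → ℂ) 1 = (p : ℂ) ^ n := by
    intro χ
    obtain ⟨d, ρ, hρ, hχ⟩ := χ.2
    have h1 : (χ : P → ℂ) 1 = d := by rw [← hχ, char_one_fin]
    rcases degree_aux p n hcomm hZcard hcard d ρ hρ with h | h
    · left; rw [h1, h]; simp
    · right; rw [h1, h, Nat.cast_pow]
  refine ⟨hdeg, ?_⟩
  have hn : n ≠ 0 := by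
    rintro rfl
    have hPp : Nat.card P = p := by simpa using hcard
    have htop : Subgroup.center P = ⊤ :=
      Subgroup.eq_top_of_card_eq _ (by rw [hZcard, hPp])
    have hbot : commutator P = ⊥ := (commutator_eq_bot_iff_center_eq_top P).mpr htop
    rw [hcomm] at hbot
    rw [hbot, Subgroup.card_bot] at hZcard
    exact hp.one_lt.ne hZcard
  have hpn1 : p ^ n ≠ 1 := by
    intro h
    rcases Nat.pow_eq_one.mp h with h | h
    · exact hp.one_lt.ne' h
    · exact hn h
  have hpn1' : (p : ℂ) ^ n ≠ 1 := by exact_mod_cast hpn1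
  have hlin : Nat.card {χ : Cfsg.IrrCharacter P // (χ : P → ℂ) 1 = 1} = p ^ (2 * n) := by
    rw [card_linear_irr, hcomm]
    have := Subgroup.card_mul_index (Subgroup.center P)
    rw [hZcard, hcard] at this
    apply Nat.eq_of_mul_eq_mul_left hp.pos
    rw [this]; ring
  have hsum := sum_irr_one_sq (G := P)
  have hterm : ∀ χ : Cfsg.IrrCharacter P, (χ : P → ℂ) 1 ^ 2 =
      if (χ : P → ℂ) 1 = 1 then 1 else (p : ℂ) ^ (2 * n) := by
    intro χ
    by_cases h : (χ : P → ℂ) 1 = 1
    · rw [if_pos h, h, one_pow]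
    · rw [if_neg h, (hdeg χ).resolve_left h, ← pow_mul, mul_comm]
  rw [Finset.sum_congr rfl (fun χ _ => hterm χ), Finset.sum_ite] at hsum
  simp only [Finset.sum_const, nsmul_eq_mul, mul_one] at hsum
  have h1 : (Finset.univ.filter (fun χ : Cfsg.IrrCharacter P => (χ : P → ℂ) 1 = 1)).card =
      p ^ (2 * n) := by
    rw [← hlin, Nat.card_eq_fintype_card, Fintype.card_subtype]
  have h2 : (Finset.univ.filter (fun χ : Cfsg.IrrCharacter P => ¬ (χ : P → ℂ) 1 = 1)).card =
      Nat.card {χ : Cfsg.IrrCharacter P // (χ : P → ℂ) 1 = (p : ℂ) ^ n} := by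
    rw [Nat.card_eq_fintype_card, Fintype.card_subtype]
    congr 1
    ext χ
    simp only [Finset.mem_filter, Finset.mem_univ, true_and]
    constructor
    · intro h; exact (hdeg χ).resolve_left h
    · intro h h'; rw [h] at h'; exact hpn1' h'
  rw [h1, h2, hcard] at hsum
  have hnat : p ^ (2 * n) + Nat.card {χ : Cfsg.IrrCharacter P // (χ : P → ℂ) 1 = (p : ℂ) ^ n} *
      p ^ (2 * n) = p ^ (2 * n + 1) := by exact_mod_cast hsum
  have hpos : 0 < p ^ (2 * n) := pow_pos hp.pos _
  have h3 : (1 + Nat.card {χ : Cfsg.IrrCharacter P // (χ : P → ℂ) 1 = (p : ℂ) ^ n}) *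
      p ^ (2 * n) = p * p ^ (2 * n) := by
    rw [add_mul, one_mul, hnat]; ring
  have h4 := Nat.eq_of_mul_eq_mul_right hpos h3
  omega

end Cfsg.Agent.S0894
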