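import Cfsg.Statements.S0895
import Cfsg.Agent.Helper22.FrobSchur

set_option autoImplicit false
open Cfsg
open Cfsg.Agent.Helper22 Cfsg.Agent.Helper24

namespace Cfsg.Agent.S0895

/-- Let χ be a real-valued irreducible character of a finite group G whose degree is an odd natural number. Then the average over s in G of χ (s * s) equals 1. -/
theorem result {G : Type*} [Group G] [Fintype G] (χ : G → ℂ) (hχ : Cfsg.IsIrrCharacter G χ) (hreal : ∀ g : G, (χ g).im = 0) (d : ℕ) (hd : χ 1 = d) (hodd : Odd d) : (Nat.card G : ℂ)⁻¹ * ∑ s : G, χ (s * s) = 1 := by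
  obtain ⟨n, ρ, hirr, hρ⟩ := hχ
  subst hρ
  have hn : n = d := by
    have h1 := char_one_fin ρ
    rw [hd] at h1
    exact (Nat.cast_injective h1).symm
  obtain ⟨S, hS0, hS⟩ := exists_invForm_of_real ρ hreal
  have hSt := fs_transpose ρ hS
  have hSdet : IsUnit S.det :=
    (Matrix.isUnit_iff_isUnit_det _).mp (hS.eq_zero_or_isUnit.resolve_left hS0)
  show fsInd ρ.character = 1
  rcases fs_cases ρ with h0 | ⟨h1 | h1, _⟩
  · exfalso
    rw [h0, zero_smul] at hSt
    apply hS0
    have h2 := congrArg Matrix.transpose hSt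
    rw [Matrix.transpose_transpose, Matrix.transpose_zero] at h2
    exact h2
  · exact h1
  · exfalso
    rw [h1] at hSt
    have h2 := congrArg Matrix.det hSt
    have hoddn : Odd n := by rw [hn]; exact hodd
    rw [Matrix.det_transpose, Matrix.det_smul, Fintype.card_fin, Odd.neg_one_pow hoddn] at h2
    have h3 : S.det = 0 := by linear_combination (1 / 2 : ℂ) * h2
    exact hSdet.ne_zero h3

end Cfsg.Agent.S0895
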