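import Mathlib
import Cfsg.Statements.S0900
import Cfsg.Agent.Helper24.CharProd

namespace Cfsg.Agent.S0900

open Cfsg Cfsg.Agent.Helper24
open scoped ComplexConjugate

theorem result {G : Type*} [Group G] [Fintype G] (N : Subgroup G) [hN : N.Normal] [Fintype N] (χ : G → ℂ) (hχ : Cfsg.IsIrrCharacter G χ) (ϑ : N → ℂ) (hϑ : Cfsg.IsIrrCharacter N ϑ) (hcon : Cfsg.classInner (fun n : N => χ n) ϑ ≠ 0) : ((∃ e : ℕ, (fun n : N => χ n) = (e : ℂ) • ϑ ∧ e ^ 2 = N.index) ↔ ((∀ g : G, g ∉ N → χ g = 0) ∧ ∀ (g : G) (n : N), ϑ ⟨g * n * g⁻¹, hN.conj_mem (n : G) n.2 g⟩ = ϑ n)) ∧ ((∃ e : ℕ, (fun n : N => χ n) = (e : ℂ) • ϑ ∧ e ^ 2 = N.index) ↔ (∀ (g : G) (n : N), ϑ ⟨g * n * g⁻¹, hN.conj_mem (n : G) n.2 g⟩ = ϑ n ∧ ∀ ψ : G → ℂ, Cfsg.IsIrrCharacter G ψ → Cfsg.classInner (Cfsg.indFun N ϑ) ψ ≠ 0 → ψ = χ)) := by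
  classical
  have hχc : IsCharacter G χ := isCharacter_of_isIrrCharacter hχ
  have hχcf : IsClassFunction G χ := isCharacter_isClassFunction hχc
  have hϑc : IsCharacter N ϑ := isCharacter_of_isIrrCharacter hϑ
  have hresc : IsCharacter N (fun n : N => χ n) := isCharacter_restrict N hχc
  obtain ⟨e₀, he₀⟩ := classInner_isCharacter_natCast hresc hϑc
  have hϑϑ : classInner ϑ ϑ = 1 := irr_inner_self (⟨ϑ, hϑ⟩ : IrrCharacter N)
  have hN0 : (Nat.card N : ℂ) ≠ 0 := Nat.cast_ne_zero.mpr Nat.card_pos.ne'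
  have hG0 : (Nat.card G : ℂ) ≠ 0 := Nat.cast_ne_zero.mpr Nat.card_pos.ne'
  have hidx : (Nat.card N : ℂ) * (N.index : ℂ) = (Nat.card G : ℂ) := by
    exact_mod_cast Subgroup.card_mul_index N
  have hFR_e : ∀ e : ℕ, (fun n : N => χ n) = (e : ℂ) • ϑ → e = e₀ := by
    intro e he
    have : classInner (fun n : N => χ n) ϑ = (e : ℂ) := by
      rw [he, classInner_smul_left, hϑϑ, mul_one]
    rw [he₀] at this; exact_mod_cast this.symm
  have hFR_inv : ∀ e : ℕ, (fun n : N => χ n) = (e : ℂ) • ϑ → e ≠ 0 →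
      ∀ (g : G) (n : N), ϑ ⟨g * n * g⁻¹, hN.conj_mem (n : G) n.2 g⟩ = ϑ n := by
    intro e he he0 g n
    have h1 : χ (g * (n : G) * g⁻¹) =
        (e : ℂ) * ϑ ⟨g * n * g⁻¹, hN.conj_mem (n : G) n.2 g⟩ :=
      congrFun he ⟨g * n * g⁻¹, hN.conj_mem (n : G) n.2 g⟩
    have h2 : χ (n : G) = (e : ℂ) * ϑ n := congrFun he n
    have h3 : χ (g * (n : G) * g⁻¹) = χ (n : G) := hχcf n g
    rw [h1, h2] at h3
    exact mul_left_cancel₀ (Nat.cast_ne_zero.mpr he0) h3
  have hinv_res : (∀ (g : G) (n : N), ϑ ⟨g * n * g⁻¹, hN.conj_mem (n : G) n.2 g⟩ = ϑ n) →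
      (fun n : N => χ n) = (e₀ : ℂ) • ϑ := by
    intro hinv
    have hcl := clifford_restrict N hN χ hχ ϑ hϑ hcon
    have hset : {ψ : N → ℂ | ∃ g : G, ψ = fun n : N => ϑ ⟨g * n * g⁻¹, hN.conj_mem n n.2 g⟩}
        = {ϑ} := by
      ext ψ
      constructor
      · rintro ⟨g, rfl⟩
        exact funext fun n => hinv g n
      · intro h
        exact ⟨1, by rw [Set.mem_singleton_iff.mp h]; exact funext fun n => (hinv 1 n).symm⟩
    have hcl' : (fun n : N => χ n) = classInner (fun n : N => χ n) ϑ •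
        ∑ᶠ ψ ∈ ({ϑ} : Set (N → ℂ)), ψ := by
      rw [← hset]; exact hcl
    rw [finsum_mem_singleton, he₀] at hcl'
    exact hcl'
  have hsumG : ∑ g : G, χ g * conj (χ g) = (Nat.card G : ℂ) := by
    have h1 := irr_inner_self (⟨χ, hχ⟩ : IrrCharacter G)
    exact ((inv_mul_eq_one₀ hG0).mp h1).symm
  have hsplit : ∑ g : G, χ g * conj (χ g) = ∑ n : N, χ n * conj (χ n) +
      ∑ g ∈ Finset.univ.filter (fun g : G => g ∉ N), χ g * conj (χ g) := by
    rw [← Finset.sum_filter_add_sum_filter_not Finset.univ (fun g : G => g ∈ N)]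
    congr 1
    exact Finset.sum_subtype (Finset.univ.filter (fun g : G => g ∈ N)) (fun x => by simp)
      (fun g => χ g * conj (χ g))
  have hresnorm : ∑ n : N, χ n * conj (χ n) =
      (Nat.card N : ℂ) * classInner (fun n : N => χ n) (fun n : N => χ n) := by
    unfold classInner
    rw [← mul_assoc, mul_inv_cancel₀ hN0, one_mul]
  have hvan_iff : (∀ g : G, g ∉ N → χ g = 0) ↔
      classInner (fun n : N => χ n) (fun n : N => χ n) = (N.index : ℂ) := by
    constructor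
    · intro hv
      have h0 : ∑ g ∈ Finset.univ.filter (fun g : G => g ∉ N), χ g * conj (χ g) = 0 :=
        Finset.sum_eq_zero (fun g hg => by rw [hv g (Finset.mem_filter.mp hg).2, zero_mul])
      rw [hsplit, h0, add_zero, hresnorm, ← hidx] at hsumG
      exact mul_left_cancel₀ hN0 hsumG
    · intro hnorm g hg
      rw [hsplit, hresnorm, hnorm, hidx] at hsumG
      have h0 : ∑ g ∈ Finset.univ.filter (fun g : G => g ∉ N), χ g * conj (χ g) = 0 := by
        linear_combination hsumG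
      have h1 : ∑ g ∈ Finset.univ.filter (fun g : G => g ∉ N), Complex.normSq (χ g) = 0 := by
        have : ((∑ g ∈ Finset.univ.filter (fun g : G => g ∉ N), Complex.normSq (χ g) : ℝ) : ℂ)
            = 0 := by
          rw [Complex.ofReal_sum]; simp only [← Complex.mul_conj]; exact h0
        exact_mod_cast this
      have h2 := (Finset.sum_eq_zero_iff_of_nonneg
        (fun g _ => Complex.normSq_nonneg (χ g))).mp h1 g
        (Finset.mem_filter.mpr ⟨Finset.mem_univ g, hg⟩)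
      exact Complex.normSq_eq_zero.mp h2
  have hnorm_e : ∀ e : ℕ, (fun n : N => χ n) = (e : ℂ) • ϑ →
      classInner (fun n : N => χ n) (fun n : N => χ n) = ((e ^ 2 : ℕ) : ℂ) := by
    intro e he
    rw [he, classInner_smul_left, classInner_conj_symm, classInner_smul_left, hϑϑ]
    simp only [Complex.conj_natCast, mul_one, Nat.cast_pow]
    ring
  have hne0 : ∀ e : ℕ, e ^ 2 = N.index → e ≠ 0 := by
    rintro e he2 rfl
    have : N.index = 0 := by rw [← he2]; norm_num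
    exact Subgroup.index_ne_zero_of_finite this
  have part1 : (∃ e : ℕ, (fun n : N => χ n) = (e : ℂ) • ϑ ∧ e ^ 2 = N.index) ↔
      ((∀ g : G, g ∉ N → χ g = 0) ∧
        ∀ (g : G) (n : N), ϑ ⟨g * n * g⁻¹, hN.conj_mem (n : G) n.2 g⟩ = ϑ n) := by
    constructor
    · rintro ⟨e, he, he2⟩
      refine ⟨hvan_iff.mpr ?_, hFR_inv e he (hne0 e he2)⟩
      rw [hnorm_e e he, he2]
    · rintro ⟨hv, hinv⟩
      have hres := hinv_res hinv
      refine ⟨e₀, hres, ?_⟩
      have h1 := hvan_iff.mp hv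
      rw [hnorm_e e₀ hres] at h1
      exact_mod_cast h1
  have hIndc : IsCharacter G (indFun N ϑ) := isCharacter_induced N ϑ hϑc
  have hIndcf : IsClassFunction G (indFun N ϑ) := indFun_isClassFunction N ϑ
  choose a ha using fun ψ : IrrCharacter G => isCharacter_inner_irr hIndc ψ
  have haχ : a ⟨χ, hχ⟩ = e₀ := by
    have h1 : classInner (indFun N ϑ) χ = a ⟨χ, hχ⟩ := ha ⟨χ, hχ⟩
    rw [classInner_indFun N ϑ χ hχcf, classInner_conj_symm, he₀, Complex.conj_natCast] at h1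
    exact_mod_cast h1.symm
  have hself : classInner (indFun N ϑ) (indFun N ϑ) =
      ∑ ψ : IrrCharacter G, ((a ψ ^ 2 : ℕ) : ℂ) := by
    have hdec := classFunction_eq_sum_irr (indFun N ϑ) hIndcf
    have e1 : classInner (indFun N ϑ) (indFun N ϑ) =
        classInner (∑ ψ : IrrCharacter G, classInner (indFun N ϑ) (ψ : G → ℂ) • (ψ : G → ℂ))
          (indFun N ϑ) := congrArg (fun F => classInner F (indFun N ϑ)) hdec
    rw [e1, classInner_sum_left]
    refine Finset.sum_congr rfl fun ψ _ => ?_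
    rw [classInner_smul_left, ha ψ, classInner_conj_symm, ha ψ, Complex.conj_natCast]
    push_cast; ring
  have hself_inv : (∀ (g : G) (n : N), ϑ ⟨g * n * g⁻¹, hN.conj_mem (n : G) n.2 g⟩ = ϑ n) →
      ∑ ψ : IrrCharacter G, a ψ ^ 2 = N.index := by
    intro hinv
    have h1 := card_mul_classInner_indFun_self N ϑ hϑ
    have h2 : Nat.card {g : G // ∀ h : N, ϑ ⟨g * h * g⁻¹, hN.conj_mem h h.2 g⟩ = ϑ h} =
        Nat.card G := Nat.card_congr (Equiv.subtypeUnivEquiv hinv)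
    rw [h2, hself, ← hidx] at h1
    have h3 := mul_left_cancel₀ hN0 h1
    exact_mod_cast h3
  have part2 : (∃ e : ℕ, (fun n : N => χ n) = (e : ℂ) • ϑ ∧ e ^ 2 = N.index) ↔
      (∀ (g : G) (n : N), ϑ ⟨g * n * g⁻¹, hN.conj_mem (n : G) n.2 g⟩ = ϑ n ∧
        ∀ ψ : G → ℂ, IsIrrCharacter G ψ → classInner (indFun N ϑ) ψ ≠ 0 → ψ = χ) := by
    constructor
    · rintro ⟨e, he, he2⟩
      have hinv := hFR_inv e he (hne0 e he2)
      have hee : e = e₀ := hFR_e e he
      have hsum := hself_inv hinv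
      have huniq : ∀ ψ : IrrCharacter G, ψ ≠ ⟨χ, hχ⟩ → a ψ = 0 := by
        intro ψ hψ
        have h1 : a ⟨χ, hχ⟩ ^ 2 + ∑ ψ' ∈ Finset.univ.erase (⟨χ, hχ⟩ : IrrCharacter G), a ψ' ^ 2
            = ∑ ψ' : IrrCharacter G, a ψ' ^ 2 :=
          Finset.add_sum_erase Finset.univ (fun ψ' : IrrCharacter G => a ψ' ^ 2)
            (Finset.mem_univ (⟨χ, hχ⟩ : IrrCharacter G))
        rw [hsum, haχ, ← hee, he2] at h1
        have h2 : ∑ ψ' ∈ Finset.univ.erase (⟨χ, hχ⟩ : IrrCharacter G), a ψ' ^ 2 = 0 := by omega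
        have h3 := (Finset.sum_eq_zero_iff.mp h2) ψ
          (Finset.mem_erase.mpr ⟨hψ, Finset.mem_univ _⟩)
        exact (pow_eq_zero_iff two_ne_zero).mp h3
      intro g n
      refine ⟨hinv g n, ?_⟩
      intro ψ hψ hne
      by_contra hcon2
      have h1 := huniq ⟨ψ, hψ⟩ (fun h => hcon2 (congrArg Subtype.val h))
      have h2 : classInner (indFun N ϑ) ψ = a ⟨ψ, hψ⟩ := ha ⟨ψ, hψ⟩
      rw [h1] at h2
      exact hne (by rw [h2]; simp)
    · intro h
      have hinv : ∀ (g : G) (n : N), ϑ ⟨g * n * g⁻¹, hN.conj_mem (n : G) n.2 g⟩ = ϑ n :=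
        fun g n => (h g n).1
      have huniq : ∀ ψ : G → ℂ, IsIrrCharacter G ψ → classInner (indFun N ϑ) ψ ≠ 0 → ψ = χ :=
        (h 1 1).2
      have hres := hinv_res hinv
      refine ⟨e₀, hres, ?_⟩
      have hsum := hself_inv hinv
      have h1 : ∑ ψ' : IrrCharacter G, a ψ' ^ 2 = a ⟨χ, hχ⟩ ^ 2 := by
        apply Finset.sum_eq_single_of_mem _ (Finset.mem_univ _)
        intro ψ _ hψ
        have : a ψ = 0 := by
          by_contra h0
          apply hψ
          apply Subtype.ext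
          apply huniq ψ.1 ψ.2
          rw [ha ψ]; exact_mod_cast h0
        rw [this]; simp
      rw [← hsum, h1, haχ]
  exact ⟨part1, part2⟩

end Cfsg.Agent.S0900
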