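import Mathlib
import Cfsg.Statements.S0901

namespace Cfsg.Agent.S0901

open Polynomial

/-- In a field of characteristic `p`, a nonzero element integral over `ℤ` has finite order
prime to `p`. -/
theorem exists_pow_eq_one_of_isIntegral {k : Type*} [Field k] (p : ℕ) [Fact p.Prime] [CharP k p]
    (x : k) (hx0 : x ≠ 0) (hx : IsIntegral ℤ x) : ∃ m : ℕ, ¬ p ∣ m ∧ x ^ m = 1 := by
  let _ : Algebra (ZMod p) k := ZMod.algebra k p
  have hx' : IsIntegral (ZMod p) x := by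
    obtain ⟨f, hmonic, hf⟩ := hx
    refine ⟨f.map (Int.castRingHom (ZMod p)), hmonic.map _, ?_⟩
    rw [Polynomial.eval₂_map]
    have h1 : (algebraMap (ZMod p) k).comp (Int.castRingHom (ZMod p)) = algebraMap ℤ k :=
      RingHom.ext_int _ _
    rw [h1]; exact hf
  have hfin : Module.Finite (ZMod p) (Algebra.adjoin (ZMod p) ({x} : Set k)) :=
    Algebra.finite_adjoin_simple_of_isIntegral hx'
  have hFinite : Finite (Algebra.adjoin (ZMod p) ({x} : Set k)) := Module.finite_of_finite (ZMod p)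
  obtain ⟨i, j, hij, heq⟩ := Finite.exists_ne_map_eq_of_infinite
    (fun i : ℕ => (⟨x ^ i, Subalgebra.pow_mem _ (Algebra.subset_adjoin (Set.mem_singleton x)) i⟩ :
      Algebra.adjoin (ZMod p) ({x} : Set k)))
  have heq' : x ^ i = x ^ j := congrArg Subtype.val heq
  have key : ∃ n : ℕ, 0 < n ∧ x ^ n = 1 := by
    rcases Nat.lt_or_gt_of_ne hij with h | h
    · refine ⟨j - i, Nat.sub_pos_of_lt h, ?_⟩
      have : x ^ i * x ^ (j - i) = x ^ i * 1 := by
        rw [← pow_add, Nat.add_sub_cancel' h.le, mul_one, heq']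
      exact mul_left_cancel₀ (pow_ne_zero i hx0) this
    · refine ⟨i - j, Nat.sub_pos_of_lt h, ?_⟩
      have : x ^ j * x ^ (i - j) = x ^ j * 1 := by
        rw [← pow_add, Nat.add_sub_cancel' h.le, mul_one, heq']
      exact mul_left_cancel₀ (pow_ne_zero j hx0) this
  obtain ⟨n, hn, hxn⟩ := key
  have hp := (Fact.out : p.Prime)
  refine ⟨n / p ^ n.factorization p, Nat.not_dvd_ordCompl hp hn.ne', ?_⟩
  have hdecomp : p ^ n.factorization p * (n / p ^ n.factorization p) = n :=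
    Nat.ordProj_mul_ordCompl_eq_self n p
  have h1 : (x ^ (n / p ^ n.factorization p)) ^ (p ^ n.factorization p) = 1 := by
    rw [← pow_mul, mul_comm, hdecomp, hxn]
  have h2 : (x ^ (n / p ^ n.factorization p) - 1) ^ (p ^ n.factorization p) = 0 := by
    rw [sub_pow_char_pow, h1, one_pow, sub_self]
  exact sub_eq_zero.mp ((pow_eq_zero_iff (pow_ne_zero _ hp.ne_zero)).mp h2)

theorem result (p : ℕ) [Fact p.Prime] (M : Ideal Cfsg.AlgInt) (hM : Cfsg.IsPModular p M) : (∀ ε₁ ε₂ : Cfsg.AlgInt, (∃ m : ℕ, ¬ p ∣ m ∧ (ε₁ : ℂ) ^ m = 1) → (∃ m : ℕ, ¬ p ∣ m ∧ (ε₂ : ℂ) ^ m = 1) → ε₁ - ε₂ ∈ M → ε₁ = ε₂) ∧ (∀ a : Cfsg.AlgInt, a ∉ M → ∃ ε : Cfsg.AlgInt, (∃ m : ℕ, ¬ p ∣ m ∧ (ε : ℂ) ^ m = 1) ∧ a - ε ∈ M) := by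
  obtain ⟨hp, hmax, hpM⟩ := hM
  have : M.IsMaximal := hmax
  have hnat : ∀ N : ℕ, ¬ p ∣ N → (N : Cfsg.AlgInt) ∉ M := by
    intro N hN hNM
    have hcop : Nat.Coprime p N := (Nat.Prime.coprime_iff_not_dvd hp).mpr hN
    have h1 : (1 : ℤ) = p * Nat.gcdA p N + N * Nat.gcdB p N := by
      have := Nat.gcd_eq_gcd_ab p N
      rw [hcop.gcd_eq_one] at this
      exact_mod_cast this
    have h2 : (1 : Cfsg.AlgInt) = (p : Cfsg.AlgInt) * ((Nat.gcdA p N : ℤ) : Cfsg.AlgInt) +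
        (N : Cfsg.AlgInt) * ((Nat.gcdB p N : ℤ) : Cfsg.AlgInt) := by
      have := congrArg (Int.cast : ℤ → Cfsg.AlgInt) h1
      push_cast at this
      exact this
    have h3 : (1 : Cfsg.AlgInt) ∈ M := by
      rw [h2]; exact M.add_mem (M.mul_mem_right _ hpM) (M.mul_mem_right _ hNM)
    exact hmax.ne_top ((Ideal.eq_top_iff_one M).mpr h3)
  constructor
  · rintro ε₁ ε₂ ⟨m₁, hm₁, h₁⟩ ⟨m₂, hm₂, h₂⟩ hmem
    have h₁' : ε₁ ^ m₁ = 1 := Subtype.ext (by simpa using h₁)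
    have h₂' : ε₂ ^ m₂ = 1 := Subtype.ext (by simpa using h₂)
    have hN : ¬ p ∣ m₁ * m₂ := fun h => (hp.dvd_mul.mp h).elim hm₁ hm₂
    have hNpos : 0 < m₁ * m₂ := Nat.pos_of_ne_zero (fun h => hN (h ▸ dvd_zero p))
    have e1 : ε₁ ^ (m₁ * m₂) = 1 := by rw [pow_mul, h₁', one_pow]
    have e2 : ε₂ ^ (m₁ * m₂) = 1 := by rw [mul_comm, pow_mul, h₂', one_pow]
    obtain ⟨N, hNdef⟩ : ∃ N, N = m₁ * m₂ := ⟨_, rfl⟩
    rw [← hNdef] at hN hNpos e1 e2
    have hinv : ε₂ * ε₂ ^ (N - 1) = 1 := by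
      rw [← pow_succ', Nat.sub_add_cancel (Nat.succ_le_of_lt hNpos), e2]
    by_contra hne
    have hω1 : ε₁ * ε₂ ^ (N - 1) ≠ 1 := by
      intro h
      apply hne
      calc ε₁ = ε₁ * (ε₂ ^ (N - 1) * ε₂) := by
            rw [mul_comm (ε₂ ^ (N - 1)) ε₂, hinv, mul_one]
        _ = (ε₁ * ε₂ ^ (N - 1)) * ε₂ := by ring
        _ = ε₂ := by rw [h, one_mul]
    have e3 : (ε₂ ^ (N - 1)) ^ N = 1 := by rw [← pow_mul, mul_comm, pow_mul, e2, one_pow]
    have hωN : (ε₁ * ε₂ ^ (N - 1)) ^ N = 1 := by rw [mul_pow, e1, e3, mul_one]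
    have hωM : ε₁ * ε₂ ^ (N - 1) - 1 ∈ M := by
      have : ε₁ * ε₂ ^ (N - 1) - 1 = (ε₁ - ε₂) * ε₂ ^ (N - 1) := by rw [sub_mul, hinv]
      rw [this]; exact M.mul_mem_right _ hmem
    have hgeom : (ε₁ * ε₂ ^ (N - 1) - 1) * ∑ i ∈ Finset.range N, (ε₁ * ε₂ ^ (N - 1)) ^ i = 0 := by
      rw [mul_geom_sum, hωN, sub_self]
    have hsum0 : ∑ i ∈ Finset.range N, (ε₁ * ε₂ ^ (N - 1)) ^ i = 0 := by
      rcases mul_eq_zero.mp hgeom with h | h
      · exact absurd (sub_eq_zero.mp h) hω1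
      · exact h
    have hπ : Ideal.Quotient.mk M (ε₁ * ε₂ ^ (N - 1)) = 1 := by
      rw [← map_one (Ideal.Quotient.mk M), Ideal.Quotient.mk_eq_mk_iff_sub_mem]; exact hωM
    have hNM : (N : Cfsg.AlgInt) ∈ M := by
      rw [← Ideal.Quotient.eq_zero_iff_mem, map_natCast]
      have := congrArg (Ideal.Quotient.mk M) hsum0
      rw [map_sum, map_zero] at this
      simp only [map_pow, hπ, one_pow, Finset.sum_const, Finset.card_range, nsmul_eq_mul,
        mul_one] at this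
      exact this
    exact hnat N hN hNM
  · intro a ha
    let _ : Field (Cfsg.AlgInt ⧸ M) := Ideal.Quotient.field M
    have hp0 : ((p : ℕ) : Cfsg.AlgInt ⧸ M) = 0 := by
      rw [← map_natCast (Ideal.Quotient.mk M), Ideal.Quotient.eq_zero_iff_mem]; exact hpM
    have : CharP (Cfsg.AlgInt ⧸ M) p := (CharP.charP_iff_prime_eq_zero hp).mpr hp0
    have hx0 : Ideal.Quotient.mk M a ≠ 0 := fun h => ha (Ideal.Quotient.eq_zero_iff_mem.mp h)
    have ha_int : IsIntegral ℤ a := integralClosure.isIntegral a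
    have hx_int : IsIntegral ℤ (Ideal.Quotient.mk M a) := by
      obtain ⟨f, hmonic, hf⟩ := ha_int
      refine ⟨f, hmonic, ?_⟩
      have h1 : algebraMap ℤ (Cfsg.AlgInt ⧸ M) =
          (Ideal.Quotient.mk M).comp (algebraMap ℤ Cfsg.AlgInt) := RingHom.ext_int _ _
      rw [h1, ← Polynomial.hom_eval₂, hf, map_zero]
    obtain ⟨m, hm, hxm⟩ := exists_pow_eq_one_of_isIntegral p (Ideal.Quotient.mk M a) hx0 hx_int
    have hmpos : 0 < m := Nat.pos_of_ne_zero (fun h => hm (h ▸ dvd_zero p))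
    have hζC := Complex.isPrimitiveRoot_exp m hmpos.ne'
    have hζint : IsIntegral ℤ (Complex.exp (2 * Real.pi * Complex.I / m)) := hζC.isIntegral hmpos
    have hζ : IsPrimitiveRoot (⟨Complex.exp (2 * Real.pi * Complex.I / m), hζint⟩ : Cfsg.AlgInt) m :=
      IsPrimitiveRoot.of_map_of_injective (f := Subalgebra.val Cfsg.AlgInt) hζC
        Subtype.val_injective
    have hfac := Polynomial.X_pow_sub_one_eq_prod hmpos hζ
    have heval := congrArg (Polynomial.eval₂ (Ideal.Quotient.mk M) (Ideal.Quotient.mk M a)) hfac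
    rw [Polynomial.eval₂_finsetProd] at heval
    simp only [Polynomial.eval₂_sub, Polynomial.eval₂_pow, Polynomial.eval₂_X,
      Polynomial.eval₂_one, Polynomial.eval₂_C] at heval
    rw [hxm, sub_self] at heval
    obtain ⟨ε, hε, hε0⟩ := Finset.prod_eq_zero_iff.mp heval.symm
    have hεm : ε ^ m = 1 := (Polynomial.mem_nthRootsFinset hmpos 1).mp hε
    refine ⟨ε, ⟨m, hm, ?_⟩, ?_⟩
    · have := congrArg Subtype.val hεm
      simpa using this
    · rw [← Ideal.Quotient.mk_eq_mk_iff_sub_mem]; exact sub_eq_zero.mp hε0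

end Cfsg.Agent.S0901
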