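import Mathlib
import Cfsg.Statements.S0903

set_option autoImplicit false
open Cfsg

namespace Cfsg.Agent.S0903

/-- The conjugation action of a subgroup on the set of pairs from two classes with given product
(the product being centralized by the subgroup). -/
def pairAction {G : Type*} [Group G] (P : Subgroup G) (c : G)
    (hc : c ∈ Subgroup.centralizer (P : Set G)) (g h : G) :
    MulAction P {xy : G × G // IsConj g xy.1 ∧ IsConj h xy.2 ∧ xy.1 * xy.2 = c} where
  smul a xy := ⟨((a : G) * xy.1.1 * (a : G)⁻¹, (a : G) * xy.1.2 * (a : G)⁻¹),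
    xy.2.1.trans (isConj_iff.mpr ⟨a, rfl⟩), xy.2.2.1.trans (isConj_iff.mpr ⟨a, rfl⟩), by
      have h3 := xy.2.2.2
      have hca := (Subgroup.mem_centralizer_iff.mp hc) (a : G) a.2
      calc (a : G) * xy.1.1 * (a : G)⁻¹ * ((a : G) * xy.1.2 * (a : G)⁻¹)
          = (a : G) * (xy.1.1 * xy.1.2) * (a : G)⁻¹ := by group
        _ = (a : G) * c * (a : G)⁻¹ := by rw [h3]
        _ = c := by rw [hca]; group⟩
  one_smul xy := by
    apply Subtype.ext
    show (((1 : P) : G) * xy.1.1 * ((1 : P) : G)⁻¹, ((1 : P) : G) * xy.1.2 * ((1 : P) : G)⁻¹) = xy.1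
    simp
  mul_smul a b xy := by
    apply Subtype.ext
    show (((a * b : P) : G) * xy.1.1 * ((a * b : P) : G)⁻¹,
        ((a * b : P) : G) * xy.1.2 * ((a * b : P) : G)⁻¹)
      = ((a : G) * ((b : G) * xy.1.1 * (b : G)⁻¹) * (a : G)⁻¹,
        (a : G) * ((b : G) * xy.1.2 * (b : G)⁻¹) * (a : G)⁻¹)
    simp [mul_assoc]

/-- Let P be a p-subgroup of the finite group G, let c centralize P and let g, h ∈ G. The number of pairs (x, y) with x conjugate to g, y conjugate to h and x * y = c is congruent modulo p to the number of such pairs in which x and y both centralize P. (This is why the Brauer map on class sums is multiplicative.) -/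
theorem result {G : Type*} [Group G] [Finite G] (p : ℕ) [Fact p.Prime] (P : Subgroup G) (hP : IsPGroup p P) (c : G) (hc : c ∈ Subgroup.centralizer (P : Set G)) (g h : G) : Nat.card {xy : G × G // IsConj g xy.1 ∧ IsConj h xy.2 ∧ xy.1 * xy.2 = c} ≡ Nat.card {xy : G × G // IsConj g xy.1 ∧ IsConj h xy.2 ∧ xy.1 * xy.2 = c ∧ xy.1 ∈ Subgroup.centralizer (P : Set G) ∧ xy.2 ∈ Subgroup.centralizer (P : Set G)} [MOD p] := by
  letI := pairAction P c hc g h
  have key := hP.card_modEq_card_fixedPoints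
    {xy : G × G // IsConj g xy.1 ∧ IsConj h xy.2 ∧ xy.1 * xy.2 = c}
  have hsmul : ∀ (a : P) (xy : {xy : G × G // IsConj g xy.1 ∧ IsConj h xy.2 ∧ xy.1 * xy.2 = c}),
      (a • xy).1 = ((a : G) * xy.1.1 * (a : G)⁻¹, (a : G) * xy.1.2 * (a : G)⁻¹) := fun _ _ => rfl
  have hequiv : Nat.card (MulAction.fixedPoints P
      {xy : G × G // IsConj g xy.1 ∧ IsConj h xy.2 ∧ xy.1 * xy.2 = c})
      = Nat.card {xy : G × G // IsConj g xy.1 ∧ IsConj h xy.2 ∧ xy.1 * xy.2 = c ∧
          xy.1 ∈ Subgroup.centralizer (P : Set G) ∧ xy.2 ∈ Subgroup.centralizer (P : Set G)} := by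
    apply Nat.card_congr
    refine
      { toFun := fun z => ⟨z.1.1, z.1.2.1, z.1.2.2.1, z.1.2.2.2, ?_, ?_⟩
        invFun := fun z => ⟨⟨z.1, z.2.1, z.2.2.1, z.2.2.2.1⟩, ?_⟩
        left_inv := fun z => rfl
        right_inv := fun z => rfl }
    · rw [Subgroup.mem_centralizer_iff]
      intro a ha
      have h1 := congrArg (fun w => w.1.1) (z.2 ⟨a, ha⟩)
      simp only [hsmul] at h1
      calc a * z.1.1.1 = (a * z.1.1.1 * a⁻¹) * a := by group
        _ = z.1.1.1 * a := by rw [h1]
    · rw [Subgroup.mem_centralizer_iff]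
      intro a ha
      have h1 := congrArg (fun w => w.1.2) (z.2 ⟨a, ha⟩)
      simp only [hsmul] at h1
      calc a * z.1.1.2 = (a * z.1.1.2 * a⁻¹) * a := by group
        _ = z.1.1.2 * a := by rw [h1]
    · intro a
      apply Subtype.ext
      rw [hsmul]
      have h1 := (Subgroup.mem_centralizer_iff.mp z.2.2.2.2.1) (a : G) a.2
      have h2 := (Subgroup.mem_centralizer_iff.mp z.2.2.2.2.2) (a : G) a.2
      show ((a : G) * z.1.1 * (a : G)⁻¹, (a : G) * z.1.2 * (a : G)⁻¹) = z.1
      rw [h1, h2]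
      simp
  rw [← hequiv]
  exact key

end Cfsg.Agent.S0903
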