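import Cfsg.Statements.S0905
import Cfsg.Agent.Helper22.AugNil
import Cfsg.Agent.Helper10.PCore

set_option autoImplicit false
open Cfsg

namespace Cfsg.Agent.S0905

/-- Let F be a field of characteristic p and let g be an element of the finite group G no conjugate of which centralizes O_p(G). Then the class sum of g is a nilpotent element of the group algebra F[G]. -/
theorem result {G : Type*} [Group G] [Finite G] (p : ℕ) [Fact p.Prime] (F : Type*) [Field F] [CharP F p] (g : G) (hg : ∀ x : G, IsConj g x → x ∉ Subgroup.centralizer (Cfsg.pCore p G : Set G)) : IsNilpotent (∑ᶠ x ∈ ConjClasses.carrier (ConjClasses.mk g), MonoidAlgebra.single x (1 : F) : MonoidAlgebra F G) := by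
  classical
  haveI := Fintype.ofFinite G
  have hset : ConjClasses.carrier (ConjClasses.mk g) =
      ((Finset.univ.filter (fun x => IsConj g x) : Finset G) : Set G) := by
    ext x
    rw [ConjClasses.mem_carrier_iff_mk_eq, ConjClasses.mk_eq_mk_iff_isConj, Finset.coe_filter]
    simp only [Finset.mem_univ, true_and, Set.mem_setOf_eq]
    exact isConj_comm
  rw [hset, finsum_mem_coe_finset]
  exact Cfsg.Agent.Helper22.classSum_nilpotent p F (Cfsg.pCore p G)
    (Cfsg.Agent.Helper10.pCore_normal p G) (Cfsg.Agent.Helper10.pCore_isPGroup p G) g hg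

end Cfsg.Agent.S0905
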