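import Mathlib
import Cfsg.Statements.S0916
import Cfsg.Agent.Helper5.Grp

namespace Cfsg.Agent.S0916

open Cfsg.Agent.Helper5

theorem key {G : Type*} [Group G] [Finite G] (p : ℕ) [Fact p.Prime] (P : Subgroup G)
    (hP : IsPGroup p P) (g : G) (S : Sylow p (Subgroup.centralizer ({g} : Set G)))
    (hS : (S : Subgroup (Subgroup.centralizer ({g} : Set G))).map
      (Subgroup.centralizer ({g} : Set G)).subtype = P)
    (a c : G) (ha : a * g * a⁻¹ = c) (hc : c ∈ Subgroup.centralizer (P : Set G)) :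
    ∃ n ∈ Subgroup.normalizer (P : Set G), n * c * n⁻¹ = g := by
  have hHC : P.map (MulAut.conj a⁻¹).toMonoidHom ≤ Subgroup.centralizer ({g} : Set G) := by
    rintro _ ⟨y, hy, rfl⟩
    rw [Subgroup.mem_centralizer_iff]
    intro h hh
    rw [Set.mem_singleton_iff] at hh
    subst hh
    have h1 := (Subgroup.mem_centralizer_iff.mp hc) y hy
    rw [← ha] at h1
    simp only [MulEquiv.toMonoidHom_eq_coe, MonoidHom.coe_coe, MulAut.conj_apply, inv_inv]
    have h2 : h * (a⁻¹ * y * a) = a⁻¹ * (a * h * a⁻¹ * y) * a := by group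
    have h3 : a⁻¹ * y * a * h = a⁻¹ * (y * (a * h * a⁻¹)) * a := by group
    rw [h2, h3, h1]
  obtain ⟨z, hz, hzc⟩ := exists_conj_mem_of_sylow_map _ S _ (hP.map (MulAut.conj a⁻¹).toMonoidHom) hHC
  rw [hS] at hzc
  refine ⟨z * a⁻¹, ?_, ?_⟩
  · apply mem_normalizer_of_conj_mem
    intro y hy
    have := hzc _ ⟨y, hy, rfl⟩
    simp only [MulEquiv.toMonoidHom_eq_coe, MonoidHom.coe_coe, MulAut.conj_apply, inv_inv] at this
    have h2 : z * a⁻¹ * y * (z * a⁻¹)⁻¹ = z * (a⁻¹ * y * a) * z⁻¹ := by group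
    rw [h2]; exact this
  · rw [← ha]
    have h1 := (Subgroup.mem_centralizer_iff.mp hz) g rfl
    have h2 : z * a⁻¹ * (a * g * a⁻¹) * (z * a⁻¹)⁻¹ = z * g * z⁻¹ := by group
    rw [h2, ← h1]; group

theorem part2 {G : Type*} [Group G] [Finite G] (p : ℕ) [Fact p.Prime] (P : Subgroup G)
    (hP : IsPGroup p P) (Cc : Subgroup G)
    (S : Sylow p (Cc ⊓ Subgroup.normalizer (P : Set G) : Subgroup G))
    (hS : (S : Subgroup ↥(Cc ⊓ Subgroup.normalizer (P : Set G))).map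
      (Cc ⊓ Subgroup.normalizer (P : Set G)).subtype = P) :
    ∃ S' : Sylow p Cc, (S' : Subgroup Cc).map Cc.subtype = P := by
  have hPCc : P ≤ Cc := by
    rw [← hS]; exact (Subgroup.map_subtype_le _).trans inf_le_left
  obtain ⟨S', hS'⟩ := (hP.comap_subtype (K := Cc)).exists_le_sylow
  refine ⟨S', ?_⟩
  have hQp : IsPGroup p ((S' : Subgroup Cc).map Cc.subtype) := S'.2.map _
  have hQC : (S' : Subgroup Cc).map Cc.subtype ≤ Cc := Subgroup.map_subtype_le _
  have hPQ : P ≤ (S' : Subgroup Cc).map Cc.subtype := by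
    intro x hx
    exact ⟨⟨x, hPCc hx⟩, hS' (by show x ∈ P; exact hx), rfl⟩
  apply le_antisymm _ hPQ
  by_contra hcon
  have hlt : P.subgroupOf ((S' : Subgroup Cc).map Cc.subtype) < ⊤ := by
    rw [lt_top_iff_ne_top, Ne, Subgroup.subgroupOf_eq_top]
    exact hcon
  have : Group.IsNilpotent ((S' : Subgroup Cc).map Cc.subtype) := hQp.isNilpotent
  have hnc := Group.normalizerCondition_of_isNilpotent
    (G := ((S' : Subgroup Cc).map Cc.subtype)) _ hlt
  obtain ⟨y, hyN, hyP⟩ := SetLike.exists_of_lt hnc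
  rw [← Subgroup.subgroupOf_normalizer_eq hPQ, Subgroup.mem_subgroupOf] at hyN
  rw [Subgroup.mem_subgroupOf] at hyP
  have hTp : IsPGroup p (((S' : Subgroup Cc).map Cc.subtype) ⊓
      Subgroup.normalizer (P : Set G) : Subgroup G) := hQp.to_le inf_le_left
  have hTM : (((S' : Subgroup Cc).map Cc.subtype) ⊓ Subgroup.normalizer (P : Set G) : Subgroup G) ≤
      Cc ⊓ Subgroup.normalizer (P : Set G) := inf_le_inf_right _ hQC
  have hST : (S : Subgroup ↥(Cc ⊓ Subgroup.normalizer (P : Set G))) ≤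
      (((S' : Subgroup Cc).map Cc.subtype) ⊓ Subgroup.normalizer (P : Set G) : Subgroup G).subgroupOf
        (Cc ⊓ Subgroup.normalizer (P : Set G)) := by
    intro s hs
    rw [Subgroup.mem_subgroupOf]
    have : (s : G) ∈ P := hS.le ⟨s, hs, rfl⟩
    exact ⟨hPQ this, Subgroup.le_normalizer this⟩
  have hmax := S.is_maximal' (hTp.comap_subtype (K := Cc ⊓ Subgroup.normalizer (P : Set G))) hST
  have hyM : (y : G) ∈ Cc ⊓ Subgroup.normalizer (P : Set G) := hTM ⟨y.2, hyN⟩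
  have hyS : (⟨(y : G), hyM⟩ : ↥(Cc ⊓ Subgroup.normalizer (P : Set G))) ∈
      (S : Subgroup ↥(Cc ⊓ Subgroup.normalizer (P : Set G))) := by
    rw [← hmax]
    show (y : G) ∈ (((S' : Subgroup Cc).map Cc.subtype) ⊓ Subgroup.normalizer (P : Set G) : Subgroup G)
    exact ⟨y.2, hyN⟩
  exact hyP (hS.le ⟨⟨(y : G), hyM⟩, hyS, rfl⟩)

theorem result {G : Type*} [Group G] [Finite G] (p : ℕ) [Fact p.Prime] (P : Subgroup G) (hP : IsPGroup p P) : (∀ g : G, (∃ S : Sylow p (Subgroup.centralizer ({g} : Set G)), (S : Subgroup (Subgroup.centralizer ({g} : Set G))).map (Subgroup.centralizer ({g} : Set G)).subtype = P) → (∃ c : G, IsConj g c ∧ c ∈ Subgroup.centralizer (P : Set G)) ∧ (∀ c₁ c₂ : G, IsConj g c₁ → IsConj g c₂ → c₁ ∈ Subgroup.centralizer (P : Set G) → c₂ ∈ Subgroup.centralizer (P : Set G) → ∃ n ∈ Subgroup.normalizer (P : Set G), n * c₁ * n⁻¹ = c₂)) ∧ (∀ c : G, c ∈ Subgroup.centralizer (P : Set G) → (∃ S : Sylow p (Subgroup.centralizer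 ({c} : Set G) ⊓ Subgroup.normalizer (P : Set G) : Subgroup G), (S : Subgroup ↥(Subgroup.centralizer ({c} : Set G) ⊓ Subgroup.normalizer (P : Set G))).map (Subgroup.centralizer ({c} : Set G) ⊓ Subgroup.normalizer (P : Set G)).subtype = P) → ∃ S : Sylow p (Subgroup.centralizer ({c} : Set G)), (S : Subgroup (Subgroup.centralizer ({c} : Set G))).map (Subgroup.centralizer ({c} : Set G)).subtype = P) := by
  constructor
  · rintro g ⟨S, hS⟩
    have hPC : P ≤ Subgroup.centralizer ({g} : Set G) := by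
      rw [← hS]; exact Subgroup.map_subtype_le _
    constructor
    · refine ⟨g, IsConj.refl g, ?_⟩
      rw [Subgroup.mem_centralizer_iff]
      intro x hx
      have := hPC hx
      rw [Subgroup.mem_centralizer_iff] at this
      exact (this g rfl).symm
    · intro c₁ c₂ h1 h2 hc1 hc2
      obtain ⟨a, ha⟩ := isConj_iff.mp h1
      obtain ⟨b, hb⟩ := isConj_iff.mp h2
      obtain ⟨n₁, hn₁N, hn₁⟩ := key p P hP g S hS a c₁ ha hc1
      obtain ⟨n₂, hn₂N, hn₂⟩ := key p P hP g S hS b c₂ hb hc2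
      refine ⟨n₂⁻¹ * n₁, mul_mem (inv_mem hn₂N) hn₁N, ?_⟩
      have : n₂⁻¹ * n₁ * c₁ * (n₂⁻¹ * n₁)⁻¹ = n₂⁻¹ * (n₁ * c₁ * n₁⁻¹) * n₂ := by group
      rw [this, hn₁, ← hn₂]; group
  · rintro c hc ⟨S, hS⟩
    exact part2 p P hP _ S hS

end Cfsg.Agent.S0916
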