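import Cfsg.Statements.S0928
import Cfsg.Agent.Helper22.BlkBrCongr
import Cfsg.Agent.Helper22.Brauer6

set_option autoImplicit false
open Cfsg
open Cfsg.Agent.Helper5

namespace Cfsg.Agent.S0928

/-- Let χ be an irreducible character of the finite group G and p a prime. If χ g = 0 for every element g of order p, then the exponent of p in the degree χ(1) equals the exponent of p in the order of G (χ has p-defect zero). -/
theorem result {G : Type*} [Group G] [Finite G] (p : ℕ) [Fact p.Prime] (χ : Cfsg.IrrCharacter G) (hvan : ∀ g : G, orderOf g = p → (χ : G → ℂ) g = 0) : (Cfsg.charDegree (χ : G → ℂ)).factorization p = (Nat.card G).factorization p := by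
  classical
  haveI := Fintype.ofFinite G
  have hp : p.Prime := Fact.out
  obtain ⟨M, hM⟩ := Cfsg.Agent.Helper22.exists_isPModular hp
  haveI hMp : M.IsPrime := hM.2.1.isPrime
  obtain ⟨n, hn, hnG⟩ := Cfsg.Agent.Helper24.irr_degree_dvd_card χ
  have hdeg : charDegree (χ : G → ℂ) = n := Cfsg.Agent.Helper24.charDegree_of_eq hn
  have hn0 : n ≠ 0 := by
    intro h0
    rw [h0, zero_dvd_iff] at hnG
    exact Nat.card_pos.ne' hnG
  have hle : (charDegree (χ : G → ℂ)).factorization p ≤ (Nat.card G).factorization p := by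
    rw [hdeg]
    exact (Nat.factorization_le_iff_dvd hn0 Nat.card_pos.ne').mpr hnG p
  obtain ⟨g₀, hg₀⟩ := exists_defect_class (M := M) χ
  obtain ⟨Q⟩ := (inferInstance : Nonempty (Sylow p (Subgroup.centralizer ({g₀} : Set G))))
  obtain ⟨P, hPdef⟩ : ∃ P : Subgroup G,
      P = (Q : Subgroup (Subgroup.centralizer ({g₀} : Set G))).map
        (Subgroup.centralizer ({g₀} : Set G)).subtype := ⟨_, rfl⟩
  have hP : IsDefectGroup p M (blockOf M (χ : G → ℂ)) P := ⟨g₀, hg₀, Q, hPdef⟩
  have hcard := card_defect_group hM χ P hP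
  have hPp : IsPGroup p P := by
    rw [hPdef]
    exact Q.2.map _
  by_cases hd : blockDefect p (blockOf M (χ : G → ℂ)) = 0
  · refine le_antisymm hle ?_
    have hχB : χ ∈ blockOf M (χ : G → ℂ) := sameBlock_refl _
    have h1 : sInf ((fun ψ : IrrCharacter G => (charDegree (ψ : G → ℂ)).factorization p) ''
        blockOf M (χ : G → ℂ)) ≤ (charDegree (χ : G → ℂ)).factorization p :=
      Nat.sInf_le ⟨χ, hχB, rfl⟩
    unfold blockDefect at hd
    omega
  · exfalso
    have hPnt : Nontrivial P := by
      rw [← Finite.one_lt_card_iff_nontrivial, hcard]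
      exact Nat.one_lt_pow hd hp.one_lt
    haveI := hPp.center_nontrivial
    have hZp : IsPGroup p (Subgroup.center P) := hPp.to_subgroup _
    have hdvd : p ∣ Nat.card (Subgroup.center P) := by
      rcases hZp.card_eq_or_dvd with h1 | h1
      · exact absurd h1 (Finite.one_lt_card).ne'
      · exact h1
    obtain ⟨u₀, hu₀⟩ := exists_prime_orderOf_dvd_card' p hdvd
    obtain ⟨u, hu_def⟩ : ∃ u : G, u = ((u₀ : P) : G) := ⟨_, rfl⟩
    have huP : u ∈ P := by
      rw [hu_def]
      exact (u₀ : P).2
    have huo : orderOf u = p := by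
      rw [hu_def, Subgroup.orderOf_coe, Subgroup.orderOf_coe]
      exact hu₀
    have hucomm : ∀ w ∈ P, u * w = w * u := by
      intro w hw
      have h1 := Subgroup.mem_center_iff.mp u₀.2 ⟨w, hw⟩
      have h2 := congrArg Subtype.val h1
      rw [hu_def]
      exact h2.symm
    obtain ⟨H, hHdef⟩ : ∃ H : Subgroup G, H = Subgroup.normalizer (P : Set G) := ⟨_, rfl⟩
    haveI : Fintype H := Fintype.ofFinite H
    have hPH : P ≤ H := by
      rw [hHdef]
      exact Subgroup.le_normalizer
    have hCH : Subgroup.centralizer (P : Set G) ≤ H := by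
      rw [hHdef]
      exact Subgroup.centralizer_le_normalizer (P : Set G)
    have hHN : H ≤ Subgroup.normalizer (P : Set G) := by rw [hHdef]
    obtain ⟨ξ, hbr, -, -⟩ := exists_root_block hM χ P hP H hPH hCH hHN
    -- the class function
    obtain ⟨Φ, hΦdef⟩ : ∃ Φ : G → ℂ, Φ = fun x => if x ^ p = 1 then (1 : ℂ) else 0 := ⟨_, rfl⟩
    have hΦa : ∀ x, Φ x = if x ^ p = 1 then (1 : ℂ) else 0 := fun x => by rw [hΦdef]
    have hΦ : IsClassFunction G Φ := by
      intro g h
      rw [hΦa, hΦa]
      simp only [conj_pow, conj_eq_one_iff]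
    have hΦR : ∀ g, MemLocalRing M (Φ g) := by
      intro g
      rw [hΦa]
      by_cases hS : g ^ p = 1
      · rw [if_pos hS]; exact (locRing M).one_mem
      · rw [if_neg hS]; exact (locRing M).zero_mem
    have h10 := Cfsg.Agent.Helper5.irr_one_ne_zero χ
    have hsum : ∑ g : G, Φ g * (χ : G → ℂ) g = (χ : G → ℂ) 1 := by
      rw [Finset.sum_eq_single (1 : G)]
      · rw [hΦa, one_pow, if_pos rfl, one_mul]
      · intro g _ hg1
        rw [hΦa]
        by_cases hgp : g ^ p = 1
        · rw [hvan g (orderOf_eq_prime hgp hg1), mul_zero]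
        · rw [if_neg hgp, zero_mul]
      · intro h
        exact absurd (Finset.mem_univ _) h
    have key := Cfsg.Agent.Helper22.brauer_classFun_congr P H ξ χ hbr Φ hΦ hΦR
    rw [hsum, inv_mul_cancel₀ h10] at key
    -- the sum over `H` lies in the local ideal
    have hS_mul : ∀ v ∈ P, (∀ w ∈ P, v * w = w * v) → v ^ p = 1 → ∀ y : G,
        (y ∈ Subgroup.centralizer (P : Set G) ∧ y ^ p = 1) →
        (v * y ∈ Subgroup.centralizer (P : Set G) ∧ (v * y) ^ p = 1) := by
      intro v hv hvc hvp y hy
      have hvC : v ∈ Subgroup.centralizer (P : Set G) := by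
        rw [Subgroup.mem_centralizer_iff]
        intro w hw
        exact (hvc w hw).symm
      refine ⟨Subgroup.mul_mem _ hvC hy.1, ?_⟩
      have hcomm : Commute v y := (Subgroup.mem_centralizer_iff.mp hy.1 v hv)
      rw [hcomm.mul_pow, hvp, hy.2, one_mul]
    have hup : u ^ p = 1 := by rw [← huo]; exact pow_orderOf_eq_one u
    have hΛ := Cfsg.Agent.Helper22.translate_sum_memLocalIdeal hM (⟨u, hPH huP⟩ : H)
      (by rw [← huo]; exact (Subgroup.orderOf_mk u (hPH huP)))
      (fun h : H => (h : G) ∈ Subgroup.centralizer (P : Set G) ∧ (h : G) ^ p = 1)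
      (by
        intro x t
        have hiff : ((t * x * t⁻¹ : H) : G) ∈ Subgroup.centralizer (P : Set G)
            ↔ (x : G) ∈ Subgroup.centralizer (P : Set G) :=
          conj_mem_centralizer_iff_of_normalizer P (hHN t.2)
        have hpw : ((t * x * t⁻¹ : H) : G) ^ p = 1 ↔ (x : G) ^ p = 1 := by
          show ((t : G) * (x : G) * (t : G)⁻¹) ^ p = 1 ↔ _
          rw [conj_pow, conj_eq_one_iff]
        rw [hiff, hpw])
      (by
        intro x hx
        apply Subtype.ext
        show u * (x : G) = (x : G) * u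
        exact Subgroup.mem_centralizer_iff.mp hx.1 u huP)
      (by
        intro x hx
        exact hS_mul u huP hucomm hup (x : G) hx)
      (by
        intro x hx
        refine hS_mul u⁻¹ (P.inv_mem huP) ?_ ?_ (x : G) hx
        · intro w hw
          have := hucomm w hw
          rw [inv_mul_eq_iff_eq_mul, ← mul_assoc, this, mul_assoc, mul_inv_cancel, mul_one]
        · rw [inv_pow, hup, inv_one])
      ξ
    have e : ∀ h : H, (if (h : G) ∈ Subgroup.centralizer (P : Set G) then Φ (h : G) else 0)
        = if ((h : G) ∈ Subgroup.centralizer (P : Set G) ∧ (h : G) ^ p = 1) then (1 : ℂ) else 0 := by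
      intro h
      rw [hΦa]
      by_cases h1 : (h : G) ∈ Subgroup.centralizer (P : Set G) <;>
        by_cases h2 : (h : G) ^ p = 1 <;> simp [h1, h2]
    rw [Finset.sum_congr rfl fun h _ => by rw [e h]] at key
    have h1 := memLocalIdeal_sub hΛ key
    rw [sub_sub_cancel] at h1
    exact not_memLocalIdeal_one h1

end Cfsg.Agent.S0928
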