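import Cfsg.Statements.S0935
import Cfsg.Agent.Helper22.BlkHtZero

set_option autoImplicit false
open Cfsg
open Cfsg.Agent.Helper5 Cfsg.Agent.Helper24 Cfsg.Agent.Helper22

namespace Cfsg.Agent.S0935

/-- Let H be a subgroup of the finite group G and χ an irreducible character of G whose restriction to H is irreducible; fix a maximal ideal M of the algebraic integers containing the prime p and suppose χ and its restriction have height zero in their blocks B and b. If e is a block of H whose induced block is defined, then e induces B if and only if e = b. -/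
theorem result {G : Type*} [Group G] [Finite G] (p : ℕ) [Fact p.Prime] (M : Ideal Cfsg.AlgInt) (hM : Cfsg.IsPModular p M) (H : Subgroup G) (χ : Cfsg.IrrCharacter G) (hres : Cfsg.IsIrrCharacter H (fun h : H => (χ : G → ℂ) h)) (hχ0 : Cfsg.blockHeight p (Cfsg.blockOf M (χ : G → ℂ)) (χ : G → ℂ) = 0) (hψ0 : Cfsg.blockHeight p (Cfsg.blockOf M (fun h : H => (χ : G → ℂ) h)) (fun h : H => (χ : G → ℂ) h) = 0) (e : Set (Cfsg.IrrCharacter H)) (he : Cfsg.InducedBlockDefined M H e) : Cfsg.IsInducedBlock M H e (Cfsg.blockOf M (χ : G → ℂ)) ↔ e = Cfsg.blockOf M (fun h : H => (χ : G → ℂ) h) := by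
  classical
  haveI := Fintype.ofFinite G
  haveI : Fintype H := Fintype.ofFinite H
  haveI hMp : M.IsPrime := hM.2.1.isPrime
  obtain ⟨ψ₀, hψ₀⟩ : ∃ ψ₀ : IrrCharacter H, (ψ₀ : H → ℂ) = fun h : H => (χ : G → ℂ) h :=
    ⟨⟨_, hres⟩, rfl⟩
  rw [← hψ₀] at hψ0 ⊢
  have hu : ¬ MemLocalIdeal M (tildeC p (χ : G → ℂ) χ) :=
    unit_of_height_zero hM χ χ (sameBlock_refl _) hχ0
  have huH : ¬ MemLocalIdeal M (tildeC p (ψ₀ : H → ℂ) ψ₀) :=
    unit_of_height_zero hM ψ₀ ψ₀ (sameBlock_refl _) hψ0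
  constructor
  · rintro ⟨⟨ξ₀, rfl⟩, -, hcong⟩
    have key := tildeC_induced_congr (p := p) H ξ₀ χ
      (hcong ξ₀ (sameBlock_refl _) χ (sameBlock_refl _)) χ
    rw [← hψ₀] at key
    have h1 : ¬ MemLocalIdeal M (tildeC p (ψ₀ : H → ℂ) ξ₀) := by
      intro h
      apply hu
      have h2 := memLocalIdeal_sub h key
      rwa [sub_sub_cancel] at h2
    have h2 : SameBlock M (ψ₀ : H → ℂ) (ξ₀ : H → ℂ) := by
      by_contra hns
      apply h1
      rw [tildeC_eq_zero hM ψ₀ ξ₀ hns]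
      exact memLocalIdeal_zero hMp.ne_top
    exact (blockOf_eq_of_sameBlock h2).symm
  · intro he2
    obtain ⟨B', hb', ⟨χ₀', rfl⟩, hcong⟩ := he
    have hψmem : ψ₀ ∈ e := by rw [he2]; exact sameBlock_refl _
    have key := tildeC_induced_congr (p := p) H ψ₀ χ₀'
      (hcong ψ₀ hψmem χ₀' (sameBlock_refl _)) χ
    rw [← hψ₀] at key
    have h1 : ¬ MemLocalIdeal M (tildeC p (χ : G → ℂ) χ₀') := by
      intro h
      apply huH
      have h2 := memLocalIdeal_add hMp key h
      rwa [sub_add_cancel] at h2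
    have h2 : SameBlock M (χ : G → ℂ) (χ₀' : G → ℂ) := by
      by_contra hns
      apply h1
      rw [tildeC_eq_zero hM χ χ₀' hns]
      exact memLocalIdeal_zero hMp.ne_top
    rw [blockOf_eq_of_sameBlock h2]
    exact ⟨hb', ⟨χ₀', rfl⟩, hcong⟩

end Cfsg.Agent.S0935
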