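import Cfsg.Statements.S0937
import Cfsg.Agent.Helper22.BlkHtZero

set_option autoImplicit false
open Cfsg
open Cfsg.Agent.Helper5 Cfsg.Agent.Helper24 Cfsg.Agent.Helper22

namespace Cfsg.Agent.S0937

/-- Let H be a subgroup of the finite group G and fix a maximal ideal M of the algebraic integers containing the prime p. If the block b of H induces the block B of G and χ ∈ B has height zero, then there is ξ ∈ b of height zero whose multiplicity in the restriction of χ to H is a natural number not divisible by p. -/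
theorem result {G : Type*} [Group G] [Fintype G] (p : ℕ) [Fact p.Prime] (M : Ideal Cfsg.AlgInt) (hM : Cfsg.IsPModular p M) (H : Subgroup G) [Fintype H] (b : Set (Cfsg.IrrCharacter H)) (B : Set (Cfsg.IrrCharacter G)) (hind : Cfsg.IsInducedBlock M H b B) (χ : Cfsg.IrrCharacter G) (hχ : χ ∈ B) (h0 : Cfsg.blockHeight p B (χ : G → ℂ) = 0) : ∃ ξ ∈ b, Cfsg.blockHeight p b (ξ : H → ℂ) = 0 ∧ ∃ n : ℕ, Cfsg.classInner (fun h : H => (χ : G → ℂ) h) (ξ : H → ℂ) = (n : ℂ) ∧ ¬ p ∣ n := by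
  classical
  haveI hMp : M.IsPrime := hM.2.1.isPrime
  have hp : p.Prime := Fact.out
  obtain ⟨⟨ξ₀, rfl⟩, ⟨χ₀, rfl⟩, hcong⟩ := hind
  have hne : ((fun ψ : IrrCharacter H => (charDegree (ψ : H → ℂ)).factorization p) ''
      blockOf M (ξ₀ : H → ℂ)).Nonempty := ⟨_, ⟨ξ₀, sameBlock_refl _, rfl⟩⟩
  obtain ⟨ψ, hψ, hψs⟩ := Nat.sInf_mem hne
  have hψ' : SameBlock M (ξ₀ : H → ℂ) (ψ : H → ℂ) := hψ
  have hu : ¬ MemLocalIdeal M (tildeC p (χ : G → ℂ) χ) := unit_of_height_zero hM χ₀ χ hχ h0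
  have key := tildeC_induced_congr (p := p) H ψ χ (hcong ψ hψ χ hχ) χ
  have hH : ¬ MemLocalIdeal M (tildeC p (fun h : H => (χ : G → ℂ) h) ψ) := by
    intro h
    apply hu
    have h2 := memLocalIdeal_sub h key
    rwa [sub_sub_cancel] at h2
  obtain ⟨c, hc1, hc2⟩ := isCharacter_decomp
    (isCharacter_restrict H (isCharacter_of_isIrrCharacter χ.2))
  have hlin : tildeC p (fun h : H => (χ : G → ℂ) h) ψ =
      ∑ ξ : IrrCharacter H, (c ξ : ℂ) * tildeC p (ξ : H → ℂ) ψ :=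
    (congrArg (fun f => tildeC p f ψ) hc2).trans
      (tildeC_sum_smul p Finset.univ (fun ξ : IrrCharacter H => (c ξ : ℂ))
        (fun ξ : IrrCharacter H => (ξ : H → ℂ)) ψ)
  have hex : ∃ ξ : IrrCharacter H, SameBlock M (ξ₀ : H → ℂ) (ξ : H → ℂ) ∧
      blockHeight p (blockOf M (ξ₀ : H → ℂ)) (ξ : H → ℂ) = 0 ∧ ¬ p ∣ c ξ := by
    by_contra hcon
    apply hH
    rw [hlin]
    refine memLocalIdeal_sum _ _ fun ξ _ => ?_
    by_cases hξ : SameBlock M (ξ₀ : H → ℂ) (ξ : H → ℂ)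
    · by_cases hht : blockHeight p (blockOf M (ξ₀ : H → ℂ)) (ξ : H → ℂ) = 0
      · have hpc : p ∣ c ξ := by
          by_contra hnd
          exact hcon ⟨ξ, hξ, hht, hnd⟩
        obtain ⟨k, hk⟩ := hpc
        have h1 : MemLocalIdeal M ((c ξ : ℂ)) := by
          rw [hk, Nat.cast_mul, mul_comm]
          exact memLocalIdeal_mul_left (natCast_memLocalRing k) (prime_memLocalIdeal hM)
        rw [mul_comm (c ξ : ℂ) _]
        exact memLocalIdeal_mul_left (tildeC_mem ξ ψ) h1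
      · have h1 : MemLocalIdeal M (tildeC p (ξ : H → ℂ) ξ) := by
          by_contra hnu
          exact hht (height_zero_of_unit hM ξ₀ ξ hξ hnu)
        have hcg := tildeC_congr (p := p) ξ (sameBlock_trans' (sameBlock_symm hξ) hψ')
        have h2 : MemLocalIdeal M (tildeC p (ξ : H → ℂ) ψ) := by
          have h3 := memLocalIdeal_sub h1 hcg
          rwa [sub_sub_cancel] at h3
        exact memLocalIdeal_mul_left (natCast_memLocalRing (c ξ)) h2
    · have hns : ¬ SameBlock M (ξ : H → ℂ) (ψ : H → ℂ) :=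
        fun h => hξ (sameBlock_trans' hψ' (sameBlock_symm h))
      rw [tildeC_eq_zero hM ξ ψ hns, mul_zero]
      exact memLocalIdeal_zero hMp.ne_top
  obtain ⟨ξ, hξ, hht, hnd⟩ := hex
  exact ⟨ξ, hξ, hht, c ξ, hc1 ξ, hnd⟩

end Cfsg.Agent.S0937
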