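import Mathlib
import Cfsg.Statements.S0943
import Cfsg.Agent.Helper5.CentralChar

set_option autoImplicit false
open Cfsg

namespace Cfsg.Agent.S0943

/-- Let χ be an irreducible character of the finite group G and u, v ∈ G. If χ (x * y) = χ (u * v) whenever x is conjugate to u and y is conjugate to v, then χ u * χ v = χ 1 * χ (u * v). (Multiply the class sums of u and v and apply the central character of χ.) -/
theorem result {G : Type*} [Group G] [Finite G] (χ : Cfsg.IrrCharacter G) (u v : G) (hc : ∀ x y : G, IsConj u x → IsConj v y → (χ : G → ℂ) (x * y) = (χ : G → ℂ) (u * v)) : (χ : G → ℂ) u * (χ : G → ℂ) v = (χ : G → ℂ) 1 * (χ : G → ℂ) (u * v) := by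
  classical
  haveI := Fintype.ofFinite G
  have h := Cfsg.Agent.Helper5.sum_class_mul χ u v
  have h1 : ∑ x ∈ Finset.univ.filter (fun x : G => IsConj u x),
      ∑ y ∈ Finset.univ.filter (fun y : G => IsConj v y), (χ : G → ℂ) (x * y)
      = ((Finset.univ.filter (fun x : G => IsConj u x)).card : ℂ)
        * ((Finset.univ.filter (fun y : G => IsConj v y)).card : ℂ) * (χ : G → ℂ) (u * v) := by
    rw [Finset.sum_congr rfl (fun x hx => Finset.sum_congr rfl (fun y hy =>
      hc x y (Finset.mem_filter.mp hx).2 (Finset.mem_filter.mp hy).2))]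
    simp only [Finset.sum_const, nsmul_eq_mul]
    ring
  rw [h1] at h
  have hA : ((Finset.univ.filter (fun x : G => IsConj u x)).card : ℂ) ≠ 0 := by
    have : u ∈ Finset.univ.filter (fun x : G => IsConj u x) := by
      simp only [Finset.mem_filter, Finset.mem_univ, true_and]; exact IsConj.refl u
    exact Nat.cast_ne_zero.mpr (Finset.card_pos.mpr ⟨u, this⟩).ne'
  have hB : ((Finset.univ.filter (fun y : G => IsConj v y)).card : ℂ) ≠ 0 := by
    have : v ∈ Finset.univ.filter (fun y : G => IsConj v y) := by
      simp only [Finset.mem_filter, Finset.mem_univ, true_and]; exact IsConj.refl v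
    exact Nat.cast_ne_zero.mpr (Finset.card_pos.mpr ⟨v, this⟩).ne'
  have h0 := Cfsg.Agent.Helper5.irr_one_ne_zero χ
  have hAB := mul_ne_zero hA hB
  have h3 : (χ : G → ℂ) (u * v) = (χ : G → ℂ) u * (χ : G → ℂ) v / (χ : G → ℂ) 1 := by
    apply mul_left_cancel₀ hAB
    rw [h]
    ring
  rw [h3]
  field_simp

end Cfsg.Agent.S0943
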