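import Mathlib
import Cfsg.Statements.S0945

set_option autoImplicit false
open Cfsg

namespace Cfsg.Agent.S0945

theorem pigeon4 {α : Type*} [Finite α] (h : Nat.card α ≤ 3) (a b c d : α) :
    a = b ∨ a = c ∨ a = d ∨ b = c ∨ b = d ∨ c = d := by
  by_contra hne
  push Not at hne
  obtain ⟨h1, h2, h3, h4, h5, h6⟩ := hne
  have hinj : Function.Injective (![a, b, c, d] : Fin 4 → α) := by
    intro i j hij
    fin_cases i <;> fin_cases j <;> simp_all
  have := Nat.card_le_card_of_injective _ hinj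
  simp at this
  omega

theorem zmod_two_tors (m : ℕ) (hm : 1 ≤ m) (a : ZMod (2 ^ m)) (h : a + a = 0) (ha : a ≠ 0) :
    a.val = 2 ^ (m - 1) := by
  haveI : NeZero (2 ^ m) := ⟨by positivity⟩
  have h1 : ((a.val + a.val : ℕ) : ZMod (2 ^ m)) = 0 := by
    rw [Nat.cast_add, ZMod.natCast_zmod_val]; exact h
  have h2 : 2 ^ m ∣ a.val + a.val := (ZMod.natCast_eq_zero_iff _ _).1 h1
  have h3 : a.val < 2 ^ m := ZMod.val_lt a
  have h4 : a.val ≠ 0 := fun h0 => ha ((ZMod.val_eq_zero a).1 h0)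
  obtain ⟨m', rfl⟩ : ∃ m', m = m' + 1 := ⟨m - 1, by omega⟩
  obtain ⟨c, hc⟩ := h2
  have hpos : 0 < 2 ^ (m' + 1) := by positivity
  have hc1 : c = 1 := by
    rcases Nat.lt_trichotomy c 1 with hlt | heq | hgt
    · have : c = 0 := by omega
      rw [this, mul_zero] at hc; omega
    · exact heq
    · exfalso
      have : 2 ^ (m' + 1) * 2 ≤ 2 ^ (m' + 1) * c := Nat.mul_le_mul_left _ hgt
      omega
  subst hc1
  rw [mul_one] at hc
  have hp : 2 ^ (m' + 1) = 2 * 2 ^ m' := pow_succ' 2 m'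
  rw [Nat.add_sub_cancel]
  omega

theorem card_two_tors (m : ℕ) (hm : 1 ≤ m) :
    Nat.card {a : ZMod (2 ^ m) // a + a = 0} ≤ 2 := by
  classical
  haveI : NeZero (2 ^ m) := ⟨by positivity⟩
  have hinj : Function.Injective
      (fun a : {a : ZMod (2 ^ m) // a + a = 0} => if a.1 = 0 then (0 : Fin 2) else 1) := by
    intro a b hab
    dsimp only at hab
    by_cases ha : a.1 = 0 <;> by_cases hb : b.1 = 0
    · exact Subtype.ext (ha.trans hb.symm)
    · simp [ha, hb] at hab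
    · simp [ha, hb] at hab
    · exact Subtype.ext (ZMod.val_injective _
        ((zmod_two_tors m hm a.1 a.2 ha).trans (zmod_two_tors m hm b.1 b.2 hb).symm))
  have := Nat.card_le_card_of_injective _ hinj
  simpa using this

theorem card_invol {G : Type*} [Group G] [Finite G] (P : Subgroup G) (m : ℕ) (hm : 1 ≤ m)
    (e : P ≃* Multiplicative (ZMod (2 ^ m) × ZMod (2 ^ m))) :
    Nat.card {x : G // x ∈ P ∧ x ≠ 1 ∧ x * x = 1} ≤ 3 := by
  classical
  haveI : NeZero (2 ^ m) := ⟨by positivity⟩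
  set F : ↥P → ZMod (2 ^ m) × ZMod (2 ^ m) := fun x => Multiplicative.toAdd (e x) with hF
  have hFinj : Function.Injective F :=
    fun x y h => e.injective (Multiplicative.toAdd.injective h)
  have hF1 : F 1 = 0 := by simp [hF]
  have hFm : ∀ x y, F (x * y) = F x + F y := fun x y => by simp [hF]
  have hFF : ∀ x : G, ∀ hx : x ∈ P, x * x = 1 → F ⟨x, hx⟩ + F ⟨x, hx⟩ = 0 := by
    intro x hx hxx
    have h1 : (⟨x, hx⟩ : P) * ⟨x, hx⟩ = 1 := Subtype.ext hxx
    rw [← hFm, h1, hF1]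
  let f : Option {x : G // x ∈ P ∧ x ≠ 1 ∧ x * x = 1} →
      {a : ZMod (2 ^ m) // a + a = 0} × {a : ZMod (2 ^ m) // a + a = 0} :=
    fun o => match o with
      | none => (⟨0, add_zero 0⟩, ⟨0, add_zero 0⟩)
      | some t => (⟨(F ⟨t.1, t.2.1⟩).1, congrArg Prod.fst (hFF t.1 t.2.1 t.2.2.2)⟩,
          ⟨(F ⟨t.1, t.2.1⟩).2, congrArg Prod.snd (hFF t.1 t.2.1 t.2.2.2)⟩)
  have hf : Function.Injective f := by
    intro a b hab
    rcases a with _ | t <;> rcases b with _ | u
    · rfl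
    · exfalso
      have h1 : F ⟨u.1, u.2.1⟩ = 0 := by
        have ha := congrArg (fun p => ((p.1.1, p.2.1) : ZMod (2 ^ m) × ZMod (2 ^ m))) hab
        exact ha.symm
      exact u.2.2.1 (congrArg Subtype.val (hFinj (h1.trans hF1.symm)))
    · exfalso
      have h1 : F ⟨t.1, t.2.1⟩ = 0 := by
        have ha := congrArg (fun p => ((p.1.1, p.2.1) : ZMod (2 ^ m) × ZMod (2 ^ m))) hab
        exact ha
      exact t.2.2.1 (congrArg Subtype.val (hFinj (h1.trans hF1.symm)))
    · have h1 : F ⟨t.1, t.2.1⟩ = F ⟨u.1, u.2.1⟩ := by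
        have ha := congrArg (fun p => ((p.1.1, p.2.1) : ZMod (2 ^ m) × ZMod (2 ^ m))) hab
        exact ha
      have h2 := congrArg Subtype.val (hFinj h1)
      exact congrArg some (Subtype.ext h2)
  have h1 := Nat.card_le_card_of_injective f hf
  rw [Finite.card_option, Nat.card_prod] at h1
  have h2 := card_two_tors m hm
  nlinarith

theorem comm_of_iso {G : Type*} [Group G] (P : Subgroup G) (m : ℕ)
    (e : P ≃* Multiplicative (ZMod (2 ^ m) × ZMod (2 ^ m))) :
    ∀ x ∈ P, ∀ y ∈ P, x * y = y * x := by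
  intro x hx y hy
  have h : (⟨x, hx⟩ : P) * ⟨y, hy⟩ = ⟨y, hy⟩ * ⟨x, hx⟩ :=
    e.injective (by rw [map_mul, map_mul, mul_comm])
  exact congrArg Subtype.val h

theorem conj_invol {G : Type*} [Group G] (g x : G) (hx : x ≠ 1 ∧ x * x = 1) :
    g * x * g⁻¹ ≠ 1 ∧ (g * x * g⁻¹) * (g * x * g⁻¹) = 1 := by
  refine ⟨?_, ?_⟩
  · intro h
    apply hx.1
    have : x = g⁻¹ * (g * x * g⁻¹) * g := by group
    rw [this, h]; group
  · have : (g * x * g⁻¹) * (g * x * g⁻¹) = g * (x * x) * g⁻¹ := by group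
    rw [this, hx.2]; group

theorem comm_of_sq_cube {G : Type*} [Group G] (g u : G) (h2 : g * g * u = u * (g * g))
    (h3 : g ^ 3 * u = u * g ^ 3) : g * u = u * g := by
  have c3 : Commute (g ^ 3 * (g * g)⁻¹) u :=
    Commute.mul_left (show Commute (g ^ 3) u from h3) (show Commute (g * g) u from h2).inv_left
  have : g ^ 3 * (g * g)⁻¹ = g := by rw [pow_succ', pow_two, mul_inv_cancel_right]
  rw [this] at c3; exact c3

section

set_option linter.unusedSectionVars false

variable {G : Type*} [Group G] [Finite G]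

/-- The involutions of `P`. -/
abbrev Inv (P : Subgroup G) : Type _ := {x : G // x ∈ P ∧ x ≠ 1 ∧ x * x = 1}

theorem conj_inv (P : Subgroup G) (g : G) (hg : g ∈ Subgroup.normalizer (P : Set G)) (x : G)
    (hx : x ∈ P ∧ x ≠ 1 ∧ x * x = 1) :
    g * x * g⁻¹ ∈ P ∧ g * x * g⁻¹ ≠ 1 ∧ (g * x * g⁻¹) * (g * x * g⁻¹) = 1 :=
  ⟨((Subgroup.mem_normalizer_iff).1 hg x).1 hx.1, conj_invol g x hx.2⟩

theorem two_elem_mem (P : Sylow 2 G) (y : G) (hy : y ∈ Subgroup.normalizer (P : Set G)) (a : ℕ)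
    (hya : y ^ 2 ^ a = 1) : y ∈ (P : Subgroup G) := by
  have hz : IsPGroup 2 (Subgroup.zpowers y) := by
    intro w
    refine ⟨a, Subtype.ext ?_⟩
    obtain ⟨n, hn⟩ := w.2
    show (w : G) ^ 2 ^ a = 1
    rw [← hn]
    dsimp only
    rw [← zpow_natCast, ← zpow_mul, mul_comm, zpow_mul, zpow_natCast, hya, one_zpow]
  have hle : Subgroup.zpowers y ≤ Subgroup.normalizer ((P : Subgroup G) : Set G) := by
    rw [Subgroup.zpowers_le]; exact hy
  have hsup := IsPGroup.to_sup_of_normal_right' hz P.isPGroup' hle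
  have heq := P.3 hsup le_sup_right
  have hmem : y ∈ Subgroup.zpowers y ⊔ (P : Subgroup G) :=
    Subgroup.mem_sup_left (Subgroup.mem_zpowers y)
  rw [heq] at hmem; exact hmem

theorem commute_of_fix (P : Sylow 2 G)
    (hcomm : ∀ x ∈ (P : Subgroup G), ∀ y ∈ (P : Subgroup G), x * y = y * x) (g : G)
    (hg : g ∈ Subgroup.normalizer (P : Set G))
    (hfix : ∀ x ∈ (P : Subgroup G), x * x = 1 → g * x = x * g) (k : ℕ) (hk : Odd k)
    (hgk : ∀ x ∈ (P : Subgroup G), g ^ k * x = x * g ^ k) :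
    ∀ x ∈ (P : Subgroup G), g * x = x * g := by
  have key : ∀ j : ℕ, ∀ x ∈ (P : Subgroup G), x ^ 2 ^ j = 1 → g * x = x * g := by
    intro j
    induction j with
    | zero => intro x _ hx; rw [pow_zero, pow_one] at hx; rw [hx, mul_one, one_mul]
    | succ j ih =>
      intro x hx hxj
      have hx2 : g * (x * x) = (x * x) * g := by
        apply ih (x * x) (mul_mem hx hx)
        rw [← pow_two, ← pow_mul, ← pow_succ']; exact hxj
      have hgx : g * x * g⁻¹ ∈ (P : Subgroup G) := ((Subgroup.mem_normalizer_iff).1 hg x).1 hx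
      have hwP : g * x * g⁻¹ * x⁻¹ ∈ (P : Subgroup G) := mul_mem hgx (inv_mem hx)
      have hww : (g * x * g⁻¹ * x⁻¹) * (g * x * g⁻¹ * x⁻¹) = 1 := by
        have h1 : x⁻¹ * (g * x * g⁻¹) = (g * x * g⁻¹) * x⁻¹ := hcomm _ (inv_mem hx) _ hgx
        calc (g * x * g⁻¹ * x⁻¹) * (g * x * g⁻¹ * x⁻¹)
            = (g * x * g⁻¹) * (x⁻¹ * (g * x * g⁻¹)) * x⁻¹ := by group
          _ = (g * x * g⁻¹) * ((g * x * g⁻¹) * x⁻¹) * x⁻¹ := by rw [h1]
          _ = (g * (x * x)) * g⁻¹ * x⁻¹ * x⁻¹ := by group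
          _ = ((x * x) * g) * g⁻¹ * x⁻¹ * x⁻¹ := by rw [hx2]
          _ = 1 := by group
      have hgw : g * (g * x * g⁻¹ * x⁻¹) = (g * x * g⁻¹ * x⁻¹) * g := hfix _ hwP hww
      have hgx' : g * x = (g * x * g⁻¹ * x⁻¹) * x * g := by group
      have hg2 : (g ^ 2) * x = x * g ^ 2 := by
        calc g ^ 2 * x = g * (g * x) := by rw [pow_two, mul_assoc]
          _ = g * ((g * x * g⁻¹ * x⁻¹) * x * g) := by rw [← hgx']
          _ = (g * (g * x * g⁻¹ * x⁻¹)) * x * g := by group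
          _ = ((g * x * g⁻¹ * x⁻¹) * g) * x * g := by rw [hgw]
          _ = (g * x * g⁻¹ * x⁻¹) * (g * x) * g := by group
          _ = (g * x * g⁻¹ * x⁻¹) * ((g * x * g⁻¹ * x⁻¹) * x * g) * g := by rw [← hgx']
          _ = ((g * x * g⁻¹ * x⁻¹) * (g * x * g⁻¹ * x⁻¹)) * x * g * g := by group
          _ = x * g ^ 2 := by rw [hww, one_mul, pow_two, mul_assoc]
      obtain ⟨i, hi⟩ := hk
      have c1 : Commute (g ^ 2) x := hg2
      have c2 : Commute (g ^ k) x := hgk x hx
      have c3 : Commute ((g ^ k)⁻¹ * (g ^ 2) ^ (i + 1)) x :=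
        (c2.inv_left).mul_left (c1.pow_left _)
      have h4 : (g ^ k)⁻¹ * (g ^ 2) ^ (i + 1) = g := by
        rw [← pow_mul, show 2 * (i + 1) = k + 1 by omega, pow_succ, inv_mul_cancel_left]
      rw [h4] at c3
      exact c3
  intro x hx
  obtain ⟨j, hj⟩ := P.isPGroup' ⟨x, hx⟩
  exact key j x hx (by have := congrArg Subtype.val hj; simpa using this)

theorem mem_cent_of_fix (P : Sylow 2 G)
    (hcomm : ∀ x ∈ (P : Subgroup G), ∀ y ∈ (P : Subgroup G), x * y = y * x) (g : G)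
    (hg : g ∈ Subgroup.normalizer (P : Set G))
    (hfix : ∀ x ∈ (P : Subgroup G), x * x = 1 → g * x = x * g) :
    g ∈ Subgroup.centralizer (P : Set G) := by
  obtain ⟨a, k, hk, hgk⟩ := Nat.exists_eq_two_pow_mul_odd (orderOf_pos g).ne'
  have h1 : (g ^ k) ^ 2 ^ a = 1 := by
    rw [← pow_mul, mul_comm, ← hgk, pow_orderOf_eq_one]
  have h2 : g ^ k ∈ (P : Subgroup G) := two_elem_mem P (g ^ k) (pow_mem hg k) a h1
  have h3 := commute_of_fix P hcomm g hg hfix k hk (fun x hx => hcomm _ h2 _ hx)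
  rw [Subgroup.mem_centralizer_iff]
  intro x hx
  exact (h3 x hx).symm

/-- Conjugation action of the normalizer on the involutions. -/
noncomputable def phi (P : Subgroup G) :
    ↥(Subgroup.normalizer (P : Set G)) →* Equiv.Perm (Inv P) where
  toFun g :=
    { toFun := fun x => ⟨(g : G) * x.1 * (g : G)⁻¹, conj_inv P g g.2 x.1 x.2⟩
      invFun := fun x => ⟨(g : G)⁻¹ * x.1 * (g : G), by
        have := conj_inv P (g : G)⁻¹ (inv_mem g.2) x.1 x.2
        simpa using this⟩
      left_inv := fun x => Subtype.ext (by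
        show (g : G)⁻¹ * ((g : G) * x.1 * (g : G)⁻¹) * (g : G) = x.1
        group)
      right_inv := fun x => Subtype.ext (by
        show (g : G) * ((g : G)⁻¹ * x.1 * (g : G)) * (g : G)⁻¹ = x.1
        group) }
  map_one' := by
    apply Equiv.ext; intro x; apply Subtype.ext
    show ((1 : ↥(Subgroup.normalizer (P : Set G))) : G) * x.1 *
      ((1 : ↥(Subgroup.normalizer (P : Set G))) : G)⁻¹ = x.1
    simp
  map_mul' := by
    intro g h
    apply Equiv.ext; intro x; apply Subtype.ext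
    show ((g * h : ↥(Subgroup.normalizer (P : Set G))) : G) * x.1 *
      ((g * h : ↥(Subgroup.normalizer (P : Set G))) : G)⁻¹ =
        (g : G) * ((h : G) * x.1 * (h : G)⁻¹) * (g : G)⁻¹
    rw [Subgroup.coe_mul]; group

theorem ker_phi (P : Sylow 2 G)
    (hcomm : ∀ x ∈ (P : Subgroup G), ∀ y ∈ (P : Subgroup G), x * y = y * x) :
    (phi (P : Subgroup G)).ker =
      (Subgroup.centralizer (P : Set G)).subgroupOf (Subgroup.normalizer (P : Set G)) := by
  ext g
  rw [MonoidHom.mem_ker, Subgroup.mem_subgroupOf]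
  constructor
  · intro h
    apply mem_cent_of_fix P hcomm g g.2
    intro x hx hxx
    by_cases hx1 : x = 1
    · rw [hx1, mul_one, one_mul]
    · have h2 : (g : G) * x * (g : G)⁻¹ = x :=
        congrArg (fun σ : Equiv.Perm (Inv (P : Subgroup G)) => (σ ⟨x, hx, hx1, hxx⟩ : G)) h
      calc (g : G) * x = ((g : G) * x * (g : G)⁻¹) * g := by group
        _ = x * g := by rw [h2]
  · intro h
    apply Equiv.ext; intro x; apply Subtype.ext
    show (g : G) * x.1 * (g : G)⁻¹ = x.1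
    rw [Subgroup.mem_centralizer_iff] at h
    rw [← h x.1 x.2.1]; group

theorem relIndex_cases (P : Sylow 2 G)
    (hcomm : ∀ x ∈ (P : Subgroup G), ∀ y ∈ (P : Subgroup G), x * y = y * x)
    (hT : Nat.card (Inv (P : Subgroup G)) ≤ 3) :
    (Subgroup.centralizer (P : Set G)).relIndex (Subgroup.normalizer (P : Set G)) = 1 ∨
      (Subgroup.centralizer (P : Set G)).relIndex (Subgroup.normalizer (P : Set G)) = 3 := by
  have h1 : (Subgroup.centralizer (P : Set G)).relIndex (Subgroup.normalizer (P : Set G)) ∣ 6 := by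
    rw [Subgroup.relIndex, ← ker_phi P hcomm, Subgroup.index_ker]
    have h := Subgroup.card_subgroup_dvd_card (phi (P : Subgroup G)).range
    rw [Nat.card_perm] at h
    refine h.trans ?_
    have h' : (Nat.card (Inv (P : Subgroup G))).factorial ∣ (3).factorial :=
      Nat.factorial_dvd_factorial hT
    exact h'
  have h2 : ¬ 2 ∣ (Subgroup.centralizer (P : Set G)).relIndex
      (Subgroup.normalizer (P : Set G)) := by
    intro h
    have hPC : (P : Subgroup G) ≤ Subgroup.centralizer (P : Set G) := fun x hx => by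
      rw [Subgroup.mem_centralizer_iff]; intro y hy; exact hcomm y hy x hx
    have hPN : (P : Subgroup G) ≤ Subgroup.normalizer (P : Set G) := Subgroup.le_normalizer
    have d1 := Subgroup.relIndex_dvd_of_le_left (Subgroup.normalizer (P : Set G)) hPC
    have d2 : (P : Subgroup G).relIndex (Subgroup.normalizer (P : Set G)) ∣
        (P : Subgroup G).index := ⟨_, (Subgroup.relIndex_mul_index hPN).symm⟩
    exact P.not_dvd_index (h.trans (d1.trans d2))
  have h3 := Nat.le_of_dvd (by norm_num) h1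
  generalize (Subgroup.centralizer (P : Set G)).relIndex (Subgroup.normalizer (P : Set G)) = d at *
  interval_cases d <;> simp_all

theorem pow3_mem (P : Sylow 2 G)
    (hcomm : ∀ x ∈ (P : Subgroup G), ∀ y ∈ (P : Subgroup G), x * y = y * x)
    (h3 : (Subgroup.centralizer (P : Set G)).relIndex (Subgroup.normalizer (P : Set G)) = 3)
    (g : G) (hg : g ∈ Subgroup.normalizer (P : Set G)) :
    g ^ 3 ∈ Subgroup.centralizer (P : Set G) := by
  have hn : ((phi (P : Subgroup G)).ker).index = 3 := by rw [ker_phi P hcomm]; exact h3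
  have h := Subgroup.pow_index_mem (phi (P : Subgroup G)).ker
    (⟨g, hg⟩ : ↥(Subgroup.normalizer (P : Set G)))
  rw [hn, ker_phi P hcomm, Subgroup.mem_subgroupOf] at h
  exact h

theorem no_fix (P : Sylow 2 G)
    (hcomm : ∀ x ∈ (P : Subgroup G), ∀ y ∈ (P : Subgroup G), x * y = y * x)
    (hT : Nat.card (Inv (P : Subgroup G)) ≤ 3)
    (h3 : (Subgroup.centralizer (P : Set G)).relIndex (Subgroup.normalizer (P : Set G)) = 3)
    (g : G) (hg : g ∈ Subgroup.normalizer (P : Set G))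
    (hgC : g ∉ Subgroup.centralizer (P : Set G)) (t : G) (ht : t ∈ (P : Subgroup G))
    (ht1 : t ≠ 1) (htt : t * t = 1) : g * t ≠ t * g := by
  intro hfix
  have hex : ∃ u ∈ (P : Subgroup G), u * u = 1 ∧ g * u ≠ u * g := by
    by_contra hne
    push Not at hne
    exact hgC (mem_cent_of_fix P hcomm g hg hne)
  obtain ⟨u, hu, huu, hgu⟩ := hex
  have hu1 : u ≠ 1 := by rintro rfl; exact hgu (by rw [mul_one, one_mul])
  have hg3 := pow3_mem P hcomm h3 g hg
  rw [Subgroup.mem_centralizer_iff] at hg3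
  have hg3u : g ^ 3 * u = u * g ^ 3 := (hg3 u hu).symm
  have c1 := conj_inv (P : Subgroup G) g hg u ⟨hu, hu1, huu⟩
  have c2 := conj_inv (P : Subgroup G) g hg _ c1
  have hconj : g⁻¹ * t * g = t := by
    calc g⁻¹ * t * g = g⁻¹ * (t * g) := by group
      _ = g⁻¹ * (g * t) := by rw [hfix]
      _ = t := by group
  have hpg := pigeon4 hT (⟨t, ht, ht1, htt⟩ : Inv (P : Subgroup G)) ⟨u, hu, hu1, huu⟩
    ⟨_, c1⟩ ⟨_, c2⟩
  simp only [Subtype.mk.injEq] at hpg
  rcases hpg with h | h | h | h | h | h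
  · exact hgu (h ▸ hfix)
  · apply hgu
    have hut : u = t := by
      calc u = g⁻¹ * (g * u * g⁻¹) * g := by group
        _ = g⁻¹ * t * g := by rw [← h]
        _ = t := hconj
    rw [hut]; exact hfix
  · apply hgu
    have hut : u = t := by
      calc u = g⁻¹ * (g⁻¹ * (g * (g * u * g⁻¹) * g⁻¹) * g) * g := by group
        _ = g⁻¹ * (g⁻¹ * t * g) * g := by rw [← h]
        _ = t := by rw [hconj, hconj]
    rw [hut]; exact hfix
  · apply hgu
    calc g * u = (g * u * g⁻¹) * g := by group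
      _ = u * g := by rw [← h]
  · apply hgu
    apply comm_of_sq_cube g u _ hg3u
    calc g * g * u = (g * (g * u * g⁻¹) * g⁻¹) * (g * g) := by group
      _ = u * (g * g) := by rw [← h]
  · apply hgu
    have hu' : g * u * g⁻¹ = u := by
      calc g * u * g⁻¹ = g⁻¹ * (g * (g * u * g⁻¹) * g⁻¹) * g := by group
        _ = g⁻¹ * (g * u * g⁻¹) * g := by rw [← h]
        _ = u := by group
    calc g * u = (g * u * g⁻¹) * g := by group
      _ = u * g := by rw [hu']

theorem orbit3 (P : Sylow 2 G)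
    (hcomm : ∀ x ∈ (P : Subgroup G), ∀ y ∈ (P : Subgroup G), x * y = y * x)
    (hT : Nat.card (Inv (P : Subgroup G)) ≤ 3)
    (h3 : (Subgroup.centralizer (P : Set G)).relIndex (Subgroup.normalizer (P : Set G)) = 3)
    (g : G) (hg : g ∈ Subgroup.normalizer (P : Set G))
    (hgC : g ∉ Subgroup.centralizer (P : Set G)) (s t : G)
    (hs : s ∈ (P : Subgroup G) ∧ s ≠ 1 ∧ s * s = 1)
    (ht : t ∈ (P : Subgroup G) ∧ t ≠ 1 ∧ t * t = 1) :
    t = s ∨ t = g * s * g⁻¹ ∨ t = g * (g * s * g⁻¹) * g⁻¹ := by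
  have c1 := conj_inv (P : Subgroup G) g hg s hs
  have c2 := conj_inv (P : Subgroup G) g hg _ c1
  have n1 := no_fix P hcomm hT h3 g hg hgC s hs.1 hs.2.1 hs.2.2
  have n2 := no_fix P hcomm hT h3 g hg hgC _ c1.1 c1.2.1 c1.2.2
  have hg3 := pow3_mem P hcomm h3 g hg
  rw [Subgroup.mem_centralizer_iff] at hg3
  have hg3s : g ^ 3 * s = s * g ^ 3 := (hg3 s hs.1).symm
  have hpg := pigeon4 hT (⟨t, ht⟩ : Inv (P : Subgroup G)) ⟨s, hs⟩ ⟨_, c1⟩ ⟨_, c2⟩
  simp only [Subtype.mk.injEq] at hpg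
  rcases hpg with h | h | h | h | h | h
  · exact Or.inl h
  · exact Or.inr (Or.inl h)
  · exact Or.inr (Or.inr h)
  · exfalso; apply n1
    calc g * s = (g * s * g⁻¹) * g := by group
      _ = s * g := by rw [← h]
  · exfalso; apply n1
    apply comm_of_sq_cube g s _ hg3s
    calc g * g * s = (g * (g * s * g⁻¹) * g⁻¹) * (g * g) := by group
      _ = s * (g * g) := by rw [← h]
  · exfalso; apply n2
    calc g * (g * s * g⁻¹) = (g * (g * s * g⁻¹) * g⁻¹) * g := by group
      _ = (g * s * g⁻¹) * g := by rw [← h]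

theorem exists_invol_pow (P : Sylow 2 G) (z : G) (hz : z ∈ (P : Subgroup G)) (hz1 : z ≠ 1) :
    ∃ j : ℕ, z ^ 2 ^ j ≠ 1 ∧ z ^ 2 ^ j * z ^ 2 ^ j = 1 := by
  classical
  have hex : ∃ k, z ^ 2 ^ k = 1 := by
    obtain ⟨j, hj⟩ := P.isPGroup' ⟨z, hz⟩
    exact ⟨j, by have := congrArg Subtype.val hj; simpa using this⟩
  have hspec := Nat.find_spec hex
  cases hk : Nat.find hex with
  | zero => rw [hk, pow_zero, pow_one] at hspec; exact absurd hspec hz1
  | succ j =>
    refine ⟨j, Nat.find_min hex (by rw [hk]; exact Nat.lt_succ_self j), ?_⟩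
    rw [hk, pow_succ, pow_mul, pow_two] at hspec
    exact hspec

theorem conj_into (P : Sylow 2 G) (s : G) (hs : orderOf s = 2) :
    ∃ x : G, x * s * x⁻¹ ∈ (P : Subgroup G) := by
  have hz : IsPGroup 2 (Subgroup.zpowers s) := by
    apply IsPGroup.of_card (n := 1)
    rw [Nat.card_zpowers, hs, pow_one]
  obtain ⟨Q, hQ⟩ := hz.exists_le_sylow
  obtain ⟨x, hx⟩ := MulAction.exists_smul_eq G Q P
  refine ⟨x, ?_⟩
  have hsQ : s ∈ (Q : Subgroup G) := hQ (Subgroup.mem_zpowers s)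
  have hmem : x * s * x⁻¹ ∈ ((x • Q : Sylow 2 G) : Subgroup G) := by
    rw [Sylow.coe_subgroup_smul]
    exact Subgroup.smul_mem_pointwise_smul _ _ _ hsQ
  rw [hx] at hmem; exact hmem

end

/-- Let P be a Sylow 2-subgroup of the finite group G isomorphic to Z/2^m × Z/2^m with m ≥ 1. Then (i) the index of C_G(P) in N_G(P) is 1 or 3, and (ii) if it is not 1, then for every z ≠ 1 in P, C_G(z) ∩ N_G(P) = C_G(P). -/
theorem result {G : Type*} [Group G] [Finite G] (P : Sylow 2 G) (m : ℕ) (hm : 1 ≤ m) (e : (P : Subgroup G) ≃* Multiplicative (ZMod (2 ^ m) × ZMod (2 ^ m))) : ((Subgroup.centralizer (P : Set G)).relIndex (Subgroup.normalizer (P : Set G)) = 1 ∨ (Subgroup.centralizer (P : Set G)).relIndex (Subgroup.normalizer (P : Set G)) = 3) ∧ ((Subgroup.centralizer (P : Set G)).relIndex (Subgroup.normalizer (P : Set G)) ≠ 1 → ∀ z ∈ (P : Subgroup G), z ≠ 1 → Subgroup.centralizer ({z} : Set G) ⊓ Subgroup.normalizer (P : Set G) = Subgroup.centralizer (P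 : Set G)) := by
  have hcomm : ∀ x ∈ (P : Subgroup G), ∀ y ∈ (P : Subgroup G), x * y = y * x :=
    comm_of_iso (P : Subgroup G) m e
  have hT := card_invol (P : Subgroup G) m hm e
  have hcases := relIndex_cases P hcomm hT
  refine ⟨hcases, ?_⟩
  intro hne z hz hz1
  have h3 := hcases.resolve_left hne
  apply le_antisymm
  · intro g hg
    rw [Subgroup.mem_inf] at hg
    obtain ⟨hgz, hgN⟩ := hg
    by_contra hgC
    obtain ⟨j, hj1, hjj⟩ := exists_invol_pow P z hz hz1
    have hzg : z * g = g * z := (Subgroup.mem_centralizer_iff.1 hgz) z rfl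
    have hc : Commute g (z ^ 2 ^ j) := (show Commute g z from hzg.symm).pow_right _
    exact no_fix P hcomm hT h3 g hgN hgC (z ^ 2 ^ j) (pow_mem hz _) hj1 hjj hc
  · intro g hg
    rw [Subgroup.mem_inf]
    refine ⟨?_, Subgroup.centralizer_le_normalizer _ hg⟩
    rw [Subgroup.mem_centralizer_iff] at hg ⊢
    intro y hy
    rw [Set.mem_singleton_iff] at hy
    rw [hy]; exact hg z hz

end Cfsg.Agent.S0945
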