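import Mathlib
import Cfsg.Statements.S0946
import Cfsg.Agent.S0945

set_option autoImplicit false
open Cfsg

namespace Cfsg.Agent.S0946

theorem invol_of_order {G : Type*} [Group G] (s : G) (hs : orderOf s = 2) :
    s ≠ 1 ∧ s * s = 1 := by
  refine ⟨?_, ?_⟩
  · rintro rfl
    rw [orderOf_one] at hs
    omega
  · have h := pow_orderOf_eq_one s
    rw [hs, pow_two] at h
    exact h

/-- Let P be a Sylow 2-subgroup of the finite group G isomorphic to Z/2^m × Z/2^m with m ≥ 1. Then either P has a normal complement in G, or all involutions of G are conjugate. -/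
theorem result {G : Type*} [Group G] [Finite G] (P : Sylow 2 G) (m : ℕ) (hm : 1 ≤ m) (e : (P : Subgroup G) ≃* Multiplicative (ZMod (2 ^ m) × ZMod (2 ^ m))) : (∃ N : Subgroup G, N.Normal ∧ Subgroup.IsComplement' N (P : Subgroup G)) ∨ ∀ s t : G, orderOf s = 2 → orderOf t = 2 → IsConj s t := by
  have hcomm : ∀ x ∈ (P : Subgroup G), ∀ y ∈ (P : Subgroup G), x * y = y * x :=
    S0945.comm_of_iso (P : Subgroup G) m e
  have hT := S0945.card_invol (P : Subgroup G) m hm e
  rcases S0945.relIndex_cases P hcomm hT with h1 | h3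
  · left
    have hP : Subgroup.normalizer (P : Set G) ≤ Subgroup.centralizer (P : Set G) :=
      Subgroup.relIndex_eq_one.1 h1
    exact ⟨_, inferInstance, MonoidHom.ker_transferSylow_isComplement' P hP⟩
  · right
    intro s t hs ht
    have hex : ∃ g ∈ Subgroup.normalizer (P : Set G), g ∉ Subgroup.centralizer (P : Set G) := by
      by_contra hne
      push Not at hne
      have hle : Subgroup.normalizer (P : Set G) ≤ Subgroup.centralizer (P : Set G) := hne
      have := Subgroup.relIndex_eq_one.2 hle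
      omega
    obtain ⟨g, hg, hgC⟩ := hex
    obtain ⟨x, hx⟩ := S0945.conj_into P s hs
    obtain ⟨y, hy⟩ := S0945.conj_into P t ht
    have hs' := S0945.conj_invol x s (invol_of_order s hs)
    have ht' := S0945.conj_invol y t (invol_of_order t ht)
    rw [isConj_iff]
    rcases S0945.orbit3 P hcomm hT h3 g hg hgC _ _ ⟨hx, hs'⟩ ⟨hy, ht'⟩ with h | h | h
    · refine ⟨y⁻¹ * x, ?_⟩
      calc y⁻¹ * x * s * (y⁻¹ * x)⁻¹ = y⁻¹ * (x * s * x⁻¹) * y := by group
        _ = y⁻¹ * (y * t * y⁻¹) * y := by rw [← h]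
        _ = t := by group
    · refine ⟨y⁻¹ * g * x, ?_⟩
      calc y⁻¹ * g * x * s * (y⁻¹ * g * x)⁻¹ = y⁻¹ * (g * (x * s * x⁻¹) * g⁻¹) * y := by group
        _ = y⁻¹ * (y * t * y⁻¹) * y := by rw [← h]
        _ = t := by group
    · refine ⟨y⁻¹ * g * g * x, ?_⟩
      calc y⁻¹ * g * g * x * s * (y⁻¹ * g * g * x)⁻¹
          = y⁻¹ * (g * (g * (x * s * x⁻¹) * g⁻¹) * g⁻¹) * y := by group
        _ = y⁻¹ * (y * t * y⁻¹) * y := by rw [← h]
        _ = t := by group

end Cfsg.Agent.S0946
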