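import Cfsg.Statements.S0950
import Cfsg.Agent.Helper1.Frobenius

set_option autoImplicit false
open Cfsg

namespace Cfsg.Agent.S0950

/-- The quaternion group of order 8. -/
abbrev Q8 := QuaternionGroup 2

set_option maxRecDepth 100000 in
theorem q1 : ∀ w : Q8, w ^ 4 = 1 := by decide +kernel

set_option maxRecDepth 100000 in
theorem q4 : ∀ x y z : Q8, x * x = 1 → y * y = 1 → z * z = 1 → x = y ∨ x = z ∨ y = z := by
  decide +kernel

set_option maxRecDepth 100000 in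
theorem q2 : ∀ x y : Q8, x * x ≠ 1 → y * y ≠ 1 → ¬ (y = x ∨ y = x⁻¹) →
    ∀ w : Q8, ∃ i j : Fin 4, w = x ^ (i : ℕ) * y ^ (j : ℕ) := by
  decide +kernel

set_option maxRecDepth 100000 in
set_option synthInstance.maxSize 4096 in
set_option synthInstance.maxHeartbeats 400000 in
theorem q3 : ∀ x y c d : Q8, x * x ≠ 1 → y * y ≠ 1 → c * c ≠ 1 → d * d ≠ 1 →
    ¬ (y = x ∨ y = x⁻¹) → ¬ (c = x ∨ c = x⁻¹) → ¬ (c = y ∨ c = y⁻¹) →
    ¬ (d = x ∨ d = x⁻¹) → ¬ (d = y ∨ d = y⁻¹) → (d = c ∨ d = c⁻¹) := by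
  decide +kernel

set_option maxRecDepth 100000 in
theorem q5 : ∀ x : Q8, x * x ≠ 1 → ∃ y : Q8, y * y ≠ 1 ∧ ¬ (y = x ∨ y = x⁻¹) := by
  decide +kernel

theorem inv_swap {G : Type*} [Group G] {a b : G} (h : a = b⁻¹) : b = a⁻¹ := by
  rw [h, inv_inv]

/-- If the square of an odd order element fixes `x` under conjugation, so does the element. -/
theorem lemB2 {G : Type*} [Group G] (g x : G) (k : ℕ) (hk : g ^ (2 * k + 1) = 1)
    (h2 : MulAut.conj g (MulAut.conj g x) = x) : MulAut.conj g x = x := by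
  have hc : Commute (g * g) x := by
    show g * g * x = x * (g * g)
    simp only [MulAut.conj_apply] at h2
    have h4 : g * g * x = g * (g * x * g⁻¹) * g⁻¹ * (g * g) := by group
    rw [h4, h2]
  have hgg : (g * g) ^ (k + 1) = g := by
    calc (g * g) ^ (k + 1) = (g ^ 2) ^ (k + 1) := by rw [pow_two]
      _ = g ^ (2 * (k + 1)) := by rw [← pow_mul]
      _ = g ^ (2 * k + 1 + 1) := by rw [show 2 * (k + 1) = 2 * k + 1 + 1 by ring]
      _ = g ^ (2 * k + 1) * g := pow_succ _ _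
      _ = g := by rw [hk, one_mul]
  have h5 : Commute g x := by
    have h6 := hc.pow_left (k + 1)
    rwa [hgg] at h6
  rw [MulAut.conj_apply, h5.eq, mul_inv_cancel_right]

/-- An odd order element that fixes or inverts `x` fixes it. -/
theorem lemB {G : Type*} [Group G] (g x : G) (k : ℕ) (hk : g ^ (2 * k + 1) = 1)
    (h : MulAut.conj g x = x ∨ MulAut.conj g x = x⁻¹) : MulAut.conj g x = x := by
  rcases h with h | h
  · exact h
  · have h2 : MulAut.conj g (MulAut.conj g x) = x := by rw [h, map_inv, h, inv_inv]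
    exact lemB2 g x k hk h2

theorem fin_of {G : Type*} [Group G] (A B : Subgroup G) (a b n : G)
    (hA : A = Subgroup.zpowers a) (hB : B = Subgroup.zpowers b)
    (h : b = MulAut.conj n a ∨ b = (MulAut.conj n a)⁻¹) :
    B = A.map (MulAut.conj n).toMonoidHom := by
  have e1 : (MulAut.conj n).toMonoidHom a = MulAut.conj n a := rfl
  rw [hA, hB, MonoidHom.map_zpowers, e1]
  rcases h with h | h
  · rw [h]
  · rw [h, Subgroup.zpowers_inv]

section lift

variable {G : Type*} [Group G] (S : Subgroup G)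

/-- The embedding of the quaternion group onto `S`. -/
def iot (e : ↥S ≃* Q8) : Q8 →* G := S.subtype.comp e.symm.toMonoidHom

theorem iot_inj (e : ↥S ≃* Q8) : Function.Injective (iot S e) := by
  intro a b hab
  have h1 : ((e.symm a : ↥S) : G) = ((e.symm b : ↥S) : G) := hab
  exact e.symm.injective (Subtype.ext h1)

theorem iot_mem (e : ↥S ≃* Q8) (q : Q8) : iot S e q ∈ S := (e.symm q).2

theorem iot_surj (e : ↥S ≃* Q8) (x : G) (hx : x ∈ S) : ∃ q : Q8, iot S e q = x :=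
  ⟨e ⟨x, hx⟩, by
    show ((e.symm (e ⟨x, hx⟩) : ↥S) : G) = x
    rw [e.symm_apply_apply]⟩

theorem tr_sq (e : ↥S ≃* Q8) (p : Q8) (hp : iot S e p * iot S e p ≠ 1) : p * p ≠ 1 :=
  fun h => hp (by rw [← map_mul, h, map_one])

theorem tr_rel (e : ↥S ≃* Q8) (p q : Q8) (hpq : ¬ (iot S e p = iot S e q ∨ iot S e p = (iot S e q)⁻¹)) :
    ¬ (p = q ∨ p = q⁻¹) := by
  rintro (h | h)
  · exact hpq (Or.inl (by rw [h]))
  · exact hpq (Or.inr (by rw [h, map_inv]))

theorem g1 (e : ↥S ≃* Q8) (x : G) (hx : x ∈ S) : x ^ 4 = 1 := by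
  obtain ⟨qx, rfl⟩ := iot_surj S e x hx
  rw [← map_pow, q1, map_one]

theorem g4 (e : ↥S ≃* Q8) (x y z : G) (hx : x ∈ S) (hy : y ∈ S) (hz : z ∈ S) (hx2 : x * x = 1)
    (hy2 : y * y = 1) (hz2 : z * z = 1) : x = y ∨ x = z ∨ y = z := by
  obtain ⟨qx, rfl⟩ := iot_surj S e x hx
  obtain ⟨qy, rfl⟩ := iot_surj S e y hy
  obtain ⟨qz, rfl⟩ := iot_surj S e z hz
  have hi := iot_inj S e
  have hx' : qx * qx = 1 := hi (by rw [map_mul, map_one]; exact hx2)
  have hy' : qy * qy = 1 := hi (by rw [map_mul, map_one]; exact hy2)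
  have hz' : qz * qz = 1 := hi (by rw [map_mul, map_one]; exact hz2)
  rcases q4 qx qy qz hx' hy' hz' with h | h | h
  · exact Or.inl (by rw [h])
  · exact Or.inr (Or.inl (by rw [h]))
  · exact Or.inr (Or.inr (by rw [h]))

theorem g2 (e : ↥S ≃* Q8) (x y : G) (hx : x ∈ S) (hy : y ∈ S) (hx2 : x * x ≠ 1) (hy2 : y * y ≠ 1)
    (hyx : ¬ (y = x ∨ y = x⁻¹)) (w : G) (hw : w ∈ S) : ∃ i j : ℕ, w = x ^ i * y ^ j := by
  obtain ⟨qx, rfl⟩ := iot_surj S e x hx
  obtain ⟨qy, rfl⟩ := iot_surj S e y hy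
  obtain ⟨qw, rfl⟩ := iot_surj S e w hw
  obtain ⟨i, j, hij⟩ := q2 qx qy (tr_sq S e _ hx2) (tr_sq S e _ hy2) (tr_rel S e _ _ hyx) qw
  exact ⟨(i : ℕ), (j : ℕ), by rw [hij, map_mul, map_pow, map_pow]⟩

theorem g3 (e : ↥S ≃* Q8) (x y c d : G) (hx : x ∈ S) (hy : y ∈ S) (hc : c ∈ S) (hd : d ∈ S)
    (hx2 : x * x ≠ 1) (hy2 : y * y ≠ 1) (hc2 : c * c ≠ 1) (hd2 : d * d ≠ 1)
    (hyx : ¬ (y = x ∨ y = x⁻¹)) (hcx : ¬ (c = x ∨ c = x⁻¹)) (hcy : ¬ (c = y ∨ c = y⁻¹))
    (hdx : ¬ (d = x ∨ d = x⁻¹)) (hdy : ¬ (d = y ∨ d = y⁻¹)) : d = c ∨ d = c⁻¹ := by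
  obtain ⟨qx, rfl⟩ := iot_surj S e x hx
  obtain ⟨qy, rfl⟩ := iot_surj S e y hy
  obtain ⟨qc, rfl⟩ := iot_surj S e c hc
  obtain ⟨qd, rfl⟩ := iot_surj S e d hd
  rcases q3 qx qy qc qd (tr_sq S e _ hx2) (tr_sq S e _ hy2) (tr_sq S e _ hc2) (tr_sq S e _ hd2)
    (tr_rel S e _ _ hyx) (tr_rel S e _ _ hcx) (tr_rel S e _ _ hcy) (tr_rel S e _ _ hdx)
    (tr_rel S e _ _ hdy) with h | h
  · exact Or.inl (by rw [h])
  · exact Or.inr (by rw [h, map_inv])

theorem g5 (e : ↥S ≃* Q8) (x : G) (hx : x ∈ S) (hx2 : x * x ≠ 1) :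
    ∃ y, y ∈ S ∧ y * y ≠ 1 ∧ ¬ (y = x ∨ y = x⁻¹) := by
  obtain ⟨qx, rfl⟩ := iot_surj S e x hx
  obtain ⟨qy, hy2, hyx⟩ := q5 qx (tr_sq S e _ hx2)
  have hi := iot_inj S e
  refine ⟨iot S e qy, iot_mem S e qy, ?_, ?_⟩
  · intro h
    exact hy2 (hi (by rw [map_mul, map_one]; exact h))
  · rintro (h | h)
    · exact hyx (Or.inl (hi h))
    · exact hyx (Or.inr (hi (by rw [map_inv]; exact h)))

/-- A subgroup of order 4 of `S` is cyclic, generated by an element of order 4. -/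
theorem lemA [Finite G] (e : ↥S ≃* Q8) (T : Subgroup G) (hT : T ≤ S) (hT4 : Nat.card T = 4) :
    ∃ c, c ∈ T ∧ c * c ≠ 1 ∧ T = Subgroup.zpowers c := by
  have : Fintype T := Fintype.ofFinite T
  have h2 : 2 < Fintype.card T := by
    rw [← Nat.card_eq_fintype_card, hT4]; norm_num
  obtain ⟨a, b, c, hab, hac, hbc⟩ := Fintype.two_lt_card_iff.mp h2
  have hex : ∃ c : G, c ∈ T ∧ c * c ≠ 1 := by
    by_contra hcon
    have hall : ∀ t : G, t ∈ T → t * t = 1 := by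
      intro t ht
      by_contra h
      exact hcon ⟨t, ht, h⟩
    rcases g4 S e a b c (hT a.2) (hT b.2) (hT c.2) (hall a a.2) (hall b b.2) (hall c c.2)
      with h | h | h
    · exact hab (Subtype.ext h)
    · exact hac (Subtype.ext h)
    · exact hbc (Subtype.ext h)
  obtain ⟨c, hcT, hc2⟩ := hex
  refine ⟨c, hcT, hc2, ?_⟩
  have hc4 : c ^ 4 = 1 := g1 S e c (hT hcT)
  have ho : orderOf c = 4 := by
    have hdvd : orderOf c ∣ 2 ^ 2 := by
      have h := orderOf_dvd_of_pow_eq_one hc4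
      have e4 : (2 : ℕ) ^ 2 = 4 := by norm_num
      rw [e4]
      exact h
    obtain ⟨m, hm, hmo⟩ := (Nat.dvd_prime_pow Nat.prime_two).mp hdvd
    interval_cases m
    · exfalso
      apply hc2
      have h1 : orderOf c = 1 := hmo.trans (by norm_num)
      rw [orderOf_eq_one_iff.mp h1, mul_one]
    · exfalso
      apply hc2
      have h1 : orderOf c = 2 := hmo.trans (by norm_num)
      have h3 := pow_orderOf_eq_one c
      rw [h1, pow_two] at h3
      exact h3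
    · exact hmo.trans (by norm_num)
  have hle : Subgroup.zpowers c ≤ T := (Subgroup.zpowers_le).mpr hcT
  have hcard : Nat.card T ≤ Nat.card (Subgroup.zpowers c) :=
    le_of_eq (by rw [Nat.card_zpowers, ho, hT4])
  exact (Subgroup.eq_of_le_of_card_ge hle hcard).symm

/-- A subgroup of `P` normalized but not centralized by an odd order element is `P`. -/
theorem q_eq (e : ↥S ≃* Q8) (Q : Subgroup G) (hQ : Q ≤ S)
    (g : G) (k : ℕ) (hgN : g ∈ Subgroup.normalizer (Q : Set G)) (hgk : g ^ (2 * k + 1) = 1)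
    (u : G) (hu : u ∈ Q) (hgu : MulAut.conj g u ≠ u) : Q = S := by
  apply le_antisymm hQ
  have hyQ : MulAut.conj g u ∈ Q := by
    rw [MulAut.conj_apply]
    exact (Subgroup.mem_normalizer_iff.mp hgN u).mp hu
  have hu1 : u ≠ 1 := by
    intro h
    apply hgu
    rw [h, map_one]
  have hu2 : u * u ≠ 1 := by
    intro h
    have hy2 : MulAut.conj g u * MulAut.conj g u = 1 := by rw [← map_mul, h, map_one]
    rcases g4 S e u (MulAut.conj g u) 1 (hQ hu) (hQ hyQ) S.one_mem h hy2 (one_mul 1)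
      with h1 | h1 | h1
    · exact hgu h1.symm
    · exact hu1 h1
    · exact hu1 ((MulAut.conj g).injective (h1.trans (map_one (MulAut.conj g)).symm))
  have hy2 : MulAut.conj g u * MulAut.conj g u ≠ 1 := by
    intro h
    apply hu2
    have h3 : MulAut.conj g (u * u) = MulAut.conj g 1 := by rw [map_mul, h, map_one]
    exact (MulAut.conj g).injective h3
  have hrel : ¬ (MulAut.conj g u = u ∨ MulAut.conj g u = u⁻¹) :=
    fun h => hgu (lemB g u k hgk h)
  intro w hw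
  obtain ⟨i, j, rfl⟩ := g2 S e u (MulAut.conj g u) (hQ hu) (hQ hyQ) hu2 hy2 hrel w hw
  exact Q.mul_mem (Q.pow_mem hu i) (Q.pow_mem hyQ j)

theorem main_of_g [Finite G] (e : ↥S ≃* Q8)
    (g : G) (k : ℕ) (hgN : g ∈ Subgroup.normalizer (S : Set G)) (hgk : g ^ (2 * k + 1) = 1)
    (hgnc : ∃ u ∈ S, g * u * g⁻¹ ≠ u)
    (A B : Subgroup G) (hA : A ≤ S) (hB : B ≤ S) (hA4 : Nat.card A = 4) (hB4 : Nat.card B = 4) :
    ∃ n ∈ Subgroup.normalizer (S : Set G), B = A.map (MulAut.conj n).toMonoidHom := by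
  have hφS : ∀ x, x ∈ S → MulAut.conj g x ∈ S := by
    intro x hx
    rw [MulAut.conj_apply]
    exact (Subgroup.mem_normalizer_iff.mp hgN x).mp hx
  have hφ2 : ∀ x : G, x * x ≠ 1 → MulAut.conj g x * MulAut.conj g x ≠ 1 := by
    intro x hx h
    apply hx
    have h3 : MulAut.conj g (x * x) = MulAut.conj g 1 := by rw [map_mul, h, map_one]
    exact (MulAut.conj g).injective h3
  have hggk : (g * g) ^ (2 * k + 1) = 1 := by rw [(Commute.refl g).mul_pow, hgk, one_mul]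
  have hgg : ∀ x : G, MulAut.conj (g * g) x = MulAut.conj g (MulAut.conj g x) := by
    intro x
    simp only [MulAut.conj_apply]
    group
  have hB1 : ∀ x : G, (MulAut.conj g x = x ∨ MulAut.conj g x = x⁻¹) → MulAut.conj g x = x :=
    fun x h => lemB g x k hgk h
  have hB3 : ∀ x : G, (MulAut.conj g (MulAut.conj g x) = x ∨
      MulAut.conj g (MulAut.conj g x) = x⁻¹) → MulAut.conj g x = x := by
    intro x h
    apply lemB2 g x k hgk
    rw [← hgg] at h ⊢
    exact lemB (g * g) x k hggk h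
  obtain ⟨φ, hφ⟩ : ∃ φ : MulAut G, φ = MulAut.conj g := ⟨_, rfl⟩
  rw [← hφ] at hφS hφ2 hB1 hB3
  by_cases hcase : ∃ x, x ∈ S ∧ x * x ≠ 1 ∧ (φ x = x ∨ φ x = x⁻¹)
  · exfalso
    obtain ⟨x, hxS, hx2, hxr⟩ := hcase
    have hx : φ x = x := hB1 x hxr
    obtain ⟨y, hyS, hy2, hyx⟩ := g5 S e x hxS hx2
    have hy : φ y = y := by
      by_contra hne
      have hcx : ¬ (φ y = x ∨ φ y = x⁻¹) := by
        rintro (h | h)
        · exact hyx (Or.inl (φ.injective (h.trans hx.symm)))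
        · refine hyx (Or.inr (φ.injective ?_))
          rw [h, map_inv, hx]
      have hcy : ¬ (φ y = y ∨ φ y = y⁻¹) := fun h => hne (hB1 y h)
      have hyc : ¬ (y = φ y ∨ y = (φ y)⁻¹) := by
        rintro (h | h)
        · exact hcy (Or.inl h.symm)
        · exact hcy (Or.inr (inv_swap h))
      have hdx : ¬ (φ (φ y) = x ∨ φ (φ y) = x⁻¹) := by
        rintro (h | h)
        · exact hcx (Or.inl (φ.injective (h.trans hx.symm)))
        · refine hcx (Or.inr (φ.injective ?_))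
          rw [h, map_inv, hx]
      have hdc : ¬ (φ (φ y) = φ y ∨ φ (φ y) = (φ y)⁻¹) := by
        intro h
        have h1 : φ (φ y) = φ y := hB1 (φ y) h
        exact hne (φ.injective h1)
      have hdy := g3 S e x (φ y) y (φ (φ y)) hxS (hφS y hyS) hyS (hφS _ (hφS y hyS))
        hx2 (hφ2 y hy2) hy2 (hφ2 _ (hφ2 y hy2)) hcx hyx hyc hdx hdc
      exact hne (hB3 y hdy)
    obtain ⟨u, huS, hu⟩ := hgnc
    apply hu
    obtain ⟨i, j, rfl⟩ := g2 S e x y hxS hyS hx2 hy2 hyx u huS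
    have hc : g * (x ^ i * y ^ j) * g⁻¹ = φ (x ^ i * y ^ j) := by
      rw [hφ, MulAut.conj_apply]
    rw [hc, map_mul, map_pow, map_pow, hx, hy]
  · have hii : ∀ x, x ∈ S → x * x ≠ 1 → ¬ (φ x = x ∨ φ x = x⁻¹) :=
      fun x hxS hx2 h => hcase ⟨x, hxS, hx2, h⟩
    obtain ⟨a, haA, ha2, hAa⟩ := lemA S e A hA hA4
    obtain ⟨b, hbB, hb2, hBb⟩ := lemA S e B hB hB4
    have haS : a ∈ S := hA haA
    have hbS : b ∈ S := hB hbB
    by_cases h1 : b = a ∨ b = a⁻¹
    · refine ⟨1, Subgroup.one_mem _, fin_of A B a b 1 hAa hBb ?_⟩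
      have h0 : MulAut.conj (1 : G) a = a := by
        rw [MulAut.conj_apply, one_mul, inv_one, mul_one]
      rw [h0]
      exact h1
    · by_cases h2 : b = φ a ∨ b = (φ a)⁻¹
      · refine ⟨g, hgN, fin_of A B a b g hAa hBb ?_⟩
        rw [← hφ]
        exact h2
      · refine ⟨g * g, Subgroup.mul_mem _ hgN hgN, fin_of A B a b (g * g) hAa hBb ?_⟩
        rw [hgg, ← hφ]
        have hca : ¬ (φ a = a ∨ φ a = a⁻¹) := hii a haS ha2
        have hda : ¬ (φ (φ a) = a ∨ φ (φ a) = a⁻¹) := fun h => hca (Or.inl (hB3 a h))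
        have hdc : ¬ (φ (φ a) = φ a ∨ φ (φ a) = (φ a)⁻¹) :=
          hii (φ a) (hφS a haS) (hφ2 a ha2)
        have hdb := g3 S e a (φ a) b (φ (φ a)) haS (hφS a haS) hbS (hφS _ (hφS a haS))
          ha2 (hφ2 a ha2) hb2 (hφ2 _ (hφ2 a ha2)) hca h1 h2 hda hdc
        rcases hdb with h | h
        · exact Or.inl h.symm
        · exact Or.inr (inv_swap h)

end lift

theorem transport {G : Type*} [Group G] (S P : Subgroup G) (h : G)
    (hP : ∀ x, x ∈ P ↔ h⁻¹ * x * h ∈ S)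
    (g₀ : G) (k : ℕ) (hgN : g₀ ∈ Subgroup.normalizer (P : Set G)) (hgk : g₀ ^ (2 * k + 1) = 1)
    (u : G) (hu : u ∈ P) (hgu : g₀ * u * g₀⁻¹ ≠ u) :
    ∃ (g : G) (k : ℕ), g ∈ Subgroup.normalizer (S : Set G) ∧ g ^ (2 * k + 1) = 1 ∧
      ∃ u ∈ S, g * u * g⁻¹ ≠ u := by
  refine ⟨h⁻¹ * g₀ * h, k, ?_, ?_, h⁻¹ * u * h, (hP u).mp hu, ?_⟩
  · rw [Subgroup.mem_normalizer_iff]
    intro s
    have h1 : s ∈ S ↔ h * s * h⁻¹ ∈ P := by
      rw [hP]
      have h0 : h⁻¹ * (h * s * h⁻¹) * h = s := by group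
      rw [h0]
    have h2 := (Subgroup.mem_normalizer_iff.mp hgN) (h * s * h⁻¹)
    have h3 : h⁻¹ * (g₀ * (h * s * h⁻¹) * g₀⁻¹) * h
        = h⁻¹ * g₀ * h * s * (h⁻¹ * g₀ * h)⁻¹ := by group
    rw [h1, h2, hP, h3]
  · have h0 : h⁻¹ * g₀ * h = MulAut.conj h⁻¹ g₀ := by rw [MulAut.conj_apply, inv_inv]
    rw [h0, ← map_pow, hgk, map_one]
  · intro hcon
    apply hgu
    have h4 : h⁻¹ * g₀ * h * (h⁻¹ * u * h) * (h⁻¹ * g₀ * h)⁻¹
        = h⁻¹ * (g₀ * u * g₀⁻¹) * h := by group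
    rw [h4] at hcon
    exact mul_left_cancel (mul_right_cancel hcon)

theorem exists_g {G : Type*} [Group G] [Finite G] (S : Sylow 2 G)
    (e : (S : Subgroup G) ≃* Q8)
    (hnc : ∀ N : Subgroup G, N.Normal → ¬ Subgroup.IsComplement' N (S : Subgroup G)) :
    ∃ (g : G) (k : ℕ), g ∈ Subgroup.normalizer ((S : Subgroup G) : Set G) ∧
      g ^ (2 * k + 1) = 1 ∧ ∃ u ∈ (S : Subgroup G), g * u * g⁻¹ ≠ u := by
  have hnl : ¬ Cfsg.Agent.Helper1.LocalP 2 G := by
    intro hL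
    obtain ⟨P, N, hN, hc⟩ := Cfsg.Agent.Helper1.npc_of_local hL
    have h1 : Nat.card (P : Subgroup G) = 2 ^ (Nat.card G).factorization 2 :=
      Sylow.card_eq_multiplicity P
    have h2 : Nat.card (S : Subgroup G) = 2 ^ (Nat.card G).factorization 2 :=
      Sylow.card_eq_multiplicity S
    have hPS : Nat.card (P : Subgroup G) = Nat.card (S : Subgroup G) := h1.trans h2.symm
    have hmul : Nat.card N * Nat.card (P : Subgroup G) = Nat.card G := hc.card_mul_card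
    have h3 : (Nat.card (P : Subgroup G)).Coprime (P : Subgroup G).index :=
      Sylow.card_coprime_index P
    have h5 : Nat.card (P : Subgroup G) * (P : Subgroup G).index = Nat.card G :=
      Subgroup.card_mul_index _
    have h4 : (P : Subgroup G).index = Nat.card N :=
      Nat.eq_of_mul_eq_mul_left Nat.card_pos (h5.trans (hmul.symm.trans (mul_comm _ _)))
    rw [h4, hPS] at h3
    rw [hPS] at hmul
    exact hnc N hN (Subgroup.isComplement'_of_coprime hmul h3.symm)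
  have hnl' : ∃ Q : Subgroup G, IsPGroup 2 Q ∧ ∃ g ∈ Subgroup.normalizer (Q : Set G),
      (orderOf g).Coprime 2 ∧ g ∉ Subgroup.centralizer (Q : Set G) := by
    by_contra hcon
    apply hnl
    intro Q hQ g hg ho
    by_contra hgc
    exact hcon ⟨Q, hQ, g, hg, ho, hgc⟩
  obtain ⟨Q₀, hQ₀, g₀, hg₀N, hg₀o, hg₀c⟩ := hnl'
  obtain ⟨k, hk⟩ : ∃ k, orderOf g₀ = 2 * k + 1 := hg₀o.odd_of_right
  have hgk : g₀ ^ (2 * k + 1) = 1 := by
    rw [← hk]
    exact pow_orderOf_eq_one g₀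
  obtain ⟨u, hu, hgu⟩ : ∃ u ∈ Q₀, g₀ * u * g₀⁻¹ ≠ u := by
    by_contra hcon
    apply hg₀c
    rw [Subgroup.mem_centralizer_iff]
    intro u hu
    have h1 : g₀ * u * g₀⁻¹ = u := by
      by_contra h2
      exact hcon ⟨u, hu, h2⟩
    exact (eq_mul_of_mul_inv_eq h1).symm
  obtain ⟨P, hP⟩ := hQ₀.exists_le_sylow
  obtain ⟨h, hh⟩ := MulAction.exists_smul_eq G S P
  have e' : ↥(P : Subgroup G) ≃* Q8 := (Sylow.equiv P S).trans e
  have hQP : Q₀ = (P : Subgroup G) :=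
    q_eq (P : Subgroup G) e' Q₀ hP g₀ k hg₀N hgk u hu (by rw [MulAut.conj_apply]; exact hgu)
  have hPmem : ∀ x, x ∈ (P : Subgroup G) ↔ h⁻¹ * x * h ∈ (S : Subgroup G) := by
    intro x
    rw [← hh, Sylow.coe_subgroup_smul, Subgroup.mem_pointwise_smul_iff_inv_smul_mem,
      MulAut.smul_def, MulAut.conj_inv_apply]
  rw [hQP] at hg₀N hu
  exact transport (S : Subgroup G) (P : Subgroup G) h hPmem g₀ k hg₀N hgk u hu hgu

/-- Let S be a Sylow 2-subgroup of the finite group G that is isomorphic to the quaternion group of order 8, and suppose S has no normal complement in G. Then any two subgroups of order 4 of S are conjugate by an element of the normalizer of S. -/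
theorem result {G : Type*} [Group G] [Finite G] (S : Sylow 2 G) (e : (S : Subgroup G) ≃* QuaternionGroup 2) (hnc : ∀ N : Subgroup G, N.Normal → ¬ Subgroup.IsComplement' N (S : Subgroup G)) (A B : Subgroup G) (hA : A ≤ S) (hB : B ≤ S) (hA4 : Nat.card A = 4) (hB4 : Nat.card B = 4) : ∃ n ∈ Subgroup.normalizer ((S : Subgroup G) : Set G), B = A.map (MulAut.conj n).toMonoidHom := by
  obtain ⟨g, k, hgN, hgk, hgnc⟩ := exists_g S e hnc
  exact main_of_g (S : Subgroup G) e g k hgN hgk hgnc A B hA hB hA4 hB4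

end Cfsg.Agent.S0950
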