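import Cfsg.Statements.S0953
import Cfsg.Agent.Helper22.BlkSylCount2

set_option autoImplicit false
open Cfsg
open Cfsg.Agent.Helper22 Cfsg.Agent.Helper5 Cfsg.Agent.Helper24

namespace Cfsg.Agent.S0953

/-- Let P be a Sylow p-subgroup of the finite group G with normalizer N, and fix a maximal ideal M of the algebraic integers containing p. The number of blocks of G having P as a defect group equals the number of conjugacy classes of N consisting of elements of order prime to p that centralize P. -/
theorem result {G : Type*} [Group G] [Finite G] (p : ℕ) [Fact p.Prime] (M : Ideal Cfsg.AlgInt) (hM : Cfsg.IsPModular p M) (P : Sylow p G) : Nat.card {B : Set (Cfsg.IrrCharacter G) // Cfsg.IsPBlock M B ∧ Cfsg.IsDefectGroup p M B (P : Subgroup G)} = Nat.card {C : ConjClasses (Subgroup.normalizer ((P : Subgroup G) : Set G)) // ∀ n : Subgroup.normalizer ((P : Subgroup G) : Set G), ConjClasses.mk n = C → ¬ p ∣ orderOf n ∧ (n : G) ∈ Subgroup.centralizer ((P : Subgroup G) : Set G)} := by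
  classical
  haveI := Fintype.ofFinite G
  haveI hMp : M.IsPrime := hM.2.1.isPrime
  haveI : Fintype (Subgroup.normalizer ((P : Subgroup G) : Set G)) := Fintype.ofFinite _
  have hPN : (P : Subgroup G) ≤ Subgroup.normalizer ((P : Subgroup G) : Set G) :=
    Subgroup.le_normalizer
  obtain ⟨Q, hQcoe⟩ : ∃ Q : Sylow p (Subgroup.normalizer ((P : Subgroup G) : Set G)),
      (Q : Subgroup (Subgroup.normalizer ((P : Subgroup G) : Set G)))
        = (P : Subgroup G).subgroupOf (Subgroup.normalizer ((P : Subgroup G) : Set G)) :=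
    ⟨P.subtype hPN, rfl⟩
  haveI hQn : (Q : Subgroup (Subgroup.normalizer ((P : Subgroup G) : Set G))).Normal := by
    rw [hQcoe]
    exact Subgroup.normal_in_normalizer
  have hdef : ∀ b : Set (IrrCharacter (Subgroup.normalizer ((P : Subgroup G) : Set G))),
      IsPBlock M b → IsDefectGroup p M b
        ((P : Subgroup G).subgroupOf (Subgroup.normalizer ((P : Subgroup G) : Set G))) := by
    rintro b ⟨ξ₀, rfl⟩
    rw [← hQcoe]
    exact sylcount_defect_group hM Q ξ₀
  have FM := first_main hM (P : Subgroup G) P.isPGroup'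
  have hex : ∀ b : {b : Set (IrrCharacter (Subgroup.normalizer ((P : Subgroup G) : Set G))) //
      IsPBlock M b},
      ∃ B : {B : Set (IrrCharacter G) // IsPBlock M B ∧ IsDefectGroup p M B (P : Subgroup G)},
        IsInducedBlock M (Subgroup.normalizer ((P : Subgroup G) : Set G)) b.1 B.1 := by
    rintro ⟨b, hb⟩
    obtain ⟨B, h1, h2, h3⟩ := FM.1 b hb (hdef b hb)
    exact ⟨⟨B, h1, h2⟩, h3⟩
  choose Φ hΦ using hex
  have hbij : Function.Bijective Φ := by
    constructor
    · intro b b' h
      obtain ⟨b₀, _, huniq⟩ := FM.2 (Φ b).1 (Φ b).2.1 (Φ b).2.2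
      have e1 := huniq b.1 ⟨b.2, hdef b.1 b.2, hΦ b⟩
      have e2 := huniq b'.1 ⟨b'.2, hdef b'.1 b'.2, by rw [h]; exact hΦ b'⟩
      exact Subtype.ext (e1.trans e2.symm)
    · intro B
      obtain ⟨b₀, ⟨hb₀, hd₀, hind₀⟩, _⟩ := FM.2 B.1 B.2.1 B.2.2
      refine ⟨⟨b₀, hb₀⟩, Subtype.ext ?_⟩
      exact sylcount_induced_unique _ (hΦ ⟨b₀, hb₀⟩) hind₀
  rw [← Nat.card_eq_of_bijective Φ hbij]
  have hiff : ∀ n : Subgroup.normalizer ((P : Subgroup G) : Set G),
      (∀ q ∈ (Q : Subgroup (Subgroup.normalizer ((P : Subgroup G) : Set G))), q * n = n * q) ↔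
        (n : G) ∈ Subgroup.centralizer ((P : Subgroup G) : Set G) := by
    intro n
    rw [Subgroup.mem_centralizer_iff]
    constructor
    · intro h y hy
      have hyQ : (⟨y, hPN hy⟩ : Subgroup.normalizer ((P : Subgroup G) : Set G))
          ∈ (Q : Subgroup (Subgroup.normalizer ((P : Subgroup G) : Set G))) := by
        rw [hQcoe]
        exact Subgroup.mem_subgroupOf.mpr hy
      have h1 := h _ hyQ
      exact congrArg Subtype.val h1
    · intro h q hq
      rw [hQcoe] at hq
      have hq' : (q : G) ∈ (P : Subgroup G) := Subgroup.mem_subgroupOf.mp hq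
      exact Subtype.ext (h _ hq')
  have e2 : Nat.card {C : ConjClasses (Subgroup.normalizer ((P : Subgroup G) : Set G)) //
      ∀ n : Subgroup.normalizer ((P : Subgroup G) : Set G), ConjClasses.mk n = C →
        ¬ p ∣ orderOf n ∧ (n : G) ∈ Subgroup.centralizer ((P : Subgroup G) : Set G)}
      = Nat.card {C : ConjClasses (Subgroup.normalizer ((P : Subgroup G) : Set G)) //
      ∀ n : Subgroup.normalizer ((P : Subgroup G) : Set G), ConjClasses.mk n = C →
        ¬ p ∣ orderOf n ∧
          ∀ q ∈ (Q : Subgroup (Subgroup.normalizer ((P : Subgroup G) : Set G))), q * n = n * q} :=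
    Nat.card_congr (Equiv.subtypeEquivRight fun C => forall_congr' fun n =>
      imp_congr_right fun _ => and_congr_right fun _ => (hiff n).symm)
  rw [e2]
  refine le_antisymm (sylcount_blocks_le hM Q) ?_
  haveI : Fintype ((Subgroup.normalizer ((P : Subgroup G) : Set G)) ⧸
      (Q : Subgroup (Subgroup.normalizer ((P : Subgroup G) : Set G)))) := Fintype.ofFinite _
  refine sylcount_classes_le_aux hM
    (QuotientGroup.mk' (Q : Subgroup (Subgroup.normalizer ((P : Subgroup G) : Set G))))
    (QuotientGroup.mk'_surjective _) ?_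
    (fun n => ¬ p ∣ orderOf n ∧
      ∀ q ∈ (Q : Subgroup (Subgroup.normalizer ((P : Subgroup G) : Set G))), q * n = n * q) ?_ ?_
  · rw [← Subgroup.index_eq_card]
    exact Q.not_dvd_index
  · intro x hx hdiv
    have hle : (Q : Subgroup (Subgroup.normalizer ((P : Subgroup G) : Set G)))
        ≤ Subgroup.centralizer ({x} : Set (Subgroup.normalizer ((P : Subgroup G) : Set G))) := by
      intro q hq
      exact Subgroup.mem_centralizer_singleton_iff.mpr (hx.2 q hq)
    exact Q.not_dvd_index (hdiv.trans (Subgroup.index_dvd_of_le hle))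
  · intro x y hx hy hconj
    exact sylcount_lift_isConj (Q : Subgroup (Subgroup.normalizer ((P : Subgroup G) : Set G)))
      Q.isPGroup' hx.1 hy.1 hx.2 hconj

end Cfsg.Agent.S0953
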