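import Mathlib
import Cfsg.Statements.S0957

set_option autoImplicit false
open Cfsg

namespace Cfsg.Agent.S0957

/-- The conjugation action of a subgroup `P` on the set of pairs `(y, z)` from two classes with
`z * y⁻¹ ∈ P`. -/
def pairAction {G : Type*} [Group G] (P : Subgroup G) (g h : G) :
    MulAction P {yz : G × G // IsConj g yz.1 ∧ IsConj h yz.2 ∧ yz.2 * yz.1⁻¹ ∈ P} where
  smul a yz := ⟨((a : G) * yz.1.1 * (a : G)⁻¹, (a : G) * yz.1.2 * (a : G)⁻¹),
    yz.2.1.trans (isConj_iff.mpr ⟨a, rfl⟩), yz.2.2.1.trans (isConj_iff.mpr ⟨a, rfl⟩), by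
      have h3 := yz.2.2.2
      have : (a : G) * yz.1.2 * (a : G)⁻¹ * ((a : G) * yz.1.1 * (a : G)⁻¹)⁻¹
          = (a : G) * (yz.1.2 * yz.1.1⁻¹) * (a : G)⁻¹ := by group
      rw [this]
      exact P.mul_mem (P.mul_mem a.2 h3) (P.inv_mem a.2)⟩
  one_smul yz := by
    apply Subtype.ext
    show (((1 : P) : G) * yz.1.1 * ((1 : P) : G)⁻¹, ((1 : P) : G) * yz.1.2 * ((1 : P) : G)⁻¹) = yz.1
    simp
  mul_smul a b yz := by
    apply Subtype.ext
    show (((a * b : P) : G) * yz.1.1 * ((a * b : P) : G)⁻¹,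
        ((a * b : P) : G) * yz.1.2 * ((a * b : P) : G)⁻¹)
      = ((a : G) * ((b : G) * yz.1.1 * (b : G)⁻¹) * (a : G)⁻¹,
        (a : G) * ((b : G) * yz.1.2 * (b : G)⁻¹) * (a : G)⁻¹)
    simp [mul_assoc]

/-- Let P be a Sylow p-subgroup of the finite group G, let g, h ∈ G and let p ^ d be the order of a Sylow p-subgroup of the centralizer of g. Then the number of pairs (y, z) with y conjugate to g, z conjugate to h and z * y⁻¹ ∈ P is divisible by the order of P divided by p ^ d. -/
theorem result {G : Type*} [Group G] [Finite G] (p : ℕ) [Fact p.Prime] (P : Sylow p G) (g h : G) (S : Sylow p (Subgroup.centralizer ({g} : Set G))) : Nat.card P / Nat.card S ∣ Nat.card {yz : G × G // IsConj g yz.1 ∧ IsConj h yz.2 ∧ yz.2 * yz.1⁻¹ ∈ (P : Subgroup G)} := by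
  classical
  have hp : p.Prime := Fact.out
  letI := pairAction (P : Subgroup G) g h
  haveI : Fintype (Quotient (MulAction.orbitRel (P : Subgroup G)
      {yz : G × G // IsConj g yz.1 ∧ IsConj h yz.2 ∧ yz.2 * yz.1⁻¹ ∈ (P : Subgroup G)})) :=
    Fintype.ofFinite _
  have hsmul : ∀ (a : (P : Subgroup G))
      (yz : {yz : G × G // IsConj g yz.1 ∧ IsConj h yz.2 ∧ yz.2 * yz.1⁻¹ ∈ (P : Subgroup G)}),
      (a • yz).1 = ((a : G) * yz.1.1 * (a : G)⁻¹, (a : G) * yz.1.2 * (a : G)⁻¹) := fun _ _ => rfl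
  have hcard : Nat.card {yz : G × G // IsConj g yz.1 ∧ IsConj h yz.2 ∧ yz.2 * yz.1⁻¹ ∈ (P : Subgroup G)}
      = ∑ ω : Quotient (MulAction.orbitRel (P : Subgroup G)
          {yz : G × G // IsConj g yz.1 ∧ IsConj h yz.2 ∧ yz.2 * yz.1⁻¹ ∈ (P : Subgroup G)}),
          (MulAction.stabilizer (P : Subgroup G) ω.out).index := by
    rw [Nat.card_congr (MulAction.selfEquivSigmaOrbitsQuotientStabilizer (P : Subgroup G)
      {yz : G × G // IsConj g yz.1 ∧ IsConj h yz.2 ∧ yz.2 * yz.1⁻¹ ∈ (P : Subgroup G)}),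
      Nat.card_sigma]
    rfl
  rw [hcard]
  apply Finset.dvd_sum
  intro ω _
  obtain ⟨c, hc⟩ := isConj_iff.mp ω.out.2.1
  -- the stabilizer embeds in the centralizer of g
  have hmem : ∀ a : MulAction.stabilizer (P : Subgroup G) ω.out,
      c⁻¹ * ((a : (P : Subgroup G)) : G) * c ∈ Subgroup.centralizer ({g} : Set G) := by
    intro a
    rw [Subgroup.mem_centralizer_iff]
    intro k hk
    rw [Set.mem_singleton_iff] at hk
    subst hk
    have h1 := congrArg (fun w => w.1.1) (MulAction.mem_stabilizer_iff.mp a.2)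
    simp only [hsmul] at h1
    rw [← hc] at h1
    -- h1 : a * (c * g * c⁻¹) * a⁻¹ = c * g * c⁻¹
    have h2 : ((a : (P : Subgroup G)) : G) * (c * k * c⁻¹) = (c * k * c⁻¹) * ((a : (P : Subgroup G)) : G) := by
      calc ((a : (P : Subgroup G)) : G) * (c * k * c⁻¹)
          = (((a : (P : Subgroup G)) : G) * (c * k * c⁻¹) * ((a : (P : Subgroup G)) : G)⁻¹)
            * ((a : (P : Subgroup G)) : G) := by group
        _ = (c * k * c⁻¹) * ((a : (P : Subgroup G)) : G) := by rw [h1]
    calc k * (c⁻¹ * ((a : (P : Subgroup G)) : G) * c)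
        = c⁻¹ * ((c * k * c⁻¹) * ((a : (P : Subgroup G)) : G)) * c := by group
      _ = c⁻¹ * (((a : (P : Subgroup G)) : G) * (c * k * c⁻¹)) * c := by rw [h2]
      _ = c⁻¹ * ((a : (P : Subgroup G)) : G) * c * k := by group
  let f : MulAction.stabilizer (P : Subgroup G) ω.out →* Subgroup.centralizer ({g} : Set G) :=
    { toFun := fun a => ⟨c⁻¹ * ((a : (P : Subgroup G)) : G) * c, hmem a⟩
      map_one' := by apply Subtype.ext; simp
      map_mul' := fun a b => by apply Subtype.ext; simp [mul_assoc] }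
  have hf : Function.Injective f := by
    intro a b hab
    have h1 : c⁻¹ * ((a : (P : Subgroup G)) : G) * c = c⁻¹ * ((b : (P : Subgroup G)) : G) * c :=
      congrArg Subtype.val hab
    have h2 : ((a : (P : Subgroup G)) : G) = ((b : (P : Subgroup G)) : G) := by
      have := congrArg (fun w => c * w * c⁻¹) h1
      simpa [mul_assoc] using this
    exact Subtype.ext (Subtype.ext h2)
  have hdvd : Nat.card (MulAction.stabilizer (P : Subgroup G) ω.out)
      ∣ Nat.card (Subgroup.centralizer ({g} : Set G)) := Subgroup.card_dvd_of_injective f hf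
  -- numerics
  have hPcard : Nat.card (P : Subgroup G) = p ^ (Nat.card G).factorization p := P.card_eq_multiplicity
  have hScard : Nat.card (S : Subgroup (Subgroup.centralizer ({g} : Set G)))
      = p ^ (Nat.card (Subgroup.centralizer ({g} : Set G))).factorization p := S.card_eq_multiplicity
  obtain ⟨e, he⟩ := IsPGroup.iff_card.mp
    (P.isPGroup'.to_subgroup (MulAction.stabilizer (P : Subgroup G) ω.out))
  have hCpos : Nat.card (Subgroup.centralizer ({g} : Set G)) ≠ 0 := Nat.card_pos.ne'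
  have hGpos : Nat.card G ≠ 0 := Nat.card_pos.ne'
  have hed : e ≤ (Nat.card (Subgroup.centralizer ({g} : Set G))).factorization p := by
    rw [he] at hdvd
    exact (hp.pow_dvd_iff_le_factorization hCpos).mp hdvd
  have hda : (Nat.card (Subgroup.centralizer ({g} : Set G))).factorization p
      ≤ (Nat.card G).factorization p := by
    have := (Nat.factorization_le_iff_dvd hCpos hGpos).mpr
      (Subgroup.card_subgroup_dvd_card (Subgroup.centralizer ({g} : Set G)))
    exact this p
  have hidx : (MulAction.stabilizer (P : Subgroup G) ω.out).index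
      = p ^ ((Nat.card G).factorization p - e) := by
    have h1 := Subgroup.card_mul_index (MulAction.stabilizer (P : Subgroup G) ω.out)
    rw [he, hPcard] at h1
    have h2 : p ^ (Nat.card G).factorization p = p ^ e * p ^ ((Nat.card G).factorization p - e) := by
      rw [← pow_add]; congr 1; omega
    rw [h2] at h1
    exact Nat.eq_of_mul_eq_mul_left (pow_pos hp.pos e) h1
  show Nat.card (P : Subgroup G) / Nat.card (S : Subgroup (Subgroup.centralizer ({g} : Set G))) ∣ _
  rw [hidx, hPcard, hScard, Nat.pow_div hda hp.pos]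
  exact pow_dvd_pow p (by omega)

end Cfsg.Agent.S0957
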