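import Cfsg.Statements.S0965
import Cfsg.Agent.Helper22.BlkCover

set_option autoImplicit false
open Cfsg
open Cfsg.Agent.Helper5 Cfsg.Agent.Helper24 Cfsg.Agent.Helper22

namespace Cfsg.Agent.S0965

/-- Let N be a normal subgroup of the finite group G and let B, b be blocks of G and of N relative to a maximal ideal M of the algebraic integers containing the prime p. Then some χ ∈ B has a constituent in b on restriction to N if and only if, for all χ ∈ B, θ ∈ b and n ∈ N, the central character of χ at n is congruent modulo the local ideal at M to the sum of θ m / θ 1 over the elements m ∈ N conjugate in G to n. -/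
theorem result {G : Type*} [Group G] [Fintype G] (p : ℕ) [Fact p.Prime] (M : Ideal Cfsg.AlgInt) (hM : Cfsg.IsPModular p M) (N : Subgroup G) [N.Normal] [Fintype N] (B : Set (Cfsg.IrrCharacter G)) (hB : Cfsg.IsPBlock M B) (b : Set (Cfsg.IrrCharacter N)) (hb : Cfsg.IsPBlock M b) : (∃ χ ∈ B, ∃ θ ∈ b, Cfsg.classInner (fun n : N => (χ : G → ℂ) n) (θ : N → ℂ) ≠ 0) ↔ ∀ χ ∈ B, ∀ θ ∈ b, ∀ n : N, Cfsg.MemLocalIdeal M (Cfsg.centralChar (χ : G → ℂ) (n : G) - Cfsg.inducedCentralChar N (θ : N → ℂ) (n : G)) := by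
  classical
  haveI hMp : M.IsPrime := hM.2.1.isPrime
  obtain ⟨χ₀, rfl⟩ := hB
  obtain ⟨θ₀, rfl⟩ := hb
  constructor
  · rintro ⟨χ₁, hχ₁, θ₁, hθ₁, hne⟩ χ hχ θ hθ n
    have h963 := (Cfsg.Agent.S0963.result N χ₁ θ₁).mp hne n
    have ha : MemLocalIdeal M (centralChar (χ : G → ℂ) (n : G) -
        centralChar (χ₁ : G → ℂ) (n : G)) :=
      sameBlock_trans' (sameBlock_symm hχ) hχ₁ (n : G)
    have hb' : MemLocalIdeal M (inducedCentralChar N (θ₁ : N → ℂ) (n : G) -
        inducedCentralChar N (θ : N → ℂ) (n : G)) :=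
      indCC_congr N (sameBlock_trans' (sameBlock_symm hθ₁) hθ) (n : G)
    have hadd := memLocalIdeal_add hMp ha hb'
    rw [← h963] at hadd
    rwa [sub_add_sub_cancel] at hadd
  · intro h
    obtain ⟨χ', hχ'⟩ := Cfsg.Agent.Helper24.exists_irr_over N (θ₀ : N → ℂ) θ₀.2
    have h963 := (Cfsg.Agent.S0963.result N χ' θ₀).mp hχ'
    obtain ⟨θ₁, hθ₁⟩ := exists_constituent_res N χ₀
    have hcong : ∀ n : N, MemLocalIdeal M (centralChar (χ' : G → ℂ) (n : G) -
        centralChar (χ₀ : G → ℂ) (n : G)) := by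
      intro n
      rw [h963 n]
      have h1 := h χ₀ (sameBlock_refl _) θ₀ (sameBlock_refl _) n
      have h2 := memLocalIdeal_neg h1
      rwa [neg_sub] at h2
    obtain ⟨g, hg⟩ := cover_key N χ' χ₀ hcong θ₀ θ₀ θ₁ (sameBlock_refl _) hχ' hθ₁
    refine ⟨χ₀, sameBlock_refl _, twIrr N g θ₁, hg, ?_⟩
    have e : classInner (fun n : N => (χ₀ : G → ℂ) n) (twIrr N g θ₁ : N → ℂ) =
        classInner (fun n : N => (χ₀ : G → ℂ) n) (θ₁ : N → ℂ) :=
      classInner_res_twist N (χ₀ : G → ℂ) (irr_isClassFunction χ₀) (θ₁ : N → ℂ) g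
    rw [e]
    exact hθ₁

end Cfsg.Agent.S0965
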