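import Cfsg.Statements.S0966
import Cfsg.Agent.Helper22.BlkCover

set_option autoImplicit false
open Cfsg
open Cfsg.Agent.Helper5 Cfsg.Agent.Helper24 Cfsg.Agent.Helper22

namespace Cfsg.Agent.S0966

/-- Let N be a normal subgroup of p-power index in the finite group G and b a block of N relative to a maximal ideal M of the algebraic integers containing p. Then there is exactly one block B of G containing a character whose restriction to N has a constituent in b. -/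
theorem result {G : Type*} [Group G] [Fintype G] (p : ℕ) [Fact p.Prime] (M : Ideal Cfsg.AlgInt) (hM : Cfsg.IsPModular p M) (N : Subgroup G) [N.Normal] [Fintype N] (hidx : ∃ k : ℕ, N.index = p ^ k) (b : Set (Cfsg.IrrCharacter N)) (hb : Cfsg.IsPBlock M b) : ∃! B : Set (Cfsg.IrrCharacter G), Cfsg.IsPBlock M B ∧ ∃ χ ∈ B, ∃ θ ∈ b, Cfsg.classInner (fun n : N => (χ : G → ℂ) n) (θ : N → ℂ) ≠ 0 := by
  classical
  haveI hMp : M.IsPrime := hM.2.1.isPrime
  obtain ⟨θ₀, rfl⟩ := hb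
  obtain ⟨χ₀, hχ₀⟩ := Cfsg.Agent.Helper24.exists_irr_over N (θ₀ : N → ℂ) θ₀.2
  refine ⟨blockOf M (χ₀ : G → ℂ), ⟨⟨χ₀, rfl⟩, χ₀, sameBlock_refl _, θ₀, sameBlock_refl _, hχ₀⟩, ?_⟩
  rintro B' ⟨⟨χa, rfl⟩, χ₁, hχ₁, θ₁, hθ₁, hne⟩
  have key : SameBlock M (χ₁ : G → ℂ) (χ₀ : G → ℂ) := by
    apply sameBlock_of_regular hM
    intro g hg
    have hgN : g ∈ N := mem_of_not_dvd_orderOf_of_index N hidx hM.1 hg
    have e1 : centralChar (χ₁ : G → ℂ) g = inducedCentralChar N (θ₁ : N → ℂ) g :=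
      (Cfsg.Agent.S0963.result N χ₁ θ₁).mp hne ⟨g, hgN⟩
    have e0 : centralChar (χ₀ : G → ℂ) g = inducedCentralChar N (θ₀ : N → ℂ) g :=
      (Cfsg.Agent.S0963.result N χ₀ θ₀).mp hχ₀ ⟨g, hgN⟩
    rw [e1, e0]
    exact indCC_congr N (sameBlock_symm hθ₁) g
  exact blockOf_eq_of_sameBlock (sameBlock_trans' hχ₁ key)

end Cfsg.Agent.S0966
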