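import Cfsg.Statements.S0967
import Cfsg.Agent.Helper5.BlkNorm
import Cfsg.Agent.Helper22.IrrKer
import Cfsg.Agent.Helper24.CharPerm

set_option autoImplicit false
open Cfsg
open Cfsg.Agent.Helper5 Cfsg.Agent.Helper24

namespace Cfsg.Agent.S0967

/-- Let N be a normal subgroup of the finite group G of order prime to p and fix a maximal ideal M of the algebraic integers containing p. If χ is an irreducible character of G ⧸ N and ψ lies in the block of its inflation χ ∘ (quotient map), then ψ is itself inflated from an irreducible character ψ' of G ⧸ N lying in the block of χ. (Over a normal p'-subgroup, blocks of the quotient are whole blocks of G.) -/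
theorem result {G : Type*} [Group G] [Finite G] (p : ℕ) [Fact p.Prime] (M : Ideal Cfsg.AlgInt) (hM : Cfsg.IsPModular p M) (N : Subgroup G) [N.Normal] (hN : ¬ p ∣ Nat.card N) (χ : Cfsg.IrrCharacter (G ⧸ N)) (ψ : Cfsg.IrrCharacter G) (hψ : ψ ∈ Cfsg.blockOf M ((χ : G ⧸ N → ℂ) ∘ QuotientGroup.mk)) : ∃ ψ' : Cfsg.IrrCharacter (G ⧸ N), (ψ : G → ℂ) = (ψ' : G ⧸ N → ℂ) ∘ QuotientGroup.mk ∧ Cfsg.SameBlock M (χ : G ⧸ N → ℂ) (ψ' : G ⧸ N → ℂ) := by
  classical
  haveI := Fintype.ofFinite G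
  haveI hMp : M.IsPrime := hM.2.1.isPrime
  haveI : Fintype N := Fintype.ofFinite N
  haveI : Fintype (G ⧸ N) := Fintype.ofFinite _
  have hN0 : (Nat.card N : ℂ) ≠ 0 := Nat.cast_ne_zero.mpr Nat.card_pos.ne'
  let π : G →* G ⧸ N := QuotientGroup.mk' N
  have hπ : Function.Surjective π := QuotientGroup.mk'_surjective N
  let χt : IrrCharacter G := Cfsg.Agent.Helper22.inflIrr π hπ χ
  have hχt : ∀ g : G, (χt : G → ℂ) g = (χ : G ⧸ N → ℂ) (QuotientGroup.mk g) := fun g => rfl
  have hsb : SameBlock M (χt : G → ℂ) (ψ : G → ℂ) := hψ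
  -- Step 1: `N` lies in the kernel of `ψ`
  let triv : IrrCharacter N := ⟨fun _ => 1, isIrrCharacter_one⟩
  have h1 : classInner (fun n : N => (χt : G → ℂ) n) (triv : N → ℂ) ≠ 0 := by
    have e : classInner (fun n : N => (χt : G → ℂ) n) (triv : N → ℂ) =
        (χ : G ⧸ N → ℂ) 1 := by
      rw [classInner_def']
      have e1 : ∀ n : N, (χt : G → ℂ) n * starRingEnd ℂ ((triv : N → ℂ) n) =
          (χ : G ⧸ N → ℂ) 1 := by
        intro n
        show (χ : G ⧸ N → ℂ) (QuotientGroup.mk (n : G)) * starRingEnd ℂ (1 : ℂ) = _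
        rw [(QuotientGroup.eq_one_iff (n : G)).mpr n.2, map_one, mul_one]
      rw [Finset.sum_congr rfl (fun n _ => e1 n), Finset.sum_const, Finset.card_univ,
        nsmul_eq_mul, ← Nat.card_eq_fintype_card, ← mul_assoc, inv_mul_cancel₀ hN0, one_mul]
    rw [e]; exact Cfsg.Agent.Helper5.irr_one_ne_zero χ
  have h2 := res_const_of_sameBlock hM N hN χt ψ hsb triv h1
  obtain ⟨S, hSdef, h3⟩ : ∃ S : Set (N → ℂ), S = {fun _ => (1:ℂ)} ∧
      (fun n : N => (ψ : G → ℂ) n) =
        classInner (fun n : N => (ψ : G → ℂ) n) (triv : N → ℂ) • ∑ᶠ φ ∈ S, φ := by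
    refine ⟨_, ?_, clifford_restrict N inferInstance (ψ : G → ℂ) ψ.2 (triv : N → ℂ) triv.2 h2⟩
    ext φ
    constructor
    · rintro ⟨g, hg⟩; exact hg
    · intro h; exact ⟨1, h⟩
  rw [hSdef, finsum_mem_singleton] at h3
  have hker : ∀ n : G, n ∈ N → (ψ : G → ℂ) n = (ψ : G → ℂ) 1 := by
    intro n hn
    exact (congrFun h3 ⟨n, hn⟩).trans (congrFun h3 1).symm
  obtain ⟨ψ', hψ'⟩ := Cfsg.Agent.Helper22.exists_irr_of_ker π hπ ψ
    (fun u hu => hker u ((QuotientGroup.eq_one_iff u).mp hu))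
  refine ⟨ψ', funext fun g => hψ' g, ?_⟩
  -- Step 2: central characters
  intro q
  let F : G → ℂ := fun g => if IsConj q (QuotientGroup.mk g : G ⧸ N) then 1 else 0
  have hF : IsClassFunction G F := by
    intro g h
    show (if IsConj q (QuotientGroup.mk (h * g * h⁻¹) : G ⧸ N) then (1:ℂ) else 0) =
      if IsConj q (QuotientGroup.mk g : G ⧸ N) then 1 else 0
    have hiff : IsConj q (QuotientGroup.mk (h * g * h⁻¹) : G ⧸ N) ↔
        IsConj q (QuotientGroup.mk g : G ⧸ N) := by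
      have hc : IsConj (QuotientGroup.mk g : G ⧸ N) (QuotientGroup.mk (h * g * h⁻¹) : G ⧸ N) :=
        isConj_iff.mpr ⟨QuotientGroup.mk h, rfl⟩
      exact ⟨fun h1 => h1.trans hc.symm, fun h1 => h1.trans hc⟩
    rw [if_congr hiff rfl rfl]
  have hS : ∀ g, MemLocalRing M (F g) := by
    intro g
    show MemLocalRing M (if IsConj q (QuotientGroup.mk g : G ⧸ N) then (1:ℂ) else 0)
    split_ifs
    · simpa using natCast_memLocalRing (M := M) 1
    · simpa using natCast_memLocalRing (M := M) 0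
  have hcong := classFun_congr hF hS hsb
  have hsum : ∀ φ : IrrCharacter (G ⧸ N),
      ∑ g : G, F g * (φ : G ⧸ N → ℂ) (QuotientGroup.mk g) =
        (Nat.card N : ℂ) * (((Subgroup.centralizer ({q} : Set (G ⧸ N))).index : ℂ) *
          (φ : G ⧸ N → ℂ) q) := by
    intro φ
    refine (sum_comp_mk N (fun y : G ⧸ N => (if IsConj q y then (1:ℂ) else 0) *
      (φ : G ⧸ N → ℂ) y)).trans ?_
    congr 1
    have e2 : ∀ y : G ⧸ N, (if IsConj q y then (1:ℂ) else 0) * (φ : G ⧸ N → ℂ) y =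
        if IsConj q y then (φ : G ⧸ N → ℂ) q else 0 := by
      intro y
      split_ifs with hy
      · obtain ⟨c, hc⟩ := isConj_iff.mp hy
        rw [one_mul, ← hc, irr_conj]
      · rw [zero_mul]
    rw [Finset.sum_congr rfl (fun y _ => e2 y), ← Finset.sum_filter, Finset.sum_const,
      card_filter_isConj, nsmul_eq_mul]
  have hval : ∀ (φt : IrrCharacter G) (φ : IrrCharacter (G ⧸ N)),
      (∀ g, (φt : G → ℂ) g = (φ : G ⧸ N → ℂ) (QuotientGroup.mk g)) →
      ((φt : G → ℂ) 1)⁻¹ * ∑ g : G, F g * (φt : G → ℂ) g =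
        (Nat.card N : ℂ) * centralChar (φ : G ⧸ N → ℂ) q := by
    intro φt φ h
    rw [Finset.sum_congr rfl (fun g _ => by rw [h g]), hsum φ, h 1, QuotientGroup.mk_one]
    unfold centralChar
    ring
  rw [hval χt χ hχt, hval ψ ψ' hψ', ← mul_sub] at hcong
  have hinv := natCast_inv_memLocalRing hM hN
  have hfin := memLocalIdeal_mul_left hinv hcong
  rwa [← mul_assoc, inv_mul_cancel₀ hN0, one_mul] at hfin

end Cfsg.Agent.S0967
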