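import Cfsg.Statements.S0968
import Cfsg.Agent.Helper5.BlkPC

set_option autoImplicit false
open Cfsg

namespace Cfsg.Agent.S0968

/-- Let P be a p-subgroup of the finite group G with P ⊔ C_G(P) = G, and let B be a block with defect group P relative to a maximal ideal M of the algebraic integers containing p. Then there is exactly one θ ∈ B with θ x = θ 1 for all x ∈ P; for this θ the exponent of p in θ(1) equals the exponent of p in the index of P; and the number of members of B equals the number of conjugacy classes of P. -/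
theorem result {G : Type*} [Group G] [Finite G] (p : ℕ) [Fact p.Prime] (M : Ideal Cfsg.AlgInt) (hM : Cfsg.IsPModular p M) (P : Subgroup G) (hP : IsPGroup p P) (hG : P ⊔ Subgroup.centralizer (P : Set G) = ⊤) (B : Set (Cfsg.IrrCharacter G)) (hB : Cfsg.IsPBlock M B) (hD : Cfsg.IsDefectGroup p M B P) : (∃! θ : Cfsg.IrrCharacter G, θ ∈ B ∧ ∀ x ∈ P, (θ : G → ℂ) x = (θ : G → ℂ) 1) ∧ (∀ θ ∈ B, (∀ x ∈ P, (θ : G → ℂ) x = (θ : G → ℂ) 1) → (Cfsg.charDegree (θ : G → ℂ)).factorization p = P.index.factorization p) ∧ Nat.card B = Nat.card (ConjClasses P) := by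
  classical
  have := Fintype.ofFinite G
  have : M.IsPrime := hM.2.1.isPrime
  obtain ⟨χ₀, rfl⟩ := hB
  haveI : Fintype P := Fintype.ofFinite P
  obtain ⟨⟨θ, hθB, hθP⟩, hdeg, hun⟩ := Cfsg.Agent.Helper5.pc_theta hM P hP hG χ₀ hD
  obtain ⟨zet, hform, hex, hinj⟩ := Cfsg.Agent.Helper5.pc_block_struct hM P hP hG χ₀ hD θ hθB hθP
    (fun θ' hθ' hθ'P => hun θ' hθ' θ hθB hθ'P hθP)
  refine ⟨⟨θ, ⟨hθB, hθP⟩, fun θ' h => hun θ' h.1 θ hθB h.2 hθP⟩, hdeg, ?_⟩
  rw [← Cfsg.Agent.Helper24.card_irr_eq_card_conjClasses]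
  refine Nat.card_eq_of_bijective (fun χ : (Cfsg.blockOf M (χ₀ : G → ℂ)) => zet χ.1) ⟨?_, ?_⟩
  · intro χ χ' h
    exact Subtype.ext (hinj χ.1 χ.2 χ'.1 χ'.2 h)
  · intro ζ
    obtain ⟨χ, hχ, hz⟩ := hex ζ
    exact ⟨⟨χ, hχ⟩, hz⟩

end Cfsg.Agent.S0968
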