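import Cfsg.Statements.S0971
import Cfsg.Agent.Helper22.BlkNil


set_option autoImplicit false
open Cfsg
open Cfsg.Agent.Helper22 Cfsg.Agent.Helper5 Cfsg.Agent.Helper24

namespace Cfsg.Agent.S0971

/-- Let Q be a normal p-subgroup of the finite group G, let N = Q ⊔ C_G(Q) (a normal subgroup) and let b be a block of N relative to a maximal ideal M of the algebraic integers containing p. Then b induces some block of G, and every block B of G containing a character whose restriction to N has a constituent in b is induced by b. -/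
theorem result {G : Type*} [Group G] [Fintype G] (p : ℕ) [Fact p.Prime] (M : Ideal Cfsg.AlgInt) (hM : Cfsg.IsPModular p M) (Q : Subgroup G) [Q.Normal] (hQ : IsPGroup p Q) [Fintype ↥(Q ⊔ Subgroup.centralizer (Q : Set G))] (b : Set (Cfsg.IrrCharacter ↥(Q ⊔ Subgroup.centralizer (Q : Set G)))) (hb : Cfsg.IsPBlock M b) : Cfsg.InducedBlockDefined M (Q ⊔ Subgroup.centralizer (Q : Set G)) b ∧ ∀ B : Set (Cfsg.IrrCharacter G), Cfsg.IsPBlock M B → (∃ χ ∈ B, ∃ θ ∈ b, Cfsg.classInner (fun n : ↥(Q ⊔ Subgroup.centralizer (Q : Set G)) => (χ : G → ℂ) n) (θ : ↥(Q ⊔ Subgroup.centralizer (Q : Set G)) → ℂ) ≠ 0) → Cfsg.IsInducedBlock M (Q ⊔ Subgroup.centralizer (Q : Set G)) b B := by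
  classical
  haveI hMp : M.IsPrime := hM.2.1.isPrime
  have hout : ∀ g : G, g ∉ (Q ⊔ Subgroup.centralizer (Q : Set G)) → ∀ χ : IrrCharacter G,
      MemLocalIdeal M (centralChar (χ : G → ℂ) g) := by
    intro g hg χ
    exact centralChar_memLocalIdeal_of_normal hM Q hQ χ g
      (fun h => hg ((le_sup_right : Subgroup.centralizer (Q : Set G) ≤ Q ⊔ _) h))
  refine ⟨?_, fun B hB h => induced_of_cover _ hout b hb B hB h⟩
  obtain ⟨θ₀, hθ₀⟩ := hb
  obtain ⟨χ, hχ⟩ := Cfsg.Agent.Helper24.exists_irr_over (Q ⊔ Subgroup.centralizer (Q : Set G))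
    (θ₀ : ↥(Q ⊔ Subgroup.centralizer (Q : Set G)) → ℂ) θ₀.2
  have hθb : θ₀ ∈ b := by
    rw [hθ₀]
    exact sameBlock_refl _
  exact ⟨blockOf M (χ : G → ℂ), induced_of_cover _ hout b ⟨θ₀, hθ₀⟩ _ ⟨χ, rfl⟩
    ⟨χ, sameBlock_refl _, θ₀, hθb, hχ⟩⟩

end Cfsg.Agent.S0971
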