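import Mathlib
import Cfsg.Statements.S0985

namespace Cfsg.Agent.S0985

theorem result {G : Type*} [Group G] [Finite G] (p k : ℕ) [Fact p.Prime] (h : ¬ Nat.card (Sylow p G) ≡ 1 [MOD p ^ k]) : ∃ P R : Sylow p G, P ≠ R ∧ ((R : Subgroup G).subgroupOf (P : Subgroup G)).index ≤ p ^ (k - 1) := by
  classical
  have hp : p.Prime := Fact.out
  let P : Sylow p G := default
  by_contra hcon
  push Not at hcon
  apply h
  have hk : k ≠ 0 := by rintro rfl; exact h (by simp [Nat.modEq_one])
  let _ : Fintype (MulAction.orbitRel.Quotient (↥(P : Subgroup G)) (Sylow p G)) := Fintype.ofFinite _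
  have hcard : Nat.card (Sylow p G) = ∑ ω : MulAction.orbitRel.Quotient (↥(P : Subgroup G)) (Sylow p G),
      Nat.card (MulAction.orbit (↥(P : Subgroup G)) ω.out) := by
    rw [Nat.card_congr (MulAction.selfEquivSigmaOrbits (↥(P : Subgroup G)) (Sylow p G)), Nat.card_sigma]
  have hstab : ∀ R : Sylow p G, MulAction.stabilizer (↥(P : Subgroup G)) R =
      (R : Subgroup G).subgroupOf (P : Subgroup G) := by
    intro R
    ext g
    rw [MulAction.mem_stabilizer_iff, Subgroup.mem_subgroupOf, Subgroup.smul_def,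
      Sylow.smul_eq_iff_mem_normalizer]
    have h1 := P.2.inf_normalizer_sylow R
    constructor
    · intro hg
      exact (h1.le ⟨g.2, hg⟩).2
    · intro hg
      exact (h1.ge ⟨g.2, hg⟩).2
  have horb : ∀ R : Sylow p G, Nat.card (MulAction.orbit (↥(P : Subgroup G)) R) =
      ((R : Subgroup G).subgroupOf (P : Subgroup G)).index := by
    intro R
    rw [← hstab, MulAction.index_stabilizer, Nat.card_coe_set_eq]
  have hfix : ∀ g : ↥(P : Subgroup G), g • P = P := by
    intro g
    rw [Subgroup.smul_def, Sylow.smul_eq_iff_mem_normalizer]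
    exact Subgroup.le_normalizer g.2
  set ω₀ : MulAction.orbitRel.Quotient (↥(P : Subgroup G)) (Sylow p G) := Quotient.mk'' P with hω₀
  have hout : ω₀.out = P := by
    have h1 : MulAction.orbitRel (↥(P : Subgroup G)) (Sylow p G) ω₀.out P := Quotient.exact' (Quotient.out_eq' ω₀)
    rw [MulAction.orbitRel_apply] at h1
    obtain ⟨g, hg⟩ := h1
    rw [← hg]; exact hfix g
  have hterm0 : Nat.card (MulAction.orbit (↥(P : Subgroup G)) ω₀.out) = 1 := by
    rw [hout, horb, Subgroup.subgroupOf_self, Subgroup.index_top]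
  have hterm : ∀ ω ∈ (Finset.univ.erase ω₀ : Finset (MulAction.orbitRel.Quotient (↥(P : Subgroup G)) (Sylow p G))),
      p ^ k ∣ Nat.card (MulAction.orbit (↥(P : Subgroup G)) ω.out) := by
    intro ω hω
    have hne : P ≠ ω.out := by
      intro heq
      apply (Finset.mem_erase.mp hω).1
      have h3 : (Quotient.mk'' ω.out : MulAction.orbitRel.Quotient (↥(P : Subgroup G)) (Sylow p G)) = ω :=
        Quotient.out_eq' ω
      rw [← h3, ← heq]
    have h1 := hcon P ω.out hne
    rw [horb]
    have hdvd : ((ω.out : Subgroup G).subgroupOf (P : Subgroup G)).index ∣ Nat.card (P : Subgroup G) :=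
      Subgroup.index_dvd_card _
    obtain ⟨n, hn⟩ := P.2.exists_card_eq
    rw [hn] at hdvd
    obtain ⟨j, -, hj⟩ := (Nat.dvd_prime_pow hp).mp hdvd
    rw [hj] at h1 ⊢
    have : k - 1 < j := (Nat.pow_lt_pow_iff_right hp.one_lt).mp h1
    exact pow_dvd_pow p (by omega)
  rw [hcard, ← Finset.add_sum_erase _ _ (Finset.mem_univ ω₀), hterm0]
  have hS := Finset.dvd_sum hterm
  have := (Nat.modEq_zero_iff_dvd.mpr hS).add_left 1
  simpa using this

end Cfsg.Agent.S0985
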