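import Mathlib
import Cfsg.Statements.S0986
import Cfsg.Agent.Helper5.Grp

namespace Cfsg.Agent.S0986

open Cfsg.Agent.Helper5

theorem core {G : Type*} [Group G] [Finite G] (p : ℕ) [Fact p.Prime] (P Q : Sylow p G)
    (hPQ : P ≠ Q) (D N : Subgroup G) (hD : D = (P : Subgroup G) ⊓ (Q : Subgroup G))
    (hN : N = Subgroup.normalizer (D : Set G))
    (hmax : ∀ P' Q' : Sylow p G, P' ≠ Q' →
      Nat.card ↥((P' : Subgroup G) ⊓ (Q' : Subgroup G)) ≤ Nat.card ↥D) :
    1 < Nat.card (Sylow p ↥N) ∧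
    (∀ S T : Sylow p ↥N, S ≠ T → (S : Subgroup N) ⊓ (T : Subgroup N) = D.subgroupOf N) ∧
    ∀ S : Sylow p ↥N, ∃! T : Sylow p G, (S : Subgroup N).map N.subtype ≤ (T : Subgroup G) := by
  have hDP : D ≤ P := hD ▸ inf_le_left
  have hDQ : D ≤ Q := hD ▸ inf_le_right
  have hDN : D ≤ N := hN ▸ Subgroup.le_normalizer
  have hDp : IsPGroup p D := P.2.to_le hDP
  have hA : ∀ R : Sylow p G, D ≤ R → D ≠ (R : Subgroup G) →
      Nat.card D < Nat.card ((R : Subgroup G) ⊓ N : Subgroup G) := by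
    intro R hDR hne
    have hlt : D.subgroupOf R < ⊤ := by
      rw [lt_top_iff_ne_top, Ne, Subgroup.subgroupOf_eq_top]
      intro h; exact hne (le_antisymm hDR h)
    have : Group.IsNilpotent (R : Subgroup G) := R.2.isNilpotent
    have hnc := Group.normalizerCondition_of_isNilpotent (G := (R : Subgroup G)) _ hlt
    obtain ⟨y, hyN, hyD⟩ := SetLike.exists_of_lt hnc
    rw [← Subgroup.subgroupOf_normalizer_eq hDR, Subgroup.mem_subgroupOf] at hyN
    rw [Subgroup.mem_subgroupOf] at hyD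
    by_contra hcon
    push Not at hcon
    have hle : D ≤ (R : Subgroup G) ⊓ N := le_inf hDR hDN
    have h3 := Subgroup.eq_of_le_of_card_ge hle hcon
    apply hyD
    rw [h3]
    exact ⟨y.2, hN ▸ hyN⟩
  have hDneP : D ≠ (P : Subgroup G) := by
    intro h
    apply hPQ
    have hle : (P : Subgroup G) ≤ Q := h ▸ hDQ
    exact Sylow.ext (P.is_maximal' Q.2 hle).symm
  have hDneQ : D ≠ (Q : Subgroup G) := by
    intro h
    apply hPQ
    have hle : (Q : Subgroup G) ≤ P := h ▸ hDP
    exact Sylow.ext (Q.is_maximal' P.2 hle)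
  have hB : ∀ S : Sylow p N, Nat.card D < Nat.card S := by
    intro S
    obtain ⟨S₁, hS₁⟩ := ((P.2.to_le inf_le_left :
      IsPGroup p ((P : Subgroup G) ⊓ N : Subgroup G)).comap_subtype (K := N)).exists_le_sylow
    rw [S.card_eq_multiplicity, ← S₁.card_eq_multiplicity]
    calc Nat.card D < Nat.card ((P : Subgroup G) ⊓ N : Subgroup G) := hA P hDP hDneP
      _ = Nat.card (((P : Subgroup G) ⊓ N : Subgroup G).subgroupOf N) :=
          (Nat.card_congr (Subgroup.subgroupOfEquivOfLe inf_le_right).toEquiv).symm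
      _ ≤ Nat.card S₁ := Subgroup.card_le_of_le hS₁
  have hC : ∀ (S : Sylow p N) (T₁ T₂ : Sylow p G), (S : Subgroup N).map N.subtype ≤ T₁ →
      (S : Subgroup N).map N.subtype ≤ T₂ → T₁ = T₂ := by
    intro S T₁ T₂ h1 h2
    by_contra hne
    have h3 := hmax T₁ T₂ hne
    have h4 : Nat.card ((S : Subgroup N).map N.subtype) ≤
        Nat.card ((T₁ : Subgroup G) ⊓ T₂ : Subgroup G) := Subgroup.card_le_of_le (le_inf h1 h2)
    rw [Subgroup.card_map_of_injective N.subtype_injective] at h4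
    have h5 := hB S
    have h6 : Nat.card (S : Subgroup N) = Nat.card S := rfl
    omega
  refine ⟨?_, ?_, ?_⟩
  · by_contra hcon
    push Not at hcon
    have hsub : Subsingleton (Sylow p N) := (Finite.card_le_one_iff_subsingleton).mp hcon
    obtain ⟨S₁, hS₁⟩ := ((P.2.to_le inf_le_left :
      IsPGroup p ((P : Subgroup G) ⊓ N : Subgroup G)).comap_subtype (K := N)).exists_le_sylow
    obtain ⟨S₂, hS₂⟩ := ((Q.2.to_le inf_le_left :
      IsPGroup p ((Q : Subgroup G) ⊓ N : Subgroup G)).comap_subtype (K := N)).exists_le_sylow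
    have h12 : S₂ = S₁ := Subsingleton.elim _ _
    rw [h12] at hS₂
    obtain ⟨T, hT⟩ := (S₁.2.map N.subtype).exists_le_sylow
    have hPT : (P : Subgroup G) ⊓ N ≤ T := by
      intro x hx
      exact hT ⟨⟨x, hx.2⟩, hS₁ (show x ∈ (P : Subgroup G) ⊓ N from hx), rfl⟩
    have hQT : (Q : Subgroup G) ⊓ N ≤ T := by
      intro x hx
      exact hT ⟨⟨x, hx.2⟩, hS₂ (show x ∈ (Q : Subgroup G) ⊓ N from hx), rfl⟩
    have hTP : T = P := by
      by_contra hne
      have h3 := hmax T P hne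
      have h4 : Nat.card ((P : Subgroup G) ⊓ N : Subgroup G) ≤
          Nat.card ((T : Subgroup G) ⊓ P : Subgroup G) :=
        Subgroup.card_le_of_le (le_inf hPT inf_le_left)
      have h5 := hA P hDP hDneP
      omega
    have hTQ : T = Q := by
      by_contra hne
      have h3 := hmax T Q hne
      have h4 : Nat.card ((Q : Subgroup G) ⊓ N : Subgroup G) ≤
          Nat.card ((T : Subgroup G) ⊓ Q : Subgroup G) :=
        Subgroup.card_le_of_le (le_inf hQT inf_le_left)
      have h5 := hA Q hDQ hDneQ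
      omega
    exact hPQ (hTP.symm.trans hTQ)
  · intro S T hST
    have hnorm : (D.subgroupOf N).Normal := by
      subst hN
      exact Subgroup.normal_in_normalizer
    have hDS : ∀ S : Sylow p N, D.subgroupOf N ≤ S := fun S =>
      normal_pGroup_le_sylow (D.subgroupOf N) (hn := hnorm) hDp.comap_subtype S
    apply le_antisymm
    · obtain ⟨S', hS'⟩ := (S.2.map N.subtype).exists_le_sylow
      obtain ⟨T', hT'⟩ := (T.2.map N.subtype).exists_le_sylow
      have hne : S' ≠ T' := by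
        intro heq
        apply hST
        have hUp : IsPGroup p (((S' : Subgroup G) ⊓ N : Subgroup G).subgroupOf N) :=
          (S'.2.to_le inf_le_left).comap_subtype
        have hSU : (S : Subgroup N) ≤ ((S' : Subgroup G) ⊓ N : Subgroup G).subgroupOf N := by
          intro s hs
          rw [Subgroup.mem_subgroupOf]
          exact ⟨hS' ⟨s, hs, rfl⟩, s.2⟩
        have hTU : (T : Subgroup N) ≤ ((S' : Subgroup G) ⊓ N : Subgroup G).subgroupOf N := by
          intro s hs
          rw [Subgroup.mem_subgroupOf]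
          exact ⟨heq ▸ hT' ⟨s, hs, rfl⟩, s.2⟩
        have e1 := S.is_maximal' hUp hSU
        have e2 := T.is_maximal' hUp hTU
        exact Sylow.ext (e1.symm.trans e2)
      have h3 := hmax S' T' hne
      have hDle : D ≤ (S' : Subgroup G) ⊓ T' := by
        intro d hd
        have hdS := hDS S (show (⟨d, hDN hd⟩ : N) ∈ D.subgroupOf N from hd)
        have hdT := hDS T (show (⟨d, hDN hd⟩ : N) ∈ D.subgroupOf N from hd)
        exact ⟨hS' ⟨_, hdS, rfl⟩, hT' ⟨_, hdT, rfl⟩⟩
      have heq := Subgroup.eq_of_le_of_card_ge hDle h3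
      intro s hs
      rw [Subgroup.mem_subgroupOf, heq]
      exact ⟨hS' ⟨s, hs.1, rfl⟩, hT' ⟨s, hs.2, rfl⟩⟩
    · exact le_inf (hDS S) (hDS T)
  · intro S
    obtain ⟨T, hT⟩ := (S.2.map N.subtype).exists_le_sylow
    exact ⟨T, hT, fun T' hT' => hC S T' T hT' hT⟩

theorem result {G : Type*} [Group G] [Finite G] (p : ℕ) [Fact p.Prime] (P Q : Sylow p G) (hPQ : P ≠ Q) (hmax : ∀ P' Q' : Sylow p G, P' ≠ Q' → Nat.card ↥((P' : Subgroup G) ⊓ (Q' : Subgroup G)) ≤ Nat.card ↥((P : Subgroup G) ⊓ (Q : Subgroup G))) : 1 < Nat.card (Sylow p ↥(Subgroup.normalizer (((P : Subgroup G) ⊓ (Q : Subgroup G) : Subgroup G) : Set G))) ∧ (∀ S T : Sylow p ↥(Subgroup.normalizer (((P : Subgroup G) ⊓ (Q : Subgroup G) : Subgroup G) : Set G)), S ≠ T → (S : Subgroup _) ⊓ (T : Subgroup _) = ((P : Subgroup G) ⊓ (Q : Subgroup G)).subgroupOf (Subgroup.normalizer (((P : Subgroup G) ⊓ (Q : Subgroup G) : Subgroup G) : Set G))) ∧ ∀ S : Sylow p ↥(Subgroup.normalizer (((P : Subgroup G) ⊓ (Q : Subgroup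 G) : Subgroup G) : Set G)), ∃! T : Sylow p G, (S : Subgroup _).map (Subgroup.normalizer (((P : Subgroup G) ⊓ (Q : Subgroup G) : Subgroup G) : Set G)).subtype ≤ (T : Subgroup G) :=
  core p P Q hPQ _ _ rfl rfl hmax

end Cfsg.Agent.S0986
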