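import Mathlib
import Cfsg.Statements.S0987

namespace Cfsg.Agent.S0987

theorem sylow_card_of_not_dvd {H : Type*} [Group H] [Finite H] (r m : ℕ) [Fact r.Prime]
    (hm : ¬ r ∣ m) (hH : Nat.card H = m * r) (S : Sylow r H) : Nat.card S = r := by
  have hr : r.Prime := Fact.out
  have hm0 : m ≠ 0 := by rintro rfl; exact hm (dvd_zero r)
  rw [S.card_eq_multiplicity, hH, Nat.factorization_mul hm0 hr.ne_zero]
  simp [Nat.factorization_eq_zero_of_not_dvd hm, hr.factorization_self]

theorem minFac_eq_of_forall {n a : ℕ} (ha : a.Prime) (hd : a ∣ n)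
    (h : ∀ m : ℕ, m.Prime → m ∣ n → a ≤ m) : n.minFac = a := by
  have hn1 : n ≠ 1 := fun h1 => ha.ne_one (Nat.dvd_one.mp (h1 ▸ hd))
  exact le_antisymm (Nat.minFac_le_of_dvd ha.two_le hd)
    (h _ (Nat.minFac_prime hn1) (Nat.minFac_dvd n))

theorem result {G : Type*} [Group G] [Finite G] (p q r : ℕ) (hp : p.Prime) (hq : q.Prime) [Fact r.Prime] (hpq : p < q) (hqr : q < r) (hG : Nat.card G = p * q * r) (R : Sylow r G) : (R : Subgroup G).Normal := by
  have hr : r.Prime := Fact.out
  have : Fact p.Prime := ⟨hp⟩
  have hmin : (Nat.card G).minFac = p := by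
    apply minFac_eq_of_forall hp (by rw [hG, mul_assoc]; exact dvd_mul_right _ _)
    intro m hm hd
    rw [hG] at hd
    rcases (hm.dvd_mul).mp hd with h | h
    · rcases (hm.dvd_mul).mp h with h | h
      · exact ((Nat.prime_dvd_prime_iff_eq hm hp).mp h).ge
      · have := (Nat.prime_dvd_prime_iff_eq hm hq).mp h; omega
    · have := (Nat.prime_dvd_prime_iff_eq hm hr).mp h; omega
  let P : Sylow p G := default
  have hPcard : Nat.card P = p := by
    apply sylow_card_of_not_dvd p (q * r) _ (by rw [hG]; ring) P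
    intro h
    rcases (hp.dvd_mul).mp h with h | h
    · have := (Nat.prime_dvd_prime_iff_eq hp hq).mp h; omega
    · have := (Nat.prime_dvd_prime_iff_eq hp hr).mp h; omega
  have hPcyc : IsCyclic P := isCyclic_of_prime_card hPcard
  have hcomp := IsCyclic.isComplement' hmin hPcyc
  set K := (MonoidHom.transferSylow P (hPcyc.normalizer_le_centralizer hmin)).ker with hK
  have hKcard : Nat.card K = q * r := by
    have := hcomp.card_mul_card
    rw [hG] at this
    have h2 : Nat.card K * p = (q * r) * p := by
      have h3 : Nat.card (P : Subgroup G) = p := hPcard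
      rw [h3] at this
      rw [this]; ring
    exact Nat.eq_of_mul_eq_mul_right hp.pos h2
  have : K.Normal := MonoidHom.normal_ker _
  let R₀ : Sylow r K := default
  have hR₀card : Nat.card R₀ = r := by
    apply sylow_card_of_not_dvd r q _ hKcard R₀
    intro h
    have := (Nat.prime_dvd_prime_iff_eq hr hq).mp h; omega
  have hR₀idx : (R₀ : Subgroup K).index = (Nat.card K).minFac := by
    have h1 : Nat.card (R₀ : Subgroup K) * (R₀ : Subgroup K).index = Nat.card K :=
      Subgroup.card_mul_index _
    have h3 : Nat.card (R₀ : Subgroup K) = r := hR₀card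
    rw [h3, hKcard] at h1
    have hidx : (R₀ : Subgroup K).index = q :=
      Nat.eq_of_mul_eq_mul_left hr.pos (h1.trans (mul_comm q r))
    rw [hidx, hKcard]
    symm
    apply minFac_eq_of_forall hq (dvd_mul_right _ _)
    intro m hm hd
    rcases (hm.dvd_mul).mp hd with h | h
    · exact ((Nat.prime_dvd_prime_iff_eq hm hq).mp h).ge
    · have := (Nat.prime_dvd_prime_iff_eq hm hr).mp h; omega
  have hR₀n : (R₀ : Subgroup K).Normal := Subgroup.normal_of_index_eq_minFac_card hR₀idx
  have : (R₀ : Subgroup K).Characteristic := R₀.characteristic_of_normal hR₀n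
  have hN : ((R₀ : Subgroup K).map K.subtype).Normal := inferInstance
  have hNcard : Nat.card ((R₀ : Subgroup K).map K.subtype) = r := by
    rw [Subgroup.card_map_of_injective K.subtype_injective]; exact hR₀card
  have hNp : IsPGroup r ((R₀ : Subgroup K).map K.subtype) :=
    IsPGroup.of_card (n := 1) (by rw [hNcard, pow_one])
  obtain ⟨Q, hQ⟩ := hNp.exists_le_sylow
  have hQcard : Nat.card Q = r := by
    apply sylow_card_of_not_dvd r (p * q) _ hG Q
    intro h
    rcases (hr.dvd_mul).mp h with h | h
    · have := (Nat.prime_dvd_prime_iff_eq hr hp).mp h; omega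
    · have := (Nat.prime_dvd_prime_iff_eq hr hq).mp h; omega
  have hQeq : (R₀ : Subgroup K).map K.subtype = Q :=
    Subgroup.eq_of_le_of_card_ge hQ (by rw [hNcard]; exact hQcard.le)
  have hQn : (Q : Subgroup G).Normal := hQeq ▸ hN
  have := Sylow.unique_of_normal Q hQn
  rw [Subsingleton.elim R Q]; exact hQn

end Cfsg.Agent.S0987
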