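import Mathlib
import Cfsg.Statements.S0989
-- import your own Cfsg.Agent.* helpers here

set_option autoImplicit false
open Cfsg

namespace Cfsg.Agent.S0989



/-- In the symmetric group on p or p + 1 letters, p a prime, the normalizer of a Sylow p-subgroup has order p * (p - 1). -/
theorem result {α : Type*} [Fintype α] [DecidableEq α] (p : ℕ) [Fact p.Prime] (hα : Fintype.card α = p ∨ Fintype.card α = p + 1) (P : Sylow p (Equiv.Perm α)) : Nat.card ↥(Subgroup.normalizer ((P : Subgroup (Equiv.Perm α)) : Set (Equiv.Perm α))) = p * (p - 1) := by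
  classical
  have hp : p.Prime := Fact.out
  have hp2 : 2 ≤ p := hp.two_le
  have hcardG : Nat.card (Equiv.Perm α) = (Fintype.card α).factorial := by
    rw [Nat.card_eq_fintype_card, Fintype.card_perm]
  have hpdvd : p ∣ (Fintype.card α).factorial := by
    rw [hp.dvd_factorial]; rcases hα with h | h <;> omega
  have hfac : p.factorial = p * (p - 1).factorial := by
    have h1 := Nat.factorial_succ (p - 1)
    rwa [Nat.sub_add_cancel (by omega : 1 ≤ p)] at h1
  have hndvd : ¬ p ∣ (p - 1).factorial := by rw [hp.dvd_factorial]; omega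
  have hp2ndvd : ¬ p ^ 2 ∣ (Fintype.card α).factorial := by
    intro hdvd
    rcases hα with h | h
    · rw [h, hfac, pow_two] at hdvd
      exact hndvd (Nat.dvd_of_mul_dvd_mul_left hp.pos hdvd)
    · rw [h, Nat.factorial_succ, hfac, pow_two, mul_left_comm] at hdvd
      have h1 := Nat.dvd_of_mul_dvd_mul_left hp.pos hdvd
      rcases (hp.dvd_mul).mp h1 with h2 | h2
      · have h3 : p ∣ 1 := (Nat.dvd_add_right (dvd_refl p)).mp h2
        have h4 := Nat.dvd_one.mp h3
        omega
      · exact hndvd h2
  -- the Sylow subgroup has order p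
  have hP1 : p ∣ Nat.card (P : Subgroup (Equiv.Perm α)) := by
    have h1 := P.pow_dvd_card_of_pow_dvd_card (n := 1) (by rw [pow_one, hcardG]; exact hpdvd)
    rwa [pow_one] at h1
  obtain ⟨k, hk⟩ := IsPGroup.iff_card.mp P.isPGroup'
  have hPdvd : Nat.card (P : Subgroup (Equiv.Perm α)) ∣ (Fintype.card α).factorial := by
    rw [← hcardG]; exact Subgroup.card_subgroup_dvd_card _
  have hk1 : k = 1 := by
    have h0 : k ≠ 0 := by
      rintro rfl
      rw [hk, pow_zero] at hP1
      have h4 := Nat.dvd_one.mp hP1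
      omega
    have h2 : k < 2 := by
      by_contra h2
      exact hp2ndvd ((pow_dvd_pow p (not_lt.mp h2)).trans (hk ▸ hPdvd))
    omega
  have hPcard : Nat.card (P : Subgroup (Equiv.Perm α)) = p := by rw [hk, hk1, pow_one]
  -- a generator
  have hne : ∃ c ∈ (P : Subgroup (Equiv.Perm α)), c ≠ 1 := by
    by_contra hcon
    push_neg at hcon
    have h0 : (P : Subgroup (Equiv.Perm α)) = ⊥ := (Subgroup.eq_bot_iff_forall _).mpr hcon
    have h1 : Nat.card (P : Subgroup (Equiv.Perm α)) = 1 := by rw [h0]; exact Subgroup.card_bot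
    rw [hPcard] at h1; omega
  obtain ⟨c, hcP, hc1⟩ := hne
  have hord : orderOf c = p := by
    have h1 : orderOf c ∣ p := by
      rw [← hPcard]
      have h2 := orderOf_dvd_natCard (⟨c, hcP⟩ : (P : Subgroup (Equiv.Perm α)))
      rwa [Subgroup.orderOf_mk] at h2
    rcases (Nat.dvd_prime hp).mp h1 with h | h
    · exact absurd (orderOf_eq_one_iff.mp h) hc1
    · exact h
  have hzp : Subgroup.zpowers c = (P : Subgroup (Equiv.Perm α)) := by
    apply Subgroup.eq_of_le_of_card_ge
    · rw [Subgroup.zpowers_le]; exact hcP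
    · rw [Nat.card_zpowers, hord, hPcard]
  have hlt : Fintype.card α < 2 * p := by rcases hα with h | h <;> omega
  have hcyc : ∀ d : Equiv.Perm α, orderOf d = p → d.cycleType = ({p} : Multiset ℕ) := by
    intro d hd
    have h1 : d.IsCycle :=
      Equiv.Perm.isCycle_of_prime_order' (by rw [hd]; exact hp) (by rw [hd]; exact hlt)
    rw [h1.cycleType, ← h1.orderOf, hd]
  have hcent : Nat.card (Subgroup.centralizer ({c} : Set (Equiv.Perm α))) = p := by
    rw [Equiv.Perm.nat_card_centralizer, hcyc c hord, Multiset.sum_singleton,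
      Multiset.prod_singleton, Multiset.toFinset_singleton, Finset.prod_singleton,
      Multiset.count_singleton_self, Nat.factorial_one, mul_one]
    have h1 : (Fintype.card α - p).factorial = 1 := by rcases hα with h | h <;> simp [h]
    rw [h1, one_mul]
  have hcentP : Subgroup.centralizer ((P : Subgroup (Equiv.Perm α)) : Set (Equiv.Perm α)) =
      Subgroup.centralizer ({c} : Set (Equiv.Perm α)) := by
    ext g
    rw [Subgroup.mem_centralizer_iff, Subgroup.mem_centralizer_iff]
    constructor
    · intro h x hx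
      rw [Set.mem_singleton_iff] at hx
      rw [hx]; exact h c hcP
    · intro h x hx
      have hx' : x ∈ Subgroup.zpowers c := by rw [hzp]; exact hx
      obtain ⟨k, rfl⟩ := Subgroup.mem_zpowers_iff.mp hx'
      have hcg : Commute c g := h c (Set.mem_singleton c)
      exact (hcg.zpow_left k).eq
  have hker : Nat.card (P : Subgroup (Equiv.Perm α)).normalizerMonoidHom.ker = p := by
    rw [Subgroup.normalizerMonoidHom_ker]
    refine (Nat.card_congr
      (Subgroup.subgroupOfEquivOfLe (Subgroup.centralizer_le_normalizer _)).toEquiv).trans ?_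
    rw [hcentP]; exact hcent
  have hcycP : IsCyclic (P : Subgroup (Equiv.Perm α)) := isCyclic_of_prime_card hPcard
  have hAut : Nat.card (MulAut (P : Subgroup (Equiv.Perm α))) = p - 1 := by
    rw [IsCyclic.card_mulAut, hPcard, Nat.totient_prime hp]
  have hsurj : Function.Surjective (P : Subgroup (Equiv.Perm α)).normalizerMonoidHom := by
    intro ψ
    have hd_ord : orderOf ((ψ ⟨c, hcP⟩ : (P : Subgroup (Equiv.Perm α))) : Equiv.Perm α) = p := by
      rw [Subgroup.orderOf_coe]
      have h1 := MulEquiv.orderOf_eq ψ (⟨c, hcP⟩ : (P : Subgroup (Equiv.Perm α)))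
      have h2 : orderOf (⟨c, hcP⟩ : (P : Subgroup (Equiv.Perm α))) = orderOf c :=
        Subgroup.orderOf_mk c hcP
      rw [h1, h2, hord]
    obtain ⟨g, hg⟩ := isConj_iff.mp ((Equiv.Perm.isConj_iff_cycleType_eq).mpr
      ((hcyc c hord).trans (hcyc _ hd_ord).symm))
    have hzd : Subgroup.zpowers ((ψ ⟨c, hcP⟩ : (P : Subgroup (Equiv.Perm α))) : Equiv.Perm α)
        = (P : Subgroup (Equiv.Perm α)) := by
      apply Subgroup.eq_of_le_of_card_ge
      · rw [Subgroup.zpowers_le]; exact (ψ ⟨c, hcP⟩).2
      · rw [Nat.card_zpowers, hd_ord, hPcard]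
    have hgN : g ∈ Subgroup.normalizer ((P : Subgroup (Equiv.Perm α)) : Set (Equiv.Perm α)) := by
      rw [Subgroup.mem_normalizer_iff]
      intro h
      constructor
      · intro hh
        have hh' : h ∈ Subgroup.zpowers c := by rw [hzp]; exact hh
        obtain ⟨k, rfl⟩ := Subgroup.mem_zpowers_iff.mp hh'
        rw [← conj_zpow, hg]
        exact Subgroup.zpow_mem _ (ψ ⟨c, hcP⟩).2 k
      · intro hh
        have hh' : g * h * g⁻¹ ∈
            Subgroup.zpowers ((ψ ⟨c, hcP⟩ : (P : Subgroup (Equiv.Perm α))) : Equiv.Perm α) := by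
          rw [hzd]; exact hh
        obtain ⟨k, hk⟩ := Subgroup.mem_zpowers_iff.mp hh'
        rw [← hg, conj_zpow] at hk
        have h5 : c ^ k = h := by
          have h6 := congrArg (fun t => g⁻¹ * t * g) hk
          simpa [mul_assoc] using h6
        have h7 : h ∈ Subgroup.zpowers c := by rw [← h5]; exact Subgroup.zpow_mem_zpowers c k
        rw [hzp] at h7; exact h7
    refine ⟨⟨g, hgN⟩, MulEquiv.ext fun x => ?_⟩
    have hx' : (x : Equiv.Perm α) ∈ Subgroup.zpowers c := by rw [hzp]; exact x.2
    obtain ⟨k, hk⟩ := Subgroup.mem_zpowers_iff.mp hx'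
    have hxk : x = (⟨c, hcP⟩ : (P : Subgroup (Equiv.Perm α))) ^ k :=
      Subtype.ext (by rw [Subgroup.coe_zpow]; exact hk.symm)
    rw [hxk, map_zpow, map_zpow]
    congr 1
    exact Subtype.ext hg
  have hquot : Nat.card (Subgroup.normalizer ((P : Subgroup (Equiv.Perm α)) : Set (Equiv.Perm α)) ⧸
      (P : Subgroup (Equiv.Perm α)).normalizerMonoidHom.ker) = p - 1 := by
    rw [← hAut]
    exact Nat.card_congr (QuotientGroup.quotientKerEquivOfSurjective _ hsurj).toEquiv
  rw [Subgroup.card_eq_card_quotient_mul_card_subgroup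
    (P : Subgroup (Equiv.Perm α)).normalizerMonoidHom.ker, hquot, hker, mul_comm]

end Cfsg.Agent.S0989
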