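import Mathlib
import Cfsg.Statements.S0990

namespace Cfsg.Agent.S0990

theorem result {α : Type*} [Fintype α] [DecidableEq α] (hα : 2 ≤ Fintype.card α) (p : ℕ) [Fact p.Prime] (hp : p ≠ 2) (P : Sylow p (Equiv.Perm α)) : (P : Subgroup (Equiv.Perm α)) ≤ alternatingGroup α ∧ 2 * Nat.card ↥(Subgroup.normalizer ((((P : Subgroup (Equiv.Perm α)).subgroupOf (alternatingGroup α) : Subgroup ↥(alternatingGroup α)) : Set ↥(alternatingGroup α)))) = Nat.card ↥(Subgroup.normalizer ((P : Subgroup (Equiv.Perm α)) : Set (Equiv.Perm α))) := by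
  have hpp : p.Prime := Fact.out
  have : Nontrivial α := Fintype.one_lt_card_iff_nontrivial.mp hα
  have hle : (P : Subgroup (Equiv.Perm α)) ≤ alternatingGroup α := by
    intro g hg
    rw [Equiv.Perm.mem_alternatingGroup]
    obtain ⟨n, hn⟩ := (P.2 ⟨g, hg⟩)
    have hgn : g ^ p ^ n = 1 := by simpa using congrArg Subtype.val hn
    have hs : Equiv.Perm.sign g ^ p ^ n = 1 := by rw [← map_pow, hgn, map_one]
    have hodd : Odd (p ^ n) := (hpp.odd_of_ne_two hp).pow
    rcases Int.units_eq_one_or (Equiv.Perm.sign g) with h | h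
    · exact h
    · rw [h, hodd.neg_one_pow] at hs; exact absurd hs (by decide)
  refine ⟨hle, ?_⟩
  rw [← Subgroup.subgroupOf_normalizer_eq hle]
  set A := alternatingGroup α with hA
  set N := Subgroup.normalizer ((P : Subgroup (Equiv.Perm α)) : Set (Equiv.Perm α)) with hN
  have hfrat : N ⊔ A = ⊤ := by
    have := Sylow.normalizer_sup_eq_top (P.subtype hle)
    rw [Sylow.coe_subtype, Subgroup.subgroupOf_map_subtype, inf_eq_left.mpr hle] at this
    exact this
  have hidx : A.relIndex N = 2 := by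
    rw [← Subgroup.relIndex_sup_right, hfrat, Subgroup.relIndex_top_right, alternatingGroup.index_eq_two]
  have h1 : Nat.card (A.subgroupOf N) * (A.subgroupOf N).index = Nat.card N := Subgroup.card_mul_index _
  have h2 : (A.subgroupOf N).index = 2 := hidx
  have e1 : Nat.card (A.subgroupOf N) = Nat.card (A ⊓ N : Subgroup (Equiv.Perm α)) := by
    rw [← Subgroup.inf_subgroupOf_right]
    exact Nat.card_congr (Subgroup.subgroupOfEquivOfLe inf_le_right).toEquiv
  have e2 : Nat.card (N.subgroupOf A) = Nat.card (N ⊓ A : Subgroup (Equiv.Perm α)) := by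
    rw [← Subgroup.inf_subgroupOf_right]
    exact Nat.card_congr (Subgroup.subgroupOfEquivOfLe inf_le_right).toEquiv
  rw [e2, inf_comm, ← e1, ← h1, h2, mul_comm]

end Cfsg.Agent.S0990
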