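import Mathlib
import Cfsg.Statements.S0991

set_option autoImplicit false
open Cfsg

namespace Cfsg.Agent.S0991

/-- Embedding Theorem: if a non-abelian finite simple group has a proper subgroup of index n, then it is isomorphic to a subgroup of the alternating group of degree n. -/
theorem result {G : Type*} [Group G] [Finite G] [IsSimpleGroup G] (hG : ¬ IsMulCommutative G) (H : Subgroup G) (hH : H ≠ ⊤) : ∃ f : G →* ↥(alternatingGroup (Fin H.index)), Function.Injective f := by
  classical
  haveI : Fintype (G ⧸ H) := Fintype.ofFinite _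
  have hcard : Fintype.card (G ⧸ H) = H.index := by
    rw [← Nat.card_eq_fintype_card]; rfl
  let e : (G ⧸ H) ≃ Fin H.index := Fintype.equivFinOfCardEq hcard
  let φ : G →* Equiv.Perm (G ⧸ H) := MulAction.toPermHom G (G ⧸ H)
  have hφ : Function.Injective φ := by
    rw [← MonoidHom.ker_eq_bot_iff]
    rcases (MonoidHom.normal_ker φ).eq_bot_or_eq_top with h | h
    · exact h
    · exfalso
      apply hH
      have h2 : H.normalCore = ⊤ := by rw [Subgroup.normalCore_eq_ker]; exact h
      exact top_le_iff.mp (h2 ▸ Subgroup.normalCore_le H)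
  let ψ : G →* Equiv.Perm (Fin H.index) := (e.permCongrHom.toMonoidHom).comp φ
  have hψ : Function.Injective ψ := by
    intro a b hab
    apply hφ
    exact e.permCongrHom.injective hab
  let σ : G →* ℤˣ := (Equiv.Perm.sign).comp ψ
  have hσ : σ.ker = ⊤ := by
    rcases (MonoidHom.normal_ker σ).eq_bot_or_eq_top with h | h
    · exfalso
      apply hG
      have hinj : Function.Injective σ := (MonoidHom.ker_eq_bot_iff σ).mp h
      refine ⟨⟨fun a b => ?_⟩⟩
      apply hinj
      rw [map_mul, map_mul, mul_comm]
    · exact h
  have hmem : ∀ g : G, ψ g ∈ alternatingGroup (Fin H.index) := by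
    intro g
    rw [Equiv.Perm.mem_alternatingGroup]
    have : g ∈ σ.ker := by rw [hσ]; trivial
    exact MonoidHom.mem_ker.mp this
  refine ⟨ψ.codRestrict (alternatingGroup (Fin H.index)) hmem, ?_⟩
  intro a b hab
  apply hψ
  have := congrArg Subtype.val hab
  simpa using this

end Cfsg.Agent.S0991
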