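import Mathlib
import Cfsg.Statements.S0992
import Cfsg.Agent.Helper5.Simple

namespace Cfsg.Agent.S0992

open Cfsg.Agent.Helper5

theorem result {G : Type*} [Group G] [Finite G] [IsSimpleGroup G] (hG : ¬ IsMulCommutative G) (h2 : Even (Nat.card G)) (h8 : ¬ 8 ∣ Nat.card G) (T : Sylow 2 G) : IsKleinFour ↥(T : Subgroup G) ∧ (Subgroup.centralizer ((T : Subgroup G) : Set G)).relIndex (Subgroup.normalizer ((T : Subgroup G) : Set G)) = 3 := by
  have : Fact (Nat.Prime 2) := ⟨Nat.prime_two⟩
  have hTne : (T : Subgroup G) ≠ ⊥ := T.ne_bot_of_dvd_card h2.two_dvd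
  have hnle := not_normalizer_le_centralizer hG T hTne
  obtain ⟨k, hk⟩ := T.2.exists_card_eq
  have hk2 : k ≤ 2 := by
    by_contra hcon
    push Not at hcon
    apply h8
    have h1 : 2 ^ 3 ∣ 2 ^ k := pow_dvd_pow 2 hcon
    have h3 : 2 ^ k ∣ Nat.card G := hk ▸ Subgroup.card_subgroup_dvd_card _
    exact h1.trans h3
  have hncyc : ¬ IsCyclic T := by
    intro hcyc
    have hmin : (Nat.card G).minFac = 2 := (Nat.minFac_eq_two_iff _).mpr h2.two_dvd
    exact hnle (hcyc.normalizer_le_centralizer hmin)
  have hk' : k = 2 := by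
    interval_cases k
    · exfalso
      apply hTne
      exact Subgroup.card_eq_one.mp (by simpa using hk)
    · exfalso
      apply hncyc
      exact isCyclic_of_prime_card (p := 2) (by simpa using hk)
    · rfl
  subst hk'
  have hcard4 : Nat.card T = 4 := by simpa using hk
  have hsq : ∀ g : T, g ^ 2 = 1 := by
    intro g
    have hdvd : orderOf g ∣ 4 := hcard4 ▸ orderOf_dvd_natCard g
    have hle : orderOf g ≤ 4 := Nat.le_of_dvd (by norm_num) hdvd
    have hne4 : orderOf g ≠ 4 := fun h => hncyc (isCyclic_of_orderOf_eq_card g (h.trans hcard4.symm))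
    have h12 : orderOf g ∣ 2 := by
      interval_cases h : orderOf g <;> omega
    exact orderOf_dvd_iff_pow_eq_one.mp h12
  have hK4 : IsKleinFour T := by
    refine ⟨hcard4, ?_⟩
    have h1 : Monoid.exponent T ∣ 2 := Monoid.exponent_dvd_of_forall_pow_eq_one hsq
    rcases (Nat.dvd_prime Nat.prime_two).mp h1 with h | h
    · exfalso
      rw [Monoid.exp_eq_one_iff] at h
      have := Nat.card_eq_one_iff_unique.mpr ⟨h, ⟨1⟩⟩
      omega
    · exact h
  refine ⟨hK4, ?_⟩
  have key := Subgroup.card_dvd_of_injective _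
    (QuotientGroup.kerLift_injective (T : Subgroup G).normalizerMonoidHom)
  rw [Subgroup.normalizerMonoidHom_ker, ← Subgroup.index, ← Subgroup.relIndex] at key
  have h6 := key.trans (card_mulAut_kleinFour_dvd (V := T))
  have := IsKleinFour.isMulCommutative (G := T)
  have hTC : (T : Subgroup G) ≤ Subgroup.centralizer ((T : Subgroup G) : Set G) :=
    Subgroup.le_centralizer _
  have hodd : ¬ 2 ∣ (Subgroup.centralizer ((T : Subgroup G) : Set G)).relIndex
      (Subgroup.normalizer ((T : Subgroup G) : Set G)) := by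
    intro hdvd
    have h1 := Subgroup.relIndex_dvd_of_le_left
      (Subgroup.normalizer ((T : Subgroup G) : Set G)) hTC
    have h3 : (T : Subgroup G).relIndex (Subgroup.normalizer ((T : Subgroup G) : Set G)) ∣
        (T : Subgroup G).index := Subgroup.relIndex_dvd_index_of_le Subgroup.le_normalizer
    exact T.not_dvd_index (hdvd.trans (h1.trans h3))
  have hne1 : (Subgroup.centralizer ((T : Subgroup G) : Set G)).relIndex
      (Subgroup.normalizer ((T : Subgroup G) : Set G)) ≠ 1 := by
    intro h
    exact hnle (Subgroup.relIndex_eq_one.mp h)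
  have hle : (Subgroup.centralizer ((T : Subgroup G) : Set G)).relIndex
      (Subgroup.normalizer ((T : Subgroup G) : Set G)) ≤ 6 := Nat.le_of_dvd (by norm_num) h6
  revert h6 hodd hne1 hle
  generalize (Subgroup.centralizer ((T : Subgroup G) : Set G)).relIndex
      (Subgroup.normalizer ((T : Subgroup G) : Set G)) = r
  intro h6 hodd hne1 hle
  interval_cases r <;> omega

end Cfsg.Agent.S0992
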