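import Mathlib
import Cfsg.Statements.S0995
import Cfsg.Agent.Helper22.SelfCent2

namespace Cfsg.Agent.S0995

open Cfsg.Agent.Helper22

theorem result {G : Type*} [Group G] [Finite G] (hperf : commutator G = ⊤) (p : ℕ) [Fact p.Prime] (z : G) (hz : orderOf z = p) (hC : Subgroup.centralizer ({z} : Set G) = Subgroup.zpowers z) : ∃ n t : ℕ, t = Nat.card {c : ConjClasses G // ∃ g : G, ConjClasses.mk g = c ∧ orderOf g = p} ∧ t ∣ p - 1 ∧ Nat.card (Sylow p G) = 1 + n * p ∧ Nat.card G * t = (p - 1) * p * (1 + n * p) := by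
  have hp : p.Prime := Fact.out
  have e : {c : ConjClasses G // ∃ g : G, ConjClasses.mk g = c ∧ orderOf g = p} ≃
      {C : ConjClasses G // ∃ g ∈ C.carrier, orderOf g = p} :=
    Equiv.subtypeEquivRight (fun c => by
      constructor
      · rintro ⟨g, hg, ho⟩
        exact ⟨g, ConjClasses.mem_carrier_iff_mk_eq.mpr hg, ho⟩
      · rintro ⟨g, hg, ho⟩
        exact ⟨g, ConjClasses.mem_carrier_iff_mk_eq.mp hg, ho⟩)
  have h1 := sc_class_count hp hz hC
  have h2 := sc_card_order_elems hp hz hC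
  have h3 := sc_card_order_elems' hp hz hC
  obtain ⟨P, hP⟩ := sc_exists_sylow hp hz hC
  have hnp : Nat.card (Sylow p G) = (Subgroup.normalizer (Subgroup.zpowers z : Set G)).index := by
    rw [P.card_eq_index_normalizer]
    have h4 : ((P : Subgroup G) : Set G) = (Subgroup.zpowers z : Set G) := by rw [hP]
    exact congrArg (fun s : Set G => (Subgroup.normalizer s).index) h4
  have hmod := card_sylow_modEq_one p G
  have hpos : 0 < Nat.card (Sylow p G) := Nat.card_pos
  obtain ⟨n, hn⟩ : ∃ n, Nat.card (Sylow p G) = 1 + n * p := by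
    refine ⟨(Nat.card (Sylow p G) - 1) / p, ?_⟩
    have hdvd : p ∣ Nat.card (Sylow p G) - 1 := (Nat.modEq_iff_dvd' hpos).mp hmod.symm
    rw [Nat.div_mul_cancel hdvd]
    omega
  refine ⟨n, _, rfl, ?_, hn, ?_⟩
  · rw [Nat.card_congr e]
    exact Dvd.intro _ h1
  · rw [Nat.card_congr e, ← hn, hnp, mul_comm (Nat.card G), ← h3, h2]
    ring

end Cfsg.Agent.S0995
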