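import Cfsg.Statements.S1002
import Cfsg.Agent.Helper21.BrauerLite

set_option autoImplicit false
open Cfsg

namespace Cfsg.Agent.S1002

open Cfsg.Agent.Helper21.BrauerLite

set_option maxRecDepth 100000 in
theorem key : ∀ D ∈ Nat.divisors 2457, D ≠ 1 →
    (D % 409 = 1 → D = 819) ∧ (D % 409 = 408 → False) := by decide

set_option maxRecDepth 100000 in
theorem keyn : ∀ n ∈ Nat.divisors 2457, n % 409 = 1 → n = 1 ∨ n = 819 := by decide

theorem hdiv (D : ℕ) (s : ℤ) (hs : s = 1 ∨ s = -1) (hD : D ∣ 1004913) (hD1 : D ≠ 1)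
    (hps : ((409 : ℕ) : ℤ) ∣ (D : ℤ) - s) :
    (s = 1 ∧ (D % 409 = 1 → D = 819)) ∨ (s = -1 ∧ (D % 409 = 408 → False)) := by
  have hcop : Nat.Coprime D 409 := by
    rw [Nat.coprime_comm, Nat.Prime.coprime_iff_not_dvd (by norm_num)]
    intro h19
    rcases hs with rfl | rfl <;> omega
  have hD' : D ∣ 2457 := by
    apply hcop.dvd_of_dvd_mul_right
    have h : 2457 * 409 = 1004913 := by norm_num
    rw [h]
    exact hD
  have hmem : D ∈ Nat.divisors 2457 := Nat.mem_divisors.mpr ⟨hD', by norm_num⟩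
  obtain ⟨k1, k2⟩ := key D hmem hD1
  rcases hs with rfl | rfl
  · exact Or.inl ⟨rfl, k1⟩
  · exact Or.inr ⟨rfl, k2⟩

theorem hmod (D : ℕ) (s : ℤ) (hs : s = 1 ∨ s = -1)
    (hps : ((409 : ℕ) : ℤ) ∣ (D : ℤ) - s) :
    (s = 1 → D % 409 = 1) ∧ (s = -1 → D % 409 = 408) := by
  rcases hs with rfl | rfl
  · exact ⟨fun _ => by omega, fun h => by omega⟩
  · exact ⟨fun h => by omega, fun _ => by omega⟩

/-- No finite simple group has order 1004913 = 3^3 * 7 * 13 * 409. -/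
theorem result {G : Type*} [Group G] [Finite G] [IsSimpleGroup G] : Nat.card G ≠ 1004913 := by
  intro hcard
  haveI : Fact (Nat.Prime 409) := ⟨by norm_num⟩
  have hn : ∀ n, n ∣ 2457 → n % 409 = 1 → n = 1 ∨ n = 819 := fun n hn1 =>
    keyn n (Nat.mem_divisors.mpr ⟨hn1, by norm_num⟩)
  obtain ⟨x, hx, hC, hidx⟩ := sylow_setup 409 2457 819 3 (by omega) (by norm_num) hn
    (by norm_num) Nat.prime_three (by norm_num)
  obtain ⟨D₁, D₂, d₀, s₁, s₂, e, hs₁, hs₂, he, hD₁, hD₂, hd₀, hD₁1, hD₂1, hps₁, hps₂, hpe, heq⟩ :=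
    end3 409 x hx hC hidx (by norm_num) (by omega)
  rw [hcard] at hD₁ hD₂ hd₀
  obtain ⟨m1, m2⟩ := hmod D₁ s₁ hs₁ hps₁
  obtain ⟨m1', m2'⟩ := hmod D₂ s₂ hs₂ hps₂
  rcases hdiv D₁ s₁ hs₁ hD₁ hD₁1 hps₁ with ⟨rfl, k⟩ | ⟨rfl, k⟩ <;>
    rcases hdiv D₂ s₂ hs₂ hD₂ hD₂1 hps₂ with ⟨rfl, k'⟩ | ⟨rfl, k'⟩ <;>
    rcases he with rfl | rfl
  all_goals
    first
    | exact k (by first | exact m1 rfl | exact m2 rfl)
    | exact k' (by first | exact m1' rfl | exact m2' rfl)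
    | (have hk := k (by first | exact m1 rfl | exact m2 rfl); have hk' := k' (by first | exact m1' rfl | exact m2' rfl); rw [hk, hk'] at heq; first | omega | (have h : d₀ = 1639 := (by omega); rw [h] at hd₀; norm_num at hd₀))

end Cfsg.Agent.S1002
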