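import Cfsg.Statements.S1003
import Mathlib
import Cfsg.Agent.Helper29.Zas.M168Syl

set_option autoImplicit false
open Cfsg

namespace Cfsg.Agent.S1003

theorem result {G : Type*} [Group G] [Finite G] [IsSimpleGroup G] (h : Nat.card G = 168) : Nat.card (Sylow 2 G) = 21 ∧ Nat.card (Sylow 3 G) = 28 ∧ Nat.card (Sylow 7 G) = 8 := by
  open Cfsg.Agent.Helper29.Zas.M168 Cfsg.Agent.Helper29.Zas in
  obtain ⟨c, hM⟩ := exists_model h
  open Cfsg.Agent.Helper29.Zas.M168 Cfsg.Agent.Helper29.Zas in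
  refine ⟨hM.sylow_count h 2 3 8 21 fact168_2 T0L T0_one T0_mul T0_inv T0_sub T0_card T0_norm
      (by norm_num) (by norm_num),
    hM.sylow_count h 3 1 6 28 fact168_3 P3L P3_one P3_mul P3_inv P3_sub P3_card P3_norm
      (by norm_num) (by norm_num), ?_⟩
  open Cfsg.Agent.Helper29.Zas.M168 Cfsg.Agent.Helper29.Zas in
  exact card_sylow_eq 7 3 (by norm_num) (by norm_num) syl7 (by rw [h])

end Cfsg.Agent.S1003
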