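import Cfsg.Statements.S1004
import Mathlib
import Cfsg.Agent.Helper29.Zas.M168Dih

set_option autoImplicit false
open Cfsg

namespace Cfsg.Agent.S1004

theorem result {G : Type*} [Group G] [Finite G] [IsSimpleGroup G] (h : Nat.card G = 168) (T : Sylow 2 G) : Nonempty (↥(T : Subgroup G) ≃* DihedralGroup 4) ∧ Subgroup.normalizer ((T : Subgroup G) : Set G) = T ∧ ∀ z : G, z ∈ (T : Subgroup G) → z ≠ 1 → (∀ t ∈ (T : Subgroup G), t * z = z * t) → Subgroup.centralizer ({z} : Set G) = T := by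
  obtain ⟨c₀, hM₀⟩ := Cfsg.Agent.Helper29.Zas.M168.exists_model h
  obtain ⟨c, hM, hT⟩ := hM₀.exists_model_sylow2 h T
  exact ⟨hM.dihedral_equiv (T : Subgroup G) hT, hM.normalizer_T0 _ hT,
    fun z hz hz1 hcomm => hM.centralizer_T0 _ hT z hz hz1 hcomm⟩

end Cfsg.Agent.S1004
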