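import Cfsg.Statements.S1005
import Mathlib
import Cfsg.Agent.Helper29.Zas.M168Facts

set_option autoImplicit false
open Cfsg

namespace Cfsg.Agent.S1005

theorem result {G : Type*} [Group G] [Finite G] [IsSimpleGroup G] (h : Nat.card G = 168) : (∀ g : G, orderOf g = 1 ∨ orderOf g = 2 ∨ orderOf g = 3 ∨ orderOf g = 4 ∨ orderOf g = 7) ∧ Nat.card {g : G // orderOf g = 2} = 21 ∧ ∀ s t : G, orderOf s = 2 → orderOf t = 2 → IsConj s t := by
  open Cfsg.Agent.Helper29.Zas.M168 in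
  obtain ⟨c, hM⟩ := exists_model h
  open Cfsg.Agent.Helper29.Zas.M168 in
  refine ⟨?_, ?_, ?_⟩
  · intro g
    rw [hM.orderOf_eq]
    exact Cfsg.Agent.Helper29.Zas.M168.ordL_vals _ (hM.mem g)
  · rw [hM.card_subtype (fun g => orderOf g = 2) (fun L => Cfsg.Agent.Helper29.Zas.M168.ordL L == 2)
      (fun g => by rw [hM.orderOf_eq]; simp)]
    exact Cfsg.Agent.Helper29.Zas.M168.card2
  · intro s t hs ht
    rw [hM.orderOf_eq] at hs ht
    obtain ⟨X, hX, hXs⟩ := Cfsg.Agent.Helper29.Zas.M168.conj2 _ (hM.mem s) hs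
    obtain ⟨Y, hY, hYt⟩ := Cfsg.Agent.Helper29.Zas.M168.conj2 _ (hM.mem t) ht
    obtain ⟨s0, hs0⟩ := hM.surj _ Cfsg.Agent.Helper29.Zas.M168.S2_mem
    rw [← hs0] at hXs hYt
    exact (hM.isConj_of hX hXs).trans (hM.isConj_of hY hYt).symm

end Cfsg.Agent.S1005
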