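import Cfsg.Statements.S1006
import Mathlib
import Cfsg.Agent.Helper29.Zas.M168Seven

set_option autoImplicit false
open Cfsg

namespace Cfsg.Agent.S1006

theorem result {G : Type*} [Group G] [Finite G] [IsSimpleGroup G] (h : Nat.card G = 168) : Nat.card {g : G // orderOf g = 3} = 56 ∧ (∀ s t : G, orderOf s = 3 → orderOf t = 3 → IsConj s t) ∧ Nat.card {g : G // orderOf g = 4} = 42 ∧ (∀ s t : G, orderOf s = 4 → orderOf t = 4 → IsConj s t) ∧ Nat.card {g : G // orderOf g = 7} = 48 ∧ ∀ x : G, orderOf x = 7 → Nat.card {g : G // IsConj x g} = 24 ∧ ¬ IsConj x x⁻¹ := by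
  obtain ⟨c, hM⟩ := Cfsg.Agent.Helper29.Zas.M168.exists_model h
  have hconj : ∀ (k : ℕ) (R : List ℕ), R ∈ Cfsg.Agent.Helper29.Zas.M168.T168 →
      (∀ L ∈ Cfsg.Agent.Helper29.Zas.M168.T168, Cfsg.Agent.Helper29.Zas.M168.ordL L = k →
        ∃ X ∈ Cfsg.Agent.Helper29.Zas.M168.T168, Cfsg.Agent.Helper29.Zas.M168.compL X L =
          Cfsg.Agent.Helper29.Zas.M168.compL R X) →
      ∀ s t : G, orderOf s = k → orderOf t = k → IsConj s t := by
    intro k R hR hall s t hs ht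
    rw [hM.orderOf_eq] at hs ht
    obtain ⟨X, hX, hXs⟩ := hall _ (hM.mem s) hs
    obtain ⟨Y, hY, hYt⟩ := hall _ (hM.mem t) ht
    obtain ⟨s0, hs0⟩ := hM.surj _ hR
    rw [← hs0] at hXs hYt
    exact (hM.isConj_of hX hXs).trans (hM.isConj_of hY hYt).symm
  refine ⟨?_, hconj 3 _ Cfsg.Agent.Helper29.Zas.M168.R3_mem Cfsg.Agent.Helper29.Zas.M168.conj3, ?_,
    hconj 4 _ Cfsg.Agent.Helper29.Zas.M168.R4_mem Cfsg.Agent.Helper29.Zas.M168.conj4, ?_,
    fun x hx => Cfsg.Agent.Helper29.Zas.M168.class7_aux hM x hx⟩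
  · rw [hM.card_subtype (fun g => orderOf g = 3) (fun L => Cfsg.Agent.Helper29.Zas.M168.ordL L == 3)
      (fun g => by rw [hM.orderOf_eq]; simp)]
    exact Cfsg.Agent.Helper29.Zas.M168.card3
  · rw [hM.card_subtype (fun g => orderOf g = 4) (fun L => Cfsg.Agent.Helper29.Zas.M168.ordL L == 4)
      (fun g => by rw [hM.orderOf_eq]; simp)]
    exact Cfsg.Agent.Helper29.Zas.M168.card4
  · rw [hM.card_subtype (fun g => orderOf g = 7) (fun L => Cfsg.Agent.Helper29.Zas.M168.ordL L == 7)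
      (fun g => by rw [hM.orderOf_eq]; simp)]
    exact Cfsg.Agent.Helper29.Zas.M168.card7

end Cfsg.Agent.S1006
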