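import Cfsg.Statements.S1007
import Mathlib
import Cfsg.Agent.Helper29.Zas.M168Klein

set_option autoImplicit false
open Cfsg

namespace Cfsg.Agent.S1007

theorem result {G : Type*} [Group G] [Finite G] [IsSimpleGroup G] (h : Nat.card G = 168) (T : Sylow 2 G) : Nat.card {U : Subgroup G // U ≤ (T : Subgroup G) ∧ IsKleinFour ↥U} = 2 ∧ (∀ U W : Subgroup G, U ≤ (T : Subgroup G) → W ≤ (T : Subgroup G) → IsKleinFour ↥U → IsKleinFour ↥W → U ≠ W → ∀ g : G, U.map (MulAut.conj g).toMonoidHom ≠ W) ∧ ∀ U : Subgroup G, IsKleinFour ↥U → Nonempty (↥(Subgroup.normalizer (U : Set G)) ≃* Equiv.Perm (Fin 4)) := by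
  classical
  open Cfsg.Agent.Helper29.Zas Cfsg.Agent.Helper29.Zas.M168 in
  obtain ⟨c₀, hM₀⟩ := exists_model h
  open Cfsg.Agent.Helper29.Zas Cfsg.Agent.Helper29.Zas.M168 in
  obtain ⟨c, hM, hT⟩ := hM₀.exists_model_sylow2 h T
  open Cfsg.Agent.Helper29.Zas Cfsg.Agent.Helper29.Zas.M168 in
  have key : ∀ U : Subgroup G, U ≤ (T : Subgroup G) → IsKleinFour ↥U →
      (∀ u, u ∈ U ↔ c u ∈ V1L) ∨ (∀ u, u ∈ U ↔ c u ∈ V2L) :=
    fun U hUT hU => hM.klein_in_T0 (T : Subgroup G) hT U hUT hU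
  open Cfsg.Agent.Helper29.Zas Cfsg.Agent.Helper29.Zas.M168 in
  set W1 : Subgroup G := hM.sub V1L kdata1.one kdata1.mul kdata1.inv kdata1.sub with hW1
  open Cfsg.Agent.Helper29.Zas Cfsg.Agent.Helper29.Zas.M168 in
  set W2 : Subgroup G := hM.sub V2L kdata2.one kdata2.mul kdata2.inv kdata2.sub with hW2
  open Cfsg.Agent.Helper29.Zas Cfsg.Agent.Helper29.Zas.M168 in
  have hW1mem : ∀ u, u ∈ W1 ↔ c u ∈ V1L := fun u => Iff.rfl
  open Cfsg.Agent.Helper29.Zas Cfsg.Agent.Helper29.Zas.M168 in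
  have hW2mem : ∀ u, u ∈ W2 ↔ c u ∈ V2L := fun u => Iff.rfl
  open Cfsg.Agent.Helper29.Zas Cfsg.Agent.Helper29.Zas.M168 in
  have hW1T : W1 ≤ (T : Subgroup G) := fun u hu => (hT u).mpr (kdata1.subT _ hu)
  open Cfsg.Agent.Helper29.Zas Cfsg.Agent.Helper29.Zas.M168 in
  have hW2T : W2 ≤ (T : Subgroup G) := fun u hu => (hT u).mpr (kdata2.subT _ hu)
  open Cfsg.Agent.Helper29.Zas Cfsg.Agent.Helper29.Zas.M168 in
  have hW1K : IsKleinFour W1 := hM.sub_klein kdata1 W1 hW1mem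
  open Cfsg.Agent.Helper29.Zas Cfsg.Agent.Helper29.Zas.M168 in
  have hW2K : IsKleinFour W2 := hM.sub_klein kdata2 W2 hW2mem
  open Cfsg.Agent.Helper29.Zas Cfsg.Agent.Helper29.Zas.M168 in
  have hW12 : W1 ≠ W2 := by
    obtain ⟨A, hA1, hA2⟩ := V12_ne
    obtain ⟨a, rfl⟩ := hM.surj A (kdata1.sub A hA1)
    intro hcon
    have : a ∈ W2 := by rw [← hcon]; exact hA1
    exact hA2 this
  have heq1 : ∀ U : Subgroup G, (∀ u, u ∈ U ↔ c u ∈ Cfsg.Agent.Helper29.Zas.M168.V1L) → U = W1 :=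
    fun U hU => Subgroup.ext fun u => (hU u).trans (hW1mem u).symm
  have heq2 : ∀ U : Subgroup G, (∀ u, u ∈ U ↔ c u ∈ Cfsg.Agent.Helper29.Zas.M168.V2L) → U = W2 :=
    fun U hU => Subgroup.ext fun u => (hU u).trans (hW2mem u).symm
  have hcases : ∀ U : Subgroup G, U ≤ (T : Subgroup G) → IsKleinFour ↥U → U = W1 ∨ U = W2 := by
    intro U hUT hU
    rcases key U hUT hU with h1 | h2
    · exact Or.inl (heq1 U h1)
    · exact Or.inr (heq2 U h2)
  open Cfsg.Agent.Helper29.Zas Cfsg.Agent.Helper29.Zas.M168 in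
  have hnc12 : ∀ g : G, W1.map (MulAut.conj g).toMonoidHom ≠ W2 := by
    intro g hcon
    obtain ⟨A, hA, hAB⟩ := nonconj12 (c g) (hM.mem g)
    obtain ⟨a, rfl⟩ := hM.surj A (kdata1.sub A hA)
    have h1 : g * a * g⁻¹ ∈ W2 := by
      rw [← hcon]
      exact Subgroup.mem_map_of_mem (MulAut.conj g).toMonoidHom (show a ∈ W1 from hA)
    apply hAB _ h1
    rw [← hM.mul, ← hM.mul]
    congr 1; group
  open Cfsg.Agent.Helper29.Zas Cfsg.Agent.Helper29.Zas.M168 in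
  have hnc21 : ∀ g : G, W2.map (MulAut.conj g).toMonoidHom ≠ W1 := by
    intro g hcon
    obtain ⟨A, hA, hAB⟩ := nonconj21 (c g) (hM.mem g)
    obtain ⟨a, rfl⟩ := hM.surj A (kdata2.sub A hA)
    have h1 : g * a * g⁻¹ ∈ W1 := by
      rw [← hcon]
      exact Subgroup.mem_map_of_mem (MulAut.conj g).toMonoidHom (show a ∈ W2 from hA)
    apply hAB _ h1
    rw [← hM.mul, ← hM.mul]
    congr 1; group
  refine ⟨?_, ?_, ?_⟩
  · rw [Nat.card_eq_two_iff]
    refine ⟨⟨W1, hW1T, hW1K⟩, ⟨W2, hW2T, hW2K⟩, ?_, ?_⟩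
    · intro hcon
      exact hW12 (congrArg Subtype.val hcon)
    · ext x
      simp only [Set.mem_insert_iff, Set.mem_singleton_iff, Set.mem_univ, iff_true]
      rcases hcases x.1 x.2.1 x.2.2 with h1 | h2
      · left; exact Subtype.ext h1
      · right; exact Subtype.ext h2
  · intro U W hUT hWT hU hW hne g
    rcases hcases U hUT hU with rfl | rfl <;> rcases hcases W hWT hW with rfl | rfl
    · exact absurd rfl hne
    · exact hnc12 g
    · exact hnc21 g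
    · exact absurd rfl hne
  · intro U hU
    have hp : IsPGroup 2 U := IsPGroup.of_card (n := 2) (by rw [hU.card_four]; norm_num)
    obtain ⟨T', hUT'⟩ := hp.exists_le_sylow
    obtain ⟨c', hM', hT'⟩ := hM₀.exists_model_sylow2 h T'
    rcases hM'.klein_in_T0 (T' : Subgroup G) hT' U hUT' hU with h1 | h2
    · exact hM'.normalizer_equiv Cfsg.Agent.Helper29.Zas.M168.kdata1 U h1
    · exact hM'.normalizer_equiv Cfsg.Agent.Helper29.Zas.M168.kdata2 U h2

end Cfsg.Agent.S1007
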