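import Cfsg.Statements.S1008
import Mathlib
import Cfsg.Agent.Helper29.Zas.M168MaxG

set_option autoImplicit false
open Cfsg

namespace Cfsg.Agent.S1008

theorem result {G : Type*} [Group G] [Finite G] [IsSimpleGroup G] (h : Nat.card G = 168) : (∀ M : Subgroup G, IsCoatom M → Nonempty (↥M ≃* Equiv.Perm (Fin 4)) ∨ (Nat.card ↥M = 21 ∧ ¬ IsMulCommutative ↥M)) ∧ (∀ M M' : Subgroup G, IsCoatom M → IsCoatom M' → Nat.card ↥M = 21 → Nat.card ↥M' = 21 → ∃ g : G, M' = M.map (MulAut.conj g).toMonoidHom) ∧ ∃ M₁ M₂ : Subgroup G, IsCoatom M₁ ∧ IsCoatom M₂ ∧ Nonempty (↥M₁ ≃* Equiv.Perm (Fin 4)) ∧ Nonempty (↥M₂ ≃* Equiv.Perm (Fin 4)) ∧ (∀ g : G, M₂ ≠ M₁.map (MulAut.conj g).toMonoidHom) ∧ ∀ M : Subgroup G, IsCoatom M → Nonempty (↥M ≃* Equiv.Perm (Fin 4)) → ∃ g : G, M = M₁.map (MulAut.conj g).toMonoidHom ∨ M = M₂.map (MulAut.conj g).toMonoidHom := by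
  classical
  obtain ⟨c, hM⟩ := Cfsg.Agent.Helper29.Zas.M168.exists_model h
  have hcardB : ∀ u : G, Nat.card (hM.conj u).Bs = 21 := fun u => (hM.conj u).card_Bs
  have hcardM1 : ∀ u : G, Nat.card ((hM.conj u).Ms Cfsg.Agent.Helper29.Zas.M168.kdata1) = 24 :=
    fun u => (hM.conj u).card_Ms _
  have hcardM2 : ∀ u : G, Nat.card ((hM.conj u).Ms Cfsg.Agent.Helper29.Zas.M168.kdata2) = 24 :=
    fun u => (hM.conj u).card_Ms _
  have hcardS4 : ∀ (M : Subgroup G), Nonempty (↥M ≃* Equiv.Perm (Fin 4)) → Nat.card M = 24 := by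
    rintro M ⟨e⟩
    rw [Nat.card_congr e.toEquiv, Nat.card_eq_fintype_card, Fintype.card_perm, Fintype.card_fin]
    rfl
  have hclass := fun M hMc => hM.max_class h M hMc
  -- the standard subgroups are coatoms
  have hcoatom : ∀ (K : Subgroup G), Nat.card K = 24 → IsCoatom K := by
    intro K hK
    have hKne : K ≠ ⊤ := by
      intro htop
      rw [htop, Subgroup.card_top, h] at hK
      omega
    obtain ⟨L, hL, hKL⟩ := (eq_top_or_exists_le_coatom K).resolve_left hKne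
    have hdvd := Subgroup.card_dvd_of_le hKL
    rw [hK] at hdvd
    have hLcard : Nat.card L = 24 := by
      obtain ⟨u, hu | hu | hu⟩ := hclass L hL
      · rw [hu, hcardB u] at hdvd; omega
      · rw [hu]; exact hcardM1 u
      · rw [hu]; exact hcardM2 u
    have : K = L := Subgroup.eq_of_le_of_card_ge hKL (by rw [hK, hLcard])
    rw [this]; exact hL
  refine ⟨?_, ?_, ?_⟩
  · intro M hMc
    obtain ⟨u, hu | hu | hu⟩ := hclass M hMc
    · right
      refine ⟨by rw [hu]; exact hcardB u, ?_⟩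
      intro hcomm
      obtain ⟨A, hA, B, hB, hAB⟩ := Cfsg.Agent.Helper29.Zas.M168.N7_nc
      obtain ⟨a, ha⟩ := (hM.conj u).surj A (Cfsg.Agent.Helper29.Zas.M168.N7_sub A hA)
      obtain ⟨b, hb⟩ := (hM.conj u).surj B (Cfsg.Agent.Helper29.Zas.M168.N7_sub B hB)
      have haM : a ∈ M := by rw [hu, (hM.conj u).mem_Bs, ha]; exact hA
      have hbM : b ∈ M := by rw [hu, (hM.conj u).mem_Bs, hb]; exact hB
      have hcm : (⟨a, haM⟩ : M) * ⟨b, hbM⟩ = ⟨b, hbM⟩ * ⟨a, haM⟩ := mul_comm' _ _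
      have hcm' : a * b = b * a := congrArg Subtype.val hcm
      apply hAB
      rw [← ha, ← hb, ← (hM.conj u).mul, ← (hM.conj u).mul, hcm']
    · left; rw [hu]; exact (hM.conj u).equiv_Ms _
    · left; rw [hu]; exact (hM.conj u).equiv_Ms _
  · intro M M' hMc hMc' hM21 hM21'
    obtain ⟨u, hu⟩ : ∃ u, M = (hM.conj u).Bs := by
      obtain ⟨u, hu | hu | hu⟩ := hclass M hMc
      · exact ⟨u, hu⟩
      · rw [hu, hcardM1 u] at hM21; omega
      · rw [hu, hcardM2 u] at hM21; omega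
    obtain ⟨v, hv⟩ : ∃ v, M' = (hM.conj v).Bs := by
      obtain ⟨u, hu | hu | hu⟩ := hclass M' hMc'
      · exact ⟨u, hu⟩
      · rw [hu, hcardM1 u] at hM21'; omega
      · rw [hu, hcardM2 u] at hM21'; omega
    refine ⟨v * u⁻¹, ?_⟩
    ext y
    rw [Cfsg.Agent.Helper29.Zas.M168.max_mem_map_conj, hu, hv, (hM.conj v).mem_Bs,
      (hM.conj u).mem_Bs]
    have : u⁻¹ * ((v * u⁻¹)⁻¹ * y * (v * u⁻¹)) * u = v⁻¹ * y * v := by group
    show c (v⁻¹ * y * v) ∈ _ ↔ c (u⁻¹ * ((v * u⁻¹)⁻¹ * y * (v * u⁻¹)) * u) ∈ _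
    rw [this]
  · refine ⟨hM.Ms Cfsg.Agent.Helper29.Zas.M168.kdata1, hM.Ms Cfsg.Agent.Helper29.Zas.M168.kdata2,
      hcoatom _ (hM.card_Ms _), hcoatom _ (hM.card_Ms _), hM.equiv_Ms _, hM.equiv_Ms _, ?_, ?_⟩
    · intro g heq
      obtain ⟨X', hX', hXX', A, hA, hA1, hA2⟩ :=
        Cfsg.Agent.Helper29.Zas.M168.nonconjN (c g) (hM.mem g)
      obtain ⟨g', rfl⟩ := hM.surj X' hX'
      obtain ⟨a, rfl⟩ := hM.surj A hA
      have hg' : g' = g⁻¹ := by
        apply eq_inv_of_mul_eq_one_right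
        rw [← hM.eq_one_iff, hM.mul]; exact hXX'
      have ha1 : a ∈ hM.Ms Cfsg.Agent.Helper29.Zas.M168.kdata1 := (hM.mem_Ms _ a).mpr hA1
      have h2 : g * a * g⁻¹ ∈ hM.Ms Cfsg.Agent.Helper29.Zas.M168.kdata2 := by
        rw [heq, Cfsg.Agent.Helper29.Zas.M168.max_mem_map_conj]
        have : g⁻¹ * (g * a * g⁻¹) * g = a := by group
        rw [this]; exact ha1
      rw [hM.mem_Ms, hM.mul, hM.mul, ← hg', hA2] at h2
      exact Bool.false_ne_true h2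
    · intro M hMc hMe
      have h24 := hcardS4 M hMe
      obtain ⟨u, hu | hu | hu⟩ := hclass M hMc
      · rw [hu, hcardB u] at h24; omega
      · exact ⟨u, Or.inl (by rw [hu, hM.Ms_conj])⟩
      · exact ⟨u, Or.inr (by rw [hu, hM.Ms_conj])⟩

end Cfsg.Agent.S1008
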