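import Mathlib
import Cfsg.Statements.S1009
import Cfsg.Agent.Helper5.Grp

namespace Cfsg.Agent.S1009

open Cfsg.Agent.Helper5

theorem result {G : Type*} [Group G] [Finite G] (p : ℕ) [Fact p.Prime] (hab : ∀ P : Sylow p G, IsMulCommutative ↥(P : Subgroup G)) : ∃ P Q : Sylow p G, (P : Subgroup G) ⊓ (Q : Subgroup G) = ⨅ R : Sylow p G, (R : Subgroup G) := by
  obtain ⟨⟨P, Q⟩, hmin⟩ := Finite.exists_min
    (fun x : Sylow p G × Sylow p G => Nat.card ↥((x.1 : Subgroup G) ⊓ (x.2 : Subgroup G)))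
  refine ⟨P, Q, le_antisymm ?_ ?_⟩
  swap
  · exact le_inf (iInf_le _ P) (iInf_le _ Q)
  rw [le_iInf_iff]
  intro R
  set D := (P : Subgroup G) ⊓ (Q : Subgroup G) with hD
  set N := Subgroup.normalizer (D : Set G) with hN
  have hcomm : ∀ (S : Sylow p G) (x y : G), x ∈ (S : Subgroup G) → y ∈ (S : Subgroup G) →
      x * y = y * x := by
    intro S x y hx hy
    have := hab S
    exact setLike_mul_comm hx hy
  have hPN : (P : Subgroup G) ≤ N := by
    intro x hx
    apply mem_normalizer_of_conj_mem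
    intro d hd
    have : x * d * x⁻¹ = d := by rw [hcomm P x d hx hd.1]; group
    rw [this]; exact hd
  have hQN : (Q : Subgroup G) ≤ N := by
    intro x hx
    apply mem_normalizer_of_conj_mem
    intro d hd
    have : x * d * x⁻¹ = d := by rw [hcomm Q x d hx hd.2]; group
    rw [this]; exact hd
  obtain ⟨n, hnN, hn⟩ := exists_conj_mem_sylow_rel N P hPN ((R : Subgroup G) ⊓ N)
    (R.2.to_le inf_le_left) inf_le_right
  have hsub : (((n • R : Sylow p G) : Subgroup G) ⊓ (Q : Subgroup G)) ≤ D := by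
    intro x hx
    have hx1 : x ∈ ((n • R : Sylow p G) : Subgroup G) := hx.1
    have hx2 : x ∈ (Q : Subgroup G) := hx.2
    rw [mem_sylow_smul] at hx1
    have hxN : x ∈ N := hQN hx2
    have h3 : n⁻¹ * x * n ∈ N := N.mul_mem (N.mul_mem (N.inv_mem hnN) hxN) hnN
    have h4 := hn _ ⟨hx1, h3⟩
    have h5 : n * (n⁻¹ * x * n) * n⁻¹ = x := by group
    rw [h5] at h4
    exact ⟨h4, hx2⟩
  have heq : (((n • R : Sylow p G) : Subgroup G) ⊓ (Q : Subgroup G)) = D :=
    Subgroup.eq_of_le_of_card_ge hsub (hmin (n • R, Q))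
  intro d hd
  have h6 : n * d * n⁻¹ ∈ D := conj_mem_of_mem_normalizer hnN hd
  rw [← heq] at h6
  have h7 : n * d * n⁻¹ ∈ ((n • R : Sylow p G) : Subgroup G) := h6.1
  rw [mem_sylow_smul] at h7
  have h8 : n⁻¹ * (n * d * n⁻¹) * n = d := by group
  rw [h8] at h7; exact h7

end Cfsg.Agent.S1009
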