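import Mathlib
import Cfsg.Statements.S1018
import Cfsg.Agent.Helper5.Grp

namespace Cfsg.Agent.S1018

open Cfsg.Agent.Helper5

variable {G : Type*} [Group G] [Finite G] {p : ℕ} [Fact p.Prime]

omit [Finite G] in
theorem fix_iff (N : Subgroup G) (y g : G) :
    y • (g : G ⧸ N) = (g : G ⧸ N) ↔ g⁻¹ * y * g ∈ N := by
  rw [MulAction.Quotient.smul_mk, QuotientGroup.eq, smul_eq_mul, ← N.inv_mem_iff]
  have : ((y * g)⁻¹ * g)⁻¹ = g⁻¹ * y * g := by group
  rw [this]

theorem zpowers_eq_of_mem (P : Sylow p G) (hP : Nat.card ↥(P : Subgroup G) = p) (u : G)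
    (hu : u ∈ (P : Subgroup G)) (hu1 : u ≠ 1) : Subgroup.zpowers u = (P : Subgroup G) := by
  have hp : p.Prime := Fact.out
  have hle : Subgroup.zpowers u ≤ (P : Subgroup G) := Subgroup.zpowers_le.mpr hu
  apply Subgroup.eq_of_le_of_card_ge hle
  have hdvd := Subgroup.card_dvd_of_le hle
  rw [hP] at hdvd ⊢
  rcases (Nat.dvd_prime hp).mp hdvd with h | h
  · exfalso
    rw [Nat.card_zpowers, orderOf_eq_one_iff] at h
    exact hu1 h
  · exact h.ge

theorem zpowers_eq_of_mem_normalizer (P : Sylow p G) (hP : Nat.card ↥(P : Subgroup G) = p) (w : G)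
    (hw : w ∈ Subgroup.normalizer ((P : Subgroup G) : Set G)) (hwo : orderOf w = p) :
    Subgroup.zpowers w = (P : Subgroup G) := by
  have hp : p.Prime := Fact.out
  have hpg : IsPGroup p (Subgroup.zpowers w) := by
    apply IsPGroup.of_card (n := 1)
    rw [Nat.card_zpowers, hwo, pow_one]
  have h1 := hpg.inf_normalizer_sylow P
  have hwP : w ∈ (P : Subgroup G) := by
    have : w ∈ Subgroup.zpowers w ⊓ Subgroup.normalizer ((P : Subgroup G) : Set G) :=
      ⟨Subgroup.mem_zpowers w, hw⟩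
    exact (h1.le this).2
  apply zpowers_eq_of_mem P hP w hwP
  rintro rfl
  rw [orderOf_one] at hwo
  exact hp.ne_one hwo.symm

theorem mem_normalizer_of_zpowers (P : Subgroup G) (w h : G)
    (hw : Subgroup.zpowers w = P) (hc : h * w * h⁻¹ ∈ P) :
    h ∈ Subgroup.normalizer (P : Set G) := by
  apply mem_normalizer_of_conj_mem
  intro t ht
  rw [← hw, Subgroup.mem_zpowers_iff] at ht
  obtain ⟨k, rfl⟩ := ht
  rw [← conj_zpow]
  exact P.zpow_mem hc k

omit [Finite G] in
theorem orderOf_conj' (g y : G) : orderOf (g⁻¹ * y * g) = orderOf y := by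
  have := (MulAut.conj g⁻¹).orderOf_eq y
  simpa using this

theorem result {G : Type*} [Group G] [Finite G] (p : ℕ) [Fact p.Prime] (P : Sylow p G) (hP : Nat.card ↥(P : Subgroup G) = p) : (∀ y : G, orderOf y = p → Nat.card (MulAction.fixedBy (G ⧸ Subgroup.normalizer ((P : Subgroup G) : Set G)) y) = 1) ∧ ∀ x : G, x ∈ Subgroup.normalizer ((P : Subgroup G) : Set G) → x ∉ Subgroup.centralizer ((P : Subgroup G) : Set G) → Nat.card (MulAction.fixedBy (G ⧸ Subgroup.normalizer ((P : Subgroup G) : Set G)) x) ≤ Nat.card (MulAction.orbitRel.Quotient ↥(P : Subgroup G) (G ⧸ Subgroup.normalizer ((P : Subgroup G) : Set G))) := by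
  have hp : p.Prime := Fact.out
  set N := Subgroup.normalizer ((P : Subgroup G) : Set G) with hN
  have hPN : (P : Subgroup G) ≤ N := Subgroup.le_normalizer
  constructor
  · intro y hy
    rw [Nat.card_eq_one_iff_unique]
    constructor
    · constructor
      rintro ⟨ω₁, h1⟩ ⟨ω₂, h2⟩
      apply Subtype.ext
      show ω₁ = ω₂
      obtain ⟨g₁, rfl⟩ := QuotientGroup.mk_surjective ω₁
      obtain ⟨g₂, rfl⟩ := QuotientGroup.mk_surjective ω₂
      rw [MulAction.mem_fixedBy, fix_iff] at h1 h2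
      have e1 := zpowers_eq_of_mem_normalizer P hP _ h1 ((orderOf_conj' g₁ y).trans hy)
      have e2 := zpowers_eq_of_mem_normalizer P hP _ h2 ((orderOf_conj' g₂ y).trans hy)
      have hc : (g₂⁻¹ * g₁) * (g₁⁻¹ * y * g₁) * (g₂⁻¹ * g₁)⁻¹ ∈ (P : Subgroup G) := by
        have : (g₂⁻¹ * g₁) * (g₁⁻¹ * y * g₁) * (g₂⁻¹ * g₁)⁻¹ = g₂⁻¹ * y * g₂ := by group
        rw [this, ← e2]
        exact Subgroup.mem_zpowers _
      have := mem_normalizer_of_zpowers (P : Subgroup G) _ _ e1 hc
      rw [QuotientGroup.eq]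
      have h3 := N.inv_mem this
      simpa using h3
    · obtain ⟨h, hh⟩ := exists_conj_mem_sylow' P (Subgroup.zpowers y) (by
        apply IsPGroup.of_card (n := 1)
        rw [Nat.card_zpowers, hy, pow_one])
      refine ⟨⟨((h⁻¹ : G) : G ⧸ N), ?_⟩⟩
      rw [MulAction.mem_fixedBy, fix_iff]
      have := hPN (hh y (Subgroup.mem_zpowers y))
      simpa using this
  · intro x hxN hxC
    have : Finite (MulAction.orbitRel.Quotient ↥(P : Subgroup G) (G ⧸ N)) :=
      Quotient.finite _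
    apply Nat.card_le_card_of_injective
      (fun ω : MulAction.fixedBy (G ⧸ N) x =>
        (Quotient.mk'' ω.1 : MulAction.orbitRel.Quotient ↥(P : Subgroup G) (G ⧸ N)))
    rintro ⟨ω₁, h1⟩ ⟨ω₂, h2⟩ h12
    apply Subtype.ext
    show ω₁ = ω₂
    have h12' : MulAction.orbitRel ↥(P : Subgroup G) (G ⧸ N) ω₁ ω₂ := Quotient.exact' h12
    rw [MulAction.orbitRel_apply] at h12'
    obtain ⟨⟨u, huP⟩, hu⟩ := h12'
    have hu' : u • ω₂ = ω₁ := hu
    rw [MulAction.mem_fixedBy] at h1 h2
    by_cases hu1 : u = 1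
    · rw [hu1, one_smul] at hu'
      exact hu'.symm
    have hzu := zpowers_eq_of_mem P hP u huP hu1
    -- v = u⁻¹ * (x u x⁻¹)
    have hxu : x * u * x⁻¹ ∈ (P : Subgroup G) := conj_mem_of_mem_normalizer hxN huP
    have hvP : u⁻¹ * (x * u * x⁻¹) ∈ (P : Subgroup G) :=
      (P : Subgroup G).mul_mem ((P : Subgroup G).inv_mem huP) hxu
    have hx2' : x⁻¹ • ω₂ = ω₂ := by
      conv_lhs => rw [← h2]
      rw [inv_smul_smul]
    have hvfix : (u⁻¹ * (x * u * x⁻¹)) • ω₂ = ω₂ := by
      rw [mul_smul, mul_smul, mul_smul, hx2', hu', h1, ← hu', inv_smul_smul]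
    by_cases hv1 : u⁻¹ * (x * u * x⁻¹) = 1
    · -- x commutes with u, hence centralizes P
      exfalso
      apply hxC
      rw [Subgroup.mem_centralizer_iff]
      intro t ht
      have ht' : t ∈ Subgroup.zpowers u := by rw [hzu]; exact ht
      rw [Subgroup.mem_zpowers_iff] at ht'
      obtain ⟨k, rfl⟩ := ht'
      have hcomm : Commute x u := by
        have : x * u * x⁻¹ = u := by
          have := congrArg (fun z => u * z) hv1
          simpa using this
        show x * u = u * x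
        calc x * u = x * u * x⁻¹ * x := by group
          _ = u * x := by rw [this]
      exact ((hcomm.zpow_right k).eq).symm
    · -- v ≠ 1 fixes ω₂, so ω₂ is the trivial coset
      obtain ⟨g₂, rfl⟩ := QuotientGroup.mk_surjective ω₂
      rw [fix_iff] at hvfix
      have hzv := zpowers_eq_of_mem P hP _ hvP hv1
      have hvo : orderOf (u⁻¹ * (x * u * x⁻¹)) = p := by
        rw [← Nat.card_zpowers, hzv, hP]
      have hzw := zpowers_eq_of_mem_normalizer P hP _ hvfix ((orderOf_conj' g₂ _).trans hvo)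
      have hc : g₂⁻¹ * (u⁻¹ * (x * u * x⁻¹)) * g₂⁻¹⁻¹ ∈ (P : Subgroup G) := by
        rw [inv_inv, ← hzw]
        exact Subgroup.mem_zpowers _
      have hg2 := mem_normalizer_of_zpowers (P : Subgroup G) _ _ hzv hc
      have hg2' : g₂ ∈ N := by simpa using N.inv_mem hg2
      rw [← hu', MulAction.Quotient.smul_mk, QuotientGroup.eq, smul_eq_mul]
      exact N.mul_mem (N.inv_mem (N.mul_mem (hPN huP) hg2')) hg2'

end Cfsg.Agent.S1018
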