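import Mathlib
import Cfsg.Statements.S1012
import Cfsg.Agent.Helper5.Simple
import Cfsg.Agent.Helper5.Grp
import Cfsg.Agent.S1018

namespace Cfsg.Agent.S1012

open Cfsg.Agent.Helper5

theorem result {G : Type*} [Group G] [Finite G] (h : Nat.card G = 24) (h6 : ∀ g : G, orderOf g ≠ 6) : Nonempty (G ≃* Equiv.Perm (Fin 4)) := by
  have : Fact (Nat.Prime 3) := ⟨by norm_num⟩
  have : Fact (Nat.Prime 2) := ⟨by norm_num⟩
  have hG' : Nat.card G = 3 ^ 1 * 8 := h.trans (by norm_num)
  let P : Sylow 3 G := default
  have hcardP : Nat.card (P : Subgroup G) = 3 := by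
    simpa using sylow_card_eq hG' (by norm_num) P
  obtain ⟨y, hy⟩ := exists_prime_orderOf_dvd_card' (G := (P : Subgroup G)) 3 (by rw [hcardP])
  have hyG : orderOf (y : G) = 3 := by rw [Subgroup.orderOf_coe]; exact hy
  have hnocomm : ∀ t : G, orderOf t = 2 → ¬ Commute t (y : G) := by
    intro t ht hc
    apply h6 (t * (y : G))
    rw [hc.orderOf_mul_eq_mul_orderOf_of_coprime (by rw [ht, hyG]; norm_num), ht, hyG]
  have hn : Nat.card (Sylow 3 G) = 4 := by
    have h1 : Nat.card (Sylow 3 G) ∣ 8 := card_sylow_dvd hG' (by norm_num)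
    have h2 := card_sylow_modEq_one 3 G
    have h3 : Nat.card (Sylow 3 G) ≠ 1 := by
      intro h1'
      have : Subsingleton (Sylow 3 G) := (Nat.card_eq_one_iff_unique.mp h1').1
      have hPn : (P : Subgroup G).Normal := P.normal_of_subsingleton
      have hNtop : Subgroup.normalizer ((P : Subgroup G) : Set G) = ⊤ :=
        Subgroup.normalizer_eq_top_iff.mpr hPn
      have hrel := relIndex_centralizer_dvd_card_mulAut (P : Subgroup G)
      have : IsCyclic (P : Subgroup G) := isCyclic_of_prime_card hcardP
      rw [hNtop, Subgroup.relIndex_top_right, IsCyclic.card_mulAut, hcardP,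
        Nat.totient_prime (by norm_num)] at hrel
      have hcm := Subgroup.card_mul_index (Subgroup.centralizer ((P : Subgroup G) : Set G))
      rw [h] at hcm
      have h2dvd : 2 ∣ Nat.card (Subgroup.centralizer ((P : Subgroup G) : Set G)) := by
        have hle := Nat.le_of_dvd (by norm_num) hrel
        revert hrel hcm hle
        generalize (Subgroup.centralizer ((P : Subgroup G) : Set G)).index = i
        generalize Nat.card (Subgroup.centralizer ((P : Subgroup G) : Set G)) = c
        intro hrel hcm hle
        interval_cases i <;> omega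
      obtain ⟨t, ht⟩ := exists_prime_orderOf_dvd_card'
        (G := Subgroup.centralizer ((P : Subgroup G) : Set G)) 2 h2dvd
      apply hnocomm (t : G) (by rw [Subgroup.orderOf_coe]; exact ht)
      exact ((Subgroup.mem_centralizer_iff.mp t.2) y y.2).symm
    have hle := Nat.le_of_dvd (by norm_num) h1
    unfold Nat.ModEq at h2
    revert h1 h2 h3 hle
    generalize Nat.card (Sylow 3 G) = n
    intro h1 h2 h3 hle
    interval_cases n <;> omega
  have hNidx : (Subgroup.normalizer ((P : Subgroup G) : Set G)).index = 4 := by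
    rw [← hn]; exact P.card_eq_index_normalizer.symm
  have hNcard : Nat.card (Subgroup.normalizer ((P : Subgroup G) : Set G)) = 6 := by
    have h1 := Subgroup.card_mul_index (Subgroup.normalizer ((P : Subgroup G) : Set G))
    rw [hNidx, h] at h1; omega
  have hA : ∀ x ∈ (Subgroup.normalizer ((P : Subgroup G) : Set G)).normalCore,
      orderOf x ≠ 3 := by
    intro x hx hox
    have hxN : x ∈ Subgroup.normalizer ((P : Subgroup G) : Set G) :=
      Subgroup.normalCore_le _ hx
    have hz := Cfsg.Agent.S1018.zpowers_eq_of_mem_normalizer P hcardP x hxN hox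
    have hall : ∀ Q : Sylow 3 G, Q = P := by
      intro Q
      obtain ⟨g, rfl⟩ := MulAction.exists_smul_eq G P Q
      have hQN : ((g • P : Sylow 3 G) : Subgroup G) ≤
          Subgroup.normalizer ((P : Subgroup G) : Set G) := by
        intro q hq
        rw [mem_sylow_smul] at hq
        have h1 : g⁻¹ * q * g ∈ (Subgroup.normalizer ((P : Subgroup G) : Set G)).normalCore := by
          have : g⁻¹ * q * g ∈ Subgroup.zpowers x := by rw [hz]; exact hq
          exact (Subgroup.zpowers_le.mpr hx) this
        have h2 := (Subgroup.normalCore_normal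
          (Subgroup.normalizer ((P : Subgroup G) : Set G))).conj_mem _ h1 g
        have e : g * (g⁻¹ * q * g) * g⁻¹ = q := by group
        rw [e] at h2
        exact Subgroup.normalCore_le _ h2
      have h3 := (g • P).2.inf_normalizer_sylow P
      have h4 : ((g • P : Sylow 3 G) : Subgroup G) ≤ P := by
        intro q hq
        exact (h3.le ⟨hq, hQN hq⟩).2
      exact Sylow.ext ((g • P).is_maximal' P.2 h4).symm
    have h1 : Nat.card (Sylow 3 G) = 1 :=
      Nat.card_eq_one_iff_unique.mpr ⟨⟨fun a b => (hall a).trans (hall b).symm⟩, ⟨P⟩⟩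
    omega
  have hB : ∀ t ∈ (Subgroup.normalizer ((P : Subgroup G) : Set G)).normalCore,
      orderOf t ≠ 2 := by
    intro t ht hot
    apply hnocomm t hot
    have hcK : t * (y : G) * t⁻¹ * (y : G)⁻¹ ∈
        (Subgroup.normalizer ((P : Subgroup G) : Set G)).normalCore := by
      have h1 := (Subgroup.normalCore_normal
        (Subgroup.normalizer ((P : Subgroup G) : Set G))).conj_mem _
        (Subgroup.inv_mem _ ht) (y : G)
      have e : t * (y : G) * t⁻¹ * (y : G)⁻¹ = t * ((y : G) * t⁻¹ * (y : G)⁻¹) := by group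
      rw [e]; exact Subgroup.mul_mem _ ht h1
    have hcP : t * (y : G) * t⁻¹ * (y : G)⁻¹ ∈ (P : Subgroup G) :=
      (P : Subgroup G).mul_mem
        (conj_mem_of_mem_normalizer (Subgroup.normalCore_le _ ht) y.2)
        ((P : Subgroup G).inv_mem y.2)
    by_cases hc1 : t * (y : G) * t⁻¹ * (y : G)⁻¹ = 1
    · show t * (y : G) = (y : G) * t
      have : t * (y : G) = t * (y : G) * t⁻¹ * (y : G)⁻¹ * ((y : G) * t) := by group
      rw [this, hc1, one_mul]
    · exfalso
      have hz := Cfsg.Agent.S1018.zpowers_eq_of_mem P hcardP _ hcP hc1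
      apply hA _ hcK
      rw [← Nat.card_zpowers, hz, hcardP]
  have hK : (Subgroup.normalizer ((P : Subgroup G) : Set G)).normalCore = ⊥ := by
    rw [← Subgroup.card_eq_one]
    by_contra hne
    obtain ⟨p, hp, hpd⟩ := Nat.exists_prime_and_dvd hne
    have hp6 : p ∣ 6 := hpd.trans (hNcard ▸ Subgroup.card_dvd_of_le (Subgroup.normalCore_le _))
    have hp23 : p = 2 ∨ p = 3 := by
      have hple := Nat.le_of_dvd (by norm_num) hp6
      interval_cases p <;> first | omega | (exfalso; revert hp; decide)
    have := Fact.mk hp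
    obtain ⟨x, hx⟩ := exists_prime_orderOf_dvd_card'
      (G := (Subgroup.normalizer ((P : Subgroup G) : Set G)).normalCore) p hpd
    have hxG : orderOf (x : G) = p := by rw [Subgroup.orderOf_coe]; exact hx
    rcases hp23 with rfl | rfl
    · exact hB x x.2 hxG
    · exact hA x x.2 hxG
  have hinj : Function.Injective (MulAction.toPermHom G
      (G ⧸ Subgroup.normalizer ((P : Subgroup G) : Set G))) := by
    rw [← MonoidHom.ker_eq_bot_iff, ← Subgroup.normalCore_eq_ker]; exact hK
  have hcardQ : Nat.card (G ⧸ Subgroup.normalizer ((P : Subgroup G) : Set G)) = 4 := hNidx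
  have hbij : Function.Bijective (MulAction.toPermHom G
      (G ⧸ Subgroup.normalizer ((P : Subgroup G) : Set G))) := by
    apply hinj.bijective_of_nat_card_le
    rw [Nat.card_perm, hcardQ, h]; decide
  exact ⟨(MulEquiv.ofBijective _ hbij).trans
    (Equiv.permCongrHom (Finite.equivFinOfCardEq hcardQ))⟩

end Cfsg.Agent.S1012
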