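import Mathlib
import Cfsg.Statements.S1014
import Cfsg.Agent.Helper5.Simple
import Cfsg.Agent.Helper5.Grp
import Cfsg.Agent.S1018

namespace Cfsg.Agent.S1014

open Cfsg.Agent.Helper5

/-- If `|P| = p` and `n_p = p + 1`, then `P` has exactly (at most) two orbits on `G / N_G(P)`. -/
theorem card_orbits_le_two {G : Type*} [Group G] [Finite G] {p : ℕ} [Fact p.Prime]
    (P : Sylow p G) (hP : Nat.card (P : Subgroup G) = p)
    (hidx : (Subgroup.normalizer ((P : Subgroup G) : Set G)).index = p + 1) :
    Nat.card (MulAction.orbitRel.Quotient (P : Subgroup G)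
      (G ⧸ Subgroup.normalizer ((P : Subgroup G) : Set G))) ≤ 2 := by
  classical
  have hp : p.Prime := Fact.out
  let _ : Fintype (MulAction.orbitRel.Quotient (P : Subgroup G)
      (G ⧸ Subgroup.normalizer ((P : Subgroup G) : Set G))) := Fintype.ofFinite _
  have hcard : Nat.card (G ⧸ Subgroup.normalizer ((P : Subgroup G) : Set G)) =
      ∑ ω : MulAction.orbitRel.Quotient (P : Subgroup G)
        (G ⧸ Subgroup.normalizer ((P : Subgroup G) : Set G)),
        Nat.card (MulAction.orbit (P : Subgroup G) ω.out) := by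
    rw [Nat.card_congr (MulAction.selfEquivSigmaOrbits (P : Subgroup G)
      (G ⧸ Subgroup.normalizer ((P : Subgroup G) : Set G))), Nat.card_sigma]
  have hΩ : Nat.card (G ⧸ Subgroup.normalizer ((P : Subgroup G) : Set G)) = p + 1 := hidx
  have horb : ∀ ω : G ⧸ Subgroup.normalizer ((P : Subgroup G) : Set G),
      Nat.card (MulAction.orbit (P : Subgroup G) ω) = 1 ∨
      Nat.card (MulAction.orbit (P : Subgroup G) ω) = p := by
    intro ω
    have h1 : Nat.card (MulAction.orbit (P : Subgroup G) ω) ∣ p := by
      rw [Nat.card_coe_set_eq, ← MulAction.index_stabilizer]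
      conv_rhs => rw [← hP]
      exact Subgroup.index_dvd_card _
    exact (Nat.dvd_prime hp).mp h1
  obtain ⟨y, hy⟩ := exists_prime_orderOf_dvd_card' (G := (P : Subgroup G)) p (by rw [hP])
  have hyG : orderOf (y : G) = p := by rw [Subgroup.orderOf_coe]; exact hy
  have hfix1 := (Cfsg.Agent.S1018.result p P hP).1 (y : G) hyG
  have huniq : ∀ ω₁ ω₂ : G ⧸ Subgroup.normalizer ((P : Subgroup G) : Set G),
      Nat.card (MulAction.orbit (P : Subgroup G) ω₁) = 1 →
      Nat.card (MulAction.orbit (P : Subgroup G) ω₂) = 1 → ω₁ = ω₂ := by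
    intro ω₁ ω₂ h1 h2
    have hf : ∀ ω : G ⧸ Subgroup.normalizer ((P : Subgroup G) : Set G),
        Nat.card (MulAction.orbit (P : Subgroup G) ω) = 1 →
        ω ∈ MulAction.fixedBy (G ⧸ Subgroup.normalizer ((P : Subgroup G) : Set G)) (y : G) := by
      intro ω h
      have hs := (Nat.card_eq_one_iff_unique.mp h).1
      have := @Subsingleton.elim _ hs ⟨y • ω, MulAction.mem_orbit ω y⟩
        ⟨ω, MulAction.mem_orbit_self ω⟩
      exact congrArg Subtype.val this
    have hs := (Nat.card_eq_one_iff_unique.mp hfix1).1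
    have := @Subsingleton.elim _ hs ⟨ω₁, hf ω₁ h1⟩ ⟨ω₂, hf ω₂ h2⟩
    exact congrArg Subtype.val this
  by_contra hcon
  push Not at hcon
  rw [Nat.card_eq_fintype_card] at hcon
  obtain ⟨a, b, c, hab, hac, hbc⟩ := Fintype.two_lt_card_iff.mp hcon
  have hsum := Finset.sum_le_sum_of_subset
    (f := fun ω : MulAction.orbitRel.Quotient (P : Subgroup G)
      (G ⧸ Subgroup.normalizer ((P : Subgroup G) : Set G)) =>
      Nat.card (MulAction.orbit (P : Subgroup G) ω.out)) (Finset.subset_univ {a, b, c})
  rw [← hcard, hΩ, Finset.sum_insert (by simp [hab, hac]), Finset.sum_insert (by simp [hbc]),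
    Finset.sum_singleton] at hsum
  have key : ∀ u v : MulAction.orbitRel.Quotient (P : Subgroup G)
      (G ⧸ Subgroup.normalizer ((P : Subgroup G) : Set G)), u ≠ v →
      ¬ (Nat.card (MulAction.orbit (P : Subgroup G) u.out) = 1 ∧
        Nat.card (MulAction.orbit (P : Subgroup G) v.out) = 1) :=
    fun u v huv h => huv (Quotient.out_injective (huniq _ _ h.1 h.2))
  have k1 := key a b hab
  have k2 := key a c hac
  have k3 := key b c hbc
  have hp2 := hp.two_le
  rcases horb a.out with ha | ha <;> rcases horb b.out with hb | hb <;>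
    rcases horb c.out with hc | hc <;> omega

theorem result {G : Type*} [Group G] [Finite G] [IsSimpleGroup G] : Nat.card G ≠ 1104 := by
  intro hG
  classical
  have hnc : ¬ IsMulCommutative G := not_comm_of_not_prime (by rw [hG]; norm_num)
  have : Fact (Nat.Prime 23) := ⟨by norm_num⟩
  have : Fact (Nat.Prime 2) := ⟨by norm_num⟩
  have hG' : Nat.card G = 23 ^ 1 * 48 := hG.trans (by norm_num)
  let P : Sylow 23 G := default
  have hcardP : Nat.card (P : Subgroup G) = 23 := by
    simpa using sylow_card_eq hG' (by norm_num) P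
  have hPne : (P : Subgroup G) ≠ ⊥ := P.ne_bot_of_dvd_card (by rw [hG]; norm_num)
  have hn : Nat.card (Sylow 23 G) = 24 := by
    have h1 : Nat.card (Sylow 23 G) ∣ 48 := card_sylow_dvd hG' (by norm_num)
    have h2 := card_sylow_modEq_one 23 G
    have h3 : Nat.card (Sylow 23 G) ≠ 1 := card_sylow_ne_one hnc P hPne
    have hle := Nat.le_of_dvd (by norm_num) h1
    unfold Nat.ModEq at h2
    revert h1 h2 h3 hle
    generalize Nat.card (Sylow 23 G) = n
    intro h1 h2 h3 hle
    interval_cases n <;> omega
  have hNidx : (Subgroup.normalizer ((P : Subgroup G) : Set G)).index = 23 + 1 := by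
    have h0 : (Subgroup.normalizer ((P : Subgroup G) : Set G)).index = 24 := by
      rw [← hn]; exact P.card_eq_index_normalizer.symm
    exact h0
  have hNcard : Nat.card (Subgroup.normalizer ((P : Subgroup G) : Set G)) = 46 := by
    have h1 := Subgroup.card_mul_index (Subgroup.normalizer ((P : Subgroup G) : Set G))
    rw [hNidx, hG] at h1
    omega
  have hNtop : Subgroup.normalizer ((P : Subgroup G) : Set G) ≠ ⊤ := by
    intro h
    rw [h, Subgroup.card_top, hG] at hNcard
    omega
  have hnle := not_normalizer_le_centralizer hnc P hPne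
  obtain ⟨t, ht⟩ := exists_prime_orderOf_dvd_card'
    (G := Subgroup.normalizer ((P : Subgroup G) : Set G)) 2 (by rw [hNcard]; norm_num)
  have htG : orderOf (t : G) = 2 := by rw [Subgroup.orderOf_coe]; exact ht
  have htC : (t : G) ∉ Subgroup.centralizer ((P : Subgroup G) : Set G) := by
    intro htC
    apply hnle
    have hCN : Subgroup.centralizer ((P : Subgroup G) : Set G) ≤
        Subgroup.normalizer ((P : Subgroup G) : Set G) := Subgroup.centralizer_le_normalizer _
    have h1 : Nat.card (Subgroup.centralizer ((P : Subgroup G) : Set G)) ∣ 46 :=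
      hNcard ▸ Subgroup.card_dvd_of_le hCN
    have : IsCyclic (P : Subgroup G) := isCyclic_of_prime_card hcardP
    have hPC : (P : Subgroup G) ≤ Subgroup.centralizer ((P : Subgroup G) : Set G) :=
      Subgroup.le_centralizer _
    have h2 : 23 ∣ Nat.card (Subgroup.centralizer ((P : Subgroup G) : Set G)) := by
      have h2' := Subgroup.card_dvd_of_le hPC
      rwa [hcardP] at h2'
    have h3 : 2 ∣ Nat.card (Subgroup.centralizer ((P : Subgroup G) : Set G)) := by
      have := orderOf_dvd_natCard (⟨(t : G), htC⟩ :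
        Subgroup.centralizer ((P : Subgroup G) : Set G))
      rwa [← Subgroup.orderOf_coe, htG] at this
    have h4 : Nat.card (Subgroup.centralizer ((P : Subgroup G) : Set G)) = 46 :=
      Nat.dvd_antisymm h1
        (Nat.Coprime.mul_dvd_of_dvd_of_dvd (by norm_num : Nat.Coprime 2 23) h3 h2)
    exact (Subgroup.eq_of_le_of_card_ge hCN (by rw [h4, hNcard])).ge
  have hfix := (Cfsg.Agent.S1018.result 23 P hcardP).2 (t : G) t.2 htC
  have horb := card_orbits_le_two P hcardP hNidx
  have hf2 := hfix.trans horb
  -- the permutation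
  let _ : Fintype (G ⧸ Subgroup.normalizer ((P : Subgroup G) : Set G)) := Fintype.ofFinite _
  have hcardΩ : Fintype.card (G ⧸ Subgroup.normalizer ((P : Subgroup G) : Set G)) = 24 := by
    rw [← Nat.card_eq_fintype_card]; exact hNidx
  have hinj := toPermHom_quotient_injective _ hNtop
  have hord : orderOf (MulAction.toPermHom G
      (G ⧸ Subgroup.normalizer ((P : Subgroup G) : Set G)) (t : G)) = 2 := by
    rw [orderOf_injective _ hinj, htG]
  have hsign := sign_of_orderOf_two _ hord
  rw [sign_toPermHom_eq_one hnc, hcardΩ] at hsign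
  have hfcard : Fintype.card (Function.fixedPoints (MulAction.toPermHom G
      (G ⧸ Subgroup.normalizer ((P : Subgroup G) : Set G)) (t : G))) ≤ 2 := by
    rw [← Nat.card_eq_fintype_card]; exact hf2
  have hfpos : 1 ≤ Fintype.card (Function.fixedPoints (MulAction.toPermHom G
      (G ⧸ Subgroup.normalizer ((P : Subgroup G) : Set G)) (t : G))) := by
    apply Fintype.card_pos_iff.mpr
    refine ⟨⟨((1 : G) : G ⧸ Subgroup.normalizer ((P : Subgroup G) : Set G)), ?_⟩⟩
    show (t : G) • ((1 : G) : G ⧸ Subgroup.normalizer ((P : Subgroup G) : Set G)) = _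
    rw [MulAction.Quotient.smul_mk, QuotientGroup.eq]
    simp
  obtain ⟨k, hk⟩ := Equiv.Perm.cycleType_prime_order (σ := MulAction.toPermHom G
      (G ⧸ Subgroup.normalizer ((P : Subgroup G) : Set G)) (t : G))
      (by rw [hord]; exact Nat.prime_two)
  have hfeq := Equiv.Perm.card_fixedPoints (MulAction.toPermHom G
      (G ⧸ Subgroup.normalizer ((P : Subgroup G) : Set G)) (t : G))
  rw [hk, hord, Multiset.sum_replicate, hcardΩ, smul_eq_mul] at hfeq
  have hf : Fintype.card (Function.fixedPoints (MulAction.toPermHom G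
      (G ⧸ Subgroup.normalizer ((P : Subgroup G) : Set G)) (t : G))) = 2 := by omega
  rw [hf] at hsign
  revert hsign
  decide

end Cfsg.Agent.S1014
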