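import Mathlib
import Cfsg.Statements.S1015
import Cfsg.Agent.Helper5.Simple
import Cfsg.Agent.Helper5.Grp
import Cfsg.Agent.S0985

namespace Cfsg.Agent.S1015

open Cfsg.Agent.Helper5

theorem result {G : Type*} [Group G] [Finite G] [IsSimpleGroup G] : Nat.card G ≠ 1200 := by
  intro hG
  have hnc : ¬ IsMulCommutative G := not_comm_of_not_prime (by rw [hG]; norm_num)
  have : Fact (Nat.Prime 5) := ⟨by norm_num⟩
  have hG' : Nat.card G = 5 ^ 2 * 48 := hG.trans (by norm_num)
  let P₀ : Sylow 5 G := default
  have hP₀ne : (P₀ : Subgroup G) ≠ ⊥ := P₀.ne_bot_of_dvd_card (by rw [hG]; norm_num)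
  have hn : Nat.card (Sylow 5 G) = 6 ∨ Nat.card (Sylow 5 G) = 16 := by
    have h1 : Nat.card (Sylow 5 G) ∣ 48 := card_sylow_dvd hG' (by norm_num)
    have h2 := card_sylow_modEq_one 5 G
    have h3 : Nat.card (Sylow 5 G) ≠ 1 := card_sylow_ne_one hnc P₀ hP₀ne
    have hle := Nat.le_of_dvd (by norm_num) h1
    unfold Nat.ModEq at h2
    revert h1 h2 h3 hle
    generalize Nat.card (Sylow 5 G) = n
    intro h1 h2 h3 hle
    interval_cases n <;> omega
  rcases hn with hn | hn
  · have h1 := card_dvd_factorial_card_sylow hnc P₀ hP₀ne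
    rw [hn, hG] at h1
    revert h1; decide
  · have hmod : ¬ Nat.card (Sylow 5 G) ≡ 1 [MOD 5 ^ 2] := by rw [hn]; decide
    obtain ⟨P, R, hPR, hidx⟩ := Cfsg.Agent.S0985.result 5 2 hmod
    have hcardP : Nat.card (P : Subgroup G) = 25 := by
      simpa using sylow_card_eq hG' (by norm_num) P
    have hD : Nat.card ((P : Subgroup G) ⊓ (R : Subgroup G) : Subgroup G) = 5 := by
      have h1 := Subgroup.card_mul_index ((R : Subgroup G).subgroupOf (P : Subgroup G))
      rw [hcardP] at h1
      have e1 : Nat.card ((R : Subgroup G).subgroupOf (P : Subgroup G)) =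
          Nat.card ((R : Subgroup G) ⊓ (P : Subgroup G) : Subgroup G) := by
        rw [← Subgroup.inf_subgroupOf_right]
        exact Nat.card_congr (Subgroup.subgroupOfEquivOfLe inf_le_right).toEquiv
      rw [e1, inf_comm] at h1
      have hne1 : ((R : Subgroup G).subgroupOf (P : Subgroup G)).index ≠ 1 := by
        intro h
        rw [Subgroup.index_eq_one, Subgroup.subgroupOf_eq_top] at h
        exact hPR (Sylow.ext (P.is_maximal' R.2 h).symm)
      have hidx' : ((R : Subgroup G).subgroupOf (P : Subgroup G)).index ≤ 5 := by simpa using hidx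
      revert h1 hne1 hidx'
      generalize ((R : Subgroup G).subgroupOf (P : Subgroup G)).index = i
      generalize Nat.card ((P : Subgroup G) ⊓ (R : Subgroup G) : Subgroup G) = d
      intro h1 hne1 hidx'
      interval_cases i <;> omega
    have hPcomm : ∀ a b : (P : Subgroup G), a * b = b * a :=
      (IsPGroup.isMulCommutative_of_card_eq_prime_sq (p := 5)
        (by rw [hcardP]; norm_num)).is_comm.comm
    have hcardR : Nat.card (R : Subgroup G) = 25 := by
      simpa using sylow_card_eq hG' (by norm_num) R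
    have hRcomm : ∀ a b : (R : Subgroup G), a * b = b * a :=
      (IsPGroup.isMulCommutative_of_card_eq_prime_sq (p := 5)
        (by rw [hcardR]; norm_num)).is_comm.comm
    have hPN : (P : Subgroup G) ≤ Subgroup.normalizer
        (((P : Subgroup G) ⊓ (R : Subgroup G) : Subgroup G) : Set G) := by
      intro x hx
      apply mem_normalizer_of_conj_mem
      intro d hd
      have h1 : x * d = d * x := congrArg Subtype.val (hPcomm ⟨x, hx⟩ ⟨d, hd.1⟩)
      have : x * d * x⁻¹ = d := by rw [h1]; group
      rw [this]; exact hd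
    have hRN : (R : Subgroup G) ≤ Subgroup.normalizer
        (((P : Subgroup G) ⊓ (R : Subgroup G) : Subgroup G) : Set G) := by
      intro x hx
      apply mem_normalizer_of_conj_mem
      intro d hd
      have h1 : x * d = d * x := congrArg Subtype.val (hRcomm ⟨x, hx⟩ ⟨d, hd.2⟩)
      have : x * d * x⁻¹ = d := by rw [h1]; group
      rw [this]; exact hd
    have hNtop : Subgroup.normalizer
        (((P : Subgroup G) ⊓ (R : Subgroup G) : Subgroup G) : Set G) ≠ ⊤ := by
      intro h
      rw [Subgroup.normalizer_eq_top_iff] at h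
      rcases h.eq_bot_or_eq_top with h0 | h0
      · rw [h0, Subgroup.card_bot] at hD; omega
      · rw [h0, Subgroup.card_top, hG] at hD; omega
    have hfact := card_dvd_factorial_index _ hNtop
    rw [hG] at hfact
    have h25 : 25 ∣ Nat.card (Subgroup.normalizer
        (((P : Subgroup G) ⊓ (R : Subgroup G) : Subgroup G) : Set G)) :=
      hcardP ▸ Subgroup.card_dvd_of_le hPN
    have hN1200 : Nat.card (Subgroup.normalizer
        (((P : Subgroup G) ⊓ (R : Subgroup G) : Subgroup G) : Set G)) ∣ 1200 :=
      hG ▸ Subgroup.card_subgroup_dvd_card _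
    obtain ⟨m, hm⟩ := h25
    have hm48 : m ∣ 48 := by
      rw [hm] at hN1200
      exact (Nat.mul_dvd_mul_iff_left (by norm_num : 0 < 25)).mp hN1200
    have hm5 : ¬ 5 ∣ m := fun h => by have := h.trans hm48; omega
    have hcardN : Nat.card (Subgroup.normalizer
        (((P : Subgroup G) ⊓ (R : Subgroup G) : Subgroup G) : Set G)) = 5 ^ 2 * m := by
      rw [hm]; norm_num
    have hn' := card_sylow_dvd hcardN hm5
    have hn'mod := card_sylow_modEq_one 5 (Subgroup.normalizer
        (((P : Subgroup G) ⊓ (R : Subgroup G) : Subgroup G) : Set G))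
    have hn'2 : 1 < Nat.card (Sylow 5 (Subgroup.normalizer
        (((P : Subgroup G) ⊓ (R : Subgroup G) : Subgroup G) : Set G))) := by
      have hne : P.subtype hPN ≠ R.subtype hRN := fun h => hPR (Sylow.subtype_injective h)
      exact Finite.one_lt_card_iff_nontrivial.mpr ⟨⟨_, _, hne⟩⟩
    have hidxN : (Subgroup.normalizer
        (((P : Subgroup G) ⊓ (R : Subgroup G) : Subgroup G) : Set G)).index * m = 48 := by
      have h1 := Subgroup.index_mul_card (Subgroup.normalizer
        (((P : Subgroup G) ⊓ (R : Subgroup G) : Subgroup G) : Set G))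
      rw [hm, hG] at h1
      have h2 : 25 * ((Subgroup.normalizer
        (((P : Subgroup G) ⊓ (R : Subgroup G) : Subgroup G) : Set G)).index * m) = 25 * 48 := by
        rw [← mul_assoc, mul_comm 25, mul_assoc]; exact h1
      exact Nat.eq_of_mul_eq_mul_left (by norm_num) h2
    unfold Nat.ModEq at hn'mod
    have hmpos : 0 < m := Nat.pos_of_ne_zero (by rintro rfl; simp at hm48)
    have hn'le := Nat.le_of_dvd hmpos hn'
    revert hfact hidxN hn' hn'mod hn'2 hn'le
    generalize (Subgroup.normalizer
        (((P : Subgroup G) ⊓ (R : Subgroup G) : Subgroup G) : Set G)).index = k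
    generalize Nat.card (Sylow 5 (Subgroup.normalizer
        (((P : Subgroup G) ⊓ (R : Subgroup G) : Subgroup G) : Set G))) = n'
    intro hfact hidxN hn' hn'mod hn'2 hn'le
    have hm6 : 6 ≤ m := by omega
    have hk8 : k ≤ 8 := by nlinarith
    interval_cases k <;> revert hfact <;> decide

end Cfsg.Agent.S1015
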