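import Mathlib
import Cfsg.Statements.S1019

set_option autoImplicit false
open Cfsg

namespace Cfsg.Agent.S1019

/-- Let H be a subgroup of a finite group G and x an element of H. In the action of G on the left cosets of H, the number of cosets fixed by x, multiplied by the size of the conjugacy class of x, equals the index of H multiplied by the number of conjugates of x that lie in H. -/
theorem result {G : Type*} [Group G] [Finite G] (H : Subgroup G) (x : G) (hx : x ∈ H) : Nat.card (MulAction.fixedBy (G ⧸ H) x) * Nat.card {g : G // IsConj x g} = H.index * Nat.card {g : G // IsConj x g ∧ g ∈ H} := by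
  classical
  haveI : Fintype G := Fintype.ofFinite G
  haveI : Fintype (G ⧸ H) := Fintype.ofFinite _
  have h1 : Nat.card (MulAction.fixedBy (G ⧸ H) x)
      = (Finset.univ.filter (fun q : G ⧸ H => x • q = q)).card := by
    have : Nat.card (MulAction.fixedBy (G ⧸ H) x) = Nat.card {q : G ⧸ H // x • q = q} := rfl
    rw [this, Nat.card_eq_fintype_card, Fintype.card_subtype]
  have h2 : Nat.card {g : G // IsConj x g} = (Finset.univ.filter (fun g : G => IsConj x g)).card := by
    rw [Nat.card_eq_fintype_card, Fintype.card_subtype]
  have h3 : Nat.card {g : G // IsConj x g ∧ g ∈ H}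
      = (Finset.univ.filter (fun g : G => IsConj x g ∧ g ∈ H)).card := by
    rw [Nat.card_eq_fintype_card, Fintype.card_subtype]
  have h4 : H.index = (Finset.univ : Finset (G ⧸ H)).card := by
    rw [Finset.card_univ, ← Nat.card_eq_fintype_card]; rfl
  rw [h1, h2, h3, h4, mul_comm]
  apply Finset.card_mul_eq_card_mul (fun (y : G) (q : G ⧸ H) => y • q = q)
  · intro y hy
    simp only [Finset.mem_filter, Finset.mem_univ, true_and] at hy
    obtain ⟨c, hc⟩ := isConj_iff.mp hy
    apply Finset.card_nbij' (fun q : G ⧸ H => c⁻¹ • q) (fun q : G ⧸ H => c • q)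
    · intro q hq
      simp only [Finset.coe_filter, Finset.mem_univ, true_and, Set.mem_ofPred_eq,
        Finset.bipartiteAbove] at hq ⊢
      rw [← hc] at hq
      calc x • c⁻¹ • q = c⁻¹ • ((c * x * c⁻¹) • q) := by simp [mul_smul]
        _ = c⁻¹ • q := by rw [hq]
    · intro q hq
      simp only [Finset.coe_filter, Finset.mem_univ, true_and, Set.mem_ofPred_eq,
        Finset.bipartiteAbove] at hq ⊢
      rw [← hc]
      calc (c * x * c⁻¹) • c • q = c • (x • q) := by simp [mul_smul]
        _ = c • q := by rw [hq]
    · intro q _; simp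
    · intro q _; simp
  · intro q _
    obtain ⟨g, rfl⟩ := QuotientGroup.mk_surjective q
    have hfix : ∀ y : G, y • (g : G ⧸ H) = (g : G ⧸ H) ↔ g⁻¹ * y * g ∈ H := by
      intro y
      rw [MulAction.Quotient.smul_mk, QuotientGroup.eq]
      constructor
      · intro h
        have := H.inv_mem h
        simpa [mul_assoc] using this
      · intro h
        have := H.inv_mem h
        simpa [mul_assoc] using this
    apply Finset.card_nbij' (fun y : G => g⁻¹ * y * g) (fun y : G => g * y * g⁻¹)
    · intro y hy
      simp only [Finset.coe_filter, Finset.mem_univ, true_and, Set.mem_ofPred_eq,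
        Finset.bipartiteBelow, Finset.mem_filter] at hy ⊢
      refine ⟨hy.1.trans (isConj_iff.mpr ⟨g⁻¹, by simp⟩), (hfix y).mp hy.2⟩
    · intro y hy
      simp only [Finset.coe_filter, Finset.mem_univ, true_and, Set.mem_ofPred_eq,
        Finset.bipartiteBelow, Finset.mem_filter] at hy ⊢
      refine ⟨hy.1.trans (isConj_iff.mpr ⟨g, rfl⟩), (hfix _).mpr ?_⟩
      have : g⁻¹ * (g * y * g⁻¹) * g = y := by group
      rw [this]; exact hy.2
    · intro y _; group
    · intro y _; group

end Cfsg.Agent.S1019
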