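import Mathlib
import Cfsg.Statements.S1024

set_option autoImplicit false
open Cfsg

namespace Cfsg.Agent.S1024

open Cfsg.Lie

theorem chainCoeff_pos (D : ChevalleyDatum) (r s u : ℕ) :
    ∀ km ∈ D.chainCoeff r s u, km.1 ≠ 0 := by
  intro km hkm
  unfold ChevalleyDatum.chainCoeff at hkm
  simp only [List.mem_flatMap, List.mem_map] at hkm
  obtain ⟨e, _, q, _, rfl⟩ := hkm
  simp

theorem xMat_zero {F : Type*} [Field F] (D : ChevalleyDatum) (r : Fin D.nroots) :
    D.xMat F r 0 = 1 := by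
  ext row col
  rcases col with i | s <;> rcases row with i' | u
  · simp [ChevalleyDatum.xMat, Matrix.one_apply]
  · simp [ChevalleyDatum.xMat]
  · by_cases h1 : s = r
    · simp [ChevalleyDatum.xMat, h1]
    · by_cases h2 : s.val = D.negIdx.getD r.val 0
      · simp [ChevalleyDatum.xMat, h1, h2]
      · simp [ChevalleyDatum.xMat, h1]
  · by_cases h1 : s = r
    · simp [ChevalleyDatum.xMat, Matrix.one_apply, h1]
    · by_cases h2 : s.val = D.negIdx.getD r.val 0
      · simp [ChevalleyDatum.xMat, Matrix.one_apply, h1, h2]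
      · have hsum : ((D.chainCoeff r.val s.val u.val).map
            fun km => ((km.2 : ℤ) : F) * (0 : F) ^ km.1).sum = 0 := by
          apply List.sum_eq_zero
          intro x hx
          simp only [List.mem_map] at hx
          obtain ⟨km, hkm, rfl⟩ := hx
          rw [zero_pow (chainCoeff_pos D _ _ _ km hkm), mul_zero]
        simp [ChevalleyDatum.xMat, Matrix.one_apply, h1, hsum]

theorem negOK (D : ChevalleyDatum) (hD : D ∈ [Cfsg.Lie.chevG2, Cfsg.Lie.chevB2, Cfsg.Lie.chevD4, Cfsg.Lie.chevF4, Cfsg.Lie.chevE6, Cfsg.Lie.chevE7, Cfsg.Lie.chevE8]) :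
    ∀ r < D.nroots, D.negIdx.getD r 0 < D.nroots ∧ D.negIdx.getD r 0 ≠ r := by
  simp only [List.mem_cons, List.not_mem_nil, or_false] at hD
  rcases hD with rfl | rfl | rfl | rfl | rfl | rfl | rfl <;> decide +kernel

/-- `x_r(0) = 1`, and `x_r(t) = 1` forces `t = 0`: the map `t ↦ x_r(t)` is injective. -/
theorem result {F : Type*} [Field F] (D : Cfsg.Lie.ChevalleyDatum) (hD : D ∈ [Cfsg.Lie.chevG2, Cfsg.Lie.chevB2, Cfsg.Lie.chevD4, Cfsg.Lie.chevF4, Cfsg.Lie.chevE6, Cfsg.Lie.chevE7, Cfsg.Lie.chevE8]) (r : ℕ) (hr : r < D.nroots) (t : F) :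
    D.x F r t = 1 ↔ t = 0 := by
  unfold ChevalleyDatum.x
  rw [dif_pos hr]
  constructor
  · intro h
    obtain ⟨hlt, hne⟩ := negOK D hD r hr
    have h1 := congrFun (congrFun h (Sum.inr ⟨r, hr⟩)) (Sum.inr ⟨D.negIdx.getD r 0, hlt⟩)
    have hne2 : D.negIdx[r]?.getD 0 ≠ r := by simpa using hne
    have hne3 : r ≠ D.negIdx[r]?.getD 0 := fun h => hne2 h.symm
    simp [ChevalleyDatum.xMat, Matrix.one_apply, hne2, hne3] at h1
    exact h1
  · rintro rfl
    exact xMat_zero D ⟨r, hr⟩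

end Cfsg.Agent.S1024
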