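import Cfsg.Statements.S1026
import Cfsg.Agent.Helper11.ChevU
import Mathlib

set_option autoImplicit false
open Cfsg

namespace Cfsg.Agent.S1026

open Cfsg.Lie Cfsg.Agent.Helper11


/-- Every element of `U` has a unique expression `∏_{r ∈ Φ⁺} x_r(t_r)`, the product over the positive roots in increasing index order (the coefficient family `t`, supported on the positive roots, exists and is unique); and conversely every such ordered product is the matrix of an element of `U`. -/
theorem result {F : Type*} [Field F] (D : Cfsg.Lie.ChevalleyDatum) (hD : D ∈ [Cfsg.Lie.chevG2, Cfsg.Lie.chevB2, Cfsg.Lie.chevD4, Cfsg.Lie.chevF4, Cfsg.Lie.chevE6, Cfsg.Lie.chevE7, Cfsg.Lie.chevE8]) :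
    (∀ g : GL D.Idx F, g ∈ D.posUnipotent F →
      ∃! t : ℕ → F, (∀ r, ¬ D.IsPosRoot r → t r = 0) ∧
        (g : Matrix D.Idx D.Idx F) = D.wordMat F (D.posRoots.map fun r => (r, t r))) ∧
    (∀ t : ℕ → F, ∃ g : GL D.Idx F, g ∈ D.posUnipotent F ∧
      (g : Matrix D.Idx D.Idx F) = D.wordMat F (D.posRoots.map fun r => (r, t r))) := by
  have hev := nroots_even7 hD
  have hn : D.nroots / 2 + D.nroots / 2 = D.nroots := by omega
  refine ⟨?_, ?_⟩
  · intro g hg
    rw [posU_eq_Uge hD] at hg
    obtain ⟨τ, hτ⟩ := Uge_ordered hD (D.nroots / 2) (D.nroots / 2) hn le_rfl g hg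
    refine ⟨fun r => if D.IsPosRoot r then τ r else 0, ⟨?_, ?_⟩, ?_⟩
    · intro r hr
      show (if D.IsPosRoot r then τ r else 0) = 0
      rw [if_neg hr]
    · rw [posRoots_word hD, hτ, wG_val]
      congr 1
      apply ordWord_congr
      intro r h1 h2
      have hp : D.IsPosRoot r := ((pos_iff7 hD r (by omega)).1).mpr h1
      show τ r = if D.IsPosRoot r then τ r else 0
      rw [if_pos hp]
    · rintro t' ⟨ht0, htw⟩
      funext r
      show t' r = if D.IsPosRoot r then τ r else 0
      by_cases hr : D.IsPosRoot r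
      · rw [if_pos hr]
        have hlt : r < D.nroots := hr.1
        have h1 : D.nroots / 2 ≤ r := ((pos_iff7 hD r hlt).1).mp hr
        have e : wG hD (ordWord t' (D.nroots / 2) (D.nroots / 2)) =
            wG hD (ordWord τ (D.nroots / 2) (D.nroots / 2)) := by
          apply Units.ext
          rw [← hτ, htw, wG_val, posRoots_word hD]
        exact ordWord_unique hD (D.nroots / 2) (D.nroots / 2) hn le_rfl t' τ e r h1 hlt
      · rw [if_neg hr]
        exact ht0 r hr
  · intro t
    refine ⟨wG hD (D.posRoots.map fun r => (r, t r)), ?_, wG_val hD _⟩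
    rw [posRoots_word hD, posU_eq_Uge hD]
    exact ordWord_mem hD t _ _ (by omega)

end Cfsg.Agent.S1026
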