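import Cfsg.Statements.S1027
import Cfsg.Agent.Helper11.ChevU
import Mathlib

set_option autoImplicit false
open Cfsg

namespace Cfsg.Agent.S1027

open Cfsg.Lie Cfsg.Agent.Helper11


/-- For the subgroup `U` generated by the root elements `x_r(t)` of the positive roots `r`: `|U| = q^N` over a field with `q` elements, where `N` is the number of positive roots (half the number of roots). -/
theorem result {F : Type*} [Field F] [Fintype F] (D : Cfsg.Lie.ChevalleyDatum) (hD : D ∈ [Cfsg.Lie.chevG2, Cfsg.Lie.chevB2, Cfsg.Lie.chevD4, Cfsg.Lie.chevF4, Cfsg.Lie.chevE6, Cfsg.Lie.chevE7, Cfsg.Lie.chevE8]) :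
    Nat.card (D.posUnipotent F) = Fintype.card F ^ (D.nroots / 2) := by
  have hev := nroots_even7 hD
  have hU := posU_eq_Uge (F := F) hD
  obtain ⟨m, hm⟩ : ∃ m, m = D.nroots / 2 := ⟨_, rfl⟩
  rw [← hm] at hU ⊢
  have hn : m + m = D.nroots := by omega
  have hle : D.nroots / 2 ≤ m := by omega
  let ext : (Fin m → F) → ℕ → F := fun τ r => if h : r - m < m then τ ⟨r - m, h⟩ else 0
  have hmem : ∀ τ : Fin m → F, wG hD (ordWord (ext τ) m m) ∈ D.posUnipotent F := by
    intro τ
    rw [hU]
    exact ordWord_mem hD _ _ _ (by omega)
  let f : (Fin m → F) → ↥(D.posUnipotent F) := fun τ => ⟨wG hD (ordWord (ext τ) m m), hmem τ⟩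
  have hf : Function.Bijective f := by
    constructor
    · intro τ τ' h
      have h' : wG hD (ordWord (ext τ) m m) = wG hD (ordWord (ext τ') m m) :=
        congrArg Subtype.val h
      funext k
      have hk := k.isLt
      have key := ordWord_unique hD m m hn hle (ext τ) (ext τ') h' (m + k.val) (by omega) (by omega)
      have e : ∀ σ : Fin m → F, ext σ (m + k.val) = σ k := by
        intro σ
        show (if h : m + k.val - m < m then σ ⟨m + k.val - m, h⟩ else 0) = σ k
        have hk' : m + k.val - m < m := by omega
        rw [dif_pos hk']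
        congr 1
        apply Fin.ext
        show m + k.val - m = k.val
        omega
      rw [e, e] at key
      exact key
    · rintro ⟨g, hg⟩
      have hg' := hg
      rw [hU] at hg'
      obtain ⟨τ, hτ⟩ := Uge_ordered hD m m hn hle g hg'
      refine ⟨fun k => τ (m + k.val), ?_⟩
      apply Subtype.ext
      show wG hD (ordWord (ext fun k => τ (m + k.val)) m m) = g
      rw [hτ]
      congr 1
      apply ordWord_congr
      intro r h1 h2
      show (if h : r - m < m then τ (m + (r - m)) else 0) = τ r
      have hk : r - m < m := by omega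
      rw [dif_pos hk]
      congr 1
      omega
  rw [Nat.card_congr (Equiv.ofBijective f hf).symm, Nat.card_fun, Nat.card_fin,
    Nat.card_eq_fintype_card]

end Cfsg.Agent.S1027
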