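import Mathlib
import Cfsg.Statements.S1041

set_option autoImplicit false
open Cfsg

namespace Cfsg.Agent.S1041

open Cfsg.Lie

theorem good_of_mem (D : ChevalleyDatum)
    (hD : D ∈ [chevG2, chevB2, chevD4, chevF4, chevE6, chevE7, chevE8]) :
    ∀ r < D.nroots, D.IsPosRoot r ∨ D.IsNegRoot r := by
  simp only [List.mem_cons, List.mem_singleton, List.not_mem_nil, or_false] at hD
  rcases hD with rfl | rfl | rfl | rfl | rfl | rfl | rfl
  all_goals decide +kernel

/-- `U` and `V` generate the whole Chevalley group. -/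
theorem result {F : Type*} [Field F] (D : Cfsg.Lie.ChevalleyDatum) (hD : D ∈ [Cfsg.Lie.chevG2, Cfsg.Lie.chevB2, Cfsg.Lie.chevD4, Cfsg.Lie.chevF4, Cfsg.Lie.chevE6, Cfsg.Lie.chevE7, Cfsg.Lie.chevE8]) : D.posUnipotent F ⊔ D.negUnipotent F = D.group F := by
  have hgood := good_of_mem D hD
  apply le_antisymm
  · apply sup_le
    · unfold Cfsg.Lie.ChevalleyDatum.posUnipotent Cfsg.Lie.ChevalleyDatum.group
      rw [Subgroup.closure_le]
      rintro g ⟨r, t, hr, hg⟩
      apply Subgroup.subset_closure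
      refine ⟨⟨r, hr.1⟩, t, ?_⟩
      rw [hg, Cfsg.Lie.ChevalleyDatum.x, dif_pos hr.1]
    · unfold Cfsg.Lie.ChevalleyDatum.negUnipotent Cfsg.Lie.ChevalleyDatum.group
      rw [Subgroup.closure_le]
      rintro g ⟨r, t, hr, hg⟩
      apply Subgroup.subset_closure
      refine ⟨⟨r, hr.1⟩, t, ?_⟩
      rw [hg, Cfsg.Lie.ChevalleyDatum.x, dif_pos hr.1]
  · unfold Cfsg.Lie.ChevalleyDatum.group
    rw [Subgroup.closure_le]
    rintro g ⟨r, t, hg⟩
    have hx : (g : Matrix D.Idx D.Idx F) = D.x F r.val t := by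
      rw [hg, Cfsg.Lie.ChevalleyDatum.x, dif_pos r.isLt]
    rcases hgood r.val r.isLt with hpos | hneg
    · have hmem : g ∈ D.posUnipotent F := by
        unfold Cfsg.Lie.ChevalleyDatum.posUnipotent
        apply Subgroup.subset_closure
        exact ⟨r.val, t, hpos, hx⟩
      exact Subgroup.mem_sup_left hmem
    · have hmem : g ∈ D.negUnipotent F := by
        unfold Cfsg.Lie.ChevalleyDatum.negUnipotent
        apply Subgroup.subset_closure
        exact ⟨r.val, t, hneg, hx⟩
      exact Subgroup.mem_sup_right hmem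

end Cfsg.Agent.S1041
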