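import Cfsg.Statements.S1050
import Cfsg.Agent.Helper11.ChevGrp
import Mathlib

set_option autoImplicit false
open Cfsg

namespace Cfsg.Agent.S1050

open Cfsg.Lie Cfsg.Agent.Helper11


/-- `B = UH` is solvable (U nilpotent, H abelian, U ⊴ B). -/
theorem result {F : Type*} [Field F] (D : Cfsg.Lie.ChevalleyDatum) (hD : D ∈ [Cfsg.Lie.chevG2, Cfsg.Lie.chevB2, Cfsg.Lie.chevD4, Cfsg.Lie.chevF4, Cfsg.Lie.chevE6, Cfsg.Lie.chevE7, Cfsg.Lie.chevE8]) : Group.IsSolvable ↥(D.borelSubgroup F) := by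
  exact isSolvable_of_upper (lvlI_lt D) (fun a b h => lvlI_inj D a b h) (D.borelSubgroup F)
    (fun g hg => (B_le_up hD hg).1)

end Cfsg.Agent.S1050
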