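import Cfsg.Statements.S1054
import Cfsg.Agent.Helper11.ChevSimple
import Mathlib

set_option autoImplicit false
open Cfsg

namespace Cfsg.Agent.S1054

open Cfsg.Lie Cfsg.Agent.Helper11


/-- The Chevalley groups of types D₄, F₄, E₆, E₇, E₈ are simple over every field. -/
theorem result {F : Type*} [Field F] (D : Cfsg.Lie.ChevalleyDatum)
    (hD : D ∈ [Cfsg.Lie.chevD4, Cfsg.Lie.chevF4, Cfsg.Lie.chevE6, Cfsg.Lie.chevE7, Cfsg.Lie.chevE8]) :
    IsSimpleGroup ↥(D.group F) ∧ ¬ IsMulCommutative ↥(D.group F) := by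
  have h7 : D ∈ [chevG2, chevB2, chevD4, chevF4, chevE6, chevE7, chevE8] :=
    List.mem_cons_of_mem _ (List.mem_cons_of_mem _ hD)
  apply chev_simple h7
  simp only [List.mem_cons, List.not_mem_nil, or_false] at hD
  rcases hD with rfl | rfl | rfl | rfl | rfl
  · exact perf_big h7 perfW_D4 perfB_D4
  · exact perf_big h7 perfW_F4 perfB_F4
  · exact perf_big h7 perfW_E6 perfB_E6
  · exact perf_big h7 perfW_E7 perfB_E7
  · exact perf_big h7 perfW_E8 perfB_E8

end Cfsg.Agent.S1054
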