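import Cfsg.Statements.S1055
import Cfsg.Agent.Helper11.ChevSimple
import Mathlib

set_option autoImplicit false
open Cfsg

namespace Cfsg.Agent.S1055

open Cfsg.Lie Cfsg.Agent.Helper11


/-- G₂(F) is simple for every field `F` other than the field with two elements. -/
theorem result {F : Type*} [Field F] (hF : ∃ a : F, a ≠ 0 ∧ a ≠ 1) : IsSimpleGroup ↥(Cfsg.Lie.chevG2.group F) ∧ ¬ IsMulCommutative ↥(Cfsg.Lie.chevG2.group F) := by
  obtain ⟨c, h0, h1⟩ := hF
  have h7 : chevG2 ∈ [chevG2, chevB2, chevD4, chevF4, chevE6, chevE7, chevE8] := List.mem_cons_self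
  exact chev_simple h7 (perf_small h7 perfS_G2 c h0 h1)

end Cfsg.Agent.S1055
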