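import Cfsg.Statements.S1059
import Cfsg.Agent.Helper11.ChevOrdFinG2
import Cfsg.Agent.S1035
import Mathlib

set_option autoImplicit false
open Cfsg

namespace Cfsg.Agent.S1059

open Cfsg.Lie Cfsg.Agent.Helper11


/-- `|G₂(q)| = q⁶ (q² - 1)(q⁶ - 1)`. -/
theorem result {F : Type*} [Field F] [Fintype F] {q : ℕ} (hq : Fintype.card F = q) : Nat.card ↥(Cfsg.Lie.chevG2.group F) = q ^ 6 * (q ^ 2 - 1) * (q ^ 6 - 1) := by
  subst hq
  have hD : Seven chevG2 := by simp
  haveI hNorm := HN_normal (F := F) hD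
  letI : Fintype (↥(chevG2.monomialSubgroup F) ⧸ HN chevG2 F) := Fintype.ofFinite _
  have h1 := card_group_eq (F := F) hD
  rw [weyl_sum_G2 (F := F) hD (Fintype.card F)] at h1
  have h2 := Cfsg.Agent.S1035.result (F := F) (q := Fintype.card F) rfl (chevG2, 1) (by simp)
  have hq0 : 0 < Fintype.card F := Fintype.card_pos
  have key := order_core _ _ _ (chevG2.nroots / 2) chevG2.rank (1) _ _ h1 h2 hq0
    (ordPoly_G2 (Fintype.card F) hq0)
  rw [one_mul] at key
  rw [key]
  show Fintype.card F ^ 6 * ((Fintype.card F ^ 2 - 1) * (Fintype.card F ^ 6 - 1)) = _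
  ring

end Cfsg.Agent.S1059
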