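import Cfsg.Statements.S1064
import Cfsg.Agent.Helper11.ChevOrdFinE7
import Cfsg.Agent.S1035
import Mathlib

set_option autoImplicit false
open Cfsg

namespace Cfsg.Agent.S1064

open Cfsg.Lie Cfsg.Agent.Helper11


/-- `gcd(2, q-1) · |E₇(q)| = q⁶³ ∏_{d ∈ {2,6,8,10,12,14,18}} (q^d - 1)`. -/
theorem result {F : Type*} [Field F] [Fintype F] {q : ℕ} (hq : Fintype.card F = q) : Nat.gcd 2 (q - 1) * Nat.card ↥(Cfsg.Lie.chevE7.group F) = q ^ 63 * (q ^ 2 - 1) * (q ^ 6 - 1) * (q ^ 8 - 1) * (q ^ 10 - 1) * (q ^ 12 - 1) * (q ^ 14 - 1) * (q ^ 18 - 1) := by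
  subst hq
  have hD : Seven chevE7 := by simp
  haveI hNorm := HN_normal (F := F) hD
  letI : Fintype (↥(chevE7.monomialSubgroup F) ⧸ HN chevE7 F) := Fintype.ofFinite _
  have h1 := card_group_eq (F := F) hD
  rw [weyl_sum_E7 (F := F) hD (Fintype.card F)] at h1
  have h2 := Cfsg.Agent.S1035.result (F := F) (q := Fintype.card F) rfl (chevE7, Nat.gcd 2 (Fintype.card F - 1)) (by simp)
  have hq0 : 0 < Fintype.card F := Fintype.card_pos
  have key := order_core _ _ _ (chevE7.nroots / 2) chevE7.rank (Nat.gcd 2 (Fintype.card F - 1)) _ _ h1 h2 hq0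
    (ordPoly_E7 (Fintype.card F) hq0)
  rw [key]
  show Fintype.card F ^ 63 * ((Fintype.card F ^ 2 - 1) * (Fintype.card F ^ 6 - 1) * (Fintype.card F ^ 8 - 1) * (Fintype.card F ^ 10 - 1) * (Fintype.card F ^ 12 - 1) * (Fintype.card F ^ 14 - 1) * (Fintype.card F ^ 18 - 1)) = _
  ring

end Cfsg.Agent.S1064
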