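import Mathlib
import Cfsg.Statements.S1080

set_option autoImplicit false
open Cfsg

namespace Cfsg.Agent.S1080

open Cfsg.Lie

theorem sum_map {F : Type*} [Field F] (f : F ≃+* F) (t : F) (L : List (ℕ × ℤ)) :
    f ((L.map fun km => ((km.2 : ℤ) : F) * t ^ km.1).sum) =
      (L.map fun km => ((km.2 : ℤ) : F) * (f t) ^ km.1).sum := by
  induction L with
  | nil => simp
  | cons a L ih =>
    simp only [List.map_cons, List.sum_cons, map_add, map_mul, map_intCast, map_pow, ih]

theorem xMat_map {F : Type*} [Field F] (D : ChevalleyDatum) (f : F ≃+* F) (r : Fin D.nroots)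
    (t : F) : (D.xMat F r t).map f = D.xMat F r (f t) := by
  ext row col
  rw [Matrix.map_apply]
  rcases col with i | s <;> rcases row with i' | u
  · simp only [Cfsg.Lie.ChevalleyDatum.xMat, Matrix.of_apply]
    split_ifs <;> simp
  · simp only [Cfsg.Lie.ChevalleyDatum.xMat, Matrix.of_apply]
    split_ifs <;> simp
  · simp only [Cfsg.Lie.ChevalleyDatum.xMat, Matrix.of_apply]
    split_ifs <;> simp
  · simp only [Cfsg.Lie.ChevalleyDatum.xMat, Matrix.of_apply]
    split_ifs <;> simp [sum_map]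

/-- The automorphism of the general linear group induced by a field automorphism. -/
noncomputable def glMap {F : Type*} [Field F] (D : ChevalleyDatum) (f : F ≃+* F) :
    GL D.Idx F ≃* GL D.Idx F :=
  Units.mapEquiv (RingEquiv.mapMatrix f).toMulEquiv

theorem glMap_val {F : Type*} [Field F] (D : ChevalleyDatum) (f : F ≃+* F) (g : GL D.Idx F) :
    ((glMap D f g : GL D.Idx F) : Matrix D.Idx D.Idx F) = (g : Matrix D.Idx D.Idx F).map f :=
  rfl

theorem glMap_symm_val {F : Type*} [Field F] (D : ChevalleyDatum) (f : F ≃+* F)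
    (g : GL D.Idx F) :
    (((glMap D f).symm g : GL D.Idx F) : Matrix D.Idx D.Idx F) =
      (g : Matrix D.Idx D.Idx F).map f.symm :=
  rfl

theorem map_group {F : Type*} [Field F] (D : ChevalleyDatum) (f : F ≃+* F) :
    (D.group F).map ((glMap D f : GL D.Idx F ≃* GL D.Idx F) : GL D.Idx F →* GL D.Idx F) =
      D.group F := by
  unfold Cfsg.Lie.ChevalleyDatum.group
  rw [MonoidHom.map_closure]
  congr 1
  ext g
  constructor
  · rintro ⟨g0, ⟨r, t, hg0⟩, rfl⟩
    refine ⟨r, f t, ?_⟩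
    show ((glMap D f g0 : GL D.Idx F) : Matrix D.Idx D.Idx F) = _
    rw [glMap_val, hg0, xMat_map]
  · rintro ⟨r, t, hg⟩
    refine ⟨(glMap D f).symm g, ⟨r, f.symm t, ?_⟩, ?_⟩
    · rw [glMap_symm_val, hg, xMat_map]
    · exact (glMap D f).apply_symm_apply g

/-- Field automorphisms: for every field automorphism `f` there is a group automorphism sending each `x_r(t)` to `x_r(f t)`. -/
theorem result {F : Type*} [Field F] (D : Cfsg.Lie.ChevalleyDatum) (hD : D ∈ [Cfsg.Lie.chevG2, Cfsg.Lie.chevB2, Cfsg.Lie.chevD4, Cfsg.Lie.chevF4, Cfsg.Lie.chevE6, Cfsg.Lie.chevE7, Cfsg.Lie.chevE8]) (f : F ≃+* F) :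
    ∃ α : ↥(D.group F) ≃* ↥(D.group F), ∀ (g : ↥(D.group F)) (r : ℕ) (t : F), r < D.nroots →
      ((g : GL D.Idx F) : Matrix D.Idx D.Idx F) = D.x F r t → ((α g : GL D.Idx F) : Matrix D.Idx D.Idx F) = D.x F r (f t) := by
  refine ⟨((glMap D f).subgroupMap (D.group F)).trans
    (MulEquiv.subgroupCongr (map_group D f)), ?_⟩
  intro g r t hr hg
  show ((glMap D f (g : GL D.Idx F) : GL D.Idx F) : Matrix D.Idx D.Idx F) = D.x F r (f t)
  rw [glMap_val, hg]
  simp only [Cfsg.Lie.ChevalleyDatum.x, dif_pos hr]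
  exact xMat_map D f ⟨r, hr⟩ t

end Cfsg.Agent.S1080
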