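import Cfsg.Statements.S1095
import Cfsg.Agent.Helper11.ChevRel
import Mathlib

set_option autoImplicit false
open Cfsg

namespace Cfsg.Agent.S1095

open Cfsg.Lie Cfsg.Agent.Helper11


/-- `n_p` (p = p_{i+1} fundamental) is the signed monomial matrix `h_{p_j} ↦ h_{p_j} - A_{p_j,p} h_p`, `e_s ↦ η_s e_{w_p(s)}`, with `η_s = ±1`, `η_p = η_{-p} = -1`, `η_s η_{w_p(s)} = (-1)^{A_{p,s}}`, `η_s η_{-s} = 1`. -/
theorem result {F : Type*} [Field F] (D : Cfsg.Lie.ChevalleyDatum) (hD : D ∈ [Cfsg.Lie.chevG2, Cfsg.Lie.chevB2, Cfsg.Lie.chevD4, Cfsg.Lie.chevF4, Cfsg.Lie.chevE6, Cfsg.Lie.chevE7, Cfsg.Lie.chevE8]) (i : ℕ) (hi : i < D.rank) :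
    ∃ η : ℕ → ℤ, (∀ s < D.nroots, η s = 1 ∨ η s = -1) ∧ η (D.simple i) = -1 ∧ η (D.neg (D.simple i)) = -1 ∧
      (∀ s < D.nroots, η s * η (D.reflectRoot i s) = (-1) ^ (D.cartan i s).natAbs ∧ η s * η (D.neg s) = 1) ∧
      D.nMat F (D.simple i) 1 = Matrix.of (fun (row col : D.Idx) =>
        Sum.elim
          (fun j' : Fin D.rank => Sum.elim
            (fun j : Fin D.rank => (if j' = j then (1 : F) else 0) - (if (j' : ℕ) = i then ((D.cartan j (D.simple i) : ℤ) : F) else 0))
            (fun _ => (0 : F)) col)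
          (fun s' : Fin D.nroots => Sum.elim
            (fun _ => (0 : F))
            (fun s : Fin D.nroots => if (s' : ℕ) = D.reflectRoot i s then ((η s : ℤ) : F) else 0) col)
          row) := by
  refine ⟨etaAt D i, fun s hs => eta_cases7 hD i hi s hs, (eta_simple7 hD i hi).1, (eta_simple7 hD i hi).2,
    fun s hs => eta_mul_reflect7 hD i hi s hs, ?_⟩
  ext row col
  rw [Matrix.of_apply]
  rcases col with j | s
  · rw [entry_eq D (D.nMat F (D.simple i) 1) j.val (Sum.inl j) (basisVec_inl D j) row, nMat_col_h7 hD i hi j.val j.2]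
    rcases row with j' | s'
    · simp only [Sum.elim_inl, Pi.sub_apply, Pi.smul_apply, smul_eq_mul, basisVec_apply_inl]
      by_cases h1 : j' = j
      · rw [if_pos h1, if_pos (by rw [h1])]
        by_cases h2 : (j' : ℕ) = i
        · rw [if_pos h2, if_pos h2, mul_one]
        · rw [if_neg h2, if_neg h2, mul_zero]
      · rw [if_neg h1, if_neg (fun h => h1 (Fin.ext h))]
        by_cases h2 : (j' : ℕ) = i
        · rw [if_pos h2, if_pos h2, mul_one]
        · rw [if_neg h2, if_neg h2, mul_zero]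
    · simp only [Sum.elim_inl, Sum.elim_inr, Pi.sub_apply, Pi.smul_apply, smul_eq_mul, basisVec_apply_inr]
      rw [if_neg (by have := j.2; omega), if_neg (by omega)]
      simp
  · rw [entry_eq D (D.nMat F (D.simple i) 1) (D.rank + s.val) (Sum.inr s) (basisVec_inr D s) row, nMat_col_root7 hD i hi s.val s.2]
    rcases row with j' | s'
    · simp only [Sum.elim_inl, Sum.elim_inr, Pi.smul_apply, smul_eq_mul, basisVec_apply_inl]
      rw [if_neg (by have := j'.2; omega), mul_zero]
    · simp only [Sum.elim_inr, Pi.smul_apply, smul_eq_mul, basisVec_apply_inr]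
      by_cases h1 : (s' : ℕ) = D.reflectRoot i s
      · rw [if_pos h1, if_pos (by rw [h1]), mul_one]
      · rw [if_neg h1, if_neg (by omega), mul_zero]

end Cfsg.Agent.S1095
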