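import Mathlib
import Cfsg.Statements.S1118
import Cfsg.Agent.Helper6.RankOne

set_option autoImplicit false
open Cfsg Cfsg.Agent.Helper6

namespace Cfsg.Agent.S1118

/-- In the rank-one set-up (`G` finite and doubly transitive on `Ω`, `t` an involution moving `a`, `Q` normal in `G_a` with `G_a = Q D`, `Q ⊓ D = 1` for the two-point stabiliser `D = G_a ⊓ G_{t • a}`, `|Q|` even, `|D|` odd), the normaliser of a subset of `Q` containing a non-identity element lies in `G_a`; consequently `N_G(Q) = N_G(G_a) = G_a`. -/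
theorem result {G Ω : Type*} [Group G] [Finite G] [MulAction G Ω] {a : Ω} {t : G} {Q : Subgroup G}
    (hS : Cfsg.IsRankOneSetup G Ω a t Q) :
    (∀ X : Set G, X ⊆ (Q : Set G) → (∃ x ∈ X, x ≠ 1) → Subgroup.normalizer X ≤ MulAction.stabilizer G a) ∧
      Subgroup.normalizer (Q : Set G) = MulAction.stabilizer G a ∧
      Subgroup.normalizer (MulAction.stabilizer G a : Set G) = MulAction.stabilizer G a := by
  have hne := RankOne.exists_Q_ne_one hS
  have h1 : ∀ X : Set G, X ⊆ (Q : Set G) → (∃ x ∈ X, x ≠ 1) →
      Subgroup.normalizer X ≤ MulAction.stabilizer G a := by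
    intro X hXQ ⟨x, hxX, hx1⟩ g hg
    rw [Subgroup.mem_set_normalizer_iff] at hg
    have hgx : g * x * g⁻¹ ∈ X := (hg x).mp hxX
    have hfix : (g * x * g⁻¹) • a = a := MulAction.mem_stabilizer_iff.mp (hS.le (hXQ hgx))
    by_contra hga
    have hne : g⁻¹ • a ≠ a := by
      intro h; apply hga; rw [MulAction.mem_stabilizer_iff]
      calc g • a = g • g⁻¹ • a := by rw [h]
        _ = a := smul_inv_smul g a
    have : x • g⁻¹ • a = g⁻¹ • a := by
      calc x • g⁻¹ • a = g⁻¹ • ((g * x * g⁻¹) • a) := by
            rw [mul_smul, mul_smul, inv_smul_smul]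
        _ = g⁻¹ • a := by rw [hfix]
    exact hx1 (RankOne.semireg hS (hXQ hxX) hne this)
  refine ⟨h1, ?_, ?_⟩
  · apply le_antisymm
    · obtain ⟨x, hx, hx1⟩ := hne
      exact h1 Q subset_rfl ⟨x, hx, hx1⟩
    · intro h hh
      rw [Subgroup.mem_normalizer_iff]
      intro n
      constructor
      · intro hn; exact hS.conj_mem h hh n hn
      · intro hn
        have := hS.conj_mem h⁻¹ (Subgroup.inv_mem _ hh) _ hn
        have e : h⁻¹ * (h * n * h⁻¹) * h⁻¹⁻¹ = n := by group
        rwa [e] at this
  · apply le_antisymm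
    · intro g hg
      rw [Subgroup.mem_normalizer_iff] at hg
      obtain ⟨x, hx, hx1⟩ := hne
      by_contra hga
      have hne' : g • a ≠ a := fun h => hga (MulAction.mem_stabilizer_iff.mpr h)
      have hn : g⁻¹ * x * g ∈ MulAction.stabilizer G a := by
        refine SetLike.mem_coe.mp ((hg _).mpr ?_)
        have e : g * (g⁻¹ * x * g) * g⁻¹ = x := by group
        rw [e]; exact hS.le hx
      rw [MulAction.mem_stabilizer_iff] at hn
      have : x • g • a = g • a := by
        calc x • g • a = g • ((g⁻¹ * x * g) • a) := by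
              rw [mul_smul, mul_smul, smul_inv_smul]
          _ = g • a := by rw [hn]
      exact hx1 (RankOne.semireg hS hx hne' this)
    · exact Subgroup.le_normalizer

end Cfsg.Agent.S1118
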