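import Mathlib
import Cfsg.Statements.S1124
import Cfsg.Agent.Helper6.Isolated

set_option autoImplicit false
open scoped Pointwise
open Cfsg Cfsg.Agent.Helper6

namespace Cfsg.Agent.S1124

/-- Let `t` be an element of order 2 of a finite group normalising a subgroup `X` of odd order, `Y = C_X(t)` and `Z` the set of elements of `X` inverted by `t`. Then `(y, z) ↦ y z` is a bijection `Y × Z → X`, so `|X| = |Y| |Z|`, and the subgroup generated by `Z` is normal in `X`. -/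
theorem result {M : Type*} [Group M] [Finite M]
    (t : M) (ht : orderOf t = 2) (X : Subgroup M) (hodd : Odd (Nat.card X))
    (hnorm : ∀ x ∈ X, t * x * t⁻¹ ∈ X) :
    (∀ x ∈ X, ∃! p : M × M, p.1 ∈ X ⊓ Subgroup.centralizer {t} ∧ p.2 ∈ Cfsg.invertedBy X t ∧ x = p.1 * p.2) ∧
      Nat.card X = Nat.card ↥(X ⊓ Subgroup.centralizer {t}) * Nat.card (Cfsg.invertedBy X t) ∧
      ∀ x ∈ X, MulAut.conj x • Subgroup.closure (Cfsg.invertedBy X t) = Subgroup.closure (Cfsg.invertedBy X t) := by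
  have tt : t * t = 1 := inv_sq_one ht
  have ti : t⁻¹ = t := inv_eq_self tt
  have hoddx : ∀ x ∈ X, Odd (orderOf x) :=
    fun x hx => hodd.of_dvd_nat (Subgroup.orderOf_dvd_natCard X hx)
  have hex : ∀ x ∈ X, ∃ y ∈ X ⊓ Subgroup.centralizer {t}, ∃ z ∈ Cfsg.invertedBy X t, x = y * z := by
    intro x hx
    obtain ⟨w, hwdef⟩ : ∃ w, w = (t * x⁻¹ * t⁻¹) * x := ⟨_, rfl⟩
    have hw : w ∈ X := by rw [hwdef]; exact X.mul_mem (hnorm _ (X.inv_mem hx)) hx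
    obtain ⟨m, hm⟩ := hoddx _ hw
    have hwt : t * w * t⁻¹ = w⁻¹ := by
      rw [hwdef]
      calc t * (t * x⁻¹ * t⁻¹ * x) * t⁻¹ = (t * t) * x⁻¹ * t⁻¹ * x * t⁻¹ := by group
        _ = x⁻¹ * t⁻¹ * x * t⁻¹ := by rw [tt, one_mul]
        _ = x⁻¹ * t * x * t⁻¹ := by rw [ti]
        _ = (t * x⁻¹ * t⁻¹ * x)⁻¹ := by group
    have hwi : w⁻¹ = x⁻¹ * (t * x * t⁻¹) := by rw [hwdef]; group
    have hzt : t * w ^ (m + 1) * t⁻¹ = (w ^ (m + 1))⁻¹ := by
      rw [← conj_pow, hwt, inv_pow]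
    have hz2 : w ^ (m + 1) * w ^ (m + 1) = w := by
      rw [← pow_add, show m + 1 + (m + 1) = orderOf w + 1 by omega, pow_succ, pow_orderOf_eq_one,
        one_mul]
    have hzX : w ^ (m + 1) ∈ X := X.pow_mem hw _
    refine ⟨x * (w ^ (m + 1))⁻¹, ?_, w ^ (m + 1), ⟨hzX, hzt⟩, by group⟩
    refine Subgroup.mem_inf.mpr ⟨X.mul_mem hx (X.inv_mem hzX), ?_⟩
    rw [Subgroup.mem_centralizer_iff]
    intro g hg
    rw [Set.mem_singleton_iff.mp hg]
    have key : t * (x * (w ^ (m + 1))⁻¹) * t⁻¹ = x * (w ^ (m + 1))⁻¹ := by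
      calc t * (x * (w ^ (m + 1))⁻¹) * t⁻¹ = (t * x * t⁻¹) * (t * w ^ (m + 1) * t⁻¹)⁻¹ := by group
        _ = (t * x * t⁻¹) * w ^ (m + 1) := by rw [hzt, inv_inv]
        _ = x * (x⁻¹ * (t * x * t⁻¹)) * w ^ (m + 1) := by group
        _ = x * w⁻¹ * w ^ (m + 1) := by rw [hwi]
        _ = x * (w ^ (m + 1) * w ^ (m + 1))⁻¹ * w ^ (m + 1) := by rw [hz2]
        _ = x * (w ^ (m + 1))⁻¹ := by group
    calc t * (x * (w ^ (m + 1))⁻¹) = (t * (x * (w ^ (m + 1))⁻¹) * t⁻¹) * t := by group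
      _ = (x * (w ^ (m + 1))⁻¹) * t := by rw [key]
  have hcent : ∀ y ∈ X ⊓ Subgroup.centralizer {t}, t * y = y * t := by
    intro y hy
    exact (Subgroup.mem_centralizer_iff.mp (Subgroup.mem_inf.mp hy).2) t rfl
  have hsq : ∀ y z, t * y = y * t → t * z * t⁻¹ = z⁻¹ → z * z = (t * (y * z) * t⁻¹)⁻¹ * (y * z) := by
    intro y z hy hz
    have : t * (y * z) * t⁻¹ = y * z⁻¹ := by
      calc t * (y * z) * t⁻¹ = (t * y) * t⁻¹ * (t * z * t⁻¹) := by group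
        _ = y * z⁻¹ := by rw [hy, hz]; group
    rw [this]; group
  have huniq : ∀ y ∈ X ⊓ Subgroup.centralizer {t}, ∀ z ∈ Cfsg.invertedBy X t,
      ∀ y' ∈ X ⊓ Subgroup.centralizer {t}, ∀ z' ∈ Cfsg.invertedBy X t, y * z = y' * z' →
      y = y' ∧ z = z' := by
    intro y hy z hz y' hy' z' hz' e
    have h1 := hsq y z (hcent y hy) hz.2
    have h2 := hsq y' z' (hcent y' hy') hz'.2
    rw [e, ← h2] at h1
    have hzz : z = z' := eq_of_sq_eq_of_odd (hoddx z hz.1) (hoddx z' hz'.1) h1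
    subst hzz
    exact ⟨mul_right_cancel e, rfl⟩
  have h1 : ∀ x ∈ X, ∃! p : M × M, p.1 ∈ X ⊓ Subgroup.centralizer {t} ∧
      p.2 ∈ Cfsg.invertedBy X t ∧ x = p.1 * p.2 := by
    intro x hx
    obtain ⟨y, hy, z, hz, rfl⟩ := hex x hx
    refine ⟨(y, z), ⟨hy, hz, rfl⟩, ?_⟩
    rintro ⟨y', z'⟩ ⟨hy', hz', e⟩
    obtain ⟨e1, e2⟩ := huniq y hy z hz y' hy' z' hz' e
    simp only [Prod.mk.injEq]
    exact ⟨e1.symm, e2.symm⟩
  refine ⟨h1, ?_, ?_⟩
  · let f : ↥(X ⊓ Subgroup.centralizer {t}) × ↥(Cfsg.invertedBy X t) → ↥X :=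
      fun p => ⟨(p.1 : M) * (p.2 : M), X.mul_mem (Subgroup.mem_inf.mp p.1.2).1 p.2.2.1⟩
    have hf : Function.Bijective f := by
      constructor
      · rintro ⟨⟨y, hy⟩, ⟨z, hz⟩⟩ ⟨⟨y', hy'⟩, ⟨z', hz'⟩⟩ h
        have h' : y * z = y' * z' := congrArg Subtype.val h
        obtain ⟨e1, e2⟩ := huniq y hy z hz y' hy' z' hz' h'
        subst e1; subst e2; rfl
      · rintro ⟨x, hx⟩
        obtain ⟨y, hy, z, hz, rfl⟩ := hex x hx
        exact ⟨(⟨y, hy⟩, ⟨z, hz⟩), rfl⟩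
    rw [← Nat.card_congr (Equiv.ofBijective f hf), Nat.card_prod]
  · intro x hx
    have hYN : X ⊓ Subgroup.centralizer {t} ≤
        Subgroup.normalizer (Subgroup.closure (Cfsg.invertedBy X t) : Set M) := by
      rw [Subgroup.le_normalizer_closure_iff]
      intro y hy z hz
      apply Subgroup.subset_closure
      refine ⟨X.mul_mem (X.mul_mem (Subgroup.mem_inf.mp hy).1 hz.1) (X.inv_mem (Subgroup.mem_inf.mp hy).1), ?_⟩
      have hyt := hcent y hy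
      have hyt' : t * y⁻¹ = y⁻¹ * t := by
        calc t * y⁻¹ = y⁻¹ * (y * t) * y⁻¹ := by group
          _ = y⁻¹ * (t * y) * y⁻¹ := by rw [hyt]
          _ = y⁻¹ * t := by group
      calc t * (y * z * y⁻¹) * t⁻¹ = (t * y) * z * (y⁻¹ * t⁻¹) := by group
        _ = (y * t) * z * (y⁻¹ * t⁻¹) := by rw [hyt]
        _ = y * (t * z * t⁻¹) * (t * y⁻¹) * t⁻¹ := by group
        _ = y * z⁻¹ * (y⁻¹ * t) * t⁻¹ := by rw [hz.2, hyt']
        _ = (y * z * y⁻¹)⁻¹ := by group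
    have hxN : x ∈ Subgroup.normalizer (Subgroup.closure (Cfsg.invertedBy X t) : Set M) := by
      obtain ⟨y, hy, z, hz, rfl⟩ := hex x hx
      exact Subgroup.mul_mem _ (hYN hy) (Subgroup.le_normalizer (Subgroup.subset_closure hz))
    ext k
    rw [Subgroup.mem_pointwise_smul_iff_inv_smul_mem]
    have : (MulAut.conj x)⁻¹ • k = x⁻¹ * k * x := by simp [MulAut.smul_def]
    rw [this]
    exact ((Subgroup.mem_normalizer_iff''.mp hxN) k).symm

end Cfsg.Agent.S1124
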