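import Mathlib
import Cfsg.Statements.S1120
import Cfsg.Agent.Helper6.RankOne3
import Cfsg.Agent.S1124

set_option autoImplicit false
open Cfsg Cfsg.Agent.Helper6

namespace Cfsg.Agent.S1120

/-- In the rank-one set-up (`G` finite and doubly transitive on `Ω`, `t` an involution moving `a`, `Q` normal in `G_a` with `G_a = Q D`, `Q ⊓ D = 1` for the two-point stabiliser `D = G_a ⊓ G_{t • a}`, `|Q|` even, `|D|` odd), if `G` has 2-rank at least 2 then `O_{2'}(G)` equals the normal core of `G_a`. -/
theorem result {G Ω : Type*} [Group G] [Finite G] [MulAction G Ω] {a : Ω} {t : G} {Q : Subgroup G}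
    (hS : Cfsg.IsRankOneSetup G Ω a t Q)
    (h2 : ∃ x y : G, x ≠ 1 ∧ y ≠ 1 ∧ x ≠ y ∧ x * x = 1 ∧ y * y = 1 ∧ x * y = y * x) :
    Cfsg.pPrimeCore 2 G = (MulAction.stabilizer G a).normalCore := by
  apply le_antisymm
  · apply sSup_le
    rintro N ⟨hN, hcop⟩
    have hNodd : Odd (Nat.card N) := Nat.coprime_two_right.mp hcop
    have := hN
    rw [Subgroup.normal_le_normalCore]
    obtain ⟨x, y, hx1, hy1, hxy, hx2, hy2, hc⟩ := h2
    obtain ⟨p, hp⟩ := RankOne.exists_fixed_of_sq_one hS hx2
    have hyp : y • p = p := by
      apply RankOne.fixed_unique hS hx1 hx2 _ hp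
      rw [← mul_smul, hc, mul_smul, hp]
    have hxi : x⁻¹ = x := inv_eq_self hx2
    have hyi : y⁻¹ = y := inv_eq_self hy2
    have hox : orderOf x = 2 := orderOf_eq_prime (by rw [pow_two]; exact hx2) hx1
    have key : ∀ n ∈ N, n • p = p := by
      intro n hn
      obtain ⟨h1, _, _⟩ := Cfsg.Agent.S1124.result x hox N hNodd (fun n hn => hN.conj_mem n hn x)
      obtain ⟨⟨c, k⟩, ⟨hcm, hk, hnck⟩, _⟩ := h1 n hn
      have hcm' : c ∈ N ⊓ Subgroup.centralizer {x} := hcm
      have hk' : k ∈ Cfsg.invertedBy N x := hk
      have hnck' : n = c * k := hnck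
      have hcp : c • p = p := by
        have hxc : x * c = c * x :=
          (Subgroup.mem_centralizer_iff.mp (Subgroup.mem_inf.mp hcm').2) x rfl
        apply RankOne.fixed_unique hS hx1 hx2 _ hp
        rw [← mul_smul, hxc, mul_smul, hp]
      have hkp : k • p = p := by
        obtain ⟨hkN, hkx⟩ := hk'
        have hs1 : (x * k) * (x * k) = 1 := by
          calc (x * k) * (x * k) = (x * k * x) * k := by group
            _ = (x * k * x⁻¹) * k := by rw [hxi]
            _ = 1 := by rw [hkx, inv_mul_cancel]
        rcases Nat.even_or_odd (orderOf (x * k * y)) with ⟨j, hj⟩ | ⟨j, hj⟩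
        · have hpos : 0 < orderOf (x * k * y) := orderOf_pos _
          have hj0 : j ≠ 0 := by omega
          have hz2 : (x * k * y) ^ j * (x * k * y) ^ j = 1 := by
            rw [← pow_add, ← hj, pow_orderOf_eq_one]
          have hz1 : (x * k * y) ^ j ≠ 1 := pow_ne_one_of_lt_orderOf hj0 (by omega)
          obtain ⟨c1, c2⟩ := dihedral_center_comm hs1 hy2 j hz2
          have hzp : (x * k * y) ^ j • p = p := by
            apply RankOne.fixed_unique hS hy1 hy2 _ hyp
            rw [← mul_smul, c2, mul_smul, hyp]
          have hsp : (x * k) • p = p := by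
            apply RankOne.fixed_unique hS hz1 hz2 _ hzp
            rw [← mul_smul, ← c1, mul_smul, hzp]
          rw [mul_smul] at hsp
          exact smul_left_cancel x (hsp.trans hp.symm)
        · exfalso
          have hrr : (x * k * y) * (x * k * y) ∈ N := by
            have : (x * k * y) * (x * k * y) = (x * k * x⁻¹) * (y * k * y⁻¹) := by
              rw [hxi, hyi]
              calc x * k * y * (x * k * y) = x * k * (y * x) * k * y := by group
                _ = x * k * (x * y) * k * y := by rw [hc]
                _ = x * k * x * (y * k * y) := by group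
            rw [this]
            exact N.mul_mem (hN.conj_mem k hkN x) (hN.conj_mem k hkN y)
          have hr : x * k * y ∈ N := by
            have : x * k * y = ((x * k * y) * (x * k * y)) ^ (j + 1) := by
              rw [← pow_two, ← pow_mul, show 2 * (j + 1) = orderOf (x * k * y) + 1 by omega,
                pow_succ, pow_orderOf_eq_one, one_mul]
            rw [this]; exact N.pow_mem hrr _
          have hxyN : x * y ∈ N := by
            have : x * y = (x * k * y) * (y⁻¹ * k * y⁻¹⁻¹)⁻¹ := by group
            rw [this]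
            exact N.mul_mem hr (N.inv_mem (hN.conj_mem k hkN y⁻¹))
          have hxy2 : (x * y) * (x * y) = 1 := by
            calc (x * y) * (x * y) = x * (y * x) * y := by group
              _ = x * (x * y) * y := by rw [hc]
              _ = (x * x) * (y * y) := by group
              _ = 1 := by rw [hx2, hy2, mul_one]
          have := RankOne.eq_one_of_sq_of_odd hNodd hxyN hxy2
          apply hxy
          rw [← hyi]; exact eq_inv_of_mul_eq_one_left this
      rw [hnck', mul_smul, hkp, hcp]
    intro n hn
    have := hS.two_transitive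
    have : MulAction.IsPretransitive G Ω := MulAction.isPretransitive_of_is_two_pretransitive
    obtain ⟨g, hg⟩ := MulAction.exists_smul_eq G p a
    have hgn := key (g⁻¹ * n * g⁻¹⁻¹) (hN.conj_mem n hn g⁻¹)
    rw [inv_inv, mul_smul, mul_smul, hg] at hgn
    rw [MulAction.mem_stabilizer_iff]
    calc n • a = g • g⁻¹ • n • a := (smul_inv_smul g _).symm
      _ = g • p := by rw [hgn]
      _ = a := hg
  · apply le_sSup
    refine ⟨Subgroup.normalCore_normal _, ?_⟩
    rw [Nat.coprime_two_right, ← Nat.not_even_iff_odd, even_iff_two_dvd]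
    intro hdvd
    obtain ⟨s, hs⟩ := exists_prime_orderOf_dvd_card' 2 hdvd
    have hsN : (s : G) ∈ (MulAction.stabilizer G a).normalCore := s.2
    have hsa : (s : G) ∈ MulAction.stabilizer G a := Subgroup.normalCore_le _ hsN
    have hs2 : (s : G) * (s : G) = 1 := by
      have := pow_orderOf_eq_one s
      rw [hs, pow_two] at this
      exact congrArg Subtype.val this
    have hs1 : (s : G) ≠ 1 := by
      intro h
      have : s = 1 := Subtype.ext h
      rw [this, orderOf_one] at hs
      omega
    have hsQ := RankOne.sq_one_mem_Q hS hsa hs2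
    apply hs1
    apply RankOne.semireg hS hsQ (RankOne.ta_ne hS)
    have hn : t⁻¹ * (s : G) * t⁻¹⁻¹ ∈ (MulAction.stabilizer G a).normalCore :=
      (Subgroup.normalCore_normal _).conj_mem _ hsN t⁻¹
    have := Subgroup.normalCore_le _ hn
    rw [MulAction.mem_stabilizer_iff, inv_inv, mul_smul, mul_smul] at this
    calc (s : G) • t • a = t • t⁻¹ • (s : G) • t • a := (smul_inv_smul t _).symm
      _ = t • a := by rw [this]

end Cfsg.Agent.S1120
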