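import Mathlib
import Cfsg.Statements.S1125
import Cfsg.Agent.Helper6.RankOne3

set_option autoImplicit false
open Cfsg Cfsg.Agent.Helper6

namespace Cfsg.Agent.S1125

/-- In the rank-one set-up (`G` finite and doubly transitive on `Ω`, `t` an involution moving `a`, `Q` normal in `G_a` with `G_a = Q D`, `Q ⊓ D = 1` for the two-point stabiliser `D = G_a ⊓ G_{t • a}`, `|Q|` even, `|D|` odd), let `X ⊆ D` fix at least three points of `Ω`. Then `C_G(X)` is doubly transitive on the fixed-point set of `X`, `|C_Q(X)|` is even, and `C_{G_a}(X) = C_Q(X) C_D(X)`. -/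
theorem result {G Ω : Type*} [Group G] [Finite G] [MulAction G Ω] {a : Ω} {t : G} {Q : Subgroup G}
    (hS : Cfsg.IsRankOneSetup G Ω a t Q)
    (X : Set G) (hX : X ⊆ ((MulAction.stabilizer G a ⊓ MulAction.stabilizer G (t • a)) : Set G))
    (h3 : ∃ b c d : Ω, b ≠ c ∧ b ≠ d ∧ c ≠ d ∧ ∀ x ∈ X, x • b = b ∧ x • c = c ∧ x • d = d) :
    (∀ b₁ b₂ c₁ c₂ : Ω, (∀ x ∈ X, x • b₁ = b₁ ∧ x • b₂ = b₂ ∧ x • c₁ = c₁ ∧ x • c₂ = c₂) →
        b₁ ≠ b₂ → c₁ ≠ c₂ → ∃ g ∈ Subgroup.centralizer X, g • b₁ = c₁ ∧ g • b₂ = c₂) ∧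
      Even (Nat.card ↥(Subgroup.centralizer X ⊓ Q)) ∧
      (Subgroup.centralizer X ⊓ Q) ⊔ (Subgroup.centralizer X ⊓ (MulAction.stabilizer G a ⊓ MulAction.stabilizer G (t • a))) = Subgroup.centralizer X ⊓ MulAction.stabilizer G a := by
  obtain ⟨hXa, hXb⟩ := RankOne.D_fix hS hX
  refine ⟨?_, ?_, ?_⟩
  · intro b₁ b₂ c₁ c₂ hfix hb hc
    exact RankOne.centralizer_two_trans hS h3 (fun x hx => (hfix x hx).1) (fun x hx => (hfix x hx).2.1)
      (fun x hx => (hfix x hx).2.2.1) (fun x hx => (hfix x hx).2.2.2) hb hc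
  · obtain ⟨s, hs, hs1, hs2⟩ := RankOne.exists_centralizer_Q_inv hS hX h3
    have ho : orderOf s = 2 := orderOf_eq_prime (by rw [pow_two]; exact hs2) hs1
    have := Subgroup.orderOf_dvd_natCard _ hs
    rw [ho] at this
    exact even_iff_two_dvd.mpr this
  · apply le_antisymm
    · exact sup_le (inf_le_inf_left _ hS.le) (inf_le_inf_left _ inf_le_left)
    · intro g hg
      obtain ⟨hgc, hga⟩ := Subgroup.mem_inf.mp hg
      have hne : g • t • a ≠ a := RankOne.stab_smul_ne hS hga (RankOne.ta_ne hS)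
      obtain ⟨u, hu, huc, hub⟩ := RankOne.exists_Q_centralizer_map hS hXa hXb
        (RankOne.smul_fixed_of_mem_centralizer hgc hXb) (RankOne.ta_ne hS) hne
      have hmem : u⁻¹ * g ∈ Subgroup.centralizer X ⊓
          (MulAction.stabilizer G a ⊓ MulAction.stabilizer G (t • a)) := by
        refine Subgroup.mem_inf.mpr ⟨Subgroup.mul_mem _ (Subgroup.inv_mem _ huc) hgc,
          Subgroup.mem_inf.mpr ⟨Subgroup.mul_mem _ (Subgroup.inv_mem _ (hS.le hu)) hga, ?_⟩⟩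
        rw [MulAction.mem_stabilizer_iff, mul_smul, ← hub, inv_smul_smul]
      have : g = u * (u⁻¹ * g) := by group
      rw [this]
      exact Subgroup.mul_mem_sup (Subgroup.mem_inf.mpr ⟨huc, hu⟩) hmem

end Cfsg.Agent.S1125
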