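import Mathlib
import Cfsg.Statements.S1127
import Cfsg.Agent.Helper6.RankOne3

set_option autoImplicit false
open Cfsg Cfsg.Agent.Helper6

namespace Cfsg.Agent.S1127

/-- In the rank-one set-up (`G` finite and doubly transitive on `Ω`, `t` an involution moving `a`, `Q` normal in `G_a` with `G_a = Q D`, `Q ⊓ D = 1` for the two-point stabiliser `D = G_a ⊓ G_{t • a}`, `|Q|` even, `|D|` odd): if `s` is an involution of `G_a` and `r ∈ Q` satisfy `t s t = r⁻¹ t r`, then `C_D(t) = C_D(s)`; moreover `C_D(t) ⊓ C_D(K) = C_D(I ∩ G_a)`, where `K` is the set of elements of `D` inverted by `t` and `I ∩ G_a` the set of involutions of `G_a`. -/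
theorem result {G Ω : Type*} [Group G] [Finite G] [MulAction G Ω] {a : Ω} {t : G} {Q : Subgroup G}
    (hS : Cfsg.IsRankOneSetup G Ω a t Q) :
    (∀ s r : G, s ∈ Cfsg.involutionsIn (MulAction.stabilizer G a : Set G) → r ∈ Q → t * s * t = r⁻¹ * t * r →
        (MulAction.stabilizer G a ⊓ MulAction.stabilizer G (t • a)) ⊓ Subgroup.centralizer {t} = (MulAction.stabilizer G a ⊓ MulAction.stabilizer G (t • a)) ⊓ Subgroup.centralizer {s}) ∧
      (MulAction.stabilizer G a ⊓ MulAction.stabilizer G (t • a)) ⊓ Subgroup.centralizer {t} ⊓ Subgroup.centralizer (Cfsg.invertedBy (MulAction.stabilizer G a ⊓ MulAction.stabilizer G (t • a)) t) =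
        (MulAction.stabilizer G a ⊓ MulAction.stabilizer G (t • a)) ⊓ Subgroup.centralizer (Cfsg.involutionsIn (MulAction.stabilizer G a : Set G)) := by
  have ti := RankOne.t_inv hS
  have tt := hS.mul_self
  have hconjI : ∀ s ∈ Cfsg.involutionsIn (MulAction.stabilizer G a : Set G), ∀ d ∈ MulAction.stabilizer G a,
      d⁻¹ * s * d ∈ Cfsg.involutionsIn (MulAction.stabilizer G a : Set G) := by
    intro s hs d hd
    obtain ⟨hsa, hs1, hs2⟩ := hs
    refine ⟨Subgroup.mul_mem _ (Subgroup.mul_mem _ (Subgroup.inv_mem _ hd) hsa) hd, ?_, ?_⟩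
    · intro h1; apply hs1
      have : s = d * (d⁻¹ * s * d) * d⁻¹ := by group
      rw [this, h1]; group
    · have := conj_sq_one hs2 d⁻¹
      rwa [inv_inv] at this
  have hinvc : ∀ d : G, t * d = d * t → t * d⁻¹ = d⁻¹ * t := by
    intro d hdt
    calc t * d⁻¹ = d⁻¹ * (d * t) * d⁻¹ := by group
      _ = d⁻¹ * (t * d) * d⁻¹ := by rw [hdt]
      _ = d⁻¹ * t := by group
  have hA : ∀ s r : G, s ∈ Cfsg.involutionsIn (MulAction.stabilizer G a : Set G) → r ∈ Q →
      t * s * t = r⁻¹ * t * r →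
      (MulAction.stabilizer G a ⊓ MulAction.stabilizer G (t • a)) ⊓ Subgroup.centralizer {t} = (MulAction.stabilizer G a ⊓ MulAction.stabilizer G (t • a)) ⊓ Subgroup.centralizer {s} := by
    intro s r hs hr e
    have hex := RankOne.exists_unique_pair hS
    ext d
    simp only [Subgroup.mem_inf, Subgroup.mem_centralizer_iff, Set.mem_singleton_iff, forall_eq]
    constructor
    · rintro ⟨hd, hdt⟩
      refine ⟨hd, ?_⟩
      have hdD : d ∈ (MulAction.stabilizer G a ⊓ MulAction.stabilizer G (t • a)) := Subgroup.mem_inf.mpr hd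
      have hp1 := hconjI s hs d hd.1
      have hp2 : d⁻¹ * r * d ∈ Q := RankOne.D_conj' hS hdD hr
      have hdt' := hinvc d hdt
      have hp3 : t * (d⁻¹ * s * d) * t = (d⁻¹ * r * d)⁻¹ * t * (d⁻¹ * r * d) := by
        calc t * (d⁻¹ * s * d) * t = (t * d⁻¹) * s * (d * t) := by group
          _ = (d⁻¹ * t) * s * (t * d) := by rw [hdt', hdt]
          _ = d⁻¹ * (t * s * t) * d := by group
          _ = d⁻¹ * (r⁻¹ * t * r) * d := by rw [e]
          _ = d⁻¹ * r⁻¹ * (t * d) * d⁻¹ * r * d := by group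
          _ = d⁻¹ * r⁻¹ * (d * t) * d⁻¹ * r * d := by rw [hdt]
          _ = (d⁻¹ * r * d)⁻¹ * t * (d⁻¹ * r * d) := by group
      have := hex.unique (y₁ := (s, r)) (y₂ := (d⁻¹ * s * d, d⁻¹ * r * d)) ⟨hs, hr, e⟩ ⟨hp1, hp2, hp3⟩
      have h1 : s = d⁻¹ * s * d := congrArg Prod.fst this
      calc s * d = d * (d⁻¹ * s * d) := by group
        _ = d * s := by rw [← h1]
    · rintro ⟨hd, hds⟩
      refine ⟨hd, ?_⟩
      have hdD : d ∈ (MulAction.stabilizer G a ⊓ MulAction.stabilizer G (t • a)) := Subgroup.mem_inf.mpr hd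
      have e0 : t * s * t = r⁻¹ * 1 * t * r := by rw [mul_one]; exact e
      have e1 := RankOne.conj_canon hS d e0
      have hds' : d⁻¹ * s * d = s := by
        calc d⁻¹ * s * d = d⁻¹ * (s * d) := by group
          _ = d⁻¹ * (d * s) := by rw [hds]
          _ = s := by group
      rw [hds', e0] at e1
      have hAm := RankOne.t_conj_mem hS hdD
      obtain ⟨_, r2, _⟩ := RankOne.canon_unique' hS (Q.inv_mem hr)
        (RankOne.D_conj' hS hAm (Q.inv_mem hr)) (Subgroup.one_mem _)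
        (Subgroup.mul_mem _ (Subgroup.mul_mem _ (Subgroup.inv_mem _ hAm) (Subgroup.one_mem _)) hdD) hr
        (RankOne.D_conj' hS hAm hr) e1
      have : t * d * t = d := by
        calc t * d * t = (t * d * t) * ((t * d * t)⁻¹ * 1 * d) := by rw [← r2, mul_one]
          _ = d := by group
      calc t * d = (t * d * t) * t⁻¹ := by group
        _ = d * t := by rw [this, ti]
  refine ⟨hA, ?_⟩
  obtain ⟨⟨s₀, r₀⟩, ⟨hs₀, hr₀, e₀⟩, _⟩ := RankOne.exists_unique_pair hS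
  have hA0 := hA s₀ r₀ hs₀ hr₀ e₀
  have e00 : t * s₀ * t = r₀⁻¹ * 1 * t * r₀ := by rw [mul_one]; exact e₀
  have hinj : ∀ k₁ ∈ Cfsg.invertedBy (MulAction.stabilizer G a ⊓ MulAction.stabilizer G (t • a)) t, ∀ k₂ ∈ Cfsg.invertedBy (MulAction.stabilizer G a ⊓ MulAction.stabilizer G (t • a)) t,
      k₁⁻¹ * s₀ * k₁ = k₂⁻¹ * s₀ * k₂ → k₁ = k₂ := by
    intro k₁ hk₁ k₂ hk₂ h
    have c1 := RankOne.conj_canon hS k₁ e00
    have c2 := RankOne.conj_canon hS k₂ e00
    rw [h] at c1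
    have hA1 := RankOne.t_conj_mem hS hk₁.1
    have hA2 := RankOne.t_conj_mem hS hk₂.1
    obtain ⟨_, r2, _⟩ := RankOne.canon_unique' hS (RankOne.D_conj' hS hA1 (Q.inv_mem hr₀))
      (RankOne.D_conj' hS hA2 (Q.inv_mem hr₀))
      (Subgroup.mul_mem _ (Subgroup.mul_mem _ (Subgroup.inv_mem _ hA1) (Subgroup.one_mem _)) hk₁.1)
      (Subgroup.mul_mem _ (Subgroup.mul_mem _ (Subgroup.inv_mem _ hA2) (Subgroup.one_mem _)) hk₂.1)
      (RankOne.D_conj' hS hA1 hr₀) (RankOne.D_conj' hS hA2 hr₀) (c1.symm.trans c2)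
    have i1 : t * k₁ * t = k₁⁻¹ := by have := hk₁.2; rwa [ti] at this
    have i2 : t * k₂ * t = k₂⁻¹ := by have := hk₂.2; rwa [ti] at this
    rw [i1, i2, inv_inv, inv_inv, mul_one, mul_one] at r2
    exact eq_of_sq_eq_of_odd (hS.odd_card.of_dvd_nat (Subgroup.orderOf_dvd_natCard _ hk₁.1))
      (hS.odd_card.of_dvd_nat (Subgroup.orderOf_dvd_natCard _ hk₂.1)) r2
  ext d
  simp only [Subgroup.mem_inf, Subgroup.mem_centralizer_iff, Set.mem_singleton_iff, forall_eq]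
  constructor
  · rintro ⟨⟨hd, hdt⟩, hdK⟩
    refine ⟨hd, ?_⟩
    intro s' hs'
    have hds₀ : s₀ * d = d * s₀ := by
      have : d ∈ (MulAction.stabilizer G a ⊓ MulAction.stabilizer G (t • a)) ⊓ Subgroup.centralizer {s₀} := by
        rw [← hA0]
        exact Subgroup.mem_inf.mpr ⟨Subgroup.mem_inf.mpr hd, Subgroup.mem_centralizer_iff.mpr
          (by intro h hh; rw [Set.mem_singleton_iff.mp hh]; exact hdt)⟩
      exact (Subgroup.mem_centralizer_iff.mp (Subgroup.mem_inf.mp this).2) s₀ rfl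
    obtain ⟨k, hk, rfl⟩ := RankOne.inv_trans hS hs₀ hs'
    have hkd : k * d = d * k := hdK k hk
    have hkd' : k⁻¹ * d = d * k⁻¹ := by
      calc k⁻¹ * d = k⁻¹ * (d * k) * k⁻¹ := by group
        _ = k⁻¹ * (k * d) * k⁻¹ := by rw [hkd]
        _ = d * k⁻¹ := by group
    calc k⁻¹ * s₀ * k * d = k⁻¹ * s₀ * (k * d) := by group
      _ = k⁻¹ * (s₀ * d) * k := by rw [hkd]; group
      _ = (k⁻¹ * d) * s₀ * k := by rw [hds₀]; group
      _ = d * (k⁻¹ * s₀ * k) := by rw [hkd']; group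
  · rintro ⟨hd, hdI⟩
    have hdD : d ∈ (MulAction.stabilizer G a ⊓ MulAction.stabilizer G (t • a)) := Subgroup.mem_inf.mpr hd
    have hds₀ : s₀ * d = d * s₀ := hdI s₀ hs₀
    have hdt : t * d = d * t := by
      have : d ∈ (MulAction.stabilizer G a ⊓ MulAction.stabilizer G (t • a)) ⊓ Subgroup.centralizer {t} := by
        rw [hA0]
        exact Subgroup.mem_inf.mpr ⟨hdD, Subgroup.mem_centralizer_iff.mpr
          (by intro h hh; rw [Set.mem_singleton_iff.mp hh]; exact hds₀)⟩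
      exact (Subgroup.mem_centralizer_iff.mp (Subgroup.mem_inf.mp this).2) t rfl
    refine ⟨⟨hd, hdt⟩, ?_⟩
    intro k hk
    have hdt' := hinvc d hdt
    have hk' : d * k * d⁻¹ ∈ Cfsg.invertedBy (MulAction.stabilizer G a ⊓ MulAction.stabilizer G (t • a)) t := by
      refine ⟨Subgroup.mul_mem _ (Subgroup.mul_mem _ hdD hk.1) (Subgroup.inv_mem _ hdD), ?_⟩
      calc t * (d * k * d⁻¹) * t⁻¹ = (t * d) * k * d⁻¹ * t⁻¹ := by group
        _ = (d * t) * k * d⁻¹ * t⁻¹ := by rw [hdt]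
        _ = d * (t * k * t⁻¹) * (t * d⁻¹) * t⁻¹ := by group
        _ = d * k⁻¹ * (d⁻¹ * t) * t⁻¹ := by rw [hk.2, hdt']
        _ = (d * k * d⁻¹)⁻¹ := by group
    have hsk := hconjI s₀ hs₀ k (RankOne.D_le hS hk.1)
    have hdsk : (k⁻¹ * s₀ * k) * d = d * (k⁻¹ * s₀ * k) := hdI _ hsk
    have heq : (d * k * d⁻¹)⁻¹ * s₀ * (d * k * d⁻¹) = k⁻¹ * s₀ * k := by
      calc (d * k * d⁻¹)⁻¹ * s₀ * (d * k * d⁻¹) = d * k⁻¹ * d⁻¹ * (s₀ * d) * k * d⁻¹ := by group
        _ = d * k⁻¹ * d⁻¹ * (d * s₀) * k * d⁻¹ := by rw [hds₀]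
        _ = d * (k⁻¹ * s₀ * k) * d⁻¹ := by group
        _ = ((k⁻¹ * s₀ * k) * d) * d⁻¹ := by rw [hdsk]
        _ = k⁻¹ * s₀ * k := by group
    have := hinj _ hk' _ hk heq
    calc k * d = (d * k * d⁻¹) * d := by rw [this]
      _ = d * k := by group

end Cfsg.Agent.S1127
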