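import Mathlib
import Cfsg.Statements.S1128
import Cfsg.Agent.Helper6.RankOne3

set_option autoImplicit false
open Cfsg Cfsg.Agent.Helper6

namespace Cfsg.Agent.S1128

/-- In the rank-one set-up (`G` finite and doubly transitive on `Ω`, `t` an involution moving `a`, `Q` normal in `G_a` with `G_a = Q D`, `Q ⊓ D = 1` for the two-point stabiliser `D = G_a ⊓ G_{t • a}`, `|Q|` even, `|D|` odd), with the action faithful and `G` containing two distinct commuting involutions: every non-identity element of `D` inverted by `t` acts fixed-point-freely on `Q`. -/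
theorem result {G Ω : Type*} [Group G] [Finite G] [MulAction G Ω] [FaithfulSMul G Ω] {a : Ω} {t : G} {Q : Subgroup G}
    (hS : Cfsg.IsRankOneSetup G Ω a t Q)
    (h2 : ∃ x y : G, x ≠ 1 ∧ y ≠ 1 ∧ x ≠ y ∧ x * x = 1 ∧ y * y = 1 ∧ x * y = y * x)
    (x : G) (hx : x ∈ Cfsg.invertedBy (MulAction.stabilizer G a ⊓ MulAction.stabilizer G (t • a)) t) (hx1 : x ≠ 1) :
    Q ⊓ Subgroup.centralizer {x} = ⊥ := by
  obtain ⟨hxD, hxt⟩ := hx
  rw [Subgroup.eq_bot_iff_forall]
  intro q hq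
  obtain ⟨hqQ, hqc⟩ := Subgroup.mem_inf.mp hq
  by_contra hq1
  have hqx : x * q = q * x := (Subgroup.mem_centralizer_iff.mp hqc) x rfl
  have hX : ({x} : Set G) ⊆
      ((MulAction.stabilizer G a ⊓ MulAction.stabilizer G (t • a) : Subgroup G) : Set G) := by
    intro y hy; rw [Set.mem_singleton_iff.mp hy]; exact hxD
  obtain ⟨hXa, hXb⟩ := RankOne.D_fix hS hX
  have h3 : ∃ b c d : Ω, b ≠ c ∧ b ≠ d ∧ c ≠ d ∧
      ∀ y ∈ ({x} : Set G), y • b = b ∧ y • c = c ∧ y • d = d := by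
    refine ⟨a, t • a, q • t • a, (RankOne.ta_ne hS).symm,
      (RankOne.stab_smul_ne hS (hS.le hqQ) (RankOne.ta_ne hS)).symm, ?_, ?_⟩
    · intro h
      exact hq1 (RankOne.semireg hS hqQ (RankOne.ta_ne hS) h.symm)
    · intro y hy
      refine ⟨hXa y hy, hXb y hy, ?_⟩
      rw [Set.mem_singleton_iff.mp hy, ← mul_smul, hqx, mul_smul, hXb x rfl]
  obtain ⟨u, hu, hu2, hua⟩ := RankOne.exists_centralizer_swap hS hX h3
  obtain ⟨hd, hdt, _⟩ := RankOne.swap_conj hS hu2 hua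
  have hux : x * u = u * x := (Subgroup.mem_centralizer_iff.mp hu) x rfl
  have hdx : (t * u) * x * (t * u)⁻¹ = x⁻¹ := by
    calc (t * u) * x * (t * u)⁻¹ = t * (u * x) * u⁻¹ * t⁻¹ := by group
      _ = t * (x * u) * u⁻¹ * t⁻¹ := by rw [hux]
      _ = t * x * t⁻¹ := by group
      _ = x⁻¹ := hxt
  exact hx1 (RankOne.eq_one_of_conj_inv_of_odd
    (hS.odd_card.of_dvd_nat (Subgroup.orderOf_dvd_natCard _ hd))
    (hS.odd_card.of_dvd_nat (Subgroup.orderOf_dvd_natCard _ hxD)) hdx)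

end Cfsg.Agent.S1128
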