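import Mathlib
import Cfsg.Statements.S1140

set_option autoImplicit false
open Cfsg

namespace Cfsg.Agent.S1140

theorem aut_span {F : Type*} [Field F] [Fintype F] [CharP F 2] [Fintype (F ≃+* F)] :
    LinearIndependent F (fun σ : F ≃+* F => ((σ : F →+* F) : F → F)) ∧
      ∀ f : F →+ F, ∃ c : (F ≃+* F) → F, ∀ x : F, f x = ∑ σ, c σ * σ x := by
  classical
  let _ : Algebra (ZMod 2) F := ZMod.algebra F 2
  have h1 : LinearIndependent F (fun σ : F ≃+* F => ((σ : F →+* F) : F → F)) := by
    have := linearIndependent_monoidHom F F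
    have hinj : Function.Injective (fun σ : F ≃+* F => ((σ : F →+* F) : F →* F)) := by
      intro σ τ h
      ext x
      exact congrArg (fun f : F →* F => f x) h
    exact this.comp _ hinj
  refine ⟨h1, ?_⟩
  have hv : LinearIndependent F
      (fun σ : F ≃+* F => (AddMonoidHom.toZModLinearMap 2 ((σ : F →+* F) : F →+ F) : F →ₗ[ZMod 2] F)) := by
    apply LinearIndependent.of_comp (LinearMap.ltoFun (ZMod 2) F F F)
    exact h1
  let e : (F ≃+* F) ≃ (F ≃ₐ[ZMod 2] F) :=
    { toFun := fun σ => AlgEquiv.ofRingEquiv (f := σ) (fun x => by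
        have : (σ : F →+* F).comp (algebraMap (ZMod 2) F) = algebraMap (ZMod 2) F :=
          Subsingleton.elim _ _
        exact congrArg (fun g : ZMod 2 →+* F => g x) this)
      invFun := fun τ => τ.toRingEquiv
      left_inv := fun σ => by ext x; rfl
      right_inv := fun τ => by ext x; rfl }
  have hcard : Fintype.card (F ≃+* F) = Module.finrank F (F →ₗ[ZMod 2] F) := by
    rw [Module.finrank_linearMap_self (ZMod 2) F F, ← IsGalois.card_aut_eq_finrank (ZMod 2) F,
      ← Nat.card_eq_fintype_card]
    exact Nat.card_congr e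
  have : Nonempty (F ≃+* F) := ⟨RingEquiv.refl F⟩
  have hspan := hv.span_eq_top_of_card_eq_finrank hcard
  intro f
  have hf : AddMonoidHom.toZModLinearMap 2 f ∈ Submodule.span F (Set.range
      (fun σ : F ≃+* F => (AddMonoidHom.toZModLinearMap 2 ((σ : F →+* F) : F →+ F) : F →ₗ[ZMod 2] F))) := by
    rw [hspan]; exact Submodule.mem_top
  obtain ⟨c, hc⟩ := (Submodule.mem_span_range_iff_exists_fun F).mp hf
  refine ⟨c, fun x => ?_⟩
  have := congrArg (fun g : F →ₗ[ZMod 2] F => g x) hc
  simp only [LinearMap.sum_apply, LinearMap.smul_apply, smul_eq_mul] at this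
  exact this.symm

/-- For a finite field `F` of characteristic 2, the automorphisms of `F`, viewed as additive maps `F → F`, are linearly independent over `F` (acting on values) every additive endomorphism of `F` is an `F`-linear combination of them, and every biadditive map `F → F → F` is an `F`-combination of the maps `(x, y) ↦ σ(x) τ(y)`. -/
theorem result {F : Type*} [Field F] [Fintype F] [CharP F 2] :
    LinearIndependent F (fun σ : F ≃+* F => ((σ : F →+* F) : F → F)) ∧
      (∀ f : F →+ F, ∃ (s : Finset (F ≃+* F)) (c : (F ≃+* F) → F), ∀ x : F, f x = ∑ σ ∈ s, c σ * σ x) ∧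
      ∀ B : F →+ F →+ F, ∃ (s : Finset ((F ≃+* F) × (F ≃+* F))) (c : (F ≃+* F) × (F ≃+* F) → F),
        ∀ x y : F, B x y = ∑ p ∈ s, c p * (p.1 x * p.2 y) := by
  classical
  have : Finite (F ≃+* F) :=
    Finite.of_injective (fun σ : F ≃+* F => (σ : F → F)) DFunLike.coe_injective
  have : Fintype (F ≃+* F) := Fintype.ofFinite _
  obtain ⟨h1, h2⟩ := aut_span (F := F)
  refine ⟨h1, fun f => ?_, fun B => ?_⟩
  · obtain ⟨c, hc⟩ := h2 f
    exact ⟨Finset.univ, c, hc⟩
  · have hB : ∀ y : F, ∃ c : (F ≃+* F) → F, ∀ x : F, B x y = ∑ σ, c σ * σ x := fun y => h2 (B.flip y)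
    choose c hc using hB
    have hadd : ∀ (σ : F ≃+* F) (y y' : F), c (y + y') σ = c y σ + c y' σ := by
      intro σ y y'
      have := Fintype.linearIndependent_iff.mp h1 (fun σ => c (y + y') σ - c y σ - c y' σ) (by
        ext x
        simp only [Finset.sum_apply, Pi.smul_apply, smul_eq_mul, Pi.zero_apply]
        have e1 := hc (y + y') x
        have e2 := hc y x
        have e3 := hc y' x
        have e4 : B x (y + y') = B x y + B x y' := map_add (B x) y y'
        simp only [sub_mul, Finset.sum_sub_distrib]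
        have key : ∑ σ, c (y + y') σ * σ x - ∑ σ, c y σ * σ x - ∑ σ, c y' σ * σ x = 0 := by
          rw [← e1, ← e2, ← e3, e4]; ring
        exact key)
      have h := this σ
      linear_combination h
    have hd : ∀ σ : F ≃+* F, ∃ d : (F ≃+* F) → F, ∀ y : F, c y σ = ∑ τ, d τ * τ y := fun σ =>
      h2 (AddMonoidHom.mk' (fun y => c y σ) (hadd σ))
    choose d hd using hd
    refine ⟨Finset.univ, fun p => d p.1 p.2, fun x y => ?_⟩
    rw [hc y x, Fintype.sum_prod_type]
    refine Finset.sum_congr rfl fun σ _ => ?_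
    rw [hd σ y, Finset.sum_mul]
    refine Finset.sum_congr rfl fun τ _ => ?_
    ring

end Cfsg.Agent.S1140
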