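import Mathlib
import Cfsg.Statements.S1141
import Cfsg.Agent.Helper6.SU3Syl

set_option autoImplicit false
open Cfsg

namespace Cfsg.Agent.S1141

/-- Let `q = 2^n ≥ 4` and `|F| = q²`. A Sylow 2-subgroup `S` of `PSU₃(q)` has order `q³`, its centre has order `q`, and `S` is a Suzuki 2-group. -/
theorem result {F : Type*} [Field F] [Fintype F] {n : ℕ} (hn : 2 ≤ n)
    (hF : Fintype.card F = (2 ^ n) ^ 2) (S : Sylow 2 (Cfsg.PSU 3 F (2 ^ n))) :
    Nat.card S = (2 ^ n) ^ 3 ∧ Nat.card (Subgroup.center ↥(S : Subgroup (Cfsg.PSU 3 F (2 ^ n)))) = 2 ^ n ∧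
      Cfsg.IsSuzukiTwoGroup ↥(S : Subgroup (Cfsg.PSU 3 F (2 ^ n))) := by
  classical
  obtain ⟨σ, hσ, h2, hx, hs, hsqrt, hK, ⟨e⟩⟩ :=
    Cfsg.Agent.Helper6.SU3Syl.sylow_equiv n (2 ^ n) (by omega) rfl hF S
  have hcard : Nat.card (Cfsg.Agent.Helper6.SuzU.UG σ hσ) = (2 ^ n) ^ 3 := by
    rw [Cfsg.Agent.Helper6.SuzU.UG.card_eq h2 hs, hK, Nat.card_eq_fintype_card, hF]
    ring
  refine ⟨?_, ?_, ?_⟩
  · rw [← hcard]
    exact Nat.card_congr e.toEquiv
  · rw [Cfsg.Agent.Helper6.SuzU.card_center_of_equiv e h2 hx hs, hK]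
  · apply Cfsg.Agent.Helper6.SuzU.suzuki_of_equiv e
    apply Cfsg.Agent.Helper6.SuzU.UG.suzuki h2 hx hs ?_ hsqrt
    by_contra hno
    have hall : ∀ k : {k : F // k + σ k = 0}, (k : F) = 0 ∨ (k : F) = 1 := by
      intro k
      by_contra hk
      rw [not_or] at hk
      apply hno
      refine ⟨k, ?_, hk.1, hk.2⟩
      linear_combination k.2 - (k : F) * h2
    have hle : Nat.card {k : F // k + σ k = 0} ≤ Nat.card Bool := by
      apply Nat.card_le_card_of_injective
        (fun k : {k : F // k + σ k = 0} => decide ((k : F) = 0))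
      intro k k' hkk
      apply Subtype.ext
      have hkk' : decide ((k : F) = 0) = decide ((k' : F) = 0) := hkk
      rcases hall k with h | h <;> rcases hall k' with h' | h'
      · rw [h, h']
      · exfalso
        simp [h, h'] at hkk'
      · exfalso
        simp [h, h'] at hkk'
      · rw [h, h']
    rw [hK, Nat.card_eq_fintype_card, Fintype.card_bool] at hle
    have : 2 ^ 2 ≤ 2 ^ n := Nat.pow_le_pow_right (by norm_num) hn
    omega

end Cfsg.Agent.S1141
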