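import Mathlib
import Cfsg.Statements.S1165
import Cfsg.Agent.Helper6.RankOne

set_option autoImplicit false
open Cfsg Cfsg.Agent.Helper6

namespace Cfsg.Agent.S1165

/-- In the rank-one set-up (`G` finite and doubly transitive on `Ω`, `t` an involution moving `a`, `Q` normal in `G_a` with `G_a = Q D`, `Q ⊓ D = 1` for the two-point stabiliser `D = G_a ⊓ G_{t • a}`, `|Q|` even, `|D|` odd): every `x ∈ Q`, `x ≠ 1`, determines unique `g, f ∈ Q`, `h ∈ D` with `t x t = g h t f` (a consequence of the canonical form). For these: (H1) the `f`-part of `x⁻¹` is `g⁻¹`; (H2) the `f`-part of `f` is `x`; (H3) for `a ∈ D` the `f`-part of `a⁻¹ x a` is `(t a t)⁻¹ f (t a t)`; (H4) the `h`-part of `a⁻¹ x a` is `(t a t)⁻¹ h a`, that of `x⁻¹` is `t h⁻¹ t`, and that of `f` is `h⁻¹`. -/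
theorem result {G Ω : Type*} [Group G] [Finite G] [MulAction G Ω] {a : Ω} {t : G} {Q : Subgroup G}
    (hS : Cfsg.IsRankOneSetup G Ω a t Q)
    (x g h f : G) (hx : x ∈ Q) (hx1 : x ≠ 1) (hg : g ∈ Q) (hh : h ∈ (MulAction.stabilizer G a ⊓ MulAction.stabilizer G (t • a))) (hf : f ∈ Q)
    (heq : t * x * t = g * h * t * f) :
    (∀ g₁ h₁ f₁ : G, g₁ ∈ Q → h₁ ∈ (MulAction.stabilizer G a ⊓ MulAction.stabilizer G (t • a)) → f₁ ∈ Q → t * x⁻¹ * t = g₁ * h₁ * t * f₁ →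
        f₁ = g⁻¹ ∧ h₁ = t * h⁻¹ * t) ∧
      (∀ g₂ h₂ f₂ : G, g₂ ∈ Q → h₂ ∈ (MulAction.stabilizer G a ⊓ MulAction.stabilizer G (t • a)) → f₂ ∈ Q → t * f * t = g₂ * h₂ * t * f₂ →
        f₂ = x ∧ h₂ = h⁻¹) ∧
      ∀ c ∈ (MulAction.stabilizer G a ⊓ MulAction.stabilizer G (t • a)), ∀ g₃ h₃ f₃ : G, g₃ ∈ Q → h₃ ∈ (MulAction.stabilizer G a ⊓ MulAction.stabilizer G (t • a)) → f₃ ∈ Q →
        t * (c⁻¹ * x * c) * t = g₃ * h₃ * t * f₃ →
          f₃ = (t * c * t)⁻¹ * f * (t * c * t) ∧ h₃ = (t * c * t)⁻¹ * h * c := by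
  have ti := RankOne.t_inv hS
  have tt := hS.mul_self
  refine ⟨?_, ?_, ?_⟩
  · intro g₁ h₁ f₁ hg₁ hh₁ hf₁ e₁
    have e0 : t * x⁻¹ * t = (t * x * t)⁻¹ := by simp [mul_assoc, ti]
    rw [heq] at e0
    have e2 : (g * h * t * f)⁻¹ = f⁻¹ * (t * h⁻¹ * t) * t * g⁻¹ := by
      calc (g * h * t * f)⁻¹ = f⁻¹ * t⁻¹ * h⁻¹ * g⁻¹ := by group
        _ = f⁻¹ * t * h⁻¹ * (t * t) * g⁻¹ := by rw [ti, tt, mul_one]
        _ = f⁻¹ * (t * h⁻¹ * t) * t * g⁻¹ := by group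
    obtain ⟨_, r2, r3⟩ := RankOne.canon_unique' hS hg₁ (Q.inv_mem hf) hh₁
      (RankOne.t_conj_mem hS (Subgroup.inv_mem _ hh)) hf₁ (Q.inv_mem hg) (e₁.symm.trans (e0.trans e2))
    exact ⟨r3, r2⟩
  · intro g₂ h₂ f₂ hg₂ hh₂ hf₂ e
    have e1 : t * f * t = (h⁻¹ * g⁻¹ * h) * h⁻¹ * t * x := by
      calc t * f * t = t * ((g * h * t)⁻¹ * (g * h * t * f)) * t := by group
        _ = t * ((g * h * t)⁻¹ * (t * x * t)) * t := by rw [heq]
        _ = (t * t⁻¹) * h⁻¹ * g⁻¹ * t * x * (t * t) := by group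
        _ = (h⁻¹ * g⁻¹ * h) * h⁻¹ * t * x := by rw [tt, mul_inv_cancel]; group
    obtain ⟨_, r2, r3⟩ := RankOne.canon_unique' hS hg₂ (RankOne.D_conj' hS hh (Q.inv_mem hg)) hh₂
      (Subgroup.inv_mem _ hh) hf₂ hx (e.symm.trans e1)
    exact ⟨r3, r2⟩
  · intro c hc g₃ h₃ f₃ hg₃ hh₃ hf₃ e
    have hA := RankOne.t_conj_mem hS hc
    have hAe : c * t = t * (t * c * t) := by rw [← mul_assoc, ← mul_assoc, tt, one_mul]
    have e1 : t * (c⁻¹ * x * c) * t =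
        ((t * c * t)⁻¹ * g * (t * c * t)) * ((t * c * t)⁻¹ * h * c) * t * ((t * c * t)⁻¹ * f * (t * c * t)) := by
      have hi : (t * c * t)⁻¹ = t * c⁻¹ * t := by rw [mul_inv_rev, mul_inv_rev, ti, mul_assoc]
      calc t * (c⁻¹ * x * c) * t = t * c⁻¹ * 1 * x * 1 * c * t := by group
        _ = t * c⁻¹ * (t * t) * x * (t * t) * c * t := by rw [tt]
        _ = (t * c⁻¹ * t) * (t * x * t) * (t * c * t) := by group
        _ = (t * c * t)⁻¹ * (g * h * t * f) * (t * c * t) := by rw [heq, hi]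
        _ = (t * c * t)⁻¹ * g * h * (t * (t * c * t)) * (t * c * t)⁻¹ * f * (t * c * t) := by group
        _ = (t * c * t)⁻¹ * g * h * (c * t) * (t * c * t)⁻¹ * f * (t * c * t) := by rw [← hAe]
        _ = _ := by group
    obtain ⟨_, r2, r3⟩ := RankOne.canon_unique' hS hg₃ (RankOne.D_conj' hS hA hg) hh₃
      (Subgroup.mul_mem _ (Subgroup.mul_mem _ (Subgroup.inv_mem _ hA) hh) hc) hf₃
      (RankOne.D_conj' hS hA hf) (e.symm.trans e1)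
    exact ⟨r3, r2⟩

end Cfsg.Agent.S1165
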