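import Mathlib
import Cfsg.Statements.S1167
import Cfsg.Agent.Helper26.Zass
-- import your own Cfsg.Agent.* helpers here

set_option autoImplicit false
open Cfsg

namespace Cfsg.Agent.S1167

/-- Let `G` be a finite simple Zassenhaus group on `Ω`, `U` a normal subgroup of `G_a` regular on `Ω` minus `a` which is an abelian 2-group, and `v` an involution with `v • a ≠ a`. Then there is a unique `u₀ ∈ U`, `u₀ ≠ 1`, with `v u₀ v = u₀ v u₀`. -/
theorem result {G Ω : Type*} [Group G] [Finite G] [MulAction G Ω] [Finite Ω]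
    (hZ : Cfsg.IsZassenhausGroup G Ω) [IsSimpleGroup G] {a : Ω}
    (U : Subgroup G) (hUle : U ≤ MulAction.stabilizer G a)
    (hUn : ∀ h ∈ MulAction.stabilizer G a, ∀ u ∈ U, h * u * h⁻¹ ∈ U)
    (hreg : ∀ c d : Ω, c ≠ a → d ≠ a → ∃! u : U, (u : G) • c = d)
    (hU2 : IsPGroup 2 U) (hUab : ∀ u ∈ U, ∀ u' ∈ U, u * u' = u' * u)
    (v : G) (hv1 : v ≠ 1) (hv2 : v * v = 1) (hva : v • a ≠ a) :
    ∃! u₀ : G, u₀ ∈ U ∧ u₀ ≠ 1 ∧ v * u₀ * v = u₀ * v * u₀ := by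
  obtain ⟨hfaith, h2t, h3, ⟨g₀, hg₀1, x₀, y₀, hxy₀, hg₀x, hg₀y⟩, -⟩ := hZ
  rw [MulAction.is_two_pretransitive_iff] at h2t
  obtain ⟨b, hb⟩ : ∃ b, b = v • a := ⟨_, rfl⟩
  have hab : a ≠ b := by rw [hb]; exact fun h => hva h.symm
  have hvab : v • a = b := hb.symm
  have hvb : v • b = a := by rw [hb, ← mul_smul, hv2, one_smul]
  obtain ⟨h₀, hh₀x, hh₀y⟩ := h2t hxy₀ hab
  obtain ⟨k, hk⟩ : ∃ k, k = h₀ * g₀ * h₀⁻¹ := ⟨_, rfl⟩
  have hka : k • a = a := by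
    rw [hk, mul_smul, mul_smul, ← hh₀x, inv_smul_smul, hg₀x]
  have hkb : k • b = b := by
    rw [hk, mul_smul, mul_smul, ← hh₀y, inv_smul_smul, hg₀y]
  have hk1 : k ≠ 1 := by
    intro h
    apply hg₀1
    calc g₀ = h₀⁻¹ * (h₀ * g₀ * h₀⁻¹) * h₀ := by group
      _ = h₀⁻¹ * 1 * h₀ := by rw [← hk, h]
      _ = 1 := by group
  obtain ⟨y, hy⟩ : ∃ y : Ω, k • y ≠ y := by
    by_contra hcon
    push Not at hcon
    apply hk1
    exact hfaith.eq_of_smul_eq_smul (fun x => by rw [hcon x, one_smul])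
  have hya : y ≠ a := fun h => hy (by rw [h]; exact hka)
  have hyb : y ≠ b := fun h => hy (by rw [h]; exact hkb)
  have hUa : ∀ u ∈ U, u • a = a := fun u hu => MulAction.mem_stabilizer_iff.mp (hUle hu)
  have hUb : ∀ u ∈ U, u • b ≠ a := by
    intro u hu h
    have h' : u • b = u • a := by rw [h, hUa u hu]
    exact hab (smul_left_cancel u h').symm
  have hreg' : ∀ d : Ω, d ≠ a → ∃ u ∈ U, u • b = d := by
    intro d hd
    obtain ⟨u, hu, -⟩ := hreg b d (Ne.symm hab) hd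
    exact ⟨u, u.2, hu⟩
  have hinj' : ∀ u ∈ U, ∀ u' ∈ U, u • b = u' • b → u = u' := by
    intro u hu u' hu' h
    obtain ⟨w, -, hw⟩ := hreg b (u • b) (Ne.symm hab) (hUb u hu)
    have e1 := hw ⟨u, hu⟩ rfl
    have e2 := hw ⟨u', hu'⟩ h.symm
    exact congrArg Subtype.val (e1.trans e2.symm)
  have hodd : Odd (Nat.card Ω) := by
    have hF : MulAction.fixedPoints U Ω = {a} := by
      ext d
      simp only [MulAction.mem_fixedPoints, Set.mem_singleton_iff]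
      constructor
      · intro hd
        by_contra hda
        obtain ⟨d', hd'a, hd'd⟩ : ∃ d' : Ω, d' ≠ a ∧ d' ≠ d := by
          by_cases hdb : d = b
          · exact ⟨y, hya, by rw [hdb]; exact hyb⟩
          · exact ⟨b, Ne.symm hab, Ne.symm hdb⟩
        obtain ⟨u, hu, -⟩ := hreg d d' hda hd'a
        exact hd'd (by rw [← hu]; exact hd u)
      · intro hd u
        rw [hd]
        exact hUa u u.2
    have hc := hU2.card_modEq_card_fixedPoints Ω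
    rw [hF] at hc
    have hc' : Nat.card Ω % 2 = Nat.card ({a} : Set Ω) % 2 := hc
    rw [Nat.card_coe_set_eq, Set.ncard_singleton] at hc'
    rw [Nat.odd_iff]
    omega
  have hfix : ∀ t : G, t * t = 1 → t ≠ 1 → ∃! x : Ω, t • x = x :=
    fun t ht ht1 => Cfsg.Agent.Helper26.Zass.fix_unique h3 hodd t ht ht1
  have z0 : Cfsg.Agent.Helper26.Zass.Z0 a b v U :=
    ⟨h3, hfix, hab, hvab, hvb, hv2, hUa,
      fun h hh u hu => hUn h (MulAction.mem_stabilizer_iff.mpr hh) u hu, hreg', hinj', hUab⟩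
  obtain ⟨c, hvc, hcu⟩ := hfix v hv2 hv1
  have hca : c ≠ a := by
    intro h
    rw [h] at hvc
    exact hva hvc
  have hcb : c ≠ b := by
    intro h
    rw [h, hvb] at hvc
    exact hab hvc
  obtain ⟨u₀, hu₀, hu₀b⟩ := hreg' c hca
  have hsq : u₀ * u₀ = 1 := by
    by_contra hne
    exact (z0.toZ hvc hu₀ hu₀b rfl).final hU2 hne hka hkb hk1
  have hu₀1 : u₀ ≠ 1 := by
    intro h
    rw [h, one_smul] at hu₀b
    exact hcb hu₀b.symm
  have hu₀c : u₀ • c = b := by rw [← hu₀b, ← mul_smul, hsq, one_smul]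
  obtain ⟨P, hP⟩ : ∃ P, P = u₀ * v := ⟨_, rfl⟩
  have hPa : P • a = c := by rw [hP, mul_smul, hvab, hu₀b]
  have hPc : P • c = b := by rw [hP, mul_smul, hvc, hu₀c]
  have hPb : P • b = a := by rw [hP, mul_smul, hvb, hUa u₀ hu₀]
  have hP3 : P * P * P = 1 :=
    h3 (P * P * P) a b c hab (Ne.symm hcb) (Ne.symm hca)
      (by rw [mul_smul, mul_smul, hPa, hPc, hPb]) (by rw [mul_smul, mul_smul, hPb, hPa, hPc])
      (by rw [mul_smul, mul_smul, hPc, hPb, hPa])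
  have hu₀inv : u₀⁻¹ = u₀ := inv_eq_of_mul_eq_one_left hsq
  have hvinv : v⁻¹ = v := inv_eq_of_mul_eq_one_left hv2
  have hex : v * u₀ * v = u₀ * v * u₀ := by
    rw [hP] at hP3
    calc v * u₀ * v = u₀⁻¹ * (u₀ * v * (u₀ * v) * (u₀ * v)) * (v⁻¹ * u₀⁻¹) := by group
      _ = u₀⁻¹ * (v⁻¹ * u₀⁻¹) := by rw [hP3, mul_one]
      _ = u₀ * v * u₀ := by rw [hu₀inv, hvinv, mul_assoc]
  refine ⟨u₀, ⟨hu₀, hu₀1, hex⟩, ?_⟩
  rintro u ⟨hu, -, hueq⟩
  have h := congrArg (fun g : G => g • a) hueq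
  simp only [mul_smul] at h
  rw [hUa u hu, hvab] at h
  exact hinj' u hu u₀ hu₀ ((hcu (u • b) h).trans hu₀b.symm)

end Cfsg.Agent.S1167
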