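import Mathlib
import Cfsg.Statements.S1168
import Cfsg.Agent.S1140

set_option autoImplicit false
open Cfsg

namespace Cfsg.Agent.S1168

theorem prod_mem {F : Type*} [Field F] [Fintype F] [CharP F 2] [Fintype (F ≃+* F)] (f g : F →+ F) :
    ∃ c : (F ≃+* F) × (F ≃+* F) → F, ∀ x : F, f x * g x = ∑ p, c p * (p.1 x * p.2 x) := by
  obtain ⟨_, h2⟩ := Cfsg.Agent.S1140.aut_span (F := F)
  obtain ⟨cf, hcf⟩ := h2 f
  obtain ⟨cg, hcg⟩ := h2 g
  refine ⟨fun p => cf p.1 * cg p.2, fun x => ?_⟩
  rw [hcf x, hcg x, Finset.sum_mul_sum, Fintype.sum_prod_type]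
  refine Finset.sum_congr rfl fun σ _ => Finset.sum_congr rfl fun τ _ => ?_
  ring

/-- For a finite field `F` of characteristic 2: if `q : F → F` is quadratic over the prime field, i.e. `(x, y) ↦ q (x + y) + q x + q y` is additive in each variable, then `q x = Σ c_{σ,τ} σ(x) τ(x)` for some coefficients indexed by pairs of field automorphisms. -/
theorem result {F : Type*} [Field F] [Fintype F] [CharP F 2]
    (q : F → F)
    (hq : ∀ x y z : F, q (x + y + z) + q (x + y) + q (x + z) + q (y + z) + q x + q y + q z = 0) :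
    ∃ (s : Finset ((F ≃+* F) × (F ≃+* F))) (c : (F ≃+* F) × (F ≃+* F) → F),
      ∀ x : F, q x = ∑ p ∈ s, c p * (p.1 x * p.2 x) := by
  classical
  have : Finite (F ≃+* F) :=
    Finite.of_injective (fun σ : F ≃+* F => (σ : F → F)) DFunLike.coe_injective
  have : Fintype (F ≃+* F) := Fintype.ofFinite _
  let _ : Algebra (ZMod 2) F := ZMod.algebra F 2
  have h2 : (2 : F) = 0 := CharTwo.two_eq_zero
  have hq0 : q 0 = 0 := by
    have h := hq 0 0 0
    simp only [add_zero] at h
    linear_combination h - 3 * q 0 * h2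
  have hL : ∀ u y z : F, q (u + (y + z)) + q u + q (y + z) =
      (q (u + y) + q u + q y) + (q (u + z) + q u + q z) := by
    intro u y z
    have h := hq u y z
    rw [← add_assoc]
    linear_combination h - (q (u + y) + q (u + z) + q u + q y + q z) * h2
  let b := Module.finBasis (ZMod 2) F
  let α : Fin (Module.finrank (ZMod 2) F) → F →+ F := fun i =>
    ((algebraMap (ZMod 2) F).toAddMonoidHom).comp (b.coord i).toAddMonoidHom
  have hα01 : ∀ i x, α i x = 0 ∨ α i x = 1 := by
    intro i x
    have h01 : ∀ a : ZMod 2, a = 0 ∨ a = 1 := by decide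
    rcases h01 (b.coord i x) with h | h
    · left; show algebraMap (ZMod 2) F (b.coord i x) = 0; rw [h, map_zero]
    · right; show algebraMap (ZMod 2) F (b.coord i x) = 1; rw [h, map_one]
  have hsum : ∀ x : F, ∑ i, α i x * b i = x := by
    intro x
    have := b.sum_repr x
    simp only [Algebra.smul_def] at this
    exact this
  have key : ∀ S : Finset (Fin (Module.finrank (ZMod 2) F)),
      ∃ c : (F ≃+* F) × (F ≃+* F) → F, ∀ x : F,
        q (∑ i ∈ S, α i x * b i) = ∑ p, c p * (p.1 x * p.2 x) := by
    intro S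
    induction S using Finset.induction_on with
    | empty => exact ⟨fun _ => 0, fun x => by simp [hq0]⟩
    | insert i S hi ih =>
      obtain ⟨c₀, hc₀⟩ := ih
      let π : F →+ F := ∑ j ∈ S, (AddMonoidHom.mulRight (b j)).comp (α j)
      have hπ : ∀ x, π x = ∑ j ∈ S, α j x * b j := by
        intro x; simp [π, AddMonoidHom.finset_sum_apply]
      let L : F →+ F := AddMonoidHom.mk' (fun x => q (b i + π x) + q (b i) + q (π x)) (by
        intro x y
        show q (b i + π (x + y)) + q (b i) + q (π (x + y)) =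
          (q (b i + π x) + q (b i) + q (π x)) + (q (b i + π y) + q (b i) + q (π y))
        rw [map_add]
        exact hL (b i) (π x) (π y))
      obtain ⟨c₁, hc₁⟩ := prod_mem ((AddMonoidHom.mulLeft (q (b i))).comp (α i)) (α i)
      obtain ⟨c₂, hc₂⟩ := prod_mem (α i) L
      refine ⟨fun p => c₁ p + c₀ p + c₂ p, fun x => ?_⟩
      rw [Finset.sum_insert hi, ← hπ x]
      have e : q (α i x * b i + π x) =
          q (b i) * α i x * α i x + q (π x) + α i x * (q (b i + π x) + q (b i) + q (π x)) := by
        rcases hα01 i x with h | h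
        · rw [h]; simp
        · rw [h]; simp only [one_mul, mul_one]
          linear_combination (-(q (b i) + q (π x))) * h2
      rw [e]
      have e1 : q (b i) * α i x * α i x = ∑ p, c₁ p * (p.1 x * p.2 x) := hc₁ x
      have e2 : α i x * (q (b i + π x) + q (b i) + q (π x)) = ∑ p, c₂ p * (p.1 x * p.2 x) := hc₂ x
      have e0 := hc₀ x
      rw [← hπ x] at e0
      rw [e2, e1, e0]
      simp only [add_mul, Finset.sum_add_distrib]
  obtain ⟨c, hc⟩ := key Finset.univ
  refine ⟨Finset.univ, c, fun x => ?_⟩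
  rw [← hc x, hsum x]

end Cfsg.Agent.S1168
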