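import Mathlib
import Cfsg.Statements.S1176
import Cfsg.Agent.Helper6.Dihedral

set_option autoImplicit false
open Cfsg Cfsg.Agent.Helper6
open scoped commutatorElement

namespace Cfsg.Agent.S1176

/-- Let x₀ be an involution of the finite group G and D its conjugacy class. Assume (a) for each x ∈ D the subgroup W(x) generated by the members of D commuting with x is a 2-group of nilpotency class at most 2, and (b) the product of two distinct commuting members of D again lies in D. Then for all x, y ∈ D, if xy has even order greater than 2, its order is 4. -/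
theorem result {G : Type*} [Group G] [Finite G] (x₀ : G) (hx₀ : orderOf x₀ = 2) (ha : ∀ x : G, IsConj x₀ x → IsPGroup 2 ↥(Subgroup.closure {y : G | IsConj x₀ y ∧ Commute y x}) ∧ ⁅⁅Subgroup.closure {y : G | IsConj x₀ y ∧ Commute y x}, Subgroup.closure {y : G | IsConj x₀ y ∧ Commute y x}⁆, Subgroup.closure {y : G | IsConj x₀ y ∧ Commute y x}⁆ = ⊥) (hb : ∀ x y : G, IsConj x₀ x → IsConj x₀ y → x ≠ y → Commute x y → IsConj x₀ (x * y)) (x y : G) (hx : IsConj x₀ x) (hy : IsConj x₀ y) (heven : Even (orderOf (x * y))) (hgt : 2 < orderOf (x * y)) : orderOf (x * y) = 4 := by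
  obtain ⟨gx, hgx⟩ := isConj_iff.mp hx
  obtain ⟨gy, hgy⟩ := isConj_iff.mp hy
  have hx0 := inv_sq_one hx₀
  have hx2 : x * x = 1 := by rw [← hgx]; exact conj_sq_one hx0 gx
  have hy2 : y * y = 1 := by rw [← hgy]; exact conj_sq_one hx0 gy
  have hxi := inv_eq_self hx2
  have hyi := inv_eq_self hy2
  obtain ⟨k, hk⟩ := heven
  have hk2 : 2 ≤ k := by omega
  have hc1 : (x * y) ^ k ≠ 1 := by
    intro h
    have := Nat.le_of_dvd (by omega) (orderOf_dvd_of_pow_eq_one h)
    omega
  have hc2 : (x * y) ^ k * (x * y) ^ k = 1 := by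
    rw [← pow_add, ← hk, pow_orderOf_eq_one]
  obtain ⟨hxc, hyc⟩ := dihedral_center_comm hx2 hy2 k hc2
  have hu : IsConj x₀ (x * (x * y) ^ k) := by
    rcases dihedral_reflection_conj hx2 hy2 k with ⟨a, ha⟩ | ⟨a, ha⟩
    · rw [← ha]; exact hx.trans (isConj_iff.mpr ⟨a, rfl⟩)
    · rw [← ha]; exact hy.trans (isConj_iff.mpr ⟨a, rfl⟩)
  have hne : x ≠ x * (x * y) ^ k := fun h => hc1 (by simpa using h.symm)
  have hcomm : Commute x (x * (x * y) ^ k) := by
    unfold Commute SemiconjBy
    calc x * (x * (x * y) ^ k) = x * ((x * y) ^ k * x) := by rw [hxc]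
      _ = x * (x * y) ^ k * x := by group
  have hcD : IsConj x₀ ((x * y) ^ k) := by
    have := hb x (x * (x * y) ^ k) hx hu hne hcomm
    rwa [← mul_assoc, hx2, one_mul] at this
  obtain ⟨-, hcl⟩ := ha _ hcD
  have hxW : x ∈ Subgroup.closure {v : G | IsConj x₀ v ∧ Commute v ((x * y) ^ k)} :=
    Subgroup.subset_closure ⟨hx, hxc⟩
  have hyW : y ∈ Subgroup.closure {v : G | IsConj x₀ v ∧ Commute v ((x * y) ^ k)} :=
    Subgroup.subset_closure ⟨hy, hyc⟩
  have h1 := Subgroup.commutator_mem_commutator (Subgroup.commutator_mem_commutator hxW hyW) hxW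
  rw [hcl, Subgroup.mem_bot] at h1
  have h4 : (x * y) ^ 4 = 1 := by
    have e1 : ⁅x, y⁆ = (x * y) ^ 2 := by
      rw [commutatorElement_def, hxi, hyi, pow_two]; group
    have e2 : x * ((x * y) ^ 2)⁻¹ * x = (x * y) ^ 2 := by
      have := inv_mul_inverts_pow hx2 hy2 2
      have e3 : x * ((x * y) ^ 2)⁻¹ * x = (x * (x * y) ^ 2 * x)⁻¹ := by
        rw [mul_inv_rev, mul_inv_rev, hxi]; group
      rw [e3, this, inv_inv]
    rw [e1, commutatorElement_def, hxi] at h1
    calc (x * y) ^ 4 = (x * y) ^ 2 * (x * ((x * y) ^ 2)⁻¹ * x) := by rw [e2, ← pow_add]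
      _ = (x * y) ^ 2 * x * ((x * y) ^ 2)⁻¹ * x := by group
      _ = 1 := h1
  have hd : orderOf (x * y) ∣ 4 := orderOf_dvd_of_pow_eq_one h4
  have hle : orderOf (x * y) ≤ 4 := Nat.le_of_dvd (by norm_num) hd
  interval_cases h : orderOf (x * y)
  · omega
  · rfl

end Cfsg.Agent.S1176
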