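import Mathlib
import Cfsg.Statements.S1177
import Cfsg.Agent.Helper6.ConjMap

set_option autoImplicit false
open Cfsg Cfsg.Agent.Helper6

namespace Cfsg.Agent.S1177

theorem eq_of_mutual_norm {G : Type*} [Group G] (A B : Subgroup G)
    (hti : B ⊓ A = ⊥ ∨ B = A) (hcomm : (∀ a ∈ A, ∀ b ∈ B, a * b = b * a) → B = A)
    (hAB : A ≤ Subgroup.normalizer (B : Set G)) (hBA : B ≤ Subgroup.normalizer (A : Set G)) :
    B = A := by
  rcases hti with h | h
  · apply hcomm
    intro a ha b hb
    have h1 : a * b * a⁻¹ * b⁻¹ ∈ B ⊓ A := by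
      refine Subgroup.mem_inf.mpr ⟨?_, ?_⟩
      · have := (Subgroup.mem_normalizer_iff.mp (hAB ha) b).mp hb
        exact B.mul_mem this (B.inv_mem hb)
      · have := (Subgroup.mem_normalizer_iff.mp (hBA hb) a⁻¹).mp (A.inv_mem ha)
        have e : a * b * a⁻¹ * b⁻¹ = a * (b * a⁻¹ * b⁻¹) := by group
        rw [e]; exact A.mul_mem ha this
    rw [h, Subgroup.mem_bot] at h1
    calc a * b = (a * b * a⁻¹ * b⁻¹) * (b * a) := by group
      _ = b * a := by rw [h1, one_mul]
  · exact h

theorem mem_normalizer_of_conj_map_eq {G : Type*} [Group G] {B : Subgroup G} {x : G}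
    (h : B.map (MulAut.conj x).toMonoidHom = B) : x ∈ Subgroup.normalizer (B : Set G) := by
  rw [Subgroup.mem_normalizer_iff]
  intro n
  constructor
  · intro hn
    rw [← h]; exact conj_mem_conj_map hn
  · intro hn
    rw [← h, mem_conj_map] at hn
    have e : x⁻¹ * (x * n * x⁻¹) * x = n := by group
    rwa [e] at hn

theorem conj_map_eq_of_mem_normalizer {G : Type*} [Group G] {B : Subgroup G} {x : G}
    (h : x ∈ Subgroup.normalizer (B : Set G)) : B.map (MulAut.conj x).toMonoidHom = B := by
  rw [Subgroup.mem_normalizer_iff] at h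
  ext n
  rw [mem_conj_map]
  have := h (x⁻¹ * n * x)
  have e : x * (x⁻¹ * n * x) * x⁻¹ = n := by group
  rw [e] at this
  exact this

/-- Let A be a nontrivial elementary abelian 2-subgroup of a finite group G which is a T.I. set (each conjugate of A meets A trivially or equals A) and which does not commute elementwise with any conjugate of A other than A itself. Then for every a ∈ A, a ≠ 1, every conjugate of A contained in C_G(a) is equal to A (A is weakly closed in C_G(a)). -/
theorem result {G : Type*} [Group G] [Finite G] (A : Subgroup G) (hA : Cfsg.IsElementaryAbelian 2 A) (hA1 : A ≠ ⊥) (hTI : ∀ g : G, A.map (MulAut.conj g).toMonoidHom ⊓ A = ⊥ ∨ A.map (MulAut.conj g).toMonoidHom = A) (hb : ∀ g : G, (∀ a ∈ A, ∀ b ∈ A.map (MulAut.conj g).toMonoidHom, a * b = b * a) → A.map (MulAut.conj g).toMonoidHom = A) (a : G) (ha : a ∈ A) (ha1 : a ≠ 1) (g : G) (hg : A.map (MulAut.conj g).toMonoidHom ≤ Subgroup.centralizer ({a} : Set G)) : A.map (MulAut.conj g).toMonoidHom = A := by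
  classical
  obtain ⟨hAc, hA2⟩ := hA
  have hAcomm : ∀ u ∈ A, ∀ v ∈ A, u * v = v * u := by
    intro u hu v hv
    have := hAc.is_comm.comm (⟨u, hu⟩ : A) ⟨v, hv⟩
    exact congrArg Subtype.val this
  have hAsq : ∀ u ∈ A, u * u = 1 := fun u hu => by rw [← pow_two]; exact hA2 u hu
  set B := A.map (MulAut.conj g).toMonoidHom with hB
  have hBsq : ∀ b ∈ B, b * b = 1 := by
    intro b hb
    rw [hB, mem_conj_map] at hb
    have := hAsq _ hb
    calc b * b = g * ((g⁻¹ * b * g) * (g⁻¹ * b * g)) * g⁻¹ := by group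
      _ = 1 := by rw [this]; group
  have hBcomm : ∀ u ∈ B, ∀ v ∈ B, u * v = v * u := by
    intro u hu v hv
    rw [hB, mem_conj_map] at hu hv
    have := hAcomm _ hu _ hv
    calc u * v = g * ((g⁻¹ * u * g) * (g⁻¹ * v * g)) * g⁻¹ := by group
      _ = g * ((g⁻¹ * v * g) * (g⁻¹ * u * g)) * g⁻¹ := by rw [this]
      _ = v * u := by group
  -- B centralises a
  have hBa : ∀ b ∈ B, b * a = a * b := by
    intro b hb
    have := hg hb
    rw [Subgroup.mem_centralizer_iff] at this
    exact (this a rfl).symm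
  -- TI and the commuting hypothesis for B
  have hTIB : ∀ x : G, B.map (MulAut.conj x).toMonoidHom ⊓ B = ⊥ ∨
      B.map (MulAut.conj x).toMonoidHom = B := by
    intro x
    rcases hTI (g⁻¹ * x * g) with h | h
    · left
      rw [eq_bot_iff]
      intro y hy
      obtain ⟨hy1, hy2⟩ := Subgroup.mem_inf.mp hy
      have hy1' : x⁻¹ * y * x ∈ B := mem_conj_map.mp hy1
      rw [hB, mem_conj_map] at hy1'
      have hy2' : g⁻¹ * y * g ∈ A := mem_conj_map.mp hy2
      have h1 : g⁻¹ * y * g ∈ A.map (MulAut.conj (g⁻¹ * x * g)).toMonoidHom ⊓ A := by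
        refine Subgroup.mem_inf.mpr ⟨?_, hy2'⟩
        rw [mem_conj_map]
        have e : (g⁻¹ * x * g)⁻¹ * (g⁻¹ * y * g) * (g⁻¹ * x * g) = g⁻¹ * (x⁻¹ * y * x) * g := by group
        rw [e]; exact hy1'
      rw [h, Subgroup.mem_bot] at h1
      rw [Subgroup.mem_bot]
      calc y = g * (g⁻¹ * y * g) * g⁻¹ := by group
        _ = 1 := by rw [h1]; group
    · right
      rw [hB, ← conj_map_mul]
      have e : x * g = g * (g⁻¹ * x * g) := by group
      rw [e, conj_map_mul, h]
  have hbB : ∀ x : G, (∀ b ∈ B, ∀ b' ∈ B.map (MulAut.conj x).toMonoidHom, b * b' = b' * b) →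
      B.map (MulAut.conj x).toMonoidHom = B := by
    intro x hx
    have h := hb (g⁻¹ * x * g) (by
      intro a1 ha1 c hc
      rw [mem_conj_map] at hc
      have hc' : g * c * g⁻¹ ∈ B.map (MulAut.conj x).toMonoidHom := by
        rw [mem_conj_map, hB, mem_conj_map]
        have e : g⁻¹ * (x⁻¹ * (g * c * g⁻¹) * x) * g = (g⁻¹ * x * g)⁻¹ * c * (g⁻¹ * x * g) := by group
        rw [e]; exact hc
      have h1 := hx (g * a1 * g⁻¹) (conj_mem_conj_map ha1) (g * c * g⁻¹) hc'
      calc a1 * c = g⁻¹ * ((g * a1 * g⁻¹) * (g * c * g⁻¹)) * g := by group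
        _ = g⁻¹ * ((g * c * g⁻¹) * (g * a1 * g⁻¹)) * g := by rw [h1]
        _ = c * a1 := by group)
    rw [hB, ← conj_map_mul]
    have e : x * g = g * (g⁻¹ * x * g) := by group
    rw [e, conj_map_mul, h]
  -- (F1) B normalises A
  have hBN : B ≤ Subgroup.normalizer (A : Set G) := by
    intro b hb
    apply mem_normalizer_of_conj_map_eq
    rcases hTI b with h | h
    · exfalso
      have : a ∈ A.map (MulAut.conj b).toMonoidHom ⊓ A := by
        refine Subgroup.mem_inf.mpr ⟨?_, ha⟩
        rw [mem_conj_map]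
        have e : b⁻¹ * a * b = a := by
          calc b⁻¹ * a * b = b⁻¹ * (a * b) := by group
            _ = b⁻¹ * (b * a) := by rw [hBa b hb]
            _ = a := by group
        rw [e]; exact ha
      rw [h, Subgroup.mem_bot] at this
      exact ha1 this
    · exact h
  -- (F3) an element commuting with a nontrivial element of B normalises B
  have hF3 : ∀ c : G, ∀ b ∈ B, b ≠ 1 → c * b = b * c → c ∈ Subgroup.normalizer (B : Set G) := by
    intro c b hb hb1 hcb
    apply mem_normalizer_of_conj_map_eq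
    rcases hTIB c with h | h
    · exfalso
      have : b ∈ B.map (MulAut.conj c).toMonoidHom ⊓ B := by
        refine Subgroup.mem_inf.mpr ⟨?_, hb⟩
        rw [mem_conj_map]
        have e : c⁻¹ * b * c = b := by
          calc c⁻¹ * b * c = c⁻¹ * (b * c) := by group
            _ = c⁻¹ * (c * b) := by rw [hcb]
            _ = b := by group
        rw [e]; exact hb
      rw [h, Subgroup.mem_bot] at this
      exact hb1 this
    · exact h
  -- (F5) conjugates of elements of B by elements of A normalise B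
  have hF5 : ∀ a' ∈ A, ∀ b ∈ B, a' * b * a'⁻¹ ∈ Subgroup.normalizer (B : Set G) := by
    intro a' ha' b hb
    by_cases hb1 : b = 1
    · rw [hb1]; simp
    · have hba' : b * a' * b⁻¹ ∈ A := (Subgroup.mem_normalizer_iff.mp (hBN hb) a').mp ha'
      have hbi : b⁻¹ = b := inv_eq_of_mul_eq_one_right (hBsq b hb)
      have hai : a'⁻¹ = a' := inv_eq_of_mul_eq_one_right (hAsq a' ha')
      set a'' := a' * (b * a' * b⁻¹) with ha''
      have hc : a'' * b = b * a'' := by
        have h1 : a' * (b * a' * b⁻¹) = (b * a' * b⁻¹) * a' := hAcomm _ ha' _ hba'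
        calc a'' * b = a' * (b * a' * b⁻¹) * b := by rw [ha'']
          _ = (b * a' * b⁻¹) * a' * b := by rw [h1]
          _ = b * (a' * (b * a' * b)) := by rw [hbi]; group
          _ = b * a'' := by rw [ha'', hbi]
      have hn : a'' ∈ Subgroup.normalizer (B : Set G) := hF3 a'' b hb hb1 hc
      have e : a' * b * a'⁻¹ = a'' * b := by
        rw [ha'', hai, hbi]
        calc a' * b * a' = a' * b * a' * (b * b) := by rw [hBsq b hb, mul_one]
          _ = a' * (b * a' * b) * b := by group
      rw [e]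
      exact (Subgroup.normalizer (B : Set G)).mul_mem hn (Subgroup.le_normalizer hb)
  -- every element of A normalises B
  have hAN : A ≤ Subgroup.normalizer (B : Set G) := by
    intro a' ha'
    have hai : a'⁻¹ = a' := inv_eq_of_mul_eq_one_right (hAsq a' ha')
    apply mem_normalizer_of_conj_map_eq
    apply eq_of_mutual_norm B (B.map (MulAut.conj a').toMonoidHom) (hTIB a') (hbB a')
    · -- B ≤ N(B^{a'})
      intro b hb
      have h1 := hF5 a' ha' b hb
      apply mem_normalizer_of_conj_map_eq
      rw [← conj_map_mul]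
      have h2 := conj_map_eq_of_mem_normalizer h1
      have e : b * a' = a' * (a' * b * a'⁻¹) := by
        rw [hai]
        calc b * a' = (a' * a') * b * a' := by rw [hAsq a' ha', one_mul]
          _ = a' * (a' * b * a') := by group
      rw [e, conj_map_mul, h2]
    · -- B^{a'} ≤ N(B)
      intro y hy
      rw [mem_conj_map] at hy
      have h1 := hF5 a' ha' _ hy
      have e : a' * (a'⁻¹ * y * a') * a'⁻¹ = y := by group
      rwa [e] at h1
  exact eq_of_mutual_norm A B (hTI g) (hb g) hAN hBN

end Cfsg.Agent.S1177
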