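import Mathlib
import Cfsg.Statements.S1178
import Cfsg.Agent.Helper6.ConjMap

set_option autoImplicit false
open Cfsg Cfsg.Agent.Helper6

namespace Cfsg.Agent.S1178

/-- Let A be a subgroup of a Sylow 2-subgroup S of the finite group G which is weakly closed in S. If a conjugate g A g⁻¹ commutes elementwise with A, then g A g⁻¹ = A. -/
theorem result {G : Type*} [Group G] [Finite G] (S : Sylow 2 G) (A : Subgroup G) (hW : Cfsg.IsWeaklyClosed A (S : Subgroup G)) (g : G) (hc : ∀ a ∈ A, ∀ b ∈ A.map (MulAut.conj g).toMonoidHom, a * b = b * a) : A.map (MulAut.conj g).toMonoidHom = A := by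
  obtain ⟨hAS, hwc⟩ := hW
  have hA2 : IsPGroup 2 A := S.isPGroup'.to_le hAS
  have hB2 : IsPGroup 2 (A.map (MulAut.conj g).toMonoidHom) := hA2.map _
  have hnorm : A.map (MulAut.conj g).toMonoidHom ≤ Subgroup.normalizer (A : Set G) := by
    intro b hb
    rw [Subgroup.mem_normalizer_iff]
    intro n
    constructor
    · intro hn
      have h1 := hc n hn b hb
      have : b * n * b⁻¹ = n := by rw [← h1]; group
      rw [this]; exact hn
    · intro hn
      have h1 := hc _ hn b hb
      have : n = b * n * b⁻¹ := by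
        calc n = b⁻¹ * (b * n * b⁻¹ * b) := by group
          _ = b⁻¹ * (b * (b * n * b⁻¹)) := by rw [h1]
          _ = b * n * b⁻¹ := by group
      rw [this]; exact hn
  have hP : IsPGroup 2 (A.map (MulAut.conj g).toMonoidHom ⊔ A : Subgroup G) :=
    IsPGroup.to_sup_of_normal_right' hB2 hA2 hnorm
  obtain ⟨Q, hQ⟩ := hP.exists_le_sylow
  obtain ⟨h, rfl⟩ := MulAction.exists_smul_eq G S Q
  have hQ' : A.map (MulAut.conj g).toMonoidHom ⊔ A ≤ (S : Subgroup G).map (MulAut.conj h).toMonoidHom := hQ
  -- conjugate back by h⁻¹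
  have h1 : A.map (MulAut.conj h⁻¹).toMonoidHom ≤ S := by
    intro x hx
    rw [mem_conj_map, inv_inv] at hx
    have := hQ' (Subgroup.mem_sup_right hx)
    rw [mem_conj_map] at this
    have e : h⁻¹ * (h * x * h⁻¹) * h = x := by group
    rwa [e] at this
  have h2 : A.map (MulAut.conj (h⁻¹ * g)).toMonoidHom ≤ S := by
    intro x hx
    rw [conj_map_mul, mem_conj_map, inv_inv] at hx
    have := hQ' (Subgroup.mem_sup_left hx)
    rw [mem_conj_map] at this
    have e : h⁻¹ * (h * x * h⁻¹) * h = x := by group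
    rwa [e] at this
  have h3 := hwc _ h1
  have h4 := hwc _ h2
  have h5 : A.map (MulAut.conj h).toMonoidHom = A := conj_map_inv_eq h3
  have h6 : A.map (MulAut.conj g).toMonoidHom = A.map (MulAut.conj h).toMonoidHom := by
    have : g = h * (h⁻¹ * g) := by group
    rw [this, conj_map_mul, h4]
  rw [h6, h5]

end Cfsg.Agent.S1178
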