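import Mathlib
import Cfsg.Statements.S1181
import Cfsg.Agent.Helper6.Isolated

set_option autoImplicit false
open Cfsg Cfsg.Agent.Helper6

namespace Cfsg.Agent.S1181

/-- Let z be an isolated involution of the finite group G and N a normal subgroup with z ∉ N. Then the centralizer of zN in G/N is the image of C_G(z), and zN is an isolated involution of G/N. -/
theorem result {G : Type*} [Group G] [Finite G] (z : G) (hz : Cfsg.IsIsolatedInvolution z) (N : Subgroup G) [N.Normal] (hzN : z ∉ N) : Subgroup.centralizer ({(QuotientGroup.mk z : G ⧸ N)} : Set (G ⧸ N)) = (Subgroup.centralizer ({z} : Set G)).map (QuotientGroup.mk' N) ∧ Cfsg.IsIsolatedInvolution (QuotientGroup.mk z : G ⧸ N) := by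
  have hz2 := isolated_sq hz
  have hzi := inv_eq_self hz2
  have hzN' : z ∈ Subgroup.normalizer (N : Set G) := by
    rw [Subgroup.normalizer_eq_top]; trivial
  have hmk2 : (QuotientGroup.mk z : G ⧸ N) * QuotientGroup.mk z = 1 := by
    rw [← QuotientGroup.mk_mul, hz2]; rfl
  have hmk1 : (QuotientGroup.mk z : G ⧸ N) ≠ 1 := by
    intro h
    exact hzN ((QuotientGroup.eq_one_iff z).mp h)
  constructor
  · ext q
    obtain ⟨g, rfl⟩ := QuotientGroup.mk_surjective q
    constructor
    · intro hq
      rw [Subgroup.mem_centralizer_iff] at hq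
      have h1 : (QuotientGroup.mk z : G ⧸ N) * QuotientGroup.mk g
          = QuotientGroup.mk g * QuotientGroup.mk z := hq _ rfl
      have h2 : g⁻¹ * z * g⁻¹⁻¹ * z ∈ N := by
        rw [← QuotientGroup.mk_mul, ← QuotientGroup.mk_mul] at h1
        have := QuotientGroup.eq.mp h1
        have e : (z * g)⁻¹ * (g * z) = g⁻¹ * z * g⁻¹⁻¹ * z := by
          rw [mul_inv_rev, hzi, inv_inv]; group
        rw [← e]; exact this
      obtain ⟨n, hn, -, hnz⟩ := isolated_conj_by_normalized hz N ⊤ hzN' (Subgroup.mem_top _) g⁻¹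
        (Or.inr h2) (Subgroup.mem_top _)
      refine ⟨g * n, ?_, ?_⟩
      · rw [SetLike.mem_coe, Subgroup.mem_centralizer_iff]
        intro u hu
        rw [Set.mem_singleton_iff.mp hu]
        rw [inv_inv] at hnz
        calc z * (g * n) = g * (g⁻¹ * z * g) * n := by group
          _ = g * (n * z * n⁻¹) * n := by rw [hnz]
          _ = g * n * z := by group
      · show (QuotientGroup.mk (g * n) : G ⧸ N) = QuotientGroup.mk g
        rw [QuotientGroup.mk_mul, (QuotientGroup.eq_one_iff n).mpr hn, mul_one]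
    · rintro ⟨c, hc, hcg⟩
      rw [← hcg]
      rw [SetLike.mem_coe, Subgroup.mem_centralizer_iff] at hc
      rw [Subgroup.mem_centralizer_iff]
      intro u hu
      rw [Set.mem_singleton_iff.mp hu]
      show (QuotientGroup.mk z : G ⧸ N) * QuotientGroup.mk c = QuotientGroup.mk c * QuotientGroup.mk z
      rw [← QuotientGroup.mk_mul, ← QuotientGroup.mk_mul, hc z rfl]
  · refine ⟨orderOf_eq_prime (by rw [pow_two]; exact hmk2) hmk1, ?_⟩
    intro q hq
    obtain ⟨g, rfl⟩ := QuotientGroup.mk_surjective q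
    set w := g * z * g⁻¹ with hw
    have hw2 : w * w = 1 := conj_sq_one hz2 g
    have hqw : (QuotientGroup.mk g : G ⧸ N) * QuotientGroup.mk z * (QuotientGroup.mk g)⁻¹
        = QuotientGroup.mk w := by
      rw [hw]; rfl
    rw [hqw] at hq ⊢
    obtain ⟨m, hm⟩ := isolated_odd hz g
    rw [← hw] at hm
    set r := z * w with hr
    have hinv : z * r * z = r⁻¹ := inv_mul_inverts hz2 hw2
    set Z : G ⧸ N := QuotientGroup.mk z with hZ
    set W : G ⧸ N := QuotientGroup.mk w with hW
    have hR : (QuotientGroup.mk r : G ⧸ N) = Z * W := by rw [hr]; rfl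
    have h1 : Z * (Z * W) * Z = (Z * W)⁻¹ := by
      rw [← hR, hZ, ← QuotientGroup.mk_mul, ← QuotientGroup.mk_mul, hinv]; rfl
    have h2 : Z * (Z * W) * Z = Z * W := by
      have : W * Z = Z * W := hq.eq.symm
      calc Z * (Z * W) * Z = Z * Z * (W * Z) := by group
        _ = Z * Z * (Z * W) := by rw [this]
        _ = Z * W := by rw [hmk2, one_mul]
    have h3 : (Z * W) ^ 2 = 1 := by
      rw [pow_two]
      nth_rewrite 1 [← h2]
      rw [h1]; group
    have h4 : (Z * W) ^ orderOf r = 1 := by
      rw [← hR, ← QuotientGroup.mk_pow, pow_orderOf_eq_one]; rfl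
    have h5 := pow_gcd_eq_one.mpr ⟨h4, h3⟩
    have hg : Nat.gcd (orderOf r) 2 = 1 := by rw [hm]; simp
    rw [hg, pow_one] at h5
    have h6 : W = Z⁻¹ := eq_inv_of_mul_eq_one_right h5
    rw [h6]
    exact inv_eq_self hmk2

end Cfsg.Agent.S1181
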