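import Mathlib
import Cfsg.Statements.S1183
import Cfsg.Agent.Helper6.Isolated
import Cfsg.Agent.Helper6.PResidual
import Cfsg.Agent.S1242

set_option autoImplicit false
open Cfsg Cfsg.Agent.Helper6

namespace Cfsg.Agent.S1183

/-- Let z be an isolated involution of the finite group G and C = C_G(z). Then the subgroup of G generated by its elements of odd order is all of G if and only if the subgroup of C generated by its elements of odd order is all of C. -/
theorem result {G : Type*} [Group G] [Finite G] (z : G) (hz : Cfsg.IsIsolatedInvolution z) : Cfsg.pResidual 2 G = ⊤ ↔ Cfsg.pResidual 2 ↥(Subgroup.centralizer ({z} : Set G)) = ⊤ := by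
  have hz2 := isolated_sq hz
  set C := Subgroup.centralizer ({z} : Set G) with hC
  have hmap := map_pResidual_le 2 C
  have hmemC : ∀ x : G, x ∈ C ↔ Commute x z := by
    intro x
    rw [hC, Subgroup.mem_centralizer_iff]
    constructor
    · intro h; exact (h z rfl).symm
    · intro h u hu; rw [Set.mem_singleton_iff.mp hu]; exact h.eq.symm
  constructor
  · intro hG
    have : Fact (Nat.Prime 2) := ⟨Nat.prime_two⟩
    have key := Cfsg.Agent.S1242.result (p := 2) C (isolated_centralizer_index_odd hz) (by
      intro x hx _ a ha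
      obtain ⟨c, -, hcz, hc⟩ := isolated_fusion_control hz ⊤ (by rw [Subgroup.mem_normalizer_iff]; simp) x (a * x * a⁻¹)
        ((hmemC x).mp hx) ((hmemC _).mp ha) a (Subgroup.mem_top _) rfl
      exact ⟨c, (hmemC c).mpr hcz, hc⟩)
    rw [hG] at key
    have hM : Cfsg.pResidual 2 ↥C ⊔ commutator ↥C = ⊤ := by
      rw [eq_top_iff]
      intro c _
      have h1 : (c : G) ∈ (⊤ ⊔ commutator G) ⊓ C := ⟨by simp, c.2⟩
      rw [key] at h1
      obtain ⟨c', hc', hcc⟩ := h1
      have : c' = c := Subtype.ext hcc
      rwa [← this]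
    exact pResidual_eq_top_of_sup_commutator 2 hM
  · intro hCres
    rw [eq_top_iff]
    intro g _
    obtain ⟨k, ⟨⟨hko, _⟩, hkc⟩, -⟩ := isolated_coset_rep hz g
    have h1 : k ∈ Cfsg.pResidual 2 G :=
      Subgroup.subset_closure (show Nat.Coprime (orderOf k) 2 from Nat.coprime_two_right.mpr hko)
    have h2 : g⁻¹ * k ∈ Cfsg.pResidual 2 G := by
      apply hmap
      refine ⟨⟨g⁻¹ * k, hkc⟩, ?_, rfl⟩
      rw [hCres]; trivial
    have : g = k * (g⁻¹ * k)⁻¹ := by group
    rw [this]; exact mul_mem h1 (inv_mem h2)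

end Cfsg.Agent.S1183
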