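import Cfsg.Statements.S1186
import Mathlib
import Cfsg.Agent.Helper6.Isolated

set_option autoImplicit false
open Cfsg

namespace Cfsg.Agent.S1186

open Cfsg.Agent.Helper6

variable {G : Type*} [Group G]

theorem z_mul {z k : G} (hi : z * k * z⁻¹ = k⁻¹) : z * k = k⁻¹ * z := by
  calc z * k = (z * k * z⁻¹) * z := by group
    _ = k⁻¹ * z := by rw [hi]

theorem inv_pow_of_inv {z k : G} (hi : z * k * z⁻¹ = k⁻¹) (n : ℕ) :
    z * k ^ n * z⁻¹ = (k ^ n)⁻¹ := by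
  rw [← conj_pow, hi, inv_pow]

theorem inv_sq_of_inv {z a : G} (hi : z * a * z⁻¹ = a⁻¹) : z * (a * a) * z⁻¹ = (a * a)⁻¹ := by
  calc z * (a * a) * z⁻¹ = (z * a * z⁻¹) * (z * a * z⁻¹) := by group
    _ = (a * a)⁻¹ := by rw [hi]; group

theorem inv_inv_of_inv {z a : G} (hi : z * a * z⁻¹ = a⁻¹) : z * a⁻¹ * z⁻¹ = (a⁻¹)⁻¹ := by
  calc z * a⁻¹ * z⁻¹ = (z * a * z⁻¹)⁻¹ := by group
    _ = (a⁻¹)⁻¹ := by rw [hi]

theorem odd_sq {a : G} (ho : Odd (orderOf a)) : Odd (orderOf (a * a)) := by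
  rw [← pow_two]; exact Odd.of_dvd_nat ho (orderOf_pow_dvd 2)

theorem zu_sq {z u : G} (hz2 : z * z = 1) (hu : z * u * z⁻¹ = u⁻¹) : (z * u) * (z * u) = 1 := by
  have hzu := z_mul hu
  calc (z * u) * (z * u) = (u⁻¹ * z) * (z * u) := by rw [hzu]
    _ = u⁻¹ * (z * z) * u := by group
    _ = 1 := by rw [hz2]; group

/-- `z * k` is a conjugate of `z` when `k` has odd order and is inverted by `z`. -/
theorem zk_conj {z k : G} (ho : Odd (orderOf k)) (hi : z * k * z⁻¹ = k⁻¹) :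
    ∃ g : G, z * k = g * z * g⁻¹ := by
  obtain ⟨j, hj⟩ := ho
  refine ⟨(k ^ (j + 1))⁻¹, ?_⟩
  have h1 := z_mul (inv_pow_of_inv hi (j + 1))
  have h2 : k ^ (j + 1) * k ^ (j + 1) = k := by
    rw [← pow_add]
    have h3 : j + 1 + (j + 1) = orderOf k + 1 := by omega
    rw [h3, pow_succ, pow_orderOf_eq_one, one_mul]
  rw [inv_inv]
  calc z * k = k⁻¹ * z := z_mul hi
    _ = (k ^ (j + 1) * k ^ (j + 1))⁻¹ * z := by rw [h2]
    _ = (k ^ (j + 1))⁻¹ * ((k ^ (j + 1))⁻¹ * z) := by group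
    _ = (k ^ (j + 1))⁻¹ * (z * k ^ (j + 1)) := by rw [h1]
    _ = (k ^ (j + 1))⁻¹ * z * k ^ (j + 1) := by group

theorem k_of_conj [Finite G] {z : G} (hz : Cfsg.IsIsolatedInvolution z) (g : G) :
    Odd (orderOf (z * (g * z * g⁻¹))) ∧
      z * (z * (g * z * g⁻¹)) * z⁻¹ = (z * (g * z * g⁻¹))⁻¹ := by
  have hz2 := isolated_sq hz
  refine ⟨isolated_odd hz g, ?_⟩
  have h := inv_mul_inverts hz2 (conj_sq_one hz2 g)
  rw [inv_eq_self hz2]; exact h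

theorem isK_aba [Finite G] {z : G} (hz : Cfsg.IsIsolatedInvolution z) {a b : G}
    (hai : z * a * z⁻¹ = a⁻¹) (hbo : Odd (orderOf b)) (hbi : z * b * z⁻¹ = b⁻¹) :
    Odd (orderOf (a * b * a)) ∧ z * (a * b * a) * z⁻¹ = (a * b * a)⁻¹ := by
  have hz2 := isolated_sq hz
  have hinv : z * (a * b * a) * z⁻¹ = (a * b * a)⁻¹ := by
    calc z * (a * b * a) * z⁻¹ = (z * a * z⁻¹) * (z * b * z⁻¹) * (z * a * z⁻¹) := by group
      _ = (a * b * a)⁻¹ := by rw [hai, hbi]; group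
  refine ⟨?_, hinv⟩
  obtain ⟨g₀, hg₀⟩ := zk_conj hbo hbi
  have h1 : a * b * a = z * ((a⁻¹ * g₀) * z * (a⁻¹ * g₀)⁻¹) := by
    have h2 : (a⁻¹ * g₀) * z * (a⁻¹ * g₀)⁻¹ = a⁻¹ * (g₀ * z * g₀⁻¹) * a := by group
    rw [h2, ← hg₀]
    have h3 : z * a⁻¹ = a * z := by
      have h4 := z_mul (inv_inv_of_inv hai)
      rw [inv_inv] at h4; exact h4
    calc a * b * a = a * (z * z) * b * a := by rw [hz2, mul_one]
      _ = (a * z) * (z * b) * a := by group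
      _ = (z * a⁻¹) * (z * b) * a := by rw [h3]
      _ = z * (a⁻¹ * (z * b) * a) := by group
  rw [h1]; exact isolated_odd hz _

theorem exists_sqrt {z k : G} (ho : Odd (orderOf k)) (hi : z * k * z⁻¹ = k⁻¹) :
    ∃ a : G, Odd (orderOf a) ∧ z * a * z⁻¹ = a⁻¹ ∧ a * a = k ∧
      ∀ s : G, Commute k s → Commute a s := by
  obtain ⟨j, hj⟩ := ho
  refine ⟨k ^ (j + 1), Odd.of_dvd_nat ⟨j, hj⟩ (orderOf_pow_dvd (j + 1)),
    inv_pow_of_inv hi (j + 1), ?_, fun s hs => hs.pow_left (j + 1)⟩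
  rw [← pow_add]
  have h3 : j + 1 + (j + 1) = orderOf k + 1 := by omega
  rw [h3, pow_succ, pow_orderOf_eq_one, one_mul]

theorem conj_unique [Finite G] {z : G} (hz : Cfsg.IsIsolatedInvolution z) {w m m' : G}
    (hw : ∃ g, w = g * z * g⁻¹) (hm : ∃ g, m = g * z * g⁻¹) (hm' : ∃ g, m' = g * z * g⁻¹)
    (hc : Commute (m' * m) w) : m' = m := by
  obtain ⟨g₁, rfl⟩ := hw
  obtain ⟨h, rfl⟩ := hm
  obtain ⟨h', rfl⟩ := hm'
  by_contra hne
  have e1 : h' * z * h'⁻¹ = (h' * g₁⁻¹) * (g₁ * z * g₁⁻¹) * (h' * g₁⁻¹)⁻¹ := by group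
  have e2 : h * z * h⁻¹ = (h * g₁⁻¹) * (g₁ * z * g₁⁻¹) * (h * g₁⁻¹)⁻¹ := by group
  rw [e1, e2] at hne hc
  exact isolated_prod_not_commute (isolated_conj hz g₁) _ _ hne hc

theorem mid_of_rel {z u k k₁ : G} (hz2 : z * z = 1) (hu : z * u * z⁻¹ = u⁻¹)
    (hk : z * k * z⁻¹ = k⁻¹) (hk₁ : k₁ = u * k⁻¹ * u) :
    (z * u) * (z * k₁) * (z * u) = z * k := by
  have hzu := z_mul hu
  have hzk := z_mul hk
  calc (z * u) * (z * k₁) * (z * u)
      = (u⁻¹ * z) * (z * (u * k⁻¹ * u)) * (u⁻¹ * z) := by rw [hzu, hk₁]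
    _ = u⁻¹ * (z * z) * (u * k⁻¹ * u) * u⁻¹ * z := by group
    _ = k⁻¹ * z := by rw [hz2]; group
    _ = z * k := hzk.symm

theorem rel_of_mid {z u k k₁ : G} (hz2 : z * z = 1) (hu : z * u * z⁻¹ = u⁻¹)
    (hk : z * k * z⁻¹ = k⁻¹) (h : (z * u) * (z * k₁) * (z * u) = z * k) :
    k₁ = u * k⁻¹ * u := by
  have hzu := z_mul hu
  have hzk := z_mul hk
  rw [hzu, hzk] at h
  have h1 : u⁻¹ * k₁ * u⁻¹ = k⁻¹ := by
    have h2 : u⁻¹ * z * (z * k₁) * (u⁻¹ * z) = (u⁻¹ * k₁ * u⁻¹) * z := by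
      calc u⁻¹ * z * (z * k₁) * (u⁻¹ * z) = u⁻¹ * (z * z) * k₁ * u⁻¹ * z := by group
        _ = (u⁻¹ * k₁ * u⁻¹) * z := by rw [hz2]; group
    rw [h2] at h
    exact mul_right_cancel h
  calc k₁ = u * (u⁻¹ * k₁ * u⁻¹) * u := by group
    _ = u * k⁻¹ * u := by rw [h1]

theorem commute_of_mid {m m' t t₁ : G} (hmm : m * m = 1) (hm'm' : m' * m' = 1)
    (hm : m * t₁ * m = t) (hm' : m' * t₁ * m' = t) : Commute (m' * m) t₁ := by
  have h1 : m * t₁ = t * m := by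
    calc m * t₁ = m * t₁ * (m * m) := by rw [hmm, mul_one]
      _ = (m * t₁ * m) * m := by group
      _ = t * m := by rw [hm]
  have h2 : m' * t = t₁ * m' := by
    calc m' * t = m' * (m' * t₁ * m') := by rw [hm']
      _ = (m' * m') * t₁ * m' := by group
      _ = t₁ * m' := by rw [hm'm', one_mul]
  show m' * m * t₁ = t₁ * (m' * m)
  calc m' * m * t₁ = m' * (m * t₁) := by group
    _ = m' * (t * m) := by rw [h1]
    _ = (m' * t) * m := by group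
    _ = (t₁ * m') * m := by rw [h2]
    _ = t₁ * (m' * m) := by group

theorem inv_conj_s {z s k : G} (hsz : Commute s z) (hki : z * k * z⁻¹ = k⁻¹) :
    z * (s * k * s⁻¹) * z⁻¹ = (s * k * s⁻¹)⁻¹ := by
  have h1 : z * s = s * z := hsz.eq.symm
  calc z * (s * k * s⁻¹) * z⁻¹ = (z * s) * k * (z * s)⁻¹ := by group
    _ = (s * z) * k * (s * z)⁻¹ := by rw [h1]
    _ = s * (z * k * z⁻¹) * s⁻¹ := by group
    _ = (s * k * s⁻¹)⁻¹ := by rw [hki]; group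

theorem uniq_a [Finite G] {z : G} (hz : Cfsg.IsIsolatedInvolution z) {s k a a' : G}
    (hsz : Commute s z) (hko : Odd (orderOf k)) (hki : z * k * z⁻¹ = k⁻¹)
    (hao : Odd (orderOf a)) (hai : z * a * z⁻¹ = a⁻¹)
    (ha'o : Odd (orderOf a')) (ha'i : z * a' * z⁻¹ = a'⁻¹)
    (hR : s * k * s⁻¹ = a * a * k⁻¹ * (a * a))
    (hR' : s * k * s⁻¹ = a' * a' * k⁻¹ * (a' * a')) : a' = a := by
  have hz2 := isolated_sq hz
  have hk₁o : Odd (orderOf (s * k * s⁻¹)) := by rw [orderOf_conj_eq]; exact hko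
  have hk₁i := inv_conj_s hsz hki
  have hm := mid_of_rel hz2 (inv_sq_of_inv hai) hki hR
  have hm' := mid_of_rel hz2 (inv_sq_of_inv ha'i) hki hR'
  have hc := commute_of_mid (zu_sq hz2 (inv_sq_of_inv hai)) (zu_sq hz2 (inv_sq_of_inv ha'i)) hm hm'
  have hmc : ∃ g, z * (a * a) = g * z * g⁻¹ := zk_conj (odd_sq hao) (inv_sq_of_inv hai)
  have hm'c : ∃ g, z * (a' * a') = g * z * g⁻¹ := zk_conj (odd_sq ha'o) (inv_sq_of_inv ha'i)
  have ht₁c : ∃ g, z * (s * k * s⁻¹) = g * z * g⁻¹ := zk_conj hk₁o hk₁i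
  have h3 := conj_unique hz ht₁c hmc hm'c hc
  have h4 : a' * a' = a * a := mul_left_cancel h3
  exact eq_of_sq_eq_of_odd ha'o hao h4

theorem exists_a [Finite G] {z : G} (hz : Cfsg.IsIsolatedInvolution z) {s k : G}
    (hs2 : s * s = 1) (hsz : Commute s z) (hko : Odd (orderOf k)) (hki : z * k * z⁻¹ = k⁻¹) :
    ∃ a : G, Odd (orderOf a) ∧ z * a * z⁻¹ = a⁻¹ ∧ Commute a s ∧
      s * k * s⁻¹ = a * a * k⁻¹ * (a * a) := by
  have hz2 := isolated_sq hz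
  have hzs : z * s = s * z := hsz.eq.symm
  obtain ⟨k₁, hk₁⟩ : ∃ k₁, k₁ = s * k * s⁻¹ := ⟨_, rfl⟩
  have hk₁o : Odd (orderOf k₁) := by rw [hk₁, orderOf_conj_eq]; exact hko
  have hk₁i : z * k₁ * z⁻¹ = k₁⁻¹ := by rw [hk₁]; exact inv_conj_s hsz hki
  obtain ⟨g, hg⟩ := zk_conj hko hki
  obtain ⟨g₁, hg₁⟩ := zk_conj hk₁o hk₁i
  obtain ⟨t, ht⟩ : ∃ t, t = z * k := ⟨_, rfl⟩
  obtain ⟨t₁, ht₁⟩ : ∃ t₁, t₁ = z * k₁ := ⟨_, rfl⟩
  have htt : t * t = 1 := by rw [ht]; exact zu_sq hz2 hki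
  have ht₁t₁ : t₁ * t₁ = 1 := by rw [ht₁]; exact zu_sq hz2 hk₁i
  have hti : t⁻¹ = t := inv_eq_self htt
  have ht₁i : t₁⁻¹ = t₁ := inv_eq_self ht₁t₁
  have hst : s * t * s⁻¹ = t₁ := by
    rw [ht, ht₁, hk₁]
    calc s * (z * k) * s⁻¹ = (s * z) * k * s⁻¹ := by group
      _ = (z * s) * k * s⁻¹ := by rw [hzs]
      _ = z * (s * k * s⁻¹) := by group
  have hst₁ : s * t₁ * s⁻¹ = t := by
    rw [← hst]
    calc s * (s * t * s⁻¹) * s⁻¹ = (s * s) * t * (s * s)⁻¹ := by group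
      _ = t := by rw [hs2]; group
  obtain ⟨d, hd⟩ : ∃ d, d = t * t₁ := ⟨_, rfl⟩
  have hdo : Odd (orderOf d) := by
    have h1 := isolated_odd (isolated_conj hz g) (g₁ * g⁻¹)
    have h2 : g₁ * g⁻¹ * (g * z * g⁻¹) * (g₁ * g⁻¹)⁻¹ = g₁ * z * g₁⁻¹ := by group
    rw [h2, ← hg, ← hg₁, ← ht, ← ht₁, ← hd] at h1
    exact h1
  have htd : t * d * t⁻¹ = d⁻¹ := by
    rw [hd, hti, mul_inv_rev, hti, ht₁i]
    calc t * (t * t₁) * t = (t * t) * t₁ * t := by group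
      _ = t₁ * t := by rw [htt, one_mul]
  have hsd : s * d * s⁻¹ = d⁻¹ := by
    rw [hd, mul_inv_rev, hti, ht₁i]
    calc s * (t * t₁) * s⁻¹ = (s * t * s⁻¹) * (s * t₁ * s⁻¹) := by group
      _ = t₁ * t := by rw [hst, hst₁]
  obtain ⟨j, hj⟩ := hdo
  obtain ⟨e, he⟩ : ∃ e, e = d ^ (j + 1) := ⟨_, rfl⟩
  have hee : e * e = d := by
    rw [he, ← pow_add]
    have h3 : j + 1 + (j + 1) = orderOf d + 1 := by omega
    rw [h3, pow_succ, pow_orderOf_eq_one, one_mul]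
  have hte : t * e * t⁻¹ = e⁻¹ := by rw [he]; exact inv_pow_of_inv htd (j + 1)
  have hse : s * e * s⁻¹ = e⁻¹ := by rw [he]; exact inv_pow_of_inv hsd (j + 1)
  have heo : e ^ (2 * j + 1) = 1 := by
    rw [he, pow_right_comm, ← hj, pow_orderOf_eq_one, one_pow]
  obtain ⟨f, hf⟩ : ∃ f, f = e ^ (j + 1) := ⟨_, rfl⟩
  have hff : f * f = e := by
    rw [hf, ← pow_add]
    have h3 : j + 1 + (j + 1) = (2 * j + 1) + 1 := by omega
    rw [h3, pow_succ, heo, one_mul]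
  have htf : t * f * t⁻¹ = f⁻¹ := by rw [hf]; exact inv_pow_of_inv hte (j + 1)
  have hte' : t * e = e⁻¹ * t := z_mul hte
  have htf' : t * f = f⁻¹ * t := z_mul htf
  obtain ⟨m, hm⟩ : ∃ m, m = t * e := ⟨_, rfl⟩
  have hmc : m = (f⁻¹ * g) * z * (f⁻¹ * g)⁻¹ := by
    have h1 : (f⁻¹ * g) * z * (f⁻¹ * g)⁻¹ = f⁻¹ * (g * z * g⁻¹) * f := by group
    rw [h1, ← hg, ← ht, hm, ← hff]
    calc t * (f * f) = (t * f) * f := by group
      _ = (f⁻¹ * t) * f := by rw [htf']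
  have ht₁e : t₁ = t * (e * e) := by
    rw [hee, hd]
    calc t₁ = (t * t) * t₁ := by rw [htt, one_mul]
      _ = t * (t * t₁) := by group
  have hmid : m * t₁ * m = t := by
    rw [hm, ht₁e]
    calc t * e * (t * (e * e)) * (t * e) = (t * e) * t * (e * e) * (t * e) := by group
      _ = (e⁻¹ * t) * t * (e * e) * (e⁻¹ * t) := by rw [hte']
      _ = e⁻¹ * (t * t) * (e * e) * e⁻¹ * t := by group
      _ = t := by rw [htt]; group
  have hms : s * m * s⁻¹ = m := by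
    rw [hm]
    calc s * (t * e) * s⁻¹ = (s * t * s⁻¹) * (s * e * s⁻¹) := by group
      _ = t₁ * e⁻¹ := by rw [hst, hse]
      _ = t * (e * e) * e⁻¹ := by rw [ht₁e]
      _ = t * e := by group
  obtain ⟨u, hu⟩ : ∃ u, u = z * m := ⟨_, rfl⟩
  have huK := k_of_conj hz (f⁻¹ * g)
  rw [← hmc, ← hu] at huK
  have hus : Commute u s := by
    show u * s = s * u
    rw [hu]
    have h1 : m * s = s * m := by
      calc m * s = (s * m * s⁻¹) * s := by rw [hms]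
        _ = s * m := by group
    calc z * m * s = z * (m * s) := by group
      _ = z * (s * m) := by rw [h1]
      _ = (z * s) * m := by group
      _ = (s * z) * m := by rw [hzs]
      _ = s * (z * m) := by group
  obtain ⟨a, hao, hai, haa, hacomm⟩ := exists_sqrt huK.1 huK.2
  refine ⟨a, hao, hai, hacomm s hus, ?_⟩
  rw [haa, ← hk₁]
  apply rel_of_mid hz2 huK.2 hki
  have hzu : z * u = m := by rw [hu, ← mul_assoc, hz2, one_mul]
  rw [hzu, ← ht₁, ← ht]; exact hmid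

theorem card_eq_mul [Finite G] (z : G) (hz : Cfsg.IsIsolatedInvolution z) :
    Nat.card G = Nat.card (Subgroup.centralizer ({z} : Set G)) *
      Nat.card {k : G // Odd (orderOf k) ∧ z * k * z⁻¹ = k⁻¹} := by
  classical
  let f : {k : G // Odd (orderOf k) ∧ z * k * z⁻¹ = k⁻¹} ×
      ↥(Subgroup.centralizer ({z} : Set G)) → G := fun p => (p.1 : G) * (p.2 : G)
  have hbij : Function.Bijective f := by
    constructor
    · rintro ⟨⟨k, hk⟩, ⟨c, hc⟩⟩ ⟨⟨k', hk'⟩, ⟨c', hc'⟩⟩ h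
      have h' : k * c = k' * c' := h
      obtain ⟨k₀, -, huniq⟩ := isolated_coset_rep hz (k * c)
      have e1 : k = k₀ := huniq k ⟨hk, by
        have h1 : (k * c)⁻¹ * k = c⁻¹ := by group
        rw [h1]; exact Subgroup.inv_mem _ hc⟩
      have e2 : k' = k₀ := huniq k' ⟨hk', by
        have h1 : (k * c)⁻¹ * k' = c'⁻¹ := by rw [h']; group
        rw [h1]; exact Subgroup.inv_mem _ hc'⟩
      have e3 : k = k' := e1.trans e2.symm
      subst e3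
      have e4 : c = c' := mul_left_cancel h'
      subst e4
      rfl
    · intro g
      obtain ⟨k, ⟨hk, hkc⟩, -⟩ := isolated_coset_rep hz g
      refine ⟨(⟨k, hk⟩, ⟨k⁻¹ * g, ?_⟩), ?_⟩
      · have h1 : k⁻¹ * g = (g⁻¹ * k)⁻¹ := by group
        rw [h1]; exact Subgroup.inv_mem _ hkc
      · show k * (k⁻¹ * g) = g
        group
  rw [← Nat.card_congr (Equiv.ofBijective f hbij), Nat.card_prod, mul_comm]

theorem card_K [Finite G] (z : G) (hz : Cfsg.IsIsolatedInvolution z) (s : G)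
    (hs : orderOf s = 2) (hsz : Commute s z) :
    Nat.card {k : G // Odd (orderOf k) ∧ z * k * z⁻¹ = k⁻¹} =
      Nat.card {k : G // Odd (orderOf k) ∧ z * k * z⁻¹ = k⁻¹ ∧ Commute k (s * z)} *
      Nat.card {k : G // Odd (orderOf k) ∧ z * k * z⁻¹ = k⁻¹ ∧ Commute k s} := by
  classical
  have hz2 := isolated_sq hz
  have hs2 : s * s = 1 := inv_sq_one hs
  have hsb : ∀ b : G, z * b * z⁻¹ = b⁻¹ → Commute b (s * z) → s * b * s⁻¹ = b⁻¹ := by
    intro b hbi hbc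
    have h1 : s * z * b * (s * z)⁻¹ = b := by rw [← hbc.eq, mul_inv_cancel_right]
    have h2 : s * b⁻¹ * s⁻¹ = b := by
      calc s * b⁻¹ * s⁻¹ = s * (z * b * z⁻¹) * s⁻¹ := by rw [hbi]
        _ = s * z * b * (s * z)⁻¹ := by group
        _ = b := h1
    calc s * b * s⁻¹ = (s * b⁻¹ * s⁻¹)⁻¹ := by group
      _ = b⁻¹ := by rw [h2]
  have hsa : ∀ a : G, Commute a s → s * a * s⁻¹ = a := by
    intro a hac
    rw [← hac.eq, mul_inv_cancel_right]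
  have hrel : ∀ a b : G, Commute a s → z * b * z⁻¹ = b⁻¹ → Commute b (s * z) →
      s * (a * b * a) * s⁻¹ = a * a * (a * b * a)⁻¹ * (a * a) := by
    intro a b hac hbi hbc
    calc s * (a * b * a) * s⁻¹ = (s * a * s⁻¹) * (s * b * s⁻¹) * (s * a * s⁻¹) := by group
      _ = a * b⁻¹ * a := by rw [hsa a hac, hsb b hbi hbc]
      _ = a * a * (a * b * a)⁻¹ * (a * a) := by group
  let ψ : {k : G // Odd (orderOf k) ∧ z * k * z⁻¹ = k⁻¹ ∧ Commute k s} ×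
      {k : G // Odd (orderOf k) ∧ z * k * z⁻¹ = k⁻¹ ∧ Commute k (s * z)} →
      {k : G // Odd (orderOf k) ∧ z * k * z⁻¹ = k⁻¹} :=
    fun p => ⟨(p.1 : G) * (p.2 : G) * (p.1 : G), isK_aba hz p.1.2.2.1 p.2.2.1 p.2.2.2.1⟩
  have hbij : Function.Bijective ψ := by
    constructor
    · rintro ⟨⟨a, hao, hai, hac⟩, ⟨b, hbo, hbi, hbc⟩⟩
        ⟨⟨a', ha'o, ha'i, ha'c⟩, ⟨b', hb'o, hb'i, hb'c⟩⟩ h
      have h' : a * b * a = a' * b' * a' := congrArg Subtype.val h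
      have hK := isK_aba hz hai hbo hbi
      have hR := hrel a b hac hbi hbc
      have hR' := hrel a' b' ha'c hb'i hb'c
      rw [← h'] at hR'
      have e1 : a' = a := uniq_a hz hsz hK.1 hK.2 hao hai ha'o ha'i hR hR'
      subst e1
      have e2 : b = b' := mul_left_cancel (mul_right_cancel h')
      subst e2
      rfl
    · rintro ⟨k, hko, hki⟩
      obtain ⟨a, hao, hai, hac, hR⟩ := exists_a hz hs2 hsz hko hki
      have hainvi : z * a⁻¹ * z⁻¹ = (a⁻¹)⁻¹ := inv_inv_of_inv hai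
      have hbK := isK_aba hz hainvi hko hki
      have h1 : s * (a⁻¹ * k * a⁻¹) * s⁻¹ = (a⁻¹ * k * a⁻¹)⁻¹ := by
        calc s * (a⁻¹ * k * a⁻¹) * s⁻¹
            = (s * a * s⁻¹)⁻¹ * (s * k * s⁻¹) * (s * a * s⁻¹)⁻¹ := by group
          _ = a⁻¹ * (a * a * k⁻¹ * (a * a)) * a⁻¹ := by rw [hsa a hac, hR]
          _ = (a⁻¹ * k * a⁻¹)⁻¹ := by group
      have hbc : Commute (a⁻¹ * k * a⁻¹) (s * z) := by
        have h2 := hbK.2
        obtain ⟨b, hb⟩ : ∃ b, b = a⁻¹ * k * a⁻¹ := ⟨_, rfl⟩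
        rw [← hb] at h1 h2 ⊢
        have h3 : s * z * b * (s * z)⁻¹ = b := by
          calc s * z * b * (s * z)⁻¹ = s * (z * b * z⁻¹) * s⁻¹ := by group
            _ = (s * b * s⁻¹)⁻¹ := by rw [h2]; group
            _ = b := by rw [h1, inv_inv]
        show b * (s * z) = s * z * b
        calc b * (s * z) = (s * z * b * (s * z)⁻¹) * (s * z) := by rw [h3]
          _ = s * z * b := by group
      refine ⟨(⟨a, hao, hai, hac⟩, ⟨a⁻¹ * k * a⁻¹, hbK.1, hbK.2, hbc⟩), ?_⟩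
      apply Subtype.ext
      show a * (a⁻¹ * k * a⁻¹) * a = k
      group
  rw [← Nat.card_congr (Equiv.ofBijective ψ hbij), Nat.card_prod, mul_comm]

/-- Let z be an isolated involution of the finite group G, C = C_G(z), K the set of elements of odd order inverted by z, and s an involution of C. Then |G| = |C| · |C_K(sz)| · |C_K(s)|. -/
theorem result {G : Type*} [Group G] [Finite G] (z : G) (hz : Cfsg.IsIsolatedInvolution z) (s : G) (hs : orderOf s = 2) (hsz : Commute s z) : Nat.card G = Nat.card (Subgroup.centralizer ({z} : Set G)) * Nat.card {k : G // Odd (orderOf k) ∧ z * k * z⁻¹ = k⁻¹ ∧ Commute k (s * z)} * Nat.card {k : G // Odd (orderOf k) ∧ z * k * z⁻¹ = k⁻¹ ∧ Commute k s} := by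
  rw [card_eq_mul z hz, card_K z hz s hs hsz, mul_assoc]

end Cfsg.Agent.S1186
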