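import Mathlib
import Cfsg.Statements.S1225
import Cfsg.Agent.Helper6.StrEmb

set_option autoImplicit false
open Cfsg Cfsg.Agent.Helper6

namespace Cfsg.Agent.S1225

/-- Let H be a strongly embedded subgroup of the finite group G, u an involution outside H and D = H ∩ uHu⁻¹. Then any two involutions of H are conjugate by an element of D, and any two involutions of G are conjugate in G. -/
theorem result {G : Type*} [Group G] [Finite G] (H : Subgroup G) (hH : Cfsg.IsStronglyEmbedded H) (u : G) (hu : orderOf u = 2) (huH : u ∉ H) (s t : G) (hs : orderOf s = 2) (hsH : s ∈ H) (ht : orderOf t = 2) (htH : t ∈ H) : (∃ d ∈ (H ⊓ H.map (MulAut.conj u).toMonoidHom), d * s * d⁻¹ = t) ∧ ∀ a b : G, orderOf a = 2 → orderOf b = 2 → IsConj a b := by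
  refine ⟨SE.conj_in_D hH hu huH hs hsH ht htH, fun a b ha hb => ?_⟩
  obtain ⟨c₁, h₁⟩ := SE.all_conj hH hu huH ha
  obtain ⟨c₂, h₂⟩ := SE.all_conj hH hu huH hb
  rw [isConj_iff]
  refine ⟨c₂⁻¹ * c₁, ?_⟩
  calc c₂⁻¹ * c₁ * a * (c₂⁻¹ * c₁)⁻¹ = c₂⁻¹ * (c₁ * a * c₁⁻¹) * c₂ := by group
    _ = c₂⁻¹ * (c₂ * b * c₂⁻¹) * c₂ := by rw [h₁, h₂]
    _ = b := by group

end Cfsg.Agent.S1225
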