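import Mathlib
import Cfsg.Statements.S1228
import Cfsg.Agent.Helper6.CIT

set_option autoImplicit false
open Cfsg Cfsg.Agent.Helper6

namespace Cfsg.Agent.S1228

/-- Let G be a finite group with a Sylow 2-subgroup T that is neither cyclic nor normal, such that the centralizer of every involution is an elementary abelian 2-group; put H = N_G(T), let u be an involution outside H and D = H ∩ uHu⁻¹. Then N_G(D) = D ⊔ ⟨u⟩, and a coset gH is fixed by every element of D exactly when gH = H or gH = uH. -/
theorem result {G : Type*} [Group G] [Finite G] (T : Sylow 2 G) (hnc : ¬ IsCyclic (T : Subgroup G)) (hnn : ¬ (T : Subgroup G).Normal) (hC : ∀ t : G, orderOf t = 2 → IsMulCommutative (Subgroup.centralizer ({t} : Set G)) ∧ ∀ c ∈ Subgroup.centralizer ({t} : Set G), c ^ 2 = 1) (u : G) (hu : orderOf u = 2) (huH : u ∉ Subgroup.normalizer ((T : Subgroup G) : Set G)) : Subgroup.normalizer ((Subgroup.normalizer ((T : Subgroup G) : Set G) ⊓ (Subgroup.normalizer ((T : Subgroup G) : Set G)).map (MulAut.conj u).toMonoidHom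 : Subgroup G) : Set G) = (Subgroup.normalizer ((T : Subgroup G) : Set G) ⊓ (Subgroup.normalizer ((T : Subgroup G) : Set G)).map (MulAut.conj u).toMonoidHom) ⊔ Subgroup.zpowers u ∧ ∀ g : G, ((∀ d ∈ Subgroup.normalizer ((T : Subgroup G) : Set G) ⊓ (Subgroup.normalizer ((T : Subgroup G) : Set G)).map (MulAut.conj u).toMonoidHom, d • (QuotientGroup.mk g : G ⧸ Subgroup.normalizer ((T : Subgroup G) : Set G)) = QuotientGroup.mk g) ↔ (QuotientGroup.mk g : G ⧸ Subgroup.normalizer ((T : Subgroup G) : Set G)) = QuotientGroup.mk 1 ∨ (QuotientGroup.mk g : G ⧸ Subgroup.normalizer ((T : Subgroup G) : Set G)) = QuotientGroup.mk u) := by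
  have h : CIT.Hyp T := ⟨hnc, hnn, hC⟩
  refine ⟨CIT.normalizer_D h hu huH, fun g => ⟨fun hfix => ?_, fun hg d hd => ?_⟩⟩
  · by_cases hgH : g ∈ Subgroup.normalizer ((T : Subgroup G) : Set G)
    · left
      rw [QuotientGroup.eq, mul_one]
      exact Subgroup.inv_mem _ hgH
    · right
      exact CIT.fix_coset h hu huH hgH hfix
  · rcases hg with hg | hg
    · rw [hg, SE.smul_mk_eq_iff]
      have e : (1 : G)⁻¹ * d * 1 = d := by group
      rw [e]; exact (Subgroup.mem_inf.mp hd).1
    · rw [hg, SE.smul_mk_eq_iff, ← mem_conj_map]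
      exact (Subgroup.mem_inf.mp hd).2

end Cfsg.Agent.S1228
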