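-- S1243: proof by helper7
import Cfsg.Statements.S1243
import Mathlib

set_option autoImplicit false
open Cfsg

namespace Cfsg.Agent.S1243

/-- Let T be a Sylow p-subgroup of the finite group G and W ≤ T a subgroup weakly closed in T. If d and g d g⁻¹ both centralize W, then g d g⁻¹ = h d h⁻¹ for some h ∈ N_G(W). -/
theorem result {G : Type*} [Group G] [Finite G] {p : ℕ} [Fact p.Prime] (T : Sylow p G) (W : Subgroup G) (hW : Cfsg.IsWeaklyClosed W (T : Subgroup G)) (d g : G) (hd : d ∈ Subgroup.centralizer (W : Set G)) (hgd : g * d * g⁻¹ ∈ Subgroup.centralizer (W : Set G)) : ∃ h ∈ Subgroup.normalizer (W : Set G), h * d * h⁻¹ = g * d * g⁻¹ := by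
  classical
  obtain ⟨hWT, hwc⟩ := hW
  set e : G := g * d * g⁻¹ with he
  set C : Subgroup G := Subgroup.centralizer ({e} : Set G) with hC
  set W' : Subgroup G := W.map (MulAut.conj g).toMonoidHom with hW'
  have hWC : W ≤ C := by
    intro w hw
    rw [hC, Subgroup.mem_centralizer_iff]
    intro y hy
    rw [Set.mem_singleton_iff] at hy
    subst hy
    exact ((Subgroup.mem_centralizer_iff.mp hgd) w hw).symm
  have hW'C : W' ≤ C := by
    rintro _ ⟨w, hw, rfl⟩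
    rw [hC, Subgroup.mem_centralizer_iff]
    intro y hy
    rw [Set.mem_singleton_iff] at hy
    subst hy
    have h1 : w * d = d * w := (Subgroup.mem_centralizer_iff.mp hd) w hw
    show g * d * g⁻¹ * (g * w * g⁻¹) = g * w * g⁻¹ * (g * d * g⁻¹)
    calc g * d * g⁻¹ * (g * w * g⁻¹) = g * (d * w) * g⁻¹ := by group
      _ = g * (w * d) * g⁻¹ := by rw [h1]
      _ = g * w * g⁻¹ * (g * d * g⁻¹) := by group
  have hWp : IsPGroup p W := T.isPGroup'.to_le hWT
  have hW'p : IsPGroup p W' := hWp.map _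
  obtain ⟨P1, hP1⟩ := (hWp.comap_of_injective C.subtype C.subtype_injective).exists_le_sylow
  obtain ⟨P2, hP2⟩ := (hW'p.comap_of_injective C.subtype C.subtype_injective).exists_le_sylow
  obtain ⟨c, hc⟩ := MulAction.exists_smul_eq C P2 P1
  obtain ⟨S, hS⟩ := (P1.isPGroup'.map C.subtype).exists_le_sylow
  obtain ⟨x, hx⟩ := MulAction.exists_smul_eq G T S
  have hmem : ∀ y, y ∈ (S : Subgroup G) → x⁻¹ * y * x ∈ (T : Subgroup G) := by
    intro y hy
    rw [← hx, Sylow.smul_def, Sylow.pointwise_smul_def, Subgroup.mem_pointwise_smul_iff_inv_smul_mem] at hy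
    simpa [MulAut.smul_def] using hy
  have hnorm : ∀ a : G, W.map (MulAut.conj a).toMonoidHom = W → a ∈ Subgroup.normalizer (W : Set G) := by
    intro a ha
    rw [Subgroup.mem_normalizer_iff]
    intro h
    constructor
    · intro hh
      rw [← ha]
      exact ⟨h, hh, rfl⟩
    · intro hh
      rw [← ha] at hh
      obtain ⟨w, hw, hwe⟩ := hh
      have h2 : a * w * a⁻¹ = a * h * a⁻¹ := hwe
      have h3 : w = h := by simpa using h2
      exact h3 ▸ hw
  have h1 : W.map (MulAut.conj x⁻¹).toMonoidHom ≤ (T : Subgroup G) := by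
    rintro _ ⟨w, hw, rfl⟩
    have hwP1 : (⟨w, hWC hw⟩ : C) ∈ (P1 : Subgroup C) := hP1 (show (⟨w, hWC hw⟩ : C) ∈ W.comap C.subtype from hw)
    have hwS : w ∈ (S : Subgroup G) := hS (Subgroup.mem_map_of_mem C.subtype hwP1)
    have h2 := hmem w hwS
    show x⁻¹ * w * x⁻¹⁻¹ ∈ (T : Subgroup G)
    rwa [inv_inv]
  have h2 : W.map (MulAut.conj (x⁻¹ * (c : G) * g)).toMonoidHom ≤ (T : Subgroup G) := by
    rintro _ ⟨w, hw, rfl⟩
    have hw' : g * w * g⁻¹ ∈ W' := ⟨w, hw, rfl⟩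
    have hwP2 : (⟨g * w * g⁻¹, hW'C hw'⟩ : C) ∈ (P2 : Subgroup C) :=
      hP2 (show (⟨g * w * g⁻¹, hW'C hw'⟩ : C) ∈ W'.comap C.subtype from hw')
    have hwP1 : c * (⟨g * w * g⁻¹, hW'C hw'⟩ : C) * c⁻¹ ∈ (P1 : Subgroup C) := by
      rw [← hc, Sylow.smul_def, Sylow.pointwise_smul_def]
      exact Subgroup.smul_mem_pointwise_smul _ _ _ hwP2
    have hwS : (c : G) * (g * w * g⁻¹) * (c : G)⁻¹ ∈ (S : Subgroup G) :=
      hS (Subgroup.mem_map_of_mem C.subtype hwP1)
    have h3 := hmem _ hwS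
    show x⁻¹ * (c : G) * g * w * (x⁻¹ * (c : G) * g)⁻¹ ∈ (T : Subgroup G)
    have h4 : x⁻¹ * (c : G) * g * w * (x⁻¹ * (c : G) * g)⁻¹ = x⁻¹ * ((c : G) * (g * w * g⁻¹) * (c : G)⁻¹) * x := by group
    rw [h4]
    exact h3
  have hx1 : x⁻¹ ∈ Subgroup.normalizer (W : Set G) := hnorm _ (hwc _ h1)
  have hx2 : x⁻¹ * (c : G) * g ∈ Subgroup.normalizer (W : Set G) := hnorm _ (hwc _ h2)
  refine ⟨(c : G) * g, ?_, ?_⟩
  · have h5 : (c : G) * g = x⁻¹⁻¹ * (x⁻¹ * (c : G) * g) := by group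
    rw [h5]
    exact Subgroup.mul_mem _ (Subgroup.inv_mem _ hx1) hx2
  · have hcC : e * (c : G) = (c : G) * e := (Subgroup.mem_centralizer_iff.mp c.2) e (Set.mem_singleton e)
    calc (c : G) * g * d * ((c : G) * g)⁻¹ = (c : G) * e * (c : G)⁻¹ := by rw [he]; group
      _ = e * (c : G) * (c : G)⁻¹ := by rw [hcC]
      _ = e := by group

end Cfsg.Agent.S1243
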