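import Cfsg.Statements.S1244
import Mathlib

set_option autoImplicit false
open Cfsg

namespace Cfsg.Agent.S1244

theorem exists_index_two_of_hom {G P : Type*} [Group G] [Group P] [Finite P] (hP : IsPGroup 2 P)
    (f : G →* P) (g : G) (hg : f g ≠ 1) : ∃ H : Subgroup G, H.index = 2 := by
  haveI : Fact (Nat.Prime 2) := ⟨Nat.prime_two⟩
  obtain ⟨m, hm⟩ := IsPGroup.iff_card.1 (hP.to_subgroup f.range)
  have hm1 : 1 ≤ m := by
    by_contra h
    have hm0 : m = 0 := by omega
    rw [hm0, pow_zero] at hm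
    have hbot : f.range = ⊥ := Subgroup.card_eq_one.1 hm
    have h1 : f g ∈ f.range := ⟨g, rfl⟩
    rw [hbot, Subgroup.mem_bot] at h1
    exact hg h1
  obtain ⟨K, hK⟩ := Sylow.exists_subgroup_card_pow_prime 2 (n := m - 1) (G := f.range)
    (by rw [hm]; exact pow_dvd_pow 2 (by omega))
  have hidx : K.index = 2 := by
    have h1 := Subgroup.card_mul_index K
    rw [hK, hm] at h1
    have h2 : 2 ^ m = 2 ^ (m - 1) * 2 := by
      rw [← pow_succ]
      congr 1
      omega
    rw [h2] at h1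
    exact Nat.eq_of_mul_eq_mul_left (by positivity) h1
  refine ⟨K.comap f.rangeRestrict, ?_⟩
  rw [Subgroup.index_comap_of_surjective K f.rangeRestrict_surjective]
  exact hidx

theorem prod_mem_iff_even {M : Type*} [CommGroup M] (K V : Subgroup M)
    (hidx : K.relIndex V = 2)
    {ι : Type*} [DecidableEq ι] (s : Finset ι) (f : ι → M) (hf : ∀ i ∈ s, f i ∈ V ∧ f i ∉ K) :
    ((∏ i ∈ s, f i) ∈ K ↔ Even s.card) := by
  have hmul : ∀ a b : M, a ∈ V → b ∈ V → (a * b ∈ K ↔ (a ∈ K ↔ b ∈ K)) := by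
    intro a b ha hb
    have h := Subgroup.mul_mem_iff_of_index_two (H := K.subgroupOf V) hidx
      (a := ⟨a, ha⟩) (b := ⟨b, hb⟩)
    simpa [Subgroup.mem_subgroupOf] using h
  induction s using Finset.induction_on with
  | empty => simp
  | insert a s ha ih =>
    have hs : ∀ i ∈ s, f i ∈ V ∧ f i ∉ K := fun i hi => hf i (Finset.mem_insert_of_mem hi)
    have hPV : (∏ i ∈ s, f i) ∈ V := Subgroup.prod_mem V (fun i hi => (hs i hi).1)
    have hfa := hf a (Finset.mem_insert_self a s)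
    have ih2 : ((∏ i ∈ s, f i) ∈ K) = Even s.card := propext (ih hs)
    rw [Finset.prod_insert ha, Finset.card_insert_of_notMem ha, hmul _ _ hfa.1 hPV, ih2,
      Nat.even_add_one]
    constructor
    · intro h he
      exact hfa.2 (h.2 he)
    · intro hne
      exact ⟨fun h => absurd h hfa.2, fun he => absurd he hne⟩

theorem pow_two_sandwich (a b j : ℕ) (h1 : 2 ^ a < 2 ^ j) (h2 : 2 ^ j ≤ 2 ^ b) (hab : b = a + 1) :
    j = b := by
  have h3 := (Nat.pow_lt_pow_iff_right (by norm_num : 1 < 2)).1 h1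
  have h4 := (Nat.pow_le_pow_iff_right (by norm_num : 1 < 2)).1 h2
  omega

theorem fixed_eq_one {G : Type*} [Group G] [Finite G] (hG : ∀ H : Subgroup G, H.index ≠ 2)
    (S : Sylow 2 G) (hS : IsMulCommutative (S : Subgroup G)) (z : G) (hz : z ∈ (S : Subgroup G))
    (hfix : ∀ n ∈ Subgroup.normalizer ((S : Subgroup G) : Set G), n * z * n⁻¹ = z) : z = 1 := by
  classical
  haveI : Fact (Nat.Prime 2) := ⟨Nat.prime_two⟩
  by_contra hz1
  open scoped IsMulCommutative in
  letI : CommGroup ↥(S : Subgroup G) := inferInstance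
  have key : ∀ (k : ℕ) (g₀ : G), g₀⁻¹ * z ^ k * g₀ ∈ (S : Subgroup G) →
      g₀⁻¹ * z ^ k * g₀ = z ^ k := by
    intro k g₀ h
    obtain ⟨n, hn, hn'⟩ := S.conj_eq_normalizer_conj_of_mem (_hP := hS) (z ^ k) g₀
      (Subgroup.pow_mem _ hz k) h
    rw [hn']
    have h1 := hfix n⁻¹ (Subgroup.inv_mem _ hn)
    rw [inv_inv] at h1
    have h2 : n⁻¹ * z ^ k * n = (n⁻¹ * z * n) ^ k := by
      have h3 := conj_pow (a := n⁻¹) (b := z) (i := k)
      rw [inv_inv] at h3
      exact h3.symm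
    rw [h2, h1]
  have htr := MonoidHom.transfer_eq_pow (MonoidHom.id ↥(S : Subgroup G)) z key
  have hne : MonoidHom.transfer (MonoidHom.id ↥(S : Subgroup G)) z ≠ 1 := by
    rw [htr]
    intro h
    have h1 : z ^ (S : Subgroup G).index = 1 := congrArg Subtype.val h
    have h2 : orderOf z ∣ (S : Subgroup G).index := orderOf_dvd_of_pow_eq_one h1
    obtain ⟨j, hj⟩ := (IsPGroup.iff_orderOf.1 S.isPGroup') ⟨z, hz⟩
    rw [Subgroup.orderOf_mk] at hj
    rcases Nat.eq_zero_or_pos j with h0 | hpos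
    · rw [h0, pow_zero] at hj
      exact hz1 (orderOf_eq_one_iff.1 hj)
    · have h3 : 2 ∣ orderOf z := by
        rw [hj]
        exact dvd_pow_self 2 (by omega)
      exact S.not_dvd_index (h3.trans h2)
  obtain ⟨H, hH⟩ := exists_index_two_of_hom S.isPGroup' _ z hne
  exact hG H hH

theorem result {G : Type*} [Group G] [Finite G] (hG : ∀ H : Subgroup G, H.index ≠ 2) (S : Sylow 2 G) (hS : IsMulCommutative (S : Subgroup G)) (r : ℕ) (hr1 : 1 ≤ r) (hSr : Cfsg.PRankLE 2 r (S : Subgroup G) ∧ ¬ Cfsg.PRankLE 2 (r - 1) (S : Subgroup G)) (R : Subgroup G) (hRS : R ≤ S) (hRr : Cfsg.PRankLE 2 (r - 1) R ∧ (r = 1 ∨ ¬ Cfsg.PRankLE 2 (r - 2) R)) (t : G) (ht : orderOf t = 2) (htS : t ∈ S) : ∃ n ∈ Subgroup.normalizer ((S : Subgroup G) : Set G), n * t * n⁻¹ ∈ R := by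
  classical
  haveI : Fact (Nat.Prime 2) := ⟨Nat.prime_two⟩
  by_contra hcon
  push Not at hcon
  open scoped IsMulCommutative in
  letI : CommGroup ↥(S : Subgroup G) := inferInstance
  have hcommS : ∀ a ∈ (S : Subgroup G), ∀ b ∈ (S : Subgroup G), a * b = b * a :=
    fun a ha b hb => setLike_mul_comm ha hb
  have ht2 : t ^ 2 = 1 := by
    rw [← ht]
    exact pow_orderOf_eq_one t
  -- the subgroups V' and R₁ of S
  obtain ⟨V', hV'⟩ : ∃ V' : Subgroup ↥(S : Subgroup G),
      V' = (powMonoidHom 2 : ↥(S : Subgroup G) →* ↥(S : Subgroup G)).ker := ⟨_, rfl⟩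
  have hV'mem : ∀ x : ↥(S : Subgroup G), x ∈ V' ↔ (x : G) ^ 2 = 1 := by
    intro x
    rw [hV', MonoidHom.mem_ker, powMonoidHom_apply]
    constructor
    · intro h
      exact congrArg Subtype.val h
    · intro h
      exact Subtype.ext h
  obtain ⟨R₁, hR₁⟩ : ∃ R₁ : Subgroup ↥(S : Subgroup G),
      R₁ = V' ⊓ R.subgroupOf (S : Subgroup G) := ⟨_, rfl⟩
  have hR₁V : R₁ ≤ V' := hR₁ ▸ inf_le_left
  have hR₁mem : ∀ x : ↥(S : Subgroup G), x ∈ R₁ ↔ (x : G) ^ 2 = 1 ∧ (x : G) ∈ R := by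
    intro x
    rw [hR₁, Subgroup.mem_inf, hV'mem, Subgroup.mem_subgroupOf]
  -- |V'| = 2 ^ r
  have hSp : IsPGroup 2 ↥(S : Subgroup G) := S.isPGroup'
  obtain ⟨j, hj⟩ := IsPGroup.iff_card.1 (hSp.to_subgroup V')
  have hVle : Nat.card V' ≤ 2 ^ r :=
    hSr.1 V' inferInstance (fun a ha => Subtype.ext ((hV'mem a).1 ha))
  have hVgt : 2 ^ (r - 1) < Nat.card V' := by
    have h := hSr.2
    unfold Cfsg.PRankLE at h
    push Not at h
    obtain ⟨A, -, hA2, hAc⟩ := h
    have hAV : A ≤ V' := by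
      intro a ha
      rw [hV'mem]
      exact congrArg Subtype.val (hA2 a ha)
    exact lt_of_lt_of_le hAc (Subgroup.card_le_of_le hAV)
  have hjr : j = r := by
    rw [hj] at hVle hVgt
    exact pow_two_sandwich (r - 1) r j hVgt hVle (by omega)
  -- |R₁| = 2 ^ (r - 1)
  obtain ⟨i, hi⟩ := IsPGroup.iff_card.1 (hSp.to_subgroup R₁)
  have hRle : Nat.card R₁ ≤ 2 ^ (r - 1) := by
    obtain ⟨A, hA⟩ : ∃ A : Subgroup ↥R, A = R₁.comap (Subgroup.inclusion hRS) := ⟨_, rfl⟩
    have hAmem : ∀ x : ↥R, x ∈ A ↔ (x : G) ^ 2 = 1 := by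
      intro x
      rw [hA, Subgroup.mem_comap, hR₁mem]
      constructor
      · intro h
        exact h.1
      · intro h
        exact ⟨h, x.2⟩
    haveI : IsMulCommutative ↥A :=
      ⟨⟨fun a b => Subtype.ext (Subtype.ext (hcommS _ (hRS a.1.2) _ (hRS b.1.2)))⟩⟩
    have h1 : Nat.card A ≤ 2 ^ (r - 1) :=
      hRr.1 A inferInstance (fun a ha => Subtype.ext ((hAmem a).1 ha))
    have h2 : Nat.card R₁ ≤ Nat.card A := by
      refine Nat.card_le_card_of_injective
        (fun y : R₁ => (⟨⟨((y : ↥(S : Subgroup G)) : G), ((hR₁mem y).1 y.2).2⟩,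
          (hAmem _).2 ((hR₁mem y).1 y.2).1⟩ : ↥A)) ?_
      intro y y' hyy
      have h3 := congrArg (fun x : ↥A => ((x : ↥R) : G)) hyy
      exact Subtype.ext (Subtype.ext h3)
    exact h2.trans h1
  have hir : i = r - 1 := by
    rcases hRr.2 with hr | hnot
    · have h1 : Nat.card R₁ = 1 := by
        have hpos : 0 < Nat.card R₁ := Nat.card_pos
        rw [hr] at hRle
        simp at hRle
        omega
      rw [hi] at h1
      have h2 : i = 0 := by
        by_contra hne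
        have h3 : 2 ^ 1 ≤ 2 ^ i := Nat.pow_le_pow_right (by norm_num) (by omega)
        omega
      omega
    · unfold Cfsg.PRankLE at hnot
      push Not at hnot
      obtain ⟨A, -, hA2, hAc⟩ := hnot
      have h2 : Nat.card A ≤ Nat.card R₁ := by
        refine Nat.card_le_card_of_injective
          (fun x : A => (⟨Subgroup.inclusion hRS (x : ↥R),
            (hR₁mem _).2 ⟨congrArg Subtype.val (hA2 x x.2), (x : ↥R).2⟩⟩ : ↥R₁)) ?_
        intro x x' hxx
        have h3 := congrArg (fun y : ↥R₁ => ((y : ↥(S : Subgroup G)) : G)) hxx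
        exact Subtype.ext (Subtype.ext h3)
      have hgt : 2 ^ (r - 2) < Nat.card R₁ := lt_of_lt_of_le hAc h2
      rw [hi] at hgt hRle
      rcases Nat.lt_or_ge r 2 with hr2 | hr2
      · have hr1' : r = 1 := by omega
        rw [hr1'] at hgt hRle
        have h5 := (Nat.pow_lt_pow_iff_right (by norm_num : 1 < 2)).1 hgt
        have h6 := (Nat.pow_le_pow_iff_right (by norm_num : 1 < 2)).1 hRle
        omega
      · exact pow_two_sandwich (r - 2) (r - 1) i hgt hRle (by omega)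
  have hidx : R₁.relIndex V' = 2 := by
    have h1 := Subgroup.relIndex_mul_relIndex (⊥ : Subgroup ↥(S : Subgroup G)) R₁ V' bot_le hR₁V
    rw [Subgroup.relIndex_bot_left, Subgroup.relIndex_bot_left, hi, hj, hir, hjr] at h1
    have h2 : 2 ^ r = 2 ^ (r - 1) * 2 := by
      rw [← pow_succ]
      congr 1
      omega
    rw [h2] at h1
    exact Nat.eq_of_mul_eq_mul_left (by positivity) h1
  -- the normalizer and the coset space
  obtain ⟨N, hN⟩ : ∃ N : Subgroup G, N = Subgroup.normalizer ((S : Subgroup G) : Set G) :=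
    ⟨_, rfl⟩
  have hconjS : ∀ n : ↥N, (n : G) * t * (n : G)⁻¹ ∈ (S : Subgroup G) := by
    intro n
    have hn : (n : G) ∈ Subgroup.normalizer ((S : Subgroup G) : Set G) := hN ▸ n.2
    exact (Subgroup.mem_normalizer_iff.1 hn t).1 htS
  obtain ⟨F, hF⟩ : ∃ F : (↥N ⧸ (S : Subgroup G).subgroupOf N) → ↥(S : Subgroup G),
      ∀ q, ((F q : ↥(S : Subgroup G)) : G) = (q.out : G) * t * (q.out : G)⁻¹ :=
    ⟨fun q => ⟨(q.out : G) * t * (q.out : G)⁻¹, hconjS q.out⟩, fun q => rfl⟩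
  haveI : Fintype (↥N ⧸ (S : Subgroup G).subgroupOf N) := Fintype.ofFinite _
  have hFV : ∀ q, F q ∈ V' ∧ F q ∉ R₁ := by
    intro q
    constructor
    · rw [hV'mem, hF, conj_pow, ht2, mul_one, mul_inv_cancel]
    · rw [hR₁mem, hF]
      intro h
      exact hcon (q.out : G) (hN ▸ (q.out).2) h.2
  have hodd : ¬ Even (Finset.univ : Finset (↥N ⧸ (S : Subgroup G).subgroupOf N)).card := by
    rw [Finset.card_univ, ← Nat.card_eq_fintype_card]
    intro heven
    have h1 : Nat.card (↥N ⧸ (S : Subgroup G).subgroupOf N) = (S : Subgroup G).relIndex N := rfl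
    rw [h1] at heven
    have h2 : (S : Subgroup G).relIndex N ∣ (S : Subgroup G).index :=
      Subgroup.relIndex_dvd_index_of_le (hN ▸ Subgroup.le_normalizer)
    exact S.not_dvd_index ((even_iff_two_dvd.1 heven).trans h2)
  have hW := prod_mem_iff_even R₁ V' hidx Finset.univ F (fun q _ => hFV q)
  have hWnot : (∏ q, F q) ∉ R₁ := fun h => hodd (hW.1 h)
  -- but the product is fixed by the normalizer
  have hWS : ((∏ q, F q : ↥(S : Subgroup G)) : G) ∈ (S : Subgroup G) := (∏ q, F q).2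
  have hWfix : ∀ m ∈ Subgroup.normalizer ((S : Subgroup G) : Set G),
      m * ((∏ q, F q : ↥(S : Subgroup G)) : G) * m⁻¹ = ((∏ q, F q : ↥(S : Subgroup G)) : G) := by
    intro m hm
    obtain ⟨c, hc⟩ : ∃ c : MulAut ↥(S : Subgroup G), ∀ x : ↥(S : Subgroup G),
        ((c x : ↥(S : Subgroup G)) : G) = m * (x : G) * m⁻¹ :=
      ⟨(S : Subgroup G).normalizerMonoidHom ⟨m, hm⟩, fun x => rfl⟩
    rw [← hc, map_prod]
    congr 1
    obtain ⟨m', hm'⟩ : ∃ m' : ↥N, (m' : G) = m := ⟨⟨m, hN ▸ hm⟩, rfl⟩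
    have hstep : ∀ q, c (F q) = F (m' • q) := by
      intro q
      apply Subtype.ext
      rw [hc, hF, hF]
      have hq : m' • q = (QuotientGroup.mk (m' * q.out) : ↥N ⧸ (S : Subgroup G).subgroupOf N) := by
        conv_lhs => rw [← QuotientGroup.out_eq' q]
        rfl
      obtain ⟨h, hh⟩ := QuotientGroup.mk_out_eq_mul ((S : Subgroup G).subgroupOf N) (m' * q.out)
      rw [hq, hh]
      have hhS : ((h : ↥N) : G) ∈ (S : Subgroup G) := Subgroup.mem_subgroupOf.1 h.2
      have hcomm := hcommS _ hhS t htS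
      simp only [Subgroup.coe_mul, hm']
      calc m * ((q.out : G) * t * (q.out : G)⁻¹) * m⁻¹
          = m * (q.out : G) * (t * ((h : ↥N) : G) * ((h : ↥N) : G)⁻¹) * (q.out : G)⁻¹ * m⁻¹ := by
            group
        _ = m * (q.out : G) * (((h : ↥N) : G) * t * ((h : ↥N) : G)⁻¹) * (q.out : G)⁻¹ * m⁻¹ := by
            rw [hcomm]
        _ = m * (q.out : G) * ((h : ↥N) : G) * t * (m * (q.out : G) * ((h : ↥N) : G))⁻¹ := by
            group
    simp_rw [hstep]
    exact Fintype.prod_equiv (MulAction.toPerm m') (fun q => F (m' • q)) F (fun q => rfl)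
  have hW1 := fixed_eq_one hG S hS _ hWS hWfix
  apply hWnot
  have hW1' : (∏ q, F q : ↥(S : Subgroup G)) = 1 := Subtype.ext hW1
  rw [hW1']
  exact R₁.one_mem

end Cfsg.Agent.S1244
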