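import Mathlib
import Cfsg.Statements.S1248
import Cfsg.Agent.Helper6.SU3Syl

set_option autoImplicit false
open Cfsg

namespace Cfsg.Agent.S1248

/-- Let F be a field with 16 elements and S a Sylow 2-subgroup of PSU(3) over F (the unitary group U₃(4)). Then |S| = 64; the centre Z(S) is a Klein four-group and coincides with the subgroup generated by the involutions of S and with the derived subgroup; and every element of S ⧸ Z(S) squares to the identity, S ⧸ Z(S) having order 16. -/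
theorem result {F : Type*} [Field F] [Fintype F] (hF : Fintype.card F = 16) (S : Sylow 2 (Cfsg.PSU 3 F 4)) : Nat.card S = 64 ∧ IsKleinFour (Subgroup.center (S : Subgroup (Cfsg.PSU 3 F 4))) ∧ Subgroup.center (S : Subgroup (Cfsg.PSU 3 F 4)) = Subgroup.closure {x : (S : Subgroup (Cfsg.PSU 3 F 4)) | orderOf x = 2} ∧ Subgroup.center (S : Subgroup (Cfsg.PSU 3 F 4)) = commutator (S : Subgroup (Cfsg.PSU 3 F 4)) ∧ Nat.card ((S : Subgroup (Cfsg.PSU 3 F 4)) ⧸ Subgroup.center (S : Subgroup (Cfsg.PSU 3 F 4))) = 16 ∧ ∀ x : (S : Subgroup (Cfsg.PSU 3 F 4)) ⧸ Subgroup.center (S : Subgroup (Cfsg.PSU 3 F 4)), x ^ 2 = 1 := by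
  classical
  obtain ⟨σ, hσ, h2, hx, hs, hsqrt, hK, ⟨e⟩⟩ :=
    Cfsg.Agent.Helper6.SU3Syl.sylow_equiv 2 4 (by norm_num) (by norm_num)
      (hF.trans (by norm_num)) S
  have hcard : Nat.card (Cfsg.Agent.Helper6.SuzU.UG σ hσ) = 64 := by
    rw [Cfsg.Agent.Helper6.SuzU.UG.card_eq h2 hs, hK, Nat.card_eq_fintype_card, hF]
  obtain ⟨hk4, hcl, hcomm, hsq⟩ := Cfsg.Agent.Helper6.SuzU.klein_facts e h2 hx hs hK
  have hS : Nat.card (S : Subgroup (Cfsg.PSU 3 F 4)) = 64 := by
    rw [← hcard]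
    exact Nat.card_congr e.toEquiv
  refine ⟨hS, hk4, hcl, hcomm, ?_, hsq⟩
  have h1 := Subgroup.card_eq_card_quotient_mul_card_subgroup
    (Subgroup.center (S : Subgroup (Cfsg.PSU 3 F 4)))
  rw [hS, Cfsg.Agent.Helper6.SuzU.card_center_of_equiv e h2 hx hs, hK] at h1
  omega

end Cfsg.Agent.S1248
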