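import Cfsg.Statements.S1253
import Mathlib
import Cfsg.Agent.Helper29.Isolated

set_option autoImplicit false
open Cfsg

namespace Cfsg.Agent.S1253

theorem result {G : Type*} [Group G] [Finite G] (z : G) (hz : Cfsg.IsIsolatedInvolution z) {p : ℕ} [Fact p.Prime] (hp : p ≠ 2) (P : Sylow p G) (hzP : z ∈ Subgroup.normalizer ((P : Subgroup G) : Set G)) : ¬ p ∣ ((P : Subgroup G) ⊓ Subgroup.centralizer ({z} : Set G)).relIndex (Subgroup.centralizer ({z} : Set G)) ∧ ((P : Subgroup G) ⊓ Subgroup.centralizer ({z} : Set G)).relIndex (P : Subgroup G) = Nat.card {x : G // x ∈ P ∧ z * x * z⁻¹ = x⁻¹} := by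
  obtain ⟨hzz, hzi, hz1⟩ := Cfsg.Agent.Helper29.Isolated.inv_of_order_two hz.1
  refine ⟨Cfsg.Agent.Helper29.Isolated.part1 hp z hz P hzP, ?_⟩
  have h1 := Cfsg.Agent.Helper16.card_mul_relIndex_of_le
    (inf_le_left : (P : Subgroup G) ⊓ Subgroup.centralizer ({z} : Set G) ≤ (P : Subgroup G))
  have h2 := Cfsg.Agent.Helper29.Isolated.card_eq hp z hzz P hzP
  exact Nat.eq_of_mul_eq_mul_left Nat.card_pos (h1.trans h2.symm)

end Cfsg.Agent.S1253
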