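-- S1254: dihedral Sylow 2-subgroup: normal 2-complement iff four-group normalizers condition.
import Mathlib
import Cfsg.Statements.S1254
import Cfsg.Agent.Helper9.Dihedral
import Cfsg.Agent.Helper1.Frobenius
import Cfsg.Agent.Helper14.Comm

set_option autoImplicit false
open Cfsg

namespace Cfsg.Agent.S1254

/-- Let X be a finite group whose Sylow 2-subgroup S is dihedral (of order at least 4). Then X has a normal 2-complement if and only if, for every Klein four-subgroup U ≤ S, the normalizer N_X(U) is generated by C_X(U) and N_S(U). -/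
theorem result {X : Type*} [Group X] [Finite X] (S : Sylow 2 X) (m : ℕ) (hm : 2 ≤ m) (eS : (S : Subgroup X) ≃* DihedralGroup m) : Cfsg.HasNormalPComplement 2 X ↔ ∀ U : Subgroup X, U ≤ S → IsKleinFour U → Subgroup.normalizer (U : Set X) = Subgroup.centralizer (U : Set X) ⊔ ((S : Subgroup X) ⊓ Subgroup.normalizer (U : Set X)) := by
  haveI : Fact (Nat.Prime 2) := ⟨Nat.prime_two⟩
  constructor
  · intro h U hUS _
    obtain ⟨N, hN, hc, -⟩ := Cfsg.Agent.Helper1.compl_of_npc S h
    apply le_antisymm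
    · intro g hg
      obtain ⟨⟨⟨n, hn⟩, ⟨s, hs⟩⟩, hgeq⟩ := hc.2 g
      have hn' : n ∈ N := hn
      have hs' : s ∈ (S : Subgroup X) := hs
      have hgeq' : n * s = g := hgeq
      have hgU : ∀ u ∈ U, g * u * g⁻¹ ∈ U :=
        fun u hu => (Subgroup.mem_normalizer_iff.1 hg u).1 hu
      have key : ∀ u ∈ U, n * (s * u * s⁻¹) * n⁻¹ = s * u * s⁻¹ := by
        intro u hu
        have h1 : n * (s * u * s⁻¹) * n⁻¹ ∈ (S : Subgroup X) := by
          have e1 : n * (s * u * s⁻¹) * n⁻¹ = g * u * g⁻¹ := by rw [← hgeq']; group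
          rw [e1]; exact hUS (hgU u hu)
        have hv : s * u * s⁻¹ ∈ (S : Subgroup X) :=
          Subgroup.mul_mem _ (Subgroup.mul_mem _ hs' (hUS hu)) (Subgroup.inv_mem _ hs')
        have h2 : n * (s * u * s⁻¹) * n⁻¹ * (s * u * s⁻¹)⁻¹ ∈ N ⊓ (S : Subgroup X) := by
          refine Subgroup.mem_inf.2 ⟨?_, Subgroup.mul_mem _ h1 (Subgroup.inv_mem _ hv)⟩
          have e2 : n * (s * u * s⁻¹) * n⁻¹ * (s * u * s⁻¹)⁻¹ =
              n * ((s * u * s⁻¹) * n⁻¹ * (s * u * s⁻¹)⁻¹) := by group
          rw [e2]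
          exact N.mul_mem hn' (hN.conj_mem _ (N.inv_mem hn') _)
        have hdisj : N ⊓ (S : Subgroup X) = ⊥ := hc.disjoint.eq_bot
        rw [hdisj, Subgroup.mem_bot] at h2
        exact mul_inv_eq_one.1 h2
      have hsN : s ∈ Subgroup.normalizer (U : Set X) := by
        apply Cfsg.Agent.Helper9.mem_normalizer_of_conj_le U s
        intro u hu
        have e1 : s * u * s⁻¹ = g * u * g⁻¹ := by
          rw [← key u hu, ← hgeq']; group
        rw [e1]; exact hgU u hu
      have hnC : n ∈ Subgroup.centralizer (U : Set X) := by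
        rw [Subgroup.mem_centralizer_iff]
        intro u' hu'
        have hu'' : u' ∈ U := hu'
        have hu : s⁻¹ * u' * s ∈ U := (Subgroup.mem_normalizer_iff''.1 hsN u').1 hu''
        have h1 := key _ hu
        have h2 : s * (s⁻¹ * u' * s) * s⁻¹ = u' := by group
        rw [h2] at h1
        exact (mul_inv_eq_iff_eq_mul.1 h1).symm
      rw [← hgeq']
      exact Subgroup.mul_mem_sup hnC (Subgroup.mem_inf.2 ⟨hs', hsN⟩)
    · exact sup_le (Subgroup.centralizer_le_normalizer _) inf_le_right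
  · intro hyp
    apply Cfsg.Agent.Helper1.npc_of_local
    apply Cfsg.Agent.Helper1.localP_of_sylow S
    intro Q hQS g hg hgo
    have hS2 : IsPGroup 2 (S : Subgroup X) := S.isPGroup'
    obtain ⟨a, haS, hinv, hmul⟩ :=
      Cfsg.Agent.Helper9.dihlike_of_equiv (S : Subgroup X) m (by omega) eS
    have hxQ : ∀ q ∈ Q, g * q * g⁻¹ ∈ Q :=
      fun q hq => (Subgroup.mem_normalizer_iff.1 hg q).1 hq
    have hx : Odd (orderOf g) := Nat.coprime_two_right.1 hgo
    suffices hcomm : ∀ q ∈ Q, g * q = q * g by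
      rw [Subgroup.mem_centralizer_iff]
      intro q hq
      exact (hcomm q hq).symm
    by_cases hQ : Q ≤ Subgroup.zpowers a ∨ ∃ q ∈ Q, q * q ≠ 1
    · exact Cfsg.Agent.Helper9.dih_centralizes _ hS2 a hinv hmul Q hQS hQ g hxQ hx
    have hQ2 : ∀ q ∈ Q, q * q = 1 := by
      intro q hq
      by_contra hcon
      exact hQ (Or.inr ⟨q, hq, hcon⟩)
    have hcard4 : Nat.card Q ≤ 4 := Cfsg.Agent.Helper9.dih_exp_two_card_le _ a hmul Q hQS hQ2
    obtain ⟨k, hk⟩ := IsPGroup.iff_card.1 (hS2.to_le hQS)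
    by_cases hk2 : Nat.card Q ≤ 2
    · exact Cfsg.Agent.Helper9.centralizes_of_card_le_two Q hk2 g hxQ
    have hcardeq : Nat.card Q = 4 := by
      have hk_le : k ≤ 2 := by
        by_contra hcon
        push Not at hcon
        have h8 : 2 ^ 3 ≤ 2 ^ k := Nat.pow_le_pow_right (by norm_num) hcon
        rw [hk] at hcard4
        omega
      have hk_ge : 2 ≤ k := by
        by_contra hcon
        push Not at hcon
        have h2 : 2 ^ k ≤ 2 ^ 1 := Nat.pow_le_pow_right (by norm_num) (by omega)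
        rw [hk] at hk2
        omega
      have hk2' : k = 2 := le_antisymm hk_le hk_ge
      rw [hk, hk2']; norm_num
    have hKF : IsKleinFour ↥Q := by
      refine ⟨hcardeq, ?_⟩
      have hdvd : Monoid.exponent ↥Q ∣ 2 := by
        apply Monoid.exponent_dvd_of_forall_pow_eq_one
        intro q
        apply Subtype.ext
        rw [Subgroup.coe_pow, pow_two]
        exact hQ2 q q.2
      rcases (Nat.dvd_prime Nat.prime_two).1 hdvd with h1 | h2
      · exfalso
        rw [Monoid.exp_eq_one_iff] at h1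
        have h3 := Finite.card_le_one_iff_subsingleton.2 h1
        omega
      · exact h2
    have hgmem : g ∈ Subgroup.centralizer (Q : Set X) ⊔
        ((S : Subgroup X) ⊓ Subgroup.normalizer (Q : Set X)) := by
      rw [← hyp Q hQS hKF]; exact hg
    have hnorm : (S : Subgroup X) ⊓ Subgroup.normalizer (Q : Set X) ≤
        Subgroup.normalizer ((Subgroup.centralizer (Q : Set X) : Subgroup X) : Set X) := by
      intro s hs
      have hsN := (Subgroup.mem_inf.1 hs).2
      apply Cfsg.Agent.Helper9.mem_normalizer_of_conj_le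
      intro c hc
      rw [Subgroup.mem_centralizer_iff] at hc ⊢
      intro q hq
      have hq' : s⁻¹ * q * s ∈ Q := (Subgroup.mem_normalizer_iff''.1 hsN q).1 hq
      have h1 := hc _ hq'
      have e1 : q * (s * c * s⁻¹) = s * ((s⁻¹ * q * s) * c) * s⁻¹ := by group
      have e2 : s * c * s⁻¹ * q = s * (c * (s⁻¹ * q * s)) * s⁻¹ := by group
      rw [e1, e2, h1]
    obtain ⟨c, hc, s, hs, hgcs⟩ :=
      Cfsg.Agent.Helper14.exists_mul_of_mem_sup_normalizer _ _ hnorm hgmem
    have hsS : s ∈ (S : Subgroup X) := (Subgroup.mem_inf.1 hs).1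
    have hsN : s ∈ Subgroup.normalizer (Q : Set X) := (Subgroup.mem_inf.1 hs).2
    have hsQ : ∀ q ∈ Q, s * q * s⁻¹ ∈ Q :=
      fun q hq => (Subgroup.mem_normalizer_iff.1 hsN q).1 hq
    rw [Subgroup.mem_centralizer_iff] at hc
    have hgs : ∀ q ∈ Q, g * q * g⁻¹ = s * q * s⁻¹ := by
      intro q hq
      have h1 := hc _ (hsQ q hq)
      rw [hgcs]
      have e1 : c * s * q * (c * s)⁻¹ = (c * (s * q * s⁻¹)) * c⁻¹ := by group
      rw [e1, ← h1, mul_inv_cancel_right]
    have hiter : ∀ k : ℕ, ∀ q ∈ Q, g ^ k * q * (g ^ k)⁻¹ = s ^ k * q * (s ^ k)⁻¹ := by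
      intro k
      induction k with
      | zero => intro q _; simp
      | succ k ih =>
        intro q hq
        have e1 : g ^ (k + 1) * q * (g ^ (k + 1))⁻¹ = g ^ k * (g * q * g⁻¹) * (g ^ k)⁻¹ := by
          rw [pow_succ, mul_inv_rev]; simp only [mul_assoc]
        have e2 : s ^ (k + 1) * q * (s ^ (k + 1))⁻¹ = s ^ k * (s * q * s⁻¹) * (s ^ k)⁻¹ := by
          rw [pow_succ, mul_inv_rev]; simp only [mul_assoc]
        rw [e1, e2, hgs q hq, ih _ (hsQ q hq)]
    have hsk : ∀ q ∈ Q, s ^ orderOf g * q = q * s ^ orderOf g := by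
      intro q hq
      have h1 := hiter (orderOf g) q hq
      rw [pow_orderOf_eq_one, one_mul, inv_one, mul_one] at h1
      exact mul_inv_eq_iff_eq_mul.1 h1.symm
    obtain ⟨f, hf⟩ := Cfsg.Agent.Helper9.exists_orderOf_eq_two_pow _ hS2 s hsS
    obtain ⟨j, hj⟩ := exists_pow_eq_self_of_coprime (x := s) (n := orderOf g)
      (by rw [hf]; exact Nat.Coprime.pow_right f hgo)
    intro q hq
    have h1 : Commute (s ^ orderOf g) q := hsk q hq
    have h2 := h1.pow_left j
    rw [hj] at h2
    have h3 := hgs q hq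
    rw [show s * q * s⁻¹ = q from by rw [h2.eq, mul_inv_cancel_right]] at h3
    exact mul_inv_eq_iff_eq_mul.1 h3

end Cfsg.Agent.S1254
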