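-- S1258: proof by helper7
import Cfsg.Statements.S1258
import Mathlib
import Cfsg.Agent.Helper7.Components

set_option autoImplicit false
open Cfsg
open scoped commutatorElement

namespace Cfsg.Agent.S1258

/-- If the central quotient of a finite group X is non-abelian simple, then X = X' Z(X) and the commutator subgroup X' is quasisimple. -/
theorem result {X : Type*} [Group X] [Finite X] (hs : IsSimpleGroup (X ⧸ Subgroup.center X)) (hna : ¬ IsMulCommutative (X ⧸ Subgroup.center X)) : commutator X ⊔ Subgroup.center X = ⊤ ∧ Cfsg.IsQuasisimple ↥(commutator X) := by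
  classical
  have hDn : (commutator X).Normal := inferInstance
  have hsup : commutator X ⊔ Subgroup.center X = ⊤ := by
    have h0 := (Subgroup.Normal.map hDn (QuotientGroup.mk' (Subgroup.center X))
      (QuotientGroup.mk'_surjective _)).eq_bot_or_eq_top
    rcases h0 with h | h
    · exfalso
      rw [Subgroup.map_eq_bot_iff, QuotientGroup.ker_mk'] at h
      apply hna
      apply IsMulCommutative.of_comm
      intro a b
      induction a using QuotientGroup.induction_on with
      | H a =>
        induction b using QuotientGroup.induction_on with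
        | H b =>
          show ((a * b : X) : X ⧸ Subgroup.center X) = ((b * a : X) : X ⧸ Subgroup.center X)
          apply QuotientGroup.eq.mpr
          have h5 : (a * b)⁻¹ * (b * a) = ⁅b⁻¹, a⁻¹⁆ := by rw [commutatorElement_def]; group
          rw [h5]
          apply h
          rw [commutator_def]
          exact Subgroup.commutator_mem_commutator (Subgroup.mem_top _) (Subgroup.mem_top _)
    · have h1 := congrArg (Subgroup.comap (QuotientGroup.mk' (Subgroup.center X))) h
      rw [Subgroup.comap_map_eq, QuotientGroup.ker_mk', Subgroup.comap_top] at h1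
      exact h1
  have hperf : ⁅commutator X, commutator X⁆ = commutator X := by
    apply le_antisymm (Subgroup.commutator_le_left _ _)
    conv_lhs => rw [commutator_def, ← hsup]
    rw [Subgroup.commutator_le]
    intro a ha b hb
    obtain ⟨d1, hd1, z1, hz1, rfl⟩ := Subgroup.mem_sup_of_normal_right.mp ha
    obtain ⟨d2, hd2, z2, hz2, rfl⟩ := Subgroup.mem_sup_of_normal_right.mp hb
    rw [Cfsg.Agent.Helper7.commutatorElement_mul_center_left _ _ _ hz1,
      Cfsg.Agent.Helper7.commutatorElement_mul_center_right _ _ _ hz2]
    exact Subgroup.commutator_mem_commutator hd1 hd2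
  refine ⟨hsup, Subgroup.isPerfect_iff.mpr hperf, ?_⟩
  let ψ : ↥(commutator X) →* X ⧸ Subgroup.center X :=
    (QuotientGroup.mk' (Subgroup.center X)).comp (commutator X).subtype
  have hψ : Function.Surjective ψ := by
    intro q
    obtain ⟨x, rfl⟩ := QuotientGroup.mk'_surjective _ q
    have hx : x ∈ commutator X ⊔ Subgroup.center X := hsup ▸ Subgroup.mem_top x
    obtain ⟨d, hd, z, hz, rfl⟩ := Subgroup.mem_sup_of_normal_right.mp hx
    refine ⟨⟨d, hd⟩, ?_⟩
    show QuotientGroup.mk' (Subgroup.center X) d = QuotientGroup.mk' (Subgroup.center X) (d * z)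
    have hz1 : QuotientGroup.mk' (Subgroup.center X) z = 1 := (QuotientGroup.eq_one_iff z).mpr hz
    rw [map_mul, hz1, mul_one]
  have hker : ψ.ker = Subgroup.center ↥(commutator X) := by
    ext ⟨d, hd⟩
    rw [MonoidHom.mem_ker, Subgroup.mem_center_iff]
    constructor
    · intro h
      have hdZ : d ∈ Subgroup.center X := (QuotientGroup.eq_one_iff d).mp h
      intro g
      exact Subtype.ext ((Subgroup.mem_center_iff.mp hdZ) g)
    · intro h
      apply (QuotientGroup.eq_one_iff d).mpr
      rw [Subgroup.mem_center_iff]
      intro x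
      have hx : x ∈ commutator X ⊔ Subgroup.center X := hsup ▸ Subgroup.mem_top x
      obtain ⟨d', hd', z, hz, rfl⟩ := Subgroup.mem_sup_of_normal_right.mp hx
      have h1 : d' * d = d * d' := congrArg Subtype.val (h ⟨d', hd'⟩)
      have h2 : z * d = d * z := ((Subgroup.mem_center_iff.mp hz) d).symm
      calc d' * z * d = d' * (z * d) := by group
        _ = d' * (d * z) := by rw [h2]
        _ = (d' * d) * z := by group
        _ = d * d' * z := by rw [h1]
        _ = d * (d' * z) := by group
  have e1 : ↥(commutator X) ⧸ ψ.ker ≃* X ⧸ Subgroup.center X :=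
    QuotientGroup.quotientKerEquivOfSurjective ψ hψ
  have e2 : ↥(commutator X) ⧸ Subgroup.center ↥(commutator X) ≃* ↥(commutator X) ⧸ ψ.ker :=
    QuotientGroup.quotientMulEquivOfEq hker.symm
  exact (e2.trans e1).isSimpleGroup_congr.mpr hs

end Cfsg.Agent.S1258
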