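-- S1263: proof by helper7
import Cfsg.Statements.S1263
import Mathlib
import Cfsg.Agent.Helper7.Components

set_option autoImplicit false
open Cfsg

namespace Cfsg.Agent.S1263

/-- For a finite group G, Z(E(G)) is the subgroup generated by the centres Z(L) of the components L of G (all viewed as subgroups of G). -/
theorem result {G : Type*} [Group G] [Finite G] : (Subgroup.center ↥(Cfsg.layer G)).map (Cfsg.layer G).subtype = ⨆ L : {K : Subgroup G // Cfsg.IsComponent K}, (Subgroup.center ↥(L : Subgroup G)).map (L : Subgroup G).subtype := by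
  simp only [Cfsg.Agent.Helper7.map_center_subtype]
  have hcomm : ∀ L K : Subgroup G, Cfsg.IsComponent L → Cfsg.IsComponent K → L ≠ K →
      L ≤ Subgroup.centralizer (K : Set G) := fun L K hL hK hne =>
    (Subgroup.commutator_eq_bot_iff_le_centralizer).mp
      (Cfsg.Agent.Helper7.components_commute hL hK hne)
  apply le_antisymm
  · have key : ∀ S : Set (Subgroup G), S.Finite → (∀ L ∈ S, Cfsg.IsComponent L) →
        ∀ z ∈ sSup S, (∀ L ∈ S, z ∈ Subgroup.centralizer (L : Set G)) →
          z ∈ ⨆ L ∈ S, (L ⊓ Subgroup.centralizer (L : Set G)) := by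
      intro S hfin
      induction S, hfin using Set.Finite.induction_on with
      | empty =>
        intro _ z hz _
        rw [sSup_empty, Subgroup.mem_bot] at hz
        rw [hz]; exact Subgroup.one_mem _
      | @insert L T hLT _ ih =>
        intro hS z hz hc
        rw [sSup_insert] at hz
        have hLcomp := hS L (Set.mem_insert L T)
        have hT : ∀ K ∈ T, Cfsg.IsComponent K := fun K hK => hS K (Set.mem_insert_of_mem L hK)
        have hLT' : sSup T ≤ Subgroup.centralizer (L : Set G) := by
          apply sSup_le
          intro K hK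
          exact hcomm K L (hT K hK) hLcomp (by rintro rfl; exact hLT hK)
        have hbot : ⁅L, sSup T⁆ = ⊥ := by
          rw [Subgroup.commutator_comm, Subgroup.commutator_eq_bot_iff_le_centralizer]
          exact hLT'
        obtain ⟨l, hl, c, hc', rfl⟩ := Cfsg.Agent.Helper7.mem_sup_of_commutator_eq_bot hbot hz
        have hcL : c ∈ Subgroup.centralizer (L : Set G) := hLT' hc'
        have hzL := hc L (Set.mem_insert L T)
        have hlL : l ∈ Subgroup.centralizer (L : Set G) := by
          have h5 : l = (l * c) * c⁻¹ := by group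
          rw [h5]; exact Subgroup.mul_mem _ hzL (Subgroup.inv_mem _ hcL)
        have hlK : ∀ K ∈ T, l ∈ Subgroup.centralizer (K : Set G) := fun K hK =>
          hcomm L K hLcomp (hT K hK) (by rintro rfl; exact hLT hK) hl
        have hcK : ∀ K ∈ T, c ∈ Subgroup.centralizer (K : Set G) := by
          intro K hK
          have h5 : c = l⁻¹ * (l * c) := by group
          rw [h5]
          exact Subgroup.mul_mem _ (Subgroup.inv_mem _ (hlK K hK)) (hc K (Set.mem_insert_of_mem L hK))
        have hcmem := ih hT c hc' hcK
        rw [iSup_insert]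
        exact Subgroup.mul_mem _ (Subgroup.mem_sup_left ⟨hl, hlL⟩) (Subgroup.mem_sup_right hcmem)
    intro z hz
    rw [Subgroup.mem_inf] at hz
    have h1 := key {K | Cfsg.IsComponent K} (Set.toFinite _) (fun L hL => hL) z hz.1
      (fun L hL => Subgroup.centralizer_le (SetLike.coe_subset_coe.mpr (Cfsg.Agent.Helper7.le_layer hL)) hz.2)
    have h2 : (⨆ L ∈ {K : Subgroup G | Cfsg.IsComponent K}, (L ⊓ Subgroup.centralizer (L : Set G))) ≤
        ⨆ L : {K : Subgroup G // Cfsg.IsComponent K}, (L : Subgroup G) ⊓ Subgroup.centralizer ((L : Subgroup G) : Set G) := by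
      refine iSup₂_le (fun L hL => ?_)
      exact le_iSup (fun L : {K : Subgroup G // Cfsg.IsComponent K} =>
        (L : Subgroup G) ⊓ Subgroup.centralizer ((L : Subgroup G) : Set G)) ⟨L, hL⟩
    exact h2 h1
  · apply iSup_le
    rintro ⟨L, hL⟩
    refine le_inf (inf_le_left.trans (Cfsg.Agent.Helper7.le_layer hL)) ?_
    have h2 : Cfsg.layer G ≤ Subgroup.centralizer ((L ⊓ Subgroup.centralizer (L : Set G) : Subgroup G) : Set G) := by
      apply sSup_le
      intro K hK
      by_cases hKL : K = L
      · subst hKL
        intro k hk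
        rw [Subgroup.mem_centralizer_iff]
        intro z hz'
        have hz := (Subgroup.mem_inf.mp hz').2
        exact ((Subgroup.mem_centralizer_iff.mp hz) k hk).symm
      · exact (hcomm K L hK hL hKL).trans (Subgroup.centralizer_le inf_le_left)
    intro z hz
    rw [Subgroup.mem_centralizer_iff]
    intro e he
    exact ((Subgroup.mem_centralizer_iff.mp (h2 he)) z hz).symm

end Cfsg.Agent.S1263
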