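-- S1267: proof by helper7
import Cfsg.Statements.S1267
import Mathlib
import Cfsg.Agent.Helper7.PLocal

set_option autoImplicit false
open Cfsg

namespace Cfsg.Agent.S1267

/-- Let G be finite and P ≤ O_p(G). Then E(N_G(P)) = E(G). -/
theorem result {G : Type*} [Group G] [Finite G] (p : ℕ) [Fact p.Prime] (P : Subgroup G) (hP : P ≤ Cfsg.pCore p G) : (Cfsg.layer ↥(Subgroup.normalizer ((P : Subgroup G) : Set G))).map (Subgroup.normalizer ((P : Subgroup G) : Set G)).subtype = Cfsg.layer G := by
  have hQn := Cfsg.Agent.Helper1.pCore_normal p G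
  have hQp := Cfsg.Agent.Helper1.pCore_isPGroup p G
  have hNQ : Subgroup.normalizer ((P : Subgroup G) : Set G) ≤
      Subgroup.normalizer (Cfsg.pCore p G : Set G) :=
    le_of_le_of_eq le_top (Subgroup.normalizer_eq_top (H := Cfsg.pCore p G)).symm
  have hCN : Subgroup.centralizer (Cfsg.pCore p G : Set G) ≤
      Subgroup.normalizer ((P : Subgroup G) : Set G) :=
    (Subgroup.centralizer_le (SetLike.coe_subset_coe.mpr hP)).trans
      (Subgroup.centralizer_le_normalizer _)
  apply le_antisymm
  · rw [Subgroup.map_le_iff_le_comap]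
    apply sSup_le
    intro K hK
    rw [← Subgroup.map_le_iff_le_comap]
    apply Cfsg.Agent.Helper7.le_layer
    have h1 : ⁅Cfsg.pCore p G, K.map (Subgroup.normalizer ((P : Subgroup G) : Set G)).subtype⁆ = ⊥ :=
      Cfsg.Agent.Helper7.comp_normalizer_centralizes p _ P hQp hP hNQ K hK
    have hKC : K.map (Subgroup.normalizer ((P : Subgroup G) : Set G)).subtype ≤
        Subgroup.centralizer (Cfsg.pCore p G : Set G) := by
      rw [Subgroup.commutator_comm] at h1
      exact Subgroup.commutator_eq_bot_iff_le_centralizer.mp h1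
    refine ⟨?_, (Cfsg.Agent.Helper7.isQuasisimple_map_subtype K).mpr hK.2⟩
    have hsubN : ((K.map (Subgroup.normalizer ((P : Subgroup G) : Set G)).subtype).subgroupOf
        (Subgroup.normalizer ((P : Subgroup G) : Set G))).IsSubnormal := by
      have h2 : (K.map (Subgroup.normalizer ((P : Subgroup G) : Set G)).subtype).subgroupOf
          (Subgroup.normalizer ((P : Subgroup G) : Set G)) = K :=
        Subgroup.comap_map_eq_self_of_injective (Subgroup.subtype_injective _) K
      rw [h2]
      exact hK.1
    exact Subgroup.IsSubnormal.trans hKC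
      (Cfsg.Agent.Helper7.isSubnormal_subgroupOf_of_le hCN hsubN)
      (Subgroup.Normal.isSubnormal inferInstance)
  · apply sSup_le
    intro L hL
    have h1 : Cfsg.layer G ≤ Subgroup.centralizer (Cfsg.fittingSubgroup G : Set G) :=
      Subgroup.commutator_eq_bot_iff_le_centralizer.mp Cfsg.Agent.Helper7.layer_commute_fitting
    have h2 : Subgroup.centralizer (Cfsg.fittingSubgroup G : Set G) ≤
        Subgroup.centralizer (Cfsg.pCore p G : Set G) :=
      Subgroup.centralizer_le (SetLike.coe_subset_coe.mpr (Cfsg.Agent.Helper1.pCore_le_fitting p))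
    have hLN : L ≤ Subgroup.normalizer ((P : Subgroup G) : Set G) :=
      ((Cfsg.Agent.Helper7.le_layer hL).trans (h1.trans h2)).trans hCN
    have h3 := Cfsg.Agent.Helper7.le_layer (Cfsg.Agent.Helper7.isComponent_subgroupOf hL hLN)
    have h4 := Subgroup.map_mono (f := (Subgroup.normalizer ((P : Subgroup G) : Set G)).subtype) h3
    rwa [Subgroup.map_subgroupOf_eq_of_le hLN] at h4

end Cfsg.Agent.S1267
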