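-- S1272: proof by helper7
import Cfsg.Statements.S1272
import Mathlib
import Cfsg.Agent.Helper7.PComp

set_option autoImplicit false
open Cfsg

namespace Cfsg.Agent.S1272

/-- Let X be finite and Q = X / O_{p'}(X). For every component Kbar of Q there is a unique p-component K of X whose image in Q is Kbar; and the image of the p-layer L_{p'}(X) in Q is E(Q). -/
theorem result {X : Type*} [Group X] [Finite X] (p : ℕ) [Fact p.Prime] : (∀ Kbar : Subgroup (X ⧸ Cfsg.pPrimeCore p X), Cfsg.IsComponent Kbar → ∃! K : Subgroup X, Cfsg.IsPComponent p K ∧ K.map (QuotientGroup.mk' (Cfsg.pPrimeCore p X)) = Kbar) ∧ (Cfsg.pLayer p X).map (QuotientGroup.mk' (Cfsg.pPrimeCore p X)) = Cfsg.layer (X ⧸ Cfsg.pPrimeCore p X) := by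
  have hlayer : (Cfsg.pLayer p X).map (QuotientGroup.mk' (Cfsg.pPrimeCore p X)) =
      Cfsg.layer (X ⧸ Cfsg.pPrimeCore p X) := by
    apply le_antisymm
    · rw [Subgroup.map_le_iff_le_comap]
      unfold Cfsg.pLayer
      apply sSup_le
      intro K hK
      rw [← Subgroup.map_le_iff_le_comap]
      exact Cfsg.Agent.Helper7.le_layer (hK : Cfsg.IsPComponent p K).2.1
    · unfold Cfsg.layer
      apply sSup_le
      intro Kb hKb
      obtain ⟨h1, h2⟩ := Cfsg.Agent.Helper7.exists_pComponent_of_component p Kb hKb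
      exact h2.symm.le.trans (Subgroup.map_mono
        (le_sSup (show _ ∈ {K : Subgroup X | Cfsg.IsPComponent p K} from h1)))
  refine ⟨fun Kbar hKbar => ?_, hlayer⟩
  obtain ⟨h1, h2⟩ := Cfsg.Agent.Helper7.exists_pComponent_of_component p Kbar hKbar
  refine ⟨_, ⟨h1, h2⟩, ?_⟩
  rintro L ⟨hL, hLmap⟩
  exact Cfsg.Agent.Helper7.pComponent_unique p hL h1 (hLmap.trans h2.symm)

end Cfsg.Agent.S1272
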