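-- S1276: proof by helper7
import Cfsg.Statements.S1276
import Mathlib
import Cfsg.Agent.Helper7.PComp

set_option autoImplicit false
open Cfsg

namespace Cfsg.Agent.S1276

/-- Let K be a 2-component of the finite group X. Then K is quasisimple if and only if ⁅K, O(K)⁆ = 1. -/
theorem result {X : Type*} [Group X] [Finite X] (K : Subgroup X) (hK : Cfsg.IsPComponent 2 K) : Cfsg.IsQuasisimple ↥K ↔ ⁅K, ((Cfsg.oddCore ↥K).map K.subtype)⁆ = ⊥ := by
  have hO : (Cfsg.oddCore ↥K).map K.subtype = Cfsg.pPrimeCore 2 X ⊓ K := by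
    show (Cfsg.pPrimeCore 2 ↥K).map K.subtype = _
    rw [Cfsg.Agent.Helper7.pPrimeCore_subnormal_eq 2 hK.1, Subgroup.subgroupOf_map_subtype]
  rw [hO]
  constructor
  · intro hq
    have h1 := Cfsg.Agent.Helper7.pComponent_commutator_core_eq_bot_of_isQuasisimple 2 hK hq
    exact le_bot_iff.mp ((Subgroup.commutator_mono le_rfl inf_le_left).trans h1.le)
  · intro hc
    apply Cfsg.Agent.Helper7.pComponent_isQuasisimple_of_commutator 2 hK
    rw [inf_comm]
    exact hc

end Cfsg.Agent.S1276
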