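-- S1278: proof by helper7
import Cfsg.Statements.S1278
import Mathlib
import Cfsg.Agent.Helper7.PComp

set_option autoImplicit false
open Cfsg

namespace Cfsg.Agent.S1278

/-- Let K ≠ L be 2-components of the finite group X. Then ⁅K, L⁆ ≤ O(K) ⊓ O(L), and if K is quasisimple then ⁅K, L⁆ = 1. -/
theorem result {X : Type*} [Group X] [Finite X] (K L : Subgroup X) (hK : Cfsg.IsPComponent 2 K) (hL : Cfsg.IsPComponent 2 L) (hne : K ≠ L) : ⁅K, L⁆ ≤ ((Cfsg.oddCore ↥K).map K.subtype) ⊓ ((Cfsg.oddCore ↥L).map L.subtype) ∧ (Cfsg.IsQuasisimple ↥K → ⁅K, L⁆ = ⊥) := by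
  have hOK : (Cfsg.oddCore ↥K).map K.subtype = Cfsg.pPrimeCore 2 X ⊓ K := by
    show (Cfsg.pPrimeCore 2 ↥K).map K.subtype = _
    rw [Cfsg.Agent.Helper7.pPrimeCore_subnormal_eq 2 hK.1, Subgroup.subgroupOf_map_subtype]
  have hOL : (Cfsg.oddCore ↥L).map L.subtype = Cfsg.pPrimeCore 2 X ⊓ L := by
    show (Cfsg.pPrimeCore 2 ↥L).map L.subtype = _
    rw [Cfsg.Agent.Helper7.pPrimeCore_subnormal_eq 2 hL.1, Subgroup.subgroupOf_map_subtype]
  have h1 : ⁅K, L⁆ ≤ Cfsg.pPrimeCore 2 X :=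
    Cfsg.Agent.Helper7.pComponent_commutator_le 2 hK hL hne
  have h2 : ⁅K, L⁆ ≤ K :=
    Cfsg.Agent.Helper7.commutator_le_of_le_normalizer
      (Cfsg.Agent.Helper7.pComponent_le_normalizer 2 hK hL)
  have h3 : ⁅K, L⁆ ≤ L := by
    rw [Subgroup.commutator_comm]
    exact Cfsg.Agent.Helper7.commutator_le_of_le_normalizer
      (Cfsg.Agent.Helper7.pComponent_le_normalizer 2 hL hK)
  refine ⟨?_, ?_⟩
  · rw [hOK, hOL]
    exact le_inf (le_inf h1 h2) (le_inf h1 h3)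
  · intro hq
    have h4 := Cfsg.Agent.Helper7.pComponent_commutator_core_eq_bot_of_isQuasisimple 2 hK hq
    have h5 : ⁅⁅L, K⁆, K⁆ = ⊥ := by
      have h5a : ⁅L, K⁆ ≤ Cfsg.pPrimeCore 2 X := by rw [Subgroup.commutator_comm]; exact h1
      have h5b : ⁅⁅L, K⁆, K⁆ ≤ ⁅Cfsg.pPrimeCore 2 X, K⁆ := Subgroup.commutator_mono h5a le_rfl
      rw [Subgroup.commutator_comm (Cfsg.pPrimeCore 2 X) K, h4] at h5b
      exact le_bot_iff.mp h5b
    have h6 := Cfsg.Agent.Helper7.commutator_eq_bot_of_perfect_stable K L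
      (Cfsg.Agent.Helper7.pComponent_perfect 2 hK) h5
    rw [Subgroup.commutator_comm]
    exact h6

end Cfsg.Agent.S1278
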