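import Cfsg.Statements.S1279
import Cfsg.Agent.Helper23.Balance

set_option autoImplicit false
open Cfsg

namespace Cfsg.Agent.S1279

open Cfsg.Agent.Helper23

/-- Let A be a noncyclic elementary abelian p-subgroup of the finite group G such that C_G(a) is solvable for every non-identity a ∈ A. Then a ↦ O_{p'}(C_G(a)) is a solvable A-signalizer functor on G. -/
theorem result {G : Type*} [Group G] [Finite G] (p : ℕ) [Fact p.Prime] (A : Subgroup G) (hA : Cfsg.IsElementaryAbelian p A) (hA2 : p ^ 2 ≤ Nat.card ↥A) (hsolv : ∀ a ∈ A, a ≠ 1 → Group.IsSolvable ↥(Subgroup.centralizer ({a} : Set G))) : Cfsg.IsSolvableSignalizerFunctor p A (fun a => Cfsg.centralizerPPrimeCore p a) := by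
  obtain ⟨hAcomm, hAexp⟩ := hA
  have hcomm : ∀ a ∈ A, ∀ b ∈ A, a * b = b * a := by
    intro a ha b hb
    have := hAcomm.is_comm.comm (⟨a, ha⟩ : A) ⟨b, hb⟩
    exact congrArg Subtype.val this
  refine ⟨⟨?_, ?_, ?_, ?_⟩, ?_⟩
  · intro a _ _
    exact centralizerPPrimeCore_le a
  · intro a _ _ hdvd
    have hc : (Nat.card (centralizerPPrimeCore p a)).Coprime p := centralizerPPrimeCore_coprime a
    have h4 : p ∣ Nat.gcd (Nat.card (centralizerPPrimeCore p a)) p := Nat.dvd_gcd hdvd dvd_rfl
    rw [hc.gcd_eq_one] at h4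
    exact (Fact.out : p.Prime).one_lt.ne' (Nat.dvd_one.mp h4)
  · intro a ha _ b hb x hx
    apply centralizerPPrimeCore_conj_mem a _ hx
    rw [Subgroup.mem_centralizer_singleton_iff]
    exact hcomm b hb a ha
  · intro a ha _ b hb hb1
    exact balance_le a b (hAexp a ha) (hcomm a ha b hb) (hsolv b hb hb1)
  · intro a ha ha1
    have := hsolv a ha ha1
    exact Group.isSolvable_of_isSolvable_injective
      (f := Subgroup.inclusion (centralizerPPrimeCore_le (p := p) a))
      (Subgroup.inclusion_injective _)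

end Cfsg.Agent.S1279
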