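-- S1286: proof by helper7
import Cfsg.Statements.S1286
import Mathlib

set_option autoImplicit false
open Cfsg

namespace Cfsg.Agent.S1286


/-- The ambient group: the symmetric group of degree 5. -/
abbrev P5 : Type := Equiv.Perm (Fin 5)

def pa : P5 := Equiv.swap 0 1
def pb : P5 := Equiv.swap 2 3
def c1 : P5 := Equiv.swap 2 3 * Equiv.swap 3 4
def c2 : P5 := Equiv.swap 0 1 * Equiv.swap 1 4

def sA : Finset P5 := {1, pa, pb, pa * pb}
def sT1 : Finset P5 := {1, c1, c1 * c1}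
def sT2 : Finset P5 := {1, c2, c2 * c2}

def mkSub (s : Finset P5) (h1 : 1 ∈ s) (hm : ∀ x ∈ s, ∀ y ∈ s, x * y ∈ s)
    (hi : ∀ x ∈ s, x⁻¹ ∈ s) : Subgroup P5 where
  carrier := ↑s
  mul_mem' := fun {a b} ha hb => hm a ha b hb
  one_mem' := h1
  inv_mem' := fun {a} ha => hi a ha

def gA : Subgroup P5 := mkSub sA (by decide +kernel) (by decide +kernel) (by decide +kernel)
def gT1 : Subgroup P5 := mkSub sT1 (by decide +kernel) (by decide +kernel) (by decide +kernel)
def gT2 : Subgroup P5 := mkSub sT2 (by decide +kernel) (by decide +kernel) (by decide +kernel)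

def ths (x : P5) : Finset P5 := if x = pa then sT1 else if x = pb then sT2 else {1}

def th (x : P5) : Subgroup P5 := if x = pa then gT1 else if x = pb then gT2 else ⊥

theorem mem_th (x y : P5) : y ∈ th x ↔ y ∈ ths x := by
  unfold th ths
  split_ifs
  · exact Iff.rfl
  · exact Iff.rfl
  · rw [Subgroup.mem_bot, Finset.mem_singleton]

theorem card_th (x : P5) : Nat.card (th x) = (ths x).card := by
  have h : ((th x : Subgroup P5) : Set P5) = ↑(ths x) := Set.ext fun y => mem_th x y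
  rw [← Set.ncard_coe_finset (ths x), ← h]
  exact Nat.card_coe_set_eq _

theorem card_gA : Nat.card gA = 4 := by
  have h : ((gA : Subgroup P5) : Set P5) = ↑sA := rfl
  have h2 : Nat.card gA = Set.ncard ((gA : Subgroup P5) : Set P5) := Nat.card_coe_set_eq _
  rw [h2, h, Set.ncard_coe_finset]
  decide +kernel

theorem cond1 : ∀ a ∈ sA, a ≠ 1 → ∀ x ∈ ths a, a * x = x * a := by decide +kernel
theorem cond2 : ∀ a ∈ sA, a ≠ 1 → ¬ 2 ∣ (ths a).card := by decide +kernel
theorem cond3 : ∀ a ∈ sA, a ≠ 1 → ∀ b ∈ sA, ∀ x ∈ ths a, b * x * b⁻¹ ∈ ths a := by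
  decide +kernel
theorem cond4 : ∀ a ∈ sA, a ≠ 1 → ∀ b ∈ sA, b ≠ 1 → ∀ x ∈ ths a, b * x = x * b → x ∈ ths b := by
  decide +kernel
theorem cond5 : ∀ a ∈ sA, a ≠ 1 → ∀ x ∈ ths a, ∀ y ∈ ths a, x * y = y * x := by decide +kernel
theorem condA : ∀ x ∈ sA, ∀ y ∈ sA, x * y = y * x := by decide +kernel
theorem condA2 : ∀ x ∈ sA, x ^ 2 = 1 := by decide +kernel
theorem condw : (c2 * (c1 * c2 * c1⁻¹)) * (c2 * (c1 * c2 * c1⁻¹)) = 1 ∧
    c2 * (c1 * c2 * c1⁻¹) ≠ 1 := by decide +kernel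
theorem condc : c1 ∈ ths pa ∧ c2 ∈ ths pb ∧ pa ∈ sA ∧ pb ∈ sA ∧ pa ≠ 1 ∧ pb ≠ 1 := by
  decide +kernel

/-- There exist a finite group X, an elementary abelian subgroup A of order 4 and a solvable A-signalizer functor θ on X for the prime 2 which is not complete. -/
theorem result : ∃ (X : Type) (_ : Group X) (_ : Finite X) (A : Subgroup X) (θ : X → Subgroup X), Cfsg.IsElementaryAbelian 2 A ∧ Nat.card ↥A = 4 ∧ Cfsg.IsSolvableSignalizerFunctor 2 A θ ∧ ¬ Cfsg.IsCompleteSignalizerFunctor 2 A θ := by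
  have hsig : Cfsg.IsSignalizerFunctor 2 gA th := by
    refine ⟨?_, ?_, ?_, ?_⟩
    · intro a ha ha1 x hx
      rw [Subgroup.mem_centralizer_iff]
      intro h hh
      rw [Set.mem_singleton_iff] at hh
      subst hh
      exact cond1 h ha ha1 x ((mem_th h x).1 hx)
    · intro a ha ha1
      rw [card_th]
      exact cond2 a ha ha1
    · intro a ha ha1 b hb x hx
      exact (mem_th a _).2 (cond3 a ha ha1 b hb x ((mem_th a x).1 hx))
    · intro a ha ha1 b hb hb1 x hx
      rw [Subgroup.mem_inf, Subgroup.mem_centralizer_iff] at hx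
      exact (mem_th b x).2 (cond4 a ha ha1 b hb hb1 x ((mem_th a x).1 hx.1)
        (hx.2 b (Set.mem_singleton b)))
  refine ⟨P5, inferInstance, inferInstance, gA, th, ⟨?_, ?_⟩, card_gA, ⟨hsig, ?_⟩, ?_⟩
  · exact ⟨⟨fun x y => Subtype.ext (condA x.1 x.2 y.1 y.2)⟩⟩
  · intro a ha
    exact condA2 a ha
  · intro a ha ha1
    exact Group.isSolvable_of_comm (fun x y => Subtype.ext
      (cond5 a ha ha1 x.1 ((mem_th a _).1 x.2) y.1 ((mem_th a _).1 y.2)))
  · rintro ⟨-, Y, -, hodd, hY⟩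
    obtain ⟨h1, h2, h3, h4, h5, h6⟩ := condc
    have hc1 : c1 ∈ Y := by
      have : c1 ∈ Y ⊓ Subgroup.centralizer {pa} := by
        rw [hY pa h3 h5]; exact (mem_th pa c1).2 h1
      exact this.1
    have hc2 : c2 ∈ Y := by
      have : c2 ∈ Y ⊓ Subgroup.centralizer {pb} := by
        rw [hY pb h4 h6]; exact (mem_th pb c2).2 h2
      exact this.1
    have hw : c2 * (c1 * c2 * c1⁻¹) ∈ Y :=
      Y.mul_mem hc2 (Y.mul_mem (Y.mul_mem hc1 hc2) (Y.inv_mem hc1))
    have ho : orderOf (c2 * (c1 * c2 * c1⁻¹)) = 2 := by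
      apply orderOf_eq_prime
      · rw [pow_two]; exact condw.1
      · exact condw.2
    apply hodd
    rw [← ho]
    exact Subgroup.orderOf_dvd_natCard Y hw

end Cfsg.Agent.S1286
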