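-- S1300: proof by helper7
import Cfsg.Statements.S1300
import Mathlib

set_option autoImplicit false
open Cfsg

namespace Cfsg.Agent.S1300

/-- For a finite group G, balance in the sense of commuting involutions is the same as 1-balance for the prime 2. -/
theorem result {G : Type*} [Group G] [Finite G] : Cfsg.IsBalanced G ↔ Cfsg.IsKBalanced 2 1 G := by
  have hle : ∀ x : G, Cfsg.centralizerPPrimeCore 2 x ≤ Subgroup.centralizer ({x} : Set G) := by
    intro x
    unfold Cfsg.centralizerPPrimeCore
    exact Subgroup.map_subtype_le _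
  constructor
  · intro hbal A hA hcard b hb hcomm
    have hnt : Nontrivial A := by
      rw [← Finite.one_lt_card_iff_nontrivial, hcard]; norm_num
    obtain ⟨⟨a, haA⟩, ha1⟩ := exists_ne (1 : A)
    have ha1' : a ≠ 1 := fun h => ha1 (Subtype.ext h)
    have hoa : orderOf a = 2 := orderOf_eq_prime (hA.2 a haA) ha1'
    have h1 : Cfsg.signalizerDelta 2 A ≤ Cfsg.centralizerPPrimeCore 2 a := by
      unfold Cfsg.signalizerDelta
      exact iInf_le (fun a : {a : G // a ∈ A ∧ a ≠ 1} => Cfsg.centralizerPPrimeCore 2 (a : G)) ⟨a, haA, ha1'⟩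
    have h2 := hbal a b hoa hb (hcomm a haA)
    calc Cfsg.signalizerDelta 2 A ⊓ Subgroup.centralizer {b}
        ≤ Cfsg.centralizerPPrimeCore 2 a ⊓ Subgroup.centralizer {b} := inf_le_inf_right _ h1
      _ = Cfsg.centralizerPPrimeCore 2 b ⊓ Subgroup.centralizer {a} := h2
      _ ≤ Cfsg.centralizerPPrimeCore 2 b := inf_le_left
  · intro hk
    have key : ∀ x y : G, orderOf x = 2 → orderOf y = 2 → x * y = y * x →
        Cfsg.centralizerPPrimeCore 2 x ⊓ Subgroup.centralizer {y} ≤
          Cfsg.centralizerPPrimeCore 2 y ⊓ Subgroup.centralizer {x} := by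
      intro x y hx hy hxy
      refine le_inf ?_ (inf_le_left.trans (hle x))
      have hx2 : x ^ 2 = 1 := by rw [← hx]; exact pow_orderOf_eq_one x
      have hEA : Cfsg.IsElementaryAbelian 2 (Subgroup.zpowers x) := by
        refine ⟨inferInstance, ?_⟩
        intro a ha
        obtain ⟨k, rfl⟩ := Subgroup.mem_zpowers_iff.mp ha
        rw [← zpow_natCast, ← zpow_mul, mul_comm, zpow_mul, zpow_natCast, hx2, one_zpow]
      have hcard : Nat.card (Subgroup.zpowers x) = 2 ^ 1 := by
        rw [Nat.card_zpowers, hx]; norm_num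
      have hcomm : ∀ a ∈ Subgroup.zpowers x, a * y = y * a := by
        intro a ha
        obtain ⟨k, rfl⟩ := Subgroup.mem_zpowers_iff.mp ha
        exact ((Commute.zpow_left (show Commute x y from hxy) k)).eq
      have h1 := hk (Subgroup.zpowers x) hEA hcard y hy hcomm
      have h2 : Cfsg.centralizerPPrimeCore 2 x ≤ Cfsg.signalizerDelta 2 (Subgroup.zpowers x) := by
        unfold Cfsg.signalizerDelta
        refine le_iInf ?_
        rintro ⟨a, ha, ha1⟩
        obtain ⟨k, rfl⟩ := Subgroup.mem_zpowers_iff.mp ha
        have h3 : x ^ k = x ^ (k % 2) := by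
          have := zpow_mod_orderOf x k
          rw [hx] at this
          exact this.symm
        rcases Int.emod_two_eq_zero_or_one k with h | h
        · rw [h, zpow_zero] at h3
          exact absurd h3 ha1
        · rw [h, zpow_one] at h3
          simp only [h3]
          exact le_rfl
      exact (inf_le_inf_right _ h2).trans h1
    intro x y hx hy hxy
    exact le_antisymm (key x y hx hy hxy) (key y x hy hx hxy.symm)

end Cfsg.Agent.S1300
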