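-- S1304: proof by helper7
import Cfsg.Statements.S1304
import Mathlib

set_option autoImplicit false
open Cfsg

namespace Cfsg.Agent.S1304

/-- Let X be a perfect group and α an automorphism of X with α(x) x⁻¹ central for every x. Then α is the identity. -/
theorem result {X : Type*} [Group X] (hperf : commutator X = ⊤) (α : X ≃* X) (h : ∀ x : X, α x * x⁻¹ ∈ Subgroup.center X) : ∀ x : X, α x = x := by
  have hmul : ∀ a b : X, (⟨α (a * b) * (a * b)⁻¹, h (a * b)⟩ : Subgroup.center X) = ⟨α a * a⁻¹, h a⟩ * ⟨α b * b⁻¹, h b⟩ := by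
    intro a b
    apply Subtype.ext
    have hb := h b
    rw [Subgroup.mem_center_iff] at hb
    simp only [map_mul, mul_inv_rev, Subgroup.coe_mul]
    calc α a * α b * (b⁻¹ * a⁻¹) = α a * ((α b * b⁻¹) * a⁻¹) := by group
      _ = α a * (a⁻¹ * (α b * b⁻¹)) := by rw [← hb a⁻¹]
      _ = α a * a⁻¹ * (α b * b⁻¹) := by group
  let f : X →* Subgroup.center X := MonoidHom.mk' (fun x => ⟨α x * x⁻¹, h x⟩) hmul
  intro x
  have hk : commutator X ≤ f.ker := by
    rw [commutator_eq_closure, Subgroup.closure_le]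
    rintro x ⟨p, q, rfl⟩
    rw [SetLike.mem_coe, MonoidHom.mem_ker]
    rw [commutatorElement_def, map_mul, map_mul, map_mul, map_inv, map_inv]
    have hc : f p * f q = f q * f p := mul_comm' _ _
    rw [hc]; group
  have hx : x ∈ f.ker := hk (hperf ▸ Subgroup.mem_top x)
  have h1 := congrArg Subtype.val (MonoidHom.mem_ker.mp hx)
  have h2 : α x * x⁻¹ = 1 := h1
  exact mul_inv_eq_one.mp h2

end Cfsg.Agent.S1304
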