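import Cfsg.Statements.S1306
import Mathlib
import Cfsg.Agent.Helper7.Components
import Cfsg.Agent.Helper9.Layer

set_option autoImplicit false
open Cfsg

namespace Cfsg.Agent.S1306

theorem norm_le {G : Type*} [Group G] (L : Subgroup G) :
    Subgroup.normalizer (L : Set G) ≤
      Subgroup.normalizer (Subgroup.centralizer (L : Set G) : Set G) := by
  have key : ∀ g : G, g ∈ Subgroup.normalizer (L : Set G) →
      ∀ k ∈ Subgroup.centralizer (L : Set G), g * k * g⁻¹ ∈ Subgroup.centralizer (L : Set G) := by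
    intro g hg k hk
    rw [Subgroup.mem_centralizer_iff] at hk ⊢
    intro l hl
    have hginv : g⁻¹ ∈ Subgroup.normalizer (L : Set G) := Subgroup.inv_mem _ hg
    have hl' : g⁻¹ * l * g⁻¹⁻¹ ∈ L := (Subgroup.mem_normalizer_iff.1 hginv l).1 hl
    rw [inv_inv] at hl'
    have h1 := hk _ hl'
    calc l * (g * k * g⁻¹) = g * ((g⁻¹ * l * g) * k) * g⁻¹ := by group
      _ = g * (k * (g⁻¹ * l * g)) * g⁻¹ := by rw [h1]
      _ = g * k * g⁻¹ * l := by group
  intro g hg
  rw [Subgroup.mem_normalizer_iff]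
  intro k
  constructor
  · exact key g hg k
  · intro hk
    have hginv : g⁻¹ ∈ Subgroup.normalizer (L : Set G) := Subgroup.inv_mem _ hg
    have h1 := key g⁻¹ hginv _ hk
    have e : g⁻¹ * (g * k * g⁻¹) * g⁻¹⁻¹ = k := by group
    rwa [e] at h1

theorem cent_conj {G : Type*} [Group G] (g k : G) :
    (Subgroup.centralizer ({k} : Set G)).map (MulAut.conj g).toMonoidHom =
      Subgroup.centralizer ({g * k * g⁻¹} : Set G) := by
  ext z
  rw [Subgroup.mem_map, Subgroup.mem_centralizer_iff]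
  constructor
  · rintro ⟨c, hc, rfl⟩
    rw [Subgroup.mem_centralizer_iff] at hc
    intro w hw
    rw [Set.mem_singleton_iff] at hw
    subst hw
    have h1 := hc k (Set.mem_singleton k)
    show g * k * g⁻¹ * (g * c * g⁻¹) = g * c * g⁻¹ * (g * k * g⁻¹)
    calc g * k * g⁻¹ * (g * c * g⁻¹) = g * (k * c) * g⁻¹ := by group
      _ = g * (c * k) * g⁻¹ := by rw [h1]
      _ = g * c * g⁻¹ * (g * k * g⁻¹) := by group
  · intro hz
    have h1 := hz (g * k * g⁻¹) (Set.mem_singleton _)
    refine ⟨g⁻¹ * z * g, ?_, ?_⟩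
    · rw [Subgroup.mem_centralizer_iff]
      intro w hw
      rw [Set.mem_singleton_iff] at hw
      rw [hw]
      calc k * (g⁻¹ * z * g) = g⁻¹ * (g * k * g⁻¹ * z) * g := by group
        _ = g⁻¹ * (z * (g * k * g⁻¹)) * g := by rw [h1]
        _ = g⁻¹ * z * g * k := by group
    · show g * (g⁻¹ * z * g) * g⁻¹ = z
      group

theorem comp_conj {G : Type*} [Group G] {L Y : Subgroup G} (hLY : L ≤ Y)
    (h : Cfsg.IsComponent (L.subgroupOf Y)) (φ : G ≃* G) :
    Cfsg.IsComponent ((L.map φ.toMonoidHom).subgroupOf (Y.map φ.toMonoidHom)) := by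
  have h1 := Cfsg.Agent.Helper9.isComponent_map (φ.subgroupMap Y) (L.subgroupOf Y) h
  have h2 : (L.subgroupOf Y).map (φ.subgroupMap Y).toMonoidHom =
      (L.map φ.toMonoidHom).subgroupOf (Y.map φ.toMonoidHom) := by
    ext ⟨z, hz⟩
    constructor
    · rintro ⟨w, hw, hwz⟩
      have hw' : (w : G) ∈ L := Subgroup.mem_subgroupOf.1 hw
      have e : φ (w : G) = z := congrArg Subtype.val hwz
      exact Subgroup.mem_subgroupOf.2 (Subgroup.mem_map.2 ⟨(w : G), hw', e⟩)
    · intro hmem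
      obtain ⟨l, hl, hlz⟩ := Subgroup.mem_map.1 (Subgroup.mem_subgroupOf.1 hmem)
      exact Subgroup.mem_map.2 ⟨⟨l, hLY hl⟩, Subgroup.mem_subgroupOf.2 hl, Subtype.ext hlz⟩
  rw [h2] at h1
  exact h1

theorem key {G : Type*} [Group G] [Finite G] (L : Subgroup G)
    (hne : ∀ y : G, orderOf y = 2 → y ∈ Subgroup.centralizer (L : Set G) →
      L ≤ Subgroup.centralizer ({y} : Set G) ∧
        Cfsg.IsComponent (L.subgroupOf (Subgroup.centralizer ({y} : Set G))))
    (hnc : ∀ g : G, L.map (MulAut.conj g).toMonoidHom ≠ L →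
      ⁅L, L.map (MulAut.conj g).toMonoidHom⁆ ≠ ⊥)
    (g k : G) (hk2 : orderOf k = 2) (hk : k ∈ Subgroup.centralizer (L : Set G))
    (hy : g * k * g⁻¹ ∈ Subgroup.centralizer (L : Set G)) :
    L.map (MulAut.conj g).toMonoidHom = L := by
  by_contra hLg
  have hy2 : orderOf (g * k * g⁻¹) = 2 := by
    have h0 := MulEquiv.orderOf_eq (MulAut.conj g) k
    rw [MulAut.conj_apply] at h0
    rw [h0, hk2]
  obtain ⟨h1, h2⟩ := hne (g * k * g⁻¹) hy2 hy
  obtain ⟨h3, h4⟩ := hne k hk2 hk
  have hcen := cent_conj g k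
  have h5 := comp_conj h3 h4 (MulAut.conj g)
  rw [hcen] at h5
  have hLg_le : L.map (MulAut.conj g).toMonoidHom ≤ Subgroup.centralizer ({g * k * g⁻¹} : Set G) := by
    rw [← hcen]
    exact Subgroup.map_mono h3
  by_cases heq : L.subgroupOf (Subgroup.centralizer ({g * k * g⁻¹} : Set G)) =
      (L.map (MulAut.conj g).toMonoidHom).subgroupOf (Subgroup.centralizer ({g * k * g⁻¹} : Set G))
  · apply hLg
    apply le_antisymm
    · exact Cfsg.Agent.Helper7.le_of_subgroupOf_le hLg_le (le_of_eq heq.symm)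
    · exact Cfsg.Agent.Helper7.le_of_subgroupOf_le h1 (le_of_eq heq)
  · have h6 := Cfsg.Agent.Helper7.components_commute h2 h5 heq
    exact hnc g hLg (Cfsg.Agent.Helper7.commutator_eq_bot_of_subgroupOf h1 hLg_le h6)

/-- Let G be finite, x an involution and L ≤ C_G(x) a component of C_G(x). Suppose L is a component of C_G(y) for every involution y ∈ C_G(L), and ⁅L, g L g⁻¹⁆ ≠ 1 whenever g L g⁻¹ ≠ L. Then L is a standard subgroup of G. -/
theorem result {G : Type*} [Group G] [Finite G] (x : G) (hx : orderOf x = 2) (L : Subgroup G) (hLx : L ≤ Subgroup.centralizer ({x} : Set G)) (hL : Cfsg.IsComponent (L.subgroupOf (Subgroup.centralizer ({x} : Set G)))) (hne : ∀ y : G, orderOf y = 2 → y ∈ Subgroup.centralizer (L : Set G) → L ≤ Subgroup.centralizer ({y} : Set G) ∧ Cfsg.IsComponent (L.subgroupOf (Subgroup.centralizer ({y} : Set G)))) (hnc : ∀ g : G, L.map (MulAut.conj g).toMonoidHom ≠ L → ⁅L, L.map (MulAut.conj g).toMonoidHom⁆ ≠ ⊥) : Cfsg.IsStandardSubgroup L :=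 by
  have hxK : x ∈ Subgroup.centralizer (L : Set G) := by
    rw [Subgroup.mem_centralizer_iff]
    intro l hl
    exact (Subgroup.mem_centralizer_iff.1 (hLx hl) x (Set.mem_singleton x)).symm
  have hNle := norm_le L
  have hkey : ∀ g k : G, orderOf k = 2 → k ∈ Subgroup.centralizer (L : Set G) →
      g * k * g⁻¹ ∈ Subgroup.centralizer (L : Set G) → g ∈ Subgroup.normalizer (L : Set G) := by
    intro g k hk2 hk hy
    have hmap := key L hne hnc g k hk2 hk hy
    rw [Subgroup.mem_normalizer_iff]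
    intro h
    constructor
    · intro hh
      have h1 : g * h * g⁻¹ ∈ L.map (MulAut.conj g).toMonoidHom := Subgroup.mem_map.2 ⟨h, hh, rfl⟩
      rwa [hmap] at h1
    · intro hh
      have hh' : g * h * g⁻¹ ∈ L.map (MulAut.conj g).toMonoidHom := by
        rw [hmap]
        exact hh
      obtain ⟨l, hl, e⟩ := Subgroup.mem_map.1 hh'
      have e' : g * l * g⁻¹ = g * h * g⁻¹ := e
      have e'' : l = h := mul_left_cancel (mul_right_cancel e')
      rw [← e'']
      exact hl
  refine ⟨(Cfsg.Agent.Helper7.isQuasisimple_subgroupOf hLx).1 hL.2, ⟨?_, ?_⟩, hnc,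
    le_antisymm hNle ?_⟩
  · have h1 : orderOf x ∣ Nat.card (Subgroup.centralizer (L : Set G)) := by
      have h0 := orderOf_dvd_natCard (⟨x, hxK⟩ : Subgroup.centralizer (L : Set G))
      rwa [Subgroup.orderOf_mk] at h0
    rw [hx] at h1
    exact even_iff_two_dvd.2 h1
  · intro g hg
    by_contra hodd
    rw [Nat.not_odd_iff_even] at hodd
    have h2 := even_iff_two_dvd.1 hodd
    haveI : Fact (Nat.Prime 2) := ⟨Nat.prime_two⟩
    obtain ⟨y', hy'⟩ := exists_prime_orderOf_dvd_card' 2 h2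
    have hy2 : orderOf (y' : G) = 2 := by
      rw [Subgroup.orderOf_coe]
      exact hy'
    obtain ⟨hyK, hyKg⟩ := Subgroup.mem_inf.1 y'.2
    obtain ⟨k, hk, hky⟩ := Subgroup.mem_map.1 hyKg
    have hky' : g * k * g⁻¹ = (y' : G) := hky
    have hk2 : orderOf k = 2 := by
      have h0 := MulEquiv.orderOf_eq (MulAut.conj g) k
      rw [MulAut.conj_apply, hky', hy2] at h0
      exact h0.symm
    apply hg
    apply hNle
    exact hkey g k hk2 hk (by rw [hky']; exact hyK)
  · intro g hg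
    have h1 := (Subgroup.mem_normalizer_iff.1 hg x).1 hxK
    exact hkey g x hx hxK h1

end Cfsg.Agent.S1306
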