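import Mathlib
import Cfsg.Statements.S1314

set_option autoImplicit false
open Cfsg

namespace Cfsg.Agent.S1314

open scoped commutatorElement in
theorem comm_aux {G : Type*} [Group G] (p₁ p₂ z₁ z₂ : G) (h12 : z₁ * p₂ = p₂ * z₁)
    (h21 : z₂ * p₁ = p₁ * z₂) (hz : z₁ * z₂ = z₂ * z₁) :
    ⁅p₁ * z₁, p₂ * z₂⁆ = ⁅p₁, p₂⁆ := by
  rw [commutatorElement_def, commutatorElement_def]
  have e1 : p₁ * z₁ * (p₂ * z₂) = p₁ * p₂ * (z₁ * z₂) := by
    calc p₁ * z₁ * (p₂ * z₂) = p₁ * (z₁ * p₂) * z₂ := by group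
      _ = p₁ * (p₂ * z₁) * z₂ := by rw [h12]
      _ = _ := by group
  have e2 : p₂ * z₂ * (p₁ * z₁) = p₂ * p₁ * (z₁ * z₂) := by
    calc p₂ * z₂ * (p₁ * z₁) = p₂ * (z₂ * p₁) * z₁ := by group
      _ = p₂ * (p₁ * z₂) * z₁ := by rw [h21]
      _ = p₂ * p₁ * (z₂ * z₁) := by group
      _ = _ := by rw [hz]
  calc p₁ * z₁ * (p₂ * z₂) * (p₁ * z₁)⁻¹ * (p₂ * z₂)⁻¹
      = (p₁ * z₁ * (p₂ * z₂)) * (p₂ * z₂ * (p₁ * z₁))⁻¹ := by group
    _ = p₁ * p₂ * (z₁ * z₂) * (p₂ * p₁ * (z₁ * z₂))⁻¹ := by rw [e1, e2]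
    _ = _ := by group

/-- Let x be an involution of a group G and L a perfect subgroup with ⁅L, x L x⁻¹⁆ = 1. Then l ↦ l (x l x⁻¹) is a group homomorphism π from L to G whose kernel is central in L and whose image lies in C_G(x); and the commutator subgroup of C_{L ⊔ xLx⁻¹}(x) equals the image of π. -/
theorem result {G : Type*} [Group G] [Finite G] (x : G) (hx : orderOf x = 2) (L : Subgroup G) (hperf : ⁅L, L⁆ = L) (hcomm : ⁅L, L.map (MulAut.conj x).toMonoidHom⁆ = ⊥) : ∃ π : ↥L →* G, (∀ l : ↥L, π l = (l : G) * (x * (l : G) * x⁻¹)) ∧ π.ker ≤ Subgroup.center ↥L ∧ π.range ≤ Subgroup.centralizer ({x} : Set G) ∧ ⁅(L ⊔ L.map (MulAut.conj x).toMonoidHom) ⊓ Subgroup.centralizer ({x} : Set G), (L ⊔ L.map (MulAut.conj x).toMonoidHom) ⊓ Subgroup.centralizer ({x} : Set G)⁆ = π.range := by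
  have hx2 : x * x = 1 := by
    have := pow_orderOf_eq_one x
    rw [hx, pow_two] at this
    exact this
  have hxi : x⁻¹ = x := inv_eq_of_mul_eq_one_left hx2
  have hc : ∀ a ∈ L, ∀ b ∈ L, a * (x * b * x⁻¹) = (x * b * x⁻¹) * a := by
    intro a ha b hb
    have h1 := (Subgroup.commutator_eq_bot_iff_le_centralizer).1 hcomm ha
    rw [Subgroup.mem_centralizer_iff] at h1
    have h2 : x * b * x⁻¹ ∈ ((L.map (MulAut.conj x).toMonoidHom : Subgroup G) : Set G) :=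
      ⟨b, hb, by simp [MulAut.conj_apply]⟩
    exact (h1 _ h2).symm
  let π : ↥L →* G :=
    { toFun := fun l => (l : G) * (x * (l : G) * x⁻¹)
      map_one' := by simp
      map_mul' := by
        intro a b
        show ((a * b : ↥L) : G) * (x * ((a * b : ↥L) : G) * x⁻¹)
          = (a : G) * (x * (a : G) * x⁻¹) * ((b : G) * (x * (b : G) * x⁻¹))
        rw [Subgroup.coe_mul]
        calc (a : G) * (b : G) * (x * ((a : G) * (b : G)) * x⁻¹)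
            = (a : G) * ((b : G) * (x * (a : G) * x⁻¹)) * (x * (b : G) * x⁻¹) := by group
          _ = (a : G) * ((x * (a : G) * x⁻¹) * (b : G)) * (x * (b : G) * x⁻¹) := by
              rw [hc b b.2 a a.2]
          _ = _ := by group }
  have hπ : ∀ l : ↥L, π l = (l : G) * (x * (l : G) * x⁻¹) := fun l => rfl
  have hker : π.ker ≤ Subgroup.center ↥L := by
    intro l hl
    rw [MonoidHom.mem_ker, hπ] at hl
    rw [Subgroup.mem_center_iff]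
    intro m
    apply Subtype.ext
    rw [Subgroup.coe_mul, Subgroup.coe_mul]
    have h1 : (l : G) = x * (l : G)⁻¹ * x⁻¹ := by
      have := eq_inv_of_mul_eq_one_left hl
      calc (l : G) = (x * (l : G) * x⁻¹)⁻¹ := this
        _ = x * (l : G)⁻¹ * x⁻¹ := by group
    have h2 := hc m m.2 (l : G)⁻¹ (L.inv_mem l.2)
    rw [← h1] at h2
    exact h2
  have hrange : π.range ≤ Subgroup.centralizer ({x} : Set G) := by
    rintro _ ⟨l, rfl⟩
    rw [hπ, Subgroup.mem_centralizer_singleton_iff]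
    have h1 := hc l l.2 l l.2
    rw [hxi] at h1 ⊢
    have key : x * ((l : G) * (x * (l : G) * x)) = (l : G) * (x * (l : G) * x) * x := by
      calc x * ((l : G) * (x * (l : G) * x)) = x * (x * (l : G) * x * (l : G)) := by rw [h1]
        _ = (x * x) * (l : G) * x * (l : G) := by group
        _ = (l : G) * x * (l : G) := by rw [hx2, one_mul]
        _ = (l : G) * x * (l : G) * (x * x) := by rw [hx2, mul_one]
        _ = (l : G) * (x * (l : G) * x) * x := by group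
    first | exact key | exact key.symm
  refine ⟨π, hπ, hker, hrange, ?_⟩
  have hsup : ∀ g ∈ L ⊔ L.map (MulAut.conj x).toMonoidHom,
      ∃ a ∈ L, ∃ b ∈ L, g = a * (x * b * x⁻¹) := by
    intro g hg
    rw [Subgroup.sup_eq_closure] at hg
    refine Subgroup.closure_induction (p := fun g _ => ∃ a ∈ L, ∃ b ∈ L, g = a * (x * b * x⁻¹))
      ?_ ?_ ?_ ?_ hg
    · intro g hg
      rcases hg with hg | hg
      · exact ⟨g, hg, 1, L.one_mem, by simp⟩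
      · obtain ⟨b, hb, rfl⟩ := hg
        exact ⟨1, L.one_mem, b, hb, by simp [MulAut.conj_apply]⟩
    · exact ⟨1, L.one_mem, 1, L.one_mem, by simp⟩
    · intro g₁ g₂ _ _ h₁ h₂
      obtain ⟨a₁, ha₁, b₁, hb₁, rfl⟩ := h₁
      obtain ⟨a₂, ha₂, b₂, hb₂, rfl⟩ := h₂
      refine ⟨a₁ * a₂, L.mul_mem ha₁ ha₂, b₁ * b₂, L.mul_mem hb₁ hb₂, ?_⟩
      calc a₁ * (x * b₁ * x⁻¹) * (a₂ * (x * b₂ * x⁻¹))
          = a₁ * ((x * b₁ * x⁻¹) * a₂) * (x * b₂ * x⁻¹) := by group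
        _ = a₁ * (a₂ * (x * b₁ * x⁻¹)) * (x * b₂ * x⁻¹) := by rw [hc a₂ ha₂ b₁ hb₁]
        _ = _ := by group
    · intro g _ h
      obtain ⟨a, ha, b, hb, rfl⟩ := h
      refine ⟨a⁻¹, L.inv_mem ha, b⁻¹, L.inv_mem hb, ?_⟩
      calc (a * (x * b * x⁻¹))⁻¹ = (x * b⁻¹ * x⁻¹) * a⁻¹ := by group
        _ = a⁻¹ * (x * b⁻¹ * x⁻¹) := (hc a⁻¹ (L.inv_mem ha) b⁻¹ (L.inv_mem hb)).symm
  have hdec : ∀ g ∈ (L ⊔ L.map (MulAut.conj x).toMonoidHom) ⊓ Subgroup.centralizer ({x} : Set G),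
      ∃ b : ↥L, ∃ z : G, z ∈ L ∧ (∃ w ∈ L, z = x * w * x⁻¹) ∧ g = π b * z := by
    intro g hg
    obtain ⟨a, ha, b, hb, rfl⟩ := hsup g hg.1
    have hgx : a * (x * b * x⁻¹) ∈ Subgroup.centralizer ({x} : Set G) := hg.2
    rw [Subgroup.mem_centralizer_singleton_iff] at hgx
    have hgx' : a * (x * b * x⁻¹) * x = x * (a * (x * b * x⁻¹)) := by
      first | exact hgx | exact hgx.symm
    have e1 : a * (x * b * x⁻¹) = x * (a * (x * b * x⁻¹)) * x⁻¹ := by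
      rw [← hgx']; group
    have e2 : x * (a * (x * b * x⁻¹)) * x⁻¹ = (x * a * x⁻¹) * b := by
      calc x * (a * (x * b * x⁻¹)) * x⁻¹ = (x * a * x⁻¹) * ((x * x) * b * (x * x)⁻¹) := by group
        _ = _ := by rw [hx2]; group
    have e3 : a * (x * b * x⁻¹) = b * (x * a * x⁻¹) := e1.trans (e2.trans (hc b hb a ha).symm)
    have h1 : b⁻¹ * a = x * (a * b⁻¹) * x⁻¹ := by
      calc b⁻¹ * a = b⁻¹ * (a * (x * b * x⁻¹)) * (x * b * x⁻¹)⁻¹ := by group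
        _ = b⁻¹ * (b * (x * a * x⁻¹)) * (x * b * x⁻¹)⁻¹ := by rw [e3]
        _ = _ := by group
    refine ⟨⟨b, hb⟩, b⁻¹ * a, L.mul_mem (L.inv_mem hb) ha,
      ⟨a * b⁻¹, L.mul_mem ha (L.inv_mem hb), h1⟩, ?_⟩
    rw [hπ]
    show a * (x * b * x⁻¹) = b * (x * b * x⁻¹) * (b⁻¹ * a)
    calc a * (x * b * x⁻¹) = b * ((b⁻¹ * a) * (x * b * x⁻¹)) := by group
      _ = b * ((x * b * x⁻¹) * (b⁻¹ * a)) := by
          rw [hc (b⁻¹ * a) (L.mul_mem (L.inv_mem hb) ha) b hb]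
      _ = _ := by group
  have hzπ : ∀ (z : G), z ∈ L → (∃ w ∈ L, z = x * w * x⁻¹) → ∀ l : ↥L, z * π l = π l * z := by
    intro z hzL ⟨w, hw, hzw⟩ l
    rw [hπ]
    have c1 : z * (l : G) = (l : G) * z := by rw [hzw]; exact (hc l l.2 w hw).symm
    have c2 : z * (x * (l : G) * x⁻¹) = (x * (l : G) * x⁻¹) * z := hc z hzL l l.2
    calc z * ((l : G) * (x * (l : G) * x⁻¹)) = (z * (l : G)) * (x * (l : G) * x⁻¹) := by group
      _ = (l : G) * (z * (x * (l : G) * x⁻¹)) := by rw [c1]; group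
      _ = _ := by rw [c2]; group
  have hrange_le : π.range ≤ (L ⊔ L.map (MulAut.conj x).toMonoidHom) ⊓ Subgroup.centralizer ({x} : Set G) := by
    intro g hg
    refine ⟨?_, hrange hg⟩
    obtain ⟨l, rfl⟩ := hg
    rw [hπ]
    exact Subgroup.mul_mem _ (Subgroup.mem_sup_left l.2)
      (Subgroup.mem_sup_right ⟨l, l.2, by simp [MulAut.conj_apply]⟩)
  have hperf' : ⁅(⊤ : Subgroup ↥L), (⊤ : Subgroup ↥L)⁆ = ⊤ := by
    apply Subgroup.map_injective L.subtype_injective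
    rw [Subgroup.map_commutator, ← MonoidHom.range_eq_map, Subgroup.range_subtype, hperf]
  apply le_antisymm
  · rw [Subgroup.commutator_le]
    intro g₁ hg₁ g₂ hg₂
    obtain ⟨b₁, z₁, hz₁L, ⟨w₁, hw₁, hz₁w⟩, rfl⟩ := hdec g₁ hg₁
    obtain ⟨b₂, z₂, hz₂L, ⟨w₂, hw₂, hz₂w⟩, rfl⟩ := hdec g₂ hg₂
    have hzz : z₁ * z₂ = z₂ * z₁ := by rw [hz₂w]; exact hc z₁ hz₁L w₂ hw₂
    rw [comm_aux (π b₁) (π b₂) z₁ z₂ (hzπ z₁ hz₁L ⟨w₁, hw₁, hz₁w⟩ b₂)
      (hzπ z₂ hz₂L ⟨w₂, hw₂, hz₂w⟩ b₁) hzz]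
    exact ⟨b₁ * b₂ * b₁⁻¹ * b₂⁻¹, map_commutatorElement π b₁ b₂⟩
  · calc π.range = Subgroup.map π ⊤ := MonoidHom.range_eq_map π
      _ = Subgroup.map π ⁅(⊤ : Subgroup ↥L), (⊤ : Subgroup ↥L)⁆ := by rw [hperf']
      _ = ⁅Subgroup.map π ⊤, Subgroup.map π ⊤⁆ := Subgroup.map_commutator _ _ _
      _ = ⁅π.range, π.range⁆ := by rw [← MonoidHom.range_eq_map]
      _ ≤ _ := Subgroup.commutator_mono hrange_le hrange_le

end Cfsg.Agent.S1314
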