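-- S1316: proof by helper7
import Cfsg.Statements.S1316
import Mathlib
import Cfsg.Agent.Helper7.Components

set_option autoImplicit false
open Cfsg

namespace Cfsg.Agent.S1316

/-- For a finite group X, E(X) equals the intersection of the derived series of F*(X) (its last term). -/
theorem result {X : Type*} [Group X] [Finite X] : (⨅ n : ℕ, (derivedSeries ↥(Cfsg.generalizedFittingSubgroup X) n).map (Cfsg.generalizedFittingSubgroup X).subtype) = Cfsg.layer X := by
  haveI hEn := Cfsg.Agent.Helper7.layer_normal (G := X)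
  have hEF : Cfsg.layer X ≤ Cfsg.generalizedFittingSubgroup X := le_sup_left
  apply le_antisymm
  · have hsolvF : Group.IsSolvable ↥(Cfsg.fittingSubgroup X) :=
      Cfsg.Agent.Helper7.fittingSubgroup_isSolvable
    let φ : ↥(Cfsg.fittingSubgroup X) →*
        ↥(Cfsg.generalizedFittingSubgroup X) ⧸ (Cfsg.layer X).subgroupOf (Cfsg.generalizedFittingSubgroup X) :=
      (QuotientGroup.mk' ((Cfsg.layer X).subgroupOf (Cfsg.generalizedFittingSubgroup X))).comp
        (Subgroup.inclusion (le_sup_right : Cfsg.fittingSubgroup X ≤ Cfsg.generalizedFittingSubgroup X))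
    have hφ : Function.Surjective φ := by
      intro q
      obtain ⟨x, rfl⟩ := QuotientGroup.mk'_surjective _ q
      have hx : (x : X) ∈ Cfsg.layer X ⊔ Cfsg.fittingSubgroup X := x.2
      obtain ⟨e, he, f, hf, hef⟩ := Subgroup.mem_sup_of_normal_left.mp hx
      refine ⟨⟨f, hf⟩, ?_⟩
      apply QuotientGroup.eq.mpr
      rw [Subgroup.mem_subgroupOf]
      have h3 : f⁻¹ * e * f ∈ Cfsg.layer X := hEn.conj_mem' e he f
      have h4 : f⁻¹ * (x : X) = f⁻¹ * e * f := by rw [← hef]; group
      show f⁻¹ * (x : X) ∈ Cfsg.layer X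
      rw [h4]
      exact h3
    have hQ : Group.IsSolvable (↥(Cfsg.generalizedFittingSubgroup X) ⧸
        (Cfsg.layer X).subgroupOf (Cfsg.generalizedFittingSubgroup X)) :=
      Group.isSolvable_of_surjective hφ
    obtain ⟨n, hn⟩ := hQ.solvable
    have h1 := map_derivedSeries_le_derivedSeries
      (QuotientGroup.mk' ((Cfsg.layer X).subgroupOf (Cfsg.generalizedFittingSubgroup X))) n
    rw [hn, le_bot_iff, Subgroup.map_eq_bot_iff, QuotientGroup.ker_mk'] at h1
    refine (iInf_le _ n).trans ?_
    rintro _ ⟨y, hy, rfl⟩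
    exact Subgroup.mem_subgroupOf.mp (h1 hy)
  · apply le_iInf
    intro n
    induction n with
    | zero =>
      rw [derivedSeries_zero, ← MonoidHom.range_eq_map, Subgroup.range_subtype]
      exact hEF
    | succ n ih =>
      rw [derivedSeries_succ, Subgroup.map_commutator]
      calc Cfsg.layer X = ⁅Cfsg.layer X, Cfsg.layer X⁆ := Cfsg.Agent.Helper7.layer_perfect.symm
        _ ≤ _ := Subgroup.commutator_mono ih ih

end Cfsg.Agent.S1316
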