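-- S1317: proof by helper7
import Cfsg.Statements.S1317
import Mathlib
import Cfsg.Agent.Helper7.Components

set_option autoImplicit false
open Cfsg

namespace Cfsg.Agent.S1317

/-- For a finite group X, the centre of the layer E(X) is F(X) ∩ E(X). -/
theorem result {X : Type*} [Group X] [Finite X] : (Subgroup.center ↥(Cfsg.layer X)).map (Cfsg.layer X).subtype = Cfsg.fittingSubgroup X ⊓ Cfsg.layer X := by
  rw [Cfsg.Agent.Helper7.map_center_subtype]
  haveI hEn := Cfsg.Agent.Helper7.layer_normal (G := X)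
  apply le_antisymm
  · refine le_inf ?_ inf_le_left
    apply le_sSup
    refine ⟨?_, ?_⟩
    · -- normal
      refine ⟨fun n hn g => ?_⟩
      rw [Subgroup.mem_inf] at hn ⊢
      refine ⟨hEn.conj_mem n hn.1 g, ?_⟩
      rw [Subgroup.mem_centralizer_iff]
      intro h hh
      have h1 := (Subgroup.mem_centralizer_iff.mp hn.2) (g⁻¹ * h * g) (by
        have := hEn.conj_mem h hh g⁻¹
        rwa [inv_inv] at this)
      calc h * (g * n * g⁻¹) = g * ((g⁻¹ * h * g) * n) * g⁻¹ := by group
        _ = g * (n * (g⁻¹ * h * g)) * g⁻¹ := by rw [h1]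
        _ = g * n * g⁻¹ * h := by group
    · apply Cfsg.Agent.Helper7.isNilpotent_of_comm
      rintro ⟨a, ha⟩ ⟨b, hb⟩
      apply Subtype.ext
      rw [Subgroup.mem_inf] at ha hb
      exact (Subgroup.mem_centralizer_iff.mp hb.2) a ha.1
  · rintro x hx
    rw [Subgroup.mem_inf] at hx ⊢
    refine ⟨hx.2, ?_⟩
    have h1 := Cfsg.Agent.Helper7.layer_commute_fitting (G := X)
    rw [Subgroup.commutator_comm, Subgroup.commutator_eq_bot_iff_le_centralizer] at h1
    exact h1 hx.1

end Cfsg.Agent.S1317
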