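-- S1319: proof by helper7
import Cfsg.Statements.S1319
import Mathlib
import Cfsg.Agent.Helper7.Components

set_option autoImplicit false
open Cfsg

namespace Cfsg.Agent.S1319

/-- Let A be a subnormal subgroup of the finite group X with E(A) = A. Then A ≤ E(X) and A is normal in E(X). -/
theorem result {X : Type*} [Group X] [Finite X] (A : Subgroup X) (hsn : A.IsSubnormal) (hA : Cfsg.layer ↥A = ⊤) : A ≤ Cfsg.layer X ∧ (A.subgroupOf (Cfsg.layer X)).Normal := by
  have hmap : A = (Cfsg.layer ↥A).map A.subtype := by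
    rw [hA, ← MonoidHom.range_eq_map, Subgroup.range_subtype]
  have hcomp : ∀ K : Subgroup ↥A, Cfsg.IsComponent K → Cfsg.IsComponent (K.map A.subtype) :=
    fun K hK => (Cfsg.Agent.Helper7.isComponent_map_subtype hsn K).mp hK
  have h1 : A ≤ Cfsg.layer X := by
    rw [hmap, Subgroup.map_le_iff_le_comap]
    apply sSup_le
    intro K hK
    rw [← Subgroup.map_le_iff_le_comap]
    exact le_sSup (hcomp K hK)
  refine ⟨h1, ?_⟩
  apply Subgroup.normal_subgroupOf_of_le_normalizer
  apply sSup_le
  intro L hL
  have hA2 : A = ⨆ K : ({K : Subgroup ↥A | Cfsg.IsComponent K} : Set (Subgroup ↥A)),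
      (K : Subgroup ↥A).map A.subtype := by
    conv_lhs => rw [hmap]
    unfold Cfsg.layer
    rw [sSup_eq_iSup', Subgroup.map_iSup]
  rw [hA2]
  refine le_trans ?_ (Subgroup.iInf_normalizer_le_normalizer_iSup _)
  apply le_iInf
  rintro ⟨K, hK⟩
  by_cases hLK : L = K.map A.subtype
  · rw [← hLK]; exact Subgroup.le_normalizer
  · have h2 := Cfsg.Agent.Helper7.components_commute hL (hcomp K hK) hLK
    exact ((Subgroup.commutator_eq_bot_iff_le_centralizer).mp h2).trans
      (Subgroup.centralizer_le_normalizer _)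

end Cfsg.Agent.S1319
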