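-- S1320: F*(A) ∩ B = F*(B) for B normal in A.
import Mathlib
import Cfsg.Statements.S1320
import Cfsg.Agent.S1318

set_option autoImplicit false
open Cfsg

namespace Cfsg.Agent.S1320

/-- Let B be a normal subgroup of the finite group A. Then F*(A) ∩ B = F*(B). -/
theorem result {A : Type*} [Group A] [Finite A] (B : Subgroup A) [B.Normal] : Cfsg.generalizedFittingSubgroup A ⊓ B = (Cfsg.generalizedFittingSubgroup ↥B).map B.subtype := by
  classical
  have hBn : B.Normal := inferInstance
  have hBsn : B.IsSubnormal := hBn.isSubnormal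
  apply le_antisymm
  · obtain ⟨S, hSdef⟩ : ∃ S : Subgroup A, S = Cfsg.generalizedFittingSubgroup A ⊓ B := ⟨_, rfl⟩
    rw [← hSdef]
    have hSF : S ≤ Cfsg.generalizedFittingSubgroup A := by rw [hSdef]; exact inf_le_left
    have hSB : S ≤ B := by rw [hSdef]; exact inf_le_right
    have hSn : S.Normal := by
      rw [hSdef]
      haveI := Cfsg.Agent.Helper9.generalizedFittingSubgroup_normal A
      exact inferInstance
    have hSsn : S.IsSubnormal := hSn.isSubnormal
    have hsn : (S.subgroupOf (Cfsg.generalizedFittingSubgroup A)).IsSubnormal := by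
      rw [hSdef, Subgroup.inf_subgroupOf_left]
      exact (Subgroup.Normal.subgroupOf hBn _).isSubnormal
    obtain ⟨h1, h2⟩ := Cfsg.Agent.S1318.result S hSF hsn
    have hFB := Cfsg.Agent.S1318.fitting_subnormal B hBsn
    have hFle : (Cfsg.fittingSubgroup ↥S).map S.subtype ≤
        (Cfsg.fittingSubgroup ↥B).map B.subtype := by
      rw [h1, hFB]
      exact inf_le_inf_left _ hSB
    have hEle : (Cfsg.layer ↥S).map S.subtype ≤ (Cfsg.layer ↥B).map B.subtype := by
      rw [Subgroup.map_le_iff_le_comap]
      unfold Cfsg.layer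
      apply sSup_le
      intro K hK
      rw [← Subgroup.map_le_iff_le_comap]
      have hK' : Cfsg.IsComponent (K.map S.subtype) :=
        (Cfsg.Agent.Helper7.isComponent_map_subtype hSsn K).mp hK
      have hKB : K.map S.subtype ≤ B := by
        rintro _ ⟨x, -, rfl⟩; exact hSB x.2
      have h3 : Cfsg.IsComponent ((K.map S.subtype).subgroupOf B) :=
        Cfsg.Agent.Helper7.isComponent_subgroupOf hK' hKB
      have h4 : (K.map S.subtype).subgroupOf B ≤ Cfsg.layer ↥B := Cfsg.Agent.Helper7.le_layer h3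
      intro x hx
      exact ⟨⟨x, hKB hx⟩, h4 (Subgroup.mem_subgroupOf.mpr hx), rfl⟩
    intro x hx
    have hx' : (⟨x, hx⟩ : ↥S) ∈ Cfsg.fittingSubgroup ↥S ⊔ Cfsg.layer ↥S := by
      rw [h2]; exact Subgroup.mem_top _
    have hx2 : x ∈ (Cfsg.fittingSubgroup ↥S ⊔ Cfsg.layer ↥S).map S.subtype := ⟨⟨x, hx⟩, hx', rfl⟩
    rw [Subgroup.map_sup] at hx2
    have hle : (Cfsg.fittingSubgroup ↥S).map S.subtype ⊔ (Cfsg.layer ↥S).map S.subtype ≤
        (Cfsg.generalizedFittingSubgroup ↥B).map B.subtype := by
      unfold Cfsg.generalizedFittingSubgroup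
      rw [Subgroup.map_sup]
      exact sup_le (hFle.trans le_sup_right) (hEle.trans le_sup_left)
    exact hle hx2
  · apply le_inf
    · unfold Cfsg.generalizedFittingSubgroup
      rw [Subgroup.map_sup]
      apply sup_le_sup
      · rw [Subgroup.map_le_iff_le_comap]
        unfold Cfsg.layer
        apply sSup_le
        intro K hK
        rw [← Subgroup.map_le_iff_le_comap]
        exact Cfsg.Agent.Helper7.le_layer
          ((Cfsg.Agent.Helper7.isComponent_map_subtype hBsn K).mp hK)
      · exact Cfsg.Agent.Helper7.fitting_map_subtype_le B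
    · rintro _ ⟨x, -, rfl⟩; exact x.2

end Cfsg.Agent.S1320
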