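-- S1321: proof by helper7
import Cfsg.Statements.S1321
import Mathlib
import Cfsg.Agent.Helper7.PLocal

set_option autoImplicit false
open Cfsg

namespace Cfsg.Agent.S1321

/-- Let X be finite and U ≤ X. Then E(X) is generated by C_{E(X)}(U) together with ⁅E(X), U⁆ (indeed it is their product, ⁅E(X), U⁆ being normal in E(X)). -/
theorem result {X : Type*} [Group X] [Finite X] (U : Subgroup X) : Cfsg.layer X = (Cfsg.layer X ⊓ Subgroup.centralizer (U : Set X)) ⊔ ⁅Cfsg.layer X, U⁆ ∧ ⁅Cfsg.layer X, U⁆ ≤ Cfsg.layer X := by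
  have hEn : (Cfsg.layer X).Normal := Cfsg.Agent.Helper7.layer_normal
  have hle : ⁅Cfsg.layer X, U⁆ ≤ Cfsg.layer X := Subgroup.commutator_le_left _ _
  refine ⟨?_, hle⟩
  have hsub : (⁅Cfsg.layer X, U⁆).IsSubnormal :=
    Subgroup.IsSubnormal.step _ _ hle (Subgroup.Normal.isSubnormal hEn)
      ((Subgroup.normal_subgroupOf_iff_le_normalizer hle).mpr
        (Cfsg.Agent.Helper7.le_normalizer_commutator _ _))
  apply le_antisymm
  · have key : ∀ L : Subgroup X, Cfsg.IsComponent L →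
        L ≤ (Cfsg.layer X ⊓ Subgroup.centralizer (U : Set X)) ⊔ ⁅Cfsg.layer X, U⁆ := by
      intro L hL
      have hLE : L ≤ Cfsg.layer X := Cfsg.Agent.Helper7.le_layer hL
      rcases Cfsg.Agent.Helper7.comp_subnormal hL hsub with h | h
      · exact le_sup_of_le_right h
      · have h3 : ⁅L, U⁆ ≤ ⁅Cfsg.layer X, U⁆ := Subgroup.commutator_mono hLE le_rfl
        have h4 : ⁅⁅L, U⁆, L⁆ = ⊥ := by
          rw [eq_bot_iff]
          calc ⁅⁅L, U⁆, L⁆ ≤ ⁅⁅Cfsg.layer X, U⁆, L⁆ := Subgroup.commutator_mono h3 le_rfl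
            _ = ⁅L, ⁅Cfsg.layer X, U⁆⁆ := Subgroup.commutator_comm _ _
            _ = ⊥ := h
        have h5 : ⁅⁅U, L⁆, L⁆ = ⊥ := by rw [Subgroup.commutator_comm U L]; exact h4
        have h6 : ⁅⁅L, L⁆, U⁆ = ⊥ := Subgroup.commutator_commutator_eq_bot_of_rotate h4 h5
        rw [Cfsg.Agent.Helper7.IsComponent.perfect hL] at h6
        exact le_sup_of_le_left
          (le_inf hLE (Subgroup.commutator_eq_bot_iff_le_centralizer.mp h6))
    exact sSup_le key
  · exact sup_le inf_le_left hle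

end Cfsg.Agent.S1321
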