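import Cfsg.Statements.S1324
import Cfsg.Agent.Helper9.HypGen

set_option autoImplicit false
open Cfsg

namespace Cfsg.Agent.S1324

theorem result {H : Type*} [Group H] [Finite H] (p : ℕ) [Fact p.Prime] (A X : Subgroup H) (hA : Cfsg.IsElementaryAbelian p A) (hA2 : p ^ 2 ≤ Nat.card ↥A) (hX : ¬ p ∣ Nat.card ↥X) (hAX : A ≤ Subgroup.normalizer (X : Set H)) : X = ⨆ B : {B : Subgroup H // B ≤ A ∧ B.relIndex A ≤ p}, X ⊓ Subgroup.centralizer ((B : Subgroup H) : Set H) := by
  exact Cfsg.Agent.Helper9.hyperplane_generation p A X hA hX hAX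

end Cfsg.Agent.S1324
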