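-- S1325: proof by helper7
import Cfsg.Statements.S1325
import Mathlib
import Cfsg.Agent.Helper7.Components

set_option autoImplicit false
open Cfsg

namespace Cfsg.Agent.S1325

/-- Let X be finite and Y a normal subgroup containing F(X) with C_X(Y) ≤ Y. Then F*(X) ≤ Y. -/
theorem result {X : Type*} [Group X] [Finite X] (Y : Subgroup X) [Y.Normal] (hF : Cfsg.fittingSubgroup X ≤ Y) (hC : Subgroup.centralizer (Y : Set X) ≤ Y) : Cfsg.generalizedFittingSubgroup X ≤ Y := by
  unfold Cfsg.generalizedFittingSubgroup
  refine sup_le ?_ hF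
  apply sSup_le
  intro L hL
  rcases Cfsg.Agent.Helper7.comp_subnormal hL (Subgroup.Normal.isSubnormal (inferInstance : Y.Normal)) with h | h
  · exact h
  · exact ((Subgroup.commutator_eq_bot_iff_le_centralizer).mp h).trans hC

end Cfsg.Agent.S1325
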