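-- S1326: proof by helper7
import Cfsg.Statements.S1326
import Mathlib
import Cfsg.Agent.Helper7.Bender

set_option autoImplicit false
open Cfsg

namespace Cfsg.Agent.S1326

/-- For a finite group X: the Fitting subgroup contains its centralizer if and only if the layer of X is trivial. -/
theorem result {X : Type*} [Group X] [Finite X] : Subgroup.centralizer (Cfsg.fittingSubgroup X : Set X) ≤ Cfsg.fittingSubgroup X ↔ Cfsg.layer X = ⊥ := by
  constructor
  · intro h
    unfold Cfsg.layer
    rw [sSup_eq_bot]
    intro L hL
    exfalso
    have h1 : Cfsg.layer X ≤ Subgroup.centralizer (Cfsg.fittingSubgroup X : Set X) :=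
      Subgroup.commutator_eq_bot_iff_le_centralizer.mp Cfsg.Agent.Helper7.layer_commute_fitting
    have h2 : L ≤ Cfsg.fittingSubgroup X := (Cfsg.Agent.Helper7.le_layer hL).trans (h1.trans h)
    have h3 : Group.IsSolvable ↥(Cfsg.fittingSubgroup X) :=
      Cfsg.Agent.Helper7.fittingSubgroup_isSolvable
    exact Cfsg.Agent.Helper7.IsComponent.not_isSolvable hL
      (Group.isSolvable_of_isSolvable_injective (Subgroup.inclusion_injective h2))
  · intro h
    have h1 := Cfsg.Agent.Helper7.bender (G := X)
    unfold Cfsg.generalizedFittingSubgroup at h1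
    rw [h, bot_sup_eq] at h1
    exact h1

end Cfsg.Agent.S1326
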