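-- S1331: members of the signalizer family are generated by the X ∩ θ(C(D)), D hyperplanes of B.
import Mathlib
import Cfsg.Statements.S1331
import Cfsg.Agent.S1324

set_option autoImplicit false
open Cfsg

namespace Cfsg.Agent.S1331

/-- Let θ be a solvable A-signalizer functor on the finite group G for the prime p, A elementary abelian of rank at least 3, X a member of the family of θ, and B ≤ A with |B| ≥ p². Then X is generated by the subgroups X ∩ ⋂_{d ∈ D, d ≠ 1} θ d, D ranging over the subgroups of index p in B. -/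
theorem result {G : Type*} [Group G] [Finite G] (p : ℕ) [Fact p.Prime] (A : Subgroup G) (hA : Cfsg.IsElementaryAbelian p A) (hA3 : p ^ 3 ≤ Nat.card ↥A) (θ : G → Subgroup G) (hθ : Cfsg.IsSolvableSignalizerFunctor p A θ) (X : Subgroup G) (hX : X ∈ Cfsg.signalizerFamily p A θ) (B : Subgroup G) (hB : B ≤ A) (hB2 : p ^ 2 ≤ Nat.card ↥B) : X = ⨆ D : {D : Subgroup G // D ≤ B ∧ D.relIndex B = p}, X ⊓ Cfsg.signalizerInf (D : Subgroup G) θ := by
  classical
  have hp : p.Prime := Fact.out
  obtain ⟨hXsol, hXp, hXinv, hXθ⟩ := hX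
  have hBel : Cfsg.IsElementaryAbelian p B := by
    obtain ⟨hc, he⟩ := hA
    refine ⟨⟨⟨fun a b => ?_⟩⟩, fun a ha => he a (hB ha)⟩
    have h := hc.is_comm.comm (⟨a.1, hB a.2⟩ : ↥A) ⟨b.1, hB b.2⟩
    have h0 := congrArg Subtype.val h
    exact Subtype.ext h0
  have hBX : B ≤ Subgroup.normalizer (X : Set G) := by
    intro b hb
    exact Cfsg.Agent.Helper9.mem_normalizer_of_conj_le X b (fun x hx => hXinv b (hB hb) x hx)
  have hgen := Cfsg.Agent.S1324.result p B X hBel hB2 hXp hBX
  have hBp : IsPGroup p ↥B := Cfsg.Agent.Helper3.elemAb_isPGroup hBel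
  obtain ⟨k, hk⟩ := IsPGroup.iff_card.1 hBp
  have hpp2 : p < p ^ 2 := by
    have := Nat.pow_lt_pow_right hp.one_lt (show 1 < 2 by norm_num)
    simpa using this
  have hk2 : 2 ≤ k := by
    by_contra hlt
    have hk1 : k ≤ 1 := by omega
    have h1 : p ^ k ≤ p ^ 1 := Nat.pow_le_pow_right hp.pos hk1
    rw [pow_one] at h1
    omega
  obtain ⟨K, hK⟩ := Sylow.exists_subgroup_card_pow_prime (G := ↥B) p (n := k - 1)
    (by rw [hk]; exact pow_dvd_pow p (by omega))
  have hD₀le : K.map B.subtype ≤ B := by rintro _ ⟨x, -, rfl⟩; exact x.2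
  have hD₀idx : (K.map B.subtype).relIndex B = p := by
    have h1 : ((K.map B.subtype).comap B.subtype) = K :=
      Subgroup.comap_map_eq_self_of_injective B.subtype_injective K
    have h2 : (K.map B.subtype).relIndex B = K.index := by
      show ((K.map B.subtype).comap B.subtype).index = K.index
      rw [h1]
    rw [h2]
    have h3 := Subgroup.card_mul_index K
    rw [hK, hk] at h3
    have h4 : p ^ k = p ^ (k - 1) * p := by
      rw [← pow_succ]
      congr 1
      omega
    rw [h4] at h3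
    exact Nat.eq_of_mul_eq_mul_left (pow_pos hp.pos _) h3
  have key : ∀ D' : Subgroup G, D' ≤ B → D'.relIndex B = p →
      X ⊓ Subgroup.centralizer (D' : Set G) ≤
        ⨆ D : {D : Subgroup G // D ≤ B ∧ D.relIndex B = p},
          X ⊓ Cfsg.signalizerInf (D : Subgroup G) θ := by
    intro D' hD'B hD'i
    refine le_trans ?_ (le_iSup (fun D : {D : Subgroup G // D ≤ B ∧ D.relIndex B = p} =>
      X ⊓ Cfsg.signalizerInf (D : Subgroup G) θ) ⟨D', hD'B, hD'i⟩)
    refine le_inf inf_le_left ?_
    unfold Cfsg.signalizerInf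
    apply le_iInf
    rintro ⟨d, hdD, hd1⟩
    intro x hx
    obtain ⟨hxX, hxC⟩ := Subgroup.mem_inf.mp hx
    apply hXθ d (hB (hD'B hdD)) hd1
    refine Subgroup.mem_inf.mpr ⟨hxX, ?_⟩
    rw [Subgroup.mem_centralizer_iff] at hxC ⊢
    intro y hy
    rw [Set.mem_singleton_iff] at hy
    rw [hy]
    exact hxC d hdD
  apply le_antisymm
  · refine hgen.le.trans ?_
    apply iSup_le
    rintro ⟨D, hDB, hDi⟩
    have hdvd : D.relIndex B ∣ p ^ k := by rw [← hk]; exact Subgroup.relIndex_dvd_card D B
    obtain ⟨j, hj, hjeq⟩ := (Nat.dvd_prime_pow hp).mp hdvd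
    by_cases hj1 : j = 1
    · have h1 : D.relIndex B = p := by rw [hjeq, hj1, pow_one]
      exact key D hDB h1
    · have hj0 : j = 0 := by
        by_contra hne
        have h2 : 2 ≤ j := by omega
        have h1 : p ^ 2 ≤ p ^ j := Nat.pow_le_pow_right hp.pos h2
        rw [hjeq] at hDi
        omega
      rw [hj0, pow_zero] at hjeq
      have hBD : B ≤ D := Subgroup.relIndex_eq_one.mp hjeq
      have h3 : X ⊓ Subgroup.centralizer (D : Set G) ≤
          X ⊓ Subgroup.centralizer ((K.map B.subtype : Subgroup G) : Set G) :=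
        inf_le_inf_left X (Subgroup.centralizer_le (hD₀le.trans hBD))
      exact h3.trans (key _ hD₀le hD₀idx)
  · exact iSup_le fun D => inf_le_left

end Cfsg.Agent.S1331
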