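-- S1335: proof by helper7
import Cfsg.Statements.S1335
import Mathlib

set_option autoImplicit false
open Cfsg

namespace Cfsg.Agent.S1335

/-- Let H be a subgroup of the finite group G, p a prime, k ≥ 1, P a Sylow p-subgroup of H of p-rank at least k, and suppose N_G(X) ≤ H for every subgroup X ≤ P of p-rank at least k. Then P is a Sylow p-subgroup of G. -/
theorem result {G : Type*} [Group G] [Finite G] {p : ℕ} [Fact p.Prime] (k : ℕ) (hk : 1 ≤ k) (H : Subgroup G) (P : Sylow p ↥H) (hP : ¬ Cfsg.PRankLE p (k - 1) ↥(P : Subgroup ↥H)) (hΓ : (∀ X : Subgroup G, X ≤ (P : Subgroup ↥H).map H.subtype → ¬ Cfsg.PRankLE p (k - 1) ↥X → Subgroup.normalizer (X : Set G) ≤ H)) : ∃ Q : Sylow p G, (Q : Subgroup G) = (P : Subgroup ↥H).map H.subtype := by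
  classical
  set X : Subgroup G := (P : Subgroup ↥H).map H.subtype with hX
  have hXrk : ¬ Cfsg.PRankLE p (k - 1) ↥X := by
    intro h
    apply hP
    let e : (P : Subgroup ↥H) ≃* X := (P : Subgroup ↥H).equivMapOfInjective H.subtype H.subtype_injective
    intro A hA hAp
    have h1 := h (A.map e.toMonoidHom) inferInstance (by
      rintro _ ⟨a, ha, rfl⟩
      rw [← map_pow, hAp a ha, map_one])
    rwa [Subgroup.card_map_of_injective e.injective] at h1
  have hN : Subgroup.normalizer (X : Set G) ≤ H := hΓ X le_rfl hXrk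
  have hXp : IsPGroup p X := P.isPGroup'.map H.subtype
  obtain ⟨Q, hQ⟩ := hXp.exists_le_sylow
  refine ⟨Q, ?_⟩
  by_contra hne
  haveI : Group.IsNilpotent (Q : Subgroup G) := Q.isPGroup'.isNilpotent
  have hnc := normalizerCondition_of_isNilpotent (G := (Q : Subgroup G))
  have hlt' : X.subgroupOf Q < ⊤ := by
    rw [lt_top_iff_ne_top]
    intro h
    rw [Subgroup.subgroupOf_eq_top] at h
    exact hne (le_antisymm h hQ)
  obtain ⟨y, hyN, hyX⟩ := SetLike.exists_of_lt (hnc _ hlt')
  have hyX' : (y : G) ∉ X := fun h => hyX (Subgroup.mem_subgroupOf.mpr h)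
  have hyNG : (y : G) ∈ Subgroup.normalizer (X : Set G) := by
    rw [Subgroup.mem_normalizer_iff]
    intro h
    constructor
    · intro hh
      have h1 := (Subgroup.mem_normalizer_iff.mp hyN ⟨h, hQ hh⟩).mp (Subgroup.mem_subgroupOf.mpr hh)
      exact Subgroup.mem_subgroupOf.mp h1
    · intro hh
      have hhQ : h ∈ (Q : Subgroup G) := by
        have h2 : h = (y : G)⁻¹ * ((y : G) * h * (y : G)⁻¹) * (y : G) := by group
        rw [h2]
        exact Subgroup.mul_mem _ (Subgroup.mul_mem _ (Subgroup.inv_mem _ y.2) (hQ hh)) y.2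
      have h1 := (Subgroup.mem_normalizer_iff.mp hyN ⟨h, hhQ⟩).mpr (Subgroup.mem_subgroupOf.mpr hh)
      exact Subgroup.mem_subgroupOf.mp h1
  set K : Subgroup G := (Q : Subgroup G) ⊓ Subgroup.normalizer (X : Set G) with hK
  have hKH : K ≤ H := inf_le_right.trans hN
  have hKp : IsPGroup p (K.subgroupOf H) :=
    (Q.isPGroup'.to_le inf_le_left).comap_of_injective H.subtype H.subtype_injective
  have hPK : (P : Subgroup ↥H) ≤ K.subgroupOf H := by
    intro x hx
    rw [Subgroup.mem_subgroupOf]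
    have hxX : (x : G) ∈ X := Subgroup.mem_map_of_mem H.subtype hx
    exact ⟨hQ hxX, Subgroup.le_normalizer hxX⟩
  have hEq : K.subgroupOf H = (P : Subgroup ↥H) := P.is_maximal' hKp hPK
  have hyK : (y : G) ∈ K := ⟨y.2, hyNG⟩
  have hyP : (⟨(y : G), hKH hyK⟩ : H) ∈ (P : Subgroup ↥H) := by
    rw [← hEq, Subgroup.mem_subgroupOf]
    exact hyK
  exact hyX' (Subgroup.mem_map_of_mem H.subtype hyP)

end Cfsg.Agent.S1335
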