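-- S1336: a strongly p-embedded subgroup exists iff the group is not 1-connected for p.
import Mathlib
import Cfsg.Statements.S1336
import Cfsg.Agent.Helper14.Conj
import Cfsg.Agent.Helper9.StrEmb2

set_option autoImplicit false
open Cfsg

namespace Cfsg.Agent.S1336

variable {G : Type*} [Group G]

/-- The edge relation of the commuting graph (`k = 1`). -/
def R (p : ℕ) (A B : Subgroup G) : Prop :=
  Cfsg.IsElementaryAbelian p A ∧ p ^ 1 ≤ Nat.card ↥A ∧ Cfsg.IsElementaryAbelian p B ∧
    p ^ 1 ≤ Nat.card ↥B ∧ ∀ a ∈ A, ∀ b ∈ B, a * b = b * a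

theorem ea_conj (p : ℕ) (g : G) {A : Subgroup G} (hA : Cfsg.IsElementaryAbelian p A) :
    Cfsg.IsElementaryAbelian p (A.map (MulAut.conj g).toMonoidHom) := by
  haveI := hA.1
  refine ⟨inferInstance, ?_⟩
  rintro _ ⟨a, ha, rfl⟩
  rw [← map_pow, hA.2 a ha, map_one]

theorem card_conj (g : G) (A : Subgroup G) :
    Nat.card ↥(A.map (MulAut.conj g).toMonoidHom) = Nat.card ↥A :=
  Subgroup.card_map_of_injective (MulAut.conj g).injective

theorem R_conj (p : ℕ) (g : G) {A B : Subgroup G} (h : R p A B) :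
    R p (A.map (MulAut.conj g).toMonoidHom) (B.map (MulAut.conj g).toMonoidHom) := by
  obtain ⟨hA, hAc, hB, hBc, hcomm⟩ := h
  refine ⟨ea_conj p g hA, by rw [card_conj]; exact hAc, ea_conj p g hB,
    by rw [card_conj]; exact hBc, ?_⟩
  rintro _ ⟨a, ha, rfl⟩ _ ⟨b, hb, rfl⟩
  rw [← map_mul, ← map_mul, hcomm a ha b hb]

theorem R_symm (p : ℕ) {A B : Subgroup G} (h : R p A B) : R p B A := by
  obtain ⟨hA, hAc, hB, hBc, hcomm⟩ := h
  exact ⟨hB, hBc, hA, hAc, fun b hb a ha => (hcomm a ha b hb).symm⟩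

theorem rtg_conj (p : ℕ) (g : G) {A B : Subgroup G} (h : Relation.ReflTransGen (R p) A B) :
    Relation.ReflTransGen (R p) (A.map (MulAut.conj g).toMonoidHom)
      (B.map (MulAut.conj g).toMonoidHom) := by
  induction h with
  | refl => exact Relation.ReflTransGen.refl
  | tail _ hbc ih => exact ih.tail (R_conj p g hbc)

theorem rtg_symm (p : ℕ) {A B : Subgroup G} (h : Relation.ReflTransGen (R p) A B) :
    Relation.ReflTransGen (R p) B A := by
  induction h with
  | refl => exact Relation.ReflTransGen.refl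
  | tail _ hbc ih => exact (Relation.ReflTransGen.single (R_symm p hbc)).trans ih

theorem isPGroup_of_ea {p : ℕ} {A : Subgroup G} (h : Cfsg.IsElementaryAbelian p A) :
    IsPGroup p A := by
  intro a
  refine ⟨1, ?_⟩
  apply Subtype.ext
  rw [pow_one, Subgroup.coe_pow]
  exact h.2 a a.2

theorem exists_ne_one {p : ℕ} [Fact p.Prime] {A : Subgroup G} (hc : p ^ 1 ≤ Nat.card ↥A) :
    ∃ a ∈ A, a ≠ 1 := by
  by_contra hcon
  push Not at hcon
  have hbot : A = ⊥ := (Subgroup.eq_bot_iff_forall A).2 hcon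
  rw [hbot, Subgroup.card_bot, pow_one] at hc
  have h2 := (Fact.out : p.Prime).two_le
  omega

theorem V_zpowers (p : ℕ) [Fact p.Prime] (y : G) (hy : orderOf y = p) :
    Cfsg.IsElementaryAbelian p (Subgroup.zpowers y) ∧
      p ^ 1 ≤ Nat.card ↥(Subgroup.zpowers y) := by
  refine ⟨⟨inferInstance, ?_⟩, ?_⟩
  · intro a ha
    obtain ⟨k, rfl⟩ := Subgroup.mem_zpowers_iff.1 ha
    rw [← zpow_natCast, ← zpow_mul, mul_comm, zpow_mul, zpow_natCast, ← hy, pow_orderOf_eq_one,
      one_zpow]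
  · rw [Nat.card_zpowers, hy, pow_one]

theorem rtg_of_le_pgroup [Finite G] (p : ℕ) [Fact p.Prime] (P : Subgroup G) (hP : IsPGroup p P)
    (A B : Subgroup G) (hA : Cfsg.IsElementaryAbelian p A) (hAc : p ^ 1 ≤ Nat.card ↥A)
    (hB : Cfsg.IsElementaryAbelian p B) (hBc : p ^ 1 ≤ Nat.card ↥B) (hAP : A ≤ P) (hBP : B ≤ P) :
    Relation.ReflTransGen (R p) A B := by
  obtain ⟨a, ha, ha1⟩ := exists_ne_one hAc
  obtain ⟨z, hz, hzc⟩ := Cfsg.Agent.Helper9.exists_central_orderOf hP (⟨a, hAP ha⟩ : ↥P)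
    (fun h => ha1 (congrArg Subtype.val h))
  have hzo : orderOf (z : G) = p := by rw [Subgroup.orderOf_coe]; exact hz
  have hV := V_zpowers p (z : G) hzo
  have hcz : ∀ x ∈ P, ∀ y ∈ Subgroup.zpowers (z : G), x * y = y * x := by
    intro x hx y hy
    obtain ⟨k, rfl⟩ := Subgroup.mem_zpowers_iff.1 hy
    have h1 : Commute x (z : G) := by
      have h2 := hzc ⟨x, hx⟩
      exact congrArg Subtype.val h2
    exact (h1.zpow_right k).eq
  have e1 : R p A (Subgroup.zpowers (z : G)) :=
    ⟨hA, hAc, hV.1, hV.2, fun x hx y hy => hcz x (hAP hx) y hy⟩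
  have e2 : R p (Subgroup.zpowers (z : G)) B :=
    ⟨hV.1, hV.2, hB, hBc, fun y hy x hx => (hcz x (hBP hx) y hy).symm⟩
  exact (Relation.ReflTransGen.single e1).trans (Relation.ReflTransGen.single e2)

/-- The stabilizer of the connected component of `E`. -/
def stab (p : ℕ) (E : Subgroup G) : Subgroup G where
  carrier := {g | Relation.ReflTransGen (R p) E (E.map (MulAut.conj g).toMonoidHom)}
  mul_mem' := by
    intro a b ha hb
    have h1 := rtg_conj p a hb
    rw [Cfsg.Agent.Helper14.map_conj_map_conj] at h1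
    exact Relation.ReflTransGen.trans ha h1
  one_mem' := by
    show Relation.ReflTransGen (R p) E (E.map (MulAut.conj (1 : G)).toMonoidHom)
    rw [Cfsg.Agent.Helper14.map_conj_one]
  inv_mem' := by
    intro a ha
    have h1 := rtg_conj p a⁻¹ ha
    rw [Cfsg.Agent.Helper14.map_conj_inv_map_conj] at h1
    exact rtg_symm p h1

theorem mem_stab (p : ℕ) (E : Subgroup G) (g : G) :
    g ∈ stab p E ↔ Relation.ReflTransGen (R p) E (E.map (MulAut.conj g).toMonoidHom) :=
  Iff.rfl

theorem orderOf_conj' (g x : G) : orderOf (g * x * g⁻¹) = orderOf x := by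
  rw [← MulAut.conj_apply, MulEquiv.orderOf_eq]

/-- Let G be finite and p prime. Then G has a proper subgroup H with p ∣ |H| and p ∤ |H ∩ gHg⁻¹| for every g ∉ H (a strongly p-embedded subgroup) if and only if G is not 1-connected for p. -/
theorem result {G : Type*} [Group G] [Finite G] (p : ℕ) [Fact p.Prime] : (∃ H : Subgroup G, H ≠ ⊤ ∧ p ∣ Nat.card ↥H ∧ ∀ g : G, g ∉ H → ¬ p ∣ Nat.card ↥(H ⊓ H.map (MulAut.conj g).toMonoidHom)) ↔ ¬ Cfsg.IsKConnected p 1 G := by
  constructor
  · rintro ⟨H, hHtop, hpH, hH⟩ hconn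
    obtain ⟨x, hx⟩ := exists_prime_orderOf_dvd_card' p hpH
    obtain ⟨g, hg⟩ : ∃ g, g ∉ H := by
      by_contra hcon
      push Not at hcon
      exact hHtop ((Subgroup.eq_top_iff' H).2 hcon)
    have hxo : orderOf (x : G) = p := by rw [Subgroup.orderOf_coe]; exact hx
    have hV := V_zpowers p (x : G) hxo
    have hV' := V_zpowers p (g * (x : G) * g⁻¹) (by rw [orderOf_conj']; exact hxo)
    have hpath : Relation.ReflTransGen (R p) (Subgroup.zpowers (x : G))
        (Subgroup.zpowers (g * (x : G) * g⁻¹)) := hconn _ _ hV.1 hV.2 hV'.1 hV'.2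
    have hinv : ∀ A B : Subgroup G, A ≤ H → R p A B → B ≤ H := by
      intro A B hAH hAB b hb
      obtain ⟨hA, hAc, -, -, hcomm⟩ := hAB
      obtain ⟨a, ha, ha1⟩ := exists_ne_one hAc
      have hao : orderOf a = p := orderOf_eq_prime (hA.2 a ha) ha1
      by_contra hbH
      apply hH b hbH
      have hmem : a ∈ H ⊓ H.map (MulAut.conj b).toMonoidHom := by
        refine Subgroup.mem_inf.2 ⟨hAH ha, ?_⟩
        rw [Cfsg.Agent.Helper14.mem_map_conj, mul_assoc, hcomm a ha b hb, inv_mul_cancel_left]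
        exact hAH ha
      have h3 := orderOf_dvd_natCard (⟨a, hmem⟩ : ↥(H ⊓ H.map (MulAut.conj b).toMonoidHom))
      rwa [Subgroup.orderOf_mk, hao] at h3
    have hle : ∀ B : Subgroup G, Relation.ReflTransGen (R p) (Subgroup.zpowers (x : G)) B →
        B ≤ H := by
      intro B hB
      induction hB with
      | refl => exact Subgroup.zpowers_le.2 x.2
      | tail _ hbc ih => exact hinv _ _ ih hbc
    have h1 : g * (x : G) * g⁻¹ ∈ H := hle _ hpath (Subgroup.mem_zpowers _)
    apply hH g hg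
    have hmem : g * (x : G) * g⁻¹ ∈ H ⊓ H.map (MulAut.conj g).toMonoidHom :=
      Subgroup.mem_inf.2 ⟨h1, Cfsg.Agent.Helper14.conj_mem_map_conj H g x.2⟩
    have h3 := orderOf_dvd_natCard
      (⟨g * (x : G) * g⁻¹, hmem⟩ : ↥(H ⊓ H.map (MulAut.conj g).toMonoidHom))
    rwa [Subgroup.orderOf_mk, orderOf_conj', hxo] at h3
  · intro hnc
    unfold Cfsg.IsKConnected at hnc
    push Not at hnc
    obtain ⟨E, E', hE, hEc, hE', hE'c, hnot⟩ := hnc
    have hnot' : ¬ Relation.ReflTransGen (R p) E E' := hnot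
    have hEp : IsPGroup p E := isPGroup_of_ea hE
    have hE'p : IsPGroup p E' := isPGroup_of_ea hE'
    have hEH : E ≤ stab p E := by
      intro a ha
      rw [mem_stab, Cfsg.Agent.Helper14.map_conj_eq_self_of_mem E ha]
    refine ⟨stab p E, ?_, ?_, ?_⟩
    · intro hH
      obtain ⟨P, hP⟩ := hEp.exists_le_sylow
      obtain ⟨P', hP'⟩ := hE'p.exists_le_sylow
      obtain ⟨g, hg⟩ := Cfsg.Agent.Helper14.sylow_conj P P'
      have hgH : g ∈ stab p E := hH ▸ Subgroup.mem_top g
      have h1 : E.map (MulAut.conj g).toMonoidHom ≤ (P' : Subgroup G) := by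
        rw [hg]; exact Subgroup.map_mono hP
      have h2 := rtg_of_le_pgroup p (P' : Subgroup G) P'.isPGroup' _ E' (ea_conj p g hE)
        (by rw [card_conj]; exact hEc) hE' hE'c h1 hP'
      exact hnot' (((mem_stab p E g).1 hgH).trans h2)
    · obtain ⟨a, ha, ha1⟩ := exists_ne_one hEc
      have hEne : E ≠ ⊥ := fun h => ha1 ((Subgroup.eq_bot_iff_forall E).1 h a ha)
      exact dvd_trans (Cfsg.Agent.Helper14.dvd_card_of_isPGroup_ne_bot E hEp hEne)
        (Subgroup.card_dvd_of_le hEH)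
    · intro g hg hdvd
      apply hg
      obtain ⟨x, hx⟩ := exists_prime_orderOf_dvd_card' p hdvd
      have hxo : orderOf (x : G) = p := by rw [Subgroup.orderOf_coe]; exact hx
      have hxH : (x : G) ∈ stab p E := (Subgroup.mem_inf.1 x.2).1
      have hxHg : (x : G) ∈ (stab p E).map (MulAut.conj g).toMonoidHom := (Subgroup.mem_inf.1 x.2).2
      have claim : ∀ y ∈ stab p E, orderOf y = p →
          Relation.ReflTransGen (R p) E (Subgroup.zpowers y) := by
        intro y hy hyo
        have hV := V_zpowers p y hyo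
        have hYH : Subgroup.zpowers y ≤ stab p E := Subgroup.zpowers_le.2 hy
        obtain ⟨S₁, hS₁⟩ := Cfsg.Agent.Helper14.exists_sylow_sub_ge (stab p E) (Subgroup.zpowers y)
          hYH (isPGroup_of_ea hV.1)
        obtain ⟨S₂, hS₂⟩ := Cfsg.Agent.Helper14.exists_sylow_sub_ge (stab p E) E hEH hEp
        obtain ⟨m, hm, hS⟩ := Cfsg.Agent.Helper14.sylow_sub_conj (stab p E) S₂ S₁
        have h1 : E.map (MulAut.conj m).toMonoidHom ≤
            (S₁ : Subgroup ↥(stab p E)).map (stab p E).subtype := by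
          rw [hS]; exact Subgroup.map_mono hS₂
        have h2 := rtg_of_le_pgroup p _ (Cfsg.Agent.Helper14.sylow_sub_isPGroup (stab p E) S₁) _
          (Subgroup.zpowers y) (ea_conj p m hE) (by rw [card_conj]; exact hEc) hV.1 hV.2 h1 hS₁
        exact ((mem_stab p E m).1 hm).trans h2
      have c1 := claim (x : G) hxH hxo
      rw [Cfsg.Agent.Helper14.mem_map_conj] at hxHg
      have hyo : orderOf (g⁻¹ * (x : G) * g) = p := by
        have h3 := orderOf_conj' g⁻¹ (x : G)
        rw [inv_inv] at h3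
        rw [h3]; exact hxo
      have c2 := rtg_conj p g (claim _ hxHg hyo)
      rw [MonoidHom.map_zpowers] at c2
      have e3 : (MulAut.conj g).toMonoidHom (g⁻¹ * (x : G) * g) = (x : G) := by
        simp [MulAut.conj_apply, mul_assoc]
      rw [e3] at c2
      rw [mem_stab]
      exact c1.trans (rtg_symm p c2)

end Cfsg.Agent.S1336
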