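import Cfsg.Statements.S1441
import Cfsg.Agent.Helper23.Balance

set_option autoImplicit false
open Cfsg
open scoped commutatorElement

namespace Cfsg.Agent.S1441

open Cfsg.Agent.Helper23

/-- An element of `A` of order prime to `|H|` stabilizing the chain centralizes every term. -/
theorem chain_commute {G : Type*} [Group G] [Finite G] (H A : Subgroup G)
    (n : ℕ) (c : Fin (n + 1) → Subgroup G) (hc0 : c 0 = H) (hcn : c (Fin.last n) = ⊥)
    (hanti : Antitone c)
    (htriv : ∀ i : Fin n, ⁅c i.castSucc, A⁆ ≤ c i.succ)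
    (a : G) (ha : a ∈ A) (m : ℕ) (hm : a ^ m = 1) (hcop : m.Coprime (Nat.card H)) :
    ∀ i : Fin (n + 1), ∀ h ∈ c i, a * h = h * a := by
  intro i
  induction i using Fin.reverseInduction with
  | last =>
    intro h hh
    rw [hcn, Subgroup.mem_bot] at hh
    rw [hh, mul_one, one_mul]
  | cast i ih =>
    intro h hh
    have hw : a * h * a⁻¹ * h⁻¹ ∈ c i.succ := by
      have h1 : ⁅h, a⁆ ∈ ⁅c i.castSucc, A⁆ := Subgroup.commutator_mem_commutator hh ha
      have h2 := Subgroup.inv_mem _ (htriv i h1)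
      have e : a * h * a⁻¹ * h⁻¹ = ⁅h, a⁆⁻¹ := by rw [commutatorElement_def]; group
      rw [e]; exact h2
    have hwH : a * h * a⁻¹ * h⁻¹ ∈ H := by
      rw [← hc0]
      exact hanti (Fin.zero_le _) hw
    exact commute_of_stab_coprime (ih _ hw) hcop hm (pow_card_subgroup_eq_one H hwH)

/-- Let G be a finite group, H a solvable subgroup and A a subgroup normalizing H. Suppose there is a chain H = H₀ ≥ H₁ ≥ ⋯ ≥ H_n = 1 of subgroups normal in H and normalized by A such that A acts trivially on each factor H_{i-1}/H_i (that is, [H_{i-1}, A] ≤ H_i). Then every prime dividing the index of C_A(H) in A divides the order of H. -/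
theorem result {G : Type*} [Group G] [Finite G] (H A : Subgroup G) (hH : Group.IsSolvable H) (hA : (A ≤ Subgroup.normalizer (H : Set G)))
    (n : ℕ) (c : Fin (n + 1) → Subgroup G) (hc0 : c 0 = H) (hcn : c (Fin.last n) = ⊥) (hanti : Antitone c)
    (hcN : ∀ i, H ≤ Subgroup.normalizer ((c i : Subgroup G) : Set G)) (hcA : ∀ i, A ≤ Subgroup.normalizer ((c i : Subgroup G) : Set G))
    (htriv : ∀ i : Fin n, ⁅c i.castSucc, A⁆ ≤ c i.succ) :
    ∀ p : ℕ, p.Prime → p ∣ (A ⊓ Subgroup.centralizer (H : Set G)).relIndex A → p ∣ Nat.card H := by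
  intro p hp hdvd
  by_contra hnd
  have hfact : Fact p.Prime := ⟨hp⟩
  obtain ⟨P⟩ : Nonempty (Sylow p A) := inferInstance
  have hle : (P : Subgroup A) ≤ (A ⊓ Subgroup.centralizer (H : Set G)).subgroupOf A := by
    intro x hx
    rw [Subgroup.mem_subgroupOf]
    refine Subgroup.mem_inf.2 ⟨x.2, ?_⟩
    obtain ⟨k, hk⟩ := (IsPGroup.iff_orderOf.1 P.isPGroup') ⟨x, hx⟩
    have hxk : (x : G) ^ p ^ k = 1 := by
      have h1 : (⟨x, hx⟩ : (P : Subgroup A)) ^ p ^ k = 1 := by
        rw [← hk]; exact pow_orderOf_eq_one _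
      have h2 : x ^ p ^ k = 1 := congrArg Subtype.val h1
      exact congrArg Subtype.val h2
    have hcop : (p ^ k).Coprime (Nat.card H) :=
      Nat.Coprime.pow_left k ((Nat.Prime.coprime_iff_not_dvd hp).2 hnd)
    have key := chain_commute H A n c hc0 hcn hanti htriv (x : G) x.2 (p ^ k) hxk hcop 0
    rw [Subgroup.mem_centralizer_iff]
    intro h hh
    rw [← hc0] at hh
    exact (key h hh).symm
  have h1 : ((A ⊓ Subgroup.centralizer (H : Set G)).subgroupOf A).index ∣ (P : Subgroup A).index :=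
    Subgroup.index_dvd_of_le hle
  have h2 : ¬ p ∣ (P : Subgroup A).index := P.not_dvd_index
  exact h2 (hdvd.trans h1)

end Cfsg.Agent.S1441
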