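import Cfsg.Statements.S1460
import Mathlib
import Cfsg.Agent.S0001
import Cfsg.Agent.Helper8.FrobContra

set_option autoImplicit false
open Cfsg
open scoped Pointwise commutatorElement

namespace Cfsg.Agent.S1460

universe u

theorem decomp {G : Type u} [Group G] (K U : Subgroup G) [hKn : K.Normal] (hKU : K ⊔ U = ⊤)
    (g : G) : ∃ u ∈ U, ∃ k ∈ K, g = u * k := by
  have hg : g ∈ (↑(U ⊔ K) : Set G) := by rw [sup_comm, hKU]; exact Subgroup.mem_top g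
  rw [Subgroup.mul_normal] at hg
  obtain ⟨u, hu, k, hk, rfl⟩ := Set.mem_mul.mp hg
  exact ⟨u, hu, k, hk, rfl⟩

theorem normalizer_inf_le_centralizer {G : Type u} [Group G] [Finite G] (K H : Subgroup G)
    [hKn : K.Normal] (hcop : (Nat.card H).Coprime (Nat.card K)) (c : G) (hcK : c ∈ K)
    (hcN : ∀ h ∈ H, c * h * c⁻¹ ∈ H) : c ∈ Subgroup.centralizer (H : Set G) := by
  rw [Subgroup.mem_centralizer_iff]
  intro h hh
  have h1 : c * h * c⁻¹ * h⁻¹ ∈ H ⊓ K := by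
    refine ⟨H.mul_mem (hcN h hh) (H.inv_mem hh), ?_⟩
    have e : c * h * c⁻¹ * h⁻¹ = c * (h * c⁻¹ * h⁻¹) := by group
    rw [e]
    exact K.mul_mem hcK (hKn.conj_mem _ (K.inv_mem hcK) h)
  rw [Subgroup.inf_eq_bot_of_coprime hcop, Subgroup.mem_bot] at h1
  have h2 : c * h * c⁻¹ = h := mul_inv_eq_one.mp h1
  calc h * c = c * h * c⁻¹ * c := by rw [h2]
    _ = c * h := by group

theorem part3 {G : Type u} [Group G] [Finite G] [Group.IsSolvable G] (K U H : Subgroup G)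
    [hKn : K.Normal] (hKU : K ⊔ U = ⊤) (hH : H ≤ U) (hcop : (Nat.card H).Coprime (Nat.card K))
    (g : G) (hg : H.map (MulAut.conj g).toMonoidHom ≤ U) :
    ∃ u ∈ U, ∃ c ∈ K ⊓ Subgroup.centralizer (H : Set G), g = u * c := by
  classical
  obtain ⟨u, hu, k, hk, rfl⟩ := decomp K U hKU g
  have hkU : ∀ h ∈ H, k * h * k⁻¹ ∈ U := by
    intro h hh
    have h1 : (u * k) * h * (u * k)⁻¹ ∈ U := hg (Subgroup.mem_map.mpr ⟨h, hh, rfl⟩)
    have e : k * h * k⁻¹ = u⁻¹ * ((u * k) * h * (u * k)⁻¹) * u := by group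
    rw [e]
    exact U.mul_mem (U.mul_mem (U.inv_mem hu) h1) hu
  have hcomD : ∀ h ∈ H, k * h * k⁻¹ * h⁻¹ ∈ K ⊓ U := by
    intro h hh
    refine ⟨?_, U.mul_mem (hkU h hh) (U.inv_mem (hH hh))⟩
    have e : k * h * k⁻¹ * h⁻¹ = k * (h * k⁻¹ * h⁻¹) := by group
    rw [e]
    exact K.mul_mem hk (hKn.conj_mem _ (K.inv_mem hk) h)
  have hDM : K ⊓ U ≤ (K ⊓ U) ⊔ H := le_sup_left
  have hHM : H ≤ (K ⊓ U) ⊔ H := le_sup_right
  have hH₁M : H.map (MulAut.conj k).toMonoidHom ≤ (K ⊓ U) ⊔ H := by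
    rintro x ⟨h, hh, rfl⟩
    have e : (MulAut.conj k).toMonoidHom h = (k * h * k⁻¹ * h⁻¹) * h := by
      show k * h * k⁻¹ = (k * h * k⁻¹ * h⁻¹) * h
      group
    rw [e]
    exact Subgroup.mul_mem _ (hDM (hcomD h hh)) (hHM hh)
  have hHD : H ⊔ (K ⊓ U) = (K ⊓ U) ⊔ H := sup_comm _ _
  have hH₁D : H.map (MulAut.conj k).toMonoidHom ⊔ (K ⊓ U) = (K ⊓ U) ⊔ H := by
    apply le_antisymm (sup_le hH₁M hDM)
    apply sup_le le_sup_right
    intro h hh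
    have hmem : (k * h * k⁻¹ * h⁻¹)⁻¹ * (k * h * k⁻¹)
        ∈ H.map (MulAut.conj k).toMonoidHom ⊔ (K ⊓ U) :=
      Subgroup.mul_mem _ (Subgroup.mem_sup_right (Subgroup.inv_mem _ (hcomD h hh)))
        (Subgroup.mem_sup_left (Subgroup.mem_map.mpr ⟨h, hh, rfl⟩))
    have e : (k * h * k⁻¹ * h⁻¹)⁻¹ * (k * h * k⁻¹) = h := by group
    rw [e] at hmem
    exact hmem
  have hHND : H ≤ Subgroup.normalizer ((K ⊓ U : Subgroup G) : Set G) := by
    intro h hh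
    rw [Subgroup.mem_set_normalizer_iff]
    intro n
    constructor
    · rintro ⟨hnK, hnU⟩
      exact ⟨hKn.conj_mem n hnK h, U.mul_mem (U.mul_mem (hH hh) hnU) (U.inv_mem (hH hh))⟩
    · rintro ⟨hnK, hnU⟩
      have e : n = h⁻¹ * (h * n * h⁻¹) * h⁻¹⁻¹ := by group
      rw [e]
      exact ⟨hKn.conj_mem _ hnK h⁻¹,
        U.mul_mem (U.mul_mem (U.inv_mem (hH hh)) hnU) (U.inv_mem (U.inv_mem (hH hh)))⟩
  have hMND : (K ⊓ U) ⊔ H ≤ Subgroup.normalizer ((K ⊓ U : Subgroup G) : Set G) :=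
    sup_le Subgroup.le_normalizer hHND
  have hnorm : ((K ⊓ U).subgroupOf ((K ⊓ U) ⊔ H)).Normal := by
    constructor
    intro b hb m
    rw [Subgroup.mem_subgroupOf] at hb ⊢
    exact (Subgroup.mem_set_normalizer_iff.mp (hMND m.2) b).mp hb
  have hDK : Nat.card (K ⊓ U : Subgroup G) ∣ Nat.card K := Subgroup.card_dvd_of_le inf_le_left
  have hc1 : (Nat.card (H.subgroupOf ((K ⊓ U) ⊔ H))).Coprime
      (Nat.card ((K ⊓ U).subgroupOf ((K ⊓ U) ⊔ H))) := by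
    apply Nat.Coprime.coprime_dvd_left (S0001.card_subgroupOf_dvd H _)
    apply Nat.Coprime.coprime_dvd_right ((S0001.card_subgroupOf_dvd (K ⊓ U) _).trans hDK)
    exact hcop
  have hH₁card : Nat.card (H.map (MulAut.conj k).toMonoidHom) = Nat.card H :=
    Subgroup.card_map_of_injective (MulAut.conj k).injective
  have hc2 : (Nat.card ((H.map (MulAut.conj k).toMonoidHom).subgroupOf ((K ⊓ U) ⊔ H))).Coprime
      (Nat.card ((K ⊓ U).subgroupOf ((K ⊓ U) ⊔ H))) := by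
    apply Nat.Coprime.coprime_dvd_left (S0001.card_subgroupOf_dvd _ _)
    apply Nat.Coprime.coprime_dvd_right ((S0001.card_subgroupOf_dvd (K ⊓ U) _).trans hDK)
    rw [hH₁card]; exact hcop
  obtain ⟨l, hlM, hl⟩ := S0001.conjTo_of_subgroup ((K ⊓ U) ⊔ H) H
    (H.map (MulAut.conj k).toMonoidHom) hHM hH₁M
    (S0001.auxA _ ↥((K ⊓ U) ⊔ H) rfl ((K ⊓ U).subgroupOf ((K ⊓ U) ⊔ H))
      (H.subgroupOf ((K ⊓ U) ⊔ H))
      ((H.map (MulAut.conj k).toMonoidHom).subgroupOf ((K ⊓ U) ⊔ H)) hnorm inferInstance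
      (S0001.sup_subgroupOf_top H (K ⊓ U) _ hHM hDM hHD)
      (S0001.sup_subgroupOf_top _ (K ⊓ U) _ hH₁M hDM hH₁D) hc1 hc2)
  have hlmem : l ∈ (↑((K ⊓ U) ⊔ H) : Set G) := hlM
  rw [Subgroup.coe_mul_of_right_le_normalizer_left (K ⊓ U) H hHND] at hlmem
  obtain ⟨d, hd, h₀, hh₀, rfl⟩ := Set.mem_mul.mp hlmem
  have hcK : d⁻¹ * k ∈ K := K.mul_mem (K.inv_mem hd.1) hk
  have hcN : ∀ h ∈ H, (d⁻¹ * k) * h * (d⁻¹ * k)⁻¹ ∈ H := by
    intro h hh
    have h1 : k * h * k⁻¹ ∈ H.map (MulAut.conj k).toMonoidHom :=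
      Subgroup.mem_map.mpr ⟨h, hh, rfl⟩
    have h2 := (hl _).mp h1
    have e : (d⁻¹ * k) * h * (d⁻¹ * k)⁻¹
        = h₀ * ((d * h₀)⁻¹ * (k * h * k⁻¹) * (d * h₀)) * h₀⁻¹ := by group
    rw [e]
    exact H.mul_mem (H.mul_mem hh₀ h2) (H.inv_mem hh₀)
  exact ⟨u * d, U.mul_mem hu hd.2, d⁻¹ * k,
    ⟨hcK, normalizer_inf_le_centralizer K H hcop _ hcK hcN⟩, by group⟩

theorem part2 {G : Type u} [Group G] [Finite G] [Group.IsSolvable G] (K U H : Subgroup G)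
    [hKn : K.Normal] (hKU : K ⊔ U = ⊤) (hH : H ≤ U) (hcop : (Nat.card H).Coprime (Nat.card K)) :
    Subgroup.normalizer (H : Set G) = (K ⊓ Subgroup.centralizer (H : Set G)) ⊔
      (U ⊓ Subgroup.normalizer (H : Set G)) := by
  apply le_antisymm
  · intro g hg
    have hgH : H.map (MulAut.conj g).toMonoidHom ≤ U := by
      rintro x ⟨h, hh, rfl⟩
      exact hH ((Subgroup.mem_set_normalizer_iff.mp hg h).mp hh)
    obtain ⟨u, hu, c, hc, rfl⟩ := part3 K U H hKU hH hcop g hgH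
    have hcN : c ∈ Subgroup.normalizer (H : Set G) :=
      Subgroup.centralizer_le_normalizer _ hc.2
    have huN : u ∈ Subgroup.normalizer (H : Set G) := by
      have e : u = (u * c) * c⁻¹ := by group
      rw [e]
      exact Subgroup.mul_mem _ hg (Subgroup.inv_mem _ hcN)
    exact Subgroup.mul_mem _ (Subgroup.mem_sup_right ⟨hu, huN⟩) (Subgroup.mem_sup_left hc)
  · apply sup_le
    · exact inf_le_right.trans (Subgroup.centralizer_le_normalizer _)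
    · exact inf_le_right

theorem part1 {G : Type u} [Group G] [Finite G] (K U H : Subgroup G)
    [hKn : K.Normal] (hKU : K ⊔ U = ⊤) (hH : H ≤ U) (hcop : (Nat.card H).Coprime (Nat.card K)) :
    H ⊓ commutator G = H ⊓ ⁅U, U⁆ := by
  classical
  have hU'U : ⁅U, U⁆ ≤ U := Subgroup.commutator_le.mpr (fun a ha b hb =>
    U.mul_mem (U.mul_mem (U.mul_mem ha hb) (U.inv_mem ha)) (U.inv_mem hb))
  have hU'norm : ∀ v ∈ U, ∀ c ∈ ⁅U, U⁆, v * c * v⁻¹ ∈ ⁅U, U⁆ := by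
    intro v hv c hc
    have h1 : ⁅v, c⁆ ∈ ⁅U, U⁆ := Subgroup.commutator_mem_commutator hv (hU'U hc)
    have e : v * c * v⁻¹ = ⁅v, c⁆ * c := by rw [commutatorElement_def]; group
    rw [e]; exact Subgroup.mul_mem _ h1 hc
  have hG' : commutator G ≤ K ⊔ ⁅U, U⁆ := by
    show ⁅(⊤ : Subgroup G), ⊤⁆ ≤ K ⊔ ⁅U, U⁆
    rw [Subgroup.commutator_le]
    intro g₁ _ g₂ _
    obtain ⟨u₁, hu₁, k₁, hk₁, rfl⟩ := decomp K U hKU g₁
    obtain ⟨u₂, hu₂, k₂, hk₂, rfl⟩ := decomp K U hKU g₂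
    have h1 : (QuotientGroup.mk' K) ⁅u₁ * k₁, u₂ * k₂⁆ = (QuotientGroup.mk' K) ⁅u₁, u₂⁆ := by
      have e1 : (QuotientGroup.mk' K) k₁ = 1 := (QuotientGroup.eq_one_iff k₁).mpr hk₁
      have e2 : (QuotientGroup.mk' K) k₂ = 1 := (QuotientGroup.eq_one_iff k₂).mpr hk₂
      simp only [map_commutatorElement, map_mul, e1, e2, mul_one]
    have h2 : (⁅u₁, u₂⁆)⁻¹ * ⁅u₁ * k₁, u₂ * k₂⁆ ∈ K := QuotientGroup.eq.mp h1.symm
    have hmem : ⁅u₁, u₂⁆ * ((⁅u₁, u₂⁆)⁻¹ * ⁅u₁ * k₁, u₂ * k₂⁆) ∈ K ⊔ ⁅U, U⁆ :=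
      Subgroup.mul_mem _ (Subgroup.mem_sup_right (Subgroup.commutator_mem_commutator hu₁ hu₂))
        (Subgroup.mem_sup_left h2)
    have e : ⁅u₁, u₂⁆ * ((⁅u₁, u₂⁆)⁻¹ * ⁅u₁ * k₁, u₂ * k₂⁆) = ⁅u₁ * k₁, u₂ * k₂⁆ := by group
    rw [e] at hmem
    exact hmem
  apply le_antisymm
  · rintro x ⟨hxH, hxG'⟩
    refine ⟨hxH, ?_⟩
    have hx : x ∈ (↑(K ⊔ ⁅U, U⁆) : Set G) := hG' hxG'
    rw [Subgroup.normal_mul] at hx
    obtain ⟨k, hk, c, hc, rfl⟩ := Set.mem_mul.mp hx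
    have hkU : k ∈ U := by
      have e : k = (k * c) * c⁻¹ := by group
      rw [e]; exact U.mul_mem (hH hxH) (U.inv_mem (hU'U hc))
    have hpow : (k * c) ^ Nat.card H = 1 := by
      have := pow_card_eq_one' (G := H) (x := ⟨k * c, hxH⟩)
      exact congrArg Subtype.val this
    have h1 := Helper8.mul_pow_mem ⁅U, U⁆ k (fun a ha => hU'norm k hkU a ha) (k * c * k⁻¹)
      (hU'norm k hkU c hc) (Nat.card H)
    have e : k * c * k⁻¹ * k = k * c := by group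
    rw [e, hpow, one_mul] at h1
    have hkm : k ^ Nat.card H ∈ ⁅U, U⁆ := by simpa using Subgroup.inv_mem _ h1
    have hcop' : (Nat.card H).Coprime (orderOf k) :=
      Nat.Coprime.coprime_dvd_right (Subgroup.orderOf_dvd_natCard K hk) hcop
    obtain ⟨a, ha⟩ := exists_pow_eq_self_of_coprime hcop'
    have hkU' : k ∈ ⁅U, U⁆ := by rw [← ha]; exact Subgroup.pow_mem _ hkm a
    exact Subgroup.mul_mem _ hkU' hc
  · rintro x ⟨hxH, hxU'⟩
    exact ⟨hxH, Subgroup.commutator_mono le_top le_top hxU'⟩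

/-- Let G be a finite solvable group, K a normal subgroup and U a subgroup with G = KU, and H ≤ U a subgroup whose order is coprime to that of K. Then H ∩ G' = H ∩ U'; N_G(H) is generated by K ∩ C_G(H) and U ∩ N_G(H); and if gHg⁻¹ ≤ U for some g ∈ G then g = u c with u ∈ U and c ∈ K ∩ C_G(H). -/
theorem result {G : Type*} [Group G] [Finite G] [Group.IsSolvable G] (K U H : Subgroup G) [K.Normal] (hKU : K ⊔ U = ⊤) (hH : H ≤ U) (hcop : (Nat.card H).Coprime (Nat.card K)) :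
    H ⊓ commutator G = H ⊓ ⁅U, U⁆ ∧
      Subgroup.normalizer (H : Set G) = (K ⊓ Subgroup.centralizer (H : Set G)) ⊔ (U ⊓ Subgroup.normalizer (H : Set G)) ∧
      ∀ g : G, H.map (MulAut.conj g).toMonoidHom ≤ U → ∃ u ∈ U, ∃ c ∈ K ⊓ Subgroup.centralizer (H : Set G), g = u * c := by
  exact ⟨part1 K U H hKU hH hcop, part2 K U H hKU hH hcop,
    fun g hg => part3 K U H hKU hH hcop g hg⟩

end Cfsg.Agent.S1460
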