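import Cfsg.Statements.S1461
import Cfsg.Agent.Helper20.PLen

set_option autoImplicit false
open Cfsg

namespace Cfsg.Agent.S1461

open Cfsg.Agent.Helper23 Cfsg.Agent.Helper20.PLen
open scoped commutatorElement

theorem mem_smul_sylow {G : Type*} [Group G] {p : ℕ} (S : Sylow p G) (g x : G) :
    x ∈ ((g • S : Sylow p G) : Subgroup G) ↔ g⁻¹ * x * g ∈ (S : Subgroup G) := by
  rw [Sylow.smul_def, Sylow.pointwise_smul_def, Subgroup.mem_pointwise_smul_iff_inv_smul_mem]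
  simp [MulAut.smul_def]

/-- `G = N_G(S) K` with `K = O_{p'}(G)` when `G` has `p`-length one. -/
theorem core_facts {G : Type*} [Group G] [Finite G] (p : ℕ) [Fact p.Prime]
    (hpl : PLengthLE p 1 G) (S : Sylow p G) :
    ∃ K : Subgroup G, K.Normal ∧ (Nat.card K).Coprime p ∧
      ∀ x : G, ∃ n ∈ Subgroup.normalizer ((S : Subgroup G) : Set G), ∃ k ∈ K, x = n * k := by
  obtain ⟨K, U, hKn, hUn, hKU, hKc, ⟨m, hm⟩, hUi⟩ := plen_one_data p hpl
  refine ⟨K, hKn, hKc, ?_⟩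
  haveI := hKn
  haveI := hUn
  have hSU : (S : Subgroup G) ≤ U := sylow_le_of_normal_of_not_dvd_index S hUn hUi
  have hπs : Function.Surjective (QuotientGroup.mk' K) := QuotientGroup.mk'_surjective K
  have hcardU : Nat.card (U.map (QuotientGroup.mk' K)) = p ^ m := by
    have := Subgroup.relIndex_ker (QuotientGroup.mk' K) (K := U)
    rw [QuotientGroup.ker_mk'] at this
    rw [← this, hm]
  have hUp : IsPGroup p (U.map (QuotientGroup.mk' K)) := IsPGroup.of_card hcardU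
  have hUle : U.map (QuotientGroup.mk' K) ≤ (S.mapSurjective hπs : Sylow p (G ⧸ K)) :=
    le_sylow_of_normal (hUn.map _ hπs) hUp _
  have hUS : ∀ u ∈ U, ∃ s ∈ (S : Subgroup G), ∃ k ∈ K, u = s * k := by
    intro u hu
    have h1 : QuotientGroup.mk' K u ∈
        ((S.mapSurjective hπs : Sylow p (G ⧸ K)) : Subgroup (G ⧸ K)) :=
      hUle (Subgroup.mem_map_of_mem _ hu)
    rw [Sylow.coe_mapSurjective] at h1
    obtain ⟨s, hs, hsu⟩ := Subgroup.mem_map.mp h1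
    exact ⟨s, hs, s⁻¹ * u, QuotientGroup.eq.mp hsu, by group⟩
  have hfr : Subgroup.normalizer ((S : Subgroup G) : Set G) ⊔ U = ⊤ :=
    Sylow.normalizer_sup_eq_top' S hSU
  intro x
  have hx : x ∈ Subgroup.normalizer ((S : Subgroup G) : Set G) ⊔ U := by
    rw [hfr]; exact Subgroup.mem_top x
  obtain ⟨n, hn, u, hu, rfl⟩ := Subgroup.mem_sup_of_normal_right.mp hx
  obtain ⟨s, hs, k, hk, rfl⟩ := hUS u hu
  exact ⟨n * s, Subgroup.mul_mem _ hn (Subgroup.le_normalizer hs), k, hk, by group⟩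

theorem eq_one_of_mem {G : Type*} [Group G] {p : ℕ} (S : Sylow p G)
    (K : Subgroup G) (hKc : (Nat.card K).Coprime p) {z : G} (hzS : z ∈ (S : Subgroup G))
    (hzK : z ∈ K) : z = 1 := by
  apply eq_one_of_isPGroup_of_pow_eq_one S.2 hzS hKc
  have := pow_card_eq_one' (G := K) (x := ⟨z, hzK⟩)
  exact congrArg Subtype.val this

theorem comm_of_conj_mem {G : Type*} [Group G] {p : ℕ} (S : Sylow p G)
    (K : Subgroup G) (hKn : K.Normal) (hKc : (Nat.card K).Coprime p) {k y : G} (hk : k ∈ K)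
    (hy : y ∈ (S : Subgroup G)) (h2 : k * y * k⁻¹ ∈ (S : Subgroup G)) : y * k = k * y := by
  have h3 : k * y * k⁻¹ * y⁻¹ ∈ (S : Subgroup G) :=
    Subgroup.mul_mem _ h2 (Subgroup.inv_mem _ hy)
  have h4 : k * y * k⁻¹ * y⁻¹ ∈ K := by
    have : k * y * k⁻¹ * y⁻¹ = k * (y * k⁻¹ * y⁻¹) := by group
    rw [this]
    exact K.mul_mem hk (hKn.conj_mem _ (K.inv_mem hk) y)
  have h5 := eq_one_of_mem S K hKc h3 h4
  calc y * k = (k * y * k⁻¹ * y⁻¹)⁻¹ * (k * y) := by group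
    _ = k * y := by rw [h5, inv_one, one_mul]

theorem part_one {G : Type*} [Group G] {p : ℕ} (S : Sylow p G)
    (N K : Subgroup G) (hKn : K.Normal) (hKc : (Nat.card K).Coprime p)
    (hSN : (S : Subgroup G) ≤ N) (hfac : ∀ x : G, ∃ n ∈ N, ∃ k ∈ K, x = n * k)
    (hSG : (S : Subgroup G) ≤ commutator G) : (S : Subgroup G) ≤ ⁅N, N⁆ := by
  haveI := hKn
  have hDN : ⁅N, N⁆ ≤ N := Subgroup.commutator_le.mpr (fun a ha b hb => by
    rw [commutatorElement_def]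
    exact N.mul_mem (N.mul_mem (N.mul_mem ha hb) (N.inv_mem ha)) (N.inv_mem hb))
  have hDnorm : ∀ n ∈ N, ∀ d ∈ ⁅N, N⁆, n * d * n⁻¹ ∈ ⁅N, N⁆ := by
    intro n hn d hd
    have : n * d * n⁻¹ = ⁅n, d⁆ * d := by rw [commutatorElement_def]; group
    rw [this]
    exact Subgroup.mul_mem _ (Subgroup.commutator_mem_commutator hn (hDN hd)) hd
  have hGD : commutator G ≤ ⁅N, N⁆ ⊔ K := by
    rw [commutator_def, Subgroup.commutator_le]
    intro g₁ _ g₂ _
    obtain ⟨n₁, hn₁, k₁, hk₁, rfl⟩ := hfac g₁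
    obtain ⟨n₂, hn₂, k₂, hk₂, rfl⟩ := hfac g₂
    have hq : (QuotientGroup.mk' K) ⁅n₁ * k₁, n₂ * k₂⁆ = (QuotientGroup.mk' K) ⁅n₁, n₂⁆ := by
      have e1 : (QuotientGroup.mk' K) k₁ = 1 := by
        rw [QuotientGroup.mk'_apply, QuotientGroup.eq_one_iff]; exact hk₁
      have e2 : (QuotientGroup.mk' K) k₂ = 1 := by
        rw [QuotientGroup.mk'_apply, QuotientGroup.eq_one_iff]; exact hk₂
      rw [map_commutatorElement, map_commutatorElement, map_mul, map_mul, e1, e2, mul_one,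
        mul_one]
    have hmem : ⁅n₁, n₂⁆⁻¹ * ⁅n₁ * k₁, n₂ * k₂⁆ ∈ K := QuotientGroup.eq.mp hq.symm
    have : ⁅n₁ * k₁, n₂ * k₂⁆ = ⁅n₁, n₂⁆ * (⁅n₁, n₂⁆⁻¹ * ⁅n₁ * k₁, n₂ * k₂⁆) := by
      rw [mul_inv_cancel_left]
    rw [this]
    exact Subgroup.mul_mem_sup (Subgroup.commutator_mem_commutator hn₁ hn₂) hmem
  intro s hs
  have hs' : s ∈ ⁅N, N⁆ ⊔ K := hGD (hSG hs)
  obtain ⟨d, hd, k, hk, rfl⟩ := Subgroup.mem_sup_of_normal_right.mp hs'
  have hkN : k ∈ N := by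
    have : k = d⁻¹ * (d * k) := by group
    rw [this]
    exact N.mul_mem (N.inv_mem (hDN hd)) (hSN hs)
  have hpow : ∀ j : ℕ, ∃ d' ∈ ⁅N, N⁆, (d * k) ^ j = d' * k ^ j := by
    intro j
    induction j with
    | zero => exact ⟨1, Subgroup.one_mem _, by simp⟩
    | succ j ih =>
      obtain ⟨d', hd', hj⟩ := ih
      refine ⟨d' * (k ^ j * d * (k ^ j)⁻¹),
        Subgroup.mul_mem _ hd' (hDnorm _ (N.pow_mem hkN j) d hd), ?_⟩
      rw [pow_succ (d * k) j, hj, pow_succ k j]; group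
  obtain ⟨d', hd', hc⟩ := hpow (orderOf k)
  rw [pow_orderOf_eq_one, mul_one] at hc
  obtain ⟨a, ha⟩ := S.2 ⟨d * k, hs⟩
  have ha' : (d * k) ^ p ^ a = 1 := congrArg Subtype.val ha
  have hcop : (orderOf k).Coprime (p ^ a) :=
    Nat.Coprime.pow_right a
      (Nat.Coprime.coprime_dvd_left (Subgroup.orderOf_dvd_natCard K hk) hKc)
  exact mem_of_pow_mem_of_coprime hcop (by rw [hc]; exact hd')
    (by rw [ha']; exact Subgroup.one_mem _)

/-- Let G be a finite solvable group, p a prime with G = O_{p',p,p'}(G), and S a Sylow p-subgroup. Then: if S ≤ G' then S ≤ [N_G(S), N_G(S)]; if Y ⊆ S and xYx⁻¹ ⊆ S then x = g c for some g ∈ N_G(S) and c centralizing Y; and for every p-subgroup Q there is x ∈ C_G(Q ∩ S) with xQx⁻¹ ≤ S. -/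
theorem result {G : Type*} [Group G] [Finite G] [Group.IsSolvable G] (p : ℕ) [Fact p.Prime] (hpl : Cfsg.PLengthLE p 1 G) (S : Sylow p G) :
    ((S : Subgroup G) ≤ commutator G → (S : Subgroup G) ≤ ⁅Subgroup.normalizer ((S : Subgroup G) : Set G), Subgroup.normalizer ((S : Subgroup G) : Set G)⁆) ∧
      (∀ (Y : Set G) (x : G), Y ⊆ (S : Subgroup G) → (fun y => x * y * x⁻¹) '' Y ⊆ (S : Subgroup G) →
        ∃ g ∈ Subgroup.normalizer ((S : Subgroup G) : Set G), ∃ c ∈ Subgroup.centralizer Y, g * c = x) ∧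
      ∀ Q : Subgroup G, IsPGroup p Q → ∃ x ∈ Subgroup.centralizer ((Q ⊓ (S : Subgroup G) : Subgroup G) : Set G), Q.map (MulAut.conj x).toMonoidHom ≤ (S : Subgroup G) := by
  obtain ⟨K, hKn, hKc, hfac⟩ := core_facts p hpl S
  refine ⟨?_, ?_, ?_⟩
  · intro hSG
    exact part_one S _ K hKn hKc Subgroup.le_normalizer hfac hSG
  · intro Y x hY hxY
    obtain ⟨n, hn, k, hk, rfl⟩ := hfac x
    refine ⟨n, hn, k, ?_, rfl⟩
    rw [Subgroup.mem_centralizer_iff]
    intro y hy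
    have h1 : n * k * y * (n * k)⁻¹ ∈ (S : Subgroup G) := hxY ⟨y, hy, rfl⟩
    have h2 : k * y * k⁻¹ ∈ (S : Subgroup G) := by
      apply ((Subgroup.mem_normalizer_iff.mp hn) _).mpr
      have : n * (k * y * k⁻¹) * n⁻¹ = n * k * y * (n * k)⁻¹ := by group
      rw [this]; exact h1
    exact comm_of_conj_mem S K hKn hKc hk (hY hy) h2
  · intro Q hQ
    obtain ⟨P', hQP'⟩ := hQ.exists_le_sylow
    obtain ⟨g, rfl⟩ := MulAction.exists_smul_eq G S P'
    obtain ⟨n, hn, k, hk, hgk⟩ := hfac g⁻¹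
    have hkQ : ∀ q ∈ Q, k * q * k⁻¹ ∈ (S : Subgroup G) := by
      intro q hq
      have h1 : g⁻¹ * q * g ∈ (S : Subgroup G) := (mem_smul_sylow S g q).mp (hQP' hq)
      apply ((Subgroup.mem_normalizer_iff.mp hn) _).mpr
      have : n * (k * q * k⁻¹) * n⁻¹ = g⁻¹ * q * g := by
        have hg : g = (n * k)⁻¹ := by rw [← hgk, inv_inv]
        rw [hg]; group
      rw [this]; exact h1
    refine ⟨k, ?_, ?_⟩
    · rw [Subgroup.mem_centralizer_iff]
      intro z hz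
      have hzQ : z ∈ Q := (Subgroup.mem_inf.mp hz).1
      have hzS : z ∈ (S : Subgroup G) := (Subgroup.mem_inf.mp hz).2
      exact comm_of_conj_mem S K hKn hKc hk hzS (hkQ z hzQ)
    · rintro _ ⟨q, hq, rfl⟩
      have : (MulAut.conj k).toMonoidHom q = k * q * k⁻¹ := rfl
      rw [this]; exact hkQ q hq

end Cfsg.Agent.S1461
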