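import Cfsg.Statements.S1463
import Cfsg.Agent.Helper3.GL2Odd
-- import your own Cfsg.Agent.* helpers here

set_option autoImplicit false
open scoped MatrixGroups
open Cfsg

namespace Cfsg.Agent.S1463

/-- the matrix of an element of a subgroup of `GL₂` -/
def mat {F : Type*} [Field F] {H : Subgroup (GL (Fin 2) F)} (x : H) :
    Matrix (Fin 2) (Fin 2) F :=
  ((x : GL (Fin 2) F) : Matrix (Fin 2) (Fin 2) F)

theorem mat_mul {F : Type*} [Field F] {H : Subgroup (GL (Fin 2) F)} (x y : H) :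
    mat (x * y) = mat x * mat y := rfl

theorem mat_one {F : Type*} [Field F] {H : Subgroup (GL (Fin 2) F)} :
    mat (1 : H) = 1 := rfl

theorem mat_pow {F : Type*} [Field F] {H : Subgroup (GL (Fin 2) F)} (x : H) (k : ℕ) :
    mat (x ^ k) = mat x ^ k := by
  induction k with
  | zero => rw [pow_zero, pow_zero]; rfl
  | succ k ih => rw [pow_succ, pow_succ, mat_mul, ih]

theorem mat_inj {F : Type*} [Field F] {H : Subgroup (GL (Fin 2) F)} :
    Function.Injective (mat : H → Matrix (Fin 2) (Fin 2) F) :=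
  fun _ _ h => Subtype.ext (Units.ext h)

theorem mat_mul_inv {F : Type*} [Field F] {H : Subgroup (GL (Fin 2) F)} (x : H) :
    mat x * mat x⁻¹ = 1 := by
  rw [← mat_mul, mul_inv_cancel]; rfl

theorem mat_inv_mul {F : Type*} [Field F] {H : Subgroup (GL (Fin 2) F)} (x : H) :
    mat x⁻¹ * mat x = 1 := by
  rw [← mat_mul, inv_mul_cancel]; rfl

theorem comm_of_conj_comm {F : Type*} [Field F] (p : ℕ) [Fact p.Prime] [CharP F p] (hp : p ≠ 2)
    (H : Subgroup (GL (Fin 2) F)) [Finite H] (hodd : Odd (Nat.card H))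
    (c n : H) (hc : ¬ p ∣ orderOf c) (hd : (n * c * n⁻¹) * c = c * (n * c * n⁻¹)) :
    n * c = c * n := by
  have hpP : p.Prime := Fact.out
  have h2 : (2 : F) ≠ 0 := by
    intro h
    have h' : ((2 : ℕ) : F) = 0 := by exact_mod_cast h
    rw [CharP.cast_eq_zero_iff F p] at h'
    exact hp ((Nat.prime_dvd_prime_iff_eq hpP Nat.prime_two).1 h')
  apply mat_inj
  rw [mat_mul, mat_mul]
  by_cases hs : Cfsg.Agent.Helper3.GL2Odd.NonScalar (mat c)
  · refine Cfsg.Agent.Helper3.GL2Odd.commute_of_conj_commute h2 hs (orderOf c) ?_ ?_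
      (mat_mul_inv n) (mat_inv_mul n) (orderOf n) ?_ ?_ ?_
    · rw [Ne, CharP.cast_eq_zero_iff F p]; exact hc
    · rw [← mat_pow, pow_orderOf_eq_one]; rfl
    · exact Odd.of_dvd_nat hodd (orderOf_dvd_natCard n)
    · rw [← mat_pow, pow_orderOf_eq_one]; rfl
    · exact congrArg mat hd
  · have hs' : ∃ t : F, mat c = t • (1 : Matrix (Fin 2) (Fin 2) F) := by
      by_contra hcon
      apply hs
      intro t ht
      exact hcon ⟨t, ht⟩
    obtain ⟨t, ht⟩ := hs'
    rw [ht, Matrix.mul_smul, Matrix.smul_mul, mul_one, one_mul]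

/-- Let F be a field of odd characteristic p and H a finite subgroup of odd order of GL(2, F) that leaves no 1-dimensional subspace of F² invariant. Then p does not divide the order of H. -/
theorem result {F : Type*} [Field F] (p : ℕ) [Fact p.Prime] [CharP F p] (hp : p ≠ 2)
    (H : Subgroup (GL (Fin 2) F)) [Finite H] (hodd : Odd (Nat.card H))
    (hirr : ∀ v : Fin 2 → F, v ≠ 0 → ∃ g ∈ H, (g : Matrix (Fin 2) (Fin 2) F).mulVec v ∉ Submodule.span F {v}) :
    ¬ p ∣ Nat.card H := by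
  intro hpdvd
  classical
  have hpP : p.Prime := Fact.out
  -- elements of Sylow `r`-subgroups, `r ≠ p`, have order prime to `p`
  have hord : ∀ (r : ℕ) [Fact r.Prime], r ≠ p → ∀ R : Sylow r H, ∀ a ∈ (R : Subgroup H),
      ¬ p ∣ orderOf a := by
    intro r _ hrp R a ha hpa
    obtain ⟨j, hj⟩ := R.isPGroup' ⟨a, ha⟩
    have h1 : orderOf a ∣ r ^ j := by
      apply orderOf_dvd_of_pow_eq_one
      have := congrArg Subtype.val hj
      simpa using this
    have h3 := hpP.dvd_of_dvd_pow (hpa.trans h1)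
    exact hrp ((Nat.prime_dvd_prime_iff_eq hpP (Fact.out)).1 h3).symm
  -- Sylow `r`-subgroups are abelian
  have hab : ∀ (r : ℕ) [Fact r.Prime], r ≠ p → ∀ R : Sylow r H, ∀ a ∈ (R : Subgroup H),
      ∀ b ∈ (R : Subgroup H), a * b = b * a := by
    intro r _ hrp R
    by_contra hcon
    push Not at hcon
    obtain ⟨a₀, ha₀, b₀, hb₀, hab₀⟩ := hcon
    have hZ : Subgroup.center (R : Subgroup H) ≠ ⊤ := by
      intro htop
      have h1 : (⟨a₀, ha₀⟩ : (R : Subgroup H)) ∈ Subgroup.center (R : Subgroup H) := by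
        rw [htop]; trivial
      have h2 := Subgroup.mem_center_iff.1 h1 ⟨b₀, hb₀⟩
      exact hab₀ (congrArg Subtype.val h2).symm
    haveI : Nontrivial (↥(R : Subgroup H) ⧸ Subgroup.center ↥(R : Subgroup H)) := by
      by_contra h
      rw [not_nontrivial_iff_subsingleton] at h
      apply hZ
      rw [eq_top_iff]
      intro x _
      rw [← QuotientGroup.eq_one_iff]
      exact Subsingleton.elim _ _
    have hQp : IsPGroup r (↥(R : Subgroup H) ⧸ Subgroup.center ↥(R : Subgroup H)) :=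
      R.isPGroup'.to_quotient _
    haveI := hQp.center_nontrivial
    obtain ⟨⟨abar, habar⟩, habar1⟩ :=
      exists_ne (1 : Subgroup.center (↥(R : Subgroup H) ⧸ Subgroup.center ↥(R : Subgroup H)))
    obtain ⟨a, rfl⟩ := QuotientGroup.mk_surjective abar
    have haZ : a ∉ Subgroup.center (R : Subgroup H) := by
      intro h
      apply habar1
      apply Subtype.ext
      exact (QuotientGroup.eq_one_iff a).2 h
    apply haZ
    rw [Subgroup.mem_center_iff]
    intro n
    have hz : n * a * n⁻¹ * a⁻¹ ∈ Subgroup.center (R : Subgroup H) := by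
      rw [← QuotientGroup.eq_one_iff]
      have h1 := Subgroup.mem_center_iff.1 habar (n : ↥(R : Subgroup H) ⧸ _)
      rw [QuotientGroup.mk_mul, QuotientGroup.mk_mul, QuotientGroup.mk_mul, h1,
        QuotientGroup.mk_inv, QuotientGroup.mk_inv]
      group
    have hz2 := Subgroup.mem_center_iff.1 hz a
    have hd : (n * a * n⁻¹) * a = a * (n * a * n⁻¹) := by
      have e : n * a * n⁻¹ = (n * a * n⁻¹ * a⁻¹) * a := by group
      calc (n * a * n⁻¹) * a = ((n * a * n⁻¹ * a⁻¹) * a) * a := by rw [← e]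
        _ = (a * (n * a * n⁻¹ * a⁻¹)) * a := by rw [hz2]
        _ = a * ((n * a * n⁻¹ * a⁻¹) * a) := by rw [mul_assoc]
        _ = a * (n * a * n⁻¹) := by rw [← e]
    have hd' : ((n : H) * (a : H) * (n : H)⁻¹) * (a : H) = (a : H) * ((n : H) * (a : H) * (n : H)⁻¹) :=
      congrArg Subtype.val hd
    have := comm_of_conj_comm p hp H hodd (a : H) (n : H) (hord r hrp R a a.2) hd'
    exact Subtype.ext this
  -- normalizers of Sylow `r`-subgroups centralize them
  have hNC : ∀ (r : ℕ) [Fact r.Prime], r ≠ p → ∀ R : Sylow r H,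
      Subgroup.normalizer ((R : Subgroup H) : Set H) ≤
        Subgroup.centralizer ((R : Subgroup H) : Set H) := by
    intro r _ hrp R n hn
    rw [Subgroup.mem_centralizer_iff]
    intro c hc
    have hconj : n * c * n⁻¹ ∈ (R : Subgroup H) := (Subgroup.mem_normalizer_iff.1 hn c).1 hc
    have hd := hab r hrp R _ hconj c hc
    exact (comm_of_conj_comm p hp H hodd c n (hord r hrp R c hc) hd).symm
  -- normal `r`-complements containing all elements of order `p`
  have key : ∀ r : ℕ, r.Prime → r ≠ p → ∃ N : Subgroup H, N.Normal ∧ ¬ r ∣ Nat.card N ∧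
      ∀ x : H, x ^ p = 1 → x ∈ N := by
    intro r hr hrp
    haveI : Fact r.Prime := ⟨hr⟩
    obtain ⟨R⟩ : Nonempty (Sylow r H) := inferInstance
    have hP := hNC r hrp R
    refine ⟨(MonoidHom.transferSylow R hP).ker, MonoidHom.normal_ker _,
      MonoidHom.not_dvd_card_ker_transferSylow R hP, ?_⟩
    intro x hx
    rw [MonoidHom.mem_ker]
    have h1 : (MonoidHom.transferSylow R hP x) ^ p = 1 := by rw [← map_pow, hx, map_one]
    obtain ⟨j, hj⟩ := R.isPGroup' (MonoidHom.transferSylow R hP x)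
    have h2 : orderOf (MonoidHom.transferSylow R hP x) ∣ p := orderOf_dvd_of_pow_eq_one h1
    have h3 : orderOf (MonoidHom.transferSylow R hP x) ∣ r ^ j := orderOf_dvd_of_pow_eq_one hj
    have h4 : orderOf (MonoidHom.transferSylow R hP x) = 1 := by
      have hc : Nat.Coprime p (r ^ j) :=
        Nat.Coprime.pow_right j ((Nat.coprime_primes hpP hr).2 (Ne.symm hrp))
      exact Nat.eq_one_of_dvd_coprimes hc h2 h3
    exact orderOf_eq_one_iff.1 h4
  choose Nf hNf using key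
  obtain ⟨K, hKdef⟩ : ∃ K : Subgroup H,
      K = ⨅ (r : ℕ) (hr : r.Prime) (hrp : r ≠ p), Nf r hr hrp := ⟨_, rfl⟩
  have hKle : ∀ (r : ℕ) (hr : r.Prime) (hrp : r ≠ p), K ≤ Nf r hr hrp := by
    intro r hr hrp
    rw [hKdef]
    exact iInf_le_of_le r (iInf_le_of_le hr (iInf_le _ hrp))
  have hKn : K.Normal := by
    rw [hKdef]
    exact Subgroup.normal_iInf_normal (fun r => Subgroup.normal_iInf_normal
      (fun hr => Subgroup.normal_iInf_normal (fun hrp => (hNf r hr hrp).1)))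
  have hKmem : ∀ x : H, x ^ p = 1 → x ∈ K := by
    intro x hx
    rw [hKdef]
    simp only [Subgroup.mem_iInf]
    intro r hr hrp
    exact (hNf r hr hrp).2.2 x hx
  have hKp : IsPGroup p K := by
    have hcard : ∀ r : ℕ, r.Prime → r ∣ Nat.card K → r = p := by
      intro r hr hd
      by_contra hrp
      exact (hNf r hr hrp).2.1 (hd.trans (Subgroup.card_dvd_of_le (hKle r hr hrp)))
    have := Nat.eq_prime_pow_of_unique_prime_dvd (Nat.card_pos.ne')
      (fun {d} hd hdd => hcard d hd hdd)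
    exact IsPGroup.of_card this
  obtain ⟨x, hx⟩ := exists_prime_orderOf_dvd_card' p hpdvd
  have hxK : x ∈ K := hKmem x (by rw [← hx]; exact pow_orderOf_eq_one x)
  have hx1 : x ≠ 1 := by
    intro h
    rw [h, orderOf_one] at hx
    exact hpP.one_lt.ne hx
  haveI : Nontrivial K := ⟨⟨⟨x, hxK⟩, 1, fun h => hx1 (congrArg Subtype.val h)⟩⟩
  haveI := hKp.center_nontrivial
  obtain ⟨⟨w, hwc⟩, hw1⟩ := exists_ne (1 : Subgroup.center K)
  have hw1' : w ≠ 1 := fun h => hw1 (Subtype.ext h)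
  obtain ⟨j, hj⟩ := hKp w
  obtain ⟨W, hWdef⟩ : ∃ W : Matrix (Fin 2) (Fin 2) F, W = mat (w : H) := ⟨_, rfl⟩
  have hWpow : W ^ p ^ j = 1 := by
    rw [hWdef, ← mat_pow]
    have h1 : (w : H) ^ p ^ j = 1 := by
      have := congrArg Subtype.val hj
      simpa using this
    rw [h1]; rfl
  have hW1 : W ≠ 1 := by
    intro h
    apply hw1'
    apply Subtype.ext
    apply mat_inj
    rw [← hWdef, h]; rfl
  have hWns := Cfsg.Agent.Helper3.GL2Odd.nonScalar_of_unipotent p hWpow hW1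
  obtain ⟨v, hv0, hWv⟩ := Cfsg.Agent.Helper3.GL2Odd.exists_fixed p hWpow
  obtain ⟨g, hgH, hgv⟩ := hirr v hv0
  obtain ⟨gH, hgHdef⟩ : ∃ gH : H, gH = ⟨g, hgH⟩ := ⟨_, rfl⟩
  have hconjK : gH⁻¹ * (w : H) * gH ∈ K := by
    have := hKn.conj_mem (w : H) w.2 gH⁻¹
    simpa using this
  have hcomm : (gH⁻¹ * (w : H) * gH) * (w : H) = (w : H) * (gH⁻¹ * (w : H) * gH) := by
    have := Subgroup.mem_center_iff.1 hwc ⟨gH⁻¹ * (w : H) * gH, hconjK⟩
    exact congrArg Subtype.val this
  have hcomm' : mat (gH⁻¹ * (w : H) * gH) * W = W * mat (gH⁻¹ * (w : H) * gH) := by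
    rw [hWdef]
    exact congrArg mat hcomm
  obtain ⟨α, β, hαβ⟩ := Cfsg.Agent.Helper3.GL2Odd.exists_eq_of_commute hWns hcomm'
  obtain ⟨Gm, hGm⟩ : ∃ Gm : Matrix (Fin 2) (Fin 2) F, Gm = mat gH := ⟨_, rfl⟩
  obtain ⟨Gi, hGi⟩ : ∃ Gi : Matrix (Fin 2) (Fin 2) F, Gi = mat gH⁻¹ := ⟨_, rfl⟩
  have hGG : Gm * Gi = 1 := by rw [hGm, hGi]; exact mat_mul_inv gH
  have hGG' : Gi * Gm = 1 := by rw [hGm, hGi]; exact mat_inv_mul gH
  have hconjmat : Gi * W * Gm = α • (1 : Matrix (Fin 2) (Fin 2) F) + β • W := by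
    rw [← hαβ, hGi, hWdef, hGm]; rfl
  obtain ⟨u, hu⟩ : ∃ u : Fin 2 → F, u = Gm.mulVec v := ⟨_, rfl⟩
  have hWu : W.mulVec u = (α + β) • u := by
    have e : W * Gm = Gm * (α • (1 : Matrix (Fin 2) (Fin 2) F) + β • W) := by
      rw [← hconjmat, ← mul_assoc, ← mul_assoc, hGG, one_mul]
    rw [hu, Matrix.mulVec_mulVec, e, ← Matrix.mulVec_mulVec, Matrix.add_mulVec,
      Matrix.smul_mulVec, Matrix.smul_mulVec, Matrix.one_mulVec, hWv, ← add_smul,
      Matrix.mulVec_smul]
  have hu0 : u ≠ 0 := by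
    intro h0
    apply hv0
    have : Gi.mulVec u = v := by
      rw [hu, Matrix.mulVec_mulVec, hGG', Matrix.one_mulVec]
    rw [← this, h0, Matrix.mulVec_zero]
  have ht := Cfsg.Agent.Helper3.GL2Odd.eigen_eq_one p hWpow hu0 hWu
  have hWu' : W.mulVec u = u := by rw [hWu, ht, one_smul]
  have hm : W - 1 ≠ 0 := sub_ne_zero.2 hW1
  have h1 : (W - 1).mulVec v = 0 := by
    rw [Matrix.sub_mulVec, Matrix.one_mulVec, hWv, sub_self]
  have h2 : (W - 1).mulVec u = 0 := by
    rw [Matrix.sub_mulVec, Matrix.one_mulVec, hWu', sub_self]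
  obtain ⟨a, ha⟩ := Cfsg.Agent.Helper3.GL2Odd.exists_smul_of_ker hm hv0 h1 h2
  apply hgv
  rw [Submodule.mem_span_singleton]
  refine ⟨a, ?_⟩
  rw [ha, hu, hGm, hgHdef]
  rfl

end Cfsg.Agent.S1463
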