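import Cfsg.Statements.S1466
import Cfsg.Agent.Helper8.Puig
import Cfsg.Agent.Helper8.SelfCentralizing

set_option autoImplicit false
open Cfsg

namespace Cfsg.Agent.S1466

open Cfsg.Agent.Helper8 in
/-- Let p be a prime and R a nontrivial finite p-group. Then for every i > 0, Z(R) ≤ C_R(L_i(R)) ≤ L_i(R); likewise Z(R) ≤ C_R(L_*(R)) ≤ L_*(R) and Z(R) ≤ C_R(L(R)) ≤ L(R); and L(R) ≠ 1, L_*(R) ≠ 1. -/
theorem result {R : Type*} [Group R] [Finite R] (p : ℕ) [Fact p.Prime] (hR : IsPGroup p R) [Nontrivial R] :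
    (∀ i : ℕ, 0 < i → Subgroup.center R ≤ Subgroup.centralizer ((Cfsg.puigSeq R i : Subgroup R) : Set R) ∧
        Subgroup.centralizer ((Cfsg.puigSeq R i : Subgroup R) : Set R) ≤ Cfsg.puigSeq R i) ∧
      (Subgroup.center R ≤ Subgroup.centralizer ((Cfsg.puigLower R : Subgroup R) : Set R) ∧ Subgroup.centralizer ((Cfsg.puigLower R : Subgroup R) : Set R) ≤ Cfsg.puigLower R) ∧
      (Subgroup.center R ≤ Subgroup.centralizer ((Cfsg.puigSubgroup R : Subgroup R) : Set R) ∧ Subgroup.centralizer ((Cfsg.puigSubgroup R : Subgroup R) : Set R) ≤ Cfsg.puigSubgroup R) ∧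
      Cfsg.puigSubgroup R ≠ ⊥ ∧ Cfsg.puigLower R ≠ ⊥ := by
  have : Group.IsNilpotent R := hR.isNilpotent
  obtain ⟨A, hAn, hAc, hCA⟩ := exists_normal_abelian_self_centralizing R
  -- A ≤ L_2
  have hA2 : A ≤ Cfsg.puigSeq R 2 := by
    show A ≤ Cfsg.puigSeq R (1 + 1)
    rw [puigSeq_succ, puigSeq_one]
    apply le_sSup
    refine ⟨hAc, ?_⟩
    rw [Subgroup.normalizer_eq_top]
  -- general principle
  have key : ∀ X : Subgroup R, Cfsg.puigSeq R 2 ≤ X →
      Subgroup.center R ≤ Subgroup.centralizer (X : Set R) ∧ Subgroup.centralizer (X : Set R) ≤ X := by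
    intro X hX
    refine ⟨Subgroup.center_le_centralizer _, ?_⟩
    have h1 : Subgroup.centralizer (X : Set R) ≤ Subgroup.centralizer (A : Set R) :=
      Subgroup.centralizer_le (fun a ha => hX (hA2 ha))
    exact h1.trans (hCA.trans (hA2.trans hX))
  have h2i : ∀ i : ℕ, 0 < i → Cfsg.puigSeq R 2 ≤ Cfsg.puigSeq R i := by
    intro i hi
    rcases Nat.even_or_odd' i with ⟨k, rfl | rfl⟩
    · have hk : 1 ≤ k := by omega
      exact puig_even_mono (G := R) hk
    · exact puig_even_le_odd' (G := R) 1 k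
  have h2L : Cfsg.puigSeq R 2 ≤ Cfsg.puigLower R :=
    le_iSup (fun n : ℕ => Cfsg.puigSeq R (2 * n)) 1
  have h2U : Cfsg.puigSeq R 2 ≤ Cfsg.puigSubgroup R := h2L.trans puigLower_le_puigSubgroup
  have hAbot : A ≠ ⊥ := by
    intro h
    have hZ : Subgroup.center R ≤ A := (Subgroup.center_le_centralizer _).trans hCA
    rw [h] at hZ
    exact (hR.bot_lt_center).ne' (le_bot_iff.mp hZ)
  have hne : ∀ X : Subgroup R, Cfsg.puigSeq R 2 ≤ X → X ≠ ⊥ := by
    intro X hX h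
    apply hAbot
    rw [h] at hX
    exact le_bot_iff.mp (hA2.trans hX)
  exact ⟨fun i hi => key _ (h2i i hi), key _ h2L, key _ h2U, hne _ h2U, hne _ h2L⟩

end Cfsg.Agent.S1466
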