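import Cfsg.Statements.S1470
import Mathlib

set_option autoImplicit false
open Cfsg

namespace Cfsg.Agent.S1470

open Polynomial in
/-- If the norm of `c + k` does not depend on `k : ℕ`, then `p ≤ q`. -/
theorem norm_shift_const (p q : ℕ) [Fact p.Prime] (hq0 : q ≠ 0) (c : GaloisField p q)
    (hc : ∀ k : ℕ, Algebra.norm (ZMod p) (c + (k : GaloisField p q)) = Algebra.norm (ZMod p) c) :
    p ≤ q := by
  classical
  by_contra hlt
  push Not at hlt
  have hfr : Module.finrank (ZMod p) (GaloisField p q) = q := GaloisField.finrank p hq0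
  let f : Module.End (ZMod p) (GaloisField p q) := - Algebra.lmul (ZMod p) (GaloisField p q) c
  let g : (ZMod p)[X] := f.charpoly - C (Algebra.norm (ZMod p) c)
  have hdeg : f.charpoly.natDegree = q := by
    rw [LinearMap.charpoly_natDegree, hfr]
  have hg0 : g = 0 := by
    apply Polynomial.eq_zero_of_natDegree_lt_card_of_eval_eq_zero g (f := fun k : ZMod p => k) (fun _ _ h => h)
    · intro k
      have h1 := hc k.val
      simp only [g, eval_sub, eval_C, LinearMap.eval_charpoly]
      rw [sub_eq_zero, ← h1, Algebra.norm_apply]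
      congr 1
      have h2 : ((k.val : ℕ) : GaloisField p q) = algebraMap (ZMod p) (GaloisField p q) k := by
        rw [← map_natCast (algebraMap (ZMod p) (GaloisField p q)), ZMod.natCast_zmod_val]
      rw [h2, map_add, AlgHom.commutes]
      simp only [f]
      abel
    · rw [ZMod.card]
      simp only [g, natDegree_sub_C, hdeg]
      exact hlt
  have h3 : f.charpoly = C (Algebra.norm (ZMod p) c) := sub_eq_zero.1 hg0
  rw [h3, natDegree_C] at hdeg
  exact hq0 hdeg.symm

/-- The shifting argument in an abstract field with a multiplicative "norm". -/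
theorem shift_core {F K : Type*} [Field F] [Field K] (N : F →* K) (hN0 : N 0 ≠ 1)
    (E : Set F) (hEdef : ∀ x, x ∈ E ↔ N x = 1 ∧ N (2 - x) = 1) (hinv : ∀ a ∈ E, a⁻¹ ∈ E)
    (a : F) (ha : a ∈ E) (ha1 : a ≠ 1) :
    ∀ k : ℕ, N ((a - 1)⁻¹ + (k : F)) = N ((a - 1)⁻¹) := by
  have hsym : ∀ x ∈ E, 2 - x ∈ E := by
    intro x hx
    rw [hEdef] at hx ⊢
    refine ⟨hx.2, ?_⟩
    rw [sub_sub_cancel]; exact hx.1
  have hne : ∀ x ∈ E, x ≠ 0 := by
    intro x hx h0
    rw [h0, hEdef] at hx
    exact hN0 hx.1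
  set c := (a - 1)⁻¹ with hcdef
  have hc0 : c ≠ 0 := inv_ne_zero (sub_ne_zero.2 ha1)
  have key : ∀ k : ℕ, c + (k : F) ≠ 0 ∧ 1 + (c + (k : F))⁻¹ ∈ E := by
    intro k
    induction k with
    | zero =>
      refine ⟨by simpa using hc0, ?_⟩
      have : 1 + (c + ((0 : ℕ) : F))⁻¹ = a := by
        rw [Nat.cast_zero, add_zero, hcdef, inv_inv]; ring
      rw [this]; exact ha
    | succ k ih =>
      obtain ⟨h1, h2⟩ := ih
      have h3 := hne _ h2
      have h4 : c + ((k + 1 : ℕ) : F) ≠ 0 := by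
        intro h
        apply h3
        have : 1 + (c + (k : F))⁻¹ = (c + ((k + 1 : ℕ) : F)) * (c + (k : F))⁻¹ := by
          push_cast; field_simp; ring
        rw [this, h, zero_mul]
      refine ⟨h4, ?_⟩
      have h5 := hsym _ (hinv _ h2)
      have : 2 - (1 + (c + (k : F))⁻¹)⁻¹ = 1 + (c + ((k + 1 : ℕ) : F))⁻¹ := by
        have h6 : c + (k : F) + 1 ≠ 0 := by
          have := h4; push_cast at this; rwa [← add_assoc] at this
        have h7 : 1 + (c + (k : F))⁻¹ = (c + (k : F) + 1) / (c + (k : F)) := by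
          field_simp
        rw [h7, inv_div]
        push_cast
        rw [← add_assoc]
        field_simp
        ring
      rw [← this]; exact h5
  have hN : ∀ k : ℕ, N (c + ((k + 1 : ℕ) : F)) = N (c + (k : F)) := by
    intro k
    obtain ⟨h1, h2⟩ := key k
    have : c + ((k + 1 : ℕ) : F) = (1 + (c + (k : F))⁻¹) * (c + (k : F)) := by
      push_cast; field_simp; ring
    rw [this, map_mul, ((hEdef _).1 h2).1, one_mul]
  intro k
  induction k with
  | zero => simp
  | succ k ih => rw [hN k, ih]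

/-- Let p and q be odd primes with (p^q − 1)/(p − 1) coprime to p − 1, and let E be the set of elements a of the field with p ^ q elements whose norm to the prime field is 1 and for which 2 − a also has norm 1. If a⁻¹ ∈ E for every a ∈ E and E has at least two elements, then p ≤ q. -/
theorem result (p q : ℕ) [Fact p.Prime] [Fact q.Prime] (hp : p ≠ 2) (hq : q ≠ 2) (hA : Nat.Coprime ((p ^ q - 1) / (p - 1)) (p - 1))
    (hinv : ∀ a ∈ {a : GaloisField p q | Algebra.norm (ZMod p) a = 1 ∧ Algebra.norm (ZMod p) (2 - a) = 1}, a⁻¹ ∈ {a : GaloisField p q | Algebra.norm (ZMod p) a = 1 ∧ Algebra.norm (ZMod p) (2 - a) = 1})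
    (h2 : 2 ≤ Set.ncard {a : GaloisField p q | Algebra.norm (ZMod p) a = 1 ∧ Algebra.norm (ZMod p) (2 - a) = 1}) :
    p ≤ q := by
  classical
  set E := {a : GaloisField p q | Algebra.norm (ZMod p) a = 1 ∧ Algebra.norm (ZMod p) (2 - a) = 1} with hE
  have hq0 : q ≠ 0 := (Fact.out : q.Prime).ne_zero
  obtain ⟨a, b, ha, hb, hab⟩ := (Set.one_lt_ncard_iff (Set.toFinite E)).1 h2
  have hex : ∃ a ∈ E, a ≠ 1 := by
    by_cases h1 : a = 1
    · exact ⟨b, hb, fun h => hab (h1.trans h.symm)⟩
    · exact ⟨a, ha, h1⟩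
  obtain ⟨a, ha, ha1⟩ := hex
  apply norm_shift_const p q hq0 ((a - 1)⁻¹)
  refine shift_core (Algebra.norm (ZMod p)) ?_ E (fun x => Iff.rfl) hinv a ha ha1
  rw [Algebra.norm_zero]
  exact zero_ne_one

end Cfsg.Agent.S1470
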