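import Cfsg.Statements.S1471
import Mathlib
import Cfsg.Agent.Helper1.FieldInc

set_option autoImplicit false
open Cfsg

namespace Cfsg.Agent.S1471

open Polynomial in
/-- The case `q = 3`: a root of an irreducible cubic `X^3 - s X^2 + (2s-3) X - 1`. -/
theorem cubic_case (p : ℕ) [Fact p.Prime] :
    ∃ a : GaloisField p 3, a ≠ 1 ∧ Algebra.norm (ZMod p) a = 1 ∧
      Algebra.norm (ZMod p) (2 - a) = 1 := by
  classical
  obtain ⟨s, hs⟩ := Helper1.FieldInc.exists_cubic p
  let g : (ZMod p)[X] := X ^ 3 - C s * X ^ 2 + C (2 * s - 3) * X - 1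
  have hdeg : g.natDegree = 3 := by
    simp only [g]
    compute_degree!
  have hmonic : g.Monic := by
    simp only [g]
    monicity!
  have heval : ∀ r : ZMod p, g.eval r = r ^ 3 - s * r ^ 2 + (2 * s - 3) * r - 1 := by
    intro r
    simp [g]
  have hirr : Irreducible g := by
    rw [hmonic.irreducible_iff_roots_eq_zero_of_degree_le_three (by rw [hdeg]; norm_num)
      (by rw [hdeg])]
    apply Multiset.eq_zero_of_forall_notMem
    intro r hr
    have := (mem_roots hmonic.ne_zero).1 hr
    rw [IsRoot.def, heval] at this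
    exact hs r this
  haveI : Fact (Irreducible g) := ⟨hirr⟩
  let pb := AdjoinRoot.powerBasis hmonic.ne_zero
  have hdim : pb.dim = 3 := by rw [AdjoinRoot.powerBasis_dim, hdeg]
  have hfin : Module.finrank (ZMod p) (AdjoinRoot g) = 3 := by rw [pb.finrank, hdim]
  haveI : Module.Finite (ZMod p) (AdjoinRoot g) := pb.finite
  haveI : Finite (AdjoinRoot g) := Module.finite_of_finite (ZMod p)
  have hcard : Nat.card (AdjoinRoot g) = p ^ 3 := by
    rw [Module.natCard_eq_pow_finrank (K := ZMod p) (V := AdjoinRoot g), hfin, Nat.card_zmod]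
  let e := GaloisField.algEquivGaloisField p 3 hcard
  let x : AdjoinRoot g := AdjoinRoot.root g
  have hmin : minpoly (ZMod p) x = g := by
    rw [AdjoinRoot.minpoly_root hmonic.ne_zero, hmonic.leadingCoeff, inv_one, C_1, mul_one]
  have hgen : pb.gen = x := AdjoinRoot.powerBasis_gen _
  have hnorm : ∀ t : ZMod p,
      Algebra.norm (ZMod p) (algebraMap (ZMod p) (AdjoinRoot g) t - x) = g.eval t := by
    intro t
    have hcp : (Algebra.leftMulMatrix pb.basis x).charpoly = g := by
      rw [← hgen, charpoly_leftMulMatrix pb, hgen, hmin]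
    have h1 := Matrix.eval_charpoly (Algebra.leftMulMatrix pb.basis x) t
    rw [hcp] at h1
    rw [Algebra.norm_eq_matrix_det pb.basis, map_sub, AlgHom.commutes, h1]
    rfl
  have hx2 : Algebra.norm (ZMod p) (2 - x) = 1 := by
    have h := hnorm 2
    rw [heval] at h
    have h2 : algebraMap (ZMod p) (AdjoinRoot g) 2 = 2 := map_ofNat _ 2
    rw [h2] at h
    rw [h]
    ring
  have hx0 : Algebra.norm (ZMod p) x = 1 := by
    have h := hnorm 0
    rw [heval, map_zero, zero_sub] at h
    have h3 : Algebra.norm (ZMod p) (-x)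
        = Algebra.norm (ZMod p) (algebraMap (ZMod p) (AdjoinRoot g) (-1)) * Algebra.norm (ZMod p) x := by
      rw [← map_mul]
      congr 1
      simp
    rw [Algebra.norm_algebraMap, hfin] at h3
    rw [h3] at h
    linear_combination -h
  refine ⟨e x, ?_, ?_, ?_⟩
  · intro h1
    have hx1 : x = 1 := by
      apply e.injective
      rw [h1, map_one]
    have h := hnorm 1
    rw [map_one, hx1, sub_self, Algebra.norm_zero, heval] at h
    exact hs 1 h.symm
  · rw [Algebra.norm_eq_of_algEquiv]
    exact hx0
  · have : (2 : GaloisField p 3) - e x = e (2 - x) := by rw [map_sub, map_ofNat]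
    rw [this, Algebra.norm_eq_of_algEquiv]
    exact hx2

/-- Let p and q be odd primes with (p^q − 1)/(p − 1) coprime to p − 1. Then there are at least two elements a of the field with p ^ q elements such that both a and 2 − a have norm 1 to the prime field. -/
theorem result (p q : ℕ) [Fact p.Prime] [Fact q.Prime] (hp : p ≠ 2) (hq : q ≠ 2) (hA : Nat.Coprime ((p ^ q - 1) / (p - 1)) (p - 1)) :
    2 ≤ Set.ncard {a : GaloisField p q | Algebra.norm (ZMod p) a = 1 ∧ Algebra.norm (ZMod p) (2 - a) = 1} := by
  classical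
  have hpp : p.Prime := Fact.out
  have hqp : q.Prime := Fact.out
  have hp3 : 3 ≤ p := by
    have := hpp.two_le
    omega
  have hq3 : 3 ≤ q := by
    have := hqp.two_le
    omega
  have h1mem : (1 : GaloisField p q) ∈ {a : GaloisField p q | Algebra.norm (ZMod p) a = 1 ∧ Algebra.norm (ZMod p) (2 - a) = 1} := by
    refine ⟨map_one _, ?_⟩
    have : (2 : GaloisField p q) - 1 = 1 := by norm_num
    rw [this, map_one]
  by_cases hq5 : 5 ≤ q
  · -- incidence argument
    letI : Fintype (GaloisField p q) := Fintype.ofFinite _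
    set U : Finset (GaloisField p q) := Finset.univ.filter (fun x => Algebra.norm (ZMod p) x = 1) with hU
    have hUmem : ∀ x, x ∈ U ↔ Algebra.norm (ZMod p) x = 1 := by
      intro x; simp [hU]
    have h0 : (0 : GaloisField p q) ∉ U := by
      rw [hUmem, Algebra.norm_zero]
      exact zero_ne_one
    have hmul : ∀ a ∈ U, ∀ b ∈ U, a * b ∈ U := by
      intro a ha b hb
      rw [hUmem] at ha hb ⊢
      rw [map_mul, ha, hb, one_mul]
    have hinv : ∀ a ∈ U, a⁻¹ ∈ U := by
      intro a ha
      have ha0 : a ≠ 0 := fun h => h0 (h ▸ ha)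
      rw [hUmem] at ha ⊢
      have : Algebra.norm (ZMod p) a * Algebra.norm (ZMod p) a⁻¹ = 1 := by
        rw [← map_mul, mul_inv_cancel₀ ha0, map_one]
      rw [ha, one_mul] at this
      exact this
    have h2 : (2 : GaloisField p q) ≠ 0 := by
      intro h
      have h' : ((2 : ℕ) : GaloisField p q) = 0 := by exact_mod_cast h
      rw [CharP.cast_eq_zero_iff (GaloisField p q) p] at h'
      have := Nat.le_of_dvd (by norm_num) h'
      omega
    have hne : U.Nonempty := ⟨1, (hUmem 1).2 (map_one _)⟩
    have hinc := Helper1.FieldInc.incidence U h0 hmul hinv h2 hne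
    have hcardF : Fintype.card (GaloisField p q) = p ^ q := by
      rw [← Nat.card_eq_fintype_card, GaloisField.card p q hqp.ne_zero]
    have hker := Helper1.FieldInc.card_ker_bound (Algebra.norm (ZMod p) : GaloisField p q →* ZMod p)
    rw [hcardF, ZMod.card] at hker
    have hEset : {a : GaloisField p q | Algebra.norm (ZMod p) a = 1 ∧ Algebra.norm (ZMod p) (2 - a) = 1}
        = ((U.filter (fun a => 2 - a ∈ U) : Finset (GaloisField p q)) : Set (GaloisField p q)) := by
      ext a
      simp [hUmem]
    rw [hEset, Set.ncard_coe_finset]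
    by_contra hlt
    push Not at hlt
    have h1U : (1 : GaloisField p q) ∈ U.filter (fun a => 2 - a ∈ U) := by
      have := h1mem
      rw [hEset] at this
      exact_mod_cast this
    have hS1 : (U.filter (fun a => 2 - a ∈ U)).card = 1 := by
      have := Finset.card_pos.2 ⟨1, h1U⟩
      omega
    rw [hS1, hcardF] at hinc
    apply Helper1.FieldInc.arith p q U.card hp3 hq5 hker
    simpa using hinc
  · have hq3' : q = 3 := by
      have hq4 : q ≠ 4 := by
        rintro rfl
        exact absurd hqp (by norm_num)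
      omega
    subst hq3'
    obtain ⟨a, ha1, haN, haN2⟩ := cubic_case p
    rw [show (2 : ℕ) = 1 + 1 from rfl, Nat.add_one_le_iff, Set.one_lt_ncard_iff (Set.toFinite _)]
    exact ⟨a, 1, ⟨haN, haN2⟩, h1mem, ha1⟩

end Cfsg.Agent.S1471
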