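import Cfsg.Statements.S1473
import Mathlib
import Cfsg.Agent.Helper8.Nilp2
import Cfsg.Agent.S1496

set_option autoImplicit false
open Cfsg
open Cfsg.Agent.Helper8

namespace Cfsg.Agent.S1473

universe u

theorem isCNGroup_of_mulEquiv {A B : Type*} [Group A] [Group B] (e : A ≃* B)
    (h : Cfsg.IsCNGroup A) : Cfsg.IsCNGroup B := by
  intro b hb
  have ha : e.symm b ≠ 1 := by
    intro h1
    apply hb
    have h2 := congrArg e h1
    simpa using h2
  have hnil := h (e.symm b) ha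
  refine isNilpotent_of_le (isNilpotent_map e.toMonoidHom _ hnil) ?_
  intro c hc
  rw [mem_cent] at hc
  refine Subgroup.mem_map.mpr ⟨e.symm c, mem_cent.mpr ?_, ?_⟩
  · rw [← map_mul, ← map_mul, hc]
  · simp

/-- `p'`-case: the centralizer of an element of prime order `q ≠ p` in `G/H` is the image of the
centralizer of a `p'`-lift. -/
theorem caseA {G : Type*} [Group G] [Finite G] (hCN : Cfsg.IsCNGroup G) (p : ℕ) [Fact p.Prime]
    (H : Subgroup G) [H.Normal] (hHp : IsPGroup p H) (yb : G ⧸ H) (q : ℕ) (hq : q.Prime)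
    (hqp : q ≠ p) (hyb : orderOf yb = q) :
    Group.IsNilpotent (Subgroup.centralizer ({yb} : Set (G ⧸ H))) := by
  have hp : p.Prime := Fact.out
  obtain ⟨y, hy⟩ := QuotientGroup.mk'_surjective H yb
  obtain ⟨e, m, u, v, hn, hm, hu, hv, hdec, hue, hvm⟩ :=
    exists_decomp y (orderOf_pos y).ne' p hp
  have hπu : QuotientGroup.mk' H u = 1 := by
    have h1 : orderOf (QuotientGroup.mk' H u) ∣ p ^ e := by
      apply orderOf_dvd_of_pow_eq_one
      rw [← map_pow, hue, map_one]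
    have h2 : orderOf (QuotientGroup.mk' H u) ∣ q := by
      rw [← hyb]
      apply orderOf_dvd_of_mem_zpowers
      obtain ⟨j, hj⟩ := Subgroup.mem_zpowers_iff.mp hu
      rw [← hj, map_zpow, hy]
      exact Subgroup.zpow_mem_zpowers yb j
    have h3 : orderOf (QuotientGroup.mk' H u) ∣ Nat.gcd (p ^ e) q := Nat.dvd_gcd h1 h2
    rw [Nat.Coprime.gcd_eq_one
      (Nat.Coprime.pow_left e ((Nat.coprime_primes hp hq).mpr (Ne.symm hqp)))] at h3
    exact orderOf_eq_one_iff.mp (Nat.dvd_one.mp h3)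
  have hπv : QuotientGroup.mk' H v = yb := by
    rw [← hy, hdec, map_mul, hπu, mul_one]
  have hyb1 : yb ≠ 1 := by
    intro h
    rw [h, orderOf_one] at hyb
    exact hq.one_lt.ne hyb
  have hv1 : v ≠ 1 := by
    intro h
    rw [h, map_one] at hπv
    exact hyb1 hπv.symm
  have hcop : (orderOf v).Coprime (Nat.card H) := by
    obtain ⟨n', hn'⟩ := IsPGroup.iff_card.mp hHp
    rw [hn']
    exact Nat.Coprime.coprime_dvd_left (orderOf_dvd_of_pow_eq_one hvm)
      (Nat.Coprime.pow_right n' (Nat.Coprime.symm ((Nat.Prime.coprime_iff_not_dvd hp).mpr hm)))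
  have hle : Subgroup.centralizer ({yb} : Set (G ⧸ H)) ≤
      (Subgroup.centralizer ({v} : Set G)).map (QuotientGroup.mk' H) := by
    intro cb hcb
    obtain ⟨c, hc⟩ := QuotientGroup.mk'_surjective H cb
    have hcb' : yb * cb = cb * yb := mem_cent.mp hcb
    have hh : c * v * c⁻¹ * v⁻¹ ∈ H := by
      apply (QuotientGroup.eq_one_iff _).mp
      show QuotientGroup.mk' H (c * v * c⁻¹ * v⁻¹) = 1
      rw [map_mul, map_mul, map_mul, map_inv, map_inv, hc, hπv, ← hcb', mul_inv_cancel_right,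
        mul_inv_cancel]
    obtain ⟨x, hx, c', hc', hc'v, hconj⟩ := Cfsg.Agent.S1496.result H v
      (Subgroup.le_normalizer_of_normal (Subgroup.mem_top v)) hcop (c * v * c⁻¹ * v⁻¹) hh
    have hconj' : (x * c) * v * (x * c)⁻¹ = c' * v := by
      rw [← hconj]; group
    have hc'1 : c' = 1 := by
      have h1 : (c' * v) ^ orderOf v = 1 := by
        rw [← hconj', conj_pow, pow_orderOf_eq_one]; group
      rw [(show Commute c' v from hc'v).mul_pow, pow_orderOf_eq_one v, mul_one] at h1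
      have h2 : orderOf c' ∣ orderOf v := orderOf_dvd_of_pow_eq_one h1
      have h3 : orderOf c' ∣ Nat.card H := Subgroup.orderOf_dvd_natCard H hc'
      have h4 := Nat.dvd_gcd h2 h3
      rw [Nat.Coprime.gcd_eq_one hcop] at h4
      exact orderOf_eq_one_iff.mp (Nat.dvd_one.mp h4)
    rw [hc'1, one_mul] at hconj'
    have hx1 : QuotientGroup.mk' H x = 1 := (QuotientGroup.eq_one_iff x).mpr hx
    refine Subgroup.mem_map.mpr ⟨x * c, mem_cent.mpr ?_, ?_⟩
    · calc v * (x * c) = (x * c) * v * (x * c)⁻¹ * (x * c) := by rw [hconj']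
        _ = (x * c) * v := by group
    · rw [map_mul, hx1, one_mul, hc]
  exact isNilpotent_of_le (isNilpotent_map (QuotientGroup.mk' H) _ (hCN v hv1)) hle

/-- `p`-case: the preimage of the centralizer of an element of order `p` in `G/H` is nilpotent. -/
theorem caseB {G : Type*} [Group G] [Finite G] (hCN : Cfsg.IsCNGroup G) (p : ℕ) [Fact p.Prime]
    (H : Subgroup G) [hHn : H.Normal] (hHp : IsPGroup p H) (hHne : H ≠ ⊥) (yb : G ⧸ H)
    (hyb : orderOf yb = p) :
    Group.IsNilpotent (Subgroup.centralizer ({yb} : Set (G ⧸ H))) := by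
  have hp : p.Prime := Fact.out
  have hyb1 : yb ≠ 1 := by
    intro h
    rw [h, orderOf_one] at hyb
    exact hp.one_lt.ne hyb
  obtain ⟨y, hy⟩ := QuotientGroup.mk'_surjective H yb
  obtain ⟨π, hπ⟩ : ∃ π : G →* G ⧸ H, π = QuotientGroup.mk' H := ⟨_, rfl⟩
  obtain ⟨D, hDdef⟩ : ∃ D : Subgroup G,
      D = (Subgroup.centralizer ({yb} : Set (G ⧸ H))).comap π := ⟨_, rfl⟩
  obtain ⟨P, hPdef⟩ : ∃ P : Subgroup G, P = (Subgroup.zpowers yb).comap π := ⟨_, rfl⟩
  have hDmem : ∀ d, d ∈ D ↔ yb * π d = π d * yb := by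
    intro d; rw [hDdef, Subgroup.mem_comap, mem_cent]
  have hPmem : ∀ a, a ∈ P ↔ π a ∈ Subgroup.zpowers yb := by
    intro a; rw [hPdef, Subgroup.mem_comap]
  have hπH : ∀ h ∈ H, π h = 1 := by
    intro h hh; rw [hπ]; exact (QuotientGroup.eq_one_iff h).mpr hh
  have hHπ : ∀ a, π a = 1 → a ∈ H := by
    intro a ha; rw [hπ] at ha; exact (QuotientGroup.eq_one_iff a).mp ha
  have hπy : π y = yb := by rw [hπ]; exact hy
  have hDfix : ∀ d ∈ D, ∀ a ∈ P, π (d * a * d⁻¹) = π a := by
    intro d hd a ha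
    rw [hDmem] at hd
    rw [hPmem] at ha
    obtain ⟨j, hj⟩ := Subgroup.mem_zpowers_iff.mp ha
    have hcomm : Commute (π d) (yb ^ j) := (show Commute (π d) yb from hd.symm).zpow_right j
    rw [map_mul, map_mul, map_inv, ← hj, hcomm.eq, mul_inv_cancel_right]
  have hDP : ∀ d ∈ D, ∀ a ∈ P, d * a * d⁻¹ ∈ P := by
    intro d hd a ha
    rw [hPmem, hDfix d hd a ha]
    exact (hPmem a).mp ha
  have hPp : IsPGroup p P := by
    apply isPGroup_of_forall
    intro a ha
    rw [hPmem] at ha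
    have h1 : orderOf (π a) ∣ p := by rw [← hyb]; exact orderOf_dvd_of_mem_zpowers ha
    have h2 : π (a ^ p) = 1 := by rw [map_pow]; exact orderOf_dvd_iff_pow_eq_one.mp h1
    obtain ⟨k, hk⟩ := pelem_of_mem hHp (hHπ _ h2)
    exact ⟨k + 1, by rw [pow_succ', pow_mul]; exact hk⟩
  obtain ⟨Z, hZdef⟩ : ∃ Z : Subgroup G, Z = H ⊓ Subgroup.centralizer (P : Set G) := ⟨_, rfl⟩
  have hZmem : ∀ z, z ∈ Z ↔ z ∈ H ∧ ∀ a ∈ P, a * z = z * a := by
    intro z
    rw [hZdef, Subgroup.mem_inf, Subgroup.mem_centralizer_iff]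
    exact Iff.rfl
  have hDZ : ∀ d ∈ D, ∀ z ∈ Z, d * z * d⁻¹ ∈ Z := by
    intro d hd z hz
    rw [hZmem] at hz ⊢
    refine ⟨hHn.conj_mem z hz.1 d, ?_⟩
    intro a ha
    have hd' : d⁻¹ ∈ D := D.inv_mem hd
    have ha' : d⁻¹ * a * d ∈ P := by
      have h0 := hDP d⁻¹ hd' a ha
      rwa [inv_inv] at h0
    have h1 := hz.2 _ ha'
    calc a * (d * z * d⁻¹) = d * (d⁻¹ * a * d * z) * d⁻¹ := by group
      _ = d * (z * (d⁻¹ * a * d)) * d⁻¹ := by rw [h1]
      _ = d * z * d⁻¹ * a := by group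
  have hZp : IsPGroup p Z := hHp.to_le (by rw [hZdef]; exact inf_le_left)
  have hZne : Z ≠ ⊥ := by
    obtain ⟨w, hwH, hw1, hwc⟩ := ne_one_centralized hPp hHp hHne
      (fun g _ w hw => hHn.conj_mem w hw g)
    intro hZ
    have hwZ : w ∈ Z := (hZmem w).mpr ⟨hwH, hwc⟩
    rw [hZ] at hwZ
    exact hw1 (Subgroup.mem_bot.mp hwZ)
  obtain ⟨S'⟩ : Nonempty (Sylow p D) := inferInstance
  obtain ⟨S, hSdef⟩ : ∃ S : Subgroup G, S = (S' : Subgroup D).map D.subtype := ⟨_, rfl⟩
  have hSp : IsPGroup p S := by rw [hSdef]; exact S'.2.map D.subtype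
  have hSD : S ≤ D := by
    rw [hSdef]; exact Subgroup.map_subtype_le _
  obtain ⟨z', hz'Z, hz'1, hz'c⟩ := ne_one_centralized hSp hZp hZne
    (fun g hg w hw => hDZ g (hSD hg) w hw)
  have hE1 : ∀ (r : ℕ), r.Prime → r ≠ p → ∀ d ∈ D, ∀ k : ℕ, d ^ (r ^ k) = 1 →
      ∀ z ∈ Z, d * z = z * d := by
    intro r hr hrp d hd k hk z hz
    have : Fact r.Prime := ⟨hr⟩
    have hcard : (Nat.card H).Coprime r := by
      obtain ⟨n, hn⟩ := IsPGroup.iff_card.mp hHp
      rw [hn]
      exact Nat.Coprime.pow_left n ((Nat.coprime_primes hp hr).mpr (Ne.symm hrp))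
    have hRp : IsPGroup r (Subgroup.zpowers d) := isPGroup_zpowers hr hk
    have hv : ∀ c ∈ Subgroup.zpowers d, y⁻¹ * c * y * c⁻¹ ∈ H := by
      intro c hc
      have hcD : c ∈ D := (Subgroup.zpowers_le.mpr hd) hc
      rw [hDmem] at hcD
      apply hHπ
      rw [map_mul, map_mul, map_mul, map_inv, map_inv, hπy]
      have h1 : yb⁻¹ * π c * yb = π c := by rw [mul_assoc, ← hcD, inv_mul_cancel_left]
      rw [h1, mul_inv_cancel]
    obtain ⟨n, hn, hfix⟩ := fixed_lift H hcard (Subgroup.zpowers d) hRp y hv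
    have hπyn : π (y * n) = yb := by rw [map_mul, hπy, hπH n hn, mul_one]
    have hynP : y * n ∈ P := by
      rw [hPmem, hπyn]; exact Subgroup.mem_zpowers yb
    have hyn1 : y * n ≠ 1 := by
      intro h
      rw [h, map_one] at hπyn
      exact hyb1 hπyn.symm
    have hd' : d * (y * n) = (y * n) * d := hfix d (Subgroup.mem_zpowers d)
    have hzZ := (hZmem z).mp hz
    have hz' : (y * n) * z = z * (y * n) := hzZ.2 _ hynP
    apply comm_of_coprime_sub _ (hCN (y * n) hyn1) (mem_cent.mpr hd'.symm) (mem_cent.mpr hz')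
    obtain ⟨j, hj⟩ := pelem_of_mem hHp hzZ.1
    exact Nat.Coprime.coprime_dvd_left (orderOf_dvd_of_pow_eq_one hk)
      (Nat.Coprime.coprime_dvd_right (orderOf_dvd_of_pow_eq_one hj)
        (Nat.Coprime.pow k j ((Nat.coprime_primes hr hp).mpr hrp)))
  have hDle : D ≤ Subgroup.centralizer ({z'} : Set G) := by
    apply le_of_sylow_le
    intro r hr
    by_cases hrp : r = p
    · subst hrp
      refine ⟨S', ?_⟩
      intro s hs
      rw [← hSdef] at hs
      rw [mem_cent]
      exact (hz'c s hs).symm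
    · obtain ⟨Q⟩ : Nonempty (Sylow r D) := inferInstance
      refine ⟨Q, ?_⟩
      intro s hs
      obtain ⟨s0, hs0, rfl⟩ := Subgroup.mem_map.mp hs
      obtain ⟨k, hk⟩ := pelem_of_mem Q.2 hs0
      have hk' : (s0 : G) ^ (r ^ k) = 1 := by simpa using congrArg Subtype.val hk
      rw [mem_cent]
      exact (hE1 r hr.out hrp (s0 : G) s0.2 k hk' z' hz'Z).symm
  have hDnil : Group.IsNilpotent D := isNilpotent_of_le (hCN z' hz'1) hDle
  have hmap : D.map π = Subgroup.centralizer ({yb} : Set (G ⧸ H)) := by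
    rw [hDdef]
    exact Subgroup.map_comap_eq_self_of_surjective
      (by rw [hπ]; exact QuotientGroup.mk'_surjective H) _
  rw [← hmap]
  exact isNilpotent_map π D hDnil

theorem pcase {G : Type*} [Group G] [Finite G] (hCN : Cfsg.IsCNGroup G) (p : ℕ) [Fact p.Prime]
    (H : Subgroup G) [H.Normal] (hHp : IsPGroup p H) (hHne : H ≠ ⊥) :
    Cfsg.IsCNGroup (G ⧸ H) := by
  intro xb hxb
  obtain ⟨q, hq, hqd⟩ := Nat.exists_prime_and_dvd (fun h => hxb (orderOf_eq_one_iff.mp h))
  have hyord : orderOf (xb ^ (orderOf xb / q)) = q :=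
    orderOf_pow_orderOf_div (orderOf_pos xb).ne' hqd
  have hle : Subgroup.centralizer ({xb} : Set (G ⧸ H)) ≤
      Subgroup.centralizer ({xb ^ (orderOf xb / q)} : Set (G ⧸ H)) := by
    intro c hc
    rw [mem_cent] at hc ⊢
    exact ((show Commute xb c from hc).pow_left _).eq
  refine isNilpotent_of_le ?_ hle
  by_cases hqp : q = p
  · exact caseB hCN p H hHp hHne _ (hyord.trans hqp)
  · exact caseA hCN p H hHp _ q hq hqp hyord

theorem main_aux : ∀ n : ℕ, ∀ (G : Type u) [Group G] [Finite G], Nat.card G = n →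
    Cfsg.IsCNGroup G → ∀ (H : Subgroup G) [H.Normal], Group.IsSolvable H →
    Cfsg.IsCNGroup (G ⧸ H) := by
  intro n
  induction n using Nat.strong_induction_on with
  | _ n ih =>
    intro G _ _ hn hCN H _ hH
    by_cases hHb : H = ⊥
    · subst hHb
      exact isCNGroup_of_mulEquiv (QuotientGroup.quotientBot (G := G)).symm hCN
    · obtain ⟨p, hp, H₁, hH₁n, hH₁H, hH₁ne, hH₁p⟩ := exists_normal_pgroup H hH hHb
      haveI : Fact p.Prime := ⟨hp⟩
      haveI := hH₁n
      have hCN₁ : Cfsg.IsCNGroup (G ⧸ H₁) := pcase hCN p H₁ hH₁p hH₁ne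
      have hcard : Nat.card (G ⧸ H₁) < n := by
        rw [← hn, Subgroup.card_eq_card_quotient_mul_card_subgroup H₁]
        have h1 : 1 < Nat.card H₁ := H₁.one_lt_card_iff_ne_bot.mpr hH₁ne
        have h2 : 0 < Nat.card (G ⧸ H₁) := Nat.card_pos
        nlinarith
      have := hH
      have hsol : Group.IsSolvable (H.map (QuotientGroup.mk' H₁)) :=
        Group.isSolvable_of_surjective ((QuotientGroup.mk' H₁).subgroupMap_surjective H)
      have hres := ih (Nat.card (G ⧸ H₁)) hcard (G ⧸ H₁) rfl hCN₁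
        (H.map (QuotientGroup.mk' H₁)) hsol
      exact isCNGroup_of_mulEquiv (QuotientGroup.quotientQuotientEquivQuotient H₁ H hH₁H) hres

/-- Let G be a finite group in which the centralizer of every non-identity element is nilpotent, and H a solvable normal subgroup of G. Then in G/H the centralizer of every non-identity element is nilpotent. -/
theorem result {G : Type*} [Group G] [Finite G] (hCN : Cfsg.IsCNGroup G) (H : Subgroup G) [H.Normal] (hH : Group.IsSolvable H) :
    Cfsg.IsCNGroup (G ⧸ H) := by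
  exact main_aux (Nat.card G) G rfl hCN H hH

end Cfsg.Agent.S1473
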