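import Cfsg.Statements.S1477
import Mathlib
import Cfsg.Agent.Helper8.Nilp

set_option autoImplicit false
open Cfsg
open Cfsg.Agent.Helper8

namespace Cfsg.Agent.S1477

/-- Let G be a finite group in which every non-identity element has nilpotent centralizer, and H a nilpotent subgroup not properly contained in any nilpotent subgroup. Then the order of H is coprime to its index; if the order of H is not a prime power then H ∩ gHg⁻¹ = 1 whenever gHg⁻¹ ≠ H; and if H ∩ gHg⁻¹ = 1 whenever gHg⁻¹ ≠ H, then C_G(x) ≤ H for every non-identity x ∈ H. -/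
theorem result {G : Type*} [Group G] [Finite G] (hCN : Cfsg.IsCNGroup G) (H : Subgroup G) (hH : Group.IsNilpotent H)
    (hmax : ∀ L : Subgroup G, Group.IsNilpotent L → H ≤ L → L = H) :
    (Nat.card H).Coprime H.index ∧
      (¬ IsPrimePow (Nat.card H) → Nat.card H ≠ 1 → ∀ g : G, H.map (MulAut.conj g).toMonoidHom ≠ H → H ⊓ H.map (MulAut.conj g).toMonoidHom = ⊥) ∧
      ((∀ g : G, H.map (MulAut.conj g).toMonoidHom ≠ H → H ⊓ H.map (MulAut.conj g).toMonoidHom = ⊥) → ∀ x ∈ H, x ≠ 1 → Subgroup.centralizer ({x} : Set G) ≤ H) := by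
  have hM : ∀ z : G, z ≠ 1 → (∀ h ∈ H, z * h = h * z) →
      Subgroup.centralizer ({z} : Set G) = H := by
    intro z hz hcomm
    exact hmax _ (hCN z hz) (fun h hh => mem_cent.mpr (hcomm h hh))
  have hF : ∀ (p : ℕ) [Fact p.Prime], p ∣ Nat.card H → ∃ S : Sylow p G, (S : Subgroup G) ≤ H ∧
      ∀ z ∈ (S : Subgroup G), z ≠ 1 → (∀ s ∈ (S : Subgroup G), s * z = z * s) →
        Subgroup.centralizer ({z} : Set G) = H := by
    intro p _ hpd
    have hp : p.Prime := Fact.out
    obtain ⟨T, hTH, hTp, hTall⟩ := exists_sylow_of_nilpotent H hH p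
    have hZ : ∀ z ∈ H, z ≠ 1 → (∃ k : ℕ, z ^ (p ^ k) = 1) → (∀ t ∈ T, t * z = z * t) →
        Subgroup.centralizer ({z} : Set G) = H := by
      rintro z hzH hz1 ⟨k, hk⟩ hzT
      apply hM z hz1
      intro h hh
      obtain ⟨e, m, u, v, hn, hm, hu, hv, hdec, hue, hvm⟩ :=
        exists_decomp h (orderOf_pos h).ne' p hp
      have huH : u ∈ H := Subgroup.zpowers_le.mpr hh hu
      have hvH : v ∈ H := Subgroup.zpowers_le.mpr hh hv
      have huT : u ∈ T := hTall u huH ⟨e, hue⟩
      have h1 : u * z = z * u := hzT u huT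
      have h2 : z * v = v * z := by
        apply comm_of_coprime_sub H hH hzH hvH
        exact Nat.Coprime.coprime_dvd_left (orderOf_dvd_of_pow_eq_one hk)
          (Nat.Coprime.coprime_dvd_right (orderOf_dvd_of_pow_eq_one hvm)
            (Nat.Coprime.pow_left k ((Nat.Prime.coprime_iff_not_dvd hp).mpr hm)))
      rw [hdec, ← mul_assoc, h2, mul_assoc, ← h1, mul_assoc]
    obtain ⟨u0, hu0⟩ := exists_prime_orderOf_dvd_card' (G := H) p hpd
    have hu0' : orderOf (u0 : G) = p := by rw [Subgroup.orderOf_coe]; exact hu0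
    have hu0T : (u0 : G) ∈ T :=
      hTall u0 u0.2 ⟨1, by rw [pow_one, ← hu0', pow_orderOf_eq_one]⟩
    have hu0ne : (u0 : G) ≠ 1 := by
      intro h
      rw [h, orderOf_one] at hu0'
      exact hp.one_lt.ne hu0'
    have hTne : T ≠ ⊥ := by
      intro hT
      rw [hT] at hu0T
      exact hu0ne (Subgroup.mem_bot.mp hu0T)
    obtain ⟨S, hTS⟩ := hTp.exists_le_sylow
    have hSne : (S : Subgroup G) ≠ ⊥ := fun hS => hTne (eq_bot_iff.mpr (le_of_le_of_eq hTS hS))
    obtain ⟨z, hzT, hz1, hzc⟩ := exists_central_of_pgroup T hTp hTne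
    have hCz := hZ z (hTH hzT) hz1 (pelem_of_mem hTp hzT) hzc
    have hST : ∀ w ∈ (S : Subgroup G), w ≠ 1 → (∀ s ∈ (S : Subgroup G), s * w = w * s) →
        Subgroup.centralizer ({w} : Set G) = H := by
      intro w hwS hw1 hwc
      have hwH : w ∈ H := by
        rw [← hCz, mem_cent]
        exact hwc z (hTS hzT)
      exact hZ w hwH hw1 (pelem_of_mem S.isPGroup' hwS) (fun t ht => hwc t (hTS ht))
    obtain ⟨w, hwS, hw1, hwc⟩ := exists_central_of_pgroup (S : Subgroup G) S.isPGroup' hSne
    have hCw := hST w hwS hw1 hwc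
    refine ⟨S, ?_, hST⟩
    intro s hs
    rw [← hCw, mem_cent]
    exact (hwc s hs).symm
  have hHall : (Nat.card H).Coprime H.index := by
    by_contra hnc
    obtain ⟨p, hp, hpd⟩ := Nat.exists_prime_and_dvd hnc
    have : Fact p.Prime := ⟨hp⟩
    obtain ⟨S, hSH, -⟩ := hF p (hpd.trans (Nat.gcd_dvd_left _ _))
    have h2 : p ∣ H.index := hpd.trans (Nat.gcd_dvd_right _ _)
    have h3 : H.index ∣ (S : Subgroup G).index := Subgroup.index_dvd_of_le hSH
    exact S.not_dvd_index (h2.trans h3)
  refine ⟨hHall, ?_, ?_⟩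
  · intro hnpp hne1 g hg
    by_contra hne
    rw [Subgroup.eq_bot_iff_forall] at hne
    push_neg at hne
    obtain ⟨x0, hx0, hx01⟩ := hne
    have hx0H : x0 ∈ H := (Subgroup.mem_inf.mp hx0).1
    have hx0K : x0 ∈ H.map (MulAut.conj g).toMonoidHom := (Subgroup.mem_inf.mp hx0).2
    obtain ⟨q, hq, hqd⟩ := Nat.exists_prime_and_dvd (fun h => hx01 (orderOf_eq_one_iff.mp h))
    obtain ⟨x, hxdef⟩ : ∃ x, x = x0 ^ (orderOf x0 / q) := ⟨_, rfl⟩
    have hxord : orderOf x = q := by
      rw [hxdef]; exact orderOf_pow_orderOf_div (orderOf_pos x0).ne' hqd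
    have hxH : x ∈ H := by rw [hxdef]; exact H.pow_mem hx0H _
    have hxK : x ∈ H.map (MulAut.conj g).toMonoidHom := by
      rw [hxdef]; exact Subgroup.pow_mem _ hx0K _
    have hx1 : x ≠ 1 := by
      intro h
      rw [h, orderOf_one] at hxord
      exact hq.one_lt.ne hxord
    obtain ⟨y, hyH, hyx⟩ := Subgroup.mem_map.mp hxK
    have hyx' : g * y * g⁻¹ = x := hyx
    have hexp : ∃ p : ℕ, p.Prime ∧ p ∣ Nat.card H ∧ p ≠ q := by
      by_contra hcon
      push_neg at hcon
      apply hnpp
      have h0 : Nat.card H ≠ 0 := Nat.card_pos.ne'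
      have hpow := Nat.eq_prime_pow_of_unique_prime_dvd h0 (fun {d} hd hdd => hcon d hd hdd)
      rw [hpow]
      refine hq.isPrimePow.pow ?_
      intro hk
      rw [hk, pow_zero] at hpow
      exact hne1 hpow
    obtain ⟨p, hp, hpH, hpq⟩ := hexp
    have : Fact p.Prime := ⟨hp⟩
    obtain ⟨S, hSH, hSZ⟩ := hF p hpH
    have hcop : ∀ k : ℕ, (p ^ k).Coprime q := fun k =>
      Nat.Coprime.pow_left k ((Nat.coprime_primes hp hq).mpr hpq)
    have hxS : ∀ s ∈ (S : Subgroup G), s * x = x * s := by
      intro s hs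
      obtain ⟨k, hk⟩ := pelem_of_mem S.isPGroup' hs
      apply comm_of_coprime_sub H hH (hSH hs) hxH
      rw [hxord]
      exact Nat.Coprime.coprime_dvd_left (orderOf_dvd_of_pow_eq_one hk) (hcop k)
    have hyord : orderOf y = q := by
      have h1 := (MulAut.conj g).orderOf_eq y
      rw [MulAut.conj_apply, hyx', hxord] at h1
      exact h1.symm
    have hyS : ∀ s ∈ (S : Subgroup G), s * y = y * s := by
      intro s hs
      obtain ⟨k, hk⟩ := pelem_of_mem S.isPGroup' hs
      apply comm_of_coprime_sub H hH (hSH hs) hyH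
      rw [hyord]
      exact Nat.Coprime.coprime_dvd_left (orderOf_dvd_of_pow_eq_one hk) (hcop k)
    have hxSg : ∀ s ∈ (S : Subgroup G), (g * s * g⁻¹) * x = x * (g * s * g⁻¹) := by
      intro s hs
      rw [← hyx']
      have h1 := hyS s hs
      calc g * s * g⁻¹ * (g * y * g⁻¹) = g * (s * y) * g⁻¹ := by group
        _ = g * (y * s) * g⁻¹ := by rw [h1]
        _ = g * y * g⁻¹ * (g * s * g⁻¹) := by group
    obtain ⟨T, hTC, hTp, hTall⟩ :=
      exists_sylow_of_nilpotent (Subgroup.centralizer ({x} : Set G)) (hCN x hx1) p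
    have hST : (S : Subgroup G) ≤ T := by
      intro s hs
      exact hTall s (mem_cent.mpr (hxS s hs).symm) (pelem_of_mem S.isPGroup' hs)
    have hTS : T = (S : Subgroup G) := S.is_maximal' hTp hST
    have hconj : ∀ s ∈ (S : Subgroup G), g * s * g⁻¹ ∈ (S : Subgroup G) := by
      intro s hs
      rw [← hTS]
      obtain ⟨k, hk⟩ := pelem_of_mem S.isPGroup' hs
      refine hTall _ (mem_cent.mpr (hxSg s hs).symm) ⟨k, ?_⟩
      rw [conj_pow, hk]; group
    have hsurj : ∀ s ∈ (S : Subgroup G), ∃ s' ∈ (S : Subgroup G), g * s' * g⁻¹ = s := by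
      intro s hs
      let f : ↥(S : Subgroup G) → ↥(S : Subgroup G) := fun t => ⟨g * t.1 * g⁻¹, hconj t.1 t.2⟩
      have hinj : Function.Injective f := by
        intro a b hab
        have h1 : g * a.1 * g⁻¹ = g * b.1 * g⁻¹ := congrArg Subtype.val hab
        exact Subtype.ext (mul_left_cancel (mul_right_cancel h1))
      obtain ⟨t, ht⟩ := (Finite.injective_iff_surjective.mp hinj) ⟨s, hs⟩
      exact ⟨t.1, t.2, congrArg Subtype.val ht⟩
    have hSne : (S : Subgroup G) ≠ ⊥ :=
      S.ne_bot_of_dvd_card (hpH.trans (Subgroup.card_subgroup_dvd_card H))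
    obtain ⟨z0, hz0S, hz01, hz0c⟩ := exists_central_of_pgroup (S : Subgroup G) S.isPGroup' hSne
    have hC0 := hSZ z0 hz0S hz01 hz0c
    have hzS : g * z0 * g⁻¹ ∈ (S : Subgroup G) := hconj z0 hz0S
    have hz1 : g * z0 * g⁻¹ ≠ 1 := by
      intro h
      apply hz01
      have h1 : g * z0 * g⁻¹ = g * 1 * g⁻¹ := by rw [h]; group
      exact mul_left_cancel (mul_right_cancel h1)
    have hzc : ∀ s ∈ (S : Subgroup G), s * (g * z0 * g⁻¹) = (g * z0 * g⁻¹) * s := by
      intro s hs
      obtain ⟨s', hs', rfl⟩ := hsurj s hs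
      have h1 := hz0c s' hs'
      calc g * s' * g⁻¹ * (g * z0 * g⁻¹) = g * (s' * z0) * g⁻¹ := by group
        _ = g * (z0 * s') * g⁻¹ := by rw [h1]
        _ = g * z0 * g⁻¹ * (g * s' * g⁻¹) := by group
    have hC1 := hSZ _ hzS hz1 hzc
    apply hg
    ext c
    rw [Subgroup.mem_map]
    constructor
    · rintro ⟨h, hh, rfl⟩
      rw [← hC1, mem_cent]
      have h0 : z0 * h = h * z0 := by
        have h1 : h ∈ Subgroup.centralizer ({z0} : Set G) := by rw [hC0]; exact hh
        exact mem_cent.mp h1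
      show g * z0 * g⁻¹ * (g * h * g⁻¹) = g * h * g⁻¹ * (g * z0 * g⁻¹)
      calc g * z0 * g⁻¹ * (g * h * g⁻¹) = g * (z0 * h) * g⁻¹ := by group
        _ = g * (h * z0) * g⁻¹ := by rw [h0]
        _ = g * h * g⁻¹ * (g * z0 * g⁻¹) := by group
    · intro hc
      refine ⟨g⁻¹ * c * g, ?_, ?_⟩
      · rw [← hC0, mem_cent]
        have h1 : g * z0 * g⁻¹ * c = c * (g * z0 * g⁻¹) := by
          have h2 : c ∈ Subgroup.centralizer ({g * z0 * g⁻¹} : Set G) := by rw [hC1]; exact hc
          exact mem_cent.mp h2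
        calc z0 * (g⁻¹ * c * g) = g⁻¹ * (g * z0 * g⁻¹ * c) * g := by group
          _ = g⁻¹ * (c * (g * z0 * g⁻¹)) * g := by rw [h1]
          _ = g⁻¹ * c * g * z0 := by group
      · show g * (g⁻¹ * c * g) * g⁻¹ = c
        group
  · intro hTI x hxH hx1
    have hcard1 : Nat.card H ≠ 1 := by
      intro h
      have hb : H = ⊥ := Subgroup.card_eq_one.mp h
      rw [hb] at hxH
      exact hx1 (Subgroup.mem_bot.mp hxH)
    obtain ⟨p, hp, hpH⟩ := Nat.exists_prime_and_dvd hcard1
    have : Fact p.Prime := ⟨hp⟩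
    obtain ⟨S, hSH, hSZ⟩ := hF p hpH
    have hSne : (S : Subgroup G) ≠ ⊥ :=
      S.ne_bot_of_dvd_card (hpH.trans (Subgroup.card_subgroup_dvd_card H))
    obtain ⟨z, hzS, hz1, hzc⟩ := exists_central_of_pgroup (S : Subgroup G) S.isPGroup' hSne
    have hCz := hSZ z hzS hz1 hzc
    have hzH : z ∈ H := hSH hzS
    have hzx : z * x = x * z := by
      have h1 : x ∈ Subgroup.centralizer ({z} : Set G) := by rw [hCz]; exact hxH
      exact mem_cent.mp h1
    have hCnil := hCN x hx1
    have hpp : ∀ (q : ℕ), q.Prime → ∀ u : G, x * u = u * x → ∀ k : ℕ, u ^ (q ^ k) = 1 →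
        u ∈ H := by
      intro q hq u hu k hk
      by_cases hqH : q ∣ Nat.card H
      · have huN : u ∈ Subgroup.normalizer (H : Set G) := by
          have hmap : H.map (MulAut.conj u).toMonoidHom = H := by
            by_contra hneq
            have hbot := hTI u hneq
            have hxin : x ∈ H ⊓ H.map (MulAut.conj u).toMonoidHom := by
              refine Subgroup.mem_inf.mpr ⟨hxH, Subgroup.mem_map.mpr ⟨x, hxH, ?_⟩⟩
              show u * x * u⁻¹ = x
              rw [← hu]; group
            rw [hbot] at hxin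
            exact hx1 (Subgroup.mem_bot.mp hxin)
          rw [Subgroup.mem_normalizer_iff]
          intro h
          constructor
          · intro hh
            rw [← hmap]
            exact Subgroup.mem_map.mpr ⟨h, hh, rfl⟩
          · intro hh
            rw [← hmap] at hh
            obtain ⟨h', hh', heq⟩ := Subgroup.mem_map.mp hh
            have heq' : u * h' * u⁻¹ = u * h * u⁻¹ := heq
            have h3 : h' = h := mul_left_cancel (mul_right_cancel heq')
            exact h3 ▸ hh'
        apply mem_of_mem_normalizer_of_coprime H u huN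
        have hqi : ¬ q ∣ H.index := by
          intro hqi
          have h3 := Nat.dvd_gcd hqH hqi
          rw [Nat.Coprime.gcd_eq_one hHall] at h3
          exact hq.one_lt.ne' (Nat.dvd_one.mp h3)
        exact Nat.Coprime.coprime_dvd_left (orderOf_dvd_of_pow_eq_one hk)
          (Nat.Coprime.pow_left k ((Nat.Prime.coprime_iff_not_dvd hq).mpr hqi))
      · have huz : u * z = z * u := by
          apply comm_of_coprime_sub _ hCnil (mem_cent.mpr hu) (mem_cent.mpr hzx.symm)
          have hz_ord : orderOf z ∣ Nat.card H := Subgroup.orderOf_dvd_natCard H hzH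
          exact Nat.Coprime.coprime_dvd_left (orderOf_dvd_of_pow_eq_one hk)
            (Nat.Coprime.coprime_dvd_right hz_ord
              (Nat.Coprime.pow_left k ((Nat.Prime.coprime_iff_not_dvd hq).mpr hqH)))
        rw [← hCz, mem_cent]
        exact huz.symm
    have hall : ∀ n : ℕ, ∀ c : G, x * c = c * x → orderOf c = n → c ∈ H := by
      intro n
      induction n using Nat.strong_induction_on with
      | _ n ih =>
        intro c hc hcn
        by_cases h1 : n = 1
        · rw [h1] at hcn
          rw [orderOf_eq_one_iff.mp hcn]; exact H.one_mem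
        · obtain ⟨q, hq, hqn⟩ := Nat.exists_prime_and_dvd h1
          obtain ⟨e, m, u, v, hn, hm, hu, hv, hdec, hue, hvm⟩ :=
            exists_decomp c (orderOf_pos c).ne' q hq
          have hzc : ∀ w ∈ Subgroup.zpowers c, x * w = w * x := by
            intro w hw
            have h2 : Subgroup.zpowers c ≤ Subgroup.centralizer ({x} : Set G) :=
              Subgroup.zpowers_le.mpr (mem_cent.mpr hc)
            exact mem_cent.mp (h2 hw)
          have huH : u ∈ H := hpp q hq u (hzc u hu) e hue
          have hmpos : 0 < m := by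
            rcases Nat.eq_zero_or_pos m with h0 | h0
            · exfalso
              rw [h0, mul_zero] at hn
              exact (orderOf_pos c).ne' hn
            · exact h0
          have he : e ≠ 0 := by
            intro he
            rw [he, pow_zero, one_mul] at hn
            rw [hcn] at hn
            exact hm (hn ▸ hqn)
          have hlt : m < n := by
            rw [← hcn, hn]
            have h3 : 1 < q ^ e := Nat.one_lt_pow he hq.one_lt
            nlinarith
          have hvord : orderOf v ≤ m := Nat.le_of_dvd hmpos (orderOf_dvd_of_pow_eq_one hvm)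
          have hvH : v ∈ H := ih (orderOf v) (lt_of_le_of_lt hvord hlt) v (hzc v hv) rfl
          rw [hdec]; exact H.mul_mem hvH huH
    intro c hc
    exact hall _ c (mem_cent.mp hc) rfl

end Cfsg.Agent.S1477
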