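import Cfsg.Statements.S1485

set_option autoImplicit false
open Cfsg

namespace Cfsg.Agent.S1485

/-- The conjugate of a function on a normal subgroup. -/
noncomputable def conjFn {G : Type*} [Group G] (H : Subgroup G) [hN : H.Normal] (θ : H → ℂ)
    (g : G) : H → ℂ := fun h => θ ⟨g * h * g⁻¹, hN.conj_mem h h.2 g⟩

/-- Let H be a normal subgroup of the finite group G and θ an irreducible character of H. On H, the function induced from θ equals r times the sum of the distinct G-conjugates of θ, where r is the number of elements of G fixing θ under conjugation divided by the order of H (the index of H in the inertia group). -/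
theorem result {G : Type*} [Group G] [Fintype G] (H : Subgroup G) [hN : H.Normal] (θ : H → ℂ) (hθ : Cfsg.IsIrrCharacter H θ) : (fun h : H => Cfsg.indFun H θ h) = ((Nat.card {g : G // ∀ h : H, θ ⟨g * h * g⁻¹, hN.conj_mem h h.2 g⟩ = θ h} : ℂ) / (Nat.card H : ℂ)) • ∑ᶠ ψ ∈ {ψ : H → ℂ | ∃ g : G, ψ = fun h : H => θ ⟨g * h * g⁻¹, hN.conj_mem h h.2 g⟩}, ψ := by
  classical
  have hS : {ψ : H → ℂ | ∃ g : G, ψ = fun h : H => θ ⟨g * h * g⁻¹, hN.conj_mem h h.2 g⟩}
      = ↑(Finset.univ.image (conjFn H θ)) := by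
    ext ψ
    simp only [Finset.coe_image, Finset.coe_univ, Set.image_univ, Set.mem_range]
    constructor
    · rintro ⟨g, rfl⟩; exact ⟨g, rfl⟩
    · rintro ⟨g, rfl⟩; exact ⟨g, rfl⟩
  rw [hS, finsum_mem_coe_finset]
  have hT : Nat.card {g : G // ∀ h : H, θ ⟨g * h * g⁻¹, hN.conj_mem h h.2 g⟩ = θ h}
      = (Finset.univ.filter (fun g : G => conjFn H θ g = θ)).card := by
    rw [Nat.card_eq_fintype_card, Fintype.card_subtype]
    congr 1
    ext g
    simp only [Finset.mem_filter, Finset.mem_univ, true_and]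
    constructor
    · intro h; funext x; exact h x
    · intro h x; exact congrFun h x
  have hFmul : ∀ a b : G, ∀ h : H,
      conjFn H θ (a * b) h = conjFn H θ a ⟨b * h * b⁻¹, hN.conj_mem h h.2 b⟩ := by
    intro a b h
    show θ _ = θ _
    congr 1
    apply Subtype.ext
    show a * b * h * (a * b)⁻¹ = a * (b * h * b⁻¹) * a⁻¹
    group
  have hfib : ∀ ψ ∈ Finset.univ.image (conjFn H θ),
      (Finset.univ.filter (fun x : G => conjFn H θ x = ψ)).card
        = (Finset.univ.filter (fun g : G => conjFn H θ g = θ)).card := by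
    intro ψ hψ
    obtain ⟨x₀, -, rfl⟩ := Finset.mem_image.mp hψ
    symm
    apply Finset.card_bij (fun g _ => g * x₀)
    · intro g hg
      simp only [Finset.mem_filter, Finset.mem_univ, true_and] at hg ⊢
      funext h
      rw [hFmul, hg]
      rfl
    · intro a _ b _ hab
      exact mul_right_cancel hab
    · intro x hx
      simp only [Finset.mem_filter, Finset.mem_univ, true_and] at hx
      refine ⟨x * x₀⁻¹, ?_, by group⟩
      simp only [Finset.mem_filter, Finset.mem_univ, true_and]
      funext h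
      rw [hFmul, hx]
      show θ _ = θ _
      congr 1
      apply Subtype.ext
      show x₀ * (x₀⁻¹ * h * x₀⁻¹⁻¹) * x₀⁻¹ = h
      group
  funext h
  rw [Pi.smul_apply, Finset.sum_apply]
  show (Nat.card H : ℂ)⁻¹ * ∑ x : G, extendByZero H θ (x⁻¹ * (h : G) * x) = _
  have h0 : ∑ x : G, extendByZero H θ (x⁻¹ * (h : G) * x)
      = ∑ x : G, extendByZero H θ (x * (h : G) * x⁻¹) := by
    rw [← Equiv.sum_comp (Equiv.inv G) (fun x => extendByZero H θ (x * (h : G) * x⁻¹))]
    simp
  have h1 : ∀ x : G, extendByZero H θ (x * (h : G) * x⁻¹) = conjFn H θ x h := fun x =>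
    Function.Injective.extend_apply (Subtype.val_injective) θ 0
      (⟨x * h * x⁻¹, hN.conj_mem h h.2 x⟩ : H)
  rw [h0, Finset.sum_congr rfl (fun x _ => h1 x)]
  have h2 : ∑ x : G, conjFn H θ x = ∑ ψ ∈ Finset.univ.image (conjFn H θ),
      (Finset.univ.filter (fun x : G => conjFn H θ x = ψ)).card • ψ :=
    Finset.sum_comp (fun ψ => ψ) (conjFn H θ)
  have h2' : ∑ x : G, conjFn H θ x = (Finset.univ.filter (fun g : G => conjFn H θ g = θ)).card •
      ∑ ψ ∈ Finset.univ.image (conjFn H θ), ψ := by
    rw [h2, Finset.smul_sum]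
    exact Finset.sum_congr rfl (fun ψ hψ => by rw [hfib ψ hψ])
  have h3 : ∑ x : G, conjFn H θ x h
      = ((Finset.univ.filter (fun g : G => conjFn H θ g = θ)).card : ℂ) *
        ∑ ψ ∈ Finset.univ.image (conjFn H θ), ψ h := by
    have := congrFun h2' h
    simpa [Finset.sum_apply] using this
  rw [h3, hT, smul_eq_mul]
  ring

end Cfsg.Agent.S1485
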