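import Cfsg.Statements.S1487
import Cfsg.Agent.Helper24.CharOdd

set_option autoImplicit false
open Cfsg

namespace Cfsg.Agent.S1487

/-- Let A ≤ H be normal subgroups of the finite group G and θ an irreducible character of H. Then θ takes the value θ 1 on all of A if and only if the function induced from θ to G takes its value at 1 on all of A. -/
theorem result {G : Type*} [Group G] [Fintype G] (A H : Subgroup G) [A.Normal] [H.Normal] (hAH : A ≤ H) (θ : H → ℂ) (hθ : Cfsg.IsIrrCharacter H θ) : (∀ a : H, (a : G) ∈ A → θ a = θ 1) ↔ (∀ a : G, a ∈ A → Cfsg.indFun H θ a = Cfsg.indFun H θ 1) := by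
  constructor
  · intro h a ha
    exact Helper24.indFun_eq_one_of_ker A H hAH θ h a ha
  · intro h a ha
    exact Helper24.ker_of_indFun_eq_one A H θ hθ h a ha

end Cfsg.Agent.S1487
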