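import Cfsg.Statements.S1488

set_option autoImplicit false
open Cfsg

namespace Cfsg.Agent.S1488

theorem sum_comp_mk {G : Type*} [Group G] [Fintype G] (A : Subgroup G) [A.Normal]
    [Fintype (G ⧸ A)] (F : G ⧸ A → ℂ) :
    ∑ x : G, F (QuotientGroup.mk' A x) = (Nat.card A : ℂ) * ∑ q : G ⧸ A, F q := by
  classical
  have : Fintype A := Fintype.ofFinite A
  calc ∑ x : G, F (QuotientGroup.mk' A x)
      = ∑ x : G, (fun y : (G ⧸ A) × A => F y.1)
          (Subgroup.groupEquivQuotientProdSubgroup (s := A) x) := by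
        apply Finset.sum_congr rfl; intro x _; rfl
    _ = ∑ y : (G ⧸ A) × A, F y.1 :=
        Equiv.sum_comp (Subgroup.groupEquivQuotientProdSubgroup (s := A))
          (fun y : (G ⧸ A) × A => F y.1)
    _ = ∑ q : G ⧸ A, ∑ a : A, F q := Fintype.sum_prod_type _
    _ = (Nat.card A : ℂ) * ∑ q : G ⧸ A, F q := by
        simp [Finset.mul_sum, Nat.card_eq_fintype_card]

/-- Let A be a normal subgroup of the finite group G contained in the subgroup H, let θ be a function on H and θ₁ a function on the image of H in G ⧸ A whose composite with the projection is θ. Then the function induced from θ₁ to G ⧸ A, composed with the projection G → G ⧸ A, equals the function induced from θ to G. -/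
theorem result {G : Type*} [Group G] [Fintype G] (A H : Subgroup G) [A.Normal] (hAH : A ≤ H) [Fintype (G ⧸ A)] [Fintype ↥(H.map (QuotientGroup.mk' A))] (θ : H → ℂ) (θ₁ : ↥(H.map (QuotientGroup.mk' A)) → ℂ) (hθ : ∀ x : H, θ₁ ⟨QuotientGroup.mk' A x, Subgroup.mem_map_of_mem _ x.2⟩ = θ x) (g : G) : Cfsg.indFun (H.map (QuotientGroup.mk' A)) θ₁ (QuotientGroup.mk' A g) = Cfsg.indFun H θ g := by
  classical
  have key : ∀ y : G, extendByZero (H.map (QuotientGroup.mk' A)) θ₁ (QuotientGroup.mk' A y)
      = extendByZero H θ y := by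
    intro y
    by_cases hy : y ∈ H
    · have h1 : extendByZero H θ y = θ ⟨y, hy⟩ :=
        Function.Injective.extend_apply (Subtype.val_injective) θ 0 (⟨y, hy⟩ : H)
      have h2 : extendByZero (H.map (QuotientGroup.mk' A)) θ₁ (QuotientGroup.mk' A y)
          = θ₁ ⟨QuotientGroup.mk' A y, Subgroup.mem_map_of_mem _ hy⟩ :=
        Function.Injective.extend_apply (Subtype.val_injective) θ₁ 0
          (⟨QuotientGroup.mk' A y, Subgroup.mem_map_of_mem _ hy⟩ : H.map (QuotientGroup.mk' A))
      rw [h1, h2]; exact hθ ⟨y, hy⟩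
    · have h1 : extendByZero H θ y = 0 := by
        show Function.extend (Subtype.val : H → G) θ 0 y = (0 : G → ℂ) y
        apply Function.extend_apply'
        rintro ⟨⟨z, hz⟩, rfl⟩
        exact hy hz
      have h2 : extendByZero (H.map (QuotientGroup.mk' A)) θ₁ (QuotientGroup.mk' A y) = 0 := by
        show Function.extend (Subtype.val : H.map (QuotientGroup.mk' A) → G ⧸ A) θ₁ 0
          (QuotientGroup.mk' A y) = (0 : G ⧸ A → ℂ) (QuotientGroup.mk' A y)
        apply Function.extend_apply'
        rintro ⟨⟨z, hz⟩, hzy⟩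
        obtain ⟨h, hh, hhz⟩ := Subgroup.mem_map.mp hz
        have h3 : QuotientGroup.mk' A h = QuotientGroup.mk' A y := hhz.trans hzy
        have h4 : h⁻¹ * y ∈ A := QuotientGroup.eq.mp h3
        apply hy
        have h5 : y = h * (h⁻¹ * y) := by group
        rw [h5]; exact H.mul_mem hh (hAH h4)
      rw [h1, h2]
  show (Nat.card (H.map (QuotientGroup.mk' A)) : ℂ)⁻¹ * ∑ x : G ⧸ A,
      extendByZero (H.map (QuotientGroup.mk' A)) θ₁ (x⁻¹ * QuotientGroup.mk' A g * x)
    = (Nat.card H : ℂ)⁻¹ * ∑ x : G, extendByZero H θ (x⁻¹ * g * x)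
  have hsum : ∑ x : G, extendByZero H θ (x⁻¹ * g * x) = (Nat.card A : ℂ) * ∑ q : G ⧸ A,
      extendByZero (H.map (QuotientGroup.mk' A)) θ₁ (q⁻¹ * QuotientGroup.mk' A g * q) := by
    rw [← sum_comp_mk A (fun q => extendByZero (H.map (QuotientGroup.mk' A)) θ₁
      (q⁻¹ * QuotientGroup.mk' A g * q))]
    apply Finset.sum_congr rfl
    intro x _
    rw [← key]
    simp
  have hcard : (Nat.card H : ℂ)
      = (Nat.card (H.map (QuotientGroup.mk' A)) : ℂ) * (Nat.card A : ℂ) := by
    have h1 := Subgroup.card_mul_index H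
    have h2 := Subgroup.card_mul_index (H.map (QuotientGroup.mk' A))
    have h3 : (H.map (QuotientGroup.mk' A)).index = H.index :=
      Subgroup.index_map_eq H (QuotientGroup.mk'_surjective A)
        (by rw [QuotientGroup.ker_mk']; exact hAH)
    have h4 := Subgroup.card_eq_card_quotient_mul_card_subgroup A
    have h5 : H.index ≠ 0 := Subgroup.index_ne_zero_of_finite
    have h6 : Nat.card H = Nat.card (H.map (QuotientGroup.mk' A)) * Nat.card A := by
      rw [h3] at h2
      have h7 : Nat.card H * H.index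
          = Nat.card (H.map (QuotientGroup.mk' A)) * Nat.card A * H.index := by
        rw [h1, h4, ← h2]; ring
      exact Nat.eq_of_mul_eq_mul_right (Nat.pos_of_ne_zero h5) h7
    rw [h6]; push_cast; ring
  rw [hsum, hcard]
  have hA0 : (Nat.card A : ℂ) ≠ 0 := Nat.cast_ne_zero.mpr Nat.card_pos.ne'
  have hH0 : (Nat.card (H.map (QuotientGroup.mk' A)) : ℂ) ≠ 0 :=
    Nat.cast_ne_zero.mpr Nat.card_pos.ne'
  field_simp

end Cfsg.Agent.S1488
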