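import Cfsg.Statements.S1493
import Cfsg.Agent.Helper22.GalIrr2

set_option autoImplicit false
open Cfsg
open Cfsg.Agent.Helper24 Cfsg.Agent.Helper22

namespace Cfsg.Agent.S1493

/-- Let G be a finite group of order a * b with a and b coprime, let k be coprime to a, and let χ be a character of G. Then there is a character χ' of G such that χ'(g) = χ(g ^ k) whenever the order of g divides a and χ'(g) = χ(g) whenever the order of g is coprime to a; moreover χ' is irreducible if χ is. -/
theorem result {G : Type*} [Group G] [Finite G] (a b k : ℕ) (hab : Nat.card G = a * b) (hcop : Nat.Coprime a b) (hk : Nat.Coprime k a) (χ : G → ℂ) (hχ : Cfsg.IsCharacter G χ) : ∃ χ' : G → ℂ, Cfsg.IsCharacter G χ' ∧ (Cfsg.IsIrrCharacter G χ → Cfsg.IsIrrCharacter G χ') ∧ (∀ g : G, orderOf g ∣ a → χ' g = χ (g ^ k)) ∧ (∀ g : G, Nat.Coprime (orderOf g) a → χ' g = χ g) := by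
  obtain ⟨k', hk'a, hk'b⟩ := Nat.chineseRemainder hcop k 1
  have hcopa : Nat.Coprime k' a := by
    have h : Nat.gcd k' a = 1 := by rw [hk'a.gcd_eq]; exact hk
    exact h
  have hcopb : Nat.Coprime k' b := by
    have h : Nat.gcd k' b = 1 := by rw [hk'b.gcd_eq]; exact Nat.gcd_one_left b
    exact h
  have hcopG : Nat.Coprime k' (Nat.card G) := by
    rw [hab]; exact Nat.Coprime.mul_right hcopa hcopb
  refine ⟨fun g => χ (g ^ k'), isCharacter_pow_coprime hχ k' hcopG, ?_, ?_, ?_⟩
  · intro hirr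
    exact isIrrCharacter_pow_coprime ⟨χ, hirr⟩ k' hcopG
  · intro g hg
    show χ (g ^ k') = χ (g ^ k)
    rw [pow_eq_pow_iff_modEq.mpr (hk'a.of_dvd hg)]
  · intro g hg
    show χ (g ^ k') = χ g
    have hdvd : orderOf g ∣ b := by
      have h1 : orderOf g ∣ a * b := by rw [← hab]; exact orderOf_dvd_natCard g
      exact Nat.Coprime.dvd_of_dvd_mul_left hg h1
    have h2 : g ^ k' = g ^ 1 := pow_eq_pow_iff_modEq.mpr (hk'b.of_dvd hdvd)
    rw [h2, pow_one]

end Cfsg.Agent.S1493
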