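import Cfsg.Statements.S1494
import Mathlib
import Cfsg.Agent.Helper24.CharEigen

set_option autoImplicit false
open Cfsg

namespace Cfsg.Agent.S1494

/-- Commuting finite-order operators: `tr(AB) - tr(B)` is divisible by `1 - ε`. -/
theorem trace_mul_sub {V : Type*} [AddCommGroup V] [Module ℂ V] [FiniteDimensional ℂ V]
    (A B : Module.End ℂ V) (p m : ℕ) (hp : 0 < p) (hm : 0 < m) (hA : A ^ p = 1) (hB : B ^ m = 1)
    (hAB : A * B = B * A) :
    ∃ ω : ℂ, IsIntegral ℤ ω ∧ LinearMap.trace ℂ V (A * B) - LinearMap.trace ℂ V B =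
      (1 - Complex.exp (2 * Real.pi * Complex.I / p)) * ω := by
  classical
  have hsq : Squarefree (Polynomial.X ^ p - 1 : Polynomial ℂ) :=
    (Polynomial.X_pow_sub_one_separable_iff.mpr (Nat.cast_ne_zero.mpr hp.ne')).squarefree
  have hss : A.IsSemisimple := by
    apply Module.End.isSemisimple_of_squarefree_aeval_eq_zero hsq
    simp [hA]
  have htop := hss.iSup_eigenspace_eq_top
  have hind := Module.End.eigenspaces_iSupIndep A
  have hds := DirectSum.isInternal_submodule_of_iSupIndep_of_iSup_eq_top hind htop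
  have hfin : {μ : ℂ | A.eigenspace μ ≠ ⊥}.Finite :=
    WellFoundedGT.finite_ne_bot_of_iSupIndep hind
  have hmapsB : ∀ μ : ℂ, Set.MapsTo B (A.eigenspace μ) (A.eigenspace μ) := by
    intro μ x hx
    have hx' := Module.End.mem_eigenspace_iff.mp hx
    simp only [SetLike.mem_coe] at hx ⊢
    rw [Module.End.mem_eigenspace_iff]
    have h2 : A (B x) = B (A x) := by
      have h3 := congrArg (fun f : Module.End ℂ V => f x) hAB
      simpa using h3
    rw [h2, hx', map_smul]
  have hmapsAB : ∀ μ : ℂ, Set.MapsTo (A * B) (A.eigenspace μ) (A.eigenspace μ) := by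
    intro μ x hx
    have h1 := hmapsB μ hx
    have h1' := Module.End.mem_eigenspace_iff.mp h1
    simp only [SetLike.mem_coe] at h1 ⊢
    rw [Module.End.mul_apply, h1']
    exact Submodule.smul_mem _ _ h1
  have hres : ∀ μ : ℂ, (A * B).restrict (hmapsAB μ) = μ • B.restrict (hmapsB μ) := by
    intro μ
    ext x
    simp only [LinearMap.smul_apply, Submodule.coe_smul, LinearMap.restrict_coe_apply,
      Module.End.mul_apply]
    exact Module.End.mem_eigenspace_iff.mp (hmapsB μ x.2)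
  have hBm : ∀ μ : ℂ, (B.restrict (hmapsB μ)) ^ m = 1 := by
    intro μ
    ext x
    have hpow : ∀ k : ℕ, (((B.restrict (hmapsB μ)) ^ k) x : V) = (B ^ k) x := by
      intro k
      induction k with
      | zero => simp
      | succ k ih =>
        rw [pow_succ', pow_succ', Module.End.mul_apply, Module.End.mul_apply]
        exact congrArg B ih
    rw [hpow m, hB]; simp
  have hint : ∀ μ : ℂ, IsIntegral ℤ (LinearMap.trace ℂ _ (B.restrict (hmapsB μ))) := by
    intro μ
    obtain ⟨S, hS, htr, -, -, -⟩ :=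
      Cfsg.Agent.Helper24.exists_eigen_decomp (B.restrict (hmapsB μ)) m hm (hBm μ)
    rw [htr]
    refine IsIntegral.sum _ fun ν hν => ?_
    refine IsIntegral.mul ?_ (isIntegral_natCast _)
    refine IsIntegral.of_pow (n := m) hm ?_
    rw [(hS ν hν).1]
    exact isIntegral_one
  have hε : IsPrimitiveRoot (Complex.exp (2 * Real.pi * Complex.I / p)) p :=
    Complex.isPrimitiveRoot_exp p hp.ne'
  generalize Complex.exp (2 * Real.pi * Complex.I / p) = ε at hε ⊢
  have hεint : IsIntegral ℤ ε := by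
    refine IsIntegral.of_pow (n := p) hp ?_
    rw [hε.pow_eq_one]; exact isIntegral_one
  have hμ : ∀ μ : ℂ, μ ^ p = 1 → ∃ c : ℂ, IsIntegral ℤ c ∧ μ - 1 = (1 - ε) * c := by
    intro μ hμp
    have : NeZero p := ⟨hp.ne'⟩
    obtain ⟨i, hi, rfl⟩ := hε.eq_pow_of_pow_eq_one hμp
    refine ⟨-∑ j ∈ Finset.range i, ε ^ j, ?_, ?_⟩
    · exact (IsIntegral.sum _ fun j _ => hεint.pow j).neg
    · rw [mul_neg, mul_neg_geom_sum]; ring
  have hev : ∀ μ ∈ hfin.toFinset, μ ^ p = 1 := by
    intro μ hμ'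
    have hne : A.eigenspace μ ≠ ⊥ := by simpa using hμ'
    obtain ⟨x, hx, hx0⟩ := (Submodule.ne_bot_iff _).mp hne
    have hx' := Module.End.mem_eigenspace_iff.mp hx
    have hpow : ∀ k : ℕ, (A ^ k) x = μ ^ k • x := by
      intro k
      induction k with
      | zero => simp
      | succ k ih =>
        rw [pow_succ, Module.End.mul_apply, hx', map_smul, ih, smul_smul, pow_succ, mul_comm]
    have h1 := hpow p
    rw [hA] at h1
    have h2 : (μ ^ p - 1) • x = 0 := by
      rw [sub_smul, ← h1]; simp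
    rcases smul_eq_zero.mp h2 with h | h
    · exact sub_eq_zero.mp h
    · exact absurd h hx0
  choose! c hc using hμ
  refine ⟨∑ μ ∈ hfin.toFinset, c μ * LinearMap.trace ℂ _ (B.restrict (hmapsB μ)), ?_, ?_⟩
  · exact IsIntegral.sum _ fun μ hμ' => (hc μ (hev μ hμ')).1.mul (hint μ)
  · rw [LinearMap.trace_eq_sum_trace_restrict' hds hfin hmapsAB,
      LinearMap.trace_eq_sum_trace_restrict' hds hfin hmapsB, ← Finset.sum_sub_distrib,
      Finset.mul_sum]
    refine Finset.sum_congr rfl fun μ hμ' => ?_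
    rw [hres μ, map_smul, smul_eq_mul, ← mul_assoc, ← (hc μ (hev μ hμ')).2]
    ring

theorem char_case {G : Type*} [Group G] [Finite G] (χ : G → ℂ) (hχ : Cfsg.IsCharacter G χ)
    (p : ℕ) (hp : p.Prime) (x y : G) (hx : orderOf x = p) (hxy : x * y = y * x) :
    ∃ ω : ℂ, IsIntegral ℤ ω ∧
      χ (x * y) - χ y = (1 - Complex.exp (2 * Real.pi * Complex.I / p)) * ω := by
  obtain ⟨n, ρ, rfl⟩ := hχ
  have hA : (ρ x) ^ p = 1 := by rw [← map_pow, ← hx, pow_orderOf_eq_one, map_one]
  have hB : (ρ y) ^ Nat.card G = 1 := Cfsg.Agent.Helper24.rep_pow_card ρ y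
  have hAB : ρ x * ρ y = ρ y * ρ x := by rw [← map_mul, ← map_mul, hxy]
  obtain ⟨ω, hω, h⟩ := trace_mul_sub (ρ x) (ρ y) p (Nat.card G) hp.pos Nat.card_pos hA hB hAB
  refine ⟨ω, hω, ?_⟩
  show LinearMap.trace ℂ _ (ρ (x * y)) - LinearMap.trace ℂ _ (ρ y) = _
  rw [map_mul]
  exact h

/-- Let χ be a generalized character of the finite group G, p a prime, x an element of order p and y an element commuting with x. Then χ(x * y) − χ(y) = (1 − ε) * ω for some algebraic integer ω, where ε = exp(2πi/p). -/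
theorem result {G : Type*} [Group G] [Finite G] (χ : G → ℂ) (hχ : Cfsg.IsGeneralizedCharacter G χ) (p : ℕ) (hp : p.Prime) (x y : G) (hx : orderOf x = p) (hxy : x * y = y * x) : ∃ ω : ℂ, IsIntegral ℤ ω ∧ χ (x * y) - χ y = (1 - Complex.exp (2 * Real.pi * Complex.I / p)) * ω := by
  obtain ⟨χ1, χ2, h1, h2, rfl⟩ := hχ
  obtain ⟨ω1, hω1, e1⟩ := char_case χ1 h1 p hp x y hx hxy
  obtain ⟨ω2, hω2, e2⟩ := char_case χ2 h2 p hp x y hx hxy
  refine ⟨ω1 - ω2, hω1.sub hω2, ?_⟩
  simp only [Pi.sub_apply]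
  rw [mul_sub, ← e1, ← e2]; ring

end Cfsg.Agent.S1494
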