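import Cfsg.Statements.S1495
import Mathlib

set_option autoImplicit false
open Cfsg

namespace Cfsg.Agent.S1495

/-- Let p be a prime, ε = exp(2πi/p), and n an integer such that n = (1 − ε) * ω for some algebraic integer ω. Then p divides n. -/
theorem result (p : ℕ) (hp : p.Prime) (n : ℤ) (ω : ℂ) (hω : IsIntegral ℤ ω) (h : (n : ℂ) = (1 - Complex.exp (2 * Real.pi * Complex.I / p)) * ω) : (p : ℤ) ∣ n := by
  have : Fact p.Prime := ⟨hp⟩
  have : NeZero p := ⟨hp.ne_zero⟩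
  have hε : IsPrimitiveRoot (Complex.exp (2 * Real.pi * Complex.I / p)) p :=
    Complex.isPrimitiveRoot_exp p hp.ne_zero
  have hprod : (p : ℂ) = ∏ μ ∈ primitiveRoots p ℂ, (1 - μ) := by
    have h1 := Polynomial.cyclotomic_eq_prod_X_sub_primitiveRoots hε
    have h2 := congrArg (Polynomial.eval 1) h1
    rw [Polynomial.eval_one_cyclotomic_prime, Polynomial.eval_prod] at h2
    simpa using h2
  have hc : ∀ μ : ℂ, ∃ c : ℂ, μ ∈ primitiveRoots p ℂ →
      IsIntegral ℤ c ∧ (n : ℂ) = (1 - μ) * c := by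
    intro μ
    by_cases hμ : μ ∈ primitiveRoots p ℂ
    · have hμ' : IsPrimitiveRoot μ p := (mem_primitiveRoots hp.pos).mp hμ
      obtain ⟨j, -, hj⟩ := hμ'.eq_pow_of_pow_eq_one hε.pow_eq_one
      refine ⟨(∑ i ∈ Finset.range j, μ ^ i) * ω, fun _ => ⟨?_, ?_⟩⟩
      · apply IsIntegral.mul _ hω
        apply IsIntegral.sum
        intro i _
        exact (hμ'.isIntegral hp.pos).pow i
      · rw [← mul_assoc, mul_neg_geom_sum, hj]; exact h
    · exact ⟨0, fun h => absurd h hμ⟩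
  choose c hc using hc
  have hpow : (n : ℂ) ^ (primitiveRoots p ℂ).card
      = (p : ℂ) * ∏ μ ∈ primitiveRoots p ℂ, c μ := by
    rw [hprod, ← Finset.prod_mul_distrib, ← Finset.prod_const]
    apply Finset.prod_congr rfl
    intro μ hμ
    exact (hc μ hμ).2
  have hγ : IsIntegral ℤ (∏ μ ∈ primitiveRoots p ℂ, c μ) :=
    IsIntegral.prod _ (fun μ hμ => (hc μ hμ).1)
  have hp0 : (p : ℂ) ≠ 0 := Nat.cast_ne_zero.mpr hp.ne_zero
  have hγ' : IsIntegral ℤ (algebraMap ℚ ℂ ((n : ℚ) ^ (primitiveRoots p ℂ).card / p)) := by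
    have e : algebraMap ℚ ℂ ((n : ℚ) ^ (primitiveRoots p ℂ).card / p)
        = ∏ μ ∈ primitiveRoots p ℂ, c μ := by
      simp only [map_div₀, map_pow, map_intCast, map_natCast]
      rw [hpow]; field_simp
    rw [e]; exact hγ
  have h3 : IsIntegral ℤ ((n : ℚ) ^ (primitiveRoots p ℂ).card / p) :=
    (isIntegral_algebraMap_iff (algebraMap ℚ ℂ).injective).mp hγ'
  obtain ⟨z, hz⟩ := IsIntegrallyClosed.isIntegral_iff.mp h3
  have h4 : (p : ℤ) * z = n ^ (primitiveRoots p ℂ).card := by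
    have hp0' : (p : ℚ) ≠ 0 := Nat.cast_ne_zero.mpr hp.ne_zero
    have h5 : (z : ℚ) = (n : ℚ) ^ (primitiveRoots p ℂ).card / p := hz
    have h6 : (((p : ℤ) * z : ℤ) : ℚ) = ((n ^ (primitiveRoots p ℂ).card : ℤ) : ℚ) := by
      push_cast; rw [h5]; field_simp
    exact_mod_cast h6
  have h5 : (p : ℤ) ∣ n ^ (primitiveRoots p ℂ).card := Dvd.intro _ h4
  exact (Nat.prime_iff_prime_int.mp hp).dvd_of_dvd_pow h5

end Cfsg.Agent.S1495
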