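import Cfsg.Statements.S1497

set_option autoImplicit false
open Cfsg

namespace Cfsg.Agent.S1497

/-- Let A be a nonempty subset of the finite group G not containing 1 and L a subgroup. Then A is a TI-subset whose normaliser is L if and only if the Dade hypothesis holds for A, L and the constant choice H(a) = ⊥. -/
theorem result {G : Type*} [Group G] [Finite G] (A : Set G) (hA : A.Nonempty) (h1 : (1 : G) ∉ A) (L : Subgroup G) : (Cfsg.IsTISubset A ∧ Subgroup.normalizer A = L) ↔ Cfsg.DadeHypothesis A L (fun _ => ⊥) := by
  constructor
  · rintro ⟨hTI, rfl⟩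
    -- key: if `g * a * g⁻¹ ∈ A` with `a ∈ A` then `g` normalises `A`
    have key : ∀ a ∈ A, ∀ g : G, g * a * g⁻¹ ∈ A → g ∈ Subgroup.normalizer A := by
      intro a ha g hg
      by_contra hgn
      exact h1 (hTI g hgn a ha hg ▸ ha)
    refine
      { one_not_mem := h1
        subset := ?_
        conj_mem := ?_
        fusion := ?_
        le_centralizer := ?_
        conj_mem_H := ?_
        inf_eq_bot := ?_
        sup_eq := ?_
        coprime := ?_ }
    · intro a ha
      exact key a ha a (by simpa using ha)
    · intro x hx a ha
      exact (Subgroup.mem_set_normalizer_iff.mp hx a).mp ha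
    · intro a ha g hg
      exact ⟨g, key a ha g hg, rfl⟩
    · intro a _
      exact bot_le
    · intro a _ c _ u hu
      rw [Subgroup.mem_bot] at hu ⊢
      subst hu
      simp
    · intro a _
      exact bot_inf_eq _
    · intro a ha
      rw [bot_sup_eq]
      refine inf_eq_right.mpr ?_
      intro c hc
      rw [Subgroup.mem_centralizer_iff] at hc
      have hca : c * a = a * c := (hc a (Set.mem_singleton a)).symm
      refine key a ha c ?_
      have : c * a * c⁻¹ = a := by rw [hca]; simp
      rw [this]; exact ha
    · intro a _ b _
      simp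
  · intro hD
    have hLN : L ≤ Subgroup.normalizer A := by
      intro x hx
      rw [Subgroup.mem_set_normalizer_iff]
      intro a
      constructor
      · intro ha
        exact hD.conj_mem x hx a ha
      · intro ha
        have := hD.conj_mem x⁻¹ (L.inv_mem hx) _ ha
        simpa [mul_assoc] using this
    have key : ∀ a ∈ A, ∀ g : G, g * a * g⁻¹ ∈ A → g ∈ L := by
      intro a ha g hg
      obtain ⟨x, hx, hxa⟩ := hD.fusion a ha g hg
      have hc : x⁻¹ * g ∈ Subgroup.centralizer ({a} : Set G) := by
        rw [Subgroup.mem_centralizer_iff]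
        intro y hy
        rw [Set.mem_singleton_iff] at hy
        subst hy
        have h2 : g * y = x * y * x⁻¹ * g := by
          rw [hxa]; simp
        calc y * (x⁻¹ * g) = x⁻¹ * (x * y * x⁻¹ * g) := by simp [mul_assoc]
          _ = x⁻¹ * (g * y) := by rw [h2]
          _ = x⁻¹ * g * y := by rw [mul_assoc]
      have hsup := hD.sup_eq a ha
      rw [bot_sup_eq] at hsup
      rw [← hsup] at hc
      have hcL : x⁻¹ * g ∈ L := hc.1
      have : g = x * (x⁻¹ * g) := by simp
      rw [this]
      exact L.mul_mem hx hcL
    refine ⟨?_, le_antisymm ?_ hLN⟩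
    · intro g hg x hx hgx
      exact absurd (hLN (key x hx g hgx)) hg
    · intro g hg
      obtain ⟨a, ha⟩ := hA
      exact key a ha g ((Subgroup.mem_set_normalizer_iff.mp hg a).mp ha)

end Cfsg.Agent.S1497
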