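import Cfsg.Statements.S1498

set_option autoImplicit false
open Cfsg
open scoped Pointwise

namespace Cfsg.Agent.S1498

theorem key {G : Type*} [Group G] [Finite G] (A : Set G) (L : Subgroup G) (H : G → Subgroup G)
    (hD : Cfsg.DadeHypothesis A L H) (a : G) (ha : a ∈ A) (x : G) (hx : x ∈ L) :
    ∀ u ∈ H a, x * u * x⁻¹ ∈ H (x * a * x⁻¹) := by
  intro u hu
  set b := x * a * x⁻¹ with hb
  have hbA : b ∈ A := hD.conj_mem x hx a ha
  set N := H b with hN
  set Q := L ⊓ Subgroup.centralizer ({b} : Set G) with hQ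
  have hQN : Q ≤ Subgroup.normalizer (N : Set G) := by
    intro q hq
    have hqC : q ∈ Subgroup.centralizer ({b} : Set G) := (Subgroup.mem_inf.mp hq).2
    rw [Subgroup.mem_normalizer_iff]
    intro h
    constructor
    · intro hh
      exact hD.conj_mem_H b hbA q hqC h hh
    · intro hh
      have := hD.conj_mem_H b hbA q⁻¹ (Subgroup.inv_mem _ hqC) _ hh
      simpa [mul_assoc] using this
  -- the element
  set k := x * u * x⁻¹ with hk
  have hau : a * u = u * a := by
    have := hD.le_centralizer a ha hu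
    rw [Subgroup.mem_centralizer_iff] at this
    exact this a (Set.mem_singleton a)
  have hkC : k ∈ Subgroup.centralizer ({b} : Set G) := by
    rw [Subgroup.mem_centralizer_iff]
    intro y hy
    rw [Set.mem_singleton_iff] at hy
    subst hy
    show x * a * x⁻¹ * (x * u * x⁻¹) = x * u * x⁻¹ * (x * a * x⁻¹)
    calc x * a * x⁻¹ * (x * u * x⁻¹) = x * (a * u) * x⁻¹ := by simp [mul_assoc]
      _ = x * (u * a) * x⁻¹ := by rw [hau]
      _ = x * u * x⁻¹ * (x * a * x⁻¹) := by simp [mul_assoc]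
  have hksup : k ∈ N ⊔ Q := by
    rw [hD.sup_eq b hbA]; exact hkC
  have hkmul : k ∈ (N : Set G) * (Q : Set G) := by
    rw [← Subgroup.coe_mul_of_right_le_normalizer_left N Q hQN]; exact hksup
  obtain ⟨n, hn, q, hq, hnq⟩ := hkmul
  have hn' : n ∈ N := hn
  have hq' : q ∈ Q := hq
  have hnq' : n * q = k := hnq
  -- powers
  have hpow : ∀ j : ℕ, ∃ m ∈ N, k ^ j = m * q ^ j := by
    intro j
    induction j with
    | zero => exact ⟨1, N.one_mem, by simp⟩
    | succ j ih =>
      obtain ⟨m, hm, hmj⟩ := ih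
      have hqj : q ^ j ∈ Subgroup.normalizer (N : Set G) := hQN (Q.pow_mem hq' j)
      have h1 : q ^ j * n * (q ^ j)⁻¹ ∈ N := (Subgroup.mem_normalizer_iff.mp hqj n).mp hn'
      refine ⟨m * (q ^ j * n * (q ^ j)⁻¹), N.mul_mem hm h1, ?_⟩
      rw [pow_succ, hmj, ← hnq', pow_succ]
      simp [mul_assoc]
  obtain ⟨m, hm, hmk⟩ := hpow (orderOf k)
  rw [pow_orderOf_eq_one] at hmk
  have hqpow : q ^ orderOf k = m⁻¹ := by
    have : m * q ^ orderOf k = 1 := hmk.symm
    exact eq_inv_of_mul_eq_one_right this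
  have hqbot : q ^ orderOf k ∈ N ⊓ Q :=
    Subgroup.mem_inf.mpr ⟨by rw [hqpow]; exact N.inv_mem hm, Q.pow_mem hq' _⟩
  rw [hD.inf_eq_bot b hbA, Subgroup.mem_bot] at hqbot
  have hdvd1 : orderOf q ∣ orderOf k := orderOf_dvd_of_pow_eq_one hqbot
  have hdvd2 : orderOf q ∣ Nat.card ↥Q := Subgroup.orderOf_dvd_natCard _ hq'
  have hku : orderOf k = orderOf u := by
    have : k = (MulAut.conj x) u := by simp [hk, MulAut.conj_apply]
    rw [this]
    exact MulEquiv.orderOf_eq _ _
  have hdvd3 : orderOf k ∣ Nat.card ↥(H a) := by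
    rw [hku]; exact Subgroup.orderOf_dvd_natCard _ hu
  have hcop : Nat.Coprime (Nat.card ↥(H a)) (Nat.card ↥Q) := hD.coprime a ha b hbA
  have hq1 : orderOf q = 1 :=
    Nat.eq_one_of_dvd_coprimes hcop (hdvd1.trans hdvd3) hdvd2
  rw [orderOf_eq_one_iff] at hq1
  rw [hq1, mul_one] at hnq'
  rw [← hnq']; exact hn'

/-- Under the Dade hypothesis for (A, L, H): for a ∈ A and x ∈ L, the subgroup attached to x * a * x⁻¹ is the conjugate of H a by x. -/
theorem result {G : Type*} [Group G] [Finite G] (A : Set G) (L : Subgroup G) (H : G → Subgroup G) (hD : Cfsg.DadeHypothesis A L H) (a : G) (ha : a ∈ A) (x : G) (hx : x ∈ L) : H (x * a * x⁻¹) = (H a).map (MulAut.conj x).toMonoidHom := by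
  have hbA : x * a * x⁻¹ ∈ A := hD.conj_mem x hx a ha
  ext y
  rw [Subgroup.mem_map]
  constructor
  · intro hy
    have h1 := key A L H hD (x * a * x⁻¹) hbA x⁻¹ (L.inv_mem hx) y hy
    have h2 : x⁻¹ * (x * a * x⁻¹) * x⁻¹⁻¹ = a := by simp [mul_assoc]
    rw [h2] at h1
    refine ⟨x⁻¹ * y * x⁻¹⁻¹, h1, ?_⟩
    simp [MulAut.conj_apply, mul_assoc]
  · rintro ⟨u, hu, rfl⟩
    have := key A L H hD a ha x hx u hu
    simpa [MulAut.conj_apply] using this

end Cfsg.Agent.S1498
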