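import Cfsg.Statements.S1499

set_option autoImplicit false
open Cfsg

namespace Cfsg.Agent.S1499

theorem pow_mul_eq {G : Type*} [Group G] (a u : G) (hau : a * u = u * a) (k : ℕ)
    (hk1 : k ≡ 1 [MOD orderOf a]) (hk0 : orderOf u ∣ k) : (a * u) ^ k = a := by
  have hc : Commute a u := hau
  rw [hc.mul_pow]
  have h1 : a ^ k = a ^ 1 := (pow_eq_pow_iff_modEq).mpr hk1
  have h2 : u ^ k = 1 := orderOf_dvd_iff_pow_eq_one.mp hk0
  rw [h1, h2]; simp

theorem exists_k (N M : ℕ) (h : Nat.Coprime N M) : ∃ k : ℕ, k ≡ 1 [MOD N] ∧ M ∣ k := by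
  obtain ⟨k, hk1, hk0⟩ := Nat.chineseRemainder h 1 0
  exact ⟨k, hk1, (Nat.modEq_zero_iff_dvd).mp hk0⟩

/-- Under the Dade hypothesis for (A, L, H), let a, b ∈ A. If an element of the coset a·H(a) is conjugate in G to an element of b·H(b), then a and b are conjugate by an element of L. Moreover the set normaliser of the coset a·H(a) is the centraliser of a. -/
theorem result {G : Type*} [Group G] [Finite G] (A : Set G) (L : Subgroup G) (H : G → Subgroup G) (hD : Cfsg.DadeHypothesis A L H) (a b : G) (ha : a ∈ A) (hb : b ∈ A) : ((∃ u ∈ H a, ∃ v ∈ H b, ∃ g : G, g * (a * u) * g⁻¹ = b * v) → ∃ x ∈ L, x * a * x⁻¹ = b) ∧ Subgroup.normalizer ((fun u : G => a * u) '' (H a : Set G)) = Subgroup.centralizer ({a} : Set G) := by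
  -- general facts
  have hmemC : ∀ c ∈ A, c ∈ L ⊓ Subgroup.centralizer ({c} : Set G) := by
    intro c hc
    refine Subgroup.mem_inf.mpr ⟨hD.subset hc, ?_⟩
    rw [Subgroup.mem_centralizer_iff]
    intro y hy
    rw [Set.mem_singleton_iff] at hy
    subst hy; rfl
  have hordA : ∀ c ∈ A, orderOf c ∣ Nat.card ↥(L ⊓ Subgroup.centralizer ({c} : Set G)) := by
    intro c hc
    exact Subgroup.orderOf_dvd_natCard _ (hmemC c hc)
  have hordH : ∀ c : G, ∀ u ∈ H c, orderOf u ∣ Nat.card ↥(H c) := by
    intro c u hu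
    exact Subgroup.orderOf_dvd_natCard _ hu
  have hcomm : ∀ c ∈ A, ∀ u ∈ H c, c * u = u * c := by
    intro c hc u hu
    have := hD.le_centralizer c hc hu
    rw [Subgroup.mem_centralizer_iff] at this
    exact this c (Set.mem_singleton c)
  constructor
  · rintro ⟨u, hu, v, hv, g, hg⟩
    set na := Nat.card ↥(L ⊓ Subgroup.centralizer ({a} : Set G)) with hna
    set nb := Nat.card ↥(L ⊓ Subgroup.centralizer ({b} : Set G)) with hnb
    set ma := Nat.card ↥(H a) with hma
    set mb := Nat.card ↥(H b) with hmb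
    have hcop : Nat.Coprime (na * nb) (ma * mb) := by
      apply Nat.Coprime.mul_left
      · apply Nat.Coprime.mul_right
        · exact (hD.coprime a ha a ha).symm
        · exact (hD.coprime b hb a ha).symm
      · apply Nat.Coprime.mul_right
        · exact (hD.coprime a ha b hb).symm
        · exact (hD.coprime b hb b hb).symm
    obtain ⟨k, hk1, hk0⟩ := exists_k _ _ hcop
    have hka : (a * u) ^ k = a := by
      apply pow_mul_eq a u (hcomm a ha u hu) k
      · exact hk1.of_dvd ((hordA a ha).trans (Dvd.intro _ rfl))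
      · exact ((hordH a u hu).trans (Dvd.intro _ rfl)).trans hk0
    have hkb : (b * v) ^ k = b := by
      apply pow_mul_eq b v (hcomm b hb v hv) k
      · exact hk1.of_dvd ((hordA b hb).trans (Dvd.intro_left _ rfl))
      · exact ((hordH b v hv).trans (Dvd.intro_left _ rfl)).trans hk0
    have hgab : g * a * g⁻¹ = b := by
      have h3 : (g * (a * u) * g⁻¹) ^ k = g * (a * u) ^ k * g⁻¹ := conj_pow
      rw [hg, hkb, hka] at h3
      exact h3.symm
    obtain ⟨x, hx, hxa⟩ := hD.fusion a ha g (by rw [hgab]; exact hb)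
    exact ⟨x, hx, by rw [hxa, hgab]⟩
  · ext g
    rw [Subgroup.mem_set_normalizer_iff]
    constructor
    · intro hg
      have h1 : a ∈ (fun u : G => a * u) '' (H a : Set G) := ⟨1, (H a).one_mem, by simp⟩
      obtain ⟨u, hu, hgu⟩ := (hg a).mp h1
      have hu' : u ∈ H a := hu
      have hgu' : a * u = g * a * g⁻¹ := hgu
      have hcop : Nat.Coprime (Nat.card ↥(L ⊓ Subgroup.centralizer ({a} : Set G))) (Nat.card ↥(H a)) :=
        (hD.coprime a ha a ha).symm
      obtain ⟨k, hk1, hk0⟩ := exists_k _ _ hcop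
      have hka : (a * u) ^ k = a := by
        apply pow_mul_eq a u (hcomm a ha u hu') k
        · exact hk1.of_dvd (hordA a ha)
        · exact (hordH a u hu').trans hk0
      have hak : a ^ k = a := by
        have : a ^ k = a ^ 1 := (pow_eq_pow_iff_modEq).mpr (hk1.of_dvd (hordA a ha))
        simpa using this
      have h3 : (g * a * g⁻¹) ^ k = g * a ^ k * g⁻¹ := conj_pow
      rw [← hgu', hka, hak] at h3
      -- h3 : a = g * a * g⁻¹
      rw [Subgroup.mem_centralizer_iff]
      intro y hy
      rw [Set.mem_singleton_iff] at hy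
      subst hy
      calc y * g = g * y * g⁻¹ * g := by rw [← h3]
        _ = g * y := by simp
    · intro hg n
      rw [Subgroup.mem_centralizer_iff] at hg
      have hga : a * g = g * a := hg a (Set.mem_singleton a)
      have hgC : g ∈ Subgroup.centralizer ({a} : Set G) := by
        rw [Subgroup.mem_centralizer_iff]; exact hg
      constructor
      · rintro ⟨u, hu, rfl⟩
        refine ⟨g * u * g⁻¹, hD.conj_mem_H a ha g hgC u hu, ?_⟩
        show a * (g * u * g⁻¹) = g * (a * u) * g⁻¹
        calc a * (g * u * g⁻¹) = (a * g) * u * g⁻¹ := by simp [mul_assoc]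
          _ = g * (a * u) * g⁻¹ := by rw [hga]; simp [mul_assoc]
      · rintro ⟨u, hu, hun⟩
        have hun' : a * u = g * n * g⁻¹ := hun
        have hginv : g⁻¹ ∈ Subgroup.centralizer ({a} : Set G) := Subgroup.inv_mem _ hgC
        refine ⟨g⁻¹ * u * g⁻¹⁻¹, hD.conj_mem_H a ha g⁻¹ hginv u hu, ?_⟩
        show a * (g⁻¹ * u * g⁻¹⁻¹) = n
        have hga' : a * g⁻¹ = g⁻¹ * a := by
          have := congrArg (fun t => g⁻¹ * t * g⁻¹) hga
          simpa [mul_assoc] using this.symm
        calc a * (g⁻¹ * u * g⁻¹⁻¹) = (a * g⁻¹) * u * g := by simp [mul_assoc]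
          _ = g⁻¹ * (a * u) * g := by rw [hga']; simp [mul_assoc]
          _ = n := by rw [hun']; simp [mul_assoc]

end Cfsg.Agent.S1499
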