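import Mathlib
import Cfsg.Statements.S1505

set_option autoImplicit false

open Cfsg

namespace Cfsg.Agent.S1505

section gen

variable {G : Type*} [Group G] [Fintype G] (H : Subgroup G)

theorem ez_mem (θ : ↥H → ℂ) (g : G) (hg : g ∈ H) : Cfsg.extendByZero H θ g = θ ⟨g, hg⟩ := by
  unfold Cfsg.extendByZero
  exact Subtype.val_injective.extend_apply θ 0 ⟨g, hg⟩

theorem ez_not_mem (θ : ↥H → ℂ) (g : G) (hg : g ∉ H) : Cfsg.extendByZero H θ g = 0 := by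
  unfold Cfsg.extendByZero
  rw [Function.extend_apply']
  · rfl
  · rintro ⟨a, rfl⟩
    exact hg a.2

theorem sum_ez [Fintype ↥H] (θ : ↥H → ℂ) (c : G → ℂ) :
    ∑ g : G, Cfsg.extendByZero H θ g * c g = ∑ h : ↥H, θ h * c h := by
  classical
  have h1 : ∑ g : G, Cfsg.extendByZero H θ g * c g =
      ∑ g ∈ Finset.univ.filter (fun g => g ∈ H), Cfsg.extendByZero H θ g * c g := by
    symm
    apply Finset.sum_subset (Finset.filter_subset _ _)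
    intro g _ hg
    have hg' : g ∉ H := by
      intro h
      exact hg (Finset.mem_filter.mpr ⟨Finset.mem_univ g, h⟩)
    rw [ez_not_mem H θ g hg', zero_mul]
  have h2 : ∑ g ∈ Finset.univ.filter (fun g => g ∈ H), Cfsg.extendByZero H θ g * c g =
      ∑ h : ↥H, Cfsg.extendByZero H θ h * c h :=
    Finset.sum_subtype _ (fun x => by simp) _
  rw [h1, h2]
  apply Finset.sum_congr rfl
  intro h _
  rw [ez_mem H θ h.1 h.2]

theorem conj_sum (F : G → ℂ) (x : G) : ∑ g : G, F (x⁻¹ * g * x) = ∑ g : G, F g :=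
  Fintype.sum_equiv (MulAut.conj x⁻¹).toEquiv (fun g => F (x⁻¹ * g * x)) F
    (fun g => by
      show F (x⁻¹ * g * x) = F (x⁻¹ * g * x⁻¹⁻¹)
      rw [inv_inv])

theorem ind_class (θ : ↥H → ℂ) (y g : G) :
    Cfsg.indFun H θ (y⁻¹ * g * y) = Cfsg.indFun H θ g := by
  unfold Cfsg.indFun
  congr 1
  exact Fintype.sum_equiv (Equiv.mulLeft y)
    (fun x => Cfsg.extendByZero H θ (x⁻¹ * (y⁻¹ * g * y) * x))
    (fun x => Cfsg.extendByZero H θ (x⁻¹ * g * x))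
    (fun x => by
      show _ = Cfsg.extendByZero H θ ((y * x)⁻¹ * g * (y * x))
      congr 1
      group)

theorem frob [Fintype ↥H] (θ : ↥H → ℂ) (β : G → ℂ) (hβ : ∀ x g, β (x⁻¹ * g * x) = β g) :
    Cfsg.classInner (Cfsg.indFun H θ) β =
      (Nat.card ↥H : ℂ)⁻¹ * ∑ h : ↥H, θ h * (starRingEnd ℂ) (β h) := by
  have e1 : ∀ g, Cfsg.indFun H θ g * (starRingEnd ℂ) (β g) =
      (Nat.card ↥H : ℂ)⁻¹ * ∑ x : G, Cfsg.extendByZero H θ (x⁻¹ * g * x) *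
        (starRingEnd ℂ) (β (x⁻¹ * g * x)) := by
    intro g
    unfold Cfsg.indFun
    rw [mul_assoc, Finset.sum_mul]
    congr 1
    apply Finset.sum_congr rfl
    intro x _
    rw [hβ]
  have e2 : ∑ g : G, Cfsg.indFun H θ g * (starRingEnd ℂ) (β g) =
      (Nat.card ↥H : ℂ)⁻¹ * ((Fintype.card G : ℂ) *
        ∑ g : G, Cfsg.extendByZero H θ g * (starRingEnd ℂ) (β g)) := by
    rw [Finset.sum_congr rfl (fun g _ => e1 g), ← Finset.mul_sum, Finset.sum_comm]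
    congr 1
    rw [Finset.sum_congr rfl (fun x _ =>
      conj_sum (fun g => Cfsg.extendByZero H θ g * (starRingEnd ℂ) (β g)) x),
      Finset.sum_const, Finset.card_univ, nsmul_eq_mul]
  have hG : (Fintype.card G : ℂ) ≠ 0 := Nat.cast_ne_zero.mpr Fintype.card_ne_zero
  unfold Cfsg.classInner
  rw [e2, sum_ez H θ (fun g => (starRingEnd ℂ) (β g)), Nat.card_eq_fintype_card (α := G)]
  calc (Fintype.card G : ℂ)⁻¹ * ((Nat.card ↥H : ℂ)⁻¹ * ((Fintype.card G : ℂ) *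
        ∑ h : ↥H, θ h * (starRingEnd ℂ) (β h)))
      = (Nat.card ↥H : ℂ)⁻¹ * (((Fintype.card G : ℂ)⁻¹ * (Fintype.card G : ℂ)) *
        ∑ h : ↥H, θ h * (starRingEnd ℂ) (β h)) := by ring
    _ = _ := by rw [inv_mul_cancel₀ hG, one_mul]

theorem sum_ind [DecidablePred (fun g => g ∈ H)] (c : ℂ) :
    ∑ x : G, (if x ∈ H then c else 0) = (Nat.card ↥H : ℂ) * c := by
  rw [← Finset.sum_filter, Finset.sum_const, nsmul_eq_mul]
  congr 2
  rw [← Fintype.card_subtype]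
  exact Fintype.card_eq_nat_card

open Classical in
/-- value of the character inner product sums -/
noncomputable def T (χ η : ↥H →* ℂˣ) : ℂ := if χ = η then (Nat.card ↥H : ℂ) else 0

theorem sum_char [Fintype ↥H] (χ : ↥H →* ℂˣ) (hχ : χ ≠ 1) : ∑ h : ↥H, (χ h : ℂ) = 0 := by
  have hne : (Units.coeHom ℂ).comp χ ≠ 1 := by
    intro h1
    apply hχ
    ext h
    have := DFunLike.congr_fun h1 h
    simpa using this
  exact sum_hom_units_eq_zero _ hne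

theorem orth [Fintype ↥H] (χ η : ↥H →* ℂˣ) :
    ∑ h : ↥H, (χ h : ℂ) * (starRingEnd ℂ) (η h : ℂ) = T H χ η := by
  have hconj : ∀ h : ↥H, (starRingEnd ℂ) (η h : ℂ) = ((η h)⁻¹ : ℂˣ) := by
    intro h
    have hpow : (η h : ℂ) ^ (Nat.card ↥H) = 1 := by
      rw [← Units.val_pow_eq_pow_val, ← map_pow, pow_card_eq_one', map_one, Units.val_one]
    have hnorm : ‖(η h : ℂ)‖ = 1 := Complex.norm_eq_one_of_pow_eq_one hpow Nat.card_pos.ne'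
    rw [Units.val_inv_eq_inv_val, Complex.inv_eq_conj hnorm]
  unfold T
  split_ifs with he
  · subst he
    rw [Finset.sum_congr rfl (fun h _ => by
      rw [hconj h, ← Units.val_mul, mul_inv_cancel, Units.val_one])]
    rw [Finset.sum_const, Finset.card_univ, nsmul_eq_mul, mul_one, Nat.card_eq_fintype_card]
  · have hne : χ * η⁻¹ ≠ 1 := fun h => he (mul_inv_eq_one.mp h)
    rw [← sum_char H (χ * η⁻¹) hne]
    apply Finset.sum_congr rfl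
    intro h _
    rw [hconj h, MonoidHom.mul_apply, MonoidHom.inv_apply, Units.val_mul]

theorem sum_prod [Fintype ↥H] (χ0 χ1 χ2 χ3 η0 η1 η2 η3 : ↥H →* ℂˣ) :
    ∑ h : ↥H, ((χ0 h : ℂ) - (χ1 h : ℂ) - (χ2 h : ℂ) + (χ3 h : ℂ)) *
        (starRingEnd ℂ) ((η0 h : ℂ) - (η1 h : ℂ) - (η2 h : ℂ) + (η3 h : ℂ)) =
      T H χ0 η0 - T H χ0 η1 - T H χ0 η2 + T H χ0 η3 - T H χ1 η0 + T H χ1 η1 + T H χ1 η2
        - T H χ1 η3 - T H χ2 η0 + T H χ2 η1 + T H χ2 η2 - T H χ2 η3 + T H χ3 η0 - T H χ3 η1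
        - T H χ3 η2 + T H χ3 η3 := by
  have key : ∀ h : ↥H, ((χ0 h : ℂ) - (χ1 h : ℂ) - (χ2 h : ℂ) + (χ3 h : ℂ)) *
        (starRingEnd ℂ) ((η0 h : ℂ) - (η1 h : ℂ) - (η2 h : ℂ) + (η3 h : ℂ)) =
      (χ0 h : ℂ) * (starRingEnd ℂ) (η0 h : ℂ) - (χ0 h : ℂ) * (starRingEnd ℂ) (η1 h : ℂ)
        - (χ0 h : ℂ) * (starRingEnd ℂ) (η2 h : ℂ) + (χ0 h : ℂ) * (starRingEnd ℂ) (η3 h : ℂ)
        - (χ1 h : ℂ) * (starRingEnd ℂ) (η0 h : ℂ) + (χ1 h : ℂ) * (starRingEnd ℂ) (η1 h : ℂ)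
        + (χ1 h : ℂ) * (starRingEnd ℂ) (η2 h : ℂ) - (χ1 h : ℂ) * (starRingEnd ℂ) (η3 h : ℂ)
        - (χ2 h : ℂ) * (starRingEnd ℂ) (η0 h : ℂ) + (χ2 h : ℂ) * (starRingEnd ℂ) (η1 h : ℂ)
        + (χ2 h : ℂ) * (starRingEnd ℂ) (η2 h : ℂ) - (χ2 h : ℂ) * (starRingEnd ℂ) (η3 h : ℂ)
        + (χ3 h : ℂ) * (starRingEnd ℂ) (η0 h : ℂ) - (χ3 h : ℂ) * (starRingEnd ℂ) (η1 h : ℂ)
        - (χ3 h : ℂ) * (starRingEnd ℂ) (η2 h : ℂ) + (χ3 h : ℂ) * (starRingEnd ℂ) (η3 h : ℂ) := by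
    intro h
    simp only [map_sub, map_add]
    ring
  rw [Finset.sum_congr rfl (fun h _ => key h)]
  simp only [Finset.sum_add_distrib, Finset.sum_sub_distrib, orth]

end gen

section ti

variable {G : Type*} [Group G] (W₁ W₂ : Subgroup G)

theorem cent_iff (hW : Cfsg.IsSelfNormalizingCyclic W₁ W₂) (a : G) (ha : a ∈ W₁ ⊔ W₂)
    (ha1 : a ∉ W₁) (ha2 : a ∉ W₂) (g : G) : g * a = a * g ↔ g ∈ W₁ ⊔ W₂ := by
  obtain ⟨-, -, -, -, -, hN⟩ := hW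
  have h := hN {a} (by
    intro x hx
    rw [Set.mem_singleton_iff] at hx
    subst hx
    exact ⟨ha, fun h => h.elim ha1 ha2⟩) (Set.singleton_nonempty a)
  rw [← h, Subgroup.mem_set_normalizer_iff]
  constructor
  · intro hc n
    simp only [Set.mem_singleton_iff]
    constructor
    · rintro rfl
      rw [hc]; group
    · intro e
      have hn : n = g⁻¹ * (a * g) := by rw [← e]; group
      rw [hn, ← hc]; group
  · intro hn
    have := (hn a).mp (Set.mem_singleton a)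
    rw [Set.mem_singleton_iff] at this
    calc g * a = g * a * g⁻¹ * g := by group
      _ = a * g := by rw [this]

theorem comm_of_cyc (hW : Cfsg.IsSelfNormalizingCyclic W₁ W₂) (a b : G) (ha : a ∈ W₁ ⊔ W₂)
    (hb : b ∈ W₁ ⊔ W₂) : a * b = b * a := by
  obtain ⟨-, -, -, -, hcyc, -⟩ := hW
  obtain ⟨c, hc⟩ := hcyc.exists_generator
  obtain ⟨m, hm⟩ := Subgroup.mem_zpowers_iff.mp (hc ⟨a, ha⟩)
  obtain ⟨k, hk⟩ := Subgroup.mem_zpowers_iff.mp (hc ⟨b, hb⟩)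
  have : (⟨a, ha⟩ : ↥(W₁ ⊔ W₂)) * ⟨b, hb⟩ = ⟨b, hb⟩ * ⟨a, ha⟩ := by
    rw [← hm, ← hk, ← zpow_add, ← zpow_add, add_comm]
  exact congrArg Subtype.val this

theorem ti (hW : Cfsg.IsSelfNormalizingCyclic W₁ W₂) (w x : G) (hw : w ∈ W₁ ⊔ W₂)
    (hw1 : w ∉ W₁) (hw2 : w ∉ W₂) (hy : x⁻¹ * w * x ∈ W₁ ⊔ W₂) (hy1 : x⁻¹ * w * x ∉ W₁)
    (hy2 : x⁻¹ * w * x ∉ W₂) : x ∈ W₁ ⊔ W₂ := by
  have hcw := cent_iff W₁ W₂ hW w hw hw1 hw2
  have hcy := cent_iff W₁ W₂ hW _ hy hy1 hy2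
  have P1 : ∀ h ∈ W₁ ⊔ W₂, x⁻¹ * h * x ∈ W₁ ⊔ W₂ := by
    intro h hh
    rw [← hcy]
    have := (hcw h).mpr hh
    calc x⁻¹ * h * x * (x⁻¹ * w * x) = x⁻¹ * (h * w) * x := by group
      _ = x⁻¹ * (w * h) * x := by rw [this]
      _ = x⁻¹ * w * x * (x⁻¹ * h * x) := by group
  have P2 : ∀ h ∈ W₁ ⊔ W₂, x * h * x⁻¹ ∈ W₁ ⊔ W₂ := by
    intro h hh
    rw [← hcw]
    have := (hcy h).mpr hh
    calc x * h * x⁻¹ * w = x * (h * (x⁻¹ * w * x)) * x⁻¹ := by group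
      _ = x * ((x⁻¹ * w * x) * h) * x⁻¹ := by rw [this]
      _ = w * (x * h * x⁻¹) := by group
  obtain ⟨-, -, -, -, hcyc, hN⟩ := hW
  obtain ⟨c, hc⟩ := hcyc.exists_generator
  have Q : ∀ z : G, (∀ h ∈ W₁ ⊔ W₂, z * h * z⁻¹ ∈ W₁ ⊔ W₂) → ∀ K : Subgroup G, K ≤ W₁ ⊔ W₂ →
      ∀ h ∈ K, z * h * z⁻¹ ∈ K := by
    intro z hz K hK h hh
    obtain ⟨k, hk⟩ := Subgroup.mem_zpowers_iff.mp (hc ⟨z * c.1 * z⁻¹, hz c.1 c.2⟩)
    obtain ⟨m, hm⟩ := Subgroup.mem_zpowers_iff.mp (hc ⟨h, hK hh⟩)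
    have hk' : (c.1) ^ k = z * c.1 * z⁻¹ := by
      have := congrArg Subtype.val hk
      rw [Subgroup.coe_zpow] at this
      exact this
    have hm' : (c.1) ^ m = h := by
      have := congrArg Subtype.val hm
      rw [Subgroup.coe_zpow] at this
      exact this
    have e : z * h * z⁻¹ = h ^ k := by
      calc z * h * z⁻¹ = z * c.1 ^ m * z⁻¹ := by rw [hm']
        _ = (z * c.1 * z⁻¹) ^ m := by rw [conj_zpow]
        _ = (c.1 ^ k) ^ m := by rw [hk']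
        _ = (c.1 ^ m) ^ k := by rw [← zpow_mul, ← zpow_mul, mul_comm]
        _ = h ^ k := by rw [hm']
    rw [e]
    exact K.zpow_mem hh k
  have Q1 : ∀ K : Subgroup G, K ≤ W₁ ⊔ W₂ → ∀ h ∈ K, x⁻¹ * h * x ∈ K := by
    intro K hK h hh
    have := Q x⁻¹ (fun h hh => by rw [inv_inv]; exact P1 h hh) K hK h hh
    rw [inv_inv] at this
    exact this
  have Q2 := Q x P2
  have hxN : x ∈ Subgroup.normalizer ((↑(W₁ ⊔ W₂) : Set G) \ (↑W₁ ∪ ↑W₂)) := by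
    rw [Subgroup.mem_set_normalizer_iff]
    intro n
    have e : x⁻¹ * (x * n * x⁻¹) * x = n := by group
    constructor
    · rintro ⟨hn, hn'⟩
      refine ⟨P2 n hn, ?_⟩
      intro hu
      apply hn'
      rcases hu with h1 | h2
      · left
        have := Q1 W₁ le_sup_left _ h1
        rw [e] at this
        exact this
      · right
        have := Q1 W₂ le_sup_right _ h2
        rw [e] at this
        exact this
    · rintro ⟨hn, hn'⟩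
      refine ⟨?_, ?_⟩
      · have := P1 _ hn
        rw [e] at this
        exact this
      · intro hu
        apply hn'
        rcases hu with h1 | h2
        · exact Or.inl (Q2 W₁ le_sup_left _ h1)
        · exact Or.inr (Q2 W₂ le_sup_right _ h2)
  rw [hN _ (subset_refl _) ⟨w, hw, fun h => h.elim hw1 hw2⟩] at hxN
  exact hxN

theorem eq_of_agree (χ₁ χ₂ : ↥(W₁ ⊔ W₂) →* ℂˣ)
    (h1 : ∀ w : ↥(W₁ ⊔ W₂), (w : G) ∈ W₁ → χ₁ w = χ₂ w)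
    (h2 : ∀ w : ↥(W₁ ⊔ W₂), (w : G) ∈ W₂ → χ₁ w = χ₂ w) : χ₁ = χ₂ := by
  have htop : W₁.subgroupOf (W₁ ⊔ W₂) ⊔ W₂.subgroupOf (W₁ ⊔ W₂) = ⊤ :=
    codisjoint_iff.mp (Subgroup.codisjoint_subgroupOf_sup W₁ W₂)
  have hle : (⊤ : Subgroup ↥(W₁ ⊔ W₂)) ≤ χ₁.eqLocus χ₂ := by
    rw [← htop]
    exact sup_le (fun w hw => h1 w (Subgroup.mem_subgroupOf.mp hw))
      (fun w hw => h2 w (Subgroup.mem_subgroupOf.mp hw))
  exact MonoidHom.ext fun w => hle (Subgroup.mem_top w)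

theorem triv1 (χ : ↥(W₁ ⊔ W₂) →* ℂˣ) (h1 : ∀ w : ↥(W₁ ⊔ W₂), (w : G) ∈ W₁ → χ w = 1)
    (h2 : ∀ w : ↥(W₁ ⊔ W₂), (w : G) ∈ W₂ → χ w = 1) : χ = 1 :=
  eq_of_agree W₁ W₂ χ 1 h1 h2

theorem ind_eq [Fintype G] (hW : Cfsg.IsSelfNormalizingCyclic W₁ W₂) (θ : ↥(W₁ ⊔ W₂) → ℂ)
    (hθ : ∀ h : ↥(W₁ ⊔ W₂), ((h : G) ∈ W₁ ∨ (h : G) ∈ W₂) → θ h = 0)
    (w : ↥(W₁ ⊔ W₂)) (hw1 : (w : G) ∉ W₁) (hw2 : (w : G) ∉ W₂) :
    Cfsg.indFun (W₁ ⊔ W₂) θ (w : G) = θ w := by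
  classical
  have hterm : ∀ x : G, Cfsg.extendByZero (W₁ ⊔ W₂) θ (x⁻¹ * (w : G) * x) =
      if x ∈ W₁ ⊔ W₂ then θ w else 0 := by
    intro x
    by_cases hx : x ∈ W₁ ⊔ W₂
    · rw [if_pos hx]
      have hc := comm_of_cyc W₁ W₂ hW (w : G) x w.2 hx
      have e : x⁻¹ * (w : G) * x = w := by rw [mul_assoc, hc, inv_mul_cancel_left]
      rw [e, ez_mem _ θ w.1 w.2]
    · rw [if_neg hx]
      by_cases hm : x⁻¹ * (w : G) * x ∈ W₁ ⊔ W₂
      · rw [ez_mem _ θ _ hm]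
        apply hθ
        by_contra hcon
        push Not at hcon
        exact hx (ti W₁ W₂ hW w.1 x w.2 hw1 hw2 hm hcon.1 hcon.2)
      · exact ez_not_mem _ θ _ hm
  have hne : (Nat.card ↥(W₁ ⊔ W₂) : ℂ) ≠ 0 := Nat.cast_ne_zero.mpr Nat.card_pos.ne'
  unfold Cfsg.indFun
  rw [Finset.sum_congr rfl (fun x _ => hterm x), sum_ind, ← mul_assoc, inv_mul_cancel₀ hne,
    one_mul]

end ti


open Classical in
/-- Let W₁, W₂ ≤ G form a self-normalising cyclic subgroup W = W₁ ⊔ W₂. For nontrivial linear characters φ, φ' of W trivial on W₂ and ψ, ψ' trivial on W₁, put α = (1 − φ)(1 − ψ) and α' = (1 − φ')(1 − ψ'). Then the function induced from α to G has inner product 1 with the principal character, and the inner product of the functions induced from α and α' is 1 + a + b + ab where a = 1 if φ = φ' (else 0) and b = 1 if ψ = ψ' (else 0). -/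
theorem result {G : Type*} [Group G] [Fintype G] (W₁ W₂ : Subgroup G) (hW : Cfsg.IsSelfNormalizingCyclic W₁ W₂) (φ φ' ψ ψ' : ↥(W₁ ⊔ W₂) →* ℂˣ) (hφ : φ ≠ 1) (hφ' : φ' ≠ 1) (hψ : ψ ≠ 1) (hψ' : ψ' ≠ 1) (hφ₂ : ∀ w : ↥(W₁ ⊔ W₂), (w : G) ∈ W₂ → φ w = 1 ∧ φ' w = 1) (hψ₁ : ∀ w : ↥(W₁ ⊔ W₂), (w : G) ∈ W₁ → ψ w = 1 ∧ ψ' w = 1) : Cfsg.classInner (Cfsg.indFun (W₁ ⊔ W₂) (fun w => 1 - (φ w : ℂ) - (ψ w : ℂ) + (φ w : ℂ) * (ψ w : ℂ))) (fun _ => 1) = 1 ∧ Cfsg.classInner (Cfsg.indFun (W₁ ⊔ W₂) (fun w => 1 - (φ w : ℂ) - (ψ w : ℂ) + (φ w : ℂ) * (ψ w : ℂ))) (Cfsg.indFun (W₁ ⊔ W₂) (fun w => 1 - (φ' w : ℂ) - (ψ' w : ℂ) + (φ' w : ℂ) * (ψ' w : ℂ))) = 1 + (if φ = φ' then 1 else 0) + (if ψ = ψ' then 1 else 0) + (if φ = φ' then 1 else 0) * (if ψ = ψ' then 1 else 0) := by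
  classical
  have : Fintype ↥(W₁ ⊔ W₂) := Fintype.ofFinite _
  have hne : (Nat.card ↥(W₁ ⊔ W₂) : ℂ) ≠ 0 := Nat.cast_ne_zero.mpr Nat.card_pos.ne'
  have hφ2 : ∀ w : ↥(W₁ ⊔ W₂), (w : G) ∈ W₂ → φ w = 1 := fun w hw => (hφ₂ w hw).1
  have hφ2' : ∀ w : ↥(W₁ ⊔ W₂), (w : G) ∈ W₂ → φ' w = 1 := fun w hw => (hφ₂ w hw).2
  have hψ1 : ∀ w : ↥(W₁ ⊔ W₂), (w : G) ∈ W₁ → ψ w = 1 := fun w hw => (hψ₁ w hw).1
  have hψ1' : ∀ w : ↥(W₁ ⊔ W₂), (w : G) ∈ W₁ → ψ' w = 1 := fun w hw => (hψ₁ w hw).2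
  have n1 : (1 : ↥(W₁ ⊔ W₂) →* ℂˣ) ≠ φ' * ψ' := by
    intro h
    apply hφ'
    apply triv1 W₁ W₂
    · intro w hw
      have e : (1 : ℂˣ) = φ' w * ψ' w := DFunLike.congr_fun h w
      rw [hψ1' w hw, mul_one] at e
      exact e.symm
    · exact hφ2'
  have n2 : φ ≠ ψ' := by
    intro h
    apply hφ
    apply triv1 W₁ W₂
    · intro w hw
      rw [h]; exact hψ1' w hw
    · exact hφ2
  have n3 : φ ≠ φ' * ψ' := by
    intro h
    apply hψ'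
    apply triv1 W₁ W₂
    · exact hψ1'
    · intro w hw
      have e : φ w = φ' w * ψ' w := DFunLike.congr_fun h w
      rw [hφ2 w hw, hφ2' w hw, one_mul] at e
      exact e.symm
  have n4 : ψ ≠ φ' := by
    intro h
    apply hψ
    apply triv1 W₁ W₂
    · exact hψ1
    · intro w hw
      rw [h]; exact hφ2' w hw
  have n5 : ψ ≠ φ' * ψ' := by
    intro h
    apply hφ'
    apply triv1 W₁ W₂
    · intro w hw
      have e : ψ w = φ' w * ψ' w := DFunLike.congr_fun h w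
      rw [hψ1 w hw, hψ1' w hw, mul_one] at e
      exact e.symm
    · exact hφ2'
  have n6 : φ * ψ ≠ 1 := by
    intro h
    apply hφ
    apply triv1 W₁ W₂
    · intro w hw
      have e : φ w * ψ w = 1 := DFunLike.congr_fun h w
      rw [hψ1 w hw, mul_one] at e
      exact e
    · exact hφ2
  have n7 : φ * ψ ≠ φ' := by
    intro h
    apply hψ
    apply triv1 W₁ W₂
    · exact hψ1
    · intro w hw
      have e : φ w * ψ w = φ' w := DFunLike.congr_fun h w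
      rw [hφ2 w hw, hφ2' w hw, one_mul] at e
      exact e
  have n8 : φ * ψ ≠ ψ' := by
    intro h
    apply hφ
    apply triv1 W₁ W₂
    · intro w hw
      have e : φ w * ψ w = ψ' w := DFunLike.congr_fun h w
      rw [hψ1 w hw, hψ1' w hw, mul_one] at e
      exact e
    · exact hφ2
  have hiff : φ * ψ = φ' * ψ' ↔ (φ = φ' ∧ ψ = ψ') := by
    constructor
    · intro h
      constructor
      · apply eq_of_agree W₁ W₂
        · intro w hw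
          have e : φ w * ψ w = φ' w * ψ' w := DFunLike.congr_fun h w
          rw [hψ1 w hw, hψ1' w hw, mul_one, mul_one] at e
          exact e
        · intro w hw
          rw [hφ2 w hw, hφ2' w hw]
      · apply eq_of_agree W₁ W₂
        · intro w hw
          rw [hψ1 w hw, hψ1' w hw]
        · intro w hw
          have e : φ w * ψ w = φ' w * ψ' w := DFunLike.congr_fun h w
          rw [hφ2 w hw, hφ2' w hw, one_mul, one_mul] at e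
          exact e
    · rintro ⟨rfl, rfl⟩
      rfl
  -- vanishing of α
  have hα0 : ∀ (φ ψ : ↥(W₁ ⊔ W₂) →* ℂˣ), (∀ w : ↥(W₁ ⊔ W₂), (w : G) ∈ W₂ → φ w = 1) →
      (∀ w : ↥(W₁ ⊔ W₂), (w : G) ∈ W₁ → ψ w = 1) → ∀ h : ↥(W₁ ⊔ W₂),
      ((h : G) ∈ W₁ ∨ (h : G) ∈ W₂) →
      (1 - (φ h : ℂ) - (ψ h : ℂ) + (φ h : ℂ) * (ψ h : ℂ)) = 0 := by
    intro φ ψ h2 h1 h hm
    rcases hm with hm | hm
    · rw [h1 h hm, Units.val_one]; ring
    · rw [h2 h hm, Units.val_one]; ring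
  constructor
  · rw [frob (W₁ ⊔ W₂) _ (fun _ => 1) (fun _ _ => rfl)]
    have e : ∑ h : ↥(W₁ ⊔ W₂), (1 - (φ h : ℂ) - (ψ h : ℂ) + (φ h : ℂ) * (ψ h : ℂ)) *
        (starRingEnd ℂ) 1 = (Nat.card ↥(W₁ ⊔ W₂) : ℂ) := by
      have e3 : ∑ h : ↥(W₁ ⊔ W₂), (φ h : ℂ) * (ψ h : ℂ) = 0 := sum_char (W₁ ⊔ W₂) (φ * ψ) n6
      simp only [map_one, mul_one]
      rw [Finset.sum_add_distrib, Finset.sum_sub_distrib, Finset.sum_sub_distrib, e3,
        sum_char (W₁ ⊔ W₂) φ hφ, sum_char (W₁ ⊔ W₂) ψ hψ, Finset.sum_const, Finset.card_univ,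
        nsmul_eq_mul, mul_one, Nat.card_eq_fintype_card]
      ring
    rw [e, inv_mul_cancel₀ hne]
  · rw [frob (W₁ ⊔ W₂) _ _ (fun x g => ind_class (W₁ ⊔ W₂) _ x g)]
    have hterm : ∀ h : ↥(W₁ ⊔ W₂),
        (1 - (φ h : ℂ) - (ψ h : ℂ) + (φ h : ℂ) * (ψ h : ℂ)) * (starRingEnd ℂ)
          (Cfsg.indFun (W₁ ⊔ W₂)
            (fun w => 1 - (φ' w : ℂ) - (ψ' w : ℂ) + (φ' w : ℂ) * (ψ' w : ℂ)) (h : G)) =
        (((1 : ↥(W₁ ⊔ W₂) →* ℂˣ) h : ℂ) - (φ h : ℂ) - (ψ h : ℂ) + ((φ * ψ) h : ℂ)) *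
          (starRingEnd ℂ) ((((1 : ↥(W₁ ⊔ W₂) →* ℂˣ) h : ℂ)) - (φ' h : ℂ) - (ψ' h : ℂ) +
            ((φ' * ψ') h : ℂ)) := by
      intro h
      by_cases hm : (h : G) ∈ W₁ ∨ (h : G) ∈ W₂
      · have h0 := hα0 φ ψ hφ2 hψ1 h hm
        have h0' : (((1 : ↥(W₁ ⊔ W₂) →* ℂˣ) h : ℂ) - (φ h : ℂ) - (ψ h : ℂ) + ((φ * ψ) h : ℂ)) = 0 :=
          h0
        rw [h0, h0', zero_mul, zero_mul]
      · push Not at hm
        rw [ind_eq W₁ W₂ hW _ (hα0 φ' ψ' hφ2' hψ1') h hm.1 hm.2]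
        rfl
    rw [Finset.sum_congr rfl (fun h _ => hterm h), sum_prod]
    unfold T
    simp only [eq_self_iff_true, if_true, if_neg hφ'.symm, if_neg hψ'.symm, if_neg n1, if_neg hφ,
      if_neg n2, if_neg n3, if_neg hψ, if_neg n4, if_neg n5, if_neg n6, if_neg n7, if_neg n8]
    by_cases h1 : φ = φ'
    · by_cases h2 : ψ = ψ'
      · simp only [if_pos h1, if_pos h2, if_pos (hiff.mpr ⟨h1, h2⟩)]
        field_simp
        ring
      · simp only [if_pos h1, if_neg h2, if_neg (fun h => h2 (hiff.mp h).2)]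
        field_simp
        ring
    · by_cases h2 : ψ = ψ'
      · simp only [if_neg h1, if_pos h2, if_neg (fun h => h1 (hiff.mp h).1)]
        field_simp
        ring
      · simp only [if_neg h1, if_neg h2, if_neg (fun h => h1 (hiff.mp h).1)]
        field_simp
        ring

end Cfsg.Agent.S1505
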