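import Mathlib
import Cfsg.Statements.S1503
import Cfsg.Agent.S1505

set_option autoImplicit false

open Cfsg

namespace Cfsg.Agent.S1503

theorem exists_char_comm (Q : Type*) [CommGroup Q] [Finite Q] (a : Q) (ha : a ≠ 1) :
    ∃ φ : Q →* ℂˣ, φ a ≠ 1 := by
  haveI : NeZero ((Monoid.exponent Q : ℕ) : ℂ) :=
    ⟨Nat.cast_ne_zero.mpr Monoid.exponent_ne_zero_of_finite⟩
  exact CommGroup.exists_apply_ne_one_of_hasEnoughRootsOfUnity Q ℂ ha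

theorem exists_char_of_comm (Q : Type*) [Group Q] [Finite Q] (hc : ∀ a b : Q, a * b = b * a)
    (a : Q) (ha : a ≠ 1) : ∃ φ : Q →* ℂˣ, φ a ≠ 1 :=
  @exists_char_comm Q { ‹Group Q› with mul_comm := hc } _ a ha

theorem finite_dual (Q : Type*) [Group Q] [Finite Q] : Finite (Q →* ℂˣ) := by
  haveI : NeZero (Nat.card Q) := ⟨Nat.card_pos.ne'⟩
  have hinj : Function.Injective (fun (φ : Q →* ℂˣ) (h : Q) =>
      (⟨φ h, by rw [mem_rootsOfUnity, ← map_pow, pow_card_eq_one', map_one]⟩ :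
        rootsOfUnity (Nat.card Q) ℂ)) := by
    intro φ φ' e
    refine MonoidHom.ext fun h => ?_
    have := congrFun e h
    exact congrArg (fun z : rootsOfUnity (Nat.card Q) ℂ => (z : ℂˣ)) this
  exact Finite.of_injective _ hinj

theorem exists_char {G : Type*} [Group G] (H K : Subgroup G) [Finite ↥H]
    (hcomm : ∀ a b : ↥H, a * b = b * a) (u : ↥H) (hu : (u : G) ∉ K) :
    ∃ φ : ↥H →* ℂˣ, (∀ w : ↥H, (w : G) ∈ K → φ w = 1) ∧ φ u ≠ 1 := by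
  haveI hN : (K.subgroupOf H).Normal :=
    ⟨fun n hn g => by rw [hcomm g n, mul_inv_cancel_right]; exact hn⟩
  have hcq : ∀ a b : ↥H ⧸ K.subgroupOf H, a * b = b * a := by
    intro a b
    induction a using QuotientGroup.induction_on with
    | H a =>
      induction b using QuotientGroup.induction_on with
      | H b => rw [← QuotientGroup.mk_mul, ← QuotientGroup.mk_mul, hcomm]
  have hne : (QuotientGroup.mk u : ↥H ⧸ K.subgroupOf H) ≠ 1 := by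
    rw [Ne, QuotientGroup.eq_one_iff]
    exact hu
  obtain ⟨φ, hφ⟩ := exists_char_of_comm (↥H ⧸ K.subgroupOf H) hcq _ hne
  refine ⟨φ.comp (QuotientGroup.mk' (K.subgroupOf H)), ?_, hφ⟩
  intro w hw
  show φ (QuotientGroup.mk w) = 1
  rw [(QuotientGroup.eq_one_iff w).mpr hw, map_one]

theorem dual_sum {G : Type*} [Group G] (H K : Subgroup G) [Finite ↥H]
    (hcomm : ∀ a b : ↥H, a * b = b * a) [Fintype (↥H →* ℂˣ)]
    [DecidablePred (fun φ : ↥H →* ℂˣ => ∀ w : ↥H, (w : G) ∈ K → φ w = 1)] (u : ↥H)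
    [Decidable ((u : G) ∈ K)] :
    ∑ φ ∈ Finset.univ.filter (fun φ : ↥H →* ℂˣ => ∀ w : ↥H, (w : G) ∈ K → φ w = 1), (φ u : ℂ) =
      if (u : G) ∈ K then
        ((Finset.univ.filter (fun φ : ↥H →* ℂˣ => ∀ w : ↥H, (w : G) ∈ K → φ w = 1)).card : ℂ)
      else 0 := by
  obtain ⟨S, hS⟩ : ∃ S : Finset (↥H →* ℂˣ),
      S = Finset.univ.filter (fun φ : ↥H →* ℂˣ => ∀ w : ↥H, (w : G) ∈ K → φ w = 1) := ⟨_, rfl⟩
  rw [← hS]
  have hmem : ∀ φ, φ ∈ S ↔ ∀ w : ↥H, (w : G) ∈ K → φ w = 1 := by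
    intro φ
    rw [hS, Finset.mem_filter]
    exact ⟨fun h => h.2, fun h => ⟨Finset.mem_univ _, h⟩⟩
  split_ifs with hu
  · rw [Finset.sum_congr rfl (fun φ hφ => by rw [(hmem φ).mp hφ u hu, Units.val_one]),
      Finset.sum_const, nsmul_eq_mul, mul_one]
  · obtain ⟨φ₀, h0, h1⟩ := exists_char H K hcomm u hu
    have e : ∑ φ ∈ S, ((φ₀ * φ) u : ℂ) = ∑ φ ∈ S, (φ u : ℂ) := by
      apply Finset.sum_nbij' (fun φ => φ₀ * φ) (fun φ => φ₀⁻¹ * φ)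
      · intro φ hφ
        rw [hmem] at hφ ⊢
        intro w hw
        rw [MonoidHom.mul_apply, h0 w hw, hφ w hw, one_mul]
      · intro φ hφ
        rw [hmem] at hφ ⊢
        intro w hw
        rw [MonoidHom.mul_apply, MonoidHom.inv_apply, h0 w hw, hφ w hw, inv_one, one_mul]
      · intro φ _
        exact inv_mul_cancel_left φ₀ φ
      · intro φ _
        exact mul_inv_cancel_left φ₀ φ
      · intro φ _
        rfl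
    have e2 : ∑ φ ∈ S, ((φ₀ * φ) u : ℂ) = (φ₀ u : ℂ) * ∑ φ ∈ S, (φ u : ℂ) := by
      rw [Finset.mul_sum]
      apply Finset.sum_congr rfl
      intro φ _
      rw [MonoidHom.mul_apply, Units.val_mul]
    have h3 : ((φ₀ u : ℂ) - 1) * ∑ φ ∈ S, (φ u : ℂ) = 0 := by
      rw [sub_mul, one_mul, ← e2, e, sub_self]
    rcases mul_eq_zero.mp h3 with h | h
    · exfalso
      apply h1
      apply Units.ext
      rw [Units.val_one]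
      linear_combination h
    · exact h

theorem inner_lin {G : Type*} [Group G] [Fintype G] (a b c d θ : G → ℂ) :
    Cfsg.classInner (fun g => a g - b g - c g + d g) θ =
      Cfsg.classInner a θ - Cfsg.classInner b θ - Cfsg.classInner c θ + Cfsg.classInner d θ := by
  unfold Cfsg.classInner
  rw [← mul_sub, ← mul_sub, ← mul_add, ← Finset.sum_sub_distrib, ← Finset.sum_sub_distrib,
    ← Finset.sum_add_distrib]
  congr 1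
  apply Finset.sum_congr rfl
  intro g _
  ring

theorem inner_symm {G : Type*} [Group G] [Fintype G] (a b : G → ℂ) :
    Cfsg.classInner a b = (starRingEnd ℂ) (Cfsg.classInner b a) := by
  unfold Cfsg.classInner
  rw [map_mul, map_inv₀, map_natCast, map_sum]
  congr 1
  apply Finset.sum_congr rfl
  intro g _
  rw [map_mul, Complex.conj_conj, mul_comm]


/-- Let W₁, W₂ ≤ G with W = W₁ ⊔ W₂ and let χ an orthonormal family of irreducible characters of G up to sign, indexed by the linear characters ω of W, with χ_1 = 1, χ_ω = ω on W outside W₁ ∪ W₂, and the induction identity for (1 − φ)(1 − ψ). If θ is an irreducible character of G orthogonal to χ ω for every linear character ω of W, then θ vanishes at every element of W lying outside W₁ ∪ W₂. -/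
theorem result {G : Type*} [Group G] [Fintype G] (W₁ W₂ : Subgroup G) (hW : Cfsg.IsSelfNormalizingCyclic W₁ W₂) (χ : (↥(W₁ ⊔ W₂) →* ℂˣ) → (G → ℂ)) (hχ : Cfsg.IsCyclicTIFamily W₁ W₂ χ) (θ : G → ℂ) (hθ : Cfsg.IsIrrCharacter G θ) (horth : ∀ ω, Cfsg.classInner θ (χ ω) = 0) (w : ↥(W₁ ⊔ W₂)) (hw₁ : (w : G) ∉ W₁) (hw₂ : (w : G) ∉ W₂) : θ w = 0 := by
  classical
  have hcommG := Cfsg.Agent.S1505.comm_of_cyc W₁ W₂ hW
  have hcomm : ∀ a b : ↥(W₁ ⊔ W₂), a * b = b * a :=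
    fun a b => Subtype.ext (hcommG a.1 b.1 a.2 b.2)
  have hfin : Finite (↥(W₁ ⊔ W₂) →* ℂˣ) := finite_dual _
  have hfint : Fintype (↥(W₁ ⊔ W₂) →* ℂˣ) := Fintype.ofFinite _
  have hfintW : Fintype ↥(W₁ ⊔ W₂) := Fintype.ofFinite _
  have hne : (Nat.card ↥(W₁ ⊔ W₂) : ℂ) ≠ 0 := Nat.cast_ne_zero.mpr Nat.card_pos.ne'
  -- θ is a class function
  have hθc : ∀ x g, θ (x⁻¹ * g * x) = θ g := by
    obtain ⟨n, ρ, -, rfl⟩ := hθ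
    intro x g
    have := ρ.char_conj g x⁻¹
    rw [inv_inv] at this
    exact this
  have hz : ∀ ω, Cfsg.classInner (χ ω) θ = 0 := by
    intro ω
    rw [inner_symm, horth ω, map_zero]
  -- the basic orthogonality on W
  have E : ∀ φ ψ : ↥(W₁ ⊔ W₂) →* ℂˣ, φ ≠ 1 → ψ ≠ 1 →
      (∀ w : ↥(W₁ ⊔ W₂), (w : G) ∈ W₂ → φ w = 1) → (∀ w : ↥(W₁ ⊔ W₂), (w : G) ∈ W₁ → ψ w = 1) →
      ∑ h : ↥(W₁ ⊔ W₂), (1 - (φ h : ℂ) - (ψ h : ℂ) + (φ h : ℂ) * (ψ h : ℂ)) *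
        (starRingEnd ℂ) (θ h) = 0 := by
    intro φ ψ hφ1 hψ1 hφ2 hψ2
    have key := Cfsg.Agent.S1505.frob (W₁ ⊔ W₂)
      (fun w => 1 - (φ w : ℂ) - (ψ w : ℂ) + (φ w : ℂ) * (ψ w : ℂ)) θ hθc
    rw [hχ.induced_eq φ ψ hφ1 hψ1 hφ2 hψ2] at key
    have lin : Cfsg.classInner (fun g => 1 - χ φ g - χ ψ g + χ (φ * ψ) g) θ =
        Cfsg.classInner (χ 1) θ - Cfsg.classInner (χ φ) θ - Cfsg.classInner (χ ψ) θ +
          Cfsg.classInner (χ (φ * ψ)) θ := by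
      rw [hχ.map_one]
      exact inner_lin (fun _ => 1) (χ φ) (χ ψ) (χ (φ * ψ)) θ
    rw [lin, hz, hz, hz, hz] at key
    have key2 : (Nat.card ↥(W₁ ⊔ W₂) : ℂ)⁻¹ * ∑ h : ↥(W₁ ⊔ W₂),
        (1 - (φ h : ℂ) - (ψ h : ℂ) + (φ h : ℂ) * (ψ h : ℂ)) * (starRingEnd ℂ) (θ h) = 0 := by
      rw [← key]; ring
    rcases mul_eq_zero.mp key2 with h | h
    · exact absurd (inv_eq_zero.mp h) hne
    · exact h
  -- the two families of characters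
  obtain ⟨Φ, hΦ⟩ : ∃ Φ : Finset (↥(W₁ ⊔ W₂) →* ℂˣ), Φ = Finset.univ.filter
      (fun φ : ↥(W₁ ⊔ W₂) →* ℂˣ => ∀ w : ↥(W₁ ⊔ W₂), (w : G) ∈ W₂ → φ w = 1) := ⟨_, rfl⟩
  obtain ⟨Ψ, hΨ⟩ : ∃ Ψ : Finset (↥(W₁ ⊔ W₂) →* ℂˣ), Ψ = Finset.univ.filter
      (fun ψ : ↥(W₁ ⊔ W₂) →* ℂˣ => ∀ w : ↥(W₁ ⊔ W₂), (w : G) ∈ W₁ → ψ w = 1) := ⟨_, rfl⟩
  have hmemΦ : ∀ φ, φ ∈ Φ ↔ ∀ w : ↥(W₁ ⊔ W₂), (w : G) ∈ W₂ → φ w = 1 := by
    intro φ
    rw [hΦ, Finset.mem_filter]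
    exact ⟨fun h => h.2, fun h => ⟨Finset.mem_univ _, h⟩⟩
  have hmemΨ : ∀ ψ, ψ ∈ Ψ ↔ ∀ w : ↥(W₁ ⊔ W₂), (w : G) ∈ W₁ → ψ w = 1 := by
    intro ψ
    rw [hΨ, Finset.mem_filter]
    exact ⟨fun h => h.2, fun h => ⟨Finset.mem_univ _, h⟩⟩
  have hΦsum : ∀ u : ↥(W₁ ⊔ W₂), ∑ φ ∈ Φ, (φ u : ℂ) = if (u : G) ∈ W₂ then (Φ.card : ℂ) else 0 := by
    intro u
    rw [hΦ]
    exact dual_sum (W₁ ⊔ W₂) W₂ hcomm u
  have hΨsum : ∀ u : ↥(W₁ ⊔ W₂), ∑ ψ ∈ Ψ, (ψ u : ℂ) = if (u : G) ∈ W₁ then (Ψ.card : ℂ) else 0 := by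
    intro u
    rw [hΨ]
    exact dual_sum (W₁ ⊔ W₂) W₁ hcomm u
  have hΦcard : (Φ.card : ℂ) ≠ 0 := by
    have : (1 : ↥(W₁ ⊔ W₂) →* ℂˣ) ∈ Φ := (hmemΦ 1).mpr (fun w _ => rfl)
    exact Nat.cast_ne_zero.mpr (Finset.card_pos.mpr ⟨1, this⟩).ne'
  have hΨcard : (Ψ.card : ℂ) ≠ 0 := by
    have : (1 : ↥(W₁ ⊔ W₂) →* ℂˣ) ∈ Ψ := (hmemΨ 1).mpr (fun w _ => rfl)
    exact Nat.cast_ne_zero.mpr (Finset.card_pos.mpr ⟨1, this⟩).ne'
  -- extended orthogonality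
  have E2 : ∀ φ ∈ Φ, ∀ ψ ∈ Ψ, ∑ h : ↥(W₁ ⊔ W₂),
      ((φ w⁻¹ : ℂ) * (1 - (φ h : ℂ))) * ((ψ w⁻¹ : ℂ) * (1 - (ψ h : ℂ))) *
        (starRingEnd ℂ) (θ h) = 0 := by
    intro φ hφ ψ hψ
    by_cases hφ1 : φ = 1
    · apply Finset.sum_eq_zero
      intro h _
      simp only [hφ1, MonoidHom.one_apply, Units.val_one, sub_self, mul_zero, zero_mul]
    by_cases hψ1 : ψ = 1
    · apply Finset.sum_eq_zero
      intro h _
      simp only [hψ1, MonoidHom.one_apply, Units.val_one, sub_self, mul_zero, zero_mul]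
    have e := E φ ψ hφ1 hψ1 ((hmemΦ φ).mp hφ) ((hmemΨ ψ).mp hψ)
    have e2 : ∀ h : ↥(W₁ ⊔ W₂), ((φ w⁻¹ : ℂ) * (1 - (φ h : ℂ))) * ((ψ w⁻¹ : ℂ) * (1 - (ψ h : ℂ))) *
        (starRingEnd ℂ) (θ h) = ((φ w⁻¹ : ℂ) * (ψ w⁻¹ : ℂ)) *
          ((1 - (φ h : ℂ) - (ψ h : ℂ) + (φ h : ℂ) * (ψ h : ℂ)) * (starRingEnd ℂ) (θ h)) := by
      intro h
      ring
    rw [Finset.sum_congr rfl (fun h _ => e2 h), ← Finset.mul_sum, e, mul_zero]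
  have hzero : ∑ h : ↥(W₁ ⊔ W₂), (∑ φ ∈ Φ, (φ w⁻¹ : ℂ) * (1 - (φ h : ℂ))) *
      (∑ ψ ∈ Ψ, (ψ w⁻¹ : ℂ) * (1 - (ψ h : ℂ))) * (starRingEnd ℂ) (θ h) = 0 := by
    have h1 : ∀ h : ↥(W₁ ⊔ W₂), (∑ φ ∈ Φ, (φ w⁻¹ : ℂ) * (1 - (φ h : ℂ))) *
        (∑ ψ ∈ Ψ, (ψ w⁻¹ : ℂ) * (1 - (ψ h : ℂ))) * (starRingEnd ℂ) (θ h) =
        ∑ φ ∈ Φ, ∑ ψ ∈ Ψ, ((φ w⁻¹ : ℂ) * (1 - (φ h : ℂ))) * ((ψ w⁻¹ : ℂ) * (1 - (ψ h : ℂ))) *
          (starRingEnd ℂ) (θ h) := by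
      intro h
      rw [Finset.sum_mul_sum, Finset.sum_mul]
      apply Finset.sum_congr rfl
      intro φ _
      rw [Finset.sum_mul]
    rw [Finset.sum_congr rfl (fun h _ => h1 h), Finset.sum_comm]
    apply Finset.sum_eq_zero
    intro φ hφ
    rw [Finset.sum_comm]
    apply Finset.sum_eq_zero
    intro ψ hψ
    exact E2 φ hφ ψ hψ
  -- evaluation of the character sums
  have hwi1 : ((w⁻¹ : ↥(W₁ ⊔ W₂)) : G) ∉ W₁ := fun h => hw₁ ((Subgroup.inv_mem_iff W₁).mp h)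
  have hwi2 : ((w⁻¹ : ↥(W₁ ⊔ W₂)) : G) ∉ W₂ := fun h => hw₂ ((Subgroup.inv_mem_iff W₂).mp h)
  have hP : ∀ h : ↥(W₁ ⊔ W₂), ∑ φ ∈ Φ, (φ w⁻¹ : ℂ) * (1 - (φ h : ℂ)) =
      - (if ((w⁻¹ * h : ↥(W₁ ⊔ W₂)) : G) ∈ W₂ then (Φ.card : ℂ) else 0) := by
    intro h
    have e1 : ∀ φ : ↥(W₁ ⊔ W₂) →* ℂˣ, (φ w⁻¹ : ℂ) * (1 - (φ h : ℂ)) =
        (φ w⁻¹ : ℂ) - (φ (w⁻¹ * h) : ℂ) := by
      intro φ
      rw [map_mul, Units.val_mul]; ring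
    rw [Finset.sum_congr rfl (fun φ _ => e1 φ), Finset.sum_sub_distrib, hΦsum, hΦsum,
      if_neg hwi2, zero_sub]
  have hQ : ∀ h : ↥(W₁ ⊔ W₂), ∑ ψ ∈ Ψ, (ψ w⁻¹ : ℂ) * (1 - (ψ h : ℂ)) =
      - (if ((w⁻¹ * h : ↥(W₁ ⊔ W₂)) : G) ∈ W₁ then (Ψ.card : ℂ) else 0) := by
    intro h
    have e1 : ∀ ψ : ↥(W₁ ⊔ W₂) →* ℂˣ, (ψ w⁻¹ : ℂ) * (1 - (ψ h : ℂ)) =
        (ψ w⁻¹ : ℂ) - (ψ (w⁻¹ * h) : ℂ) := by
      intro ψ
      rw [map_mul, Units.val_mul]; ring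
    rw [Finset.sum_congr rfl (fun ψ _ => e1 ψ), Finset.sum_sub_distrib, hΨsum, hΨsum,
      if_neg hwi1, zero_sub]
  have hbot : W₁ ⊓ W₂ = ⊥ := hW.2.2.1
  rw [Finset.sum_eq_single w] at hzero
  · rw [hP, hQ] at hzero
    have h1 : ((w⁻¹ * w : ↥(W₁ ⊔ W₂)) : G) ∈ W₂ := by rw [inv_mul_cancel]; exact W₂.one_mem
    have h2 : ((w⁻¹ * w : ↥(W₁ ⊔ W₂)) : G) ∈ W₁ := by rw [inv_mul_cancel]; exact W₁.one_mem
    rw [if_pos h1, if_pos h2] at hzero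
    have h3 : (starRingEnd ℂ) (θ w) = 0 := by
      rcases mul_eq_zero.mp hzero with h | h
      · rcases mul_eq_zero.mp h with h | h
        · exact absurd (neg_eq_zero.mp h) hΦcard
        · exact absurd (neg_eq_zero.mp h) hΨcard
      · exact h
    exact (map_eq_zero (starRingEnd ℂ)).mp h3
  · intro h _ hhw
    rw [hP, hQ]
    by_cases c2 : ((w⁻¹ * h : ↥(W₁ ⊔ W₂)) : G) ∈ W₂
    · by_cases c1 : ((w⁻¹ * h : ↥(W₁ ⊔ W₂)) : G) ∈ W₁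
      · exfalso
        apply hhw
        have : ((w⁻¹ * h : ↥(W₁ ⊔ W₂)) : G) ∈ W₁ ⊓ W₂ := ⟨c1, c2⟩
        rw [hbot, Subgroup.mem_bot] at this
        have h5 : w⁻¹ * h = 1 := Subtype.ext this
        exact (inv_mul_eq_one.mp h5).symm
      · rw [if_neg c1, neg_zero, mul_zero, zero_mul]
    · rw [if_neg c2, neg_zero, zero_mul, zero_mul]
  · intro hw
    exact absurd (Finset.mem_univ w) hw

end Cfsg.Agent.S1503
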