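import Cfsg.Statements.S1504

set_option autoImplicit false
open Cfsg

namespace Cfsg.Agent.S1504

theorem sum_mul_inv {W : Type*} [Group W] [Fintype W] (f g : W →* ℂˣ) [Decidable (f = g)] :
    ∑ w : W, (f w : ℂ) * (((g w)⁻¹ : ℂˣ) : ℂ) = if f = g then (Fintype.card W : ℂ) else 0 := by
  split_ifs with h
  · subst h
    simp
  · have h0 := sum_hom_units_eq_zero ((Units.coeHom ℂ).comp (f * g⁻¹)) (by
      intro h1
      apply h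
      apply MonoidHom.ext; intro w
      have h2 := DFunLike.congr_fun h1 w
      have h3 : f w * (g w)⁻¹ = 1 := Units.ext (by simpa using h2)
      exact mul_inv_eq_one.mp h3)
    rw [← h0]
    apply Finset.sum_congr rfl
    intro w _
    simp

theorem hom_ext_sup {G : Type*} [Group G] (W₁ W₂ : Subgroup G) (f f' : ↥(W₁ ⊔ W₂) →* ℂˣ)
    (h1 : ∀ w : ↥(W₁ ⊔ W₂), (w : G) ∈ W₁ → f w = f' w)
    (h2 : ∀ w : ↥(W₁ ⊔ W₂), (w : G) ∈ W₂ → f w = f' w) : f = f' := by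
  have hle : W₁ ⊔ W₂ ≤ (MonoidHom.eqLocus f f').map (W₁ ⊔ W₂).subtype := by
    apply sup_le
    · intro a ha
      exact Subgroup.mem_map.mpr ⟨⟨a, Subgroup.mem_sup_left ha⟩, h1 _ ha, rfl⟩
    · intro a ha
      exact Subgroup.mem_map.mpr ⟨⟨a, Subgroup.mem_sup_right ha⟩, h2 _ ha, rfl⟩
  apply MonoidHom.ext
  intro w
  obtain ⟨e, he, hew⟩ := Subgroup.mem_map.mp (hle w.2)
  have hw : e = w := Subtype.ext hew
  rw [← hw]; exact he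

/-- The index type of the family. -/
abbrev Idx {G : Type*} [Group G] (W₁ W₂ : Subgroup G) :=
  {p : (↥(W₁ ⊔ W₂) →* ℂˣ) × (↥(W₁ ⊔ W₂) →* ℂˣ) // p.1 ≠ 1 ∧ p.2 ≠ 1 ∧
    (∀ w : ↥(W₁ ⊔ W₂), (w : G) ∈ W₂ → p.1 w = 1) ∧ (∀ w : ↥(W₁ ⊔ W₂), (w : G) ∈ W₁ → p.2 w = 1)}

theorem pairing {G : Type*} [Group G] (W₁ W₂ : Subgroup G) [Fintype ↥(W₁ ⊔ W₂)]
    (i j : Idx W₁ W₂) [Decidable (i = j)] :
    ∑ w : ↥(W₁ ⊔ W₂), (1 - (i.1.1 w : ℂ) - (i.1.2 w : ℂ) + (i.1.1 w : ℂ) * (i.1.2 w : ℂ))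
        * ((((j.1.1 * j.1.2) w)⁻¹ : ℂˣ) : ℂ)
      = if i = j then (Fintype.card ↥(W₁ ⊔ W₂) : ℂ) else 0 := by
  classical
  set μ : ↥(W₁ ⊔ W₂) →* ℂˣ := j.1.1 * j.1.2 with hμ
  have hμ1 : ∀ w : ↥(W₁ ⊔ W₂), (w : G) ∈ W₁ → μ w = j.1.1 w := by
    intro w hw
    rw [hμ, MonoidHom.mul_apply, j.2.2.2.2 w hw, mul_one]
  have hμ2 : ∀ w : ↥(W₁ ⊔ W₂), (w : G) ∈ W₂ → μ w = j.1.2 w := by
    intro w hw
    rw [hμ, MonoidHom.mul_apply, j.2.2.2.1 w hw, one_mul]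
  have e1 := sum_mul_inv (1 : ↥(W₁ ⊔ W₂) →* ℂˣ) μ
  have e2 := sum_mul_inv i.1.1 μ
  have e3 := sum_mul_inv i.1.2 μ
  have e4 := sum_mul_inv (i.1.1 * i.1.2) μ
  have n1 : (1 : ↥(W₁ ⊔ W₂) →* ℂˣ) ≠ μ := by
    intro h
    apply j.2.2.1
    apply hom_ext_sup
    · intro w hw; rw [j.2.2.2.2 w hw]; rfl
    · intro w hw; rw [← hμ2 w hw, ← h]
  have n2 : i.1.1 ≠ μ := by
    intro h
    apply j.2.2.1
    apply hom_ext_sup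
    · intro w hw; rw [j.2.2.2.2 w hw]; rfl
    · intro w hw; rw [← hμ2 w hw, ← h, i.2.2.2.1 w hw]; rfl
  have n3 : i.1.2 ≠ μ := by
    intro h
    apply j.2.1
    apply hom_ext_sup
    · intro w hw; rw [← hμ1 w hw, ← h, i.2.2.2.2 w hw]; rfl
    · intro w hw; rw [j.2.2.2.1 w hw]; rfl
  have n4 : (i.1.1 * i.1.2 = μ) ↔ i = j := by
    constructor
    · intro h
      apply Subtype.ext
      apply Prod.ext
      · apply hom_ext_sup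
        · intro w hw
          rw [← hμ1 w hw, ← h, MonoidHom.mul_apply, i.2.2.2.2 w hw, mul_one]
        · intro w hw
          rw [i.2.2.2.1 w hw, j.2.2.2.1 w hw]
      · apply hom_ext_sup
        · intro w hw
          rw [i.2.2.2.2 w hw, j.2.2.2.2 w hw]
        · intro w hw
          rw [← hμ2 w hw, ← h, MonoidHom.mul_apply, i.2.2.2.1 w hw, one_mul]
    · intro h; rw [h]
  rw [if_neg n1] at e1
  rw [if_neg n2] at e2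
  rw [if_neg n3] at e3
  simp only [n4] at e4
  rw [← e4]
  have hw : ∀ w : ↥(W₁ ⊔ W₂),
      (1 - (i.1.1 w : ℂ) - (i.1.2 w : ℂ) + (i.1.1 w : ℂ) * (i.1.2 w : ℂ)) * (((μ w)⁻¹ : ℂˣ) : ℂ)
      = (((1 : ↥(W₁ ⊔ W₂) →* ℂˣ) w : ℂˣ) : ℂ) * (((μ w)⁻¹ : ℂˣ) : ℂ)
        - (i.1.1 w : ℂ) * (((μ w)⁻¹ : ℂˣ) : ℂ) - (i.1.2 w : ℂ) * (((μ w)⁻¹ : ℂˣ) : ℂ)
        + (((i.1.1 * i.1.2) w : ℂˣ) : ℂ) * (((μ w)⁻¹ : ℂˣ) : ℂ) := by
    intro w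
    simp only [MonoidHom.one_apply, Units.val_one, MonoidHom.mul_apply, Units.val_mul]
    ring
  rw [Finset.sum_congr rfl (fun w _ => hw w), Finset.sum_add_distrib, Finset.sum_sub_distrib,
    Finset.sum_sub_distrib, e1, e2, e3]
  ring

/-- Let W₁, W₂ be subgroups of a finite group with W₁ ⊓ W₂ = ⊥ whose elements commute, and W = W₁ ⊔ W₂. For linear characters φ, ψ of W with φ trivial on W₂ and ψ trivial on W₁, the function (1 − φ)(1 − ψ) vanishes on W₁ ∪ W₂; and the family of these functions, indexed by pairs (φ, ψ) with φ ≠ 1 ≠ ψ, is linearly independent over ℂ. -/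
theorem result {G : Type*} [Group G] [Finite G] (W₁ W₂ : Subgroup G) (hdisj : W₁ ⊓ W₂ = ⊥) (hcomm : ∀ a ∈ W₁, ∀ b ∈ W₂, a * b = b * a) : (∀ φ ψ : ↥(W₁ ⊔ W₂) →* ℂˣ, (∀ w : ↥(W₁ ⊔ W₂), (w : G) ∈ W₂ → φ w = 1) → (∀ w : ↥(W₁ ⊔ W₂), (w : G) ∈ W₁ → ψ w = 1) → ∀ w : ↥(W₁ ⊔ W₂), ((w : G) ∈ W₁ ∨ (w : G) ∈ W₂) → (1 - (φ w : ℂ) - (ψ w : ℂ) + (φ w : ℂ) * (ψ w : ℂ)) = 0) ∧ LinearIndependent ℂ (fun p : {p : (↥(W₁ ⊔ W₂) →* ℂˣ) × (↥(W₁ ⊔ W₂) →* ℂˣ) // p.1 ≠ 1 ∧ p.2 ≠ 1 ∧ (∀ w : ↥(W₁ ⊔ W₂), (w : G) ∈ W₂ → p.1 w = 1) ∧ (∀ w : ↥(W₁ ⊔ W₂), (w : G) ∈ W₁ → p.2 w = 1)} => fun w : ↥(W₁ ⊔ W₂) => 1 - (p.1.1 w : ℂ) - (p.1.2 w : ℂ) + (p.1.1 w : ℂ) * (p.1.2 w : ℂ)) := by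
  classical
  refine ⟨?_, ?_⟩
  · intro φ ψ hφ hψ w hw
    rcases hw with hw | hw
    · rw [hψ w hw]; simp only [Units.val_one]; ring
    · rw [hφ w hw]; simp only [Units.val_one]; ring
  · have : Fintype ↥(W₁ ⊔ W₂) := Fintype.ofFinite _
    rw [linearIndependent_iff']
    intro s c hsum j hj
    have hpt : ∀ w : ↥(W₁ ⊔ W₂), ∑ i ∈ s, c i *
        (1 - (i.1.1 w : ℂ) - (i.1.2 w : ℂ) + (i.1.1 w : ℂ) * (i.1.2 w : ℂ)) = 0 := by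
      intro w
      have := congrFun hsum w
      simpa [Finset.sum_apply] using this
    have h2 : ∑ i ∈ s, c i * ∑ w : ↥(W₁ ⊔ W₂),
        (1 - (i.1.1 w : ℂ) - (i.1.2 w : ℂ) + (i.1.1 w : ℂ) * (i.1.2 w : ℂ))
          * ((((j.1.1 * j.1.2) w)⁻¹ : ℂˣ) : ℂ) = 0 := by
      simp only [Finset.mul_sum]
      rw [Finset.sum_comm]
      apply Finset.sum_eq_zero
      intro w _
      have h3 := hpt w
      calc ∑ i ∈ s, c i * ((1 - (i.1.1 w : ℂ) - (i.1.2 w : ℂ) + (i.1.1 w : ℂ) * (i.1.2 w : ℂ))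
              * ((((j.1.1 * j.1.2) w)⁻¹ : ℂˣ) : ℂ))
          = (∑ i ∈ s, c i * (1 - (i.1.1 w : ℂ) - (i.1.2 w : ℂ) + (i.1.1 w : ℂ) * (i.1.2 w : ℂ)))
              * ((((j.1.1 * j.1.2) w)⁻¹ : ℂˣ) : ℂ) := by
            rw [Finset.sum_mul]; apply Finset.sum_congr rfl; intro i _; ring
        _ = 0 := by rw [h3, zero_mul]
    have h4 : ∑ i ∈ s, c i * (if i = j then (Fintype.card ↥(W₁ ⊔ W₂) : ℂ) else 0) = 0 := by
      refine Eq.trans ?_ h2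
      apply Finset.sum_congr rfl
      intro i _
      rw [pairing W₁ W₂ i j]
    simp only [mul_ite, mul_zero, Finset.sum_ite_eq', hj, if_true] at h4
    rcases mul_eq_zero.mp h4 with h | h
    · exact h
    · exfalso; exact (Nat.cast_ne_zero.mpr Fintype.card_ne_zero) h

end Cfsg.Agent.S1504
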