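import Cfsg.Statements.S1506

set_option autoImplicit false
open Cfsg

namespace Cfsg.Agent.S1506

theorem inner_ind_zero {G : Type*} [Group G] [Fintype G] (W : Subgroup G) (θ : G → ℂ)
    (hθ : IsClassFunction G θ) (α : W → ℂ) (hα : ∀ w : W, θ w = 0 ∨ α w = 0) :
    classInner θ (indFun W α) = 0 := by
  have hpt : ∀ y : G, θ y * (starRingEnd ℂ) (extendByZero W α y) = 0 := by
    intro y
    by_cases hy : y ∈ W
    · have h1 : extendByZero W α y = α ⟨y, hy⟩ :=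
        Function.Injective.extend_apply Subtype.val_injective α 0 (⟨y, hy⟩ : W)
      rcases hα ⟨y, hy⟩ with h | h
      · rw [show θ y = 0 from h, zero_mul]
      · rw [h1, h, map_zero, mul_zero]
    · have h1 : extendByZero W α y = 0 := by
        show Function.extend (Subtype.val : W → G) α 0 y = (0 : G → ℂ) y
        apply Function.extend_apply'
        rintro ⟨⟨z, hz⟩, rfl⟩
        exact hy hz
      rw [h1, map_zero, mul_zero]
  show (Nat.card G : ℂ)⁻¹ * ∑ g : G, θ g * (starRingEnd ℂ)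
    ((Nat.card W : ℂ)⁻¹ * ∑ x : G, extendByZero W α (x⁻¹ * g * x)) = 0
  have hterm : ∀ g : G, θ g * (starRingEnd ℂ)
      ((Nat.card W : ℂ)⁻¹ * ∑ x : G, extendByZero W α (x⁻¹ * g * x)) = 0 := by
    intro g
    rw [map_mul, map_sum, ← mul_assoc, mul_comm (θ g), mul_assoc, Finset.mul_sum]
    have hx : ∀ x : G, θ g * (starRingEnd ℂ) (extendByZero W α (x⁻¹ * g * x)) = 0 := by
      intro x
      have h1 : θ (x⁻¹ * g * x) = θ g := by
        have := hθ g x⁻¹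
        rwa [inv_inv] at this
      rw [← h1]; exact hpt _
    rw [Finset.sum_eq_zero (fun x _ => hx x), mul_zero]
  rw [Finset.sum_eq_zero (fun g _ => hterm g), mul_zero]

theorem inner_comb {G : Type*} [Group G] [Fintype G] (θ b c d : G → ℂ) :
    classInner θ (fun g => 1 - b g - c g + d g)
      = classInner θ (fun _ => 1) - classInner θ b - classInner θ c + classInner θ d := by
  show (Nat.card G : ℂ)⁻¹ * ∑ g : G, θ g * (starRingEnd ℂ) (1 - b g - c g + d g)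
    = (Nat.card G : ℂ)⁻¹ * ∑ g : G, θ g * (starRingEnd ℂ) 1
      - (Nat.card G : ℂ)⁻¹ * ∑ g : G, θ g * (starRingEnd ℂ) (b g)
      - (Nat.card G : ℂ)⁻¹ * ∑ g : G, θ g * (starRingEnd ℂ) (c g)
      + (Nat.card G : ℂ)⁻¹ * ∑ g : G, θ g * (starRingEnd ℂ) (d g)
  simp only [map_add, map_sub, mul_add, mul_sub, Finset.sum_add_distrib, Finset.sum_sub_distrib]

/-- Let W₁, W₂ ≤ G form a self-normalising cyclic subgroup W = W₁ ⊔ W₂ and χ an orthonormal family of irreducible characters of G up to sign, indexed by the linear characters ω of W, with χ_1 = 1, χ_ω = ω on W outside W₁ ∪ W₂, and the induction identity for (1 − φ)(1 − ψ). Let θ be a class function of G vanishing at every element of W outside W₁ ∪ W₂. For linear characters φ, φ' of W trivial on W₂ and ψ, ψ' trivial on W₁, the inner products a(ω) = ⟨θ, χ ω⟩ satisfy a(φψ) + a(φ'ψ') = a(φψ') + a(φ'ψ). -/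
theorem result {G : Type*} [Group G] [Fintype G] (W₁ W₂ : Subgroup G) (hW : Cfsg.IsSelfNormalizingCyclic W₁ W₂) (χ : (↥(W₁ ⊔ W₂) →* ℂˣ) → (G → ℂ)) (hχ : Cfsg.IsCyclicTIFamily W₁ W₂ χ) (θ : G → ℂ) (hθ : Cfsg.IsClassFunction G θ) (hθV : ∀ w : ↥(W₁ ⊔ W₂), (w : G) ∉ W₁ → (w : G) ∉ W₂ → θ w = 0) (φ φ' ψ ψ' : ↥(W₁ ⊔ W₂) →* ℂˣ) (hφ₂ : ∀ w : ↥(W₁ ⊔ W₂), (w : G) ∈ W₂ → φ w = 1 ∧ φ' w = 1) (hψ₁ : ∀ w : ↥(W₁ ⊔ W₂), (w : G) ∈ W₁ → ψ w = 1 ∧ ψ' w = 1) : Cfsg.classInner θ (χ (φ * ψ)) + Cfsg.classInner θ (χ (φ' * ψ')) = Cfsg.classInner θ (χ (φ * ψ')) + Cfsg.classInner θ (χ (φ' * ψ)) := by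
  have key : ∀ φ ψ : ↥(W₁ ⊔ W₂) →* ℂˣ, (∀ w : ↥(W₁ ⊔ W₂), (w : G) ∈ W₂ → φ w = 1) →
      (∀ w : ↥(W₁ ⊔ W₂), (w : G) ∈ W₁ → ψ w = 1) →
      classInner θ (χ (φ * ψ)) = classInner θ (χ φ) + classInner θ (χ ψ) - classInner θ (χ 1) := by
    intro φ ψ h2 h1
    by_cases hφ1 : φ = 1
    · subst hφ1
      have e : (1 : ↥(W₁ ⊔ W₂) →* ℂˣ) * ψ = ψ := one_mul ψ
      rw [e]; ring
    by_cases hψ1 : ψ = 1
    · subst hψ1
      have e : φ * (1 : ↥(W₁ ⊔ W₂) →* ℂˣ) = φ := mul_one φ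
      rw [e]; ring
    have hind := hχ.induced_eq φ ψ hφ1 hψ1 h2 h1
    have hz : classInner θ (indFun (W₁ ⊔ W₂)
        (fun w => 1 - (φ w : ℂ) - (ψ w : ℂ) + (φ w : ℂ) * (ψ w : ℂ))) = 0 := by
      apply inner_ind_zero _ θ hθ
      intro w
      by_cases hw1 : (w : G) ∈ W₁
      · right
        show 1 - (φ w : ℂ) - (ψ w : ℂ) + (φ w : ℂ) * (ψ w : ℂ) = 0
        rw [h1 w hw1]; simp only [Units.val_one]; ring
      by_cases hw2 : (w : G) ∈ W₂
      · right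
        show 1 - (φ w : ℂ) - (ψ w : ℂ) + (φ w : ℂ) * (ψ w : ℂ) = 0
        rw [h2 w hw2]; simp only [Units.val_one]; ring
      · left; exact hθV w hw1 hw2
    rw [hind] at hz
    have h3 := inner_comb θ (χ φ) (χ ψ) (χ (φ * ψ))
    rw [hz] at h3
    rw [hχ.map_one]
    linear_combination -h3
  have e1 := key φ ψ (fun w hw => (hφ₂ w hw).1) (fun w hw => (hψ₁ w hw).1)
  have e2 := key φ' ψ' (fun w hw => (hφ₂ w hw).2) (fun w hw => (hψ₁ w hw).2)
  have e3 := key φ ψ' (fun w hw => (hφ₂ w hw).1) (fun w hw => (hψ₁ w hw).2)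
  have e4 := key φ' ψ (fun w hw => (hφ₂ w hw).2) (fun w hw => (hψ₁ w hw).1)
  rw [e1, e2, e3, e4]; ring

end Cfsg.Agent.S1506
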