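import Mathlib
import Cfsg.Statements.S1507
import Cfsg.Agent.S1506
import Cfsg.Agent.S1505
import Cfsg.Agent.S1503

set_option autoImplicit false

open Cfsg

namespace Cfsg.Agent.S1507

theorem comb {I J : Type*} [Fintype I] [Fintype J] [DecidableEq I] [DecidableEq J]
    (b : I → J → ℂ)
    (R : ∀ i i' j j', b i j + b i' j' = b i j' + b i' j)
    (hJ : Fintype.card I + 2 ≤ Fintype.card J)
    (hN : ∀ T : Finset (I × J), (∀ p ∈ T, b p.1 p.2 ≠ 0) → T.card < 2 * Fintype.card I) :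
    (∀ i j, b i j = 0) ∨ (∃ j₀ c, ∀ i j, b i j = if j = j₀ then c else 0) ∨
      (∃ i₀ c, ∀ i j, b i j = if i = i₀ then c else 0) := by
  by_cases hA : ∀ i i' j, b i j = b i' j
  · by_cases hZ : ∀ i j, b i j = 0
    · left; exact hZ
    · push Not at hZ
      obtain ⟨i₀, j₁, h1⟩ := hZ
      by_cases hU : ∀ j, j ≠ j₁ → b i₀ j = 0
      · right; left
        refine ⟨j₁, b i₀ j₁, fun i j => ?_⟩
        by_cases hj : j = j₁
        · rw [if_pos hj, hj]; exact hA i i₀ j₁
        · rw [if_neg hj, hA i i₀ j]; exact hU j hj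
      · push Not at hU
        obtain ⟨j₂, hj, h2⟩ := hU
        exfalso
        have := hN ((Finset.univ.image (fun i : I => (i, j₁))) ∪
          (Finset.univ.image (fun i : I => (i, j₂)))) (by
          intro p hp
          rw [Finset.mem_union, Finset.mem_image, Finset.mem_image] at hp
          rcases hp with ⟨i, -, rfl⟩ | ⟨i, -, rfl⟩
          · show b i j₁ ≠ 0
            rw [hA i i₀ j₁]; exact h1
          · show b i j₂ ≠ 0
            rw [hA i i₀ j₂]; exact h2)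
        rw [Finset.card_union_of_disjoint (by
            rw [Finset.disjoint_left]
            intro p hp hp'
            rw [Finset.mem_image] at hp hp'
            obtain ⟨i, -, rfl⟩ := hp
            obtain ⟨i', -, e⟩ := hp'
            exact hj (congrArg Prod.snd e)),
          Finset.card_image_of_injective _ (fun x y e => congrArg Prod.fst e),
          Finset.card_image_of_injective _ (fun x y e => congrArg Prod.fst e),
          Finset.card_univ] at this
        omega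
  · push Not at hA
    obtain ⟨i₁, i₂, js, hne⟩ := hA
    have hrow : ∀ j, b i₁ j ≠ b i₂ j := by
      intro j e
      apply hne
      have := R i₁ i₂ js j
      rw [e] at this
      linear_combination this
    by_cases hB : ∀ i j j', b i j = b i j'
    · by_cases hZ : ∀ i j, b i j = 0
      · left; exact hZ
      · push Not at hZ
        obtain ⟨ia, j₀, h1⟩ := hZ
        by_cases hU : ∀ i, i ≠ ia → b i j₀ = 0
        · right; right
          refine ⟨ia, b ia j₀, fun i j => ?_⟩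
          by_cases hi : i = ia
          · rw [if_pos hi, hi]; exact hB ia j j₀
          · rw [if_neg hi, hB i j j₀]; exact hU i hi
        · push Not at hU
          obtain ⟨ib, hi, h2⟩ := hU
          exfalso
          have := hN ((Finset.univ.image (fun j : J => (ia, j))) ∪
            (Finset.univ.image (fun j : J => (ib, j)))) (by
            intro p hp
            rw [Finset.mem_union, Finset.mem_image, Finset.mem_image] at hp
            rcases hp with ⟨j, -, rfl⟩ | ⟨j, -, rfl⟩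
            · show b ia j ≠ 0
              rw [hB ia j j₀]; exact h1
            · show b ib j ≠ 0
              rw [hB ib j j₀]; exact h2)
          rw [Finset.card_union_of_disjoint (by
              rw [Finset.disjoint_left]
              intro p hp hp'
              rw [Finset.mem_image] at hp hp'
              obtain ⟨j, -, rfl⟩ := hp
              obtain ⟨j', -, e⟩ := hp'
              exact hi (congrArg Prod.fst e)),
            Finset.card_image_of_injective _ (fun x y e => congrArg Prod.snd e),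
            Finset.card_image_of_injective _ (fun x y e => congrArg Prod.snd e),
            Finset.card_univ] at this
          omega
    · push Not at hB
      obtain ⟨is, j₁, j₂, hne2⟩ := hB
      have hcol : ∀ i, b i j₁ ≠ b i j₂ := by
        intro i e
        apply hne2
        have := R is i j₁ j₂
        rw [e] at this
        linear_combination this
      exfalso
      have hi12 : i₁ ≠ i₂ := by
        rintro rfl
        exact hrow j₁ rfl
      have hf : ∀ j, ∃ i, (i = i₁ ∨ i = i₂) ∧ b i j ≠ 0 := by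
        intro j
        by_cases h : b i₁ j = 0
        · exact ⟨i₂, Or.inr rfl, fun h' => hrow j (by rw [h, h'])⟩
        · exact ⟨i₁, Or.inl rfl, h⟩
      have hg : ∀ i, ∃ j, b i j ≠ 0 := by
        intro i
        by_cases h : b i j₁ = 0
        · exact ⟨j₂, fun h' => hcol i (by rw [h, h'])⟩
        · exact ⟨j₁, h⟩
      choose f hf1 hf2 using hf
      choose g hg1 using hg
      have := hN ((Finset.univ.image (fun j : J => (f j, j))) ∪
        (((Finset.univ.erase i₁).erase i₂).image (fun i : I => (i, g i)))) (by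
        intro p hp
        rw [Finset.mem_union, Finset.mem_image, Finset.mem_image] at hp
        rcases hp with ⟨j, -, rfl⟩ | ⟨i, -, rfl⟩
        · exact hf2 j
        · exact hg1 i)
      rw [Finset.card_union_of_disjoint (by
          rw [Finset.disjoint_left]
          intro p hp hp'
          rw [Finset.mem_image] at hp hp'
          obtain ⟨j, -, rfl⟩ := hp
          obtain ⟨i, hi, e⟩ := hp'
          rw [Finset.mem_erase, Finset.mem_erase] at hi
          have e1 : i = f j := congrArg Prod.fst e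
          rcases hf1 j with h | h
          · exact hi.2.1 (e1.trans h)
          · exact hi.1 (e1.trans h)),
        Finset.card_image_of_injective _ (fun x y e => congrArg Prod.snd e),
        Finset.card_image_of_injective _ (fun x y e => congrArg Prod.fst e),
        Finset.card_erase_of_mem (by
          rw [Finset.mem_erase]; exact ⟨hi12.symm, Finset.mem_univ _⟩),
        Finset.card_erase_of_mem (Finset.mem_univ _), Finset.card_univ, Finset.card_univ] at this
      omega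

theorem exists_prod {G : Type*} [Group G] (W₁ W₂ : Subgroup G)
    (hc : ∀ a ∈ W₁, ∀ b ∈ W₂, a * b = b * a) (w : G) (hw : w ∈ W₁ ⊔ W₂) :
    ∃ a ∈ W₁, ∃ b ∈ W₂, w = a * b := by
  let S : Subgroup G :=
    { carrier := {x | ∃ a ∈ W₁, ∃ b ∈ W₂, x = a * b}
      mul_mem' := by
        rintro x y ⟨a, ha, b, hb, rfl⟩ ⟨a', ha', b', hb', rfl⟩
        refine ⟨a * a', W₁.mul_mem ha ha', b * b', W₂.mul_mem hb hb', ?_⟩
        calc a * b * (a' * b') = a * (b * a') * b' := by group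
          _ = a * (a' * b) * b' := by rw [hc a' ha' b hb]
          _ = a * a' * (b * b') := by group
      one_mem' := ⟨1, W₁.one_mem, 1, W₂.one_mem, (mul_one 1).symm⟩
      inv_mem' := by
        rintro x ⟨a, ha, b, hb, rfl⟩
        refine ⟨a⁻¹, W₁.inv_mem ha, b⁻¹, W₂.inv_mem hb, ?_⟩
        rw [mul_inv_rev]
        exact (hc a⁻¹ (W₁.inv_mem ha) b⁻¹ (W₂.inv_mem hb)).symm }
  have hle : W₁ ⊔ W₂ ≤ S :=
    sup_le (fun a ha => ⟨a, ha, 1, W₂.one_mem, (mul_one a).symm⟩)
      (fun b hb => ⟨1, W₁.one_mem, b, hb, (one_mul b).symm⟩)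
  exact hle hw

theorem exists_e {G : Type*} [Group G] (W₁ W₂ : Subgroup G)
    (hdisj : W₁ ⊓ W₂ = ⊥) (hc : ∀ a ∈ W₁, ∀ b ∈ W₂, a * b = b * a) :
    ∃ e : (↥W₁ →* ℂˣ) → (↥W₂ →* ℂˣ) → (↥(W₁ ⊔ W₂) →* ℂˣ),
      (∀ α β (w : ↥(W₁ ⊔ W₂)) (hw : (w : G) ∈ W₁), e α β w = α ⟨w, hw⟩) ∧
      (∀ α β (w : ↥(W₁ ⊔ W₂)) (hw : (w : G) ∈ W₂), e α β w = β ⟨w, hw⟩) := by
  let E : ↥W₁ × ↥W₂ →* ↥(W₁ ⊔ W₂) := MonoidHom.mk'
    (fun p => ⟨(p.1 : G) * (p.2 : G),
      mul_mem (Subgroup.mem_sup_left p.1.2) (Subgroup.mem_sup_right p.2.2)⟩) (by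
    intro p q
    apply Subtype.ext
    show ((p.1 : G) * (q.1 : G)) * ((p.2 : G) * (q.2 : G))
      = ((p.1 : G) * (p.2 : G)) * ((q.1 : G) * (q.2 : G))
    have := hc q.1 q.1.2 p.2 p.2.2
    calc ((p.1 : G) * (q.1 : G)) * ((p.2 : G) * (q.2 : G))
        = (p.1 : G) * ((q.1 : G) * (p.2 : G)) * (q.2 : G) := by group
      _ = (p.1 : G) * ((p.2 : G) * (q.1 : G)) * (q.2 : G) := by rw [this]
      _ = _ := by group)
  have hE : ∀ p, ((E p : ↥(W₁ ⊔ W₂)) : G) = (p.1 : G) * (p.2 : G) := fun p => rfl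
  have hinj : Function.Injective E := by
    intro p q h
    have h' : (p.1 : G) * (p.2 : G) = (q.1 : G) * (q.2 : G) := by rw [← hE, ← hE, h]
    have h1 : (q.1 : G)⁻¹ * (p.1 : G) = (q.2 : G) * (p.2 : G)⁻¹ := by
      calc (q.1 : G)⁻¹ * (p.1 : G)
          = (q.1 : G)⁻¹ * ((p.1 : G) * (p.2 : G)) * (p.2 : G)⁻¹ := by group
        _ = (q.1 : G)⁻¹ * ((q.1 : G) * (q.2 : G)) * (p.2 : G)⁻¹ := by rw [h']
        _ = _ := by group
    have h2 : (q.1 : G)⁻¹ * (p.1 : G) ∈ W₁ ⊓ W₂ :=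
      ⟨W₁.mul_mem (W₁.inv_mem q.1.2) p.1.2, by
        rw [h1]; exact W₂.mul_mem q.2.2 (W₂.inv_mem p.2.2)⟩
    rw [hdisj, Subgroup.mem_bot, inv_mul_eq_one] at h2
    have e1 : (p.1 : G) = q.1 := h2.symm
    have e2 : (p.2 : G) = q.2 := by
      rw [e1] at h'; exact mul_left_cancel h'
    exact Prod.ext (Subtype.ext e1) (Subtype.ext e2)
  have hsurj : Function.Surjective E := by
    intro w
    obtain ⟨a, ha, b, hb, hab⟩ := exists_prod W₁ W₂ hc w w.2
    exact ⟨(⟨a, ha⟩, ⟨b, hb⟩), Subtype.ext hab.symm⟩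
  let Ee : ↥W₁ × ↥W₂ ≃* ↥(W₁ ⊔ W₂) := MulEquiv.ofBijective E ⟨hinj, hsurj⟩
  refine ⟨fun α β => (α.coprod β).comp Ee.symm.toMonoidHom, ?_, ?_⟩
  · intro α β w hw
    have h0 : Ee.symm w = (⟨w, hw⟩, 1) := by
      rw [MulEquiv.symm_apply_eq]
      apply Subtype.ext
      show (w : G) = (w : G) * ((1 : ↥W₂) : G)
      rw [OneMemClass.coe_one, mul_one]
    show (α.coprod β) (Ee.symm w) = α ⟨w, hw⟩
    rw [h0, MonoidHom.coprod_apply]
    show α ⟨w, hw⟩ * β 1 = α ⟨w, hw⟩
    rw [map_one, mul_one]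
  · intro α β w hw
    have h0 : Ee.symm w = (1, ⟨w, hw⟩) := by
      rw [MulEquiv.symm_apply_eq]
      apply Subtype.ext
      show (w : G) = ((1 : ↥W₁) : G) * (w : G)
      rw [OneMemClass.coe_one, one_mul]
    show (α.coprod β) (Ee.symm w) = β ⟨w, hw⟩
    rw [h0, MonoidHom.coprod_apply]
    show α 1 * β ⟨w, hw⟩ = β ⟨w, hw⟩
    rw [map_one, one_mul]

theorem card_dual_comm (Q : Type*) [CommGroup Q] [Finite Q] :
    Nat.card (Q →* ℂˣ) = Nat.card Q := by
  haveI : NeZero ((Monoid.exponent Q : ℕ) : ℂ) :=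
    ⟨Nat.cast_ne_zero.mpr Monoid.exponent_ne_zero_of_finite⟩
  exact CommGroup.card_monoidHom_of_hasEnoughRootsOfUnity Q ℂ

theorem card_dual (Q : Type*) [Group Q] [Finite Q] (hc : ∀ a b : Q, a * b = b * a) :
    Nat.card (Q →* ℂˣ) = Nat.card Q :=
  @card_dual_comm Q { ‹Group Q› with mul_comm := hc } _


open Classical in
/-- Let W₁, W₂ ≤ G form a self-normalising cyclic subgroup W = W₁ ⊔ W₂ of odd order with Nat.card W₁ < Nat.card W₂, and χ an orthonormal family of irreducible characters of G up to sign, indexed by the linear characters ω of W, with χ_1 = 1, χ_ω = ω on W outside W₁ ∪ W₂, and the induction identity for (1 − φ)(1 − ψ). Let θ be a class function of G vanishing on W outside W₁ ∪ W₂, and suppose fewer than 2 · Nat.card W₁ linear characters ω of W have ⟨θ, χ ω⟩ ≠ 0. Then one of: all ⟨θ, χ ω⟩ vanish; or there are ψ₀ and a with ⟨θ, χ ω⟩ = a when ω ψ₀⁻¹ is trivial on W₂ and 0 otherwise; or there are φ₀ and a with ⟨θ, χ ω⟩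 = a when ω φ₀⁻¹ is trivial on W₁ and 0 otherwise. -/
theorem result {G : Type*} [Group G] [Fintype G] (W₁ W₂ : Subgroup G) (hW : Cfsg.IsSelfNormalizingCyclic W₁ W₂) (hodd : Odd (Nat.card ↥(W₁ ⊔ W₂))) (χ : (↥(W₁ ⊔ W₂) →* ℂˣ) → (G → ℂ)) (hχ : Cfsg.IsCyclicTIFamily W₁ W₂ χ) (hlt : Nat.card W₁ < Nat.card W₂) (θ : G → ℂ) (hθ : Cfsg.IsClassFunction G θ) (hθV : ∀ w : ↥(W₁ ⊔ W₂), (w : G) ∉ W₁ → (w : G) ∉ W₂ → θ w = 0) (hfew : Nat.card {ω : ↥(W₁ ⊔ W₂) →* ℂˣ // Cfsg.classInner θ (χ ω) ≠ 0} < 2 * Nat.card W₁) : (∀ ω, Cfsg.classInner θ (χ ω) = 0) ∨ (∃ (ψ₀ : ↥(W₁ ⊔ W₂) →* ℂˣ) (a : ℂ), ∀ ω, Cfsg.classInner θ (χ ω) = if (∀ w : ↥(W₁ ⊔ W₂), (w : G) ∈ W₂ → (ω * ψ₀⁻¹) w = 1) then a else 0) ∨ (∃ (φ₀ : ↥(W₁ ⊔ W₂) →* ℂˣ) (a : ℂ), ∀ ω, Cfsg.classInner θ (χ ω) = if (∀ w : ↥(W₁ ⊔ W₂), (w : G) ∈ W₁ → (ω * φ₀⁻¹) w = 1) then a else 0) := by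
  classical
  have hW' := hW
  obtain ⟨-, -, hdisj, hc, -, -⟩ := hW'
  obtain ⟨e, he1, he2⟩ := exists_e W₁ W₂ hdisj hc
  haveI : Finite (↥W₁ →* ℂˣ) := Cfsg.Agent.S1503.finite_dual _
  haveI : Finite (↥W₂ →* ℂˣ) := Cfsg.Agent.S1503.finite_dual _
  haveI : Finite (↥(W₁ ⊔ W₂) →* ℂˣ) := Cfsg.Agent.S1503.finite_dual _
  letI : Fintype (↥W₁ →* ℂˣ) := Fintype.ofFinite _
  letI : Fintype (↥W₂ →* ℂˣ) := Fintype.ofFinite _
  have hsurj : ∀ ω : ↥(W₁ ⊔ W₂) →* ℂˣ, ∃ α β, ω = e α β := by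
    intro ω
    refine ⟨ω.comp (Subgroup.inclusion le_sup_left), ω.comp (Subgroup.inclusion le_sup_right), ?_⟩
    apply Cfsg.Agent.S1505.eq_of_agree W₁ W₂
    · intro w hw
      rw [he1 _ _ w hw]
      rfl
    · intro w hw
      rw [he2 _ _ w hw]
      rfl
  have hinj1 : ∀ α β α' β', e α β = e α' β' → α = α' := by
    intro α β α' β' h
    refine MonoidHom.ext fun x => ?_
    have h1 := he1 α β ⟨x, Subgroup.mem_sup_left x.2⟩ x.2
    have h2 := he1 α' β' ⟨x, Subgroup.mem_sup_left x.2⟩ x.2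
    rw [h] at h1
    exact h1.symm.trans h2
  have hinj2 : ∀ α β α' β', e α β = e α' β' → β = β' := by
    intro α β α' β' h
    refine MonoidHom.ext fun x => ?_
    have h1 := he2 α β ⟨x, Subgroup.mem_sup_right x.2⟩ x.2
    have h2 := he2 α' β' ⟨x, Subgroup.mem_sup_right x.2⟩ x.2
    rw [h] at h1
    exact h1.symm.trans h2
  have hsplit : ∀ α β, e α β = e α 1 * e 1 β := by
    intro α β
    apply Cfsg.Agent.S1505.eq_of_agree W₁ W₂
    · intro w hw
      rw [MonoidHom.mul_apply, he1 _ _ w hw, he1 _ _ w hw, he1 _ _ w hw, MonoidHom.one_apply,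
        mul_one]
    · intro w hw
      rw [MonoidHom.mul_apply, he2 _ _ w hw, he2 _ _ w hw, he2 _ _ w hw, MonoidHom.one_apply,
        one_mul]
  have R : ∀ α α' β β', Cfsg.classInner θ (χ (e α β)) + Cfsg.classInner θ (χ (e α' β'))
      = Cfsg.classInner θ (χ (e α β')) + Cfsg.classInner θ (χ (e α' β)) := by
    intro α α' β β'
    have := Cfsg.Agent.S1506.result W₁ W₂ hW χ hχ θ hθ hθV (e α 1) (e α' 1) (e 1 β) (e 1 β')
      (fun w hw => ⟨by rw [he2 _ _ w hw]; rfl, by rw [he2 _ _ w hw]; rfl⟩)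
      (fun w hw => ⟨by rw [he1 _ _ w hw]; rfl, by rw [he1 _ _ w hw]; rfl⟩)
    rw [← hsplit, ← hsplit, ← hsplit, ← hsplit] at this
    exact this
  have hcomm := Cfsg.Agent.S1505.comm_of_cyc W₁ W₂ hW
  have hcard1 : Fintype.card (↥W₁ →* ℂˣ) = Nat.card W₁ := by
    rw [← Nat.card_eq_fintype_card]
    exact card_dual ↥W₁ (fun a b => Subtype.ext
      (hcomm a b (Subgroup.mem_sup_left a.2) (Subgroup.mem_sup_left b.2)))
  have hcard2 : Fintype.card (↥W₂ →* ℂˣ) = Nat.card W₂ := by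
    rw [← Nat.card_eq_fintype_card]
    exact card_dual ↥W₂ (fun a b => Subtype.ext
      (hcomm a b (Subgroup.mem_sup_right a.2) (Subgroup.mem_sup_right b.2)))
  have hJ : Fintype.card (↥W₁ →* ℂˣ) + 2 ≤ Fintype.card (↥W₂ →* ℂˣ) := by
    have hd1 : Nat.card ↥W₁ ∣ Nat.card ↥(W₁ ⊔ W₂) := Subgroup.card_dvd_of_le le_sup_left
    have hd2 : Nat.card ↥W₂ ∣ Nat.card ↥(W₁ ⊔ W₂) := Subgroup.card_dvd_of_le le_sup_right
    obtain ⟨k1, hk1⟩ := hodd.of_dvd_nat hd1
    obtain ⟨k2, hk2⟩ := hodd.of_dvd_nat hd2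
    rw [hcard1, hcard2]
    omega
  have hN : ∀ T : Finset ((↥W₁ →* ℂˣ) × (↥W₂ →* ℂˣ)),
      (∀ p ∈ T, Cfsg.classInner θ (χ (e p.1 p.2)) ≠ 0) →
      T.card < 2 * Fintype.card (↥W₁ →* ℂˣ) := by
    intro T hT
    rw [hcard1]
    refine lt_of_le_of_lt ?_ hfew
    have hinj : Function.Injective (fun p : ↥T =>
        (⟨e p.1.1 p.1.2, hT p.1 p.2⟩ :
          {ω : ↥(W₁ ⊔ W₂) →* ℂˣ // Cfsg.classInner θ (χ ω) ≠ 0})) := by
      intro p q h
      have h' : e p.1.1 p.1.2 = e q.1.1 q.1.2 := congrArg Subtype.val h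
      exact Subtype.ext (Prod.ext (hinj1 _ _ _ _ h') (hinj2 _ _ _ _ h'))
    have := Nat.card_le_card_of_injective _ hinj
    rwa [Nat.card_eq_fintype_card, Fintype.card_coe] at this
  rcases comb (fun α β => Cfsg.classInner θ (χ (e α β))) R hJ hN with h | ⟨β₀, c, h⟩ | ⟨α₀, c, h⟩
  · left
    intro ω
    obtain ⟨α, β, rfl⟩ := hsurj ω
    exact h α β
  · right; left
    refine ⟨e 1 β₀, c, fun ω => ?_⟩
    obtain ⟨α, β, rfl⟩ := hsurj ω
    have key : (∀ w : ↥(W₁ ⊔ W₂), (w : G) ∈ W₂ → (e α β * (e 1 β₀)⁻¹) w = 1) ↔ β = β₀ := by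
      constructor
      · intro hh
        refine MonoidHom.ext fun x => ?_
        have h3 := hh ⟨x, Subgroup.mem_sup_right x.2⟩ x.2
        rw [MonoidHom.mul_apply, MonoidHom.inv_apply, he2 _ _ _ x.2, he2 _ _ _ x.2,
          mul_inv_eq_one] at h3
        exact h3
      · rintro rfl w hw
        rw [MonoidHom.mul_apply, MonoidHom.inv_apply, he2 _ _ w hw, he2 _ _ w hw, mul_inv_cancel]
    have h4 := h α β
    by_cases hb : β = β₀
    · rw [if_pos (key.mpr hb)]
      rw [h4, if_pos hb]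
    · rw [if_neg (fun hh => hb (key.mp hh))]
      rw [h4, if_neg hb]
  · right; right
    refine ⟨e α₀ 1, c, fun ω => ?_⟩
    obtain ⟨α, β, rfl⟩ := hsurj ω
    have key : (∀ w : ↥(W₁ ⊔ W₂), (w : G) ∈ W₁ → (e α β * (e α₀ 1)⁻¹) w = 1) ↔ α = α₀ := by
      constructor
      · intro hh
        refine MonoidHom.ext fun x => ?_
        have h3 := hh ⟨x, Subgroup.mem_sup_left x.2⟩ x.2
        rw [MonoidHom.mul_apply, MonoidHom.inv_apply, he1 _ _ _ x.2, he1 _ _ _ x.2,
          mul_inv_eq_one] at h3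
        exact h3
      · rintro rfl w hw
        rw [MonoidHom.mul_apply, MonoidHom.inv_apply, he1 _ _ w hw, he1 _ _ w hw, mul_inv_cancel]
    have h4 := h α β
    by_cases hb : α = α₀
    · rw [if_pos (key.mpr hb)]
      rw [h4, if_pos hb]
    · rw [if_neg (fun hh => hb (key.mp hh))]
      rw [h4, if_neg hb]

end Cfsg.Agent.S1507
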