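import Cfsg.Statements.S1509
import Mathlib
import Cfsg.Agent.Helper8.Inner

set_option autoImplicit false
open Cfsg

namespace Cfsg.Agent.S1509

open Cfsg.Agent.Helper24 Cfsg.Agent.Helper8

/-- Let α, β, γ, δ be functions on a finite group X each of which is an irreducible character or the negative of one, and u, v nonzero real numbers. Suppose ⟨α, β⟩ = ⟨γ, δ⟩ = 0, ⟨α − β, uγ − vδ⟩ = 0, α 1 = β 1 and u γ 1 = v δ 1. Then also ⟨α, γ⟩ = ⟨α, δ⟩ = ⟨β, γ⟩ = ⟨β, δ⟩ = 0. -/
theorem result {X : Type*} [Group X] [Fintype X] (α β γ δ : X → ℂ) (hα : Cfsg.IsIrrCharacter X α ∨ Cfsg.IsIrrCharacter X (-α)) (hβ : Cfsg.IsIrrCharacter X β ∨ Cfsg.IsIrrCharacter X (-β)) (hγ : Cfsg.IsIrrCharacter X γ ∨ Cfsg.IsIrrCharacter X (-γ)) (hδ : Cfsg.IsIrrCharacter X δ ∨ Cfsg.IsIrrCharacter X (-δ)) (u v : ℝ) (hu : u ≠ 0) (hv : v ≠ 0) (hab : Cfsg.classInner α β = 0) (hcd : Cfsg.classInner γ δ = 0) (hmix : Cfsg.classInner (α - β) ((u : ℂ) • γ - (v : ℂ) • δ) = 0) (h1 : α 1 = β 1)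 (h2 : (u : ℂ) * γ 1 = (v : ℂ) * δ 1) : Cfsg.classInner α γ = 0 ∧ Cfsg.classInner α δ = 0 ∧ Cfsg.classInner β γ = 0 ∧ Cfsg.classInner β δ = 0 := by
  classical
  obtain ⟨a, A, ha, rfl⟩ := signed_irr α hα
  obtain ⟨b, B, hb, rfl⟩ := signed_irr β hβ
  obtain ⟨c, C, hc, rfl⟩ := signed_irr γ hγ
  obtain ⟨d, D, hd, rfl⟩ := signed_irr δ hδ
  have ha0 : a ≠ 0 := by rcases ha with rfl | rfl <;> norm_num
  have hc0 : c ≠ 0 := by rcases hc with rfl | rfl <;> norm_num
  have hd0 : d ≠ 0 := by rcases hd with rfl | rfl <;> norm_num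
  have hbb : starRingEnd ℂ b = b := by rcases hb with rfl | rfl <;> simp
  have hcc : starRingEnd ℂ c = c := by rcases hc with rfl | rfl <;> simp
  have hdd : starRingEnd ℂ d = d := by rcases hd with rfl | rfl <;> simp
  rw [inner_signed a b A B hbb] at hab
  rw [inner_signed c d C D hdd] at hcd
  rw [inner_signed a c A C hcc, inner_signed a d A D hdd, inner_signed b c B C hcc,
    inner_signed b d B D hdd]
  simp only [classInner_sub_left, classInner_sub_right, classInner_smul_right,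
    classInner_smul_left, Complex.conj_ofReal, irr_orthonormal, hcc, hdd] at hmix
  simp only [Pi.smul_apply, smul_eq_mul] at h1 h2
  obtain ⟨hab', hxAB⟩ := sign_eq a b ha hb _ _ (irr_one_eq_natCast A) (irr_one_eq_natCast B)
    (irr_one_ne_zero A) (irr_one_ne_zero B) h1
  subst hab'
  have hxA0 := irr_one_ne_zero A
  have hAB : A ≠ B := by
    intro h
    rw [if_pos h] at hab
    exact mul_ne_zero (mul_ne_zero ha0 ha0) one_ne_zero hab
  have hCD : C ≠ D := by
    intro h
    rw [if_pos h] at hcd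
    exact mul_ne_zero (mul_ne_zero hc0 hd0) one_ne_zero hcd
  have hu' : (u : ℂ) ≠ 0 := Complex.ofReal_ne_zero.mpr hu
  have hv' : (v : ℂ) ≠ 0 := Complex.ofReal_ne_zero.mpr hv
  have key : (A = C ∧ B = D) ∨ (A = D ∧ B = C) → False := by
    rintro (⟨e1, e4⟩ | ⟨e2, e3⟩)
    · have e2 : A ≠ D := fun h => hCD (e1.symm.trans h)
      have e3 : B ≠ C := fun h => hAB (e1.trans h.symm)
      rw [if_pos e1, if_neg e2, if_neg e3, if_pos e4] at hmix
      have hxC : (C : X → ℂ) 1 = (A : X → ℂ) 1 := by rw [e1]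
      have hxD : (D : X → ℂ) 1 = (B : X → ℂ) 1 := by rw [e4]
      rw [hxC, hxD, ← hxAB] at h2
      have h2c : (u : ℂ) * c = v * d := mul_right_cancel₀ hxA0 (by linear_combination h2)
      have h3 : 2 * a * (u : ℂ) * c = 0 := by linear_combination hmix + a * h2c
      exact mul_ne_zero (mul_ne_zero (mul_ne_zero two_ne_zero ha0) hu') hc0 h3
    · have e1 : A ≠ C := fun h => hCD (h.symm.trans e2)
      have e4 : B ≠ D := fun h => hAB (e2.trans h.symm)
      rw [if_neg e1, if_pos e2, if_pos e3, if_neg e4] at hmix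
      have hxC : (C : X → ℂ) 1 = (B : X → ℂ) 1 := by rw [e3]
      have hxD : (D : X → ℂ) 1 = (A : X → ℂ) 1 := by rw [e2]
      rw [hxC, hxD, ← hxAB] at h2
      have h2c : (u : ℂ) * c = v * d := mul_right_cancel₀ hxA0 (by linear_combination h2)
      have h3 : 2 * a * (u : ℂ) * c = 0 := by linear_combination -hmix + a * h2c
      exact mul_ne_zero (mul_ne_zero (mul_ne_zero two_ne_zero ha0) hu') hc0 h3
  have hAC : A ≠ C := by
    intro e1
    have e2 : A ≠ D := fun h => hCD (e1.symm.trans h)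
    have e3 : B ≠ C := fun h => hAB (e1.trans h.symm)
    by_cases e4 : B = D
    · exact key (Or.inl ⟨e1, e4⟩)
    · rw [if_pos e1, if_neg e2, if_neg e3, if_neg e4] at hmix
      have h3 : (u : ℂ) * a * c = 0 := by linear_combination hmix
      exact mul_ne_zero (mul_ne_zero hu' ha0) hc0 h3
  have hAD : A ≠ D := by
    intro e2
    have e4 : B ≠ D := fun h => hAB (e2.trans h.symm)
    by_cases e3 : B = C
    · exact key (Or.inr ⟨e2, e3⟩)
    · rw [if_neg hAC, if_pos e2, if_neg e3, if_neg e4] at hmix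
      have h3 : (v : ℂ) * a * d = 0 := by linear_combination -hmix
      exact mul_ne_zero (mul_ne_zero hv' ha0) hd0 h3
  have hBC : B ≠ C := by
    intro e3
    have e4 : B ≠ D := fun h => hCD (e3.symm.trans h)
    rw [if_neg hAC, if_neg hAD, if_pos e3, if_neg e4] at hmix
    have h3 : (u : ℂ) * a * c = 0 := by linear_combination -hmix
    exact mul_ne_zero (mul_ne_zero hu' ha0) hc0 h3
  have hBD : B ≠ D := by
    intro e4
    rw [if_neg hAC, if_neg hAD, if_neg hBC, if_pos e4] at hmix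
    have h3 : (v : ℂ) * a * d = 0 := by linear_combination hmix
    exact mul_ne_zero (mul_ne_zero hv' ha0) hd0 h3
  rw [if_neg hAC, if_neg hAD, if_neg hBC, if_neg hBD]
  simp

end Cfsg.Agent.S1509
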