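import Cfsg.Statements.S1510
import Mathlib

set_option autoImplicit false
open Cfsg
open scoped Pointwise

namespace Cfsg.Agent.S1510

/-- Let L be a finite group with a normal subgroup K and a nontrivial cyclic subgroup W₁ of order coprime to its index, K ⊓ W₁ = ⊥ and K ⊔ W₁ = ⊤; let W₂ ≠ ⊥ be a cyclic subgroup of K with K ⊓ C_L(x) = W₂ for every non-identity x ∈ W₁, and suppose W₁ ⊔ W₂ has odd order. Then (W₁, W₂) is a self-normalising cyclic pair in L. -/
theorem result {L : Type*} [Group L] [Fintype L] (K W₁ W₂ : Subgroup L) [hK : K.Normal] (hKW₁ : K ⊓ W₁ = ⊥) (hKW₁' : K ⊔ W₁ = ⊤) (hW₁ : W₁ ≠ ⊥) (hW₁c : IsCyclic W₁) (hHall : Nat.Coprime (Nat.card W₁) W₁.index) (hW₂ : W₂ ≠ ⊥) (hW₂c : IsCyclic W₂) (hW₂K : W₂ ≤ K) (hC : ∀ x ∈ W₁, x ≠ 1 → K ⊓ Subgroup.centralizer ({x} : Set L) = W₂) (hodd : Odd (Nat.card ↥(W₁ ⊔ W₂))) : Cfsg.IsSelfNormalizingCyclic W₁ W₂ := by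
  classical
  have hcomm : ∀ a ∈ W₁, ∀ b ∈ W₂, a * b = b * a := by
    intro a ha b hb
    by_cases ha1 : a = 1
    · rw [ha1, one_mul, mul_one]
    · have hb' : b ∈ K ⊓ Subgroup.centralizer ({a} : Set L) := by rw [hC a ha ha1]; exact hb
      exact Subgroup.mem_centralizer_iff.mp hb'.2 a (Set.mem_singleton a)
  have hmulK : ∀ g : L, ∃ k ∈ K, ∃ w ∈ W₁, g = k * w := by
    intro g
    have hg : g ∈ (↑(K ⊔ W₁) : Set L) := by rw [hKW₁']; exact Subgroup.mem_top g
    rw [Subgroup.normal_mul] at hg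
    obtain ⟨k, hk, w, hw, rfl⟩ := Set.mem_mul.mp hg
    exact ⟨k, hk, w, hw, rfl⟩
  have hcompl : Subgroup.IsComplement' K W₁ := by
    apply Subgroup.isComplement'_of_disjoint_and_mul_eq_univ (disjoint_iff.mpr hKW₁)
    rw [← Subgroup.normal_mul, hKW₁']; rfl
  have hKcard : W₁.index = Nat.card K := hcompl.index_eq_card
  have hcop : Nat.Coprime (Nat.card W₁) (Nat.card W₂) := by
    apply Nat.Coprime.coprime_dvd_right (Subgroup.card_dvd_of_le hW₂K)
    rw [← hKcard]; exact hHall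
  have hdisj : W₁ ⊓ W₂ = ⊥ := by
    rw [eq_bot_iff, ← hKW₁]
    exact le_inf (inf_le_right.trans hW₂K) inf_le_left
  have hcomm' : ∀ (m : W₁) (n : W₂), Commute (W₁.subtype m) (W₂.subtype n) :=
    fun a b => hcomm a a.2 b b.2
  let f : W₁ × W₂ →* L := MonoidHom.noncommCoprod W₁.subtype W₂.subtype hcomm'
  have hrange : f.range = W₁ ⊔ W₂ := by
    have h := MonoidHom.noncommCoprod_range W₁.subtype W₂.subtype hcomm'
    rw [Subgroup.range_subtype, Subgroup.range_subtype] at h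
    exact h
  have hcyc : IsCyclic ↥(W₁ ⊔ W₂) := by
    rw [← hrange]
    have : IsCyclic (W₁ × W₂) := Group.isCyclic_prod_iff.mpr ⟨hW₁c, hW₂c, hcop⟩
    exact isCyclic_of_surjective f.rangeRestrict f.rangeRestrict_surjective
  have hdecomp : ∀ x ∈ W₁ ⊔ W₂, ∃ a ∈ W₁, ∃ b ∈ W₂, x = a * b := by
    intro x hx
    rw [← hrange] at hx
    obtain ⟨⟨a, b⟩, rfl⟩ := hx
    exact ⟨a, a.2, b, b.2, rfl⟩
  have hWcomm : ∀ x ∈ W₁ ⊔ W₂, ∀ y ∈ W₁ ⊔ W₂, x * y = y * x := by
    intro x hx y hy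
    have := hcyc.commGroup.mul_comm ⟨x, hx⟩ ⟨y, hy⟩
    exact congrArg Subtype.val this
  have hW₁card : 1 < Nat.card W₁ := W₁.one_lt_card_iff_ne_bot.mpr hW₁
  obtain ⟨t, -, ht⟩ := Nat.exists_mul_mod_eq_one_of_coprime hcop.symm hW₁card
  have hpow : ∀ a ∈ W₁, ∀ b ∈ W₂, (a * b) ^ (Nat.card W₂ * t) = a := by
    intro a ha b hb
    have hab : Commute a b := hcomm a ha b hb
    rw [hab.mul_pow]
    have h1 : a ^ (Nat.card W₂ * t) = a := by
      have ha1 : a ^ Nat.card W₁ = 1 := by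
        have := pow_card_eq_one' (G := W₁) (x := ⟨a, ha⟩)
        exact congrArg Subtype.val this
      rw [pow_eq_pow_mod _ ha1, ht, pow_one]
    have h2 : b ^ (Nat.card W₂ * t) = 1 := by
      have hb1 : b ^ Nat.card W₂ = 1 := by
        have := pow_card_eq_one' (G := W₂) (x := ⟨b, hb⟩)
        exact congrArg Subtype.val this
      rw [pow_mul, hb1, one_pow]
    rw [h1, h2, mul_one]
  refine ⟨hW₁, hW₂, hdisj, hcomm, hcyc, ?_⟩
  intro X hX hXne
  apply le_antisymm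
  · intro g hg
    obtain ⟨x, hxX⟩ := hXne
    have hx := hX hxX
    obtain ⟨a, ha, b, hb, rfl⟩ := hdecomp x hx.1
    have hgx : g * (a * b) * g⁻¹ ∈ X := (Subgroup.mem_set_normalizer_iff.mp hg (a * b)).mp hxX
    have hy := hX hgx
    obtain ⟨a', ha', b', hb', hy_eq⟩ := hdecomp _ hy.1
    obtain ⟨k, hk, w, hw, rfl⟩ := hmulK g
    have hw_comm : w * (a * b) = (a * b) * w :=
      hWcomm w (Subgroup.mem_sup_left hw) (a * b) hx.1
    have hconj : k * w * (a * b) * (k * w)⁻¹ = k * (a * b) * k⁻¹ := by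
      rw [mul_inv_rev, mul_assoc k w, hw_comm]; group
    rw [hconj] at hy_eq
    have h1 : (k * (a * b) * k⁻¹) ^ (Nat.card W₂ * t) = k * a * k⁻¹ := by
      rw [conj_pow, hpow a ha b hb]
    have h2 : (a' * b') ^ (Nat.card W₂ * t) = a' := hpow a' ha' b' hb'
    rw [hy_eq, h2] at h1
    have h3 : a' * a⁻¹ ∈ K ⊓ W₁ := by
      refine ⟨?_, W₁.mul_mem ha' (W₁.inv_mem ha)⟩
      rw [h1]
      have e : k * a * k⁻¹ * a⁻¹ = k * (a * k⁻¹ * a⁻¹) := by group
      rw [e]
      exact K.mul_mem hk (hK.conj_mem _ (K.inv_mem hk) a)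
    rw [hKW₁, Subgroup.mem_bot] at h3
    have h4 : a' = a := mul_inv_eq_one.mp h3
    rw [h4] at h1
    have ha1 : a ≠ 1 := by
      rintro rfl
      apply hx.2
      right
      simpa using hb
    have hkC : k ∈ K ⊓ Subgroup.centralizer ({a} : Set L) := by
      refine ⟨hk, ?_⟩
      show k ∈ Subgroup.centralizer ({a} : Set L)
      rw [Subgroup.mem_centralizer_iff]
      intro z hz
      rw [Set.mem_singleton_iff] at hz
      subst hz
      calc z * k = k * z * k⁻¹ * k := by rw [← h1]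
        _ = k * z := by group
    rw [hC a ha ha1] at hkC
    exact Subgroup.mul_mem _ (Subgroup.mem_sup_right hkC) (Subgroup.mem_sup_left hw)
  · intro g hg
    rw [Subgroup.mem_set_normalizer_iff]
    intro x
    constructor
    · intro hx
      have e : g * x * g⁻¹ = x := by
        rw [hWcomm g hg x (hX hx).1]; group
      rw [e]; exact hx
    · intro hx
      have h1 := hWcomm g⁻¹ (Subgroup.inv_mem _ hg) (g * x * g⁻¹) (hX hx).1
      have e : x = g * x * g⁻¹ := by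
        calc x = g⁻¹ * (g * x * g⁻¹) * g := by group
          _ = (g * x * g⁻¹) * g⁻¹ * g := by rw [h1]
          _ = g * x * g⁻¹ := by group
      rw [e]; exact hx

end Cfsg.Agent.S1510
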