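import Cfsg.Statements.S1515
import Cfsg.Agent.Helper24.Coh

set_option autoImplicit false
open Cfsg

namespace Cfsg.Agent.S1515

/-- Let (S, τ, R) be a coherence system from L to G, χ ∈ S, and ψ an integer combination of S with ⟨χ, ψ⟩ = ⟨conj χ, ψ⟩ = 0. Let τ₁ be a linear isometry on the integer combinations of χ − ψ and χ − conj χ, with virtual-character values, agreeing with τ on integer multiples of χ − conj χ. Then the sum over α ∈ R χ of the squared absolute values of ⟨τ₁(χ − ψ), α⟩ is at least ⟨χ, χ⟩; and if ⟨τ₁(χ − ψ), τ₁(χ − ψ)⟩ minus that sum is at least ⟨ψ, ψ⟩, then the sum equals ⟨χ, χ⟩ and every ⟨τ₁(χ − ψ), α⟩ with α ∈ R χ is 0 or 1. -/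
theorem result {L : Type*} [Group L] [Fintype L] {G : Type*} [Group G] [Fintype G] (S : Set (L → ℂ)) (τ : (L → ℂ) → (G → ℂ)) (R : (L → ℂ) → Finset (G → ℂ)) (hS : Cfsg.IsCoherenceSystem S τ R) (χ : L → ℂ) (hχ : χ ∈ S) (ψ : L → ℂ) (hψ : ψ ∈ Cfsg.zspan S) (h1 : Cfsg.classInner χ ψ = 0) (h2 : Cfsg.classInner (Cfsg.conjFun χ) ψ = 0) (τ₁ : (L → ℂ) → (G → ℂ)) (hτ₁ : Cfsg.IsLinearIsometryOn (Cfsg.zspan {χ - ψ, χ - Cfsg.conjFun χ}) τ₁) (hagree : ∀ n : ℤ, τ₁ (n • (χ - Cfsg.conjFun χ)) = τ (n • (χ - Cfsg.conjFun χ))) : (Cfsg.classInner χ χ).re ≤ ∑ α ∈ R χ, ‖Cfsg.classInner (τ₁ (χ - ψ)) α‖ ^ 2 ∧ ((Cfsg.classInner ψ ψ).re ≤ (Cfsg.classInner (τ₁ (χ - ψ)) (τ₁ (χ - ψ))).re - ∑ α ∈ R χ, ‖Cfsg.classInner (τ₁ (χ - ψ)) α‖ ^ 2 → (∑ α ∈ R χ, ‖Cfsg.classInner (τ₁ (χ - ψ)) α‖ ^ 2 = (Cfsg.classInner χ χ).re ∧ ∀ α ∈ R χ, Cfsg.classInner (τ₁ (χ - ψ)) α = 0 ∨ Cfsg.classInner (τ₁ (χ - ψ)) α = 1)) := by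
  classical
  obtain ⟨a, ha, hsum, hnorm⟩ := Helper24.coherence_projection_aux S τ R hS χ hχ ψ h1 h2 τ₁ hτ₁
    (by simpa using hagree 1)
  have hterm : ∀ α ∈ R χ, ‖classInner (τ₁ (χ - ψ)) α‖ ^ 2 = ((a α : ℤ) : ℝ) ^ 2 := by
    intro α hα
    rw [ha α hα, Complex.norm_intCast, sq_abs]
  have hle : ∀ α : G → ℂ, ((a α : ℤ) : ℝ) ≤ ((a α : ℤ) : ℝ) ^ 2 := by
    intro α
    have := Int.le_self_sq (a α)
    exact_mod_cast this
  have hre : (classInner χ χ).re = ∑ α ∈ R χ, ((a α : ℤ) : ℝ) := by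
    rw [← hsum]
    simp
  rw [Finset.sum_congr rfl hterm]
  refine ⟨?_, ?_⟩
  · rw [hre]
    exact Finset.sum_le_sum fun α _ => hle α
  · intro h3
    rw [hnorm, Complex.add_re] at h3
    have h4 : ∑ α ∈ R χ, (((a α : ℤ) : ℝ) ^ 2 - ((a α : ℤ) : ℝ)) = 0 := by
      apply le_antisymm
      · rw [Finset.sum_sub_distrib, ← hre]
        linarith
      · exact Finset.sum_nonneg fun α _ => sub_nonneg.mpr (hle α)
    have h5 := (Finset.sum_eq_zero_iff_of_nonneg (fun α _ => sub_nonneg.mpr (hle α))).mp h4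
    refine ⟨?_, fun α hα => ?_⟩
    · have h4' := h4
      rw [Finset.sum_sub_distrib] at h4'
      linarith
    · have h6 := h5 α hα
      rw [ha α hα]
      have h7 : (a α) ^ 2 = a α := by
        have : ((a α : ℤ) : ℝ) ^ 2 = ((a α : ℤ) : ℝ) := by linarith
        exact_mod_cast this
      have h8 : a α * (a α - 1) = 0 := by linear_combination h7
      rcases mul_eq_zero.mp h8 with h | h
      · left
        rw [h]
        simp
      · right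
        have h9 : a α = 1 := by omega
        rw [h9]
        simp

end Cfsg.Agent.S1515
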