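import Cfsg.Statements.S1523
import Cfsg.Agent.Helper24.BS1
import Mathlib
-- import your own Cfsg.Agent.* helpers here

set_option autoImplicit false
open Cfsg Cfsg.Agent.Helper24

namespace Cfsg.Agent.S1523

open Cfsg.Agent.Helper24 Module in
theorem sum_free_orbits {G : Type*} [Group G] [Fintype G] (P : Subgroup G)
    (B : Finset G) (φ : G → ℂ)
    (hB : ∀ g ∈ B, ∀ u ∈ P, u * g * u⁻¹ ∈ B)
    (hφ : ∀ g ∈ B, ∀ u ∈ P, φ (u * g * u⁻¹) = φ g)
    (hfree : ∀ g ∈ B, ∀ u ∈ P, u * g * u⁻¹ = g → u = 1)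
    (hint : ∀ g ∈ B, IsIntegral ℤ (φ g)) :
    ∃ α : ℂ, IsIntegral ℤ α ∧ ∑ g ∈ B, φ g = (Nat.card P : ℂ) * α := by
  classical
  let s : Setoid G :=
    { r := fun g g' => ∃ u ∈ P, u * g * u⁻¹ = g'
      iseqv := ⟨fun g => ⟨1, P.one_mem, by simp⟩,
        fun {g g'} ⟨u, hu, h⟩ => ⟨u⁻¹, P.inv_mem hu, by rw [← h]; group⟩,
        fun {a b c} ⟨u, hu, h⟩ ⟨v, hv, h'⟩ => ⟨v * u, P.mul_mem hv hu, by rw [← h', ← h]; group⟩⟩ }
  let rep : G → G := fun g => (Quotient.mk s g).out
  have hrep : ∀ g, ∃ u ∈ P, u * g * u⁻¹ = rep g := by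
    intro g
    have h : ∃ u ∈ P, u * rep g * u⁻¹ = g := Quotient.mk_out (s := s) g
    obtain ⟨u, hu, h'⟩ := h
    have key : ∀ r : G, u * r * u⁻¹ = g → u⁻¹ * g * u⁻¹⁻¹ = r := by
      intro r hr; rw [← hr]; group
    exact ⟨u⁻¹, P.inv_mem hu, key _ h'⟩
  have hrep_eq : ∀ g g', (∃ u ∈ P, u * g * u⁻¹ = g') → rep g = rep g' := by
    intro g g' h
    have : (Quotient.mk s g) = Quotient.mk s g' := Quotient.sound h
    simp only [rep, this]
  have h1 : ∑ g ∈ B, φ g = ∑ g ∈ B, φ (rep g) := by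
    refine Finset.sum_congr rfl fun g hg => ?_
    obtain ⟨u, hu, h⟩ := hrep g
    rw [← h, hφ g hg u hu]
  rw [h1, Finset.sum_comp φ rep]
  refine ⟨∑ b ∈ B.image rep, φ b, IsIntegral.sum _ fun b hb => ?_, ?_⟩
  · obtain ⟨a, ha, rfl⟩ := Finset.mem_image.mp hb
    obtain ⟨u, hu, h⟩ := hrep a
    rw [← h]; exact hint _ (hB a ha u hu)
  · rw [Finset.mul_sum]
    refine Finset.sum_congr rfl fun b hb => ?_
    obtain ⟨a, ha, rfl⟩ := Finset.mem_image.mp hb
    have hbB : rep a ∈ B := by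
      obtain ⟨u, hu, h⟩ := hrep a
      rw [← h]; exact hB a ha u hu
    have hcard : (B.filter (fun x => rep x = rep a)).card = Nat.card P := by
      rw [Nat.card_eq_fintype_card, ← Finset.card_univ (α := P)]
      symm
      refine Finset.card_bij (fun u _ => (u : G) * rep a * (u : G)⁻¹) ?_ ?_ ?_
      · intro u _
        rw [Finset.mem_filter]
        exact ⟨hB _ hbB u u.2, (hrep_eq (rep a) _ ⟨u, u.2, rfl⟩).symm.trans (hrep_eq a (rep a) (hrep a)).symm⟩
      · intro u _ v _ h
        have h2 : ((v : G)⁻¹ * u) * rep a * ((v : G)⁻¹ * u)⁻¹ = rep a := by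
          have h3 : rep a = (v:G)⁻¹ * ((u : G) * rep a * (u : G)⁻¹) * v := by rw [h]; group
          conv_rhs => rw [h3]
          group
        have h4 := hfree _ hbB _ (P.mul_mem (P.inv_mem v.2) u.2) h2
        rw [inv_mul_eq_one] at h4
        exact Subtype.ext h4.symm
      · intro x hx
        rw [Finset.mem_filter] at hx
        obtain ⟨u, hu, h⟩ := hrep x
        rw [hx.2] at h
        exact ⟨⟨u⁻¹, P.inv_mem hu⟩, Finset.mem_univ _, by rw [← h]; group⟩
    rw [hcard, nsmul_eq_mul]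



/-- Let G be a finite group, p a prime, P a Sylow p-subgroup whose underlying set is a TI-subset of G, with L the set normaliser of P of odd order. Let Z ≠ ⊥ be a subgroup of P, normal in L and central in P, such that the centralisers in L of any two non-identity elements of Z have the same order. If ψ is an irreducible character of G taking the same value at all non-identity elements of Z, then for z ∈ Z, z ≠ 1, the value ψ z is an integer n with Nat.card P dividing ψ(1) − n (as integers, ψ 1 being the degree). -/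
theorem result {G : Type*} [Group G] [Finite G] (p : ℕ) [Fact p.Prime] (P : Sylow p G) (hTI : Cfsg.IsTISubset ((P : Subgroup G) : Set G)) (hodd : Odd (Nat.card (Subgroup.normalizer ((P : Subgroup G) : Set G)))) (Z : Subgroup G) (hZ1 : Z ≠ ⊥) (hZP : Z ≤ P) (hZn : ∀ x ∈ Subgroup.normalizer ((P : Subgroup G) : Set G), ∀ z ∈ Z, x * z * x⁻¹ ∈ Z) (hZc : ∀ z ∈ Z, ∀ y ∈ (P : Subgroup G), z * y = y * z) (hCL : ∀ z ∈ Z, ∀ z' ∈ Z, z ≠ 1 → z' ≠ 1 → Nat.card ↥(Subgroup.normalizer ((P : Subgroup G) : Set G) ⊓ Subgroup.centralizer ({z} : Set G)) = Nat.card ↥(Subgroup.normalizer ((P : Subgroup G) : Set G) ⊓ Subgroup.centralizer ({z'} : Set G))) (ψ : G → ℂ) (hψ : Cfsg.IsIrrCharacter G ψ) (hconst : ∀ z ∈ Z, ∀ z' ∈ Z, z ≠ 1 → z' ≠ 1 → ψ z = ψ z') (z : G) (hz : z ∈ Z) (hz1 : z ≠ 1) : ∃ n d : ℤ, ψ z = n ∧ ψ 1 = d ∧ (Nat.card (P : Subgroup G) : ℤ) ∣ d - n := by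
  classical
  haveI : Fintype G := Fintype.ofFinite G
  obtain ⟨n, ρ, hirr, rfl⟩ := hψ
  haveI : ρ.IsIrreducible := hirr
  have hcf : IsClassFunction G ρ.character := isCharacter_isClassFunction ⟨n, ρ, rfl⟩
  have hint : ∀ g, IsIntegral ℤ (ρ.character g) := fun g => char_isIntegral ρ g
  have hd : ρ.character 1 = (n : ℂ) := char_one_fin ρ
  have hPN : (P : Subgroup G) ≤ Subgroup.normalizer ((P : Subgroup G) : Set G) :=
    Subgroup.le_normalizer
  have hzP : z ∈ (P : Subgroup G) := hZP hz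
  have hzi : z⁻¹ ∈ Z := Z.inv_mem hz
  have hzi1 : z⁻¹ ≠ 1 := by simpa using hz1
  have hci : ρ.character z⁻¹ = ρ.character z := hconst _ hzi _ hz hzi1 hz1
  have hTI' : ∀ g x : G, x ∈ (P : Subgroup G) → x ≠ 1 → g * x * g⁻¹ ∈ (P : Subgroup G) →
      g ∈ Subgroup.normalizer ((P : Subgroup G) : Set G) := by
    intro g x hx hx1 hgx
    by_contra hg
    exact hx1 (hTI g hg x hx hgx)
  -- no element of the normalizer inverts z
  have hnoinv : ∀ h ∈ Subgroup.normalizer ((P : Subgroup G) : Set G), h * z * h⁻¹ ≠ z⁻¹ := by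
    intro h hh heq
    have hodd_h : Odd (orderOf h) := by
      have := orderOf_dvd_natCard (⟨h, hh⟩ : Subgroup.normalizer ((P : Subgroup G) : Set G))
      rw [Subgroup.orderOf_mk] at this
      exact Odd.of_dvd_nat hodd this
    have hpow : ∀ k : ℕ, h ^ k * z * (h ^ k)⁻¹ = if Even k then z else z⁻¹ := by
      intro k
      induction k with
      | zero => simp
      | succ k ih =>
        have e1 : h ^ (k+1) * z * (h ^ (k+1))⁻¹ = h * (h ^ k * z * (h ^ k)⁻¹) * h⁻¹ := by
          rw [pow_succ']; group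
        rw [e1, ih]
        by_cases hk : Even k
        · rw [if_pos hk, if_neg (by rw [Nat.even_add_one]; exact not_not.mpr hk), heq]
        · rw [if_neg hk, if_pos (by rw [Nat.even_add_one]; exact hk)]
          have e2 : h * z⁻¹ * h⁻¹ = (h * z * h⁻¹)⁻¹ := by group
          rw [e2, heq, inv_inv]
    have h1 := hpow (orderOf h)
    rw [pow_orderOf_eq_one, if_neg (Nat.not_even_iff_odd.mpr hodd_h)] at h1
    have hzz : z = z⁻¹ := by simpa using h1
    have hz2 : z ^ 2 = 1 := by
      rw [pow_two]; nth_rewrite 1 [hzz]; simp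
    have hodd_z : Odd (orderOf z) := by
      have := orderOf_dvd_natCard (⟨z, hPN hzP⟩ : Subgroup.normalizer ((P : Subgroup G) : Set G))
      rw [Subgroup.orderOf_mk] at this
      exact Odd.of_dvd_nat hodd this
    have hdvd : orderOf z ∣ 2 := orderOf_dvd_of_pow_eq_one hz2
    have h3 : orderOf z = 1 := by
      rcases (Nat.dvd_prime Nat.prime_two).mp hdvd with h | h
      · exact h
      · rw [h] at hodd_z; exact absurd hodd_z (by decide)
    exact hz1 (orderOf_eq_one_iff.mp h3)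
  have hinvconj : ∀ a b : G, IsConj a b → IsConj a⁻¹ b⁻¹ := by
    intro a b h
    obtain ⟨c, hc⟩ := isConj_iff.mp h
    exact isConj_iff.mpr ⟨c, by rw [← hc]; group⟩
  -- conjugates of w ∈ Z^# inside P lie in Z^#
  have hinZ : ∀ w ∈ Z, w ≠ 1 → ∀ g ∈ (P : Subgroup G), IsConj w g →
      g ∈ Z ∧ ∃ h ∈ Subgroup.normalizer ((P : Subgroup G) : Set G), h * w * h⁻¹ = g := by
    intro w hw hw1 g hg hc
    obtain ⟨h, hh⟩ := isConj_iff.mp hc
    have hhN := hTI' h w (hZP hw) hw1 (by rw [hh]; exact hg)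
    exact ⟨by rw [← hh]; exact hZn h hhN w hw, h, hhN, hh⟩
  -- class functions
  have hconjf : ∀ (w : G), IsClassFunction G (fun g => if IsConj w g then (1:ℂ) else 0) := by
    intro w g h
    have h1 : IsConj g (h * g * h⁻¹) := isConj_iff.mpr ⟨h, rfl⟩
    have h2 : IsConj w (h * g * h⁻¹) ↔ IsConj w g :=
      ⟨fun hh => hh.trans h1.symm, fun hh => hh.trans h1⟩
    simp only [h2]
  have hS : ∑ g : G, (if IsConj z⁻¹ g then (1:ℂ) else 0) * ρ.character g
      = ∑ g : G, (if IsConj z g then (1:ℂ) else 0) * ρ.character g := by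
    refine Fintype.sum_equiv (Equiv.inv G) _ _ fun g => ?_
    simp only [Equiv.inv_apply]
    by_cases hg : IsConj z⁻¹ g
    · have hg' : IsConj z g⁻¹ := by simpa using hinvconj _ _ hg
      rw [if_pos hg, if_pos hg', one_mul, one_mul]
      rw [← isClassFunction_of_isConj hcf hg, ← isClassFunction_of_isConj hcf hg', hci]
    · have hg' : ¬ IsConj z g⁻¹ := by
        intro h'
        exact hg (by simpa using hinvconj _ _ h')
      rw [if_neg hg, if_neg hg', zero_mul, zero_mul]
  have hop : classOp (fun g => if IsConj z⁻¹ g then (1:ℂ) else 0) ρ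
      = classOp (fun g => if IsConj z g then (1:ℂ) else 0) ρ := by
    rw [classOp_eq_smul_of_irreducible (hconjf z⁻¹) ρ, classOp_eq_smul_of_irreducible (hconjf z) ρ,
      hS]
  have htr : ∀ f : G → ℂ, LinearMap.trace ℂ _ (classOp f ρ ∘ₗ ρ z)
      = ∑ g : G, f g * ρ.character (g * z) := by
    intro f
    have e : classOp f ρ ∘ₗ ρ z = ∑ g : G, f g • ρ (g * z) := by
      change (classOp f ρ) * (ρ z) = _
      simp only [classOp, Finset.sum_mul, smul_mul_assoc, map_mul]
    rw [e, map_sum]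
    refine Finset.sum_congr rfl fun g _ => ?_
    rw [map_smul, smul_eq_mul]; rfl
  have hT : ∑ g : G, (if IsConj z⁻¹ g then (1:ℂ) else 0) * ρ.character (g * z)
      = ∑ g : G, (if IsConj z g then (1:ℂ) else 0) * ρ.character (g * z) := by
    rw [← htr, ← htr, hop]
  have hsplit : ∀ w : G, ∑ g : G, (if IsConj w g then (1:ℂ) else 0) * ρ.character (g * z)
      = ∑ g ∈ Finset.univ.filter (fun g => IsConj w g ∧ g ∈ (P : Subgroup G)),
          ρ.character (g * z)
        + ∑ g ∈ Finset.univ.filter (fun g => IsConj w g ∧ g ∉ (P : Subgroup G)),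
          ρ.character (g * z) := by
    intro w
    have e : ∀ g : G, (if IsConj w g then (1:ℂ) else 0) * ρ.character (g * z)
        = if IsConj w g then ρ.character (g * z) else 0 := by
      intro g; split_ifs <;> simp
    simp only [e]
    rw [← Finset.sum_filter, ← Finset.sum_filter_add_sum_filter_not
      (Finset.univ.filter (fun g => IsConj w g)) (fun g => g ∈ (P : Subgroup G))]
    rw [Finset.filter_filter, Finset.filter_filter]
  -- the parts outside P
  have hout : ∀ w ∈ (P : Subgroup G), ∃ α : ℂ, IsIntegral ℤ α ∧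
      ∑ g ∈ Finset.univ.filter (fun g => IsConj w g ∧ g ∉ (P : Subgroup G)), ρ.character (g * z)
        = (Nat.card (P : Subgroup G) : ℂ) * α := by
    intro w hw
    refine sum_free_orbits (P : Subgroup G) _ (fun g => ρ.character (g * z)) ?_ ?_ ?_ ?_
    · intro g hg u hu
      rw [Finset.mem_filter] at hg ⊢
      refine ⟨Finset.mem_univ _, hg.2.1.trans (isConj_iff.mpr ⟨u, rfl⟩), fun h => hg.2.2 ?_⟩
      have e : g = u⁻¹ * (u * g * u⁻¹) * u := by group
      rw [e]
      exact (P : Subgroup G).mul_mem ((P : Subgroup G).mul_mem ((P : Subgroup G).inv_mem hu) h) hu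
    · intro g hg u hu
      have e : u * g * u⁻¹ * z = u * (g * z) * u⁻¹ := by
        have := hZc z hz u⁻¹ ((P : Subgroup G).inv_mem hu)
        calc u * g * u⁻¹ * z = u * g * (u⁻¹ * z) := by group
          _ = u * g * (z * u⁻¹) := by rw [this]
          _ = u * (g * z) * u⁻¹ := by group
      change ρ.character (u * g * u⁻¹ * z) = ρ.character (g * z)
      rw [e, hcf]
    · intro g hg u hu hfix
      rw [Finset.mem_filter] at hg
      by_contra hu1
      have e : g * u * g⁻¹ = u := by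
        have : u * g = g * u := by
          calc u * g = u * g * u⁻¹ * u := by group
            _ = g * u := by rw [hfix]
        calc g * u * g⁻¹ = u * g * g⁻¹ := by rw [this]
          _ = u := by group
      have hgN := hTI' g u hu hu1 (by rw [e]; exact hu)
      obtain ⟨h, hh⟩ := isConj_iff.mp hg.2.1
      have hQ : IsPGroup p ((P : Subgroup G).map (MulAut.conj h).toMonoidHom) :=
        P.isPGroup'.map _
      have hgQ : g ∈ (P : Subgroup G).map (MulAut.conj h).toMonoidHom :=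
        ⟨w, hw, by simpa using hh⟩
      have hinf := IsPGroup.inf_normalizer_sylow hQ P
      have hg2 : g ∈ (P : Subgroup G).map (MulAut.conj h).toMonoidHom ⊓ (P : Subgroup G) := by
        rw [← hinf]; exact ⟨hgQ, hgN⟩
      exact hg.2.2 hg2.2
    · intro g _
      exact hint _
  obtain ⟨α₁, hα₁, hB₁⟩ := hout z⁻¹ ((P : Subgroup G).inv_mem hzP)
  obtain ⟨α₂, hα₂, hB₂⟩ := hout z hzP
  -- the parts inside P
  have hA₂ : ∑ g ∈ Finset.univ.filter (fun g => IsConj z g ∧ g ∈ (P : Subgroup G)),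
      ρ.character (g * z)
      = ((Finset.univ.filter (fun g => IsConj z g ∧ g ∈ (P : Subgroup G))).card : ℂ)
        * ρ.character z := by
    rw [Finset.sum_congr rfl (g := fun _ => ρ.character z), Finset.sum_const, nsmul_eq_mul]
    intro g hg
    rw [Finset.mem_filter] at hg
    obtain ⟨hgZ, h, hhN, hh⟩ := hinZ z hz hz1 g hg.2.2 hg.2.1
    refine hconst _ (Z.mul_mem hgZ hz) _ hz ?_ hz1
    intro h1
    exact hnoinv h hhN (by rw [hh]; exact eq_inv_of_mul_eq_one_left h1)
  have hzA₁ : z⁻¹ ∈ Finset.univ.filter (fun g => IsConj z⁻¹ g ∧ g ∈ (P : Subgroup G)) := by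
    rw [Finset.mem_filter]
    exact ⟨Finset.mem_univ _, IsConj.refl _, (P : Subgroup G).inv_mem hzP⟩
  have hA₁ : ∑ g ∈ Finset.univ.filter (fun g => IsConj z⁻¹ g ∧ g ∈ (P : Subgroup G)),
      ρ.character (g * z)
      = ρ.character 1 + ((((Finset.univ.filter
          (fun g => IsConj z⁻¹ g ∧ g ∈ (P : Subgroup G))).erase z⁻¹).card : ℕ) : ℂ)
        * ρ.character z := by
    rw [← Finset.add_sum_erase _ _ hzA₁, inv_mul_cancel]
    congr 1
    rw [Finset.sum_congr rfl (g := fun _ => ρ.character z), Finset.sum_const, nsmul_eq_mul]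
    intro g hg
    have hg' := Finset.mem_of_mem_erase hg
    rw [Finset.mem_filter] at hg'
    obtain ⟨hgZ, -⟩ := hinZ z⁻¹ hzi hzi1 g hg'.2.2 hg'.2.1
    refine hconst _ (Z.mul_mem hgZ hz) _ hz ?_ hz1
    intro h1
    exact (Finset.ne_of_mem_erase hg) (eq_inv_of_mul_eq_one_left h1)
  have hcardA : (Finset.univ.filter (fun g => IsConj z g ∧ g ∈ (P : Subgroup G))).card
      = ((Finset.univ.filter (fun g => IsConj z⁻¹ g ∧ g ∈ (P : Subgroup G))).erase z⁻¹).card
        + 1 := by
    rw [Finset.card_erase_add_one hzA₁]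
    refine Finset.card_bij (fun g _ => g⁻¹) ?_ ?_ ?_
    · intro g hg
      rw [Finset.mem_filter] at hg ⊢
      exact ⟨Finset.mem_univ _, hinvconj _ _ hg.2.1, (P : Subgroup G).inv_mem hg.2.2⟩
    · intro a _ b _ h
      exact inv_injective h
    · intro b hb
      rw [Finset.mem_filter] at hb
      refine ⟨b⁻¹, ?_, inv_inv b⟩
      rw [Finset.mem_filter]
      exact ⟨Finset.mem_univ _, by simpa using hinvconj _ _ hb.2.1,
        (P : Subgroup G).inv_mem hb.2.2⟩
  -- combine
  have hmain : ρ.character 1 - ρ.character z = (Nat.card (P : Subgroup G) : ℂ) * (α₂ - α₁) := by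
    have h1 := hT
    rw [hsplit z⁻¹, hsplit z, hA₁, hA₂, hB₁, hB₂, hcardA] at h1
    push_cast at h1
    linear_combination h1
  -- rationality of ψ z
  haveI : Fintype Z := Fintype.ofFinite Z
  have hm := classInner_char_one (MonoidHom.comp ρ Z.subtype : Representation ℂ Z (Fin n → ℂ))
  rw [classInner_def'] at hm
  have hZ2 : 1 < Nat.card Z := Z.one_lt_card_iff_ne_bot.mpr hZ1
  have hZ0 : (Nat.card Z : ℂ) ≠ 0 := Nat.cast_ne_zero.mpr Nat.card_pos.ne'
  have hsumZ : ∑ x : Z, ρ.character (x : G)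
      = ρ.character 1 + ((Nat.card Z : ℂ) - 1) * ρ.character z := by
    rw [← Finset.add_sum_erase Finset.univ _ (Finset.mem_univ (1 : Z))]
    congr 1
    rw [Finset.sum_congr rfl (g := fun _ => ρ.character z), Finset.sum_const, nsmul_eq_mul,
      Finset.card_erase_of_mem (Finset.mem_univ _), Finset.card_univ, Nat.card_eq_fintype_card,
      Nat.cast_sub Fintype.card_pos, Nat.cast_one]
    intro x hx
    exact hconst x x.2 z hz (fun h => (Finset.ne_of_mem_erase hx) (Subtype.ext h)) hz1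
  have hm' : ∑ x : Z, ρ.character (x : G) = (Nat.card Z : ℂ) *
      (Module.finrank ℂ (Representation.invariants
        (MonoidHom.comp ρ Z.subtype : Representation ℂ Z (Fin n → ℂ))) : ℂ) := by
    rw [← hm, ← mul_assoc, mul_inv_cancel₀ hZ0, one_mul]
    refine Finset.sum_congr rfl fun x _ => ?_
    simp [Representation.character]
  have hq1 : ((Nat.card Z : ℂ) - 1) ≠ 0 :=
    sub_ne_zero.mpr (Nat.cast_ne_one.mpr (by omega))
  have hcq : ρ.character z = (((((Nat.card Z : ℚ) *
      (Module.finrank ℂ (Representation.invariants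
        (MonoidHom.comp ρ Z.subtype : Representation ℂ Z (Fin n → ℂ))) : ℚ) - n) /
        ((Nat.card Z : ℚ) - 1)) : ℚ) : ℂ) := by
    push_cast
    rw [eq_div_iff hq1]
    rw [hsumZ, hd] at hm'
    linear_combination hm'
  obtain ⟨c₀, hc₀⟩ := exists_int_of_isIntegral_ratCast (by rw [← hcq]; exact hint z)
  have hc₀' : ρ.character z = (c₀ : ℂ) := by
    rw [hcq, ← hc₀]; norm_cast
  have hP0 : (Nat.card (P : Subgroup G) : ℂ) ≠ 0 := Nat.cast_ne_zero.mpr Nat.card_pos.ne'
  have hjq : ((((n : ℚ) - c₀) / (Nat.card (P : Subgroup G) : ℚ) : ℚ) : ℂ) = α₂ - α₁ := by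
    push_cast
    rw [div_eq_iff hP0, ← hd, ← hc₀', hmain]; ring
  obtain ⟨j, hj⟩ := exists_int_of_isIntegral_ratCast (by rw [hjq]; exact hα₂.sub hα₁)
  refine ⟨c₀, n, hc₀', by rw [hd]; norm_cast, j, ?_⟩
  have hP0' : (Nat.card (P : Subgroup G) : ℚ) ≠ 0 := Nat.cast_ne_zero.mpr Nat.card_pos.ne'
  have hj' : ((n : ℚ) - c₀) = (Nat.card (P : Subgroup G) : ℚ) * j := by
    rw [hj]; field_simp
  exact_mod_cast hj'

end Cfsg.Agent.S1523
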