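import Cfsg.Statements.S1527
import Mathlib

set_option autoImplicit false
open Cfsg

namespace Cfsg.Agent.S1527

/-- Let G be a finite group and H i (i in a finite index type) subgroups of pairwise coprime orders, each of whose underlying sets is a TI-subset of G, such that every non-identity element of G is conjugate to an element of some H i. Then Nat.card G − 1 = Σ_i [G : N_G(H i)] · (Nat.card (H i) − 1). -/
theorem result {G : Type*} [Group G] [Finite G] {ι : Type*} [Fintype ι] (H : ι → Subgroup G) (hcop : ∀ i j, i ≠ j → Nat.Coprime (Nat.card (H i)) (Nat.card (H j))) (hTI : ∀ i, Cfsg.IsTISubset (H i : Set G)) (hcover : ∀ g : G, g ≠ 1 → ∃ i, ∃ x : G, x * g * x⁻¹ ∈ H i) : Nat.card G - 1 = ∑ i, (Subgroup.normalizer (H i : Set G)).index * (Nat.card (H i) - 1) := by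
  classical
  have : Fintype G := Fintype.ofFinite G
  have hA1 : ∀ i, ∀ y : G, y ≠ 1 → ∀ g₀ : G, g₀ * y * g₀⁻¹ ∈ H i →
      (Finset.univ.filter (fun g : G => g * y * g⁻¹ ∈ H i)).card
        = Nat.card (Subgroup.normalizer (H i : Set G)) := by
    intro i y hy1 g₀ hg₀
    have hx₀1 : g₀ * y * g₀⁻¹ ≠ 1 := by
      intro h
      apply hy1
      have e : y = g₀⁻¹ * (g₀ * y * g₀⁻¹) * g₀ := by group
      rw [e, h]; group
    rw [← Fintype.card_subtype, ← Nat.card_eq_fintype_card]
    apply Nat.card_congr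
    refine ⟨fun g => ⟨g.1 * g₀⁻¹, ?_⟩, fun n => ⟨n.1 * g₀, ?_⟩, ?_, ?_⟩
    · by_contra hn
      apply hx₀1
      apply hTI i _ hn _ hg₀
      have e : g.1 * g₀⁻¹ * (g₀ * y * g₀⁻¹) * (g.1 * g₀⁻¹)⁻¹ = g.1 * y * g.1⁻¹ := by group
      rw [e]; exact g.2
    · have h1 := (Subgroup.mem_set_normalizer_iff.mp n.2 (g₀ * y * g₀⁻¹)).mp hg₀
      have e : n.1 * g₀ * y * (n.1 * g₀)⁻¹ = n.1 * (g₀ * y * g₀⁻¹) * n.1⁻¹ := by group
      rw [e]; exact h1
    · intro g; apply Subtype.ext; simp
    · intro n; apply Subtype.ext; simp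
  have hA2 : ∀ i, ∀ g : G, (Finset.univ.filter (fun y : G => y ≠ 1 ∧ g * y * g⁻¹ ∈ H i)).card
      = Nat.card (H i) - 1 := by
    intro i g
    have h1 : (Finset.univ.filter (fun y : G => y ≠ 1 ∧ g * y * g⁻¹ ∈ H i)).card
        = ((Finset.univ.filter (fun x : G => x ∈ H i)).erase 1).card := by
      apply Finset.card_bij' (fun y _ => g * y * g⁻¹) (fun x _ => g⁻¹ * x * g)
      · intro y hy
        simp only [Finset.mem_filter, Finset.mem_univ, true_and, Finset.mem_erase] at hy ⊢
        refine ⟨?_, hy.2⟩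
        intro h
        apply hy.1
        have e : y = g⁻¹ * (g * y * g⁻¹) * g := by group
        rw [e, h]; group
      · intro x hx
        simp only [Finset.mem_filter, Finset.mem_univ, true_and, Finset.mem_erase] at hx ⊢
        refine ⟨?_, ?_⟩
        · intro h
          apply hx.1
          have e : x = g * (g⁻¹ * x * g) * g⁻¹ := by group
          rw [e, h]; group
        · have e : g * (g⁻¹ * x * g) * g⁻¹ = x := by group
          rw [e]; exact hx.2
      · intro y _; group
      · intro x _; group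
    have h2 : (Finset.univ.filter (fun x : G => x ∈ H i)).card = Nat.card (H i) := by
      rw [Nat.card_eq_fintype_card]
      exact (Fintype.card_of_subtype _ (by simp)).symm
    rw [h1, Finset.card_erase_of_mem (by simp), h2]
  have hAcard : ∀ i, (Finset.univ.filter (fun y : G => y ≠ 1 ∧ ∃ g : G, g * y * g⁻¹ ∈ H i)).card
      = (Subgroup.normalizer (H i : Set G)).index * (Nat.card (H i) - 1) := by
    intro i
    have hsum1 : ∑ y : G, ∑ g : G, (if (y ≠ 1 ∧ g * y * g⁻¹ ∈ H i) then 1 else 0)
        = (Finset.univ.filter (fun y : G => y ≠ 1 ∧ ∃ g : G, g * y * g⁻¹ ∈ H i)).card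
          * Nat.card (Subgroup.normalizer (H i : Set G)) := by
      have hy : ∀ y : G, ∑ g : G, (if (y ≠ 1 ∧ g * y * g⁻¹ ∈ H i) then 1 else 0)
          = if y ∈ (Finset.univ.filter (fun y : G => y ≠ 1 ∧ ∃ g : G, g * y * g⁻¹ ∈ H i))
            then Nat.card (Subgroup.normalizer (H i : Set G)) else 0 := by
        intro y
        by_cases hy : y ∈ (Finset.univ.filter (fun y : G => y ≠ 1 ∧ ∃ g : G, g * y * g⁻¹ ∈ H i))
        · rw [if_pos hy]
          obtain ⟨-, hy1, g₀, hg₀⟩ := Finset.mem_filter.mp hy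
          rw [← hA1 i y hy1 g₀ hg₀, Finset.card_filter]
          apply Finset.sum_congr rfl
          intro g _
          simp [hy1]
        · rw [if_neg hy]
          apply Finset.sum_eq_zero
          intro g _
          rw [if_neg]
          rintro ⟨hy1, hg⟩
          exact hy (Finset.mem_filter.mpr ⟨Finset.mem_univ _, hy1, g, hg⟩)
      rw [Finset.sum_congr rfl (fun y _ => hy y), Finset.sum_ite_mem, Finset.univ_inter,
        Finset.sum_const, smul_eq_mul]
    have hsum2 : ∑ y : G, ∑ g : G, (if (y ≠ 1 ∧ g * y * g⁻¹ ∈ H i) then 1 else 0)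
        = Nat.card G * (Nat.card (H i) - 1) := by
      rw [Finset.sum_comm]
      have hg : ∀ g : G, ∑ y : G, (if (y ≠ 1 ∧ g * y * g⁻¹ ∈ H i) then 1 else 0)
          = Nat.card (H i) - 1 := by
        intro g
        rw [← Finset.card_filter, hA2 i g]
      rw [Finset.sum_congr rfl (fun g _ => hg g), Finset.sum_const, smul_eq_mul,
        Finset.card_univ, Nat.card_eq_fintype_card (α := G)]
    have hidx := Subgroup.card_mul_index (Subgroup.normalizer (H i : Set G))
    have hNpos : 0 < Nat.card (Subgroup.normalizer (H i : Set G)) := Nat.card_pos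
    have h3 : (Finset.univ.filter (fun y : G => y ≠ 1 ∧ ∃ g : G, g * y * g⁻¹ ∈ H i)).card
          * Nat.card (Subgroup.normalizer (H i : Set G))
        = (Subgroup.normalizer (H i : Set G)).index * (Nat.card (H i) - 1)
          * Nat.card (Subgroup.normalizer (H i : Set G)) := by
      rw [← hsum1, hsum2, ← hidx]; ring
    exact Nat.eq_of_mul_eq_mul_right hNpos h3
  have hunion : (Finset.univ.filter (fun y : G => y ≠ 1)) = Finset.univ.biUnion
      (fun i => Finset.univ.filter (fun y : G => y ≠ 1 ∧ ∃ g : G, g * y * g⁻¹ ∈ H i)) := by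
    ext y
    simp only [Finset.mem_filter, Finset.mem_univ, true_and, Finset.mem_biUnion]
    constructor
    · intro hy
      obtain ⟨i, x, hx⟩ := hcover y hy
      exact ⟨i, hy, x, hx⟩
    · rintro ⟨i, hy, -⟩; exact hy
  have hdisj : ∀ i ∈ (Finset.univ : Finset ι), ∀ j ∈ (Finset.univ : Finset ι), i ≠ j →
      Disjoint (Finset.univ.filter (fun y : G => y ≠ 1 ∧ ∃ g : G, g * y * g⁻¹ ∈ H i))
        (Finset.univ.filter (fun y : G => y ≠ 1 ∧ ∃ g : G, g * y * g⁻¹ ∈ H j)) := by
    intro i _ j _ hij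
    rw [Finset.disjoint_left]
    intro y hyi hyj
    obtain ⟨-, hy1, g, hg⟩ := Finset.mem_filter.mp hyi
    obtain ⟨-, -, g', hg'⟩ := Finset.mem_filter.mp hyj
    apply hy1
    have h1 : orderOf y ∣ Nat.card (H i) := by
      have h := Subgroup.orderOf_dvd_natCard (H i) hg
      rwa [show g * y * g⁻¹ = MulAut.conj g y from rfl, MulEquiv.orderOf_eq] at h
    have h2 : orderOf y ∣ Nat.card (H j) := by
      have h := Subgroup.orderOf_dvd_natCard (H j) hg'
      rwa [show g' * y * g'⁻¹ = MulAut.conj g' y from rfl, MulEquiv.orderOf_eq] at h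
    have h3 : orderOf y ∣ Nat.gcd (Nat.card (H i)) (Nat.card (H j)) := Nat.dvd_gcd h1 h2
    rw [(hcop i j hij).gcd_eq_one] at h3
    exact orderOf_eq_one_iff.mp (Nat.dvd_one.mp h3)
  have hG1 : (Finset.univ.filter (fun y : G => y ≠ 1)).card = Nat.card G - 1 := by
    rw [Finset.filter_ne', Finset.card_erase_of_mem (Finset.mem_univ _), Finset.card_univ,
      Nat.card_eq_fintype_card (α := G)]
  rw [← hG1, hunion, Finset.card_biUnion hdisj]
  exact Finset.sum_congr rfl (fun i _ => hAcard i)

end Cfsg.Agent.S1527
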