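import Cfsg.Statements.S1546

set_option autoImplicit false
open Cfsg

namespace Cfsg.Agent.S1546

/-- Let p and q be odd primes and N = (p ^ q − 1) / (p − 1) = 1 + p + ⋯ + p^(q−1). Then N is odd; if p ≡ 1 (mod q) then q ∣ N; and if p is not ≡ 1 (mod q) then N is coprime to p − 1 and every divisor of N is ≡ 1 (mod q). -/
theorem result (p q : ℕ) (hp : p.Prime) (hq : q.Prime) (hp2 : p ≠ 2) (hq2 : q ≠ 2) : Odd ((p ^ q - 1) / (p - 1)) ∧ (p % q = 1 → q ∣ (p ^ q - 1) / (p - 1)) ∧ (p % q ≠ 1 → Nat.Coprime ((p ^ q - 1) / (p - 1)) (p - 1) ∧ ∀ x : ℕ, x ∣ (p ^ q - 1) / (p - 1) → x % q = 1) := by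
  have hp2' : 2 ≤ p := hp.two_le
  set N := (p ^ q - 1) / (p - 1) with hN
  have hgeom : N = ∑ i ∈ Finset.range q, p ^ i := (Nat.geomSum_eq hp2' q).symm
  have hcast : ∀ m : ℕ, (p : ZMod m) = 1 → (N : ZMod m) = (q : ZMod m) := by
    intro m hm
    rw [hgeom, Nat.cast_sum]
    simp [hm]
  have hpodd : Odd p := hp.odd_of_ne_two hp2
  have hqodd : Odd q := hq.odd_of_ne_two hq2
  have hNodd : Odd N := by
    rw [← ZMod.natCast_eq_one_iff_odd] at hpodd hqodd ⊢
    rw [hcast 2 hpodd]; exact hqodd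
  have hmul : N * (p - 1) = p ^ q - 1 := by
    apply Nat.div_mul_cancel
    have := Nat.sub_dvd_pow_sub_pow p 1 q
    rwa [one_pow] at this
  have hNdvd : N ∣ p ^ q - 1 := Dvd.intro _ hmul
  have hpq1 : 1 ≤ p ^ q := Nat.one_le_pow _ _ hp.pos
  refine ⟨hNodd, ?_, ?_⟩
  · intro hpq
    have h1 : (p : ZMod q) = 1 := by
      have : ((p % q : ℕ) : ZMod q) = (p : ZMod q) := ZMod.natCast_mod p q
      rw [← this, hpq, Nat.cast_one]
    have h2 := hcast q h1
    rw [ZMod.natCast_self] at h2
    exact (ZMod.natCast_eq_zero_iff N q).mp h2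
  · intro hpq
    have hcop : Nat.Coprime N (p - 1) := by
      by_contra hne
      obtain ⟨r, hr, hrN, hrp⟩ := Nat.Prime.not_coprime_iff_dvd.mp hne
      have h1 : (p : ZMod r) = 1 := by
        have : ((p - 1 : ℕ) : ZMod r) = 0 := (ZMod.natCast_eq_zero_iff _ _).mpr hrp
        rw [Nat.cast_sub hp.one_lt.le, Nat.cast_one, sub_eq_zero] at this
        exact this
      have h2 := hcast r h1
      rw [(ZMod.natCast_eq_zero_iff N r).mpr hrN] at h2
      have h3 : r ∣ q := (ZMod.natCast_eq_zero_iff q r).mp h2.symm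
      have h4 : r = q := (Nat.prime_dvd_prime_iff_eq hr hq).mp h3
      subst h4
      apply hpq
      have h5 : 1 ≡ p [MOD r] := (Nat.modEq_iff_dvd' hp.one_lt.le).mpr hrp
      have h6 : p % r = 1 % r := h5.symm
      rw [h6]; exact Nat.mod_eq_of_lt hr.one_lt
    refine ⟨hcop, ?_⟩
    have hprime : ∀ r : ℕ, r.Prime → r ∣ N → r % q = 1 := by
      intro r hr hrN
      have : Fact r.Prime := ⟨hr⟩
      have hq1 : ((p : ZMod r)) ^ q = 1 := by
        have h1 : ((p ^ q - 1 : ℕ) : ZMod r) = 0 :=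
          (ZMod.natCast_eq_zero_iff _ _).mpr (hrN.trans hNdvd)
        rw [Nat.cast_sub hpq1, Nat.cast_one, sub_eq_zero, Nat.cast_pow] at h1
        exact h1
      have hord : orderOf (p : ZMod r) ∣ q := orderOf_dvd_of_pow_eq_one hq1
      rcases (Nat.dvd_prime hq).mp hord with h1 | hqord
      · exfalso
        have h2 : (p : ZMod r) = 1 := orderOf_eq_one_iff.mp h1
        have h3 : r ∣ p - 1 := by
          apply (ZMod.natCast_eq_zero_iff _ _).mp
          rw [Nat.cast_sub hp.one_lt.le, Nat.cast_one, h2, sub_self]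
        have h4 : r ∣ Nat.gcd N (p - 1) := Nat.dvd_gcd hrN h3
        rw [hcop.gcd_eq_one] at h4
        exact hr.one_lt.ne' (Nat.dvd_one.mp h4)
      · have ha0 : (p : ZMod r) ≠ 0 := by
          intro h0
          rw [h0, zero_pow hq.ne_zero] at hq1
          exact zero_ne_one hq1
        have h1 : (p : ZMod r) ^ (r - 1) = 1 := ZMod.pow_card_sub_one_eq_one ha0
        have h2 : q ∣ r - 1 := by rw [← hqord]; exact orderOf_dvd_of_pow_eq_one h1
        have h5 : 1 ≡ r [MOD q] := (Nat.modEq_iff_dvd' hr.one_lt.le).mpr h2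
        have h6 : r % q = 1 % q := h5.symm
        rw [h6]; exact Nat.mod_eq_of_lt hq.one_lt
    intro x
    induction x using Nat.strong_induction_on with
    | _ x ih =>
      intro hx
      rcases Nat.eq_zero_or_pos x with rfl | hxpos
      · exfalso
        have h0 : N = 0 := Nat.eq_zero_of_zero_dvd hx
        rw [h0] at hNodd
        simp at hNodd
      by_cases hx1 : x = 1
      · rw [hx1]; exact Nat.mod_eq_of_lt hq.one_lt
      have hr := Nat.minFac_prime hx1
      obtain ⟨y, hy⟩ := Nat.minFac_dvd x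
      have hy_dvd : y ∣ x := Dvd.intro_left _ hy.symm
      have hypos : 0 < y := by
        rcases Nat.eq_zero_or_pos y with rfl | h
        · rw [mul_zero] at hy; omega
        · exact h
      have hylt : y < x := by
        calc y = 1 * y := (one_mul y).symm
          _ < x.minFac * y := Nat.mul_lt_mul_of_pos_right hr.one_lt hypos
          _ = x := hy.symm
      have h1 := ih y hylt (hy_dvd.trans hx)
      have h2 := hprime _ hr ((Nat.minFac_dvd x).trans hx)
      have h3 : x % q = (x.minFac * y) % q := by rw [← hy]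
      rw [h3, Nat.mul_mod, h1, h2]
      simp [Nat.mod_eq_of_lt hq.one_lt]

end Cfsg.Agent.S1546
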