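import Cfsg.Statements.S1552
import Cfsg.Agent.Helper28.OrbSS
import Cfsg.Agent.Helper28.OrbMax

set_option autoImplicit false
open scoped Pointwise
open Cfsg

namespace Cfsg.Agent.S1552

open Cfsg.Agent.Helper28 Cfsg.Agent.Helper28.Golay
open scoped Pointwise

theorem hc3 (g : ↥Cfsg.M24) (x X : Finset (Finset Cfsg.GolayPt)) :
    hist (g • x) (g • X) = hist x X := hist_smul g.1 x X

theorem arith : ∀ J ∈ (Finset.range 5).powerset, 0 ∈ J →
    (∑ j ∈ J, [1, 90, 240, 1440].getD j 0) ∣ 1771 →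
    (∑ j ∈ J, [1, 90, 240, 1440].getD j 0) = 1 ∨ (∑ j ∈ J, [1, 90, 240, 1440].getD j 0) = 1771 := by
  decide +kernel

/-- A sextet stabiliser has four orbits on the 1771 sextets, of sizes 1, 90, 240, 1440; and the stabiliser is a maximal proper subgroup. -/
theorem result (S : Finset (Finset Cfsg.GolayPt)) (hS : S ∈ Cfsg.sextets) : ∃ X₁ ∈ Cfsg.sextets, ∃ X₂ ∈ Cfsg.sextets, ∃ X₃ ∈ Cfsg.sextets, (MulAction.orbit ↥(MulAction.stabilizer Cfsg.M24 S) X₁).ncard = 90 ∧ (MulAction.orbit ↥(MulAction.stabilizer Cfsg.M24 S) X₂).ncard = 240 ∧ (MulAction.orbit ↥(MulAction.stabilizer Cfsg.M24 S) X₃).ncard = 1440 ∧ Cfsg.sextets = {S} ∪ MulAction.orbit ↥(MulAction.stabilizer Cfsg.M24 S) X₁ ∪ MulAction.orbit ↥(MulAction.stabilizer Cfsg.M24 S) X₂ ∪ MulAction.orbit ↥(MulAction.stabilizer Cfsg.M24 S) X₃ ∧ IsCoatom (MulAction.stabilizer Cfsg.M24 S) := by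
  obtain ⟨σ, hσ, hx⟩ := sext_trans S (sextOf (toSet 15)) hS
    (sextOf_mem _ (by rw [card_toSet]; decide))
  have key := orbit_classes (G := ↥Cfsg.M24) Cfsg.sextets (fun g X hX => smul_mem_sextets g.2 hX)
      (fun (x X : Finset (Finset Cfsg.GolayPt)) => hist x X) hc3
      (sextOf (toSet 15)) (fun v => sextOf (toSet (OrbSS.repc v)))
      (fun X hX => by
        obtain ⟨g, hg, h1, h2⟩ := OrbSS.fam.1 X hX
        exact ⟨⟨g, hg⟩, h1, h2⟩) S ⟨σ, hσ⟩ hx
  have hSS : hist S S = 600000030 := by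
    have h := hist_smul σ S S
    rw [hx] at h
    rw [← h]
    exact OrbSS.self_hist
  have k1 : {X | X ∈ Cfsg.sextets ∧ hist S X = 600000030}.ncard = 1 := by
    rw [key.2]; exact OrbSS.cnt1
  have k2 : {X | X ∈ Cfsg.sextets ∧ hist S X = 120024}.ncard = 90 := by
    rw [key.2]; exact OrbSS.cnt2
  have k3 : {X | X ∈ Cfsg.sextets ∧ hist S X = 2001816}.ncard = 240 := by
    rw [key.2]; exact OrbSS.cnt3
  have k4 : {X | X ∈ Cfsg.sextets ∧ hist S X = 41616}.ncard = 1440 := by
    rw [key.2]; exact OrbSS.cnt4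
  have h3 := one_three_orbits Cfsg.sextets (Set.toFinite _) (fun X => hist S X) key.1 S hS
      600000030 120024 2001816 41616 90 240 1440 hSS k1 k2 k3 k4
      (by norm_num) (by norm_num) (by norm_num) (by decide) (by rw [ncard_sextets])
  obtain ⟨X1, hX1, X2, hX2, X3, hX3, e1, e2, e3, e4⟩ := h3
  refine ⟨X1, hX1, X2, hX2, X3, hX3, e1, e2, e3, e4, ?_⟩
  have horbit : MulAction.orbit ↥Cfsg.M24 S = Cfsg.sextets := by
    ext Y
    constructor
    · rintro ⟨g, rfl⟩
      exact smul_mem_sextets g.2 hS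
    · intro hY
      obtain ⟨g, hg, e⟩ := sext_trans S Y hS hY
      exact ⟨⟨g, hg⟩, e⟩
  have hcov := cover_of_counts Cfsg.sextets (Set.toFinite _) (fun X => hist S X)
    [600000030, 120024, 2001816, 41616] (by decide)
    (by simp only [List.map_cons, List.map_nil, List.sum_cons, List.sum_nil, k1, k2, k3, k4,
          ncard_sextets]
        norm_num)
  have e0 : List.idxOf (hist S S) [600000030, 120024, 2001816, 41616] = 0 := by
    rw [hSS]; rfl
  refine coatom_of_classes (G := ↥Cfsg.M24) S Cfsg.sextets horbit (fun X => hist S X)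
    [600000030, 120024, 2001816, 41616] [1, 90, 240, 1440] (by decide) rfl
    hcov key.1 ?_ 1771 ncard_sextets (by norm_num) ?_
  · intro j hj
    have hj' : j < 4 := hj
    interval_cases j
    · exact k1
    · exact k2
    · exact k3
    · exact k4
  · intro J hJ h0 hd
    have h0' : List.idxOf (hist S S) [600000030, 120024, 2001816, 41616] ∈ J := h0
    rw [e0] at h0'
    exact arith J hJ h0' hd

end Cfsg.Agent.S1552
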