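import Cfsg.Statements.S1554
import Cfsg.Agent.Helper28.OctSplit

set_option autoImplicit false
open scoped Pointwise
open Cfsg

namespace Cfsg.Agent.S1554

open Cfsg.Agent.Helper28 Cfsg.Agent.Helper28.Golay
open scoped Pointwise

/-- An octad stabiliser is a split extension: the joint stabiliser of the octad and a point outside it is a complement to the pointwise stabiliser of the octad, and is isomorphic to the alternating group of degree 8. -/
theorem result (o : Finset Cfsg.GolayPt) (ho : o ∈ Cfsg.octads) (p : Cfsg.GolayPt) (hp : p ∉ o) : (Cfsg.M24 ⊓ fixingSubgroup (Equiv.Perm Cfsg.GolayPt) (o : Set Cfsg.GolayPt)) ⊓ (Cfsg.M24 ⊓ MulAction.stabilizer (Equiv.Perm Cfsg.GolayPt) o ⊓ MulAction.stabilizer (Equiv.Perm Cfsg.GolayPt) p) = ⊥ ∧ (Cfsg.M24 ⊓ fixingSubgroup (Equiv.Perm Cfsg.GolayPt) (o : Set Cfsg.GolayPt)) ⊔ (Cfsg.M24 ⊓ MulAction.stabilizer (Equiv.Perm Cfsg.GolayPt) o ⊓ MulAction.stabilizer (Equiv.Perm Cfsg.GolayPt) p) =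 (Cfsg.M24 ⊓ MulAction.stabilizer (Equiv.Perm Cfsg.GolayPt) o) ∧ Nonempty (↥(Cfsg.M24 ⊓ MulAction.stabilizer (Equiv.Perm Cfsg.GolayPt) o ⊓ MulAction.stabilizer (Equiv.Perm Cfsg.GolayPt) p) ≃* alternatingGroup (Fin 8)) := by

  have hKS : Cfsg.M24 ⊓ fixingSubgroup (Equiv.Perm Cfsg.GolayPt) (o : Set Cfsg.GolayPt) ≤
      Cfsg.M24 ⊓ MulAction.stabilizer (Equiv.Perm Cfsg.GolayPt) o :=
    inf_le_inf_left _ (fixing_le_stab o)
  have hA : (Cfsg.M24 ⊓ fixingSubgroup (Equiv.Perm Cfsg.GolayPt) (o : Set Cfsg.GolayPt)) ⊓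
      (Cfsg.M24 ⊓ MulAction.stabilizer (Equiv.Perm Cfsg.GolayPt) o ⊓
        MulAction.stabilizer (Equiv.Perm Cfsg.GolayPt) p) = ⊥ := by
    rw [eq_bot_iff]
    intro g hg
    obtain ⟨hg1, hg2⟩ := Subgroup.mem_inf.1 hg
    rw [Subgroup.mem_bot]
    exact oct_fix_reg o ho g hg1 p hp (MulAction.mem_stabilizer_iff.1 (Subgroup.mem_inf.1 hg2).2)
  refine ⟨hA, ?_, ?_⟩
  · refine le_antisymm (sup_le hKS inf_le_left) ?_
    intro g hg
    have hq : g p ∉ o := fun hc => hp ((stab_mem_iff (Subgroup.mem_inf.1 hg).2 p).1 hc)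
    obtain ⟨k, hk, e⟩ := oct_fix_trans o ho p (g p) hp hq
    have h1 : k⁻¹ * g ∈ Cfsg.M24 ⊓ MulAction.stabilizer (Equiv.Perm Cfsg.GolayPt) o ⊓
        MulAction.stabilizer (Equiv.Perm Cfsg.GolayPt) p := by
      refine Subgroup.mem_inf.2 ⟨Subgroup.mul_mem _ (Subgroup.inv_mem _ (hKS hk)) hg, ?_⟩
      rw [MulAction.mem_stabilizer_iff, Equiv.Perm.smul_def, Equiv.Perm.mul_apply, ← e,
        perm_inv_apply]
    have h2 : g = k * (k⁻¹ * g) := by group
    rw [h2]
    exact Subgroup.mul_mem_sup hk h1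
  · let f0 : ↥(Cfsg.M24 ⊓ MulAction.stabilizer (Equiv.Perm Cfsg.GolayPt) o ⊓
        MulAction.stabilizer (Equiv.Perm Cfsg.GolayPt) p) →* Equiv.Perm ↥o :=
      (restr Cfsg.M24 o).comp (Subgroup.inclusion inf_le_left)
    have hf0 : ∀ h, f0 h ∈ alternatingGroup ↥o := by
      intro h
      rw [← range_restr_oct o ho]
      exact ⟨_, rfl⟩
    let f := f0.codRestrict (alternatingGroup ↥o) hf0
    have hinj : Function.Injective f := by
      rw [← MonoidHom.ker_eq_bot_iff, eq_bot_iff]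
      intro h hh
      rw [MonoidHom.mem_ker] at hh
      have h1 : f0 h = 1 := congrArg Subtype.val hh
      have h2 : Subgroup.inclusion inf_le_left h ∈ (restr Cfsg.M24 o).ker := h1
      rw [mem_ker_restr] at h2
      have h3 : h.1 ∈ Cfsg.M24 ⊓ fixingSubgroup (Equiv.Perm Cfsg.GolayPt) (o : Set Cfsg.GolayPt) := by
        refine Subgroup.mem_inf.2 ⟨(Subgroup.mem_inf.1 (Subgroup.mem_inf.1 h.2).1).1, ?_⟩
        rw [mem_fixingSubgroup_iff]
        intro x hx
        exact h2 x (Finset.mem_coe.1 hx)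
      rw [Subgroup.mem_bot]
      exact Subtype.ext (oct_fix_reg o ho h.1 h3 p hp (MulAction.mem_stabilizer_iff.1 (Subgroup.mem_inf.1 h.2).2))
    have hnt : Nontrivial ↥o := by
      rw [← Fintype.one_lt_card_iff_nontrivial, Fintype.card_coe, ho.2]
      norm_num
    have hcard : Nat.card ↥(alternatingGroup ↥o) = 20160 := by
      rw [nat_card_alternatingGroup, Nat.card_eq_fintype_card, Fintype.card_coe, ho.2]
      rfl
    have hbij : Function.Bijective f := by
      refine Function.Injective.bijective_of_nat_card_le hinj ?_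
      rw [hcard, card_stab_oct_pt o ho p hp]
    exact ⟨(MulEquiv.ofBijective f hbij).trans (Equiv.altCongrHom (o.equivFinOfCardEq ho.2))⟩

end Cfsg.Agent.S1554
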