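import Cfsg.Statements.S1555
import Cfsg.Agent.Helper28.Triads

set_option autoImplicit false
open scoped Pointwise
open Cfsg

namespace Cfsg.Agent.S1555

open Cfsg.Agent.Helper28 Cfsg.Agent.Helper28.Golay
open scoped Pointwise

theorem count_base (s0 : Nat) (hs0 : s0 < 2 ^ 24) (n : Nat)
    (h : (countPow 12 0 fun m => Nat.beq (wt (encode m)) 8 && Nat.beq (encode m &&& O0) s0) = n) :
    {o' : Finset Cfsg.GolayPt | o' ∈ Cfsg.octads ∧ toSet O0 ∩ o' = toSet s0}.ncard = n := by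
  have e : {o' : Finset Cfsg.GolayPt | o' ∈ Cfsg.octads ∧ toSet O0 ∩ o' = toSet s0} =
      ↑(cwFinset fun c => Nat.beq (wt c) 8 && Nat.beq (c &&& O0) s0) := by
    ext o
    rw [Finset.mem_coe, mem_cwFinset, Bool.and_eq_true, nbeq_iff, nbeq_iff, card_maskOf,
      maskOf_and_eq_iff o O0 hs0, Finset.inter_comm]
    constructor
    · rintro ⟨h1, h2⟩
      exact ⟨h1.1, h1.2, h2⟩
    · rintro ⟨h1, h2, h3⟩
      exact ⟨⟨h1, h2⟩, h3⟩
  rw [e, Set.ncard_coe_finset, card_cwFinset, h]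

theorem transport (o s : Finset Cfsg.GolayPt) (σ : Equiv.Perm Cfsg.GolayPt) (hσ : σ ∈ Cfsg.M24)
    (s0 : Nat) (h0 : σ • o = toSet O0) (hs : σ • s = toSet s0) :
    {o' : Finset Cfsg.GolayPt | o' ∈ Cfsg.octads ∧ o ∩ o' = s}.ncard =
      {o' : Finset Cfsg.GolayPt | o' ∈ Cfsg.octads ∧ toSet O0 ∩ o' = toSet s0}.ncard := by
  refine ncard_smul_family σ _ _ fun o' => ?_
  show o' ∈ Cfsg.octads ∧ o ∩ o' = s ↔ σ • o' ∈ Cfsg.octads ∧ toSet O0 ∩ σ • o' = toSet s0
  rw [smul_mem_octads_iff hσ, ← h0, ← hs, ← Finset.smul_finset_inter, smul_left_cancel_iff]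

theorem smul_pair (σ : Equiv.Perm Cfsg.GolayPt) (a b : Cfsg.GolayPt) :
    σ • ({a, b} : Finset Cfsg.GolayPt) = {σ a, σ b} := by
  rw [Finset.smul_finset_insert, Finset.smul_finset_singleton]
  rfl

theorem smul_quad (σ : Equiv.Perm Cfsg.GolayPt) (a b c d : Cfsg.GolayPt) :
    σ • ({a, b, c, d} : Finset Cfsg.GolayPt) = {σ a, σ b, σ c, σ d} := by
  rw [Finset.smul_finset_insert, Finset.smul_finset_insert, Finset.smul_finset_insert,
    Finset.smul_finset_singleton]
  rfl

theorem pair_eq : ({pt 23, pt 0} : Finset Cfsg.GolayPt) = toSet 8388609 := by decide +kernel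

theorem quad_eq : ({pt 23, pt 0, pt 2, pt 4} : Finset Cfsg.GolayPt) = toSet 8388629 := by
  decide +kernel

theorem y_inj : Function.Injective (![pt 23, pt 0, pt 2, pt 4, pt 5] : Fin 5 → Cfsg.GolayPt) :=
  inj5 _ _ _ _ _ (by decide +kernel) (by decide +kernel) (by decide +kernel) (by decide +kernel)
    (by decide +kernel) (by decide +kernel) (by decide +kernel) (by decide +kernel)
    (by decide +kernel) (by decide +kernel)

theorem y_mem : ∀ i, (![pt 23, pt 0, pt 2, pt 4, pt 5] : Fin 5 → Cfsg.GolayPt) i ∈ toSet O0 := by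
  decide +kernel

/-- Bottom row of the Leech triangle: an octad is met in a prescribed pair of its points by exactly 16 octads and in a prescribed 4-subset by exactly 4 octads. -/
theorem result (o : Finset Cfsg.GolayPt) (ho : o ∈ Cfsg.octads) (s : Finset Cfsg.GolayPt) (hs : s ⊆ o) : (s.card = 2 → {o' : Finset Cfsg.GolayPt | o' ∈ Cfsg.octads ∧ o ∩ o' = s}.ncard = 16) ∧ (s.card = 4 → {o' : Finset Cfsg.GolayPt | o' ∈ Cfsg.octads ∧ o ∩ o' = s}.ncard = 4) := by
  refine ⟨fun h2 => ?_, fun h4 => ?_⟩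
  · obtain ⟨p, q, hpq, rfl⟩ := Finset.card_eq_two.1 h2
    obtain ⟨σ, hσ, h0, hp, hq⟩ := oct_normal2 o ho p q (hs (by simp)) (hs (by simp)) hpq
    rw [transport o _ σ hσ 8388609 h0 (by rw [smul_pair, hp, hq]; exact pair_eq)]
    exact count_base 8388609 (by norm_num) 16 (by decide +kernel)
  · obtain ⟨a, b, c, d, hab, hac, had, hbc, hbd, hcd, rfl⟩ := Finset.card_eq_four.1 h4
    have h5 : (o \ {a, b, c, d}).card = 4 := by
      rw [Finset.card_sdiff_of_subset hs, ho.2, h4]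
    obtain ⟨e, he⟩ := Finset.card_pos.1 (by rw [h5]; norm_num)
    rw [Finset.mem_sdiff] at he
    have hae : a ≠ e := fun h => he.2 (by simp [h])
    have hbe : b ≠ e := fun h => he.2 (by simp [h])
    have hce : c ≠ e := fun h => he.2 (by simp [h])
    have hde : d ≠ e := fun h => he.2 (by simp [h])
    have hx : ∀ i, (![a, b, c, d, e] : Fin 5 → Cfsg.GolayPt) i ∈ o := by
      intro i
      fin_cases i
      · exact hs (by simp)
      · exact hs (by simp)
      · exact hs (by simp)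
      · exact hs (by simp)
      · exact he.1
    obtain ⟨σ, hσ, h0, h1⟩ := oct_normal5 o ho
      ⟨_, inj5 a b c d e hab hac had hae hbc hbd hbe hcd hce hde⟩ ⟨_, y_inj⟩ hx y_mem
    have ga : σ a = pt 23 := h1 0
    have gb : σ b = pt 0 := h1 1
    have gc : σ c = pt 2 := h1 2
    have gd : σ d = pt 4 := h1 3
    rw [transport o _ σ hσ 8388629 h0 (by rw [smul_quad, ga, gb, gc, gd]; exact quad_eq)]
    exact count_base 8388629 (by norm_num) 4 (by decide +kernel)

end Cfsg.Agent.S1555
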