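import Cfsg.Statements.S1559
import Cfsg.Agent.Helper28.OrbTT
import Cfsg.Agent.Helper28.OrbMax

set_option autoImplicit false
open scoped Pointwise
open Cfsg

namespace Cfsg.Agent.S1559

open Cfsg.Agent.Helper28 Cfsg.Agent.Helper28.Golay
open scoped Pointwise

theorem hc3 (g : ↥Cfsg.M24) (x X : Finset (Finset Cfsg.GolayPt)) :
    hist (g • x) (g • X) = hist x X := hist_smul g.1 x X

theorem arith : ∀ J ∈ (Finset.range 6).powerset, 0 ∈ J →
    (∑ j ∈ J, [1, 42, 56, 1008, 2688].getD j 0) ∣ 3795 →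
    (∑ j ∈ J, [1, 42, 56, 1008, 2688].getD j 0) = 1 ∨
      (∑ j ∈ J, [1, 42, 56, 1008, 2688].getD j 0) = 3795 := by
  decide +kernel

/-- A trio stabiliser has five orbits on the 3795 trios, of sizes 1, 42, 56, 1008, 2688; and the stabiliser is a maximal proper subgroup. -/
theorem result (T : Finset (Finset Cfsg.GolayPt)) (hT : T ∈ Cfsg.trios) : ∃ X₁ ∈ Cfsg.trios, ∃ X₂ ∈ Cfsg.trios, ∃ X₃ ∈ Cfsg.trios, ∃ X₄ ∈ Cfsg.trios, (MulAction.orbit ↥(MulAction.stabilizer Cfsg.M24 T) X₁).ncard = 42 ∧ (MulAction.orbit ↥(MulAction.stabilizer Cfsg.M24 T) X₂).ncard = 56 ∧ (MulAction.orbit ↥(MulAction.stabilizer Cfsg.M24 T) X₃).ncard = 1008 ∧ (MulAction.orbit ↥(MulAction.stabilizer Cfsg.M24 T) X₄).ncard = 2688 ∧ Cfsg.trios = {T} ∪ MulAction.orbit ↥(MulAction.stabilizer Cfsg.M24 T) X₁ ∪ MulAction.orbit ↥(MulAction.stabilizer Cfsg.M24 T) X₂ ∪ MulAction.orbit ↥(MulAction.stabilizer Cfsg.M24 T) X₃ ∪ MulAction.orbit ↥(MulAction.stabilizer Cfsg.M24 T) X₄ ∧ IsCoatom (MulAction.stabilizer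 Cfsg.M24 T) := by
  obtain ⟨σ, hσ, hx⟩ := trio_trans T (trioM (5279, 1009728)) hT
    (trioM_mem (isTrioCode_sound (by decide +kernel)))
  have key := orbit_classes (G := ↥Cfsg.M24) Cfsg.trios (fun g X hX => smul_mem_trios g.2 hX)
      (fun (x X : Finset (Finset Cfsg.GolayPt)) => hist x X) hc3
      (trioM (5279, 1009728)) (fun v => trioM (OrbTT.repc v))
      (fun X hX => by
        obtain ⟨g, hg, h1, h2⟩ := OrbTT.fam.1 X hX
        exact ⟨⟨g, hg⟩, h1, h2⟩) T ⟨σ, hσ⟩ hx
  have hSS : hist T T = 30000000000000006 := by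
    have h := hist_smul σ T T
    rw [hx] at h
    rw [← h]
    exact OrbTT.self_hist
  have k1 : {X | X ∈ Cfsg.trios ∧ hist T X = 30000000000000006}.ncard = 1 := by
    rw [key.2]; exact OrbTT.cnt1
  have k2 : {X | X ∈ Cfsg.trios ∧ hist T X = 10000000400000004}.ncard = 42 := by
    rw [key.2]; exact OrbTT.cnt2
  have k3 : {X | X ∈ Cfsg.trios ∧ hist T X = 600000003}.ncard = 56 := by
    rw [key.2]; exact OrbTT.cnt3
  have k4 : {X | X ∈ Cfsg.trios ∧ hist T X = 400040001}.ncard = 1008 := by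
    rw [key.2]; exact OrbTT.cnt4
  have k5 : {X | X ∈ Cfsg.trios ∧ hist T X = 300060000}.ncard = 2688 := by
    rw [key.2]; exact OrbTT.cnt5
  have h3 := one_four_orbits Cfsg.trios (Set.toFinite _) (fun X => hist T X) key.1 T hT
      30000000000000006 10000000400000004 600000003 400040001 300060000 42 56 1008 2688 hSS
      k1 k2 k3 k4 k5
      (by norm_num) (by norm_num) (by norm_num) (by norm_num) (by decide) (by rw [ncard_trios])
  obtain ⟨X1, hX1, X2, hX2, X3, hX3, X4, hX4, e1, e2, e3, e4, e5⟩ := h3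
  refine ⟨X1, hX1, X2, hX2, X3, hX3, X4, hX4, e1, e2, e3, e4, e5, ?_⟩
  have horbit : MulAction.orbit ↥Cfsg.M24 T = Cfsg.trios := by
    ext Y
    constructor
    · rintro ⟨g, rfl⟩
      exact smul_mem_trios g.2 hT
    · intro hY
      obtain ⟨g, hg, e⟩ := trio_trans T Y hT hY
      exact ⟨⟨g, hg⟩, e⟩
  have hcov := cover_of_counts Cfsg.trios (Set.toFinite _) (fun X => hist T X)
    [30000000000000006, 10000000400000004, 600000003, 400040001, 300060000] (by decide)
    (by simp only [List.map_cons, List.map_nil, List.sum_cons, List.sum_nil, k1, k2, k3, k4, k5,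
          ncard_trios]
        norm_num)
  have e0 : List.idxOf (hist T T) [30000000000000006, 10000000400000004, 600000003, 400040001, 300060000] = 0 := by
    rw [hSS]; rfl
  refine coatom_of_classes (G := ↥Cfsg.M24) T Cfsg.trios horbit (fun X => hist T X)
    [30000000000000006, 10000000400000004, 600000003, 400040001, 300060000] [1, 42, 56, 1008, 2688] (by decide) rfl
    hcov key.1 ?_ 3795 ncard_trios (by norm_num) ?_
  · intro j hj
    have hj' : j < 5 := hj
    interval_cases j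
    · exact k1
    · exact k2
    · exact k3
    · exact k4
    · exact k5
  · intro J hJ h0 hd
    have h0' : List.idxOf (hist T T) [30000000000000006, 10000000400000004, 600000003, 400040001, 300060000] ∈ J := h0
    rw [e0] at h0'
    exact arith J hJ h0' hd

end Cfsg.Agent.S1559
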