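import Cfsg.Statements.S1560
import Cfsg.Agent.Helper28.OrbLib
import Cfsg.Agent.Helper28.OrbDataD

set_option autoImplicit false
open scoped Pointwise
open Cfsg

namespace Cfsg.Agent.S1560

open Cfsg.Agent.Helper28 Cfsg.Agent.Helper28.Golay

/-- the possible classes of a dodecad -/
def PD (c : Nat) : Bool :=
  Nat.beq (clsD c) 0 || Nat.beq (clsD c) 1 || Nat.beq (clsD c) 5 || Nat.beq (clsD c) 7 ||
    Nat.beq (clsD c) 9 || Nat.beq (clsD c) 13

theorem hallD : allPow 12 0 (fun m => PD (encode m)) = true := by decide +kernel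

/-- Intersection numbers of dodecads: a dodecad meets every other dodecad in 0, 4, 6 or 8 points, meeting 495 of them in 4 points, 1584 in 6 points and 495 in 8 points. -/
theorem result (d : Finset Cfsg.GolayPt) (hd : d ∈ Cfsg.dodecads) : (∀ d' ∈ Cfsg.dodecads, d' ≠ d → (d ∩ d').card = 0 ∨ (d ∩ d').card = 4 ∨ (d ∩ d').card = 6 ∨ (d ∩ d').card = 8) ∧ {d' : Finset Cfsg.GolayPt | d' ∈ Cfsg.dodecads ∧ (d ∩ d').card = 4}.ncard = 495 ∧ {d' : Finset Cfsg.GolayPt | d' ∈ Cfsg.dodecads ∧ (d ∩ d').card = 6}.ncard = 1584 ∧ {d' : Finset Cfsg.GolayPt | d' ∈ Cfsg.dodecads ∧ (d ∩ d').card = 8}.ncard = 495 := by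
  obtain ⟨σ, hσ, h0⟩ := dod_trans d (toSet d0) hd d0_mem
  have hspec : ∀ y : Finset GolayPt, clsD (maskOf (σ • y)) = specC 12 d (fun _ => True) y := by
    intro y
    simp only [clsD, specC, nbeq_iff, wt_smul, wt_and_smul h0, and_true]
  have hset : ∀ j : Nat, {d' : Finset GolayPt | d' ∈ dodecads ∧ (d ∩ d').card = j} =
      {y : Finset GolayPt | y ∈ supports (golayCode : Set (GolayPt → ZMod 2)) ∧ specC 12 d (fun _ => True) y = j + 1} := by
    intro j
    ext y
    show (y ∈ dodecads ∧ (d ∩ y).card = j) ↔ (y ∈ supports (golayCode : Set (GolayPt → ZMod 2)) ∧ specC 12 d (fun _ => True) y = j + 1)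
    rw [specC_eq_succ_iff]
    constructor
    · rintro ⟨⟨h1, h2⟩, h3⟩
      exact ⟨h1, h2, trivial, h3⟩
    · rintro ⟨h1, h2, -, h3⟩
      exact ⟨⟨h1, h2⟩, h3⟩
  refine ⟨?_, ?_, ?_, ?_⟩
  · intro d' hd' hne
    have h1 := cw_forall PD hallD (σ • d') (smul_mem_supports hσ hd'.1)
    simp only [PD, hspec, Bool.or_eq_true, nbeq_iff] at h1
    rw [specC_pos (P := fun _ => True) hd'.2 trivial] at h1
    have hne12 : (d ∩ d').card ≠ 12 := by
      intro h12
      have e1 : d ∩ d' = d := Finset.eq_of_subset_of_card_le Finset.inter_subset_left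
        (le_of_eq (by rw [h12, hd.2]))
      have e2 : d ∩ d' = d' := Finset.eq_of_subset_of_card_le Finset.inter_subset_right
        (le_of_eq (by rw [h12, hd'.2]))
      exact hne (e2.symm.trans e1)
    omega
  · rw [hset 4, count_transport_cls clsD hσ (specC 12 d (fun _ => True)) hspec]
    decide +kernel
  · rw [hset 6, count_transport_cls clsD hσ (specC 12 d (fun _ => True)) hspec]
    decide +kernel
  · rw [hset 8, count_transport_cls clsD hσ (specC 12 d (fun _ => True)) hspec]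
    decide +kernel

end Cfsg.Agent.S1560
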