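import Cfsg.Statements.S1561
import Cfsg.Agent.Helper28.OrbLib
import Cfsg.Agent.Helper28.OrbDataD

set_option autoImplicit false
open scoped Pointwise
open Cfsg

namespace Cfsg.Agent.S1561

open Cfsg.Agent.Helper28 Cfsg.Agent.Helper28.Golay

/-- Two dodecads meeting a fixed dodecad in equally many points lie in one orbit of its stabiliser. -/
theorem result (d d' d'' : Finset Cfsg.GolayPt) (hd : d ∈ Cfsg.dodecads) (hd' : d' ∈ Cfsg.dodecads) (hd'' : d'' ∈ Cfsg.dodecads) (h : (d ∩ d').card = (d ∩ d'').card) : ∃ g : Equiv.Perm Cfsg.GolayPt, g ∈ Cfsg.M24 ∧ g • d = d ∧ g • d' = d'' := by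
  obtain ⟨σ, hσ, h0⟩ := dod_trans d (toSet d0) hd d0_mem
  have hspec : ∀ y : Finset GolayPt, clsD (maskOf (σ • y)) = specC 12 d (fun _ => True) y := by
    intro y
    simp only [clsD, specC, nbeq_iff, wt_smul, wt_and_smul h0, and_true]
  obtain ⟨τ, hτ, e⟩ := orb_transport orbD hσ (specC 12 d (fun _ => True)) hspec d' d'' hd'.1 hd''.1
    (by rw [specC_pos (P := fun _ => True) hd'.2 trivial]; omega)
    (by rw [specC_pos (P := fun _ => True) hd'.2 trivial, specC_pos (P := fun _ => True) hd''.2 trivial, h])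
  exact ⟨σ⁻¹ * τ * σ, conj_mem hσ hτ.1, conj_fix_set h0 (hτ.2.1 d0 (by simp)), e⟩

end Cfsg.Agent.S1561
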