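import Cfsg.Statements.S1563
import Cfsg.Agent.Helper28.SimpleM
import Cfsg.Agent.Helper28.Maximal

set_option autoImplicit false
open scoped Pointwise
open Cfsg

namespace Cfsg.Agent.S1563

open Cfsg.Agent.Helper28 Cfsg.Agent.Helper28.Golay
open scoped Pointwise

/-- the sizes of the classes of pairs by their intersection with a fixed pair -/
def nP (j : Nat) : Nat := if j = 0 then 231 else if j = 1 then 44 else if j = 2 then 1 else 0

theorem arithP : ∀ J ∈ (Finset.range 3).powerset, 2 ∈ J → (∑ j ∈ J, nP j) ∣ 276 →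
    (∑ j ∈ J, nP j) = 1 ∨ (∑ j ∈ J, nP j) = 276 := by decide +kernel

theorem smul_pair (σ : Equiv.Perm Cfsg.GolayPt) (a b : Cfsg.GolayPt) :
    σ • ({a, b} : Finset Cfsg.GolayPt) = {σ a, σ b} := by
  rw [Finset.smul_finset_insert, Finset.smul_finset_singleton]
  rfl

theorem orbit_pair (s : Finset Cfsg.GolayPt) (hs : s.card = 2) :
    MulAction.orbit Cfsg.M24 s = {y : Finset Cfsg.GolayPt | y.card = 2} := by
  ext y
  constructor
  · rintro ⟨⟨σ, hσ⟩, rfl⟩
    show (σ • s).card = 2
    rw [Finset.card_smul_finset, hs]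
  · intro hy
    obtain ⟨a, b, hab, rfl⟩ := Finset.card_eq_two.1 hs
    obtain ⟨c, d, hcd, rfl⟩ := Finset.card_eq_two.1 hy
    obtain ⟨σ, hσ, h1, h2⟩ := trans2 a b c d hab hcd
    refine ⟨⟨σ, hσ⟩, ?_⟩
    show σ • ({a, b} : Finset Cfsg.GolayPt) = {c, d}
    rw [smul_pair, h1, h2]

theorem decomp1 (s y : Finset Cfsg.GolayPt) (hs : s.card = 2) (hy : y.card = 2)
    (h1 : (s ∩ y).card = 1) :
    ∃ u v c, u ≠ v ∧ s = {u, v} ∧ y = {u, c} ∧ u ≠ c ∧ v ≠ c := by
  obtain ⟨u, hu⟩ := Finset.card_eq_one.1 h1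
  have hu' : u ∈ s ∩ y := by rw [hu]; exact Finset.mem_singleton_self u
  obtain ⟨hus, huy⟩ := Finset.mem_inter.1 hu'
  obtain ⟨v, hv⟩ := Finset.card_eq_one.1 (by rw [Finset.card_erase_of_mem hus, hs] :
    (s.erase u).card = 1)
  obtain ⟨c, hc⟩ := Finset.card_eq_one.1 (by rw [Finset.card_erase_of_mem huy, hy] :
    (y.erase u).card = 1)
  have hv' : v ∈ s.erase u := by rw [hv]; exact Finset.mem_singleton_self v
  have hc' : c ∈ y.erase u := by rw [hc]; exact Finset.mem_singleton_self c
  obtain ⟨hvu, hvs⟩ := Finset.mem_erase.1 hv'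
  obtain ⟨hcu, hcy⟩ := Finset.mem_erase.1 hc'
  refine ⟨u, v, c, Ne.symm hvu, ?_, ?_, Ne.symm hcu, ?_⟩
  · rw [← Finset.insert_erase hus, hv]
  · rw [← Finset.insert_erase huy, hc]
  · intro e
    have : c ∈ s ∩ y := Finset.mem_inter.2 ⟨e ▸ hvs, hcy⟩
    rw [hu, Finset.mem_singleton] at this
    exact hcu this

theorem pair_trans (s y y' : Finset Cfsg.GolayPt) (hs : s.card = 2) (hy : y.card = 2)
    (hy' : y'.card = 2) (h : (s ∩ y).card = (s ∩ y').card) :
    ∃ σ ∈ Cfsg.M24, σ • s = s ∧ σ • y = y' := by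
  have hle : (s ∩ y).card ≤ 2 := by
    rw [← hs]
    exact Finset.card_le_card Finset.inter_subset_left
  have h012 : (s ∩ y).card = 0 ∨ (s ∩ y).card = 1 ∨ (s ∩ y).card = 2 := by omega
  rcases h012 with h0 | h1 | h2
  · have h0' : (s ∩ y').card = 0 := by rw [← h, h0]
    rw [Finset.card_eq_zero] at h0 h0'
    obtain ⟨a, b, hab, rfl⟩ := Finset.card_eq_two.1 hs
    obtain ⟨c, d, hcd, rfl⟩ := Finset.card_eq_two.1 hy
    obtain ⟨c', d', hcd', rfl⟩ := Finset.card_eq_two.1 hy'
    have hn : ∀ (u v w : Cfsg.GolayPt), ({a, b} : Finset Cfsg.GolayPt) ∩ {v, w} = ∅ →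
        u ∈ ({a, b} : Finset Cfsg.GolayPt) → u ∈ ({v, w} : Finset Cfsg.GolayPt) → False := by
      intro u v w he h1 h2
      have : u ∈ ({a, b} : Finset Cfsg.GolayPt) ∩ {v, w} := Finset.mem_inter.2 ⟨h1, h2⟩
      rw [he] at this
      exact absurd this (Finset.notMem_empty u)
    obtain ⟨σ, hσ, s1, s2, s3, s4⟩ := trans4 a b c d a b c' d' hab
      (fun e => hn a c d h0 (by simp) (by simp [e]))
      (fun e => hn b c d h0 (by simp) (by simp [e]))
      (fun e => hn a c d h0 (by simp) (by simp [e]))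
      (fun e => hn b c d h0 (by simp) (by simp [e])) hcd hab
      (fun e => hn a c' d' h0' (by simp) (by simp [e]))
      (fun e => hn b c' d' h0' (by simp) (by simp [e]))
      (fun e => hn a c' d' h0' (by simp) (by simp [e]))
      (fun e => hn b c' d' h0' (by simp) (by simp [e])) hcd'
    exact ⟨σ, hσ, by rw [smul_pair, s1, s2], by rw [smul_pair, s3, s4]⟩
  · obtain ⟨u, v, c, huv, rfl, rfl, huc, hvc⟩ := decomp1 s y hs hy h1
    obtain ⟨u', v', c', huv', e', rfl, huc', hvc'⟩ := decomp1 _ y' hs hy' (by rw [← h, h1])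
    obtain ⟨σ, hσ, s1, s2, s3⟩ := trans3 u v c u' v' c' huv huc hvc huv' huc' hvc'
    refine ⟨σ, hσ, ?_, ?_⟩
    · rw [smul_pair, s1, s2, ← e']
    · rw [smul_pair, s1, s3]
  · have h2' : (s ∩ y').card = 2 := by rw [← h, h2]
    have e1 : s ∩ y = s := Finset.eq_of_subset_of_card_le Finset.inter_subset_left (by rw [h2, hs])
    have e2 : s ∩ y = y := Finset.eq_of_subset_of_card_le Finset.inter_subset_right (by rw [h2, hy])
    have e1' : s ∩ y' = s :=
      Finset.eq_of_subset_of_card_le Finset.inter_subset_left (by rw [h2', hs])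
    have e2' : s ∩ y' = y' :=
      Finset.eq_of_subset_of_card_le Finset.inter_subset_right (by rw [h2', hy'])
    exact ⟨1, Cfsg.M24.one_mem, one_smul _ _, by rw [one_smul, ← e2, e1, ← e1', e2']⟩

theorem card_GolayPt' : Fintype.card Cfsg.GolayPt = 24 := by decide +kernel

theorem count_pair (s : Finset Cfsg.GolayPt) (hs : s.card = 2) : ∀ j < 3,
    {y : Finset Cfsg.GolayPt | y ∈ {y : Finset Cfsg.GolayPt | y.card = 2} ∧
      (s ∩ y).card = j}.ncard = nP j := by
  have hset : ∀ j, {y : Finset Cfsg.GolayPt | y ∈ {y : Finset Cfsg.GolayPt | y.card = 2} ∧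
      (s ∩ y).card = j} =
      (((Finset.powersetCard 2 (Finset.univ : Finset Cfsg.GolayPt)).filter
        fun y => (s ∩ y).card = j : Finset (Finset Cfsg.GolayPt)) : Set (Finset Cfsg.GolayPt)) := by
    intro j
    ext y
    simp [Finset.mem_powersetCard]
  have hf0 : ((Finset.powersetCard 2 (Finset.univ : Finset Cfsg.GolayPt)).filter
      fun y => (s ∩ y).card = 0).card = 231 := by
    have e : ((Finset.powersetCard 2 (Finset.univ : Finset Cfsg.GolayPt)).filter
        fun y => (s ∩ y).card = 0) = Finset.powersetCard 2 sᶜ := by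
      ext y
      rw [Finset.mem_filter, Finset.mem_powersetCard, Finset.mem_powersetCard, Finset.card_eq_zero,
        ← Finset.disjoint_iff_inter_eq_empty, Finset.subset_compl_iff_disjoint_left]
      constructor
      · rintro ⟨⟨-, h1⟩, h2⟩
        exact ⟨h2, h1⟩
      · rintro ⟨h1, h2⟩
        exact ⟨⟨Finset.subset_univ _, h2⟩, h1⟩
    rw [e, Finset.card_powersetCard, Finset.card_compl, card_GolayPt', hs]
    rfl
  have hf2 : ((Finset.powersetCard 2 (Finset.univ : Finset Cfsg.GolayPt)).filter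
      fun y => (s ∩ y).card = 2).card = 1 := by
    have e : ((Finset.powersetCard 2 (Finset.univ : Finset Cfsg.GolayPt)).filter
        fun y => (s ∩ y).card = 2) = {s} := by
      ext y
      rw [Finset.mem_filter, Finset.mem_powersetCard, Finset.mem_singleton]
      constructor
      · rintro ⟨⟨-, h1⟩, h2⟩
        have e1 : s ∩ y = s :=
          Finset.eq_of_subset_of_card_le Finset.inter_subset_left (by rw [h2, hs])
        have e2 : s ∩ y = y :=
          Finset.eq_of_subset_of_card_le Finset.inter_subset_right (by rw [h2, h1])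
        rw [← e2, e1]
      · rintro rfl
        exact ⟨⟨Finset.subset_univ _, hs⟩, by rw [Finset.inter_self, hs]⟩
    rw [e, Finset.card_singleton]
  have htot := Finset.card_eq_sum_card_fiberwise (s := Finset.powersetCard 2
    (Finset.univ : Finset Cfsg.GolayPt)) (t := Finset.range 3) (f := fun y => (s ∩ y).card)
    (by
      intro y _
      rw [Finset.mem_coe, Finset.mem_range]
      have : (s ∩ y).card ≤ s.card := Finset.card_le_card Finset.inter_subset_left
      show (s ∩ y).card < 3
      omega)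
  rw [Finset.card_powersetCard, Finset.card_univ, card_GolayPt', Finset.sum_range_succ,
    Finset.sum_range_succ, Finset.sum_range_succ, Finset.sum_range_zero, hf0, hf2] at htot
  have hc : (24 : Nat).choose 2 = 276 := rfl
  rw [hc] at htot
  intro j hj
  rw [hset j, Set.ncard_coe_finset]
  have h012 : j = 0 ∨ j = 1 ∨ j = 2 := by omega
  rcases h012 with rfl | rfl | rfl
  · exact hf0
  · show _ = 44
    omega
  · exact hf2

/-- The stabiliser of a pair of points (setwise) is a maximal proper subgroup of the group of the length-24 code. -/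
theorem result (s : Finset Cfsg.GolayPt) (hs : s.card = 2) : IsCoatom (MulAction.stabilizer Cfsg.M24 s) := by

  have horb := orbit_pair s hs
  refine isCoatom_stabilizer (G := Cfsg.M24) s (fun y => (s ∩ y).card) 3 276 nP ?_ ?_ ?_ ?_
    (by norm_num) ?_
  · intro y _
    have h1 : (s ∩ y).card ≤ s.card := Finset.card_le_card Finset.inter_subset_left
    show (s ∩ y).card < 3
    omega
  · intro y hy y' hy' hcc
    rw [horb] at hy hy'
    obtain ⟨σ, hσ, e1, e2⟩ := pair_trans s y y' hs hy hy' hcc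
    exact ⟨⟨σ, hσ⟩, MulAction.mem_stabilizer_iff.2 e1, e2⟩
  · intro j hj
    rw [horb]
    exact count_pair s hs j hj
  · rw [horb]
    have e : {y : Finset Cfsg.GolayPt | y.card = 2} =
        ((Finset.powersetCard 2 (Finset.univ : Finset Cfsg.GolayPt) :
          Finset (Finset Cfsg.GolayPt)) : Set (Finset Cfsg.GolayPt)) := by
      ext y
      simp [Finset.mem_powersetCard]
    rw [e, Set.ncard_coe_finset, Finset.card_powersetCard, Finset.card_univ, card_GolayPt']
    rfl
  · intro J hJ hx hd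
    exact arithP J hJ (by rwa [Finset.inter_self, hs] at hx) hd

end Cfsg.Agent.S1563
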