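import Cfsg.Statements.S1564
import Cfsg.Agent.Helper28.Triads
import Cfsg.Agent.Helper28.Maximal

set_option autoImplicit false
open scoped Pointwise
open Cfsg

namespace Cfsg.Agent.S1564

open Cfsg.Agent.Helper28 Cfsg.Agent.Helper28.Golay
open scoped Pointwise

/-- the class of a triple with respect to a fixed triple -/
noncomputable def cT (s y : Finset Cfsg.GolayPt) : ℕ := by
  classical
  exact if Disjoint s y then (if ∃ o ∈ Cfsg.octads, s ∪ y ⊆ o then 4 else 0) else (s ∩ y).card

theorem cT_in {s y : Finset Cfsg.GolayPt} (h : Disjoint s y)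
    (h' : ∃ o ∈ Cfsg.octads, s ∪ y ⊆ o) : cT s y = 4 := by
  rw [cT, if_pos h, if_pos h']

theorem cT_out {s y : Finset Cfsg.GolayPt} (h : Disjoint s y)
    (h' : ¬ ∃ o ∈ Cfsg.octads, s ∪ y ⊆ o) : cT s y = 0 := by
  rw [cT, if_pos h, if_neg h']

theorem cT_not {s y : Finset Cfsg.GolayPt} (h : ¬ Disjoint s y) : cT s y = (s ∩ y).card := by
  rw [cT, if_neg h]

theorem inter_pos {s y : Finset Cfsg.GolayPt} (h : ¬ Disjoint s y) : 1 ≤ (s ∩ y).card := by
  rw [Finset.not_disjoint_iff_nonempty_inter] at h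
  exact Finset.card_pos.2 h

theorem inter_le {s y : Finset Cfsg.GolayPt} (hs : s.card = 3) : (s ∩ y).card ≤ 3 := by
  rw [← hs]
  exact Finset.card_le_card Finset.inter_subset_left

theorem inter_zero {s y : Finset Cfsg.GolayPt} (h : Disjoint s y) : (s ∩ y).card = 0 := by
  rw [Finset.card_eq_zero, ← Finset.disjoint_iff_inter_eq_empty]
  exact h

/-- the sizes of the classes -/
def nT (j : Nat) : Nat :=
  if j = 0 then 1120 else if j = 1 then 630 else if j = 2 then 63 else if j = 3 then 1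
  else if j = 4 then 210 else 0

theorem arithT : ∀ J ∈ (Finset.range 5).powerset, 3 ∈ J → (∑ j ∈ J, nT j) ∣ 2024 →
    (∑ j ∈ J, nT j) = 1 ∨ (∑ j ∈ J, nT j) = 2024 := by decide +kernel

theorem card24 : Fintype.card Cfsg.GolayPt = 24 := by decide +kernel

/-- the number of subsets of size `k + m` meeting a fixed set in `k` points -/
theorem card_split (s : Finset Cfsg.GolayPt) (k m : ℕ) :
    ((Finset.powersetCard (k + m) (Finset.univ : Finset Cfsg.GolayPt)).filter
      fun y => (s ∩ y).card = k).card = s.card.choose k * (24 - s.card).choose m := by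
  rw [← card24, ← Finset.card_compl, ← Finset.card_powersetCard, ← Finset.card_powersetCard,
    ← Finset.card_product]
  refine Finset.card_nbij' (fun y => (s ∩ y, y \ s)) (fun p => p.1 ∪ p.2) ?_ ?_ ?_ ?_
  · intro y hy
    rw [Finset.mem_coe, Finset.mem_filter, Finset.mem_powersetCard] at hy
    rw [Finset.mem_coe, Finset.mem_product, Finset.mem_powersetCard, Finset.mem_powersetCard]
    refine ⟨⟨Finset.inter_subset_left, hy.2⟩, ?_, ?_⟩
    · intro q hq
      rw [Finset.mem_compl]
      exact (Finset.mem_sdiff.1 hq).2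
    · have h1 := Finset.card_sdiff_add_card_inter y s
      rw [Finset.inter_comm, hy.2, hy.1.2] at h1
      show (y \ s).card = m
      omega
  · rintro ⟨A, B⟩ hp
    rw [Finset.mem_coe, Finset.mem_product, Finset.mem_powersetCard, Finset.mem_powersetCard] at hp
    obtain ⟨⟨hA, hAc⟩, hB, hBc⟩ := hp
    have hdis : Disjoint A B := by
      rw [Finset.disjoint_left]
      intro q hqA hqB
      exact Finset.mem_compl.1 (hB hqB) (hA hqA)
    have hsA : s ∩ (A ∪ B) = A := by
      ext q
      rw [Finset.mem_inter, Finset.mem_union]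
      constructor
      · rintro ⟨h1, h2 | h2⟩
        · exact h2
        · exact absurd h1 (Finset.mem_compl.1 (hB h2))
      · intro h
        exact ⟨hA h, Or.inl h⟩
    rw [Finset.mem_coe, Finset.mem_filter, Finset.mem_powersetCard]
    exact ⟨⟨Finset.subset_univ _, by rw [Finset.card_union_of_disjoint hdis, hAc, hBc]⟩,
      by rw [hsA, hAc]⟩
  · intro y _
    show s ∩ y ∪ y \ s = y
    rw [Finset.inter_comm, Finset.union_comm]
    exact Finset.sdiff_union_inter y s
  · rintro ⟨A, B⟩ hp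
    rw [Finset.mem_coe, Finset.mem_product, Finset.mem_powersetCard, Finset.mem_powersetCard] at hp
    obtain ⟨⟨hA, hAc⟩, hB, hBc⟩ := hp
    show (s ∩ (A ∪ B), (A ∪ B) \ s) = (A, B)
    congr 1
    · ext q
      rw [Finset.mem_inter, Finset.mem_union]
      constructor
      · rintro ⟨h1, h2 | h2⟩
        · exact h2
        · exact absurd h1 (Finset.mem_compl.1 (hB h2))
      · intro h
        exact ⟨hA h, Or.inl h⟩
    · ext q
      rw [Finset.mem_sdiff, Finset.mem_union]
      constructor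
      · rintro ⟨h1 | h1, h2⟩
        · exact absurd (hA h1) h2
        · exact h1
      · intro h
        exact ⟨Or.inr h, Finset.mem_compl.1 (hB h)⟩

theorem ncard_split (s : Finset Cfsg.GolayPt) (k m : ℕ) :
    {y : Finset Cfsg.GolayPt | y.card = k + m ∧ (s ∩ y).card = k}.ncard =
      s.card.choose k * (24 - s.card).choose m := by
  rw [← card_split s k m, ← Set.ncard_coe_finset]
  congr 1
  ext y
  simp [Finset.mem_powersetCard]

theorem orbit_triple (s : Finset Cfsg.GolayPt) (hs : s.card = 3) :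
    MulAction.orbit Cfsg.M24 s = {y : Finset Cfsg.GolayPt | y.card = 3} := by
  ext y
  constructor
  · rintro ⟨⟨σ, hσ⟩, rfl⟩
    show (σ • s).card = 3
    rw [Finset.card_smul_finset, hs]
  · intro hy
    obtain ⟨a, b, c, hab, hac, hbc, rfl⟩ := Finset.card_eq_three.1 hs
    obtain ⟨a', b', c', hab', hac', hbc', rfl⟩ := Finset.card_eq_three.1 hy
    obtain ⟨σ, hσ, h1, h2, h3⟩ := trans3 a b c a' b' c' hab hac hbc hab' hac' hbc'
    refine ⟨⟨σ, hσ⟩, ?_⟩
    show σ • ({a, b, c} : Finset Cfsg.GolayPt) = {a', b', c'}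
    rw [smul_triple, h1, h2, h3]

theorem decomp2 (s y : Finset Cfsg.GolayPt) (hs : s.card = 3) (hy : y.card = 3)
    (h : (s ∩ y).card = 2) :
    ∃ a b c u, a ≠ b ∧ a ≠ c ∧ b ≠ c ∧ s = {a, b, c} ∧ y = {a, b, u} ∧ a ≠ u ∧ b ≠ u ∧ c ≠ u := by
  obtain ⟨a, b, hab, hi⟩ := Finset.card_eq_two.1 h
  have h1 := Finset.card_sdiff_add_card_inter s y
  have h2 := Finset.card_sdiff_add_card_inter y s
  rw [Finset.inter_comm y s] at h2
  obtain ⟨c, hc⟩ := Finset.card_eq_one.1 (by omega : (s \ y).card = 1)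
  obtain ⟨u, hu⟩ := Finset.card_eq_one.1 (by omega : (y \ s).card = 1)
  have ha : a ∈ s ∩ y := by rw [hi]; simp
  have hb : b ∈ s ∩ y := by rw [hi]; simp
  have hc' : c ∈ s \ y := by rw [hc]; simp
  have hu' : u ∈ y \ s := by rw [hu]; simp
  rw [Finset.mem_inter] at ha hb
  rw [Finset.mem_sdiff] at hc' hu'
  have es : s = {a, b, c} := by
    rw [← Finset.sdiff_union_inter s y, hc, hi]
    ext q
    simp only [Finset.mem_union, Finset.mem_insert, Finset.mem_singleton]
    tauto
  have ey : y = {a, b, u} := by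
    rw [← Finset.sdiff_union_inter y s, hu, Finset.inter_comm, hi]
    ext q
    simp only [Finset.mem_union, Finset.mem_insert, Finset.mem_singleton]
    tauto
  exact ⟨a, b, c, u, hab, fun e => hc'.2 (e ▸ ha.2), fun e => hc'.2 (e ▸ hb.2), es, ey,
    fun e => hu'.2 (e ▸ ha.1), fun e => hu'.2 (e ▸ hb.1), fun e => hu'.2 (e ▸ hc'.1)⟩

theorem decomp1 (s y : Finset Cfsg.GolayPt) (hs : s.card = 3) (hy : y.card = 3)
    (h : (s ∩ y).card = 1) :
    ∃ a b c u v, a ≠ b ∧ a ≠ c ∧ b ≠ c ∧ s = {a, b, c} ∧ y = {a, u, v} ∧ u ≠ v ∧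
      a ≠ u ∧ b ≠ u ∧ c ≠ u ∧ a ≠ v ∧ b ≠ v ∧ c ≠ v := by
  obtain ⟨a, hi⟩ := Finset.card_eq_one.1 h
  have h1 := Finset.card_sdiff_add_card_inter s y
  have h2 := Finset.card_sdiff_add_card_inter y s
  rw [Finset.inter_comm y s] at h2
  obtain ⟨b, c, hbc, hc⟩ := Finset.card_eq_two.1 (by omega : (s \ y).card = 2)
  obtain ⟨u, v, huv, hu⟩ := Finset.card_eq_two.1 (by omega : (y \ s).card = 2)
  have ha : a ∈ s ∩ y := by rw [hi]; simp
  have hb' : b ∈ s \ y := by rw [hc]; simp
  have hc' : c ∈ s \ y := by rw [hc]; simp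
  have hu' : u ∈ y \ s := by rw [hu]; simp
  have hv' : v ∈ y \ s := by rw [hu]; simp
  rw [Finset.mem_inter] at ha
  rw [Finset.mem_sdiff] at hb' hc' hu' hv'
  have es : s = {a, b, c} := by
    rw [← Finset.sdiff_union_inter s y, hc, hi]
    ext q
    simp only [Finset.mem_union, Finset.mem_insert, Finset.mem_singleton]
    tauto
  have ey : y = {a, u, v} := by
    rw [← Finset.sdiff_union_inter y s, hu, Finset.inter_comm, hi]
    ext q
    simp only [Finset.mem_union, Finset.mem_insert, Finset.mem_singleton]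
    tauto
  exact ⟨a, b, c, u, v, fun e => hb'.2 (e ▸ ha.2), fun e => hc'.2 (e ▸ ha.2), hbc, es, ey, huv,
    fun e => hu'.2 (e ▸ ha.1), fun e => hu'.2 (e ▸ hb'.1), fun e => hu'.2 (e ▸ hc'.1),
    fun e => hv'.2 (e ▸ ha.1), fun e => hv'.2 (e ▸ hb'.1), fun e => hv'.2 (e ▸ hc'.1)⟩

theorem triple_trans (s y y' : Finset Cfsg.GolayPt) (hs : s.card = 3) (hy : y.card = 3)
    (hy' : y'.card = 3) (h : cT s y = cT s y') : ∃ σ ∈ Cfsg.M24, σ • s = s ∧ σ • y = y' := by
  by_cases hd : Disjoint s y
  · have hd' : Disjoint s y' := by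
      by_contra hnd
      rw [cT_not hnd] at h
      have h1 := inter_pos hnd
      have h2 := inter_le (y := y') hs
      by_cases ho : ∃ o ∈ Cfsg.octads, s ∪ y ⊆ o
      · rw [cT_in hd ho] at h
        omega
      · rw [cT_out hd ho] at h
        omega
    refine triad_trans s y y' hs hy hy' hd hd' ?_
    by_cases ho : ∃ o ∈ Cfsg.octads, s ∪ y ⊆ o
    · rw [cT_in hd ho] at h
      by_cases ho' : ∃ o ∈ Cfsg.octads, s ∪ y' ⊆ o
      · exact ⟨fun _ => ho', fun _ => ho⟩
      · rw [cT_out hd' ho'] at h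
        omega
    · rw [cT_out hd ho] at h
      by_cases ho' : ∃ o ∈ Cfsg.octads, s ∪ y' ⊆ o
      · rw [cT_in hd' ho'] at h
        omega
      · exact ⟨fun hh => absurd hh ho, fun hh => absurd hh ho'⟩
  · have hd' : ¬ Disjoint s y' := by
      intro hd'
      rw [cT_not hd] at h
      have h1 := inter_pos hd
      have h2 := inter_le (y := y) hs
      by_cases ho : ∃ o ∈ Cfsg.octads, s ∪ y' ⊆ o
      · rw [cT_in hd' ho] at h
        omega
      · rw [cT_out hd' ho] at h
        omega
    rw [cT_not hd, cT_not hd'] at h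
    have h1 := inter_pos hd
    have h2 := inter_le (y := y) hs
    have h123 : (s ∩ y).card = 1 ∨ (s ∩ y).card = 2 ∨ (s ∩ y).card = 3 := by omega
    rcases h123 with k1 | k2 | k3
    · obtain ⟨a, b, c, u, v, hab, hac, hbc, rfl, rfl, huv, hau, hbu, hcu, hav, hbv, hcv⟩ :=
        decomp1 s y hs hy k1
      obtain ⟨a', b', c', u', v', hab', hac', hbc', es', rfl, huv', hau', hbu', hcu', hav', hbv',
        hcv'⟩ := decomp1 _ y' hs hy' (by rw [← h, k1])
      obtain ⟨σ, hσ, h5⟩ := five_trans ⟨_, inj5 a b c u v hab hac hau hav hbc hbu hbv hcu hcv huv⟩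
        ⟨_, inj5 a' b' c' u' v' hab' hac' hau' hav' hbc' hbu' hbv' hcu' hcv' huv'⟩
      have g1 : σ a = a' := h5 0
      have g2 : σ b = b' := h5 1
      have g3 : σ c = c' := h5 2
      have g4 : σ u = u' := h5 3
      have g5 : σ v = v' := h5 4
      refine ⟨σ, hσ, ?_, ?_⟩
      · rw [smul_triple, g1, g2, g3, ← es']
      · rw [smul_triple, g1, g4, g5]
    · obtain ⟨a, b, c, u, hab, hac, hbc, rfl, rfl, hau, hbu, hcu⟩ := decomp2 s y hs hy k2
      obtain ⟨a', b', c', u', hab', hac', hbc', es', rfl, hau', hbu', hcu'⟩ :=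
        decomp2 _ y' hs hy' (by rw [← h, k2])
      obtain ⟨σ, hσ, g1, g2, g3, g4⟩ := trans4 a b c u a' b' c' u' hab hac hbc hau hbu hcu
        hab' hac' hbc' hau' hbu' hcu'
      refine ⟨σ, hσ, ?_, ?_⟩
      · rw [smul_triple, g1, g2, g3, ← es']
      · rw [smul_triple, g1, g2, g4]
    · have k3' : (s ∩ y').card = 3 := by rw [← h, k3]
      have e1 : s ∩ y = s := Finset.eq_of_subset_of_card_le Finset.inter_subset_left (by rw [k3, hs])
      have e2 : s ∩ y = y := Finset.eq_of_subset_of_card_le Finset.inter_subset_right (by rw [k3, hy])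
      have e1' : s ∩ y' = s :=
        Finset.eq_of_subset_of_card_le Finset.inter_subset_left (by rw [k3', hs])
      have e2' : s ∩ y' = y' :=
        Finset.eq_of_subset_of_card_le Finset.inter_subset_right (by rw [k3', hy'])
      exact ⟨1, Cfsg.M24.one_mem, one_smul _ _, by rw [one_smul, ← e2, e1, ← e1', e2']⟩

theorem count_triple (s : Finset Cfsg.GolayPt) (hs : s.card = 3) : ∀ j < 5,
    {y : Finset Cfsg.GolayPt | y ∈ {y : Finset Cfsg.GolayPt | y.card = 3} ∧
      cT s y = j}.ncard = nT j := by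
  intro j hj
  have hcases : j = 0 ∨ j = 1 ∨ j = 2 ∨ j = 3 ∨ j = 4 := by omega
  have key : ∀ k, 1 ≤ k → k ≤ 3 → {y : Finset Cfsg.GolayPt |
      y ∈ {y : Finset Cfsg.GolayPt | y.card = 3} ∧ cT s y = k} =
      {y : Finset Cfsg.GolayPt | y.card = 3 ∧ (s ∩ y).card = k} := by
    intro k hk1 hk3
    ext y
    simp only [Set.mem_ofPred_eq]
    constructor
    · rintro ⟨h1, h2⟩
      refine ⟨h1, ?_⟩
      by_cases hd : Disjoint s y
      · by_cases ho : ∃ o ∈ Cfsg.octads, s ∪ y ⊆ o
        · rw [cT_in hd ho] at h2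
          omega
        · rw [cT_out hd ho] at h2
          omega
      · rwa [cT_not hd] at h2
    · rintro ⟨h1, h2⟩
      refine ⟨h1, ?_⟩
      have hd : ¬ Disjoint s y := by
        intro hd
        rw [inter_zero hd] at h2
        omega
      rw [cT_not hd, h2]
  rcases hcases with rfl | rfl | rfl | rfl | rfl
  · refine Eq.trans ?_ (count_triads_out s hs)
    congr 1
    ext y
    simp only [Set.mem_ofPred_eq]
    constructor
    · rintro ⟨h1, h2⟩
      by_cases hd : Disjoint s y
      · by_cases ho : ∃ o ∈ Cfsg.octads, s ∪ y ⊆ o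
        · rw [cT_in hd ho] at h2
          omega
        · exact ⟨h1, hd, ho⟩
      · rw [cT_not hd] at h2
        have := inter_pos hd
        omega
    · rintro ⟨h1, hd, ho⟩
      exact ⟨h1, cT_out hd ho⟩
  · rw [key 1 (by norm_num) (by norm_num), ncard_split s 1 2, hs]
    rfl
  · rw [key 2 (by norm_num) (by norm_num), ncard_split s 2 1, hs]
    rfl
  · rw [key 3 (by norm_num) (by norm_num), ncard_split s 3 0, hs]
    rfl
  · refine Eq.trans ?_ (count_triads_in s hs)
    congr 1
    ext y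
    simp only [Set.mem_ofPred_eq]
    constructor
    · rintro ⟨h1, h2⟩
      by_cases hd : Disjoint s y
      · by_cases ho : ∃ o ∈ Cfsg.octads, s ∪ y ⊆ o
        · exact ⟨h1, hd, ho⟩
        · rw [cT_out hd ho] at h2
          omega
      · rw [cT_not hd] at h2
        have := inter_le (y := y) hs
        omega
    · rintro ⟨h1, hd, ho⟩
      exact ⟨h1, cT_in hd ho⟩

/-- The stabiliser of a set of three points (setwise) is a maximal proper subgroup of the group of the length-24 code. -/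
theorem result (s : Finset Cfsg.GolayPt) (hs : s.card = 3) : IsCoatom (MulAction.stabilizer Cfsg.M24 s) := by

  have horb := orbit_triple s hs
  have hself : cT s s = 3 := by
    have hd : ¬ Disjoint s s := by
      rw [Finset.disjoint_self_iff_empty]
      intro e
      rw [e] at hs
      simp at hs
    rw [cT_not hd, Finset.inter_self, hs]
  refine isCoatom_stabilizer (G := Cfsg.M24) s (cT s) 5 2024 nT ?_ ?_ ?_ ?_ (by norm_num) ?_
  · intro y _
    by_cases hd : Disjoint s y
    · by_cases ho : ∃ o ∈ Cfsg.octads, s ∪ y ⊆ o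
      · rw [cT_in hd ho]
        norm_num
      · rw [cT_out hd ho]
        norm_num
    · rw [cT_not hd]
      have := inter_le (y := y) hs
      omega
  · intro y hy y' hy' hcc
    rw [horb] at hy hy'
    obtain ⟨σ, hσ, e1, e2⟩ := triple_trans s y y' hs hy hy' hcc
    exact ⟨⟨σ, hσ⟩, MulAction.mem_stabilizer_iff.2 e1, e2⟩
  · intro j hj
    rw [horb]
    exact count_triple s hs j hj
  · rw [horb]
    have e : {y : Finset Cfsg.GolayPt | y.card = 3} =
        {y : Finset Cfsg.GolayPt | y.card = 3 + 0 ∧ (s ∩ y).card = 3} ∪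
        ({y : Finset Cfsg.GolayPt | y.card = 2 + 1 ∧ (s ∩ y).card = 2} ∪
        ({y : Finset Cfsg.GolayPt | y.card = 1 + 2 ∧ (s ∩ y).card = 1} ∪
        {y : Finset Cfsg.GolayPt | y.card = 0 + 3 ∧ (s ∩ y).card = 0})) := by
      ext y
      simp only [Set.mem_union, Set.mem_ofPred_eq]
      have := inter_le (y := y) hs
      constructor
      · intro h
        have : (s ∩ y).card = 3 ∨ (s ∩ y).card = 2 ∨ (s ∩ y).card = 1 ∨ (s ∩ y).card = 0 := by
          omega
        rcases this with h3 | h3 | h3 | h3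
        · exact Or.inl ⟨h, h3⟩
        · exact Or.inr (Or.inl ⟨h, h3⟩)
        · exact Or.inr (Or.inr (Or.inl ⟨h, h3⟩))
        · exact Or.inr (Or.inr (Or.inr ⟨h, h3⟩))
      · rintro (h | h | h | h) <;> exact h.1
    have hdis : ∀ k l : ℕ, k ≠ l → Disjoint
        {y : Finset Cfsg.GolayPt | y.card = 3 ∧ (s ∩ y).card = k}
        {y : Finset Cfsg.GolayPt | y.card = 3 ∧ (s ∩ y).card = l} := by
      intro k l hkl
      rw [Set.disjoint_left]
      rintro y ⟨-, h1⟩ ⟨-, h2⟩
      exact hkl (h1.symm.trans h2)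
    rw [e, Set.ncard_union_eq ?_ (Set.toFinite _) (Set.toFinite _),
      Set.ncard_union_eq ?_ (Set.toFinite _) (Set.toFinite _),
      Set.ncard_union_eq (hdis 1 0 (by norm_num)) (Set.toFinite _) (Set.toFinite _),
      ncard_split s 3 0, ncard_split s 2 1, ncard_split s 1 2, ncard_split s 0 3, hs]
    · rfl
    · rw [Set.disjoint_union_right]
      exact ⟨hdis 2 1 (by norm_num), hdis 2 0 (by norm_num)⟩
    · rw [Set.disjoint_union_right, Set.disjoint_union_right]
      exact ⟨hdis 3 2 (by norm_num), hdis 3 1 (by norm_num), hdis 3 0 (by norm_num)⟩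
  · intro J hJ hx hd
    exact arithT J hJ (by rwa [hself] at hx) hd

end Cfsg.Agent.S1564
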