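import Cfsg.Statements.S1565
import Cfsg.Agent.Helper28.OctOrb
import Cfsg.Agent.Helper28.Maximal

set_option autoImplicit false
open scoped Pointwise
open Cfsg

namespace Cfsg.Agent.S1565

open Cfsg.Agent.Helper28 Cfsg.Agent.Helper28.Golay

/-- the sizes of the classes of octads by their intersection with a fixed octad -/
def nO (j : Nat) : Nat :=
  if j = 0 then 30 else if j = 2 then 448 else if j = 4 then 280 else if j = 8 then 1 else 0

theorem count_pow_all : ∀ j < 9, (countPow 12 0 fun m =>
    Nat.beq (wt (encode m)) 8 && Nat.beq (wt (O0 &&& encode m)) j) = nO j := by decide +kernel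

theorem count_O_all : ∀ j < 9,
    {x : Finset GolayPt | x ∈ octads ∧ (toSet O0 ∩ x).card = j}.ncard = nO j := by
  intro j hj
  rw [count_O]
  exact count_pow_all j hj

theorem arithO : ∀ J ∈ (Finset.range 9).powerset, 8 ∈ J → (∑ j ∈ J, nO j) ∣ 759 →
    (∑ j ∈ J, nO j) = 1 ∨ (∑ j ∈ J, nO j) = 759 := by decide +kernel

/-- The stabiliser of an octad is a maximal proper subgroup of the group of the length-24 code. -/
theorem result (o : Finset Cfsg.GolayPt) (ho : o ∈ Cfsg.octads) : IsCoatom (MulAction.stabilizer Cfsg.M24 o) := by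
  have horb : MulAction.orbit M24 o = octads := by
    ext e
    constructor
    · rintro ⟨⟨σ, hσ⟩, rfl⟩
      exact smul_mem_octads hσ ho
    · intro he
      obtain ⟨σ, hσ, h⟩ := octad_trans o e ho he
      exact ⟨⟨σ, hσ⟩, h⟩
  refine isCoatom_stabilizer (G := M24) o (fun y => (o ∩ y).card) 9 759 nO ?_ ?_ ?_ ?_
    (by norm_num) ?_
  · intro y _
    have h1 : (o ∩ y).card ≤ o.card := Finset.card_le_card Finset.inter_subset_left
    rw [ho.2] at h1
    show (o ∩ y).card < 9
    omega
  · intro y hy y' hy' hcc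
    rw [horb] at hy hy'
    obtain ⟨g, hg, e1, e2⟩ := oct_orb o y y' ho hy hy' hcc
    exact ⟨⟨g, hg⟩, MulAction.mem_stabilizer_iff.2 e1, e2⟩
  · intro j hj
    rw [horb]
    show {y : Finset GolayPt | y ∈ octads ∧ (o ∩ y).card = j}.ncard = nO j
    rw [count_oct_transport o ho j]
    exact count_O_all j hj
  · rw [horb, ncard_octads]
  · intro J hJ hx hd
    exact arithO J hJ (by rwa [Finset.inter_self, ho.2] at hx) hd

end Cfsg.Agent.S1565
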