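import Cfsg.Statements.S1639
import Cfsg.Agent.Helper28.OrbLib
import Cfsg.Agent.Helper28.OrbDataC

set_option autoImplicit false
open scoped Pointwise
open Cfsg

namespace Cfsg.Agent.S1639

open Cfsg.Agent.Helper28 Cfsg.Agent.Helper28.Golay

/-- The point stabiliser acts on the 1288 dodecads through the point with rank 4 and subdegrees 1, 165, 330, 792, distinguished by intersection 4, 8, 6 with the fixed dodecad. -/
theorem result (x : Cfsg.GolayPt) (d : Finset Cfsg.GolayPt) (hd : d ∈ Cfsg.dodecads) (hx : x ∈ d) : {d' : Finset Cfsg.GolayPt | d' ∈ Cfsg.dodecads ∧ x ∈ d' ∧ (d ∩ d').card = 4}.ncard = 165 ∧ {d' : Finset Cfsg.GolayPt | d' ∈ Cfsg.dodecads ∧ x ∈ d' ∧ (d ∩ d').card = 8}.ncard = 330 ∧ {d' : Finset Cfsg.GolayPt | d' ∈ Cfsg.dodecads ∧ x ∈ d' ∧ (d ∩ d').card = 6}.ncard = 792 ∧ ∀ d' d'' : Finset Cfsg.GolayPt, d' ∈ Cfsg.dodecads → d'' ∈ Cfsg.dodecads → x ∈ d' → x ∈ d'' → (d ∩ d').card =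 (d ∩ d'').card → ∃ g : Equiv.Perm Cfsg.GolayPt, g ∈ Cfsg.M24 ∧ g x = x ∧ g • d = d ∧ g • d' = d'' := by
  obtain ⟨σ, hσ, h0, hx0⟩ := flag_normal d hd x hx
  have hspec : ∀ y : Finset GolayPt, clsC (maskOf (σ • y)) = specC 12 d (fun y => x ∈ y) y := by
    intro y
    simp only [clsC, specC, Bool.and_eq_true, nbeq_iff, wt_smul, wt_and_smul h0,
      testBit_smul hx0 (by norm_num : 0 < 24)]
  have hset : ∀ j : Nat, {d' : Finset GolayPt | d' ∈ dodecads ∧ x ∈ d' ∧ (d ∩ d').card = j} =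
      {y : Finset GolayPt | y ∈ supports (golayCode : Set (GolayPt → ZMod 2)) ∧ specC 12 d (fun y => x ∈ y) y = j + 1} := by
    intro j
    ext y
    show (y ∈ dodecads ∧ x ∈ y ∧ (d ∩ y).card = j) ↔ (y ∈ supports (golayCode : Set (GolayPt → ZMod 2)) ∧ specC 12 d (fun y => x ∈ y) y = j + 1)
    rw [specC_eq_succ_iff]
    constructor
    · rintro ⟨⟨h1, h2⟩, h3, h4⟩
      exact ⟨h1, h2, h3, h4⟩
    · rintro ⟨h1, h2, h3, h4⟩
      exact ⟨⟨h1, h2⟩, h3, h4⟩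
  refine ⟨?_, ?_, ?_, ?_⟩
  · rw [hset 4, count_transport_cls clsC hσ (specC 12 d (fun y => x ∈ y)) hspec]
    decide +kernel
  · rw [hset 8, count_transport_cls clsC hσ (specC 12 d (fun y => x ∈ y)) hspec]
    decide +kernel
  · rw [hset 6, count_transport_cls clsC hσ (specC 12 d (fun y => x ∈ y)) hspec]
    decide +kernel
  · intro d' d'' hd' hd'' hx' hx'' heq
    obtain ⟨τ, hτ, e⟩ := orb_transport orbC hσ (specC 12 d (fun y => x ∈ y)) hspec d' d'' hd'.1 hd''.1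
      (by rw [specC_pos (P := fun y => x ∈ y) hd'.2 hx']; omega)
      (by rw [specC_pos (P := fun y => x ∈ y) hd'.2 hx', specC_pos (P := fun y => x ∈ y) hd''.2 hx'', heq])
    exact ⟨σ⁻¹ * τ * σ, conj_mem hσ hτ.1, conj_fix_pt hx0 (hτ.2.2 0 (by simp)),
      conj_fix_set h0 (hτ.2.1 d0 (by simp)), e⟩

end Cfsg.Agent.S1639
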