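import Cfsg.Statements.S1566
import Cfsg.Agent.S1561
import Cfsg.Agent.S1639
import Cfsg.Agent.Helper28.Maximal

set_option autoImplicit false
open scoped Pointwise
open Cfsg

namespace Cfsg.Agent.S1566

open Cfsg.Agent.Helper28 Cfsg.Agent.Helper28.Golay
open scoped Pointwise

theorem univ_mem : (Finset.univ : Finset Cfsg.GolayPt) ∈
    Cfsg.supports (Cfsg.golayCode : Set (Cfsg.GolayPt → ZMod 2)) := by
  rw [← toSet_all, toSet_mem_supports_iff (by norm_num)]
  decide +kernel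

theorem card24 : Fintype.card Cfsg.GolayPt = 24 := by decide +kernel

theorem compl_mem {e : Finset Cfsg.GolayPt} (he : e ∈ Cfsg.dodecads) : eᶜ ∈ Cfsg.dodecads := by
  refine ⟨?_, by rw [Finset.card_compl, card24, he.2]⟩
  have h : eᶜ = symmDiff Finset.univ e := by
    ext q
    simp [Finset.mem_symmDiff]
  rw [h]
  exact symmDiff_mem_supports univ_mem he.1

theorem dod_inter {d e : Finset Cfsg.GolayPt} (hd : d ∈ Cfsg.dodecads) (he : e ∈ Cfsg.dodecads) :
    (d ∩ e).card = 0 ∨ (d ∩ e).card = 4 ∨ (d ∩ e).card = 6 ∨ (d ∩ e).card = 8 ∨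
      (d ∩ e).card = 12 := by
  have h1 := card_of_mem_supports (symmDiff_mem_supports hd.1 he.1)
  have h2 := card_symmDiff d e
  rw [hd.2, he.2] at h2
  omega

theorem inter_compl_card {d : Finset Cfsg.GolayPt} (hd : d ∈ Cfsg.dodecads)
    (e : Finset Cfsg.GolayPt) : (d ∩ eᶜ).card = 12 - (d ∩ e).card := by
  have h1 := Finset.card_sdiff_add_card_inter d e
  rw [Finset.sdiff_eq_inter_compl, hd.2] at h1
  omega

/-- the pair consisting of a set and its complement -/
def pairOf (e : Finset Cfsg.GolayPt) : Finset (Finset Cfsg.GolayPt) := {e, eᶜ}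

theorem pairOf_compl (e : Finset Cfsg.GolayPt) : pairOf eᶜ = pairOf e := by
  rw [pairOf, pairOf, compl_compl, Finset.pair_comm]

theorem smul_pairOf (σ : Equiv.Perm Cfsg.GolayPt) (e : Finset Cfsg.GolayPt) :
    σ • pairOf e = pairOf (σ • e) := by
  have hc : σ • eᶜ = (σ • e)ᶜ := by
    ext q
    rw [Finset.mem_compl, ← Finset.inv_smul_mem_iff, ← Finset.inv_smul_mem_iff, Finset.mem_compl]
  rw [pairOf, pairOf, Finset.smul_finset_insert, Finset.smul_finset_singleton, hc]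

theorem pairOf_eq {e e' : Finset Cfsg.GolayPt} (h : pairOf e = pairOf e') : e = e' ∨ e = e'ᶜ := by
  have h1 : e ∈ pairOf e' := by
    rw [← h, pairOf]
    exact Finset.mem_insert_self _ _
  rw [pairOf, Finset.mem_insert, Finset.mem_singleton] at h1
  exact h1

/-- the larger of the intersections of a dodecad with the two members of a pair -/
def vD (d : Finset Cfsg.GolayPt) (P : Finset (Finset Cfsg.GolayPt)) : ℕ :=
  P.sup fun e => (d ∩ e).card

theorem vD_pairOf {d : Finset Cfsg.GolayPt} (hd : d ∈ Cfsg.dodecads) (e : Finset Cfsg.GolayPt) :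
    vD d (pairOf e) = max (d ∩ e).card (12 - (d ∩ e).card) := by
  rw [vD, pairOf, Finset.sup_insert, Finset.sup_singleton, inter_compl_card hd]

/-- the class of a pair -/
def cD (d : Finset Cfsg.GolayPt) (P : Finset (Finset Cfsg.GolayPt)) : ℕ :=
  if vD d P = 12 then 2 else if vD d P = 8 then 1 else 0

/-- the sizes of the classes -/
def nD (j : Nat) : Nat := if j = 0 then 792 else if j = 1 then 495 else if j = 2 then 1 else 0

theorem arithD : ∀ J ∈ (Finset.range 3).powerset, 2 ∈ J → (∑ j ∈ J, nD j) ∣ 1288 →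
    (∑ j ∈ J, nD j) = 1 ∨ (∑ j ∈ J, nD j) = 1288 := by decide +kernel

theorem cD_pairOf {d e : Finset Cfsg.GolayPt} (hd : d ∈ Cfsg.dodecads) (he : e ∈ Cfsg.dodecads) :
    (cD d (pairOf e) = 2 ↔ ((d ∩ e).card = 12 ∨ (d ∩ e).card = 0)) ∧
    (cD d (pairOf e) = 1 ↔ ((d ∩ e).card = 8 ∨ (d ∩ e).card = 4)) ∧
    (cD d (pairOf e) = 0 ↔ (d ∩ e).card = 6) := by
  rw [cD, vD_pairOf hd]
  rcases dod_inter hd he with h | h | h | h | h <;> rw [h] <;> simp

theorem orbit_pairOf (d : Finset Cfsg.GolayPt) (hd : d ∈ Cfsg.dodecads) :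
    MulAction.orbit Cfsg.M24 (pairOf d) = pairOf '' Cfsg.dodecads := by
  ext P
  constructor
  · rintro ⟨⟨σ, hσ⟩, rfl⟩
    refine ⟨σ • d, smul_mem_dodecads hσ hd, ?_⟩
    exact (smul_pairOf σ d).symm
  · rintro ⟨e, he, rfl⟩
    obtain ⟨σ, hσ, h⟩ := dod_trans d e hd he
    refine ⟨⟨σ, hσ⟩, ?_⟩
    show σ • pairOf d = pairOf e
    rw [smul_pairOf, h]

theorem pairOf_injOn (x : Cfsg.GolayPt) :
    Set.InjOn pairOf {e : Finset Cfsg.GolayPt | e ∈ Cfsg.dodecads ∧ x ∈ e} := by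
  rintro e ⟨-, hx⟩ e' ⟨-, hx'⟩ h
  rcases pairOf_eq h with h1 | h1
  · exact h1
  · rw [h1, Finset.mem_compl] at hx
    exact absurd hx' hx

theorem class_image (d : Finset Cfsg.GolayPt) (x : Cfsg.GolayPt) (j : ℕ) :
    {P : Finset (Finset Cfsg.GolayPt) | P ∈ pairOf '' Cfsg.dodecads ∧ cD d P = j} =
      pairOf '' {e : Finset Cfsg.GolayPt | (e ∈ Cfsg.dodecads ∧ x ∈ e) ∧ cD d (pairOf e) = j} := by
  ext P
  constructor
  · rintro ⟨⟨e, he, rfl⟩, hc⟩
    by_cases hx : x ∈ e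
    · exact ⟨e, ⟨⟨he, hx⟩, hc⟩, rfl⟩
    · refine ⟨eᶜ, ⟨⟨compl_mem he, Finset.mem_compl.2 hx⟩, ?_⟩, pairOf_compl e⟩
      rw [pairOf_compl]
      exact hc
  · rintro ⟨e, ⟨⟨he, -⟩, hc⟩, rfl⟩
    exact ⟨⟨e, he, rfl⟩, hc⟩

theorem count_class (d : Finset Cfsg.GolayPt) (hd : d ∈ Cfsg.dodecads) : ∀ j < 3,
    {P : Finset (Finset Cfsg.GolayPt) | P ∈ pairOf '' Cfsg.dodecads ∧ cD d P = j}.ncard = nD j := by
  have hne : d.Nonempty := by
    rw [← Finset.card_pos, hd.2]
    norm_num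
  obtain ⟨x, hx⟩ := hne
  obtain ⟨c4, c8, c6, -⟩ := Cfsg.Agent.S1639.result x d hd hx
  intro j hj
  rw [class_image d x j, Set.InjOn.ncard_image ((pairOf_injOn x).mono (fun e he => he.1))]
  have h012 : j = 0 ∨ j = 1 ∨ j = 2 := by omega
  rcases h012 with rfl | rfl | rfl
  · refine Eq.trans ?_ c6
    congr 1
    ext e
    simp only [Set.mem_ofPred_eq]
    constructor
    · rintro ⟨⟨h1, h2⟩, h3⟩
      exact ⟨h1, h2, ((cD_pairOf hd h1).2.2).1 h3⟩
    · rintro ⟨h1, h2, h3⟩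
      exact ⟨⟨h1, h2⟩, ((cD_pairOf hd h1).2.2).2 h3⟩
  · have e1 : {e : Finset Cfsg.GolayPt | (e ∈ Cfsg.dodecads ∧ x ∈ e) ∧ cD d (pairOf e) = 1} =
        {d' : Finset Cfsg.GolayPt | d' ∈ Cfsg.dodecads ∧ x ∈ d' ∧ (d ∩ d').card = 8} ∪
        {d' : Finset Cfsg.GolayPt | d' ∈ Cfsg.dodecads ∧ x ∈ d' ∧ (d ∩ d').card = 4} := by
      ext e
      simp only [Set.mem_union, Set.mem_ofPred_eq]
      constructor
      · rintro ⟨⟨h1, h2⟩, h3⟩
        rcases ((cD_pairOf hd h1).2.1).1 h3 with h | h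
        · exact Or.inl ⟨h1, h2, h⟩
        · exact Or.inr ⟨h1, h2, h⟩
      · rintro (⟨h1, h2, h3⟩ | ⟨h1, h2, h3⟩)
        · exact ⟨⟨h1, h2⟩, ((cD_pairOf hd h1).2.1).2 (Or.inl h3)⟩
        · exact ⟨⟨h1, h2⟩, ((cD_pairOf hd h1).2.1).2 (Or.inr h3)⟩
    have hdis : Disjoint
        {d' : Finset Cfsg.GolayPt | d' ∈ Cfsg.dodecads ∧ x ∈ d' ∧ (d ∩ d').card = 8}
        {d' : Finset Cfsg.GolayPt | d' ∈ Cfsg.dodecads ∧ x ∈ d' ∧ (d ∩ d').card = 4} := by
      rw [Set.disjoint_left]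
      rintro e ⟨-, -, h⟩ ⟨-, -, h'⟩
      omega
    rw [e1, Set.ncard_union_eq hdis (Set.toFinite _) (Set.toFinite _), c8, c4]
    rfl
  · have e1 : {e : Finset Cfsg.GolayPt | (e ∈ Cfsg.dodecads ∧ x ∈ e) ∧ cD d (pairOf e) = 2} =
        {d} := by
      ext e
      simp only [Set.mem_ofPred_eq, Set.mem_singleton_iff]
      constructor
      · rintro ⟨⟨h1, h2⟩, h3⟩
        rcases ((cD_pairOf hd h1).1).1 h3 with h | h
        · have e2 : d ∩ e = d :=
            Finset.eq_of_subset_of_card_le Finset.inter_subset_left (by rw [h, hd.2])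
          have e3 : d ∩ e = e :=
            Finset.eq_of_subset_of_card_le Finset.inter_subset_right (by rw [h, h1.2])
          rw [← e3, e2]
        · exfalso
          have : x ∈ d ∩ e := Finset.mem_inter.2 ⟨hx, h2⟩
          rw [Finset.card_eq_zero] at h
          rw [h] at this
          exact absurd this (Finset.notMem_empty x)
      · rintro rfl
        exact ⟨⟨hd, hx⟩, ((cD_pairOf hd hd).1).2 (Or.inl (by rw [Finset.inter_self, hd.2]))⟩
    rw [e1, Set.ncard_singleton]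
    rfl

/-- The setwise stabiliser of a dodecad together with its complement is a maximal proper subgroup of the group of the length-24 code. -/
theorem result (d : Finset Cfsg.GolayPt) (hd : d ∈ Cfsg.dodecads) : IsCoatom (MulAction.stabilizer Cfsg.M24 ({d, dᶜ} : Finset (Finset Cfsg.GolayPt))) := by

  have horb := orbit_pairOf d hd
  have hself : cD d (pairOf d) = 2 :=
    ((cD_pairOf hd hd).1).2 (Or.inl (by rw [Finset.inter_self, hd.2]))
  have hlt : ∀ P, cD d P < 3 := by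
    intro P
    rw [cD]
    split_ifs <;> norm_num
  show IsCoatom (MulAction.stabilizer Cfsg.M24 (pairOf d))
  refine isCoatom_stabilizer (G := Cfsg.M24) (pairOf d) (cD d) 3 1288 nD ?_ ?_ ?_ ?_
    (by norm_num) ?_
  · intro P _
    exact hlt P
  · intro P hP P' hP' hcc
    rw [horb] at hP hP'
    obtain ⟨e, he, rfl⟩ := hP
    obtain ⟨e', he', rfl⟩ := hP'
    have hk : (d ∩ e).card = (d ∩ e').card ∨ (d ∩ e).card = (d ∩ e'ᶜ).card := by
      rw [inter_compl_card hd]
      have h1 := cD_pairOf hd he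
      have h2 := cD_pairOf hd he'
      have h3 := hlt (pairOf e)
      have h4 : cD d (pairOf e) = 0 ∨ cD d (pairOf e) = 1 ∨ cD d (pairOf e) = 2 := by omega
      rcases h4 with h | h | h
      · have a1 := h1.2.2.1 h
        have a2 := h2.2.2.1 (hcc ▸ h)
        omega
      · have a1 := h1.2.1.1 h
        have a2 := h2.2.1.1 (hcc ▸ h)
        omega
      · have a1 := h1.1.1 h
        have a2 := h2.1.1 (hcc ▸ h)
        omega
    rcases hk with hk | hk
    · obtain ⟨g, hg, g1, g2⟩ := Cfsg.Agent.S1561.result d e e' hd he he' hk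
      refine ⟨⟨g, hg⟩, MulAction.mem_stabilizer_iff.2 ?_, ?_⟩
      · show g • pairOf d = pairOf d
        rw [smul_pairOf, g1]
      · show g • pairOf e = pairOf e'
        rw [smul_pairOf, g2]
    · obtain ⟨g, hg, g1, g2⟩ := Cfsg.Agent.S1561.result d e e'ᶜ hd he (compl_mem he') hk
      refine ⟨⟨g, hg⟩, MulAction.mem_stabilizer_iff.2 ?_, ?_⟩
      · show g • pairOf d = pairOf d
        rw [smul_pairOf, g1]
      · show g • pairOf e = pairOf e'
        rw [smul_pairOf, g2, pairOf_compl]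
  · intro j hj
    rw [horb]
    exact count_class d hd j hj
  · rw [horb]
    have e : pairOf '' Cfsg.dodecads =
        {P : Finset (Finset Cfsg.GolayPt) | P ∈ pairOf '' Cfsg.dodecads ∧ cD d P = 0} ∪
        ({P : Finset (Finset Cfsg.GolayPt) | P ∈ pairOf '' Cfsg.dodecads ∧ cD d P = 1} ∪
        {P : Finset (Finset Cfsg.GolayPt) | P ∈ pairOf '' Cfsg.dodecads ∧ cD d P = 2}) := by
      ext P
      simp only [Set.mem_union, Set.mem_ofPred_eq]
      constructor
      · intro h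
        have h3 := hlt P
        have h4 : cD d P = 0 ∨ cD d P = 1 ∨ cD d P = 2 := by omega
        rcases h4 with h5 | h5 | h5
        · exact Or.inl ⟨h, h5⟩
        · exact Or.inr (Or.inl ⟨h, h5⟩)
        · exact Or.inr (Or.inr ⟨h, h5⟩)
      · rintro (h | h | h) <;> exact h.1
    have hdis : ∀ k l : ℕ, k ≠ l → Disjoint
        {P : Finset (Finset Cfsg.GolayPt) | P ∈ pairOf '' Cfsg.dodecads ∧ cD d P = k}
        {P : Finset (Finset Cfsg.GolayPt) | P ∈ pairOf '' Cfsg.dodecads ∧ cD d P = l} := by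
      intro k l hkl
      rw [Set.disjoint_left]
      rintro y ⟨-, h1⟩ ⟨-, h2⟩
      exact hkl (h1.symm.trans h2)
    rw [e, Set.ncard_union_eq ?_ (Set.toFinite _) (Set.toFinite _),
      Set.ncard_union_eq (hdis 1 2 (by norm_num)) (Set.toFinite _) (Set.toFinite _),
      count_class d hd 0 (by norm_num), count_class d hd 1 (by norm_num),
      count_class d hd 2 (by norm_num)]
    · rfl
    · rw [Set.disjoint_union_right]
      exact ⟨hdis 0 1 (by norm_num), hdis 0 2 (by norm_num)⟩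
  · intro J hJ hx hd'
    exact arithD J hJ (by rwa [hself] at hx) hd'

end Cfsg.Agent.S1566
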