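import Cfsg.Statements.S1567
import Cfsg.Agent.S0359
import Cfsg.Agent.Helper27.LeechMin
-- import your own Cfsg.Agent.* helpers here

set_option autoImplicit false
open Cfsg

namespace Cfsg.Agent.S1567

open Cfsg.Agent.Helper27

/-- the subgroup generated by the minimal vectors -/
abbrev MM : AddSubgroup (GolayPt → ℤ) :=
  AddSubgroup.closure {x : GolayPt → ℤ | x ∈ leechLattice ∧ sqNorm x = 32}

/-- `4 e_a - 4 e_∞` -/
def qv (a : ZMod 23) : GolayPt → ℤ := fun k => if k = some a then 4 else if k = none then -4 else 0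

/-- `4 e_0 + 4 e_∞` -/
def pv : GolayPt → ℤ := fun k => if k = some 0 then 4 else if k = none then 4 else 0

/-- the odd minimal vector with residue-3 set `c` -/
def uv (c : Finset GolayPt) : GolayPt → ℤ :=
  fun k => (if k ∈ c then -1 else 1) + (if k = none then (if none ∈ c then 4 else -4) else 0)

lemma filter_empty_of (x : GolayPt → ℤ) (h : ∀ k, x k % 4 ≠ 2) :
    (Finset.univ.filter fun i => x i % 4 = 2) ∈ supports (golayCode : Set (GolayPt → ZMod 2)) := by
  have e : (Finset.univ.filter fun i => x i % 4 = 2) = ∅ := by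
    ext i
    simp only [Finset.mem_filter, Finset.mem_univ, true_and, Finset.notMem_empty, iff_false]
    exact h i
  rw [e]; exact Spor.empty_mem_supports_golayCode

lemma qv_mem (a : ZMod 23) : qv a ∈ leechSet := by
  apply mem_leechSet_of_even
  · intro k; unfold qv; split_ifs <;> rfl
  · have e : ∑ k, qv a k = 0 := by
      rw [Fintype.sum_option]
      simp [qv]
    rw [e]; rfl
  · apply filter_empty_of
    intro k; unfold qv; split_ifs <;> decide

lemma qv_norm (a : ZMod 23) : sqNorm (qv a) = 32 := by
  unfold sqNorm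
  rw [Fintype.sum_option]
  simp [qv]

lemma pv_mem : pv ∈ leechSet := by
  apply mem_leechSet_of_even
  · intro k; unfold pv; split_ifs <;> rfl
  · have e : ∑ k, pv k = 8 := by
      rw [Fintype.sum_option]
      simp [pv]
    rw [e]; rfl
  · apply filter_empty_of
    intro k; unfold pv; split_ifs <;> decide

lemma pv_norm : sqNorm pv = 32 := by
  unfold sqNorm
  rw [Fintype.sum_option]
  simp [pv]

lemma sum_pm (c : Finset GolayPt) :
    ∑ k, (if k ∈ c then (-1 : ℤ) else 1) = 24 - 2 * (c.card : ℤ) := by
  have e : ∀ k, (if k ∈ c then (-1 : ℤ) else 1) = 1 - 2 * (if k ∈ c then 1 else 0) := by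
    intro k; split_ifs <;> ring
  simp only [e]
  rw [Finset.sum_sub_distrib, ← Finset.mul_sum, Finset.sum_ite_mem, Finset.univ_inter,
    Finset.sum_const, Finset.sum_const, card_golayPt]
  simp

lemma sum_uv (c : Finset GolayPt) :
    ∑ k, uv c k = 24 - 2 * (c.card : ℤ) + (if none ∈ c then 4 else -4) := by
  unfold uv
  rw [Finset.sum_add_distrib, sum_pm, Finset.sum_ite_eq']
  simp

lemma uv_mem (c : Finset GolayPt) (hc : c ∈ supports (golayCode : Set (GolayPt → ZMod 2))) :
    uv c ∈ leechSet := by
  obtain ⟨hDE, -⟩ := code_facts Cfsg.Agent.S0359.result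
  apply mem_leechSet_of_odd
  · intro k; unfold uv; split_ifs <;> rfl
  · rw [sum_uv]
    have := hDE c hc
    split_ifs <;> omega
  · have e : (Finset.univ.filter fun k => uv c k % 4 = 3) = c := by
      ext k
      simp only [Finset.mem_filter, Finset.mem_univ, true_and]
      unfold uv
      by_cases hk : k = none
      · subst hk
        by_cases h : none ∈ c <;> simp [h]
      · by_cases h : k ∈ c <;> simp [h, hk]
    rw [e]; exact hc

lemma uv_norm (c : Finset GolayPt) : sqNorm (uv c) = 32 := by
  unfold sqNorm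
  have e : ∀ k, uv c k ^ 2 = 1 + (if k = none then 8 else 0) := by
    intro k
    unfold uv
    by_cases hk : k = none
    · subst hk
      by_cases h : none ∈ c <;> simp [h]
    · by_cases h : k ∈ c <;> simp [h, hk]
  simp only [e]
  rw [Finset.sum_add_distrib, Finset.sum_ite_eq', Finset.sum_const, card_golayPt]
  simp

lemma qv_MM (a : ZMod 23) : qv a ∈ MM :=
  AddSubgroup.subset_closure ⟨(mem_leechLattice_iff _).mpr (qv_mem a), qv_norm a⟩

lemma pv_MM : pv ∈ MM :=
  AddSubgroup.subset_closure ⟨(mem_leechLattice_iff _).mpr pv_mem, pv_norm⟩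

lemma uv_MM (c : Finset GolayPt) (hc : c ∈ supports (golayCode : Set (GolayPt → ZMod 2))) :
    uv c ∈ MM :=
  AddSubgroup.subset_closure ⟨(mem_leechLattice_iff _).mpr (uv_mem c hc), uv_norm c⟩

/-- vectors with all coordinates divisible by 4 and coordinate sum divisible by 8 -/
lemma decomp4 (x : GolayPt → ℤ) (h4 : ∀ k, x k % 4 = 0) (h8 : (∑ k, x k) % 8 = 0) :
    x = ∑ a : ZMod 23, (x (some a) / 4) • qv a + ((∑ k, x k) / 8) • (pv - qv 0) := by
  funext k
  rw [Pi.add_apply, Finset.sum_apply]
  simp only [Pi.smul_apply, Pi.sub_apply, smul_eq_mul]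
  cases k with
  | none =>
    have e1 : ∀ a : ZMod 23, x (some a) / 4 * qv a none = -x (some a) := by
      intro a
      have := h4 (some a)
      simp only [qv]
      simp
      omega
    have e2 : pv none - qv 0 none = 8 := by simp [pv, qv]
    rw [Finset.sum_congr rfl (fun a _ => e1 a), e2, Finset.sum_neg_distrib]
    rw [Fintype.sum_option] at h8 ⊢
    omega
  | some b =>
    have e1 : ∀ a : ZMod 23, x (some a) / 4 * qv a (some b) = if a = b then x (some b) else 0 := by
      intro a
      have := h4 (some b)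
      simp only [qv]
      by_cases hab : a = b
      · subst hab
        simp
        omega
      · have : ¬ (some b : GolayPt) = some a := fun h => hab (Option.some.inj h).symm
        simp [this, hab]
    have e2 : pv (some b) - qv 0 (some b) = 0 := by
      simp only [pv, qv]
      by_cases hb : (some b : GolayPt) = some 0 <;> simp [hb]
    rw [Finset.sum_congr rfl (fun a _ => e1 a), e2, Finset.sum_ite_eq' Finset.univ b]
    simp

lemma four_MM (x : GolayPt → ℤ) (h4 : ∀ k, x k % 4 = 0) (h8 : (∑ k, x k) % 8 = 0) : x ∈ MM := by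
  rw [decomp4 x h4 h8]
  apply MM.add_mem
  · apply MM.sum_mem
    intro a _
    exact MM.zsmul_mem (qv_MM a) _
  · exact MM.zsmul_mem (MM.sub_mem pv_MM (qv_MM 0)) _

lemma uv_sub_mod (c : Finset GolayPt) (k : GolayPt) :
    (uv c k - uv ∅ k) % 4 = if k ∈ c then 2 else 0 := by
  unfold uv
  by_cases hk : k = none
  · subst hk
    by_cases h : none ∈ c <;> simp [h]
  · by_cases h : k ∈ c <;> simp [h, hk]

lemma even_MM (x : GolayPt → ℤ) (hx : x ∈ leechSet) (h2 : ∀ i, x i % 2 = 0) : x ∈ MM := by
  rcases leechSet_cases x hx with ⟨-, -, hA⟩ | ⟨o2, -, -⟩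
  · set c := (Finset.univ.filter fun i => x i % 4 = 2) with hc
    have hy : uv c - uv ∅ ∈ MM :=
      MM.sub_mem (uv_MM c hA) (uv_MM ∅ Spor.empty_mem_supports_golayCode)
    have hyL : uv c - uv ∅ ∈ leechSet :=
      leechSub.sub_mem (uv_mem c hA) (uv_mem ∅ Spor.empty_mem_supports_golayCode)
    have hd : x - (uv c - uv ∅) ∈ leechSet := leechSub.sub_mem hx hyL
    have h4 : ∀ k, (x - (uv c - uv ∅)) k % 4 = 0 := by
      intro k
      have h1 := uv_sub_mod c k
      have h3 := h2 k
      have hk : k ∈ c ↔ x k % 4 = 2 := by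
        rw [hc]; simp
      simp only [Pi.sub_apply] at h1 ⊢
      by_cases hkc : k ∈ c
      · rw [if_pos hkc] at h1
        have := hk.mp hkc
        omega
      · rw [if_neg hkc] at h1
        have : ¬ x k % 4 = 2 := fun h => hkc (hk.mpr h)
        omega
    have h8 : (∑ k, (x - (uv c - uv ∅)) k) % 8 = 0 := by
      rcases leechSet_cases _ hd with ⟨-, s8, -⟩ | ⟨o2, -, -⟩
      · exact s8
      · exfalso
        have := o2 none
        have := h4 none
        omega
    have := MM.add_mem (four_MM _ h4 h8) hy
    rwa [sub_add_cancel] at this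
  · exfalso
    have := o2 none
    have := h2 none
    omega

lemma all_MM (x : GolayPt → ℤ) (hx : x ∈ leechSet) : x ∈ MM := by
  rcases leechSet_cases x hx with ⟨h2, -, -⟩ | ⟨o2, -, -⟩
  · exact even_MM x hx h2
  · have hu := uv_mem ∅ Spor.empty_mem_supports_golayCode
    have hd : x - uv ∅ ∈ leechSet := leechSub.sub_mem hx hu
    have h2 : ∀ i, (x - uv ∅) i % 2 = 0 := by
      intro i
      have h1 := o2 i
      have h3 : uv ∅ i % 2 = 1 := by
        unfold uv
        by_cases hk : i = none <;> simp [hk]
      simp only [Pi.sub_apply]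
      omega
    have := MM.add_mem (even_MM _ hd h2) (uv_MM ∅ Spor.empty_mem_supports_golayCode)
    rwa [sub_add_cancel] at this

/-- The rank-24 lattice is the additive subgroup generated by its 196560 minimal vectors. -/
theorem result : AddSubgroup.closure {x : Cfsg.GolayPt → ℤ | x ∈ Cfsg.leechLattice ∧ Cfsg.sqNorm x = 32} = Cfsg.leechLattice := by
  apply le_antisymm
  · rw [AddSubgroup.closure_le]
    intro x hx
    exact hx.1
  · intro x hx
    exact all_MM x ((mem_leechLattice_iff x).mp hx)

end Cfsg.Agent.S1567
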