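import Cfsg.Statements.S1569
import Cfsg.Agent.Helper27.LeechClasses
-- import your own Cfsg.Agent.* helpers here

set_option autoImplicit false
open scoped Pointwise
open Cfsg

namespace Cfsg.Agent.S1569

/-- The cross through a lattice vector of customary norm 8 has exactly 48 members. -/
theorem result (x : Cfsg.GolayPt → ℤ) (hx : x ∈ Cfsg.leechLattice) (hxn : Cfsg.sqNorm x = 64) : (Cfsg.cross x).ncard = 48 := by
  classical
  have h := Cfsg.Agent.Helper27.fib_eq_48 x hx hxn
  have hset : Cfsg.cross x =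
      ↑((Cfsg.Agent.Helper27.shellFin 64).filter
        (fun a => Cfsg.Agent.Helper27.cls a = Cfsg.Agent.Helper27.cls x)) := by
    ext y
    rw [Finset.mem_coe, Finset.mem_filter,
      Cfsg.Agent.Helper27.mem_shellFin 64 Cfsg.Agent.Helper27.h64, Cfsg.Agent.Helper27.cls_eq_iff]
    unfold Cfsg.cross
    rw [Set.mem_setOf_eq, hxn]
    constructor
    · rintro ⟨h1, h2, z, hz, h3⟩
      refine ⟨⟨h1, h2⟩, -z, Cfsg.leechLattice.neg_mem hz, ?_⟩
      rw [smul_neg, ← h3]; abel
    · rintro ⟨⟨h1, h2⟩, z, hz, h3⟩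
      refine ⟨h1, h2, -z, Cfsg.leechLattice.neg_mem hz, ?_⟩
      rw [smul_neg, ← h3]; abel
  rw [hset, Set.ncard_coe_finset]
  exact h

end Cfsg.Agent.S1569
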