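import Cfsg.Statements.S1573
import Cfsg.Agent.Helper27.CensusV16
import Cfsg.Agent.Helper27.CensusV8
import Cfsg.Agent.Helper27.CensusV0
-- import your own Cfsg.Agent.* helpers here

set_option autoImplicit false
open Cfsg

namespace Cfsg.Agent.S1573

open Cfsg.Agent.Helper27

/-- Census of minimal vectors by inner product with a fixed minimal vector: 4600 have customary inner product −2, 47104 have −1, and 93150 are orthogonal. -/
theorem result (v : Cfsg.GolayPt → ℤ) (hv : v ∈ Cfsg.leechLattice) (hvn : Cfsg.sqNorm v = 32) : {w : Cfsg.GolayPt → ℤ | w ∈ Cfsg.leechLattice ∧ Cfsg.sqNorm w = 32 ∧ Cfsg.dotInt v w = -16}.ncard = 4600 ∧ {w : Cfsg.GolayPt → ℤ | w ∈ Cfsg.leechLattice ∧ Cfsg.sqNorm w = 32 ∧ Cfsg.dotInt v w = -8}.ncard = 47104 ∧ {w : Cfsg.GolayPt → ℤ | w ∈ Cfsg.leechLattice ∧ Cfsg.sqNorm w = 32 ∧ Cfsg.dotInt v w = 0}.ncard = 93150 := by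
  obtain ⟨g, hg⟩ := Cfsg.Agent.S0400.result ⟨v, hv⟩ rt hvn rt_norm
  have key : ∀ (tp tn : ℕ), {w : GolayPt → ℤ | w ∈ leechLattice ∧ sqNorm w = 32 ∧
      dotInt v w = (tp : ℤ) - tn}.ncard
        = cnt1 Lt tp tn 0 0 + cnt2 Lt tp tn 0 0 + cnt3 Lt tp tn 0 0 := by
    intro tp tn
    rw [ncard_sub (fun w => sqNorm w = 32 ∧ dotInt v w = (tp : ℤ) - tn)]
    rw [← census_one Lt Lt_len Lt_snd]
    exact census_transport g ⟨v, hv⟩ rt hg _
  refine ⟨?_, ?_, ?_⟩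
  · have h := key 0 16
    rw [cv16_1, cv16_2, cv16_3] at h
    have e : ((0 : ℕ) : ℤ) - ((16 : ℕ) : ℤ) = -16 := by norm_num
    rw [e] at h
    exact h
  · have h := key 0 8
    rw [cv8_1, cv8_2, cv8_3] at h
    have e : ((0 : ℕ) : ℤ) - ((8 : ℕ) : ℤ) = -8 := by norm_num
    rw [e] at h
    exact h
  · have h := key 0 0
    rw [cv0_1, cv0_2, cv0_3] at h
    have e : ((0 : ℕ) : ℤ) - ((0 : ℕ) : ℤ) = 0 := by norm_num
    rw [e] at h
    exact h

end Cfsg.Agent.S1573
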