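import Cfsg.Statements.S1578
import Cfsg.Agent.Helper27.CensusU24
-- import your own Cfsg.Agent.* helpers here

set_option autoImplicit false
open Cfsg

namespace Cfsg.Agent.S1578

open Cfsg.Agent.Helper27

lemma sqNorm_sub' (x y : GolayPt → ℤ) :
    sqNorm (x - y) = sqNorm x - 2 * dotInt x y + sqNorm y := by
  unfold sqNorm dotInt
  rw [Finset.mul_sum, ← Finset.sum_sub_distrib, ← Finset.sum_add_distrib]
  apply Finset.sum_congr rfl
  intro i _
  simp only [Pi.sub_apply]
  ring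


/-- A lattice vector of customary norm 6 is the sum of an unordered pair of minimal vectors in exactly 276 ways (552 ordered summands). -/
theorem result (u : ↥Cfsg.leechLattice) (hu : Cfsg.sqNorm (u : Cfsg.GolayPt → ℤ) = 48) : {v : ↥Cfsg.leechLattice | Cfsg.sqNorm (v : Cfsg.GolayPt → ℤ) = 32 ∧ Cfsg.sqNorm ((u - v) : Cfsg.GolayPt → ℤ) = 32}.ncard = 552 := by
  obtain ⟨g, hg⟩ := Cfsg.Agent.S0401.result u r5 hu r5_norm
  have hset : {v : ↥Cfsg.leechLattice | Cfsg.sqNorm (v : Cfsg.GolayPt → ℤ) = 32 ∧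
      Cfsg.sqNorm ((u - v) : Cfsg.GolayPt → ℤ) = 32}
      = {v : leechLattice | sqNorm v.1 = 32 ∧ dotInt u.1 v.1 = 24} := by
    ext v
    have h := sqNorm_sub' (u : GolayPt → ℤ) (v : GolayPt → ℤ)
    constructor
    · rintro ⟨h1, h2⟩
      refine ⟨h1, ?_⟩
      rw [h2, hu, h1] at h
      omega
    · rintro ⟨h1, h2⟩
      refine ⟨h1, ?_⟩
      rw [hu, h1, h2] at h
      rw [h]
      norm_num
  rw [hset, census_transport g u r5 hg]
  have h := census_one L5 L5_len L5_snd 24 0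
  rw [cu24_1, cu24_2, cu24_3] at h
  have e : ((24 : ℕ) : ℤ) - ((0 : ℕ) : ℤ) = 24 := by norm_num
  rw [e] at h
  exact h

end Cfsg.Agent.S1578
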