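import Cfsg.Statements.S1588
import Cfsg.Agent.Helper8.Lattice2

set_option autoImplicit false
open Matrix
open Cfsg

namespace Cfsg.Agent.S1588

open Cfsg.Agent.Helper8 in
/-- Second step of the characterisation: under the vector counts of the rank-24 lattice, the norm-8 vectors fall into congruence classes of exactly 48 modulo twice the lattice. -/
theorem result (B : Matrix (Fin 24) (Fin 24) ℤ) (hsymm : B.IsSymm) (hpos : ∀ x : Fin 24 → ℤ, x ≠ 0 → 0 < x ⬝ᵥ (B *ᵥ x)) (heven : ∀ x : Fin 24 → ℤ, (2 : ℤ) ∣ x ⬝ᵥ (B *ᵥ x)) (h2 : ∀ x : Fin 24 → ℤ, x ⬝ᵥ (B *ᵥ x) ≠ 2) (h4 : {x : Fin 24 → ℤ | x ⬝ᵥ (B *ᵥ x) = 4}.ncard = 196560) (h6 : {x : Fin 24 → ℤ | x ⬝ᵥ (B *ᵥ x) = 6}.ncard = 16773120) (h8 : {x : Fin 24 → ℤ | x ⬝ᵥ (B *ᵥ x) = 8}.ncard = 398034000) (x : Fin 24 → ℤ) (hx : x ⬝ᵥ (B *ᵥ x) = 8) : {y : Fin 24 → ℤ | y ⬝ᵥ (B *ᵥ y) = 8 ∧ ∀ i, (2 : ℤ) ∣ (x - y) i}.ncard = 48 := by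
  classical
  have hfin4 : {x : Fin 24 → ℤ | x ⬝ᵥ (B *ᵥ x) = 4}.Finite :=
    Set.finite_of_ncard_ne_zero (by rw [h4]; norm_num)
  have hfin6 : {x : Fin 24 → ℤ | x ⬝ᵥ (B *ᵥ x) = 6}.Finite :=
    Set.finite_of_ncard_ne_zero (by rw [h6]; norm_num)
  have hfin8 : {x : Fin 24 → ℤ | x ⬝ᵥ (B *ᵥ x) = 8}.Finite :=
    Set.finite_of_ncard_ne_zero (by rw [h8]; norm_num)
  set F0 : Finset (Fin 24 → ℤ) := {0} with hF0
  set F4 : Finset (Fin 24 → ℤ) := hfin4.toFinset with hF4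
  set F6 : Finset (Fin 24 → ℤ) := hfin6.toFinset with hF6
  set F8 : Finset (Fin 24 → ℤ) := hfin8.toFinset with hF8
  have m0 : ∀ v, v ∈ F0 ↔ v ⬝ᵥ (B *ᵥ v) = 0 := by
    intro v
    rw [hF0, Finset.mem_singleton]
    constructor
    · rintro rfl; exact q_zero B
    · intro hq
      by_contra hne
      have := hpos v hne
      omega
  have m4 : ∀ v, v ∈ F4 ↔ v ⬝ᵥ (B *ᵥ v) = 4 := fun v => by simp [hF4]
  have m6 : ∀ v, v ∈ F6 ↔ v ⬝ᵥ (B *ᵥ v) = 6 := fun v => by simp [hF6]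
  have m8 : ∀ v, v ∈ F8 ↔ v ⬝ᵥ (B *ᵥ v) = 8 := fun v => by simp [hF8]
  have c0 : F0.card = 1 := by simp [hF0]
  have c4 : F4.card = 196560 := by rw [hF4, ← Set.ncard_eq_toFinset_card _ hfin4, h4]
  have c6 : F6.card = 16773120 := by rw [hF6, ← Set.ncard_eq_toFinset_card _ hfin6, h6]
  have c8 : F8.card = 398034000 := by rw [hF8, ← Set.ncard_eq_toFinset_card _ hfin8, h8]
  -- the weighted count per class
  set g : (Fin 24 → ZMod 2) → ℕ := fun c =>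
    (2 * 24) * (F0.filter fun v => red2 v = c).card + 24 * (F4.filter fun v => red2 v = c).card
      + 24 * (F6.filter fun v => red2 v = c).card + (F8.filter fun v => red2 v = c).card with hg
  have hgle : ∀ c ∈ (Finset.univ : Finset (Fin 24 → ZMod 2)), g c ≤ 2 * 24 := fun c _ =>
    class_bound B hsymm hpos heven h2 F0 F4 F6 F8 m0 m4 m6 m8 c
  have hfib : ∀ F : Finset (Fin 24 → ℤ),
      F.card = ∑ c : Fin 24 → ZMod 2, (F.filter fun v => red2 v = c).card := fun F =>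
    Finset.card_eq_sum_card_fiberwise (fun v _ => Finset.mem_coe.mpr (Finset.mem_univ _))
  have hsum : ∑ c : Fin 24 → ZMod 2, g c = ∑ _c : Fin 24 → ZMod 2, 2 * 24 := by
    have hcard : Fintype.card (Fin 24 → ZMod 2) = 2 ^ 24 := by
      simp [ZMod.card]
    rw [Finset.sum_const, Finset.card_univ, hcard]
    simp only [hg]
    rw [Finset.sum_add_distrib, Finset.sum_add_distrib, Finset.sum_add_distrib,
      ← Finset.mul_sum, ← Finset.mul_sum, ← Finset.mul_sum, ← hfib, ← hfib, ← hfib, ← hfib,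
      c0, c4, c6, c8]
    norm_num
  have hgeq := (Finset.sum_eq_sum_iff_of_le hgle).mp hsum (red2 x) (Finset.mem_univ _)
  -- in the class of x all short vectors have norm 8
  have hcls : ∀ (Fk : Finset (Fin 24 → ℤ)) (k : ℤ), k ≤ 8 → k ≠ 8 →
      (∀ v, v ∈ Fk ↔ v ⬝ᵥ (B *ᵥ v) = k) → (Fk.filter fun v => red2 v = red2 x).card = 0 := by
    intro Fk k hk8 hkne hk
    rw [Finset.card_eq_zero, Finset.eq_empty_iff_forall_notMem]
    intro w hw
    obtain ⟨hw1, hw2⟩ := Finset.mem_filter.mp hw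
    have hqw : w ⬝ᵥ (B *ᵥ w) = k := (hk w).mp hw1
    have hc : ∀ i, (2 : ℤ) ∣ (x - w) i := (red2_eq_iff x w).mp hw2.symm
    rcases short_congr B hsymm hpos heven h2 x w hx.le (by rw [hqw]; exact hk8) hc with h | h | h
    · rw [h, hx] at hqw; exact hkne hqw.symm
    · rw [h, q_neg, hx] at hqw; exact hkne hqw.symm
    · rw [h.2.1] at hqw; exact hkne hqw.symm
  have e0 := hcls F0 0 (by norm_num) (by norm_num) m0
  have e4 := hcls F4 4 (by norm_num) (by norm_num) m4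
  have e6 := hcls F6 6 (by norm_num) (by norm_num) m6
  simp only [hg] at hgeq
  rw [e0, e4, e6] at hgeq
  have hset : {y : Fin 24 → ℤ | y ⬝ᵥ (B *ᵥ y) = 8 ∧ ∀ i, (2 : ℤ) ∣ (x - y) i}
      = ((F8.filter fun v => red2 v = red2 x : Finset (Fin 24 → ℤ)) : Set (Fin 24 → ℤ)) := by
    ext y
    simp only [Set.mem_ofPred_eq, Finset.coe_filter, m8]
    constructor
    · rintro ⟨h1, h2'⟩
      exact ⟨h1, ((red2_eq_iff x y).mpr h2').symm⟩
    · rintro ⟨h1, h2'⟩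
      exact ⟨h1, (red2_eq_iff x y).mp h2'.symm⟩
  rw [hset, Set.ncard_coe_finset]
  omega

end Cfsg.Agent.S1588
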