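import Cfsg.Statements.S1595
import Mathlib
import Cfsg.Agent.Helper2.Steiner
import Cfsg.Agent.S0357

set_option autoImplicit false
open Cfsg

namespace Cfsg.Agent.S1595

open Cfsg.Agent.Helper2.Steiner

section
variable {α : Type*} [Fintype α] [DecidableEq α]

/-- number of blocks meeting `b` exactly in `T` -/
noncomputable def E (B : Set (Finset α)) (b T : Finset α) : ℕ :=
  ((blocks B).filter (fun c => b ∩ c = T)).card

theorem split {B : Set (Finset α)} (hB : Cfsg.IsSteinerSystem 5 6 B) (b : Finset α) (hb : b ∈ B)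
    (s : Finset α) (hs : s ⊆ b) :
    ((blocks B).filter (fun c => s ⊆ c)).card
      = ∑ k ∈ Finset.range 7, ∑ T ∈ (b.powersetCard k).filter (fun T => s ⊆ T), E B b T := by
  have hmaps : ∀ c ∈ (blocks B).filter (fun c => s ⊆ c),
      b ∩ c ∈ (b.powerset).filter (fun T => s ⊆ T) := by
    intro c hc
    rw [Finset.mem_filter] at hc
    rw [Finset.mem_filter, Finset.mem_powerset]
    exact ⟨Finset.inter_subset_left, Finset.subset_inter hs hc.2⟩
  rw [Finset.card_eq_sum_card_fiberwise (f := fun c => b ∩ c)
    (t := (b.powerset).filter (fun T => s ⊆ T)) (fun c hc => hmaps c hc)]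
  have h1 : ∀ T ∈ (b.powerset).filter (fun T => s ⊆ T),
      (((blocks B).filter (fun c => s ⊆ c)).filter (fun c => b ∩ c = T)).card = E B b T := by
    intro T hT
    rw [Finset.mem_filter] at hT
    unfold E
    refine congrArg Finset.card ?_
    ext c
    simp only [Finset.mem_filter]
    constructor
    · rintro ⟨⟨h1, _⟩, h3⟩
      exact ⟨h1, h3⟩
    · rintro ⟨h1, h3⟩
      refine ⟨⟨h1, ?_⟩, h3⟩
      rw [← h3] at hT
      exact hT.2.trans Finset.inter_subset_right
  rw [Finset.sum_congr rfl h1]
  rw [← Finset.sum_fiberwise_of_maps_to (g := fun T : Finset α => T.card) (t := Finset.range 7)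
    (fun T hT => by
      rw [Finset.mem_filter, Finset.mem_powerset] at hT
      rw [Finset.mem_range]
      have := Finset.card_le_card hT.1
      have := hB.1 b hb
      omega)]
  apply Finset.sum_congr rfl
  intro k _
  apply Finset.sum_congr
  · ext T
    simp only [Finset.mem_filter, Finset.mem_powerset, Finset.mem_powersetCard]
    tauto
  · intro T _
    rfl

theorem inner_zero {B : Set (Finset α)} (b s : Finset α) (k : ℕ) (hk : k < s.card) :
    ∑ T ∈ (b.powersetCard k).filter (fun T => s ⊆ T), E B b T = 0 := by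
  have h : (b.powersetCard k).filter (fun T => s ⊆ T) = ∅ := by
    rw [Finset.filter_eq_empty_iff]
    intro T hT hsT
    rw [Finset.mem_powersetCard] at hT
    have := Finset.card_le_card hsT
    omega
  rw [h, Finset.sum_empty]

theorem inner_const {B : Set (Finset α)} (hB : Cfsg.IsSteinerSystem 5 6 B) (b : Finset α)
    (hb : b ∈ B) (s : Finset α) (hs : s ⊆ b) (k e : ℕ) (hk : s.card ≤ k)
    (he : ∀ T : Finset α, T ⊆ b → T.card = k → E B b T = e) :
    ∑ T ∈ (b.powersetCard k).filter (fun T => s ⊆ T), E B b T
      = (6 - s.card).choose (k - s.card) * e := by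
  have h1 : ∀ T ∈ (b.powersetCard k).filter (fun T => s ⊆ T), E B b T = e := by
    intro T hT
    rw [Finset.mem_filter, Finset.mem_powersetCard] at hT
    exact he T hT.1.1 hT.1.2
  rw [Finset.sum_congr rfl h1, Finset.sum_const, smul_eq_mul, card_supersets s b hs k hk,
    hB.1 b hb]

theorem E_self {B : Set (Finset α)} (hB : Cfsg.IsSteinerSystem 5 6 B) (b : Finset α)
    (hb : b ∈ B) : E B b b = 1 := by
  unfold E
  have h : (blocks B).filter (fun c => b ∩ c = b) = {b} := by
    ext c
    rw [Finset.mem_filter, mem_blocks, Finset.mem_singleton]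
    constructor
    · rintro ⟨hc, h⟩
      by_contra hne
      have := inter_lt hB hb hc (Ne.symm hne)
      rw [h, hB.1 b hb] at this
      omega
    · rintro rfl
      exact ⟨hb, Finset.inter_self c⟩
  rw [h, Finset.card_singleton]

theorem E_five {B : Set (Finset α)} (hB : Cfsg.IsSteinerSystem 5 6 B) (b : Finset α)
    (hb : b ∈ B) (T : Finset α) (hT : T.card = 5) : E B b T = 0 := by
  unfold E
  rw [Finset.card_eq_zero, Finset.filter_eq_empty_iff]
  intro c hc h
  rw [mem_blocks] at hc
  by_cases hne : b = c
  · rw [← hne, Finset.inter_self] at h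
    rw [← h, hB.1 b hb] at hT
    omega
  · have := inter_lt hB hb hc hne
    rw [h, hT] at this
    omega

theorem count_sup (hα : Fintype.card α = 12) {B : Set (Finset α)}
    (hB : Cfsg.IsSteinerSystem 5 6 B) (s : Finset α) (hs : s.card ≤ 5) :
    ((blocks B).filter (fun c => s ⊆ c)).card * (6 - s.card).choose (5 - s.card)
      = (12 - s.card).choose (5 - s.card) := by
  have h := lambda_count hB s hs
  rw [hα] at h
  exact h

theorem E_four (hα : Fintype.card α = 12) {B : Set (Finset α)}
    (hB : Cfsg.IsSteinerSystem 5 6 B) (b : Finset α) (hb : b ∈ B) (s : Finset α) (hs : s ⊆ b)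
    (h4 : s.card = 4) : E B b s = 3 := by
  have h1 := split hB b hb s hs
  have h2 := count_sup hα hB s (by omega)
  have hk4 : ∑ T ∈ (b.powersetCard 4).filter (fun T => s ⊆ T), E B b T = E B b s := by
    have h : (b.powersetCard 4).filter (fun T => s ⊆ T) = {s} := by
      ext T
      rw [Finset.mem_filter, Finset.mem_powersetCard, Finset.mem_singleton]
      constructor
      · rintro ⟨⟨_, hT⟩, hsT⟩
        exact (Finset.eq_of_subset_of_card_le hsT (by omega)).symm
      · rintro rfl
        exact ⟨⟨hs, h4⟩, Finset.Subset.refl _⟩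
    rw [h, Finset.sum_singleton]
  have hk5 := inner_const hB b hb s hs 5 0 (by omega) (fun T _ hT => E_five hB b hb T hT)
  have hk6 := inner_const hB b hb s hs 6 1 (by omega) (fun T hTb hT => by
    have : T = b := Finset.eq_of_subset_of_card_le hTb (by rw [hB.1 b hb, hT])
    rw [this]
    exact E_self hB b hb)
  simp only [Finset.sum_range_succ, Finset.sum_range_zero] at h1
  rw [inner_zero b s 0 (by omega), inner_zero b s 1 (by omega), inner_zero b s 2 (by omega),
    inner_zero b s 3 (by omega), hk4, hk5, hk6] at h1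
  rw [h4] at h1 h2
  generalize ((blocks B).filter (fun c => s ⊆ c)).card = N at h1 h2
  norm_num [Nat.choose] at h1 h2
  omega

theorem E_three (hα : Fintype.card α = 12) {B : Set (Finset α)}
    (hB : Cfsg.IsSteinerSystem 5 6 B) (b : Finset α) (hb : b ∈ B) (s : Finset α) (hs : s ⊆ b)
    (h3 : s.card = 3) : E B b s = 2 := by
  have h1 := split hB b hb s hs
  have h2 := count_sup hα hB s (by omega)
  have hk3 : ∑ T ∈ (b.powersetCard 3).filter (fun T => s ⊆ T), E B b T = E B b s := by
    have h : (b.powersetCard 3).filter (fun T => s ⊆ T) = {s} := by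
      ext T
      rw [Finset.mem_filter, Finset.mem_powersetCard, Finset.mem_singleton]
      constructor
      · rintro ⟨⟨_, hT⟩, hsT⟩
        exact (Finset.eq_of_subset_of_card_le hsT (by omega)).symm
      · rintro rfl
        exact ⟨⟨hs, h3⟩, Finset.Subset.refl _⟩
    rw [h, Finset.sum_singleton]
  have hk4 := inner_const hB b hb s hs 4 3 (by omega)
    (fun T hTb hT => E_four hα hB b hb T hTb hT)
  have hk5 := inner_const hB b hb s hs 5 0 (by omega) (fun T _ hT => E_five hB b hb T hT)
  have hk6 := inner_const hB b hb s hs 6 1 (by omega) (fun T hTb hT => by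
    have : T = b := Finset.eq_of_subset_of_card_le hTb (by rw [hB.1 b hb, hT])
    rw [this]
    exact E_self hB b hb)
  simp only [Finset.sum_range_succ, Finset.sum_range_zero] at h1
  rw [inner_zero b s 0 (by omega), inner_zero b s 1 (by omega), inner_zero b s 2 (by omega),
    hk3, hk4, hk5, hk6] at h1
  rw [h3] at h1 h2
  generalize ((blocks B).filter (fun c => s ⊆ c)).card = N at h1 h2
  norm_num [Nat.choose] at h1 h2
  omega

theorem E_two (hα : Fintype.card α = 12) {B : Set (Finset α)}
    (hB : Cfsg.IsSteinerSystem 5 6 B) (b : Finset α) (hb : b ∈ B) (s : Finset α) (hs : s ⊆ b)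
    (h2' : s.card = 2) : E B b s = 3 := by
  have h1 := split hB b hb s hs
  have h2 := count_sup hα hB s (by omega)
  have hk2 : ∑ T ∈ (b.powersetCard 2).filter (fun T => s ⊆ T), E B b T = E B b s := by
    have h : (b.powersetCard 2).filter (fun T => s ⊆ T) = {s} := by
      ext T
      rw [Finset.mem_filter, Finset.mem_powersetCard, Finset.mem_singleton]
      constructor
      · rintro ⟨⟨_, hT⟩, hsT⟩
        exact (Finset.eq_of_subset_of_card_le hsT (by omega)).symm
      · rintro rfl
        exact ⟨⟨hs, h2'⟩, Finset.Subset.refl _⟩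
    rw [h, Finset.sum_singleton]
  have hk3 := inner_const hB b hb s hs 3 2 (by omega)
    (fun T hTb hT => E_three hα hB b hb T hTb hT)
  have hk4 := inner_const hB b hb s hs 4 3 (by omega)
    (fun T hTb hT => E_four hα hB b hb T hTb hT)
  have hk5 := inner_const hB b hb s hs 5 0 (by omega) (fun T _ hT => E_five hB b hb T hT)
  have hk6 := inner_const hB b hb s hs 6 1 (by omega) (fun T hTb hT => by
    have : T = b := Finset.eq_of_subset_of_card_le hTb (by rw [hB.1 b hb, hT])
    rw [this]
    exact E_self hB b hb)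
  simp only [Finset.sum_range_succ, Finset.sum_range_zero] at h1
  rw [inner_zero b s 0 (by omega), inner_zero b s 1 (by omega),
    hk2, hk3, hk4, hk5, hk6] at h1
  rw [h2'] at h1 h2
  generalize ((blocks B).filter (fun c => s ⊆ c)).card = N at h1 h2
  norm_num [Nat.choose] at h1 h2
  omega

theorem ncard_E (B : Set (Finset α)) (b s : Finset α) :
    {c : Finset α | c ∈ B ∧ b ∩ c = s}.ncard = E B b s := by
  unfold E
  rw [← Set.ncard_coe_finset]
  congr 1
  ext c
  simp only [Set.mem_ofPred_eq, Finset.coe_filter, mem_blocks]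

end

/-- Leech triangle of S(5, 6, 12): blocks meet in 0, 2, 3 or 4 points, and a block is met exactly in a given 2-, 3- or 4-subset by 3, 2, 3 blocks respectively. -/
theorem result {α : Type*} [Fintype α] [DecidableEq α] (hα : Fintype.card α = 12) {B : Set (Finset α)} (hB : Cfsg.IsSteinerSystem 5 6 B) (b : Finset α) (hb : b ∈ B) : (∀ c ∈ B, c ≠ b → (b ∩ c).card = 0 ∨ (b ∩ c).card = 2 ∨ (b ∩ c).card = 3 ∨ (b ∩ c).card = 4) ∧ ∀ s ⊆ b, (s.card = 2 → {c : Finset α | c ∈ B ∧ b ∩ c = s}.ncard = 3) ∧ (s.card = 3 → {c : Finset α | c ∈ B ∧ b ∩ c = s}.ncard = 2) ∧ (s.card = 4 → {c : Finset α | c ∈ B ∧ b ∩ c = s}.ncard = 3) := by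
  constructor
  · intro c hc hne
    have hlt := inter_lt hB hb hc (Ne.symm hne)
    have h1 : (b ∩ c).card ≠ 1 := by
      intro h1
      have hcomp := Cfsg.Agent.S0357.result hα hB hb
      have h5 : (bᶜ ∩ c).card = 5 := by
        have h6 := Finset.card_inter_add_card_sdiff c b
        have h7 : c \ b = bᶜ ∩ c := by
          ext x
          simp only [Finset.mem_sdiff, Finset.mem_inter, Finset.mem_compl]
          tauto
        rw [h7, Finset.inter_comm c b, h1, hB.1 c hc] at h6
        omega
      by_cases hcb : bᶜ = c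
      · rw [← hcb] at h1
        have : b ∩ bᶜ = ∅ := Finset.inter_compl b
        rw [this, Finset.card_empty] at h1
        omega
      · have := inter_lt hB hcomp hc hcb
        omega
    omega
  · intro s hs
    refine ⟨fun h => ?_, fun h => ?_, fun h => ?_⟩
    · rw [ncard_E]
      exact E_two hα hB b hb s hs h
    · rw [ncard_E]
      exact E_three hα hB b hb s hs h
    · rw [ncard_E]
      exact E_four hα hB b hb s hs h

end Cfsg.Agent.S1595
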