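import Cfsg.Statements.S1596
import Cfsg.Agent.Helper28.QuartCl

set_option autoImplicit false
open scoped Pointwise
open Cfsg

namespace Cfsg.Agent.S1596

open Cfsg.Agent.Helper28 Cfsg.Agent.Helper28.Golay
open Cfsg
open scoped Pointwise

/-- A quartet of a dodecad is determined by any two of its triples: two disjoint triples uniting to a hexad extend to exactly one quartet. -/
theorem result (d : Finset Cfsg.GolayPt) (hd : d ∈ Cfsg.dodecads) (t u : Finset Cfsg.GolayPt) (ht : t.card = 3) (hu : u.card = 3) (htu : Disjoint t u) (hh : t ∪ u ∈ Cfsg.hexadsOn d) : ∃! Q : Finset (Finset Cfsg.GolayPt), Q ∈ Cfsg.quartets d ∧ t ∈ Q ∧ u ∈ Q := by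
  obtain ⟨σ, hσ, e1, e2, e3⟩ := normalize_tu d hd t u ht hu htu hh
  have hd' : σ⁻¹ • toSet d0 = d := by rw [inv_smul_eq_iff, e1]
  refine ⟨σ⁻¹ • famM L0, ⟨?_, ?_, ?_⟩, ?_⟩
  · have h := smul_mem_quartets (M24.inv_mem hσ) (famM_mem (quartLL_spec L0_mem))
    rwa [hd'] at h
  · rw [Finset.mem_inv_smul_finset_iff, e2]
    exact T0_mem
  · rw [Finset.mem_inv_smul_finset_iff, e3]
    exact U0_mem
  · rintro Q ⟨hQ, htQ, huQ⟩
    have hQ' := smul_mem_quartets hσ hQ
    rw [e1] at hQ'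
    have hb := base_unique (σ • Q) hQ' (by rw [← e2]; exact Finset.smul_mem_smul_finset htQ)
      (by rw [← e3]; exact Finset.smul_mem_smul_finset huQ)
    rw [← hb, inv_smul_smul]

end Cfsg.Agent.S1596
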