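import Cfsg.Statements.S1597
import Cfsg.Agent.Helper28.QuartCl

set_option autoImplicit false
open scoped Pointwise
open Cfsg

namespace Cfsg.Agent.S1597

open Cfsg.Agent.Helper28 Cfsg.Agent.Helper28.Golay
open Cfsg
open scoped Pointwise

/-- A dodecad has 220 quartets and its stabiliser is transitive on them. -/
theorem result (d : Finset Cfsg.GolayPt) (hd : d ∈ Cfsg.dodecads) : (Cfsg.quartets d).ncard = 220 ∧ ∀ Q ∈ Cfsg.quartets d, ∀ Q' ∈ Cfsg.quartets d, ∃ g : Equiv.Perm Cfsg.GolayPt, g ∈ Cfsg.M24 ∧ g • d = d ∧ g • Q = Q' := by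
  obtain ⟨σ, hσ, e⟩ := dod_trans d (toSet d0) hd d0_mem
  constructor
  · have himg : quartets (toSet d0) = (fun X => σ • X) '' quartets d := by
      ext X
      constructor
      · intro hX
        refine ⟨σ⁻¹ • X, ?_, smul_inv_smul σ X⟩
        have h := smul_mem_quartets (M24.inv_mem hσ) hX
        rwa [← e, inv_smul_smul] at h
      · rintro ⟨Q, hQ, rfl⟩
        have h := smul_mem_quartets hσ hQ
        rwa [e] at h
    rw [← ncard_quartets0, himg, Set.ncard_image_of_injective _ (MulAction.injective σ)]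
  · intro Q hQ Q' hQ'
    obtain ⟨g1, hg1, e1, f1⟩ := quart_trans d hd Q hQ
    obtain ⟨g2, hg2, e2, f2⟩ := quart_trans d hd Q' hQ'
    refine ⟨g2⁻¹ * g1, M24.mul_mem (M24.inv_mem hg2) hg1, ?_, ?_⟩
    · rw [mul_smul, e1, inv_smul_eq_iff, e2]
    · rw [mul_smul, f1, inv_smul_eq_iff, f2]

end Cfsg.Agent.S1597
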