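import Cfsg.Statements.S1599
import Cfsg.Agent.Helper28.OrbQQ
import Cfsg.Agent.S1597
import Cfsg.Agent.Helper28.OrbSub
import Cfsg.Agent.Helper28.OrbMax

set_option autoImplicit false
open scoped Pointwise
open Cfsg

namespace Cfsg.Agent.S1599

open Cfsg.Agent.Helper28 Cfsg.Agent.Helper28.Golay
open Cfsg
open scoped Pointwise

theorem main (d : Finset GolayPt) (hd : d ∈ dodecads) (Q : Finset (Finset GolayPt))
    (hQ : Q ∈ quartets d) :
    (∀ X ∈ quartets d, MulAction.orbit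
        ↥(MulAction.stabilizer M24 d ⊓ MulAction.stabilizer M24 Q) X =
        {Y | Y ∈ quartets d ∧ hist Q Y = hist Q X}) ∧
    (∀ v, {X | X ∈ quartets d ∧ hist Q X = v}.ncard =
      {X | X ∈ quartets (toSet d0) ∧ hist (famM L0) X = v}.ncard) ∧
    hist Q Q = 4000012 := by
  obtain ⟨σ, hσ, e1, e2⟩ := quart_trans d hd Q hQ
  have key := orbit_classes_sub (G := ↥M24) (A := Finset GolayPt × Finset (Finset GolayPt))
    (fun x => quartets x.1) (fun g x X hX => smul_mem_quartets g.2 hX)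
    (fun x X => hist x.2 X) (fun g x X => hist_smul g.1 x.2 X)
    (toSet d0, famM L0) (fun v => famM (OrbQQ.repc v))
    (fun X hX => by
      obtain ⟨g, hg, h1, h2, h3⟩ := OrbQQ.fam.1 X hX
      exact ⟨⟨g, hg⟩, Prod.ext h1 h2, h3⟩)
    (d, Q) ⟨σ, hσ⟩ (Prod.ext e1 e2)
    (MulAction.stabilizer M24 d ⊓ MulAction.stabilizer M24 Q)
    (fun g => by
      rw [Subgroup.mem_inf, MulAction.mem_stabilizer_iff, MulAction.mem_stabilizer_iff]
      constructor
      · rintro ⟨h1, h2⟩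
        exact Prod.ext h1 h2
      · intro h
        exact ⟨congrArg Prod.fst h, congrArg Prod.snd h⟩)
  refine ⟨key.1, key.2, ?_⟩
  have h := hist_smul σ Q Q
  rw [e2] at h
  rw [← h]
  exact OrbQQ.self_hist

/-- A quartet stabiliser has five orbits on the quartets of its dodecad, of sizes 1, 12, 27, 72, 108. -/
theorem result (d : Finset Cfsg.GolayPt) (hd : d ∈ Cfsg.dodecads) (Q : Finset (Finset Cfsg.GolayPt)) (hQ : Q ∈ Cfsg.quartets d) : ∃ X₁ ∈ Cfsg.quartets d, ∃ X₂ ∈ Cfsg.quartets d, ∃ X₃ ∈ Cfsg.quartets d, ∃ X₄ ∈ Cfsg.quartets d, (MulAction.orbit ↥(MulAction.stabilizer Cfsg.M24 d ⊓ MulAction.stabilizer Cfsg.M24 Q) X₁).ncard = 12 ∧ (MulAction.orbit ↥(MulAction.stabilizer Cfsg.M24 d ⊓ MulAction.stabilizer Cfsg.M24 Q) X₂).ncard = 27 ∧ (MulAction.orbit ↥(MulAction.stabilizer Cfsg.M24 d ⊓ MulAction.stabilizer Cfsg.M24 Q) X₃).ncard = 72 ∧ (MulAction.orbit ↥(MulAction.stabilizer Cfsg.M24 d ⊓ MulAction.stabilizer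 Cfsg.M24 Q) X₄).ncard = 108 ∧ Cfsg.quartets d = {Q} ∪ MulAction.orbit ↥(MulAction.stabilizer Cfsg.M24 d ⊓ MulAction.stabilizer Cfsg.M24 Q) X₁ ∪ MulAction.orbit ↥(MulAction.stabilizer Cfsg.M24 d ⊓ MulAction.stabilizer Cfsg.M24 Q) X₂ ∪ MulAction.orbit ↥(MulAction.stabilizer Cfsg.M24 d ⊓ MulAction.stabilizer Cfsg.M24 Q) X₃ ∪ MulAction.orbit ↥(MulAction.stabilizer Cfsg.M24 d ⊓ MulAction.stabilizer Cfsg.M24 Q) X₄ := by
  obtain ⟨k1, k2, k3⟩ := main d hd Q hQ
  have hfin : (quartets d).Finite := Set.toFinite _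
  have hN : (quartets d).ncard = 1 + 12 + 27 + 72 + 108 := (Cfsg.Agent.S1597.result d hd).1
  exact one_four_orbits (quartets d) hfin (fun X => hist Q X) k1 Q hQ
    4000012 1000906 40408 30607 11005 12 27 72 108 k3
    (by rw [k2]; exact OrbQQ.cnt1) (by rw [k2]; exact OrbQQ.cnt2) (by rw [k2]; exact OrbQQ.cnt3)
    (by rw [k2]; exact OrbQQ.cnt4) (by rw [k2]; exact OrbQQ.cnt5)
    (by norm_num) (by norm_num) (by norm_num) (by norm_num) (by decide) hN

end Cfsg.Agent.S1599
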