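import Cfsg.Statements.S1600
import Cfsg.Agent.Helper28.M12Three

set_option autoImplicit false
open scoped Pointwise
open Cfsg

namespace Cfsg.Agent.S1600

open Cfsg.Agent.Helper28 Cfsg.Agent.Helper28.Golay
open scoped Pointwise

theorem mem_H (d : Finset Cfsg.GolayPt) (p q r : Cfsg.GolayPt) (h : ↥Cfsg.M24) :
    h ∈ (MulAction.stabilizer Cfsg.M24 d ⊓ MulAction.stabilizer Cfsg.M24 p ⊓ MulAction.stabilizer Cfsg.M24 q ⊓ MulAction.stabilizer Cfsg.M24 r) ↔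
      (h : Equiv.Perm Cfsg.GolayPt) • d = d ∧ (h : Equiv.Perm Cfsg.GolayPt) p = p ∧
      (h : Equiv.Perm Cfsg.GolayPt) q = q ∧ (h : Equiv.Perm Cfsg.GolayPt) r = r := by
  rw [Subgroup.mem_inf, Subgroup.mem_inf, Subgroup.mem_inf, MulAction.mem_stabilizer_iff,
    MulAction.mem_stabilizer_iff, MulAction.mem_stabilizer_iff, MulAction.mem_stabilizer_iff]
  constructor
  · rintro ⟨⟨⟨h1, h2⟩, h3⟩, h4⟩
    exact ⟨h1, h2, h3, h4⟩
  · rintro ⟨h1, h2, h3, h4⟩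
    exact ⟨⟨⟨h1, h2⟩, h3⟩, h4⟩

/-- The pointwise stabiliser of three points of a dodecad inside the dodecad stabiliser (order 72) is transitive on the complementary dodecad. -/
theorem result (d : Finset Cfsg.GolayPt) (hd : d ∈ Cfsg.dodecads) (p q r : Cfsg.GolayPt) (hp : p ∈ d) (hq : q ∈ d) (hr : r ∈ d) (hpq : p ≠ q) (hpr : p ≠ r) (hqr : q ≠ r) : Nat.card ↥(MulAction.stabilizer Cfsg.M24 d ⊓ MulAction.stabilizer Cfsg.M24 p ⊓ MulAction.stabilizer Cfsg.M24 q ⊓ MulAction.stabilizer Cfsg.M24 r) = 72 ∧ ∀ x ∉ d, ∀ y ∉ d, ∃ g ∈ (MulAction.stabilizer Cfsg.M24 d ⊓ MulAction.stabilizer Cfsg.M24 p ⊓ MulAction.stabilizer Cfsg.M24 q ⊓ MulAction.stabilizer Cfsg.M24 r), ((g : ↥Cfsg.M24) : Equiv.Perm Cfsg.GolayPt) x = y := by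

  obtain ⟨κ, hκ, k0, k1, k2, k3⟩ := normalize3 d hd p q r hp hq hr hpq hpr hqr
  constructor
  · rw [← card_GS72]
    refine Nat.card_congr ⟨fun h => ⟨κ * h.1.1 * κ⁻¹,
      (conj72 d p q r κ hκ k0 k1 k2 k3 h.1.1).1 ⟨h.1.2, (mem_H d p q r h.1).1 h.2⟩⟩,
      fun g => ⟨⟨κ⁻¹ * g.1 * κ, ?_⟩, ?_⟩, ?_, ?_⟩
    · have h1 : κ * (κ⁻¹ * g.1 * κ) * κ⁻¹ ∈ GS [d0] [2, 1, 0] := by
        have : κ * (κ⁻¹ * g.1 * κ) * κ⁻¹ = g.1 := by group
        rw [this]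
        exact g.2
      exact ((conj72 d p q r κ hκ k0 k1 k2 k3 _).2 h1).1
    · have h1 : κ * (κ⁻¹ * g.1 * κ) * κ⁻¹ ∈ GS [d0] [2, 1, 0] := by
        have : κ * (κ⁻¹ * g.1 * κ) * κ⁻¹ = g.1 := by group
        rw [this]
        exact g.2
      exact (mem_H d p q r _).2 ((conj72 d p q r κ hκ k0 k1 k2 k3 _).2 h1).2
    · intro h
      apply Subtype.ext
      apply Subtype.ext
      show κ⁻¹ * (κ * h.1.1 * κ⁻¹) * κ = h.1.1
      group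
    · intro g
      apply Subtype.ext
      show κ * (κ⁻¹ * g.1 * κ) * κ⁻¹ = g.1
      group
  · intro x hx y hy
    have hx' : κ x ∉ toSet d0 := by
      rw [← k0]
      intro hc
      exact hx ((Finset.smul_mem_smul_finset_iff κ).1 hc)
    have hy' : κ y ∉ toSet d0 := by
      rw [← k0]
      intro hc
      exact hy ((Finset.smul_mem_smul_finset_iff κ).1 hc)
    obtain ⟨τ, hτ, e⟩ := GS72_trans (κ x) (κ y) hx' hy'
    have h1 : κ * (κ⁻¹ * τ * κ) * κ⁻¹ ∈ GS [d0] [2, 1, 0] := by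
      have : κ * (κ⁻¹ * τ * κ) * κ⁻¹ = τ := by group
      rw [this]
      exact hτ
    have h2 := (conj72 d p q r κ hκ k0 k1 k2 k3 _).2 h1
    refine ⟨⟨κ⁻¹ * τ * κ, h2.1⟩, (mem_H d p q r _).2 h2.2, ?_⟩
    show (κ⁻¹ * τ * κ) x = y
    rw [Equiv.Perm.mul_apply, Equiv.Perm.mul_apply, e, perm_inv_apply]

end Cfsg.Agent.S1600
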