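import Cfsg.Statements.S1604
import Cfsg.Agent.Helper28.OrbLib
import Cfsg.Agent.Helper28.OrbDataE

set_option autoImplicit false
open scoped Pointwise
open Cfsg

namespace Cfsg.Agent.S1604

open Cfsg.Agent.Helper28 Cfsg.Agent.Helper28.Golay

/-- A hexad stabiliser in the two-point stabiliser has orbits of sizes 1, 16, 60 on the 77 hexads: the 16 hexads disjoint from it and the 60 meeting it in two points. -/
theorem result (p q : Cfsg.GolayPt) (hpq : p ≠ q) (o o' o'' : Finset Cfsg.GolayPt) (ho : o ∈ Cfsg.octads) (ho' : o' ∈ Cfsg.octads) (ho'' : o'' ∈ Cfsg.octads) (hp : p ∈ o ∧ p ∈ o' ∧ p ∈ o'') (hq : q ∈ o ∧ q ∈ o' ∧ q ∈ o'') (h : (o ∩ o').card = (o ∩ o'').card) : {x : Finset Cfsg.GolayPt | x ∈ Cfsg.octads ∧ p ∈ x ∧ q ∈ x ∧ (o ∩ x).card = 2}.ncard = 16 ∧ {x : Finset Cfsg.GolayPt | x ∈ Cfsg.octads ∧ p ∈ x ∧ q ∈ x ∧ (o ∩ x).card = 4}.ncard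 = 60 ∧ ∃ g : Equiv.Perm Cfsg.GolayPt, g ∈ Cfsg.M24 ∧ g p = p ∧ g q = q ∧ g • o = o ∧ g • o' = o'' := by
  obtain ⟨σ, hσ, h0, hp0, hq0⟩ := oct_normal2 o ho p q hp.1 hq.1 hpq
  have hspec : ∀ y : Finset GolayPt, clsE (maskOf (σ • y)) = specC 8 o (fun y => p ∈ y ∧ q ∈ y) y := by
    intro y
    simp only [clsE, specC, Bool.and_eq_true, nbeq_iff, wt_smul, wt_and_smul h0,
      testBit_smul hp0 (by norm_num : 23 < 24), testBit_smul hq0 (by norm_num : 0 < 24)]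
  have hset : ∀ j : Nat, {x : Finset GolayPt | x ∈ octads ∧ p ∈ x ∧ q ∈ x ∧ (o ∩ x).card = j} =
      {y : Finset GolayPt | y ∈ supports (golayCode : Set (GolayPt → ZMod 2)) ∧ specC 8 o (fun y => p ∈ y ∧ q ∈ y) y = j + 1} := by
    intro j
    ext y
    show (y ∈ octads ∧ p ∈ y ∧ q ∈ y ∧ (o ∩ y).card = j) ↔ (y ∈ supports (golayCode : Set (GolayPt → ZMod 2)) ∧ specC 8 o (fun y => p ∈ y ∧ q ∈ y) y = j + 1)
    rw [specC_eq_succ_iff]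
    constructor
    · rintro ⟨⟨h1, h2⟩, h3, h4, h5⟩
      exact ⟨h1, h2, ⟨h3, h4⟩, h5⟩
    · rintro ⟨h1, h2, ⟨h3, h4⟩, h5⟩
      exact ⟨⟨h1, h2⟩, h3, h4, h5⟩
  refine ⟨?_, ?_, ?_⟩
  · rw [hset 2, count_transport_cls clsE hσ (specC 8 o (fun y => p ∈ y ∧ q ∈ y)) hspec]
    decide +kernel
  · rw [hset 4, count_transport_cls clsE hσ (specC 8 o (fun y => p ∈ y ∧ q ∈ y)) hspec]
    decide +kernel
  · obtain ⟨τ, hτ, e⟩ := orb_transport orbE hσ (specC 8 o (fun y => p ∈ y ∧ q ∈ y)) hspec o' o'' ho'.1 ho''.1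
      (by rw [specC_pos (P := fun y => p ∈ y ∧ q ∈ y) ho'.2 ⟨hp.2.1, hq.2.1⟩]; omega)
      (by rw [specC_pos (P := fun y => p ∈ y ∧ q ∈ y) ho'.2 ⟨hp.2.1, hq.2.1⟩,
        specC_pos (P := fun y => p ∈ y ∧ q ∈ y) ho''.2 ⟨hp.2.2, hq.2.2⟩, h])
    exact ⟨σ⁻¹ * τ * σ, conj_mem hσ hτ.1, conj_fix_pt hp0 (hτ.2.2 23 (by simp)),
      conj_fix_pt hq0 (hτ.2.2 0 (by simp)), conj_fix_set h0 (hτ.2.1 O0 (by simp)), e⟩

end Cfsg.Agent.S1604
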