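import Cfsg.Statements.S1605
import Cfsg.Agent.Helper28.OrbLib
import Cfsg.Agent.Helper28.OrbDataF

set_option autoImplicit false
open scoped Pointwise
open Cfsg

namespace Cfsg.Agent.S1605

open Cfsg.Agent.Helper28 Cfsg.Agent.Helper28.Golay

/-- octads through the point 23 avoiding the point 1 -/
def clsF1 (c : Nat) : Nat :=
  if (Nat.beq (wt c) 8 && (c.testBit 23 && !c.testBit 1)) = true then 1 else 0

/-- The two-point stabiliser acts on the 176 octads through the first point avoiding the second with rank 3 and subdegrees 1, 70, 105 (intersections 8, 2, 4). -/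
theorem result (p q : Cfsg.GolayPt) (hpq : p ≠ q) : {x : Finset Cfsg.GolayPt | (x ∈ Cfsg.octads ∧ p ∈ x ∧ q ∉ x)}.ncard = 176 ∧ (∀ o o' : Finset Cfsg.GolayPt, (o ∈ Cfsg.octads ∧ p ∈ o ∧ q ∉ o) → (o' ∈ Cfsg.octads ∧ p ∈ o' ∧ q ∉ o') → ∃ g : Equiv.Perm Cfsg.GolayPt, g ∈ Cfsg.M24 ∧ g p = p ∧ g q = q ∧ g • o = o') ∧ ∀ o : Finset Cfsg.GolayPt, (o ∈ Cfsg.octads ∧ p ∈ o ∧ q ∉ o) → {x : Finset Cfsg.GolayPt | (x ∈ Cfsg.octads ∧ p ∈ x ∧ q ∉ x) ∧ (o ∩ x).card = 2}.ncard = 70 ∧ {x : Finset Cfsg.GolayPt | (x ∈ Cfsg.octads ∧ p ∈ x ∧ q ∉ x) ∧ (o ∩ x).card = 4}.ncard = 105 ∧ ∀ o' o'' : Finset Cfsg.GolayPt, (o' ∈ Cfsg.octads ∧ p ∈ o' ∧ q ∉ o') → (o'' ∈ Cfsg.octads ∧ p ∈ o'' ∧ q ∉ o'') → (o ∩ o').card = (o ∩ o'').card → ∃ g : Equiv.Perm Cfsg.GolayPt, g ∈ Cfsg.M24 ∧ g p = p ∧ g q = q ∧ g • o = o ∧ g • o' = o'' := by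
  have h176 : {x : Finset GolayPt | (x ∈ octads ∧ p ∈ x ∧ q ∉ x)}.ncard = 176 := by
    obtain ⟨σ, hσ, hp0, hq0⟩ := trans2 p q (pt 23) (pt 1) hpq (by decide +kernel)
    have hspec : ∀ y : Finset GolayPt, clsF1 (maskOf (σ • y)) = specM 8 (fun y => p ∈ y ∧ q ∉ y) y := by
      intro y
      simp only [clsF1, specM, Bool.and_eq_true, nbeq_iff, wt_smul, Bool.not_eq_true',
        testBit_smul hp0 (by norm_num : 23 < 24), testBit_smul_false hq0 (by norm_num : 1 < 24)]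
    have hset : {x : Finset GolayPt | (x ∈ octads ∧ p ∈ x ∧ q ∉ x)} =
        {y : Finset GolayPt | y ∈ supports (golayCode : Set (GolayPt → ZMod 2)) ∧ specM 8 (fun y => p ∈ y ∧ q ∉ y) y = 1} := by
      ext y
      show (y ∈ octads ∧ p ∈ y ∧ q ∉ y) ↔ (y ∈ supports (golayCode : Set (GolayPt → ZMod 2)) ∧ specM 8 (fun y => p ∈ y ∧ q ∉ y) y = 1)
      rw [specM_eq_one_iff]
      constructor
      · rintro ⟨⟨h1, h2⟩, h3, h4⟩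
        exact ⟨h1, h2, h3, h4⟩
      · rintro ⟨h1, h2, h3, h4⟩
        exact ⟨⟨h1, h2⟩, h3, h4⟩
    rw [hset, count_transport_cls clsF1 hσ (specM 8 (fun y => p ∈ y ∧ q ∉ y)) hspec]
    decide +kernel
  have htr : ∀ o o' : Finset GolayPt, (o ∈ octads ∧ p ∈ o ∧ q ∉ o) →
      (o' ∈ octads ∧ p ∈ o' ∧ q ∉ o') →
      ∃ g : Equiv.Perm GolayPt, g ∈ M24 ∧ g p = p ∧ g q = q ∧ g • o = o' := by
    intro o o' ho ho'
    obtain ⟨σ, hσ, h0, hp0, hq0⟩ := oct_normal4 o ho.1 p q ho.2.1 ho.2.2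
    obtain ⟨σ', hσ', h0', hp0', hq0'⟩ := oct_normal4 o' ho'.1 p q ho'.2.1 ho'.2.2
    refine ⟨σ'⁻¹ * σ, M24.mul_mem (M24.inv_mem hσ') hσ, ?_, ?_, ?_⟩
    · rw [Equiv.Perm.mul_apply, hp0, ← hp0', perm_inv_apply]
    · rw [Equiv.Perm.mul_apply, hq0, ← hq0', perm_inv_apply]
    · rw [mul_smul, h0, inv_smul_eq_iff, h0']
  refine ⟨h176, htr, ?_⟩
  intro o ho
  obtain ⟨σ, hσ, h0, hp0, hq0⟩ := oct_normal4 o ho.1 p q ho.2.1 ho.2.2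
  have hspec : ∀ y : Finset GolayPt, clsF (maskOf (σ • y)) = specC 8 o (fun y => p ∈ y ∧ q ∉ y) y := by
    intro y
    simp only [clsF, specC, Bool.and_eq_true, nbeq_iff, wt_smul, wt_and_smul h0,
      Bool.not_eq_true', testBit_smul hp0 (by norm_num : 23 < 24),
      testBit_smul_false hq0 (by norm_num : 1 < 24)]
  have hset : ∀ j : Nat, {x : Finset GolayPt | (x ∈ octads ∧ p ∈ x ∧ q ∉ x) ∧ (o ∩ x).card = j} =
      {y : Finset GolayPt | y ∈ supports (golayCode : Set (GolayPt → ZMod 2)) ∧ specC 8 o (fun y => p ∈ y ∧ q ∉ y) y = j + 1} := by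
    intro j
    ext y
    show ((y ∈ octads ∧ p ∈ y ∧ q ∉ y) ∧ (o ∩ y).card = j) ↔ (y ∈ supports (golayCode : Set (GolayPt → ZMod 2)) ∧ specC 8 o (fun y => p ∈ y ∧ q ∉ y) y = j + 1)
    rw [specC_eq_succ_iff]
    constructor
    · rintro ⟨⟨⟨h1, h2⟩, h3, h4⟩, h5⟩
      exact ⟨h1, h2, ⟨h3, h4⟩, h5⟩
    · rintro ⟨h1, h2, ⟨h3, h4⟩, h5⟩
      exact ⟨⟨⟨h1, h2⟩, h3, h4⟩, h5⟩
  refine ⟨?_, ?_, ?_⟩
  · rw [hset 2, count_transport_cls clsF hσ (specC 8 o (fun y => p ∈ y ∧ q ∉ y)) hspec]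
    decide +kernel
  · rw [hset 4, count_transport_cls clsF hσ (specC 8 o (fun y => p ∈ y ∧ q ∉ y)) hspec]
    decide +kernel
  · intro o' o'' ho' ho'' heq
    obtain ⟨τ, hτ, e⟩ := orb_transport orbF hσ (specC 8 o (fun y => p ∈ y ∧ q ∉ y)) hspec o' o'' ho'.1.1 ho''.1.1
      (by rw [specC_pos (P := fun y => p ∈ y ∧ q ∉ y) ho'.1.2 ho'.2]; omega)
      (by rw [specC_pos (P := fun y => p ∈ y ∧ q ∉ y) ho'.1.2 ho'.2, specC_pos (P := fun y => p ∈ y ∧ q ∉ y) ho''.1.2 ho''.2, heq])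
    exact ⟨σ⁻¹ * τ * σ, conj_mem hσ hτ.1, conj_fix_pt hp0 (hτ.2.2 23 (by simp)),
      conj_fix_pt hq0 (hτ.2.2 1 (by simp)), conj_fix_set h0 (hτ.2.1 O0 (by simp)), e⟩

end Cfsg.Agent.S1605
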