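import Cfsg.Statements.S1607
import Cfsg.Agent.Helper28.OrbLib
import Cfsg.Agent.Helper28.OrbDataA

set_option autoImplicit false
open scoped Pointwise
open Cfsg

namespace Cfsg.Agent.S1607

open Cfsg.Agent.Helper28 Cfsg.Agent.Helper28.Golay

/-- The point stabiliser acts on the 253 heptads of its S(4, 7, 23) with rank 3 and subdegrees 1, 112, 140 (intersections 8, 2, 4). -/
theorem result (x : Cfsg.GolayPt) (o : Finset Cfsg.GolayPt) (ho : o ∈ Cfsg.octads) (hx : x ∈ o) : {o' : Finset Cfsg.GolayPt | o' ∈ Cfsg.octads ∧ x ∈ o' ∧ (o ∩ o').card = 2}.ncard = 112 ∧ {o' : Finset Cfsg.GolayPt | o' ∈ Cfsg.octads ∧ x ∈ o' ∧ (o ∩ o').card = 4}.ncard = 140 ∧ ∀ o' o'' : Finset Cfsg.GolayPt, o' ∈ Cfsg.octads → o'' ∈ Cfsg.octads → x ∈ o' → x ∈ o'' → (o ∩ o').card = (o ∩ o'').card → ∃ g : Equiv.Perm Cfsg.GolayPt, g ∈ Cfsg.M24 ∧ g x = x ∧ g • o = o ∧ g • o' = o'' := by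
  obtain ⟨σ, hσ, h0, hx0⟩ := oct_normal1 o ho x hx
  have hspec : ∀ y : Finset GolayPt, clsA (maskOf (σ • y)) = specC 8 o (fun y => x ∈ y) y := by
    intro y
    simp only [clsA, specC, Bool.and_eq_true, nbeq_iff, wt_smul, wt_and_smul h0,
      testBit_smul hx0 (by norm_num : 23 < 24)]
  have hset : ∀ j : Nat, {o' : Finset GolayPt | o' ∈ octads ∧ x ∈ o' ∧ (o ∩ o').card = j} =
      {y : Finset GolayPt | y ∈ supports (golayCode : Set (GolayPt → ZMod 2)) ∧ specC 8 o (fun y => x ∈ y) y = j + 1} := by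
    intro j
    ext y
    show (y ∈ octads ∧ x ∈ y ∧ (o ∩ y).card = j) ↔ (y ∈ supports (golayCode : Set (GolayPt → ZMod 2)) ∧ specC 8 o (fun y => x ∈ y) y = j + 1)
    rw [specC_eq_succ_iff]
    constructor
    · rintro ⟨⟨h1, h2⟩, h3, h4⟩
      exact ⟨h1, h2, h3, h4⟩
    · rintro ⟨h1, h2, h3, h4⟩
      exact ⟨⟨h1, h2⟩, h3, h4⟩
  refine ⟨?_, ?_, ?_⟩
  · rw [hset 2, count_transport_cls clsA hσ (specC 8 o (fun y => x ∈ y)) hspec]
    decide +kernel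
  · rw [hset 4, count_transport_cls clsA hσ (specC 8 o (fun y => x ∈ y)) hspec]
    decide +kernel
  · intro o' o'' ho' ho'' hx' hx'' heq
    obtain ⟨τ, hτ, e⟩ := orb_transport orbA hσ (specC 8 o (fun y => x ∈ y)) hspec o' o'' ho'.1 ho''.1
      (by rw [specC_pos (P := fun y => x ∈ y) ho'.2 hx']; omega)
      (by rw [specC_pos (P := fun y => x ∈ y) ho'.2 hx', specC_pos (P := fun y => x ∈ y) ho''.2 hx'', heq])
    exact ⟨σ⁻¹ * τ * σ, conj_mem hσ hτ.1, conj_fix_pt hx0 (hτ.2.2 23 (by simp)),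
      conj_fix_set h0 (hτ.2.1 O0 (by simp)), e⟩

end Cfsg.Agent.S1607
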