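import Cfsg.Statements.S2644
import Mathlib
import Cfsg.Agent.S0284
import Cfsg.Agent.S0277
import Cfsg.Agent.S0278
import Cfsg.Agent.S0751
import Cfsg.Agent.S0755
import Cfsg.Agent.S0792
import Cfsg.Agent.S0781
-- import your own Cfsg.Agent.* helpers here

set_option autoImplicit false
open Cfsg

namespace Cfsg.Agent.S2644

open Matrix

section
variable {F : Type*} [Field F] [Fintype F] {q : ℕ} (hF : Fintype.card F = q ^ 2) {n : ℕ}

include hF in
/-- A transvection preserving the Hermitian form is a unitary transvection. -/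
theorem tv_form (M : Matrix (Fin n) (Fin n) F)
    (hiso : ∀ x y, hermForm n F q (M *ᵥ x) (M *ᵥ y) = hermForm n F q x y)
    (hM : IsTransvection M) :
    ∃ (u : Fin n → F) (κ : F), u ≠ 0 ∧ κ ≠ 0 ∧ hermForm n F q u u = 0 ∧ κ + κ ^ q = 0 ∧
      M = unitaryTransvection n q u κ := by
  classical
  set σ : F →+* F := S0284.frob hF with hσ
  set B : (Fin n → F) →ₛₗ[σ] (Fin n → F) →ₗ[F] F := S0277.hB hF n with hB
  have hsym : ∀ x y, σ (B x y) = B y x := fun x y => S0284.herm_fix hF n y x
  have hσσ : ∀ x, σ (σ x) = x := S0284.frob_invol hF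
  have hnd := S0277.hB_nondeg hF n
  obtain ⟨hr, hNN⟩ := hM
  set N := M - 1 with hN
  have hMN : ∀ z, M *ᵥ z = z + N *ᵥ z := by
    intro z
    rw [hN, Matrix.sub_mulVec, Matrix.one_mulVec]
    abel
  obtain ⟨x0, hx0⟩ : ∃ x0, N *ᵥ x0 ≠ 0 := by
    by_contra hcon
    push Not at hcon
    have h0 : N = 0 := by
      apply S0792.mat_ext_mulVec
      intro x
      rw [hcon x, Matrix.zero_mulVec]
    rw [h0, Matrix.rank_zero] at hr
    exact zero_ne_one hr
  set u := N *ᵥ x0 with hu
  have hspan : ∀ z, ∃ a : F, N *ᵥ z = a • u := by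
    intro z
    have h1 := (finrank_eq_one_iff_of_nonzero'
      (⟨u, LinearMap.mem_range_self N.mulVecLin x0⟩ : LinearMap.range N.mulVecLin) (by
        intro h0; exact hx0 (congrArg Subtype.val h0))).mp hr
        ⟨N *ᵥ z, LinearMap.mem_range_self N.mulVecLin z⟩
    obtain ⟨a, ha⟩ := h1
    exact ⟨a, (congrArg Subtype.val ha).symm⟩
  obtain ⟨y0, hy0⟩ : ∃ y0, B y0 u ≠ 0 := by
    by_contra hcon
    push Not at hcon
    exact hx0 (hnd.2 u hcon)
  obtain ⟨w, hw⟩ := S0751.riesz σ B hnd ((B y0 u)⁻¹ • ((B y0).comp N.mulVecLin))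
  have hNz : ∀ z, N *ᵥ z = B w z • u := by
    intro z
    obtain ⟨a, ha⟩ := hspan z
    rw [hw z, ha]
    congr 1
    simp only [LinearMap.smul_apply, LinearMap.comp_apply, Matrix.mulVecLin_apply, ha, map_smul,
      smul_eq_mul]
    field_simp
  have hwx0 : B w x0 = 1 := by
    have h1 := hNz x0
    rw [← hu] at h1
    have h2 : (B w x0 - 1) • u = 0 := by
      rw [sub_smul, one_smul, ← h1, sub_self]
    rcases smul_eq_zero.mp h2 with h | h
    · exact sub_eq_zero.mp h
    · exact absurd h hx0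
  have hwu : B w u = 0 := by
    have h1 : N *ᵥ (N *ᵥ x0) = 0 := by
      rw [Matrix.mulVec_mulVec, hNN, Matrix.zero_mulVec]
    rw [← hu, hNz u] at h1
    rcases smul_eq_zero.mp h1 with h | h
    · exact h
    · exact absurd h hx0
  have hE1 : ∀ x y, B w x * B y u + σ (B w y) * B u x + σ (B w y) * B w x * B u u = 0 := by
    intro x y
    have h1 : B (M *ᵥ y) (M *ᵥ x) = B y x := hiso x y
    rw [hMN, hMN, hNz, hNz] at h1
    simp only [map_add, map_smul, map_smulₛₗ, LinearMap.add_apply, LinearMap.smul_apply,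
      smul_eq_mul] at h1
    linear_combination h1
  have huu : B u u = 0 := by
    have h1 := hE1 x0 u
    rw [hwx0, hwu] at h1
    simpa using h1
  have hE2 : ∀ x, B u x = (-B x0 u) * B w x := by
    intro x
    have h1 := hE1 x x0
    rw [hwx0, huu, map_one] at h1
    linear_combination h1
  have hk0 : B x0 u ≠ 0 := by
    intro h0
    apply hx0
    apply hnd.1 u
    intro x
    rw [hE2, h0]
    simp
  set κ : F := (-B x0 u)⁻¹ with hκ
  have hκ0 : κ ≠ 0 := inv_ne_zero (neg_ne_zero.mpr hk0)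
  have hwx : ∀ x, B w x = κ * B u x := by
    intro x
    rw [hE2 x, hκ]
    field_simp
  have hux0 : B u x0 ≠ 0 := by
    rw [hE2, hwx0]
    simpa using hk0
  refine ⟨u, κ, hx0, hκ0, huu, ?_, ?_⟩
  · have h1 := hE1 x0 x0
    have h3 : κ * B u x0 = 1 := by rw [← hwx, hwx0]
    have h5 : σ κ * σ (B u x0) = 1 := by rw [← map_mul, h3, map_one]
    have h2 : B x0 u = σ (B u x0) := (hsym u x0).symm
    rw [huu, hwx0, h2, map_one] at h1
    show κ + σ κ = 0
    linear_combination (κ * σ κ) * h1 - κ * h5 - σ κ * h3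
  · apply S0792.mat_ext_mulVec
    intro z
    rw [hMN, hNz, hwx, S0781.tv_mulVec]
    rfl

include hF in
/-- A non-isotropic vector orthogonal to a given nonzero vector, in dimension at least 3. -/
theorem exists_aniso (hn : 3 ≤ n) (v : Fin n → F) (hv : v ≠ 0) :
    ∃ w : Fin n → F, hermForm n F q w v = 0 ∧ hermForm n F q w w ≠ 0 := by
  classical
  set σ : F →+* F := S0284.frob hF with hσ
  set B : (Fin n → F) →ₛₗ[σ] (Fin n → F) →ₗ[F] F := S0277.hB hF n with hB
  have hsym : ∀ x y, σ (B x y) = B y x := fun x y => S0284.herm_fix hF n y x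
  have hσσ : ∀ x, σ (σ x) = x := S0284.frob_invol hF
  obtain ⟨w, hw⟩ : ∃ w, B v w ≠ 0 := by
    by_contra hcon
    push Not at hcon
    exact hv ((S0277.hB_nondeg hF n).1 v hcon)
  obtain ⟨b0, a0, hb0, ha0, hba⟩ : ∃ b a, B v b = 0 ∧ B v a = 0 ∧ B b a ≠ 0 := by
    by_contra hcon
    push Not at hcon
    set w1 := (B v w)⁻¹ • w with hw1
    have hvw1 : B v w1 = 1 := by rw [hw1, map_smul, smul_eq_mul, inv_mul_cancel₀ hw]
    have hK : ∀ a, B v a = 0 → a = (B w1 a) • v := by
      intro a ha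
      have h0 : ∀ x, B (a - (B w1 a) • v) x = 0 := by
        intro x
        have hx' : B v (x - B v x • w1) = 0 := by
          rw [map_sub, map_smul, hvw1, smul_eq_mul, mul_one, sub_self]
        have h1 := hcon a (x - B v x • w1) ha hx'
        rw [map_sub, map_smul, smul_eq_mul] at h1
        rw [map_sub, map_smulₛₗ, LinearMap.sub_apply, LinearMap.smul_apply, smul_eq_mul,
          hsym w1 a]
        linear_combination h1
      have := (S0277.hB_nondeg hF n).1 _ h0
      exact sub_eq_zero.mp this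
    have hspan : ∀ x : Fin n → F, x ∈ Submodule.span F (Set.range ![v, w1]) := by
      intro x
      have hx' : B v (x - B v x • w1) = 0 := by
        rw [map_sub, map_smul, hvw1, smul_eq_mul, mul_one, sub_self]
      have h1 := hK _ hx'
      have h2 : x = (B w1 (x - B v x • w1)) • v + B v x • w1 := by
        linear_combination (norm := module) h1
      rw [h2]
      exact Submodule.add_mem _ (Submodule.smul_mem _ _ (Submodule.subset_span ⟨0, rfl⟩))
        (Submodule.smul_mem _ _ (Submodule.subset_span ⟨1, rfl⟩))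
    have h2 : Submodule.span F (Set.range ![v, w1]) = ⊤ := Submodule.eq_top_iff'.mpr hspan
    have h3 := finrank_range_le_card (R := F) ![v, w1]
    unfold Set.finrank at h3
    rw [h2, finrank_top, Module.finrank_fin_fun] at h3
    simp at h3
    omega
  by_cases h1 : B a0 a0 = 0
  · by_cases h2 : B b0 b0 = 0
    · obtain ⟨θ, hθ⟩ := S0751.exists_theta σ (S0284.frob_ne hF) hσσ
      have hab : B a0 b0 ≠ 0 := by
        intro h0
        apply hba
        rw [← hsym, h0, map_zero]
      refine ⟨a0 + (θ / B a0 b0) • b0, ?_, ?_⟩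
      · show B v (a0 + (θ / B a0 b0) • b0) = 0
        rw [map_add, map_smul, ha0, hb0, smul_zero, add_zero]
      · show B (a0 + (θ / B a0 b0) • b0) (a0 + (θ / B a0 b0) • b0) ≠ 0
        have h3 : B (a0 + (θ / B a0 b0) • b0) (a0 + (θ / B a0 b0) • b0) = 1 := by
          simp only [map_add, map_smul, map_smulₛₗ, LinearMap.add_apply, LinearMap.smul_apply,
            smul_eq_mul, h1, h2, map_div₀, hsym]
          field_simp
          linear_combination (B b0 a0 * B a0 b0) * hθ
        rw [h3]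
        exact one_ne_zero
    · exact ⟨b0, hb0, h2⟩
  · exact ⟨a0, ha0, h1⟩

include hF in
/-- A unitary quasi-reflection with prescribed determinant of norm one. -/
theorem qrefl (w : Fin n → F) (hw : hermForm n F q w w ≠ 0) (ε : F) (hε : ε ^ (q + 1) = 1) :
    ∃ D : Matrix (Fin n) (Fin n) F,
      (∀ x y, hermForm n F q (D *ᵥ x) (D *ᵥ y) = hermForm n F q x y) ∧ D.det = ε ∧
      ∀ x, hermForm n F q x w = 0 → D *ᵥ x = x := by
  classical
  set σ : F →+* F := S0284.frob hF with hσ
  set B : (Fin n → F) →ₛₗ[σ] (Fin n → F) →ₗ[F] F := S0277.hB hF n with hB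
  have hsym : ∀ x y, σ (B x y) = B y x := fun x y => S0284.herm_fix hF n y x
  have hε' : ε * σ ε = 1 := by
    rw [← hε, pow_succ']
    rfl
  have hww : B w w ≠ 0 := hw
  set ρ : F := (ε - 1) / B w w with hρ
  have hD : ∀ z, unitaryTransvection n q w ρ *ᵥ z = z + (ρ * B w z) • w :=
    fun z => S0781.tv_mulVec q w ρ z
  have key : ρ + σ ρ + σ ρ * ρ * B w w = 0 := by
    rw [hρ, map_div₀, map_sub, map_one, hsym]
    field_simp
    linear_combination hε'
  refine ⟨unitaryTransvection n q w ρ, ?_, ?_, ?_⟩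
  · intro x y
    show B (unitaryTransvection n q w ρ *ᵥ y) (unitaryTransvection n q w ρ *ᵥ x) = B y x
    rw [hD, hD]
    simp only [map_add, map_smul, map_smulₛₗ, LinearMap.add_apply, LinearMap.smul_apply,
      smul_eq_mul, map_mul]
    rw [← hsym w y]
    linear_combination (B w x * σ (B w y)) * key
  · unfold unitaryTransvection
    rw [← Matrix.smul_vecMulVec, Matrix.vecMulVec_eq Unit,
      Matrix.det_one_add_replicateCol_mul_replicateRow, dotProduct_smul, S0781.dot_pow]
    show 1 + ρ • B w w = ε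
    rw [hρ, smul_eq_mul, div_mul_cancel₀ _ hww]
    ring
  · intro x hx
    rw [hD]
    have : B w x = 0 := hx
    rw [this, mul_zero, zero_smul, add_zero]

include hF in
/-- Witt: a unitary matrix mapping one isotropic vector to another. -/
theorem exists_iso (u u' : Fin n → F) (hu : u ≠ 0) (hu' : u' ≠ 0)
    (huu : hermForm n F q u u = 0) (hu'u' : hermForm n F q u' u' = 0) :
    ∃ G : Matrix (Fin n) (Fin n) F,
      (∀ x y, hermForm n F q (G *ᵥ x) (G *ᵥ y) = hermForm n F q x y) ∧ G *ᵥ u = u' := by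
  classical
  set σ : F →+* F := S0284.frob hF with hσ
  set B : (Fin n → F) →ₛₗ[σ] (Fin n → F) →ₗ[F] F := S0277.hB hF n with hB
  have hσσ : ∀ x, σ (σ x) = x := S0284.frob_invol hF
  set φ := (LinearEquiv.toSpanNonzeroSingleton F (Fin n → F) u hu).symm.trans
    (LinearEquiv.toSpanNonzeroSingleton F (Fin n → F) u' hu') with hφ
  have hz : ∀ (v : Fin n → F), B v v = 0 → ∀ x x' : Submodule.span F {v},
      B (x : Fin n → F) (x' : Fin n → F) = 0 := by
    intro v hv x x'
    obtain ⟨a, ha⟩ := Submodule.mem_span_singleton.mp x.2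
    obtain ⟨b, hb⟩ := Submodule.mem_span_singleton.mp x'.2
    rw [← ha, ← hb, map_smul, LinearMap.map_smulₛₗ₂, hv]
    simp
  obtain ⟨g, hg1, hg2⟩ := S0751.main σ (S0284.frob_ne hF) hσσ B (S0277.hB_symm hF n)
    (S0277.hB_nondeg hF n) _ _ φ (fun x x' => by rw [hz u' hu'u', hz u huu])
  refine ⟨LinearMap.toMatrix' g.toLinearMap, ?_, ?_⟩
  · intro x y
    rw [LinearMap.toMatrix'_mulVec, LinearMap.toMatrix'_mulVec]
    exact hg1 y x
  · rw [LinearMap.toMatrix'_mulVec]
    have h1 := hg2 ⟨u, Submodule.mem_span_singleton_self u⟩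
    have h2 : φ ⟨u, Submodule.mem_span_singleton_self u⟩
        = ⟨u', Submodule.mem_span_singleton_self u'⟩ := by
      rw [hφ, LinearEquiv.trans_apply]
      have h3 : (LinearEquiv.toSpanNonzeroSingleton F (Fin n → F) u hu).symm
          ⟨u, Submodule.mem_span_singleton_self u⟩ = 1 := by
        rw [LinearEquiv.symm_apply_eq, LinearEquiv.toSpanNonzeroSingleton_one]
      rw [h3, LinearEquiv.toSpanNonzeroSingleton_one]
    rw [h2] at h1
    exact h1

include hF in
theorem main (hn : 3 ≤ n) (s t : ↥(Cfsg.SU n F q))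
    (hs : IsTransvection ((s : Matrix.SpecialLinearGroup (Fin n) F) : Matrix (Fin n) (Fin n) F))
    (ht : IsTransvection ((t : Matrix.SpecialLinearGroup (Fin n) F) : Matrix (Fin n) (Fin n) F)) :
    IsConj s t := by
  classical
  set σ : F →+* F := S0284.frob hF with hσ
  set B : (Fin n → F) →ₛₗ[σ] (Fin n → F) →ₗ[F] F := S0277.hB hF n with hB
  have hsym : ∀ x y, σ (B x y) = B y x := fun x y => S0284.herm_fix hF n y x
  have hσσ : ∀ x, σ (σ x) = x := S0284.frob_invol hF
  obtain ⟨u, κ, hu, hκ, huu, hκκ, hsM⟩ := tv_form hF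
    ((s : Matrix.SpecialLinearGroup (Fin n) F) : Matrix (Fin n) (Fin n) F) (fun x y => s.2 x y) hs
  obtain ⟨u', κ', hu', hκ', hu'u', hκκ', htM⟩ := tv_form hF
    ((t : Matrix.SpecialLinearGroup (Fin n) F) : Matrix (Fin n) (Fin n) F) (fun x y => t.2 x y) ht
  have hlam : σ (κ' / κ) = κ' / κ := by
    have h1 : σ κ = -κ := by
      have : κ + σ κ = 0 := hκκ
      linear_combination this
    have h2 : σ κ' = -κ' := by
      have : κ' + σ κ' = 0 := hκκ'
      linear_combination this
    rw [map_div₀, h1, h2, neg_div_neg_eq]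
  obtain ⟨μ, hμ⟩ := S0755.norm_surj σ (S0284.frob_ne hF) hσσ (κ' / κ) (div_ne_zero hκ' hκ) hlam
  have hμ0 : μ ≠ 0 := by
    rintro rfl
    rw [zero_mul] at hμ
    exact (div_ne_zero hκ' hκ) hμ.symm
  set u2 := μ • u' with hu2
  have hu2_0 : u2 ≠ 0 := smul_ne_zero hμ0 hu'
  have hu2u2 : hermForm n F q u2 u2 = 0 := by
    show B u2 u2 = 0
    have h1 : B u' u' = 0 := hu'u'
    rw [hu2, map_smul, LinearMap.map_smulₛₗ₂, h1]
    simp
  have htM' : ((t : Matrix.SpecialLinearGroup (Fin n) F) : Matrix (Fin n) (Fin n) F)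
      = unitaryTransvection n q u2 κ := by
    rw [htM]
    apply S0792.mat_ext_mulVec
    intro x
    rw [S0781.tv_mulVec, S0781.tv_mulVec]
    show x + (κ' * B u' x) • u' = x + (κ * B u2 x) • u2
    rw [hu2, LinearMap.map_smulₛₗ₂, smul_smul, smul_eq_mul]
    congr 2
    have h1 : κ' = κ * (μ * σ μ) := by
      rw [hμ]
      field_simp
    rw [h1]
    ring
  obtain ⟨G, hG1, hG2⟩ := exists_iso hF u u2 hu hu2_0 huu hu2u2
  have hdG := S0278.det_norm hF n G hG1
  obtain ⟨w, hw1, hw2⟩ := exists_aniso hF hn u hu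
  have hdG0 : G.det ≠ 0 := by
    intro h0
    rw [h0, zero_pow (by omega)] at hdG
    exact zero_ne_one hdG
  obtain ⟨D, hD1, hD2, hD3⟩ := qrefl hF w hw2 (G.det)⁻¹ (by rw [inv_pow, hdG, inv_one])
  have huw : hermForm n F q u w = 0 := by
    show B w u = 0
    rw [← hsym, show B u w = 0 from hw1, map_zero]
  set g := G * D with hg
  have hgdet : g.det = 1 := by rw [hg, Matrix.det_mul, hD2, mul_inv_cancel₀ hdG0]
  have hgiso : ∀ x y, hermForm n F q (g *ᵥ x) (g *ᵥ y) = hermForm n F q x y := by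
    intro x y
    rw [hg, ← Matrix.mulVec_mulVec, ← Matrix.mulVec_mulVec, hG1, hD1]
  have hgu : g *ᵥ u = u2 := by rw [hg, ← Matrix.mulVec_mulVec, hD3 u huw, hG2]
  clear_value g
  set c : ↥(Cfsg.SU n F q) := ⟨⟨g, hgdet⟩, hgiso⟩ with hc
  have key : c * s = t * c := by
    apply Subtype.ext
    apply Subtype.ext
    simp only [Subgroup.coe_mul, Matrix.SpecialLinearGroup.coe_mul]
    show g * ((s : Matrix.SpecialLinearGroup (Fin n) F) : Matrix (Fin n) (Fin n) F)
      = ((t : Matrix.SpecialLinearGroup (Fin n) F) : Matrix (Fin n) (Fin n) F) * g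
    rw [hsM, htM']
    apply S0792.mat_ext_mulVec
    intro x
    rw [← Matrix.mulVec_mulVec, ← Matrix.mulVec_mulVec, S0781.tv_mulVec, S0781.tv_mulVec,
      Matrix.mulVec_add, Matrix.mulVec_smul, hgu]
    congr 2
    rw [← hgu, hgiso]
  rw [isConj_iff]
  exact ⟨c, by rw [key]; group⟩

end


/-- In the special unitary group SU_n(q) with n ≥ 3 (isometries of Σ u_i v_i^q of determinant one over the field with q² elements), any two transvections (elements t with t − 1 of rank one and square zero) are conjugate. -/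
theorem result {K : Type*} [Field K] [Fintype K] {q n : ℕ} (hK : Fintype.card K = q ^ 2) (hn : 3 ≤ n) (s t : ↥(Cfsg.SU n K q)) (hs : Cfsg.IsTransvection (((s : GL (Fin n) K) : Matrix (Fin n) (Fin n) K))) (ht : Cfsg.IsTransvection (((t : GL (Fin n) K) : Matrix (Fin n) (Fin n) K))) : IsConj s t := by
  exact main hK hn s t hs ht


end Cfsg.Agent.S2644
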