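import Cfsg.Statements.S1631
import Mathlib
import Cfsg.Agent.S2644
import Cfsg.Agent.Helper8.SUBridge

set_option autoImplicit false
open scoped MatrixGroups
open Cfsg

namespace Cfsg.Agent.S1631

open Matrix Cfsg.Agent.Helper8.SULag Cfsg.Agent.Helper8.SUNd

section lem
variable {F : Type*} [Field F] {n : ℕ}

theorem tv_sq (hq : QF F 2) (h2 : (2 : F) = 0) (u : Fin n → F)
    (huu : hermForm n F 2 u u = 0) :
    unitaryTransvection n 2 u 1 * unitaryTransvection n 2 u 1 = 1 := by
  apply S0792.mat_ext_mulVec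
  intro x
  rw [← Matrix.mulVec_mulVec, Matrix.one_mulVec]
  simp only [S0781.tv_mulVec, one_mul, h_add_left, h_smul_left, huu, mul_zero, add_zero]
  rw [add_assoc, ← add_smul, ← two_mul, h2, zero_mul, zero_smul, add_zero]

theorem tv_comm (hq : QF F 2) (u v : Fin n → F) (huv : hermForm n F 2 u v = 0) :
    unitaryTransvection n 2 u 1 * unitaryTransvection n 2 v 1 =
      unitaryTransvection n 2 v 1 * unitaryTransvection n 2 u 1 := by
  have hvu := h_symm0 hq huv
  apply S0792.mat_ext_mulVec
  intro x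
  rw [← Matrix.mulVec_mulVec, ← Matrix.mulVec_mulVec]
  simp only [S0781.tv_mulVec, one_mul, h_add_left, h_smul_left, huv, hvu, mul_zero, add_zero]
  abel

theorem tv_braid (h2 : (2 : F) = 0) (u v : Fin n → F)
    (huu : hermForm n F 2 u u = 0) (hvv : hermForm n F 2 v v = 0)
    (hb : hermForm n F 2 u v * hermForm n F 2 v u = 1) :
    unitaryTransvection n 2 u 1 * unitaryTransvection n 2 v 1 * unitaryTransvection n 2 u 1 =
      unitaryTransvection n 2 v 1 * unitaryTransvection n 2 u 1 *
        unitaryTransvection n 2 v 1 := by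
  apply S0792.mat_ext_mulVec
  intro x
  rw [← Matrix.mulVec_mulVec, ← Matrix.mulVec_mulVec, ← Matrix.mulVec_mulVec,
    ← Matrix.mulVec_mulVec]
  simp only [S0781.tv_mulVec, one_mul, h_add_left, h_smul_left, huu, hvv, mul_zero, add_zero]
  funext i
  simp only [Pi.add_apply, Pi.smul_apply, smul_eq_mul]
  linear_combination (hermForm n F 2 x u * u i - hermForm n F 2 x v * v i) * hb +
    (hermForm n F 2 x u * u i - hermForm n F 2 x v * v i) * h2

end lem


/-- The unitary transvections of SU(n, 2), n ≥ 4, form a generating conjugacy class of 3-transpositions. -/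
theorem result (F : Type) [Field F] [Fintype F] [DecidableEq F] (hF : Fintype.card F = 4) (n : ℕ) (hn : 4 ≤ n) : Cfsg.IsThreeTranspositionClass {g : ↥(Cfsg.SU n F 2) | (((g : Matrix.SpecialLinearGroup (Fin n) F) : Matrix (Fin n) (Fin n) F) - 1).rank = 1} := by
  classical
  haveI : Finite F := Finite.of_fintype F
  have hF' : Fintype.card F = 2 ^ 2 := by
    rw [hF]
    norm_num
  have hq : QF F 2 := qf_of_card hF'
  have h2 : (2 : F) = 0 := by
    have h4 : ((Fintype.card F : ℕ) : F) = 0 := Nat.cast_card_eq_zero F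
    rw [hF] at h4
    have h5 : (2 : F) * 2 = 0 := by
      rw [← h4]
      norm_num
    exact mul_self_eq_zero.1 h5
  have h3 : ∀ b : F, b ≠ 0 → b ^ 3 = 1 := by
    intro b hb
    have h4 := FiniteField.pow_card_sub_one_eq_one b hb
    rw [hF] at h4
    exact h4
  have hD : ∀ g : ↥(Cfsg.SU n F 2),
      g ∈ {g : ↥(Cfsg.SU n F 2) | (((g : Matrix.SpecialLinearGroup (Fin n) F) :
        Matrix (Fin n) (Fin n) F) - 1).rank = 1} ↔
      ∃ u : Fin n → F, u ≠ 0 ∧ hermForm n F 2 u u = 0 ∧
        ((g : Matrix.SpecialLinearGroup (Fin n) F) : Matrix (Fin n) (Fin n) F) =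
          unitaryTransvection n 2 u 1 := by
    intro g
    constructor
    · intro hg
      have hr : (((g : Matrix.SpecialLinearGroup (Fin n) F) :
        Matrix (Fin n) (Fin n) F) - 1).rank = 1 := hg
      have hNN := sq_zero_of_rank_one _ g.1.2 hr
      obtain ⟨u, κ, hu, hκ, huu, hκκ, hM⟩ := S2644.tv_form hF' _ (fun x y => g.2 x y) ⟨hr, hNN⟩
      refine ⟨u, hu, huu, ?_⟩
      have hκ1 : κ = 1 := by
        have h5 : κ * (1 + κ) = 0 := by linear_combination hκκ
        rcases mul_eq_zero.1 h5 with h6 | h6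
        · exact absurd h6 hκ
        · linear_combination h6 - h2
      rw [hκ1] at hM
      exact hM
    · rintro ⟨u, hu, huu, hM⟩
      show (((g : Matrix.SpecialLinearGroup (Fin n) F) :
        Matrix (Fin n) (Fin n) F) - 1).rank = 1
      rw [hM]
      exact rank_tv hq u hu 1 one_ne_zero
  have hsq : ∀ g : ↥(Cfsg.SU n F 2),
      g ∈ {g : ↥(Cfsg.SU n F 2) | (((g : Matrix.SpecialLinearGroup (Fin n) F) :
        Matrix (Fin n) (Fin n) F) - 1).rank = 1} → g * g = 1 := by
    intro g hg
    obtain ⟨u, hu, huu, hM⟩ := (hD g).1 hg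
    apply Subtype.ext
    apply Subtype.ext
    show ((g : Matrix.SpecialLinearGroup (Fin n) F) : Matrix (Fin n) (Fin n) F) *
      ((g : Matrix.SpecialLinearGroup (Fin n) F) : Matrix (Fin n) (Fin n) F) = 1
    rw [hM]
    exact tv_sq hq h2 u huu
  refine ⟨⟨?_, ?_⟩, ?_, ?_⟩
  · intro g hg
    have hne : g ≠ 1 := by
      rintro rfl
      have hr : ((((1 : ↥(Cfsg.SU n F 2)) : Matrix.SpecialLinearGroup (Fin n) F) :
        Matrix (Fin n) (Fin n) F) - 1).rank = 1 := hg
      rw [show ((((1 : ↥(Cfsg.SU n F 2)) : Matrix.SpecialLinearGroup (Fin n) F) :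
        Matrix (Fin n) (Fin n) F)) = 1 from rfl, sub_self, Matrix.rank_zero] at hr
      exact zero_ne_one hr
    exact orderOf_eq_prime (by rw [pow_two]; exact hsq g hg) hne
  · intro d hd e he
    obtain ⟨u, hu, huu, hMu⟩ := (hD d).1 hd
    obtain ⟨v, hv, hvv, hMv⟩ := (hD e).1 he
    have hdd := hsq d hd
    have hee := hsq e he
    by_cases hb : hermForm n F 2 u v = 0
    · left
      have hcomm : d * e = e * d := by
        apply Subtype.ext
        apply Subtype.ext
        show ((d : Matrix.SpecialLinearGroup (Fin n) F) : Matrix (Fin n) (Fin n) F) *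
          ((e : Matrix.SpecialLinearGroup (Fin n) F) : Matrix (Fin n) (Fin n) F) =
          ((e : Matrix.SpecialLinearGroup (Fin n) F) : Matrix (Fin n) (Fin n) F) *
          ((d : Matrix.SpecialLinearGroup (Fin n) F) : Matrix (Fin n) (Fin n) F)
        rw [hMu, hMv]
        exact tv_comm hq u v hb
      calc (d * e) ^ 2 = d * (e * d) * e := by rw [pow_two]; group
        _ = d * (d * e) * e := by rw [hcomm]
        _ = (d * d) * (e * e) := by group
        _ = 1 := by rw [hdd, hee, one_mul]
    · right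
      have hbb : hermForm n F 2 u v * hermForm n F 2 v u = 1 := by
        rw [← h_conj hq u v, frob_apply, ← pow_succ']
        exact h3 _ hb
      have hbr : d * e * d = e * d * e := by
        apply Subtype.ext
        apply Subtype.ext
        show ((d : Matrix.SpecialLinearGroup (Fin n) F) : Matrix (Fin n) (Fin n) F) *
          ((e : Matrix.SpecialLinearGroup (Fin n) F) : Matrix (Fin n) (Fin n) F) *
          ((d : Matrix.SpecialLinearGroup (Fin n) F) : Matrix (Fin n) (Fin n) F) =
          ((e : Matrix.SpecialLinearGroup (Fin n) F) : Matrix (Fin n) (Fin n) F) *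
          ((d : Matrix.SpecialLinearGroup (Fin n) F) : Matrix (Fin n) (Fin n) F) *
          ((e : Matrix.SpecialLinearGroup (Fin n) F) : Matrix (Fin n) (Fin n) F)
        rw [hMu, hMv]
        exact tv_braid h2 u v huu hvv hbb
      have h5 : (d * e) ^ 3 = (d * e * d) * (e * d * e) := by
        rw [pow_succ, pow_two]
        simp only [mul_assoc]
      rw [h5, hbr]
      calc e * d * e * (e * d * e) = e * d * (e * e) * d * e := by group
        _ = 1 := by rw [hee, mul_one, mul_assoc e d d, hdd, mul_one, hee]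
  · obtain ⟨e₁, f₁, e₂, f₂, B⟩ := exists_hyp4 hq hn
    have he0 : e₁ ≠ 0 := by
      rintro rfl
      have h5 := B.e1f1
      rw [h_zero_left] at h5
      exact zero_ne_one h5
    have hc1 : frob hq (1 : F) = -1 := by
      rw [map_one]
      linear_combination h2
    obtain ⟨d0, hd0⟩ := exists_su (tvU n 2 e₁ 1)
      (Subgroup.mem_inf.2 ⟨tvU_mem_gu hq e₁ 1 hc1, tvU_mem_sl e₁ 1⟩)
    have hd0M : ((d0 : Matrix.SpecialLinearGroup (Fin n) F) : Matrix (Fin n) (Fin n) F) =
        unitaryTransvection n 2 e₁ 1 := by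
      rw [← suGL_val, hd0, tvU_val e₁ B.e1e1]
    have hd0D := (hD d0).2 ⟨e₁, he0, B.e1e1, hd0M⟩
    refine ⟨d0, hd0D, ?_⟩
    ext g
    constructor
    · intro hg
      have hr : (((g : Matrix.SpecialLinearGroup (Fin n) F) :
        Matrix (Fin n) (Fin n) F) - 1).rank = 1 := hg
      have hr0 : (((d0 : Matrix.SpecialLinearGroup (Fin n) F) :
        Matrix (Fin n) (Fin n) F) - 1).rank = 1 := hd0D
      exact S2644.main hF' (by omega) d0 g ⟨hr0, sq_zero_of_rank_one _ d0.1.2 hr0⟩
        ⟨hr, sq_zero_of_rank_one _ g.1.2 hr⟩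
    · intro hc
      have hc' : IsConj d0 g := hc
      obtain ⟨c, hcc⟩ := isConj_iff.1 hc'
      have hr0 : (((d0 : Matrix.SpecialLinearGroup (Fin n) F) :
        Matrix (Fin n) (Fin n) F) - 1).rank = 1 := hd0D
      show (((g : Matrix.SpecialLinearGroup (Fin n) F) :
        Matrix (Fin n) (Fin n) F) - 1).rank = 1
      have hinv : ((c : Matrix.SpecialLinearGroup (Fin n) F) : Matrix (Fin n) (Fin n) F) *
          (((c⁻¹ : ↥(Cfsg.SU n F 2)) : Matrix.SpecialLinearGroup (Fin n) F) :
            Matrix (Fin n) (Fin n) F) = 1 := by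
        have h6 := congrArg (fun x : ↥(Cfsg.SU n F 2) =>
          ((x : Matrix.SpecialLinearGroup (Fin n) F) : Matrix (Fin n) (Fin n) F))
          (mul_inv_cancel c)
        exact h6
      have hg : ((g : Matrix.SpecialLinearGroup (Fin n) F) : Matrix (Fin n) (Fin n) F) =
          ((c : Matrix.SpecialLinearGroup (Fin n) F) : Matrix (Fin n) (Fin n) F) *
          ((d0 : Matrix.SpecialLinearGroup (Fin n) F) : Matrix (Fin n) (Fin n) F) *
          (((c⁻¹ : ↥(Cfsg.SU n F 2)) : Matrix.SpecialLinearGroup (Fin n) F) :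
            Matrix (Fin n) (Fin n) F) := by
        rw [← hcc]
        rfl
      have hg1 : ((g : Matrix.SpecialLinearGroup (Fin n) F) : Matrix (Fin n) (Fin n) F) - 1 =
          ((c : Matrix.SpecialLinearGroup (Fin n) F) : Matrix (Fin n) (Fin n) F) *
          (((d0 : Matrix.SpecialLinearGroup (Fin n) F) : Matrix (Fin n) (Fin n) F) - 1) *
          (((c⁻¹ : ↥(Cfsg.SU n F 2)) : Matrix.SpecialLinearGroup (Fin n) F) :
            Matrix (Fin n) (Fin n) F) := by
        rw [hg, Matrix.mul_sub, Matrix.sub_mul, Matrix.mul_one, hinv]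
      rw [hg1, Matrix.rank_mul_eq_left_of_isUnit_det _ _ (by
          rw [(c⁻¹ : ↥(Cfsg.SU n F 2)).1.2]; exact isUnit_one),
        Matrix.rank_mul_eq_right_of_isUnit_det _ _ (by rw [c.1.2]; exact isUnit_one)]
      exact hr0
  · apply closure_top_of hq (su_le_tt hq hn)
    intro a c ha hc
    have hc' : c * (c - 1) = 0 := by
      have h5 : c ^ 2 = -c := hc
      linear_combination h5 - c * h2
    by_cases ha0 : a = 0
    · refine ⟨1, Subgroup.one_mem _, ?_⟩
      rw [map_one]
      subst ha0
      apply gl_ext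
      intro x
      rw [tvU_mulVec _ ha, h_zero_right hq, mul_zero, zero_smul, add_zero, Units.val_one,
        Matrix.one_mulVec]
    · rcases mul_eq_zero.1 hc' with h6 | h6
      · refine ⟨1, Subgroup.one_mem _, ?_⟩
        rw [map_one, h6]
        apply gl_ext
        intro x
        rw [tvU_mulVec _ ha, zero_mul, zero_smul, add_zero, Units.val_one, Matrix.one_mulVec]
      · have hc1 : c = 1 := by linear_combination h6
        subst hc1
        obtain ⟨A, hA⟩ := exists_su (tvU n 2 a 1)
          (Subgroup.mem_inf.2 ⟨tvU_mem_gu hq a 1 hc, tvU_mem_sl a 1⟩)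
        refine ⟨A, Subgroup.subset_closure ((hD A).2 ⟨a, ha0, ha, ?_⟩), hA⟩
        rw [← suGL_val, hA, tvU_val a ha]

end Cfsg.Agent.S1631
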