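import Cfsg.Statements.S1635
import Mathlib
import Cfsg.Agent.Helper29.GolayConc

set_option autoImplicit false
open Cfsg

namespace Cfsg.Agent.S1635

open Cfsg.Agent.Helper29.GolayConc

/-- Coset leaders of the length-24 code: a coset contains a unique word of weight ≤ 3, or else exactly six words of weight 4 and none lighter. -/
theorem result (w : Cfsg.GolayPt → ZMod 2) : ({v : Cfsg.GolayPt → ZMod 2 | hammingNorm v ≤ 4 ∧ w - v ∈ Cfsg.golayCode}.ncard = 1 ∧ ∃ v : Cfsg.GolayPt → ZMod 2, hammingNorm v ≤ 3 ∧ w - v ∈ Cfsg.golayCode) ∨ ({v : Cfsg.GolayPt → ZMod 2 | hammingNorm v ≤ 4 ∧ w - v ∈ Cfsg.golayCode}.ncard = 6 ∧ ∀ v : Cfsg.GolayPt → ZMod 2, w - v ∈ Cfsg.golayCode → hammingNorm v ≤ 4 → hammingNorm v = 4) := by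
  rcases gleaders w with ⟨u, h1, h2⟩ | ⟨S, hS, hmem, hprop⟩
  · left
    have hset : {v : Cfsg.GolayPt → ZMod 2 | hammingNorm v ≤ 4 ∧ w - v ∈ Cfsg.golayCode} = {u} := by
      ext v
      rw [Set.mem_setOf_eq, Set.mem_singleton_iff, sub_mem_comm, ← h1 v]
      exact and_comm
    rw [hset, Set.ncard_singleton]
    refine ⟨rfl, u, h2, ?_⟩
    rw [sub_mem_comm]
    exact ((h1 u).2 rfl).1
  · right
    have hset : {v : Cfsg.GolayPt → ZMod 2 | hammingNorm v ≤ 4 ∧ w - v ∈ Cfsg.golayCode}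
        = (S : Set (GolayPt → ZMod 2)) := by
      ext v
      rw [Set.mem_setOf_eq, Finset.mem_coe, hmem, sub_mem_comm]
      exact and_comm
    rw [hset, Set.ncard_coe_finset]
    refine ⟨hS, ?_⟩
    intro v hv h4
    rw [sub_mem_comm] at hv
    exact (hprop v ((hmem v).2 ⟨hv, h4⟩)).1

end Cfsg.Agent.S1635
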