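import Cfsg.Statements.S1637
import Mathlib
import Cfsg.Agent.Helper29.GolayConc

set_option autoImplicit false
open Cfsg

namespace Cfsg.Agent.S1637

open Cfsg.Agent.Helper29.GolayConc

/-- weight of a word of length 24 in terms of its punctured word -/
theorem wt_option (f : GolayPt → ZMod 2) :
    hammingNorm f = (if f none ≠ 0 then 1 else 0) +
      hammingNorm (fun x : ZMod 23 => f (some x)) := by
  show (Finset.univ.filter (fun p => f p ≠ 0)).card
    = _ + (Finset.univ.filter (fun x : ZMod 23 => f (some x) ≠ 0)).card
  rw [Finset.card_filter, Finset.card_filter, Fintype.sum_option]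

/-- the word of length 24 extending `u` by zero -/
def ext0 (u : ZMod 23 → ZMod 2) : GolayPt → ZMod 2 := fun p =>
  match p with
  | none => 0
  | some x => u x

theorem ext0_some (u : ZMod 23 → ZMod 2) (x : ZMod 23) : ext0 u (some x) = u x := rfl

/-- distance from `u` to the punctured `ext0 u - v` -/
theorem dist_punct (u : ZMod 23 → ZMod 2) (v : GolayPt → ZMod 2) :
    hammingDist u (fun x => (ext0 u - v) (some x)) = hammingNorm (fun x : ZMod 23 => v (some x)) := by
  show (Finset.univ.filter (fun x => u x ≠ (ext0 u - v) (some x))).card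
    = (Finset.univ.filter (fun x : ZMod 23 => v (some x) ≠ 0)).card
  refine congrArg Finset.card ?_
  ext x
  rw [Finset.mem_filter, Finset.mem_filter]
  simp only [Finset.mem_univ, true_and, Pi.sub_apply, ext0_some]
  constructor
  · intro h h0
    apply h
    rw [h0, sub_zero]
  · intro h h0
    apply h
    have : u x - (u x - v (some x)) = 0 := by rw [← h0, sub_self]
    rw [sub_sub_cancel] at this
    exact this

theorem exists_close (u : ZMod 23 → ZMod 2) :
    ∃ v : GolayPt → ZMod 2, v - ext0 u ∈ golayCode ∧
      hammingNorm (fun x : ZMod 23 => v (some x)) ≤ 3 := by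
  rcases gleaders (ext0 u) with ⟨v, h1, h2⟩ | ⟨S, hS, hmem, hprop⟩
  · refine ⟨v, ((h1 v).2 rfl).1, ?_⟩
    have := wt_option v
    omega
  · have hex : ∃ v ∈ S, v none ≠ 0 := by
      by_contra hcon
      push Not at hcon
      have hdisj : ∀ v ∈ S, ∀ v' ∈ S, v ≠ v' →
          Disjoint (Finset.univ.filter (fun i => v i ≠ 0))
            (Finset.univ.filter (fun i => v' i ≠ 0)) :=
        fun v hv v' hv' hne => (hprop v hv).2 v' hv' hne
      have h1 := Finset.card_biUnion hdisj
      have h2 : ∀ v ∈ S, (Finset.univ.filter (fun i : GolayPt => v i ≠ 0)).card = 4 :=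
        fun v hv => (hprop v hv).1
      rw [Finset.sum_congr rfl h2, Finset.sum_const, smul_eq_mul, hS] at h1
      have h3 : (S.biUnion (fun v => Finset.univ.filter (fun i : GolayPt => v i ≠ 0)))
          ⊆ Finset.univ.erase none := by
        intro i hi
        rw [Finset.mem_biUnion] at hi
        obtain ⟨v, hv, hi⟩ := hi
        rw [Finset.mem_filter] at hi
        rw [Finset.mem_erase]
        refine ⟨?_, Finset.mem_univ _⟩
        rintro rfl
        exact hi.2 (hcon v hv)
      have h4 := Finset.card_le_card h3
      rw [Finset.card_erase_of_mem (Finset.mem_univ _), Finset.card_univ, card_pt] at h4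
      omega
    obtain ⟨v, hv, hv0⟩ := hex
    refine ⟨v, ((hmem v).1 hv).1, ?_⟩
    have h1 := wt_option v
    have h2 := (hprop v hv).1
    rw [if_pos hv0] at h1
    omega

/-- The punctured length-23 code is a perfect 3-error-correcting code: each word of length 23 is within distance 3 of exactly one codeword. -/
theorem result (u : ZMod 23 → ZMod 2) : ∃! c : ZMod 23 → ZMod 2, c ∈ {u : ZMod 23 → ZMod 2 | ∃ w ∈ Cfsg.golayCode, ∀ x : ZMod 23, u x = w (some x)} ∧ hammingDist u c ≤ 3 := by
  obtain ⟨v, hvC, hv3⟩ := exists_close u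
  refine ⟨fun x => (ext0 u - v) (some x), ⟨⟨ext0 u - v, ?_, fun x => rfl⟩, ?_⟩, ?_⟩
  · rw [sub_mem_comm]
    exact hvC
  · rw [dist_punct]
    exact hv3
  · rintro c ⟨⟨w, hw, hcw⟩, hc3⟩
    have hd : hammingDist u (fun x => (ext0 u - v) (some x)) ≤ 3 := by
      rw [dist_punct]
      exact hv3
    by_contra hne
    have hne' : w ≠ ext0 u - v := by
      rintro rfl
      apply hne
      funext x
      exact hcw x
    have hmem : w - (ext0 u - v) ∈ golayCode := by
      refine golayCode.sub_mem hw ?_
      rw [sub_mem_comm]
      exact hvC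
    have h8 := gmin _ hmem (sub_ne_zero.mpr hne')
    have h1 := wt_option (w - (ext0 u - v))
    have h2 : hammingNorm (fun x : ZMod 23 => (w - (ext0 u - v)) (some x))
        = hammingDist c (fun x => (ext0 u - v) (some x)) := by
      show (Finset.univ.filter (fun x : ZMod 23 => (w - (ext0 u - v)) (some x) ≠ 0)).card
        = (Finset.univ.filter (fun x : ZMod 23 => c x ≠ (ext0 u - v) (some x))).card
      refine congrArg Finset.card ?_
      ext x
      rw [Finset.mem_filter, Finset.mem_filter]
      simp only [Finset.mem_univ, true_and]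
      rw [hcw x]
      show w (some x) - (ext0 u - v) (some x) ≠ 0 ↔ _
      exact sub_ne_zero
    have h3 := hammingDist_triangle c u (fun x => (ext0 u - v) (some x))
    rw [hammingDist_comm c u] at h3
    have h4 : (if (w - (ext0 u - v)) none ≠ 0 then 1 else 0) ≤ 1 := by
      split_ifs <;> omega
    omega

end Cfsg.Agent.S1637
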