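import Cfsg.Statements.S1636
import Mathlib
import Cfsg.Agent.S1637
import Cfsg.Agent.Helper28.GolayFacts

set_option autoImplicit false
open Cfsg

namespace Cfsg.Agent.S1636

open Cfsg.Agent.Helper29.GolayConc Cfsg.Agent.Helper28.Golay

/-- puncturing at the extra point -/
def punct (w : GolayPt → ZMod 2) : ZMod 23 → ZMod 2 := fun x => w (some x)

theorem punct_inj : Set.InjOn punct (golayCode : Set (GolayPt → ZMod 2)) := by
  intro w1 h1 w2 h2 h
  by_contra hne
  have h8 := gmin _ (golayCode.sub_mem h1 h2) (sub_ne_zero.mpr hne)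
  have hw := Cfsg.Agent.S1637.wt_option (w1 - w2)
  have h0 : hammingNorm (fun x : ZMod 23 => (w1 - w2) (some x)) = 0 := by
    rw [hammingNorm_eq_zero]
    funext x
    show w1 (some x) - w2 (some x) = 0
    exact sub_eq_zero.2 (congrFun h x)
  split_ifs at hw <;> omega

theorem code_eq : {u : ZMod 23 → ZMod 2 | ∃ w ∈ Cfsg.golayCode, ∀ x : ZMod 23, u x = w (some x)}
    = punct '' (golayCode : Set (GolayPt → ZMod 2)) := by
  ext u
  constructor
  · rintro ⟨w, hw, h⟩
    exact ⟨w, hw, (funext h).symm⟩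
  · rintro ⟨w, hw, rfl⟩
    exact ⟨w, hw, fun x => rfl⟩

theorem card_code : (golayCode : Set (GolayPt → ZMod 2)).ncard = 4096 := by
  have h1 : Nat.card golayCode = 4096 := by
    have : Fintype golayCode := Fintype.ofFinite _
    rw [Nat.card_eq_fintype_card, Module.card_eq_pow_finrank (K := ZMod 2) (V := golayCode),
      Cfsg.Agent.S0358.result]
    simp [ZMod.card]
  rw [← h1]
  rfl

theorem support_inj : Function.Injective (support₂ : (GolayPt → ZMod 2) → Finset GolayPt) := by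
  intro w1 w2 h
  funext p
  have hp : p ∈ support₂ w1 ↔ p ∈ support₂ w2 := by rw [h]
  simp only [support₂, Finset.mem_filter, Finset.mem_univ, true_and] at hp
  by_cases h1 : w1 p = 0
  · have h2 : w2 p = 0 := by
      by_contra h2
      exact (hp.2 h2) h1
    rw [h1, h2]
  · have h2 : w2 p ≠ 0 := hp.1 h1
    rw [Cfsg.Agent.S5623.zmod2_eq_one _ h1, Cfsg.Agent.S5623.zmod2_eq_one _ h2]

/-- the mask predicate: the punctured word has weight `j` -/
def P (j : Nat) : Nat → Bool := fun c => Nat.beq (wt c - bitAt c 23) j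

theorem P_iff (w : GolayPt → ZMod 2) (j : ℕ) :
    P j (maskOf (support₂ w)) = true ↔ hammingNorm (punct w) = j := by
  unfold P
  rw [nbeq_iff, card_maskOf, bitAt_eq, testBit_maskOf]
  have h1 := Cfsg.Agent.S1637.wt_option w
  have h2 : (support₂ w).card = hammingNorm w := rfl
  have h3 : pt 23 = none := by decide
  have h4 : (none : GolayPt) ∈ support₂ w ↔ w none ≠ 0 := by
    simp only [support₂, Finset.mem_filter, Finset.mem_univ, true_and]
  rw [h2, h3]
  show _ ↔ hammingNorm (fun x : ZMod 23 => w (some x)) = j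
  by_cases h : w none ≠ 0
  · rw [if_pos h] at h1
    have h5 : decide ((none : GolayPt) ∈ support₂ w) = true := decide_eq_true (h4.2 h)
    rw [h5]
    simp only [Nat.reduceLT, decide_true, Bool.and_self, Bool.toNat_true]
    omega
  · rw [if_neg h] at h1
    have h5 : decide ((none : GolayPt) ∈ support₂ w) = false :=
      decide_eq_false (fun hm => h (h4.1 hm))
    rw [h5]
    simp only [Bool.and_false, Bool.toNat_false]
    omega

theorem key (j : ℕ) :
    {u : ZMod 23 → ZMod 2 | u ∈ {u : ZMod 23 → ZMod 2 | ∃ w ∈ Cfsg.golayCode, ∀ x : ZMod 23, u x = w (some x)} ∧ hammingNorm u = j}.ncard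
      = (cwFinset (P j)).card := by
  have e1 : {u : ZMod 23 → ZMod 2 | u ∈ {u : ZMod 23 → ZMod 2 | ∃ w ∈ Cfsg.golayCode, ∀ x : ZMod 23, u x = w (some x)} ∧ hammingNorm u = j}
      = punct '' {w : GolayPt → ZMod 2 | w ∈ golayCode ∧ hammingNorm (punct w) = j} := by
    rw [code_eq]
    ext u
    constructor
    · rintro ⟨⟨w, hw, rfl⟩, hj⟩
      exact ⟨w, ⟨hw, hj⟩, rfl⟩
    · rintro ⟨w, ⟨hw, hj⟩, rfl⟩
      exact ⟨⟨w, hw, rfl⟩, hj⟩
  have e2 : ((cwFinset (P j) : Finset (Finset GolayPt)) : Set (Finset GolayPt))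
      = support₂ '' {w : GolayPt → ZMod 2 | w ∈ golayCode ∧ hammingNorm (punct w) = j} := by
    ext s
    rw [Finset.mem_coe, mem_cwFinset]
    constructor
    · rintro ⟨⟨w, hw, rfl⟩, hP⟩
      exact ⟨w, ⟨hw, (P_iff w j).1 hP⟩, rfl⟩
    · rintro ⟨w, ⟨hw, hj⟩, rfl⟩
      exact ⟨⟨w, hw, rfl⟩, (P_iff w j).2 hj⟩
  rw [e1, Set.InjOn.ncard_image (punct_inj.mono (fun w hw => hw.1)), ← Set.ncard_coe_finset, e2,
    Set.ncard_image_of_injective _ support_inj]

set_option maxRecDepth 100000 in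
theorem c7 : (cwFinset (P 7)).card = 253 := by
  rw [card_cwFinset]
  decide +kernel

set_option maxRecDepth 100000 in
theorem c8 : (cwFinset (P 8)).card = 506 := by
  rw [card_cwFinset]
  decide +kernel

set_option maxRecDepth 100000 in
theorem c11 : (cwFinset (P 11)).card = 1288 := by
  rw [card_cwFinset]
  decide +kernel

set_option maxRecDepth 100000 in
theorem c12 : (cwFinset (P 12)).card = 1288 := by
  rw [card_cwFinset]
  decide +kernel

set_option maxRecDepth 100000 in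
theorem c15 : (cwFinset (P 15)).card = 506 := by
  rw [card_cwFinset]
  decide +kernel

set_option maxRecDepth 100000 in
theorem c16 : (cwFinset (P 16)).card = 253 := by
  rw [card_cwFinset]
  decide +kernel

/-- The punctured length-23 code has weight distribution 0^1 7^253 8^506 11^1288 12^1288 15^506 16^253 23^1. -/
theorem result : {u : ZMod 23 → ZMod 2 | ∃ w ∈ Cfsg.golayCode, ∀ x : ZMod 23, u x = w (some x)}.ncard = 4096 ∧ {u : ZMod 23 → ZMod 2 | u ∈ {u : ZMod 23 → ZMod 2 | ∃ w ∈ Cfsg.golayCode, ∀ x : ZMod 23, u x = w (some x)} ∧ hammingNorm u = 7}.ncard = 253 ∧ {u : ZMod 23 → ZMod 2 | u ∈ {u : ZMod 23 → ZMod 2 | ∃ w ∈ Cfsg.golayCode, ∀ x : ZMod 23, u x = w (some x)} ∧ hammingNorm u = 8}.ncard = 506 ∧ {u : ZMod 23 → ZMod 2 | u ∈ {u : ZMod 23 → ZMod 2 | ∃ w ∈ Cfsg.golayCode, ∀ x : ZMod 23, u x = w (some x)} ∧ hammingNorm u = 11}.ncard = 1288 ∧ {u : ZMod 23 → ZMod 2 | u ∈ {u : ZMod 23 → ZMod 2 | ∃ w ∈ Cfsg.golayCode, ∀ x : ZMod 23, u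 x = w (some x)} ∧ hammingNorm u = 12}.ncard = 1288 ∧ {u : ZMod 23 → ZMod 2 | u ∈ {u : ZMod 23 → ZMod 2 | ∃ w ∈ Cfsg.golayCode, ∀ x : ZMod 23, u x = w (some x)} ∧ hammingNorm u = 15}.ncard = 506 ∧ {u : ZMod 23 → ZMod 2 | u ∈ {u : ZMod 23 → ZMod 2 | ∃ w ∈ Cfsg.golayCode, ∀ x : ZMod 23, u x = w (some x)} ∧ hammingNorm u = 16}.ncard = 253 ∧ ∀ u ∈ {u : ZMod 23 → ZMod 2 | ∃ w ∈ Cfsg.golayCode, ∀ x : ZMod 23, u x = w (some x)}, u ≠ 0 → 7 ≤ hammingNorm u := by
  refine ⟨?_, ?_, ?_, ?_, ?_, ?_, ?_, ?_⟩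
  · rw [code_eq, Set.InjOn.ncard_image punct_inj, card_code]
  · rw [key, c7]
  · rw [key, c8]
  · rw [key, c11]
  · rw [key, c12]
  · rw [key, c15]
  · rw [key, c16]
  · rintro u ⟨w, hw, hu⟩ hu0
    have hw0 : w ≠ 0 := by
      rintro rfl
      apply hu0
      funext x
      exact hu x
    have h8 := gmin w hw hw0
    have h1 := Cfsg.Agent.S1637.wt_option w
    have h2 : u = fun x : ZMod 23 => w (some x) := funext hu
    rw [h2]
    split_ifs at h1 <;> omega

end Cfsg.Agent.S1636
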