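import Cfsg.Statements.S1691
import Mathlib
-- import your own Cfsg.Agent.* helpers here

set_option autoImplicit false
open Cfsg

namespace Cfsg.Agent.S1691

open Cfsg.Spor

/-- The relators of the presented group Fi₂₄. -/
abbrev rels : Set (FreeGroup Fi24.Gen) := coxRelators Fi24.edges ∪ {r | r ∈ Fi24.extra}

theorem two_eq_one : (Multiplicative.ofAdd (1 : ZMod 2)) * Multiplicative.ofAdd (1 : ZMod 2) = 1 := by
  decide

theorem sq_eq_one (x : Multiplicative (ZMod 2)) : x * x = 1 := by
  revert x; decide

theorem sgn_rel : ∀ r ∈ rels,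
    FreeGroup.lift (fun _ : Fi24.Gen => Multiplicative.ofAdd (1 : ZMod 2)) r = 1 := by
  intro r hr
  rcases hr with hr | hr
  · obtain ⟨x, _, y, _, rfl⟩ := hr
    rw [map_pow, map_mul, FreeGroup.lift_apply_of, FreeGroup.lift_apply_of, two_eq_one, one_pow]
  · have hr' : r ∈ Fi24.extra := hr
    simp only [Fi24.extra, List.mem_cons, List.not_mem_nil, or_false] at hr'
    rcases hr' with rfl | rfl
    · simp only [map_mul, map_inv, map_pow, FreeGroup.lift_apply_of]
      decide
    · simp only [map_mul, map_inv, map_pow, FreeGroup.lift_apply_of]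
      decide

/-- The sign homomorphism of the presented Fi₂₄ onto a group of order 2. -/
noncomputable def sgn : Fi24 →* Multiplicative (ZMod 2) :=
  PresentedGroup.toGroup sgn_rel

theorem sgn_of (x : Fi24.Gen) : sgn (PresentedGroup.of x) = Multiplicative.ofAdd (1 : ZMod 2) :=
  PresentedGroup.toGroup.of sgn_rel

theorem commutator_ne_top : commutator Fi24 ≠ ⊤ := by
  intro h
  have h1 : commutator Fi24 ≤ sgn.ker := Abelianization.commutator_subset_ker sgn
  rw [h] at h1
  have h2 : (PresentedGroup.of Fi24.Gen.l : Fi24) ∈ sgn.ker := h1 (Subgroup.mem_top _)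
  rw [MonoidHom.mem_ker, sgn_of] at h2
  revert h2
  decide

/-- In the presented group, a node generator squares to one. -/
theorem of_mul_self (x : Fi24.Gen) (hx : x ∈ coxNodes Fi24.edges) :
    (PresentedGroup.of x : Fi24) * PresentedGroup.of x = 1 := by
  have hmem : (FreeGroup.of x * FreeGroup.of x) ^ coxLabel Fi24.edges x x ∈ rels :=
    Or.inl ⟨x, hx, x, hx, rfl⟩
  have h1 := PresentedGroup.one_of_mem hmem
  have h2 : coxLabel Fi24.edges x x = 1 := by
    unfold coxLabel; rw [if_pos rfl]
  rw [h2, pow_one, map_mul] at h1
  exact h1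

theorem of_mul_pow (x y : Fi24.Gen) (hx : x ∈ coxNodes Fi24.edges) (hy : y ∈ coxNodes Fi24.edges) :
    ((PresentedGroup.of x : Fi24) * PresentedGroup.of y) ^ coxLabel Fi24.edges x y = 1 := by
  have hmem : (FreeGroup.of x * FreeGroup.of y) ^ coxLabel Fi24.edges x y ∈ rels :=
    Or.inl ⟨x, hx, y, hy, rfl⟩
  have h1 := PresentedGroup.one_of_mem hmem
  rw [map_pow, map_mul] at h1
  exact h1

/-- Two generators joined by an edge labelled 3 have the same image in the abelianization. -/
theorem ab_eq (x y : Fi24.Gen) (hx : x ∈ coxNodes Fi24.edges) (hy : y ∈ coxNodes Fi24.edges)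
    (h3 : coxLabel Fi24.edges x y = 3) :
    Abelianization.of (PresentedGroup.of x : Fi24) = Abelianization.of (PresentedGroup.of y : Fi24) := by
  have hxx := congrArg Abelianization.of (of_mul_self x hx)
  have hyy := congrArg Abelianization.of (of_mul_self y hy)
  have hxy := congrArg Abelianization.of (of_mul_pow x y hx hy)
  rw [h3] at hxy
  rw [map_mul, map_one] at hxx hyy
  rw [map_pow, map_mul, map_one] at hxy
  generalize Abelianization.of (PresentedGroup.of x : Fi24) = X at *
  generalize Abelianization.of (PresentedGroup.of y : Fi24) = Y at *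
  have h4 : (X * Y) ^ 3 = (X * X) * (Y * Y) * (X * Y) := by
    rw [pow_succ, pow_two]
    simp only [mul_comm, mul_left_comm, mul_assoc]
  rw [h4, hxx, hyy, one_mul, one_mul] at hxy
  -- X * Y = 1 and Y * Y = 1
  calc X = X * (Y * Y) := by rw [hyy, mul_one]
    _ = (X * Y) * Y := by rw [mul_assoc]
    _ = Y := by rw [hxy, one_mul]

/-- All generators have the same image in the abelianization. -/
theorem ab_all (x : Fi24.Gen) :
    Abelianization.of (PresentedGroup.of x : Fi24) =
      Abelianization.of (PresentedGroup.of Fi24.Gen.d : Fi24) := by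
  have hc := ab_eq .c .d (by decide) (by decide) (by decide)
  have hb := (ab_eq .b .c (by decide) (by decide) (by decide)).trans hc
  have ha := (ab_eq .a .b (by decide) (by decide) (by decide)).trans hb
  have hk := (ab_eq .k .a (by decide) (by decide) (by decide)).trans ha
  have hl := (ab_eq .l .k (by decide) (by decide) (by decide)).trans hk
  have he := (ab_eq .d .e (by decide) (by decide) (by decide)).symm
  have hf := (ab_eq .e .f (by decide) (by decide) (by decide)).symm.trans he
  have hg := (ab_eq .f .g (by decide) (by decide) (by decide)).symm.trans hf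
  have hj := (ab_eq .g .j (by decide) (by decide) (by decide)).symm.trans hg
  have hh := (ab_eq .d .h (by decide) (by decide) (by decide)).symm
  have hi := (ab_eq .h .i (by decide) (by decide) (by decide)).symm.trans hh
  cases x
  · exact hl
  · exact hk
  · exact ha
  · exact hb
  · exact hc
  · rfl
  · exact he
  · exact hf
  · exact hg
  · exact hj
  · exact hh
  · exact hi

theorem ab_mem (g : Fi24) :
    Abelianization.of g ∈ Subgroup.zpowers (Abelianization.of (PresentedGroup.of Fi24.Gen.d : Fi24)) := by
  have := PresentedGroup.generated_by rels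
    ((Subgroup.zpowers (Abelianization.of (PresentedGroup.of Fi24.Gen.d : Fi24))).comap Abelianization.of)
    (fun j => by
      rw [Subgroup.mem_comap, ab_all j]
      exact Subgroup.mem_zpowers _) g
  exact this

/-- The commutator subgroup of the presented group Fi₂₄ has index 2 (the presented group is Fi₂₄′:2 with Fi₂₄′ its derived subgroup). -/
theorem result : (commutator Cfsg.Spor.Fi24).index = 2 := by
  set t : Abelianization Fi24 := Abelianization.of (PresentedGroup.of Fi24.Gen.d : Fi24) with ht
  have htop : Subgroup.zpowers t = ⊤ := by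
    rw [eq_top_iff]
    intro q _
    obtain ⟨g, rfl⟩ := QuotientGroup.mk_surjective q
    exact ab_mem g
  have ht2 : t ^ 2 = 1 := by
    rw [pow_two, ht, ← map_mul, of_mul_self _ (by decide), map_one]
  have hcard : Nat.card (Abelianization Fi24) = orderOf t := by
    rw [← Nat.card_zpowers, htop, Subgroup.card_top]
  have hdvd : orderOf t ∣ 2 := orderOf_dvd_of_pow_eq_one ht2
  have hidx : (commutator Fi24).index = orderOf t := by
    rw [← hcard]; rfl
  have hne1 : (commutator Fi24).index ≠ 1 := by
    intro h
    exact commutator_ne_top (Subgroup.index_eq_one.mp h)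
  rw [hidx] at hne1 ⊢
  have : orderOf t = 1 ∨ orderOf t = 2 := (Nat.dvd_prime Nat.prime_two).mp hdvd
  rcases this with h | h
  · exact absurd h hne1
  · exact h

end Cfsg.Agent.S1691
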