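import Cfsg.Statements.S1753
-- import your own Cfsg.Agent.* helpers here

set_option autoImplicit false
universe u
open Cfsg

namespace Cfsg.Agent.S1753

theorem kproper_of_small (K : ∀ (X : Type u) [Group X], Prop) (G : Type u) [Group G] [Finite G]
    (h : ∀ (X : Type u) [Group X] [Finite X], IsSimpleGroup X → ¬ IsMulCommutative X →
      Nat.card X < Nat.card G → K X) : Cfsg.IsKProperWith K G := by
  intro H hH H' N _ hs hc
  apply h _ hs hc
  have h1 : Nat.card (↥H' ⧸ N) ≤ Nat.card H' :=
    Nat.card_le_card_of_surjective _ (QuotientGroup.mk_surjective (s := N))
  have h2 : Nat.card H' ≤ Nat.card H := Subgroup.card_le_card_group H'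
  have h3 : Nat.card H < Nat.card G := by
    refine lt_of_le_of_ne (Subgroup.card_le_card_group H) ?_
    intro heq
    exact hH (Subgroup.eq_top_of_card_eq H heq)
  omega

theorem aux (K : ∀ (X : Type u) [Group X], Prop)
    (hK : ∀ (X : Type u) [Group X] [Finite X], IsSimpleGroup X → ¬ IsMulCommutative X →
      Cfsg.IsKProperWith K X → K X) :
    ∀ n : ℕ, ∀ (G : Type u) [Group G] [Finite G], Nat.card G = n → IsSimpleGroup G →
      ¬ IsMulCommutative G → K G := by
  intro n
  induction n using Nat.strong_induction_on with
  | _ n ih =>
    intro G _ _ hn hs hc
    apply hK G hs hc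
    apply kproper_of_small
    intro X _ _ hXs hXc hlt
    exact ih (Nat.card X) (hn ▸ hlt) X rfl hXs hXc

/-- Let K be any property of groups. (1) If G is a minimal counterexample relative to K — a finite non-abelian simple group not satisfying K such that every finite non-abelian simple group of smaller order satisfies K — then every proper subgroup of G is a K-group (all its non-abelian simple sections satisfy K), since such sections have smaller order than G. (2) Consequently (induction on the order), if every finite non-abelian simple group all of whose proper subgroups are K-groups satisfies K, then every finite non-abelian simple group satisfies K. -/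
theorem result (K : ∀ (X : Type u) [Group X], Prop) :
    (∀ (G : Type u) [Group G], Cfsg.IsMinCounterexampleWith K G → Cfsg.IsKProperWith K G) ∧
      ((∀ (X : Type u) [Group X] [Finite X], IsSimpleGroup X → ¬ IsMulCommutative X → Cfsg.IsKProperWith K X → K X) →
        ∀ (G : Type u) [Group G] [Finite G], IsSimpleGroup G → ¬ IsMulCommutative G → K G) := by
  refine ⟨?_, ?_⟩
  · intro G _ hmin
    obtain ⟨hfin, _, _, _, hsmall⟩ := hmin
    exact kproper_of_small K G (fun X _ _ h1 h2 h3 => hsmall X h1 h2 h3)
  · intro hK G _ _ hs hc
    exact aux K hK (Nat.card G) G rfl hs hc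

end Cfsg.Agent.S1753
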