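import Cfsg.Statements.S1754
import Cfsg.Agent.Helper9.Quasi

set_option autoImplicit false
open Cfsg

namespace Cfsg.Agent.S1754

/-- Let A be a standard subgroup of the finite group G (A quasisimple, C_G(A) tightly embedded of even order, A commuting elementwise with no other conjugate of itself, and N_G(A) = N_G(C_G(A))), and let t be an involution of G centralizing A. Then the centralizer of t lies in the normalizer of A; in particular A, viewed inside C_G(t), is a component of C_G(t). -/
theorem result {G : Type*} [Group G] [Finite G]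
    (A : Subgroup G) (hA : Cfsg.IsStandardSubgroup A) (t : G) (ht : orderOf t = 2) (htA : t ∈ Subgroup.centralizer (A : Set G)) :
    Subgroup.centralizer ({t} : Set G) ≤ Subgroup.normalizer (A : Set G) ∧
      Cfsg.IsComponent (A.subgroupOf (Subgroup.centralizer ({t} : Set G))) := by
  obtain ⟨hq, ⟨hev, hte⟩, hconj, hN⟩ := hA
  have h1 : Subgroup.centralizer ({t} : Set G) ≤ Subgroup.normalizer (A : Set G) := by
    intro c hc
    rw [hN]
    by_contra hcn
    have hodd := hte c hcn
    have hct : c * t * c⁻¹ = t := by
      have := Subgroup.mem_centralizer_iff.mp hc t (Set.mem_singleton t)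
      rw [← this]; group
    have htmem : t ∈ Subgroup.centralizer (A : Set G) ⊓
        (Subgroup.centralizer (A : Set G)).map (MulAut.conj c).toMonoidHom := by
      refine ⟨htA, ⟨t, htA, ?_⟩⟩
      simpa [MulAut.conj_apply] using hct
    have hdvd : orderOf t ∣ Nat.card ↥(Subgroup.centralizer (A : Set G) ⊓
        (Subgroup.centralizer (A : Set G)).map (MulAut.conj c).toMonoidHom) := by
      have := orderOf_dvd_natCard (⟨t, htmem⟩ : ↥(Subgroup.centralizer (A : Set G) ⊓
        (Subgroup.centralizer (A : Set G)).map (MulAut.conj c).toMonoidHom))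
      rwa [Subgroup.orderOf_mk] at this
    rw [ht] at hdvd
    exact (Nat.not_even_iff_odd.mpr hodd) (even_iff_two_dvd.mpr hdvd)
  refine ⟨h1, ?_⟩
  have hAC : A ≤ Subgroup.centralizer ({t} : Set G) := by
    intro a ha
    rw [Subgroup.mem_centralizer_iff]
    intro h hh
    rw [Set.mem_singleton_iff] at hh
    subst hh
    exact (Subgroup.mem_centralizer_iff.mp htA a ha).symm
  refine ⟨?_, ?_⟩
  · have : (A.subgroupOf (Subgroup.centralizer ({t} : Set G))).Normal :=
      (Subgroup.normal_subgroupOf_iff_le_normalizer hAC).mpr h1
    exact this.isSubnormal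
  · exact Cfsg.Agent.Helper9.isQuasisimple_of_mulEquiv (Subgroup.subgroupOfEquivOfLe hAC).symm hq

end Cfsg.Agent.S1754
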