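import Cfsg.Statements.S1755
import Cfsg.Agent.Helper9.Layer

set_option autoImplicit false
open Cfsg

namespace Cfsg.Agent.S1755

open Cfsg.Agent.Helper9

theorem aux {G : Type*} [Group G] [Finite G] (z : G) (hz : orderOf z = 2)
    (C : Subgroup G) (hC : C = Subgroup.centralizer ({z} : Set G))
    (F : Subgroup C) (hF : F = Cfsg.generalizedFittingSubgroup C)
    (hQ : Cfsg.IsOfSymplecticType F)
    (B : Subgroup F) (hBc : B.Characteristic) (hBa : IsMulCommutative ↥B) (g : G) :
    ((B.map F.subtype).map C.subtype).map (MulAut.conj g).toMonoidHom =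
        (B.map F.subtype).map C.subtype ∨
      ((B.map F.subtype).map C.subtype).map (MulAut.conj g).toMonoidHom ⊓
        (B.map F.subtype).map C.subtype = ⊥ := by
  have : Fact (Nat.Prime 2) := ⟨Nat.prime_two⟩
  have hFn : F.Normal := by rw [hF]; exact generalizedFittingSubgroup_normal C
  set B' : Subgroup G := (B.map F.subtype).map C.subtype with hB'
  obtain ⟨h2, hsym⟩ := hQ
  have hBcyc : IsCyclic B := hsym B hBc hBa
  have hZcyc : IsCyclic (Subgroup.center F) := hsym (Subgroup.center F) inferInstance inferInstance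
  -- z as an element of C and F
  have hzC : z ∈ C := by
    rw [hC, Subgroup.mem_centralizer_iff]
    intro h hh
    rw [Set.mem_singleton_iff] at hh
    rw [hh]
  have hzCc : (⟨z, hzC⟩ : C) ∈ Subgroup.center C := by
    rw [Subgroup.mem_center_iff]
    intro c
    apply Subtype.ext
    have hc : (c : G) ∈ Subgroup.centralizer ({z} : Set G) := hC ▸ c.2
    have := Subgroup.mem_centralizer_iff.mp hc z (Set.mem_singleton z)
    exact this.symm
  have hzF : (⟨z, hzC⟩ : C) ∈ F := by
    rw [hF]
    exact Subgroup.mem_sup_right (mem_fittingSubgroup_of_mem_center _ hzCc)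
  have hzFc : (⟨⟨z, hzC⟩, hzF⟩ : F) ∈ Subgroup.center F := by
    rw [Subgroup.mem_center_iff]
    intro f
    apply Subtype.ext
    exact Subgroup.mem_center_iff.mp hzCc f
  have hzFo : orderOf (⟨⟨z, hzC⟩, hzF⟩ : F) = 2 := by
    rw [Subgroup.orderOf_mk, Subgroup.orderOf_mk, hz]
  by_cases hBbot : B = ⊥
  · right
    rw [hB', hBbot]
    simp
  -- involution u in B
  have hex : ∃ u : F, u ∈ B ∧ orderOf u = 2 := by
    have hB2 : IsPGroup 2 B := h2.to_subgroup B
    have hcard : 2 ∣ Nat.card B := by
      rcases hB2.card_eq_or_dvd with h | h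
      · exact absurd (Subgroup.card_eq_one.mp h) hBbot
      · exact h
    obtain ⟨u, hu⟩ := exists_prime_orderOf_dvd_card' 2 hcard
    exact ⟨u, u.2, by rw [← hu]; exact (Subgroup.orderOf_coe u)⟩
  obtain ⟨u, huB, hu2⟩ := hex
  have hBn : B.Normal := inferInstance
  have huc : u ∈ Subgroup.center F := by
    rw [Subgroup.mem_center_iff]
    intro f
    have h1 : f * u * f⁻¹ ∈ B := hBn.conj_mem u huB f
    have h2' : orderOf (f * u * f⁻¹) = 2 := by
      rw [← hu2]; exact (MulAut.conj f).orderOf_eq u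
    have := involution_unique_of_isCyclic (A := B) ⟨f * u * f⁻¹, h1⟩ ⟨u, huB⟩
      (by rw [Subgroup.orderOf_mk, h2']) (by rw [Subgroup.orderOf_mk, hu2])
    have h3 : f * u * f⁻¹ = u := congrArg Subtype.val this
    calc f * u = f * u * f⁻¹ * f := by group
      _ = u * f := by rw [h3]
  have huz : u = ⟨⟨z, hzC⟩, hzF⟩ := by
    have := involution_unique_of_isCyclic (A := Subgroup.center F) ⟨u, huc⟩ ⟨_, hzFc⟩
      (by rw [Subgroup.orderOf_mk, hu2]) (by rw [Subgroup.orderOf_mk, hzFo])
    exact congrArg Subtype.val this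
  have hzB : (⟨⟨z, hzC⟩, hzF⟩ : F) ∈ B := huz ▸ huB
  -- every involution of B' is z
  have hinv : ∀ x ∈ B', orderOf x = 2 → x = z := by
    rintro x ⟨c, ⟨b, hb, rfl⟩, rfl⟩ hx
    have hb2 : orderOf b = 2 := by
      rw [← hx]
      simp
    have := involution_unique_of_isCyclic (A := B) ⟨b, hb⟩ ⟨_, hzB⟩
      (by rw [Subgroup.orderOf_mk, hb2]) (by rw [Subgroup.orderOf_mk, hzFo])
    have h3 : b = ⟨⟨z, hzC⟩, hzF⟩ := congrArg Subtype.val this
    rw [h3]
    rfl
  have hB'2 : IsPGroup 2 B' := ((h2.to_subgroup B).map _).map _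
  by_cases hint : B'.map (MulAut.conj g).toMonoidHom ⊓ B' = ⊥
  · right; exact hint
  left
  have hI2 : IsPGroup 2 ↥(B'.map (MulAut.conj g).toMonoidHom ⊓ B') := hB'2.to_le inf_le_right
  have hcard : 2 ∣ Nat.card ↥(B'.map (MulAut.conj g).toMonoidHom ⊓ B') := by
    rcases hI2.card_eq_or_dvd with h | h
    · exact absurd (Subgroup.card_eq_one.mp h) hint
    · exact h
  obtain ⟨y, hy⟩ := exists_prime_orderOf_dvd_card' 2 hcard
  obtain ⟨y, hymem⟩ := y
  have hy1 := hymem.1
  have hy2 := hymem.2
  rw [Subgroup.orderOf_mk] at hy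
  have hyz : y = z := hinv y hy2 hy
  obtain ⟨w, hw, hwy⟩ := hy1
  have hwy' : g * w * g⁻¹ = y := by simpa [MulAut.conj_apply] using hwy
  have hw2 : orderOf w = 2 := by
    rw [← hy, ← hwy']; exact ((MulAut.conj g).orderOf_eq w).symm
  have hwz : w = z := hinv w hw hw2
  have hgz : g * z * g⁻¹ = z := by
    rw [hwz, hyz] at hwy'
    exact hwy'
  have hgC : g ∈ C := by
    rw [hC, Subgroup.mem_centralizer_iff]
    intro h hh
    rw [Set.mem_singleton_iff] at hh
    subst hh
    calc h * g = g * h * g⁻¹ * g := by rw [hgz]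
      _ = g * h := by group
  have key : ∀ g' ∈ C, B'.map (MulAut.conj g').toMonoidHom ≤ B' := by
    intro g' hg'
    rintro _ ⟨_, ⟨c, ⟨b, hb, rfl⟩, rfl⟩, rfl⟩
    have hφ : B.map (MulAut.conjNormal (⟨g', hg'⟩ : C) : F ≃* F).toMonoidHom = B :=
      Subgroup.characteristic_iff_map_eq.mp hBc _
    have hb' : (MulAut.conjNormal (⟨g', hg'⟩ : C) : F ≃* F) b ∈ B := by
      rw [← hφ]; exact ⟨b, hb, rfl⟩
    refine ⟨((MulAut.conjNormal (⟨g', hg'⟩ : C) : F ≃* F) b : C), ⟨_, hb', rfl⟩, ?_⟩
    simp [MulAut.conjNormal_apply, MulAut.conj_apply]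
  apply Subgroup.eq_of_le_of_card_ge (key g hgC)
  exact le_of_eq (Subgroup.card_map_of_injective (MulAut.conj g).injective).symm


/-- Let G be a finite group and let z be an involution of G such that Q, the generalized Fitting subgroup of the centralizer C of z, is a 2-group of symplectic type (every characteristic abelian subgroup of Q is cyclic). Let B be a characteristic abelian subgroup of Q, viewed as a subgroup of G. Then for every g in G, the conjugate of B by g either equals B or meets B trivially. -/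
theorem result {G : Type*} [Group G] [Finite G] (z : G) (hz : orderOf z = 2) (hQ : Cfsg.IsOfSymplecticType ↥(Cfsg.generalizedFittingSubgroup ↥(Subgroup.centralizer ({z} : Set G))))
    (B : Subgroup ↥(Cfsg.generalizedFittingSubgroup ↥(Subgroup.centralizer ({z} : Set G)))) (hBc : B.Characteristic) (hBa : IsMulCommutative ↥B) (g : G) :
    ((B.map (Cfsg.generalizedFittingSubgroup ↥(Subgroup.centralizer ({z} : Set G))).subtype).map (Subgroup.centralizer ({z} : Set G)).subtype).map (MulAut.conj g).toMonoidHom =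
        (B.map (Cfsg.generalizedFittingSubgroup ↥(Subgroup.centralizer ({z} : Set G))).subtype).map (Subgroup.centralizer ({z} : Set G)).subtype ∨
      ((B.map (Cfsg.generalizedFittingSubgroup ↥(Subgroup.centralizer ({z} : Set G))).subtype).map (Subgroup.centralizer ({z} : Set G)).subtype).map (MulAut.conj g).toMonoidHom ⊓
        (B.map (Cfsg.generalizedFittingSubgroup ↥(Subgroup.centralizer ({z} : Set G))).subtype).map (Subgroup.centralizer ({z} : Set G)).subtype = ⊥ := by
  exact aux z hz _ rfl _ rfl hQ B hBc hBa g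

end Cfsg.Agent.S1755
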