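import Cfsg.Statements.S1756
import Mathlib

set_option autoImplicit false
open Cfsg

namespace Cfsg.Agent.S1756

/-- The central involution `z` of a group with `Q' = Z(Q)` of order 2. -/
theorem exists_z {Q : Type*} [Group Q] (hcomm : commutator Q = Subgroup.center Q)
    (hZ : Nat.card (Subgroup.center Q) = 2) :
    ∃ z : Q, z ∈ Subgroup.center Q ∧ z ≠ 1 ∧ z * z = 1 ∧
      (∀ c ∈ Subgroup.center Q, c ≠ 1 → c = z) ∧
      ∀ a b : Q, a * b = b * a ∨ a * b = z * (b * a) := by
  obtain ⟨⟨z, hz⟩, hz1, huniq⟩ := (Nat.card_eq_two_iff' (1 : Subgroup.center Q)).mp hZ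
  have hz1' : z ≠ 1 := by
    intro h
    apply hz1
    exact Subtype.ext h
  have hu : ∀ c ∈ Subgroup.center Q, c ≠ 1 → c = z := by
    intro c hc hc1
    have := huniq ⟨c, hc⟩ (by intro h; exact hc1 (congrArg Subtype.val h))
    exact congrArg Subtype.val this
  have hzz : z * z = 1 := by
    by_contra h
    have := hu (z * z) (Subgroup.mul_mem _ hz hz) h
    exact hz1' (by simpa using this)
  refine ⟨z, hz, hz1', hzz, hu, ?_⟩
  intro a b
  have hmem : a * b * a⁻¹ * b⁻¹ ∈ Subgroup.center Q := by
    rw [← hcomm, commutator_def]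
    have := Subgroup.commutator_mem_commutator (Subgroup.mem_top a) (Subgroup.mem_top b)
    rwa [commutatorElement_def] at this
  by_cases h1 : a * b * a⁻¹ * b⁻¹ = 1
  · left
    calc a * b = a * b * a⁻¹ * b⁻¹ * (b * a) := by group
      _ = b * a := by rw [h1, one_mul]
  · right
    have := hu _ hmem h1
    calc a * b = a * b * a⁻¹ * b⁻¹ * (b * a) := by group
      _ = z * (b * a) := by rw [this]

/-- The sign pairing: `1` if the two elements commute, `-1` otherwise. -/
noncomputable def sg {Q : Type*} [Group Q] (a b : Q) : ℂˣ :=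
  open Classical in if a * b = b * a then 1 else -1

theorem sg_symm {Q : Type*} [Group Q] (a b : Q) : sg a b = sg b a := by
  unfold sg
  by_cases h : a * b = b * a
  · rw [if_pos h, if_pos h.symm]
  · rw [if_neg h, if_neg (fun h' => h h'.symm)]

theorem neg_one_ne_one_units : (-1 : ℂˣ) ≠ 1 := by
  intro h
  have := congrArg Units.val h
  norm_num at this

theorem sg_eq_one_iff {Q : Type*} [Group Q] (a b : Q) : sg a b = 1 ↔ a * b = b * a := by
  unfold sg
  by_cases h : a * b = b * a
  · simp [h]
  · simp [h, neg_one_ne_one_units]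

theorem sg_mul_right {Q : Type*} [Group Q] (z : Q) (hz : z ∈ Subgroup.center Q) (hz1 : z ≠ 1)
    (hzz : z * z = 1) (hab : ∀ a b : Q, a * b = b * a ∨ a * b = z * (b * a)) (y q1 q2 : Q) :
    sg y (q1 * q2) = sg y q1 * sg y q2 := by
  have hzc : ∀ g : Q, g * z = z * g := fun g => Subgroup.mem_center_iff.mp hz g
  have hne : ∀ g : Q, z * g ≠ g := fun g h => hz1 (by simpa using h)
  unfold sg
  rcases hab y q1 with h1 | h1 <;> rcases hab y q2 with h2 | h2
  · have : y * (q1 * q2) = q1 * q2 * y := by
      rw [← mul_assoc, h1, mul_assoc, h2, mul_assoc]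
    simp [h1, h2, this]
  · have e : y * (q1 * q2) = z * (q1 * q2 * y) := by
      rw [← mul_assoc, h1, mul_assoc, h2, ← mul_assoc, hzc q1]; group
    have n1 : y * (q1 * q2) ≠ q1 * q2 * y := by rw [e]; exact hne _
    have n2 : y * q2 ≠ q2 * y := by rw [h2]; exact hne _
    simp [h1, n1, n2]
  · have e : y * (q1 * q2) = z * (q1 * q2 * y) := by
      rw [← mul_assoc, h1, mul_assoc, mul_assoc, h2]; group
    have n1 : y * (q1 * q2) ≠ q1 * q2 * y := by rw [e]; exact hne _
    have n2 : y * q1 ≠ q1 * y := by rw [h1]; exact hne _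
    simp [h2, n1, n2]
  · have e : y * (q1 * q2) = q1 * q2 * y := by
      calc y * (q1 * q2) = (y * q1) * q2 := by group
        _ = z * (q1 * y) * q2 := by rw [h1]
        _ = z * q1 * (y * q2) := by group
        _ = z * q1 * (z * (q2 * y)) := by rw [h2]
        _ = z * (q1 * z) * (q2 * y) := by group
        _ = z * (z * q1) * (q2 * y) := by rw [hzc q1]
        _ = (z * z) * (q1 * q2 * y) := by group
        _ = q1 * q2 * y := by rw [hzz, one_mul]
    have n1 : y * q1 ≠ q1 * y := by rw [h1]; exact hne _
    have n2 : y * q2 ≠ q2 * y := by rw [h2]; exact hne _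
    simp [e, n1, n2]

/-- Number of linear characters. -/
theorem card_hom_units (Q : Type*) [Group Q] [Finite Q] :
    Nat.card (Q →* ℂˣ) = (commutator Q).index := by
  have h1 : Nat.card (Q →* ℂˣ) = Nat.card (Abelianization Q →* ℂˣ) :=
    Nat.card_congr Abelianization.lift
  haveI : NeZero ((Monoid.exponent (Abelianization Q) : ℕ) : ℂ) :=
    ⟨Nat.cast_ne_zero.mpr Monoid.exponent_ne_zero_of_finite⟩
  rw [h1, CommGroup.card_monoidHom_of_hasEnoughRootsOfUnity]
  rfl

/-- Every linear character of `Q` is of the form `sg y`. -/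
theorem exists_sg_eq {Q : Type*} [Group Q] [Finite Q] (hcomm : commutator Q = Subgroup.center Q)
    (z : Q) (hz : z ∈ Subgroup.center Q) (hz1 : z ≠ 1)
    (hzz : z * z = 1) (hab : ∀ a b : Q, a * b = b * a ∨ a * b = z * (b * a))
    (f : Q →* ℂˣ) : ∃ y : Q, ∀ q : Q, f q = sg y q := by
  let F : Q →* (Q →* ℂˣ) :=
    { toFun := fun y =>
        { toFun := fun q => sg y q
          map_one' := by simp [sg]
          map_mul' := fun q1 q2 => sg_mul_right z hz hz1 hzz hab y q1 q2 }
      map_one' := by
        ext q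
        simp [sg]
      map_mul' := fun y1 y2 => by
        ext q
        simp only [MonoidHom.coe_mk, OneHom.coe_mk, MonoidHom.mul_apply]
        rw [sg_symm (y1 * y2) q, sg_symm y1 q, sg_symm y2 q,
          sg_mul_right z hz hz1 hzz hab q y1 y2] }
  have hker : F.ker = Subgroup.center Q := by
    ext y
    rw [MonoidHom.mem_ker, Subgroup.mem_center_iff]
    constructor
    · intro h g
      have : sg y g = 1 := by
        have := congrArg (fun φ : Q →* ℂˣ => φ g) h
        simpa [F] using this
      exact ((sg_eq_one_iff y g).mp this).symm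
    · intro h
      ext g
      have : sg y g = 1 := (sg_eq_one_iff y g).mpr (h g).symm
      simp [F, this]
  have hfin : Finite (Q →* ℂˣ) := by
    apply Nat.finite_of_card_ne_zero
    rw [card_hom_units]
    exact Subgroup.index_ne_zero_of_finite
  have hcard : Nat.card F.range = Nat.card (Q →* ℂˣ) := by
    rw [← Subgroup.index_ker, hker, card_hom_units, hcomm]
  have htop : F.range = ⊤ := Subgroup.eq_top_of_card_eq _ hcard
  have : f ∈ F.range := by rw [htop]; exact Subgroup.mem_top f
  obtain ⟨y, hy⟩ := this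
  refine ⟨y, fun q => ?_⟩
  rw [← hy]
  rfl

/-- Abstract form: an involutory automorphism of `Q` whose fixed points have index 2 is inner. -/
theorem inner_of_index_two {Q : Type*} [Group Q] [Finite Q]
    (hcomm : commutator Q = Subgroup.center Q) (hZ : Nat.card (Subgroup.center Q) = 2)
    (α : Q →* Q) (hα : ∀ q, α (α q) = q) (M : Subgroup Q) (hM : ∀ q, q ∈ M ↔ α q = q)
    (hidx : M.index = 2) : ∃ y : Q, ∀ q, α q = y * q * y⁻¹ := by
  obtain ⟨z, hz, hz1, hzz, hu, hab⟩ := exists_z hcomm hZ
  have hzc : ∀ g : Q, g * z = z * g := fun g => Subgroup.mem_center_iff.mp hz g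
  have hMn : M.Normal := Subgroup.normal_of_index_eq_two hidx
  -- the character with kernel M
  let lam : Q →* ℂˣ :=
    { toFun := fun q => open Classical in if q ∈ M then 1 else -1
      map_one' := by simp [M.one_mem]
      map_mul' := fun a b => by
        have := Subgroup.mul_mem_iff_of_index_two hidx (a := a) (b := b)
        by_cases ha : a ∈ M <;> by_cases hb : b ∈ M <;> simp [ha, hb, this] }
  obtain ⟨y, hy⟩ := exists_sg_eq hcomm z hz hz1 hzz hab lam
  have hyM : ∀ q, q ∈ M ↔ y * q = q * y := by
    intro q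
    have h := hy q
    rw [← sg_eq_one_iff]
    rw [← h]
    by_cases hq : q ∈ M
    · simp [lam, hq]
    · simp [lam, hq, neg_one_ne_one_units]
  refine ⟨y, fun q => ?_⟩
  by_cases hq : q ∈ M
  · rw [(hM q).mp hq, (hyM q).mp hq]; group
  · -- c := α q * q⁻¹ is central and nontrivial
    have hαq : α q ∉ M := by
      intro h
      have := (hM (α q)).mp h
      rw [hα q] at this
      exact hq ((hM q).mpr this.symm)
    have hcM : α q * q⁻¹ ∈ M := by
      rw [Subgroup.mul_mem_iff_of_index_two hidx, inv_mem_iff]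
      exact ⟨fun h => absurd h hαq, fun h => absurd h hq⟩
    have hcm : ∀ m ∈ M, (α q * q⁻¹) * m = m * (α q * q⁻¹) := by
      intro m hm
      have h1 : q⁻¹ * m * q ∈ M := by
        have := hMn.conj_mem m hm q⁻¹
        simpa using this
      have h2 := (hM _).mp h1
      rw [map_mul, map_mul, map_inv, (hM m).mp hm] at h2
      calc (α q * q⁻¹) * m = α q * (q⁻¹ * m * q) * q⁻¹ := by group
        _ = α q * ((α q)⁻¹ * m * α q) * q⁻¹ := by rw [h2]
        _ = m * (α q * q⁻¹) := by group
    have hcc : (α q * q⁻¹) * (α q * q⁻¹) = 1 := by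
      have h1 := (hM _).mp hcM
      rw [map_mul, map_inv, hα q] at h1
      calc (α q * q⁻¹) * (α q * q⁻¹) = (α q * q⁻¹) * (q * (α q)⁻¹) := by rw [h1]
        _ = 1 := by group
    have hc1 : α q * q⁻¹ ≠ 1 := by
      intro h
      apply hq
      rw [hM]
      calc α q = α q * q⁻¹ * q := by group
        _ = q := by rw [h, one_mul]
    have hcq : (α q * q⁻¹) * q = q * (α q * q⁻¹) := by
      have hqq : q * q ∈ M := by
        rw [Subgroup.mul_mem_iff_of_index_two hidx]
      have h2 := (hM _).mp hqq
      rw [map_mul] at h2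
      generalize hc : α q * q⁻¹ = c at *
      have hαc : α q = c * q := by rw [← hc]; group
      rw [hαc] at h2
      have h3 : c * q * c = q := by
        apply mul_right_cancel (b := q)
        calc c * q * c * q = c * q * (c * q) := by group
          _ = q * q := h2
      have hci : c⁻¹ = c := inv_eq_of_mul_eq_one_right hcc
      calc c * q = c⁻¹ * q := by rw [hci]
        _ = c⁻¹ * (c * q * c) := by rw [h3]
        _ = q * c := by group
    have hcen : α q * q⁻¹ ∈ Subgroup.center Q := by
      rw [Subgroup.mem_center_iff]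
      intro g
      by_cases hg : g ∈ M
      · exact (hcm g hg).symm
      · have hg' : q⁻¹ * g ∈ M := by
          rw [Subgroup.mul_mem_iff_of_index_two hidx, inv_mem_iff]
          exact ⟨fun h => absurd h hq, fun h => absurd h hg⟩
        have := hcm _ hg'
        calc g * (α q * q⁻¹) = q * ((q⁻¹ * g) * (α q * q⁻¹)) := by group
          _ = q * ((α q * q⁻¹) * (q⁻¹ * g)) := by rw [this]
          _ = (q * (α q * q⁻¹)) * (q⁻¹ * g) := by group
          _ = ((α q * q⁻¹) * q) * (q⁻¹ * g) := by rw [hcq]
          _ = (α q * q⁻¹) * g := by group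
    have hcz : α q * q⁻¹ = z := hu _ hcen hc1
    have hyq : y * q = z * (q * y) := by
      rcases hab y q with h | h
      · exact absurd ((hyM q).mpr h) hq
      · exact h
    calc α q = (α q * q⁻¹) * q := by group
      _ = z * q := by rw [hcz]
      _ = z * (q * y) * y⁻¹ := by group
      _ = y * q * y⁻¹ := by rw [← hyq]

/-- Let Q be an extraspecial 2-subgroup of the finite group G (special with centre of order 2) and t an involution of G normalizing Q such that the centralizer of t in Q has index at most 2 in Q. Then t lies in the product of Q with the centralizer of Q. -/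
theorem result {G : Type*} [Group G] [Finite G] (Q : Subgroup G)
    (hQ : Cfsg.IsExtraspecial 2 ↥Q) (t : G) (ht : orderOf t = 2) (htN : t ∈ Subgroup.normalizer (Q : Set G))
    (hi : (Subgroup.centralizer ({t} : Set G) ⊓ Q).relIndex Q ≤ 2) :
    t ∈ Q ⊔ Subgroup.centralizer (Q : Set G) := by
  obtain ⟨⟨_, _, hcomm⟩, hZ⟩ := hQ
  have htt : t * t = 1 := by rw [← pow_two, ← ht, pow_orderOf_eq_one]
  have hti : t⁻¹ = t := inv_eq_of_mul_eq_one_right htt
  have hconj : ∀ q ∈ Q, t * q * t⁻¹ ∈ Q :=
    fun q hq => (Subgroup.mem_normalizer_iff.mp htN q).mp hq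
  let α : Q →* Q :=
    { toFun := fun q => ⟨t * q * t⁻¹, hconj q q.2⟩
      map_one' := by apply Subtype.ext; simp
      map_mul' := fun a b => by apply Subtype.ext; simp }
  have hα : ∀ q, α (α q) = q := by
    intro q
    apply Subtype.ext
    change t * (t * q * t⁻¹) * t⁻¹ = q
    rw [hti]
    calc t * (t * (q : G) * t) * t = (t * t) * q * (t * t) := by group
      _ = q := by rw [htt]; group
  have hM : ∀ q : Q, q ∈ (Subgroup.centralizer ({t} : Set G) ⊓ Q).subgroupOf Q ↔ α q = q := by
    intro q
    rw [Subgroup.mem_subgroupOf, Subgroup.mem_inf, Subgroup.mem_centralizer_iff]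
    constructor
    · rintro ⟨h, _⟩
      apply Subtype.ext
      change t * q * t⁻¹ = q
      rw [h t rfl]; group
    · intro h
      refine ⟨?_, q.2⟩
      intro s hs
      rw [Set.mem_singleton_iff] at hs
      subst hs
      have h' : s * q * s⁻¹ = q := congrArg Subtype.val h
      calc s * (q : G) = s * q * s⁻¹ * s := by group
        _ = q * s := by rw [h']
  have hidx : ((Subgroup.centralizer ({t} : Set G) ⊓ Q).subgroupOf Q).index ≤ 2 := hi
  have hne : ((Subgroup.centralizer ({t} : Set G) ⊓ Q).subgroupOf Q).index ≠ 0 :=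
    Subgroup.index_ne_zero_of_finite
  have key : ∃ y : Q, ∀ q, α q = y * q * y⁻¹ := by
    by_cases h1 : ((Subgroup.centralizer ({t} : Set G) ⊓ Q).subgroupOf Q).index = 1
    · refine ⟨1, fun q => ?_⟩
      have : q ∈ (Subgroup.centralizer ({t} : Set G) ⊓ Q).subgroupOf Q := by
        rw [Subgroup.index_eq_one.mp h1]; trivial
      rw [(hM q).mp this]; simp
    · have h2 : ((Subgroup.centralizer ({t} : Set G) ⊓ Q).subgroupOf Q).index = 2 := by omega
      exact inner_of_index_two hcomm hZ α hα _ hM h2
  obtain ⟨y, hy⟩ := key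
  have hyc : (y : G)⁻¹ * t ∈ Subgroup.centralizer (Q : Set G) := by
    rw [Subgroup.mem_centralizer_iff]
    intro q hq
    have h' : t * q * t⁻¹ = (y : G) * q * (y : G)⁻¹ := congrArg Subtype.val (hy ⟨q, hq⟩)
    calc q * ((y : G)⁻¹ * t) = (y : G)⁻¹ * ((y : G) * q * (y : G)⁻¹) * t := by group
      _ = (y : G)⁻¹ * (t * q * t⁻¹) * t := by rw [h']
      _ = (y : G)⁻¹ * t * q := by group
  have : t = (y : G) * ((y : G)⁻¹ * t) := by group
  rw [this]
  exact Subgroup.mul_mem_sup y.2 hyc

end Cfsg.Agent.S1756
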