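import Cfsg.Statements.S1757
import Mathlib
-- import your own Cfsg.Agent.* helpers here

set_option autoImplicit false
open Cfsg
open scoped commutatorElement

namespace Cfsg.Agent.S1757

/-- Core lemma: `B` normalizes `A`, `B` is a TI-subgroup, `|A| ≤ |B|`; then every element of `A`
normalizes `B`. -/
theorem conj_eq_of_mem {G : Type*} [Group G] [Finite G] (A B : Subgroup G)
    (hBti : ∀ g : G, B.map (MulAut.conj g).toMonoidHom = B ∨ B.map (MulAut.conj g).toMonoidHom ⊓ B = ⊥)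
    (hle : Nat.card ↥A ≤ Nat.card ↥B) (hN : B ≤ Subgroup.normalizer (A : Set G))
    (a : G) (ha : a ∈ A) : B.map (MulAut.conj a).toMonoidHom = B := by
  rcases hBti a with h | h
  · exact h
  · -- the map b ↦ b⁻¹ a b a⁻¹ from B to A
    have hmem : ∀ b : B, (b : G)⁻¹ * a * b * a⁻¹ ∈ A := by
      intro b
      have hb : (b : G)⁻¹ ∈ Subgroup.normalizer (A : Set G) := hN (B.inv_mem b.2)
      have h1 : (b : G)⁻¹ * a * ((b : G)⁻¹)⁻¹ ∈ A := (Subgroup.mem_normalizer_iff.mp hb a).mp ha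
      rw [inv_inv] at h1
      exact A.mul_mem h1 (A.inv_mem ha)
    let f : B → A := fun b => ⟨(b : G)⁻¹ * a * b * a⁻¹, hmem b⟩
    have hinj : Function.Injective f := by
      intro b b' hbb
      have h1 : (b : G)⁻¹ * a * b * a⁻¹ = (b' : G)⁻¹ * a * b' * a⁻¹ := congrArg Subtype.val hbb
      have h2 : (b : G)⁻¹ * a * b = (b' : G)⁻¹ * a * b' := mul_right_cancel h1
      -- b' b⁻¹ = a (b' b⁻¹) a⁻¹
      have h3 : (b' : G) * (b : G)⁻¹ = a * ((b' : G) * (b : G)⁻¹) * a⁻¹ := by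
        have h4 : a * (b : G) = (b : G) * ((b' : G)⁻¹ * a * b') := by
          rw [← h2]; group
        have h5 : a * ((b' : G) * (b : G)⁻¹) * a⁻¹ = a * (b' : G) * (a * b)⁻¹ := by group
        rw [h5, h4]; group
      have h6 : (b' : G) * (b : G)⁻¹ ∈ B.map (MulAut.conj a).toMonoidHom ⊓ B := by
        refine ⟨?_, B.mul_mem b'.2 (B.inv_mem b.2)⟩
        rw [h3]
        exact ⟨(b' : G) * (b : G)⁻¹, B.mul_mem b'.2 (B.inv_mem b.2), by simp [MulAut.conj_apply]⟩
      rw [h] at h6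
      have h7 : (b' : G) * (b : G)⁻¹ = 1 := (Subgroup.mem_bot).mp h6
      have h8 : (b' : G) = b := mul_inv_eq_one.mp h7
      exact Subtype.ext h8.symm
    have hbij : Function.Bijective f := hinj.bijective_of_nat_card_le hle
    obtain ⟨b₀, hb₀⟩ := hbij.2 ⟨a⁻¹, A.inv_mem ha⟩
    have h1 : (b₀ : G)⁻¹ * a * b₀ * a⁻¹ = a⁻¹ := congrArg Subtype.val hb₀
    have h2 : a = 1 := by
      have h3 : (b₀ : G)⁻¹ * a * b₀ = 1 := by
        have h3' : (b₀ : G)⁻¹ * a * b₀ * a⁻¹ = 1 * a⁻¹ := by rw [h1, one_mul]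
        exact mul_right_cancel h3'
      have h4 : a = (b₀ : G) * ((b₀ : G)⁻¹ * a * b₀) * (b₀ : G)⁻¹ := by group
      rw [h4, h3]; group
    rw [h2]
    ext x
    simp

/-- Let p be a prime and A, B p-subgroups of the finite group G, each of which meets every conjugate of itself other than itself trivially. Suppose the order of A is at most that of B, A and B intersect trivially, and B normalizes A. Then A and B commute elementwise. -/
theorem result {G : Type*} [Group G] [Finite G] (p : ℕ) [Fact p.Prime] (A B : Subgroup G)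
    (hA : IsPGroup p ↥A) (hB : IsPGroup p ↥B)
    (hAti : ∀ g : G, A.map (MulAut.conj g).toMonoidHom = A ∨ A.map (MulAut.conj g).toMonoidHom ⊓ A = ⊥)
    (hBti : ∀ g : G, B.map (MulAut.conj g).toMonoidHom = B ∨ B.map (MulAut.conj g).toMonoidHom ⊓ B = ⊥)
    (hle : Nat.card ↥A ≤ Nat.card ↥B) (hAB : A ⊓ B = ⊥) (hN : B ≤ Subgroup.normalizer (A : Set G)) : ⁅A, B⁆ = ⊥ := by
  rw [eq_bot_iff, ← hAB]
  rw [Subgroup.commutator_le]
  intro a ha b hb
  refine ⟨?_, ?_⟩
  · -- a * (b a⁻¹ b⁻¹) ∈ A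
    have h1 : b * a⁻¹ * b⁻¹ ∈ A :=
      (Subgroup.mem_normalizer_iff.mp (hN hb) a⁻¹).mp (A.inv_mem ha)
    have h2 : ⁅a, b⁆ = a * (b * a⁻¹ * b⁻¹) := by
      rw [commutatorElement_def]; group
    rw [h2]
    exact A.mul_mem ha h1
  · have h1 := conj_eq_of_mem A B hBti hle hN a ha
    have h2 : a * b * a⁻¹ ∈ B := by
      rw [← h1]
      exact ⟨b, hb, by simp [MulAut.conj_apply]⟩
    have h3 : ⁅a, b⁆ = a * b * a⁻¹ * b⁻¹ := by
      rw [commutatorElement_def]
    rw [h3]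
    exact B.mul_mem h2 (B.inv_mem hb)

end Cfsg.Agent.S1757
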