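import Cfsg.Statements.S1780
import Mathlib
-- import your own Cfsg.Agent.* helpers here

set_option autoImplicit false
open Cfsg

namespace Cfsg.Agent.S1780

/-- If `T` is an additive endomorphism with `T ^ (2 ^ k) = 1` of a group killed by `2 ^ m`,
then `T - 1` is nilpotent. -/
theorem nilp {M : Type*} [AddCommGroup M] (T : AddMonoid.End M) (k m : ℕ) (hT : T ^ (2 ^ k) = 1)
    (hM : ∀ x : M, (2 ^ m : ℕ) • x = 0) : (T - 1) ^ (2 ^ k * m) = 0 := by
  have hTD : T = (T - 1) + 1 := by abel
  have hcomm : Commute (T - 1) 1 := Commute.one_right _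
  obtain ⟨r, hr⟩ := hcomm.exists_add_pow_prime_pow_eq Nat.prime_two k
  rw [← hTD, hT, one_pow] at hr
  have h1 : (T - 1) ^ (2 ^ k) = ((2 : ℕ) : AddMonoid.End M) * (-((T - 1) * r)) := by
    have h2 : (T - 1) ^ (2 ^ k) = 1 - 1 - ((2 : ℕ) : AddMonoid.End M) * (T - 1) * 1 * r := by
      calc (T - 1) ^ (2 ^ k)
          = ((T - 1) ^ (2 ^ k) + 1 + ((2 : ℕ) : AddMonoid.End M) * (T - 1) * 1 * r) - 1
              - ((2 : ℕ) : AddMonoid.End M) * (T - 1) * 1 * r := by abel
        _ = 1 - 1 - ((2 : ℕ) : AddMonoid.End M) * (T - 1) * 1 * r := by rw [← hr]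
    rw [h2]
    simp only [sub_self, zero_sub, mul_one, mul_neg, mul_assoc]
  rw [pow_mul, h1, (Nat.cast_commute 2 _).mul_pow]
  ext x
  rw [← Nat.cast_pow, AddMonoid.End.coe_mul, Function.comp_apply, AddMonoid.End.natCast_apply]
  rw [hM]
  rfl

theorem exists_second_fixed {M : Type*} [AddCommGroup M] (D : AddMonoid.End M) :
    ∀ n : ℕ, ∀ a : M, (D ^ n) a = 0 → D a ≠ 0 → ∃ a' : M, D a' ≠ 0 ∧ D (D a') = 0 := by
  intro n
  induction n with
  | zero =>
    intro a h0 h1
    exfalso
    apply h1
    have : a = 0 := by simpa using h0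
    rw [this, map_zero]
  | succ n ih =>
    intro a h0 h1
    by_cases h2 : D (D a) = 0
    · exact ⟨a, h1, h2⟩
    · apply ih (D a) _ h2
      rw [pow_succ] at h0
      exact h0

/-- Let A be a finite abelian 2-group and t an automorphism of A whose order is a power of 2. If every element of A fixed by t² is fixed by t, then t fixes every element of A. -/
theorem result {A : Type*} [CommGroup A] [Finite A]
    (hA : IsPGroup 2 A) (t : MulAut A) (ht : ∃ k : ℕ, orderOf t = 2 ^ k) (hC : ∀ a : A, t (t a) = a → t a = a) :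
    ∀ a : A, t a = a := by
  by_contra hne
  push Not at hne
  obtain ⟨a₀, ha₀⟩ := hne
  obtain ⟨k, hk⟩ := ht
  obtain ⟨m, hm⟩ := (IsPGroup.iff_card).mp hA
  -- the additive endomorphism
  let T : AddMonoid.End (Additive A) := MonoidHom.toAdditive t.toMonoidHom
  have hTapp : ∀ x : Additive A, T x = Additive.ofMul (t (Additive.toMul x)) := fun x => rfl
  have hTpow : ∀ n : ℕ, ∀ x : Additive A, (T ^ n) x = Additive.ofMul ((t ^ n) (Additive.toMul x)) := by
    intro n
    induction n with
    | zero => intro x; simp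
    | succ n ih =>
      intro x
      rw [pow_succ, AddMonoid.End.coe_mul, Function.comp_apply, ih, hTapp, pow_succ, MulAut.mul_apply]
      rfl
  have hT : T ^ (2 ^ k) = 1 := by
    ext x
    rw [hTpow, ← hk, pow_orderOf_eq_one]
    rfl
  have hM : ∀ x : Additive A, (2 ^ m : ℕ) • x = 0 := by
    intro x
    have : (Additive.toMul x) ^ (2 ^ m) = 1 := by
      rw [← hm]; exact pow_card_eq_one'
    exact this
  have hnil := nilp T k m hT hM
  have hD0 : (T - 1) (Additive.ofMul a₀) ≠ 0 := by
    intro h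
    apply ha₀
    have h1 : T (Additive.ofMul a₀) = Additive.ofMul a₀ := by
      have : (T - 1) (Additive.ofMul a₀) = T (Additive.ofMul a₀) - Additive.ofMul a₀ := rfl
      rw [this] at h
      exact sub_eq_zero.mp h
    exact h1
  obtain ⟨a', ha'1, ha'2⟩ := exists_second_fixed (T - 1) (2 ^ k * m) (Additive.ofMul a₀)
    (by rw [hnil]; rfl) hD0
  -- back to the multiplicative world
  set a : A := Additive.toMul a' with ha
  set b : A := t a / a with hb
  have hb1 : b ≠ 1 := by
    intro h
    apply ha'1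
    have : (T - 1) a' = T a' - a' := rfl
    rw [this, sub_eq_zero]
    have h2 : t a = a := div_eq_one.mp h
    exact h2
  have htb : t b = b := by
    have h1 : (T - 1) ((T - 1) a') = T ((T - 1) a') - (T - 1) a' := rfl
    rw [h1, sub_eq_zero] at ha'2
    have h2 : (T - 1) a' = Additive.ofMul b := rfl
    rw [h2] at ha'2
    exact ha'2
  -- order of b
  obtain ⟨e, he⟩ : ∃ e : ℕ, orderOf b = 2 ^ e := by
    obtain ⟨j, hj⟩ := hA b
    exact (Nat.dvd_prime_pow Nat.prime_two).mp (orderOf_dvd_of_pow_eq_one hj) |>.imp (fun _ h => h.2)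
  have he1 : 1 ≤ e := by
    rcases Nat.eq_zero_or_pos e with h | h
    · exfalso
      rw [h, pow_zero] at he
      exact hb1 (orderOf_eq_one_iff.mp he)
    · exact h
  set c : A := b ^ (2 ^ (e - 1)) with hc
  have hc1 : c ≠ 1 := by
    apply pow_ne_one_of_lt_orderOf (by positivity)
    rw [he]
    exact Nat.pow_lt_pow_right (by norm_num) (by omega)
  have hc2 : c * c = 1 := by
    rw [hc, ← pow_add, ← two_mul, ← pow_succ']
    have : e - 1 + 1 = e := by omega
    rw [this, ← he, pow_orderOf_eq_one]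
  have htc : t c = c := by
    rw [hc, map_pow, htb]
  set a2 : A := a ^ (2 ^ (e - 1)) with ha2
  have hta2 : t a2 = c * a2 := by
    have h1 : t a = b * a := by rw [hb]; simp
    rw [ha2, map_pow, h1, mul_pow]
  have h3 : t (t a2) = a2 := by
    rw [hta2, map_mul, htc, hta2, ← mul_assoc, hc2, one_mul]
  have h4 := hC a2 h3
  rw [hta2] at h4
  exact hc1 (mul_eq_right.mp h4)

end Cfsg.Agent.S1780
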