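import Cfsg.Statements.S1781
import Cfsg.Agent.S1780
import Mathlib
-- import your own Cfsg.Agent.* helpers here

set_option autoImplicit false
open Cfsg
open scoped commutatorElement

namespace Cfsg.Agent.S1781

/-- `S1780` for a group with the mixin `IsMulCommutative`. -/
theorem aut_trivial {H : Type*} [Group H] [Finite H] [IsMulCommutative H]
    (hH : IsPGroup 2 H) (t : MulAut H) (ht : ∃ k : ℕ, orderOf t = 2 ^ k)
    (hC : ∀ a : H, t (t a) = a → t a = a) : ∀ a : H, t a = a := by
  open scoped IsMulCommutative in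
  exact Cfsg.Agent.S1780.result hH t ht hC

/-- Lemma K: an element `d` of 2-power order normalizing an abelian 2-subgroup `B`, such that every
element of `B` centralized by `d²` is centralized by `d`, centralizes `B`. -/
theorem centralizes_of_sq {G : Type*} [Group G] [Finite G] (B : Subgroup G) [IsMulCommutative B]
    (hB : IsPGroup 2 B) (d : G) (h1 : ∀ b ∈ B, d * b * d⁻¹ ∈ B) (h2 : ∀ b ∈ B, d⁻¹ * b * d ∈ B)
    (hd : ∃ k : ℕ, d ^ (2 ^ k) = 1)
    (hC : ∀ b ∈ B, d * d * b = b * (d * d) → d * b = b * d) : ∀ b ∈ B, d * b = b * d := by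
  let t : MulAut B :=
    { toFun := fun b => ⟨d * b * d⁻¹, h1 b b.2⟩
      invFun := fun b => ⟨d⁻¹ * b * d, h2 b b.2⟩
      left_inv := by intro b; apply Subtype.ext; simp [mul_assoc]
      right_inv := by intro b; apply Subtype.ext; simp [mul_assoc]
      map_mul' := by intro x y; apply Subtype.ext; simp [mul_assoc] }
  have htapp : ∀ b : B, ((t b : B) : G) = d * b * d⁻¹ := fun b => rfl
  have htpow : ∀ n : ℕ, ∀ b : B, (((t ^ n) b : B) : G) = d ^ n * b * (d ^ n)⁻¹ := by
    intro n
    induction n with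
    | zero => intro b; simp
    | succ n ih =>
      intro b
      rw [pow_succ, MulAut.mul_apply, ih, htapp, pow_succ]
      group
  obtain ⟨k, hk⟩ := hd
  have htk : t ^ (2 ^ k) = 1 := by
    ext b
    rw [htpow, hk]
    simp
  have hord : ∃ j : ℕ, orderOf t = 2 ^ j := by
    obtain ⟨j, _, hj⟩ := (Nat.dvd_prime_pow Nat.prime_two).mp (orderOf_dvd_of_pow_eq_one htk)
    exact ⟨j, hj⟩
  have key := aut_trivial hB t hord (by
    intro b hb
    have hb' : d * (d * (b : G) * d⁻¹) * d⁻¹ = b := by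
      have := congrArg Subtype.val hb
      rw [htapp, htapp] at this
      exact this
    have h3 : d * d * (b : G) = b * (d * d) := by
      calc d * d * (b : G) = (d * (d * (b : G) * d⁻¹) * d⁻¹) * (d * d) := by group
        _ = b * (d * d) := by rw [hb']
    have h4 := hC b b.2 h3
    apply Subtype.ext
    rw [htapp, h4]
    group)
  intro b hb
  have := congrArg Subtype.val (key ⟨b, hb⟩)
  rw [htapp] at this
  calc d * b = (d * b * d⁻¹) * d := by group
    _ = b * d := by rw [this]

/-- Conjugation by `y` maps `X` to itself as soon as a nontrivial element of `X` commutes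
with `y` (`X` a TI-subgroup). -/
theorem conj_eq_of_commute {G : Type*} [Group G] (X : Subgroup G)
    (hti : ∀ h : G, X.map (MulAut.conj h).toMonoidHom = X ∨ X.map (MulAut.conj h).toMonoidHom ⊓ X = ⊥)
    (y x : G) (hx : x ∈ X) (hx1 : x ≠ 1) (hxy : x * y = y * x) :
    X.map (MulAut.conj y).toMonoidHom = X := by
  rcases hti y with h | h
  · exact h
  · exfalso
    have h1 : x ∈ X.map (MulAut.conj y).toMonoidHom ⊓ X := by
      refine ⟨⟨x, hx, ?_⟩, hx⟩
      simp only [MulEquiv.coe_toMonoidHom, MulAut.conj_apply]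
      rw [← hxy]; group
    rw [h] at h1
    exact hx1 (Subgroup.mem_bot.mp h1)

/-- Lemma S. -/
theorem normalizes_of_sq {G : Type*} [Group G] [Finite G] (X Y : Subgroup G) [IsMulCommutative Y]
    (hXY : X ⊓ Y = ⊥) (hY : IsPGroup 2 Y)
    (hti : ∀ h : G, X.map (MulAut.conj h).toMonoidHom = X ∨ X.map (MulAut.conj h).toMonoidHom ⊓ X = ⊥)
    (d : G) (hdX : d ∈ X) (hd2 : d * d ≠ 1) (hd : ∃ k : ℕ, d ^ (2 ^ k) = 1)
    (hdN : d ∈ Subgroup.normalizer (Y : Set G)) :
    ∀ y ∈ Y, X.map (MulAut.conj y).toMonoidHom = X := by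
  have hd1 : d ≠ 1 := by
    intro h; apply hd2; rw [h, mul_one]
  have h1 : ∀ b ∈ Y, d * b * d⁻¹ ∈ Y := fun b hb => (Subgroup.mem_normalizer_iff.mp hdN b).mp hb
  have h2 : ∀ b ∈ Y, d⁻¹ * b * d ∈ Y := by
    intro b hb
    have := (Subgroup.mem_normalizer_iff.mp (Subgroup.inv_mem _ hdN) b).mp hb
    simpa using this
  have hcent : ∀ y ∈ Y, d * y = y * d := by
    apply centralizes_of_sq Y hY d h1 h2 hd
    intro y hy hyd
    -- d² commutes with y, so y normalizes X
    have hXy : X.map (MulAut.conj y).toMonoidHom = X :=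
      conj_eq_of_commute X hti y (d * d) (X.mul_mem hdX hdX) hd2 hyd
    -- then [d, y] ∈ X ⊓ Y
    have h3 : y * d⁻¹ * y⁻¹ ∈ X := by
      rw [← hXy]
      exact ⟨d⁻¹, X.inv_mem hdX, by simp [MulAut.conj_apply]⟩
    have h4 : d * y * d⁻¹ * y⁻¹ ∈ X ⊓ Y := by
      refine ⟨?_, Y.mul_mem (h1 y hy) (Y.inv_mem hy)⟩
      have e : d * y * d⁻¹ * y⁻¹ = d * (y * d⁻¹ * y⁻¹) := by group
      rw [e]
      exact X.mul_mem hdX h3
    rw [hXY] at h4
    have h5 : d * y * d⁻¹ * y⁻¹ = 1 := Subgroup.mem_bot.mp h4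
    calc d * y = (d * y * d⁻¹ * y⁻¹) * (y * d) := by group
      _ = y * d := by rw [h5, one_mul]
  intro y hy
  exact conj_eq_of_commute X hti y d hdX hd1 (hcent y hy)

/-- A conjugate of a TI-subgroup is a TI-subgroup. -/
theorem ti_conj {G : Type*} [Group G] (A : Subgroup G)
    (hti : ∀ h : G, A.map (MulAut.conj h).toMonoidHom = A ∨ A.map (MulAut.conj h).toMonoidHom ⊓ A = ⊥)
    (g : G) : ∀ h : G, (A.map (MulAut.conj g).toMonoidHom).map (MulAut.conj h).toMonoidHom =
        A.map (MulAut.conj g).toMonoidHom ∨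
      (A.map (MulAut.conj g).toMonoidHom).map (MulAut.conj h).toMonoidHom ⊓
        A.map (MulAut.conj g).toMonoidHom = ⊥ := by
  intro h
  have e : (A.map (MulAut.conj g).toMonoidHom).map (MulAut.conj h).toMonoidHom =
      (A.map (MulAut.conj (g⁻¹ * h * g)).toMonoidHom).map (MulAut.conj g).toMonoidHom := by
    rw [Subgroup.map_map, Subgroup.map_map]
    congr 1
    ext x
    simp only [MonoidHom.coe_comp, MulEquiv.coe_toMonoidHom, Function.comp_apply, MulAut.conj_apply]
    group
  rcases hti (g⁻¹ * h * g) with h1 | h1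
  · left
    rw [e, h1]
  · right
    rw [e, ← Subgroup.map_inf _ _ _ (MulAut.conj g).injective, h1, Subgroup.map_bot]

/-- Let A be an abelian 2-subgroup of the finite group G such that every conjugate of A equals A or meets A trivially, and let g ∈ G with g A g⁻¹ ≠ A. Then either the subgroup of those elements of A that normalize g A g⁻¹ is an elementary abelian 2-group, or A and g A g⁻¹ commute elementwise. -/
theorem result {G : Type*} [Group G] [Finite G] (A : Subgroup G)
    (hA2 : IsPGroup 2 ↥A) (hAa : IsMulCommutative ↥A)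
    (hti : ∀ h : G, A.map (MulAut.conj h).toMonoidHom = A ∨ A.map (MulAut.conj h).toMonoidHom ⊓ A = ⊥)
    (g : G) (hg : A.map (MulAut.conj g).toMonoidHom ≠ A) :
    Cfsg.IsElementaryAbelian 2 (A ⊓ Subgroup.normalizer ((A.map (MulAut.conj g).toMonoidHom : Subgroup G) : Set G)) ∨
      ⁅A, A.map (MulAut.conj g).toMonoidHom⁆ = ⊥ := by
  set B : Subgroup G := A.map (MulAut.conj g).toMonoidHom with hB
  have hBA : B ⊓ A = ⊥ := by
    rcases hti g with h | h
    · exact absurd h hg
    · exact h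
  have hAB : A ⊓ B = ⊥ := by rw [inf_comm]; exact hBA
  by_cases hel : ∀ a ∈ A ⊓ Subgroup.normalizer (B : Set G), a ^ 2 = 1
  · left
    refine ⟨⟨⟨?_⟩⟩, hel⟩
    rintro ⟨a, ha⟩ ⟨b, hb⟩
    apply Subtype.ext
    have h := congrArg Subtype.val (hAa.is_comm.comm ⟨a, ha.1⟩ ⟨b, hb.1⟩)
    exact h
  · right
    push Not at hel
    obtain ⟨d, hdD, hd2⟩ := hel
    have hd2' : d * d ≠ 1 := by rwa [pow_two] at hd2
    have hBcomm : IsMulCommutative B := by
      refine ⟨⟨?_⟩⟩
      rintro ⟨x, hx⟩ ⟨y, hy⟩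
      obtain ⟨x', hx', rfl⟩ := hx
      obtain ⟨y', hy', rfl⟩ := hy
      apply Subtype.ext
      have := congrArg Subtype.val (hAa.is_comm.comm ⟨x', hx'⟩ ⟨y', hy'⟩)
      change (MulAut.conj g) x' * (MulAut.conj g) y' = (MulAut.conj g) y' * (MulAut.conj g) x'
      rw [← map_mul, ← map_mul]
      exact congrArg _ this
    have hB2 : IsPGroup 2 B := hA2.map (MulAut.conj g).toMonoidHom
    have hpowA : ∀ x ∈ A, ∃ k : ℕ, x ^ (2 ^ k) = 1 := by
      intro x hx
      obtain ⟨k, hk⟩ := hA2 ⟨x, hx⟩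
      exact ⟨k, by simpa using congrArg Subtype.val hk⟩
    -- B normalizes A
    have hBN : ∀ y ∈ B, A.map (MulAut.conj y).toMonoidHom = A :=
      normalizes_of_sq A B hAB hB2 hti d hdD.1 hd2' (hpowA d hdD.1) hdD.2
    -- the conjugate element
    set d' : G := g * d * g⁻¹ with hd'
    have hd'B : d' ∈ B := ⟨d, hdD.1, by simp [MulAut.conj_apply, hd']⟩
    have hd'2 : d' * d' ≠ 1 := by
      intro h
      apply hd2'
      have e : d' * d' = g * (d * d) * g⁻¹ := by rw [hd']; group
      rw [e] at h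
      have : d * d = g⁻¹ * (g * (d * d) * g⁻¹) * g := by group
      rw [this, h]; group
    have hd'pow : ∃ k : ℕ, d' ^ (2 ^ k) = 1 := by
      obtain ⟨k, hk⟩ := hpowA d hdD.1
      refine ⟨k, ?_⟩
      have e : d' ^ (2 ^ k) = g * d ^ (2 ^ k) * g⁻¹ := by
        rw [hd', conj_pow]
      rw [e, hk]; group
    have hd'N : d' ∈ Subgroup.normalizer (A : Set G) := by
      rw [Subgroup.mem_normalizer_iff]
      intro x
      have h1 := hBN d' hd'B
      constructor
      · intro hx
        rw [← h1]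
        exact ⟨x, hx, by simp [MulAut.conj_apply]⟩
      · intro hx
        rw [← h1] at hx
        obtain ⟨x', hx', hxx⟩ := hx
        simp only [MulEquiv.coe_toMonoidHom, MulAut.conj_apply] at hxx
        have : x' = x := by
          have := mul_left_cancel (mul_right_cancel hxx)
          exact this
        rw [← this]; exact hx'
    have hAN : ∀ a ∈ A, B.map (MulAut.conj a).toMonoidHom = B :=
      normalizes_of_sq B A hBA hA2 (ti_conj A hti g) d' hd'B hd'2 hd'pow hd'N
    rw [eq_bot_iff, ← hAB, Subgroup.commutator_le]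
    intro a ha b hb
    refine ⟨?_, ?_⟩
    · have h1 : b * a⁻¹ * b⁻¹ ∈ A := by
        rw [← hBN b hb]
        exact ⟨a⁻¹, A.inv_mem ha, by simp [MulAut.conj_apply]⟩
      have h2 : ⁅a, b⁆ = a * (b * a⁻¹ * b⁻¹) := by
        rw [commutatorElement_def]; group
      rw [h2]
      exact A.mul_mem ha h1
    · have h2 : a * b * a⁻¹ ∈ B := by
        rw [← hAN a ha]
        exact ⟨b, hb, by simp [MulAut.conj_apply]⟩
      rw [commutatorElement_def]
      exact B.mul_mem h2 (B.inv_mem hb)

end Cfsg.Agent.S1781
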