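import Cfsg.Statements.S1782
import Mathlib
import Cfsg.Agent.Helper14.Frattini

set_option autoImplicit false
open Cfsg

namespace Cfsg.Agent.S1782

/-- A proper subgroup `A` of a subgroup `H` of a finite 2-group lies in a proper subgroup `M` of
`H` normalized by `H`. -/
theorem exists_normal_proper {S : Type*} [Group S] [Finite S] (hS : IsPGroup 2 S)
    (A H : Subgroup S) (hAH : A ≤ H) (hne : A ≠ H) :
    ∃ M : Subgroup S, A ≤ M ∧ M ≤ H ∧ (∀ h ∈ H, ∀ x ∈ M, h * x * h⁻¹ ∈ M) ∧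
      Nat.card M < Nat.card H := by
  have : Fact (Nat.Prime 2) := ⟨Nat.prime_two⟩
  have hH2 : IsPGroup 2 H := hS.to_subgroup H
  have hnil : Group.IsNilpotent H := hH2.isNilpotent
  have hnc : NormalizerCondition H := Group.normalizerCondition_of_isNilpotent
  have hlt : A.subgroupOf H ≠ ⊤ := by
    intro h
    rw [Subgroup.subgroupOf_eq_top] at h
    exact hne (le_antisymm hAH h)
  obtain ⟨M', hM'co, hAM'⟩ := (eq_top_or_exists_le_coatom (A.subgroupOf H)).resolve_left hlt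
  have hM'n : M'.Normal := Subgroup.NormalizerCondition.normal_of_coatom _ hnc hM'co
  refine ⟨M'.map H.subtype, ?_, ?_, ?_, ?_⟩
  · intro x hx
    exact ⟨⟨x, hAH hx⟩, hAM' (by rw [Subgroup.mem_subgroupOf]; exact hx), rfl⟩
  · rintro _ ⟨m, _, rfl⟩
    exact m.2
  · rintro h hh _ ⟨m, hm, rfl⟩
    exact ⟨⟨h, hh⟩ * m * ⟨h, hh⟩⁻¹, hM'n.conj_mem m hm ⟨h, hh⟩, rfl⟩
  · rw [Subgroup.card_map_of_injective H.subtype_injective]
    by_contra hge
    push Not at hge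
    exact hM'co.1 (Subgroup.eq_top_of_le_card M' hge)

/-- An element of 2-power order different from 1 has a power that is an involution. -/
theorem exists_pow_involution {S : Type*} [Group S] :
    ∀ k : ℕ, ∀ x : S, x ^ (2 ^ k) = 1 → x ≠ 1 → ∃ n : ℕ, x ^ n ≠ 1 ∧ x ^ n * x ^ n = 1 := by
  intro k
  induction k with
  | zero =>
    intro x hx h1
    simp at hx
    exact absurd hx h1
  | succ k ih =>
    intro x hx h1
    by_cases h2 : x * x = 1
    · exact ⟨1, by simpa using h1, by simpa using h2⟩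
    · have : (x * x) ^ (2 ^ k) = 1 := by
        rw [← pow_two, ← pow_mul, ← pow_succ']
        exact hx
      obtain ⟨n, hn1, hn2⟩ := ih (x * x) this h2
      refine ⟨2 * n, ?_, ?_⟩
      · rwa [pow_mul, pow_two]
      · rw [pow_mul, pow_two]
        exact hn2

/-- Descend to a power outside the subgroup `N` whose square lies in `N`. -/
theorem exists_sq_mem {S : Type*} [Group S] (N : Subgroup S) :
    ∀ k : ℕ, ∀ a : S, a ^ (2 ^ k) = 1 → a ∉ N → ∃ n : ℕ, a ^ n ∉ N ∧ a ^ n * a ^ n ∈ N := by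
  intro k
  induction k with
  | zero =>
    intro a ha h1
    simp at ha
    exact absurd (ha ▸ N.one_mem) h1
  | succ k ih =>
    intro a ha h1
    by_cases h2 : a * a ∈ N
    · exact ⟨1, by simpa using h1, by simpa using h2⟩
    · have : (a * a) ^ (2 ^ k) = 1 := by
        rw [← pow_two, ← pow_mul, ← pow_succ']
        exact ha
      obtain ⟨n, hn1, hn2⟩ := ih (a * a) this h2
      refine ⟨2 * n, ?_, ?_⟩
      · rwa [pow_mul, pow_two]
      · rw [pow_mul, pow_two]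
        exact hn2

theorem lemmaX {S : Type*} [Group S] (A B : Subgroup S)
    (τ a b : S) (hτA : τ ∈ A) (hτN : τ ∈ Subgroup.normalizer (B : Set S)) (haA : a ∈ A)
    (hbB : b ∈ B) (hcomm : τ * a = a * τ)
    (hTIa : ∀ x ∈ B, a * x * a⁻¹ ∈ B → x = 1)
    (hTIb : ∀ x ∈ A, b * x * b⁻¹ ∈ A → x = 1)
    (hCb : ∀ x ∈ A, ∀ y ∈ A, x * (b * y * b⁻¹) = (b * y * b⁻¹) * x) : τ = 1 := by
  have huB : τ⁻¹ * (b * τ * b⁻¹) ∈ B := by
    have h1 : τ⁻¹ * b * τ⁻¹⁻¹ ∈ B :=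
      (Subgroup.mem_normalizer_iff.mp (Subgroup.inv_mem _ hτN) b).mp hbB
    have : τ⁻¹ * (b * τ * b⁻¹) = (τ⁻¹ * b * τ⁻¹⁻¹) * b⁻¹ := by group
    rw [this]
    exact B.mul_mem h1 (B.inv_mem hbB)
  have hau : a * (τ⁻¹ * (b * τ * b⁻¹)) * a⁻¹ = τ⁻¹ * (b * τ * b⁻¹) := by
    have h1 := hCb a haA τ hτA
    have h2 : a * τ⁻¹ = τ⁻¹ * a := by
      calc a * τ⁻¹ = τ⁻¹ * (τ * a) * τ⁻¹ := by group
        _ = τ⁻¹ * (a * τ) * τ⁻¹ := by rw [hcomm]
        _ = τ⁻¹ * a := by group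
    calc a * (τ⁻¹ * (b * τ * b⁻¹)) * a⁻¹ = (a * τ⁻¹) * (b * τ * b⁻¹) * a⁻¹ := by group
      _ = (τ⁻¹ * a) * (b * τ * b⁻¹) * a⁻¹ := by rw [h2]
      _ = τ⁻¹ * (a * (b * τ * b⁻¹)) * a⁻¹ := by group
      _ = τ⁻¹ * ((b * τ * b⁻¹) * a) * a⁻¹ := by rw [h1]
      _ = τ⁻¹ * (b * τ * b⁻¹) := by group
  have hu1 : τ⁻¹ * (b * τ * b⁻¹) = 1 := hTIa _ huB (by rw [hau]; exact huB)
  have hbτ : b * τ * b⁻¹ = τ := by
    calc b * τ * b⁻¹ = τ * (τ⁻¹ * (b * τ * b⁻¹)) := by group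
      _ = τ := by rw [hu1, mul_one]
  exact hTIb τ hτA (by rw [hbτ]; exact hτA)

theorem sq_eq_one {S : Type*} [Group S] (A B : Subgroup S) (a b : S) (haA : a ∈ A) (hbB : b ∈ B)
    (ha2 : a * a ∈ Subgroup.normalizer (B : Set S))
    (hTIa : ∀ x ∈ B, a * x * a⁻¹ ∈ B → x = 1)
    (hCa : ∀ x ∈ B, ∀ y ∈ B, x * (a * y * a⁻¹) = (a * y * a⁻¹) * x)
    (hCb' : ∀ x ∈ A, ∀ y ∈ A, x * (b⁻¹ * y * b⁻¹⁻¹) = (b⁻¹ * y * b⁻¹⁻¹) * x) : b * b = 1 := by
  have h1 : a * (b⁻¹ * a * b) = (b⁻¹ * a * b) * a := by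
    have := hCb' a haA a haA
    simpa using this
  have hw : a * (b⁻¹ * (a * b * a⁻¹)) * a⁻¹ = b⁻¹ * (a * b * a⁻¹) := by
    calc a * (b⁻¹ * (a * b * a⁻¹)) * a⁻¹ = (a * (b⁻¹ * a * b)) * a⁻¹ * a⁻¹ := by group
      _ = ((b⁻¹ * a * b) * a) * a⁻¹ * a⁻¹ := by rw [h1]
      _ = b⁻¹ * (a * b * a⁻¹) := by group
  have hγ : (a * a) * b * (a * a)⁻¹ ∈ B := (Subgroup.mem_normalizer_iff.mp ha2 b).mp hbB
  have h2 : (a * a) * b * (a * a)⁻¹ = (a * b * a⁻¹) * b⁻¹ * (a * b * a⁻¹) := by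
    calc (a * a) * b * (a * a)⁻¹ = (a * b * a⁻¹) * (a * (b⁻¹ * (a * b * a⁻¹)) * a⁻¹) := by group
      _ = (a * b * a⁻¹) * (b⁻¹ * (a * b * a⁻¹)) := by rw [hw]
      _ = (a * b * a⁻¹) * b⁻¹ * (a * b * a⁻¹) := by group
  have h3 : b⁻¹ * (a * b * a⁻¹) = (a * b * a⁻¹) * b⁻¹ := hCa b⁻¹ (B.inv_mem hbB) b hbB
  have h4 : a * (b * b) * a⁻¹ = ((a * a) * b * (a * a)⁻¹) * b := by
    rw [h2]
    calc a * (b * b) * a⁻¹ = (a * b * a⁻¹) * ((a * b * a⁻¹) * b⁻¹) * b := by group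
      _ = (a * b * a⁻¹) * (b⁻¹ * (a * b * a⁻¹)) * b := by rw [h3]
      _ = (a * b * a⁻¹) * b⁻¹ * (a * b * a⁻¹) * b := by group
  exact hTIa (b * b) (B.mul_mem hbB hbB) (by rw [h4]; exact B.mul_mem hγ hbB)

/-- If `A` normalizes `B` then `B` normalizes `A`. -/
theorem normalizes_symm {S : Type*} [Group S] [Finite S] (A B : Subgroup S)
    (hcard : Nat.card A = Nat.card B)
    (hAN : ∀ a ∈ A, a ∈ Subgroup.normalizer (B : Set S))
    (hTI : ∀ b ∈ B, b ∉ Subgroup.normalizer (A : Set S) → ∀ x ∈ A, b * x * b⁻¹ ∈ A → x = 1) :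
    ∀ b ∈ B, b ∈ Subgroup.normalizer (A : Set S) := by
  intro b hb
  by_contra hbN
  have hTIb := hTI b hb hbN
  let φ : A → B := fun x => ⟨(x : S)⁻¹ * b * x * b⁻¹, by
    have h1 : (x : S)⁻¹ * b * (x : S)⁻¹⁻¹ ∈ B :=
      (Subgroup.mem_normalizer_iff.mp (Subgroup.inv_mem _ (hAN x x.2)) b).mp hb
    have : (x : S)⁻¹ * b * x * b⁻¹ = ((x : S)⁻¹ * b * (x : S)⁻¹⁻¹) * b⁻¹ := by group
    rw [this]
    exact B.mul_mem h1 (B.inv_mem hb)⟩
  have hinj : Function.Injective φ := by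
    intro x y hxy
    have h : (x : S)⁻¹ * b * x * b⁻¹ = (y : S)⁻¹ * b * y * b⁻¹ := congrArg Subtype.val hxy
    have h2 : b * ((y : S) * (x : S)⁻¹) * b⁻¹ = (y : S) * (x : S)⁻¹ := by
      calc b * ((y : S) * (x : S)⁻¹) * b⁻¹
          = y * ((y : S)⁻¹ * b * y * b⁻¹) * (b * (x : S)⁻¹ * b⁻¹) := by group
        _ = y * ((x : S)⁻¹ * b * x * b⁻¹) * (b * (x : S)⁻¹ * b⁻¹) := by rw [h]
        _ = (y : S) * (x : S)⁻¹ := by group
    have h3 := hTIb ((y : S) * (x : S)⁻¹) (A.mul_mem y.2 (A.inv_mem x.2))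
      (by rw [h2]; exact A.mul_mem y.2 (A.inv_mem x.2))
    apply Subtype.ext
    have : (y : S) = x := by rw [← mul_inv_eq_one]; exact h3
    exact this.symm
  have hbij : Function.Bijective φ := hinj.bijective_of_nat_card_le (le_of_eq hcard.symm)
  obtain ⟨x, hx⟩ := hbij.2 ⟨b⁻¹, B.inv_mem hb⟩
  have h : (x : S)⁻¹ * b * x * b⁻¹ = b⁻¹ := congrArg Subtype.val hx
  have hb1 : b = 1 := by
    have h5 : (x : S)⁻¹ * b * x = 1 := by
      calc (x : S)⁻¹ * b * x = ((x : S)⁻¹ * b * x * b⁻¹) * b := by group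
        _ = b⁻¹ * b := by rw [h]
        _ = 1 := by group
    calc b = x * ((x : S)⁻¹ * b * x) * (x : S)⁻¹ := by group
      _ = 1 := by rw [h5]; group
  apply hbN
  rw [hb1]
  exact Subgroup.one_mem _

theorem core {S : Type*} [Group S] [Finite S] (hS : ∀ x : S, ∃ k : ℕ, x ^ (2 ^ k) = 1)
    (A B : Subgroup S)
    (hAB : ∀ x, x ∈ A → x ∈ B → x = 1) (hcard : Nat.card A = Nat.card B)
    (hA1 : ∀ b ∈ B, b ∉ Subgroup.normalizer (A : Set S) →
      (∀ x ∈ A, b * x * b⁻¹ ∈ A → x = 1) ∧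
      (∀ x ∈ A, ∀ y ∈ A, x * (b * y * b⁻¹) = (b * y * b⁻¹) * x))
    (hB1 : ∀ a ∈ A, a ∉ Subgroup.normalizer (B : Set S) →
      (∀ x ∈ B, a * x * a⁻¹ ∈ B → x = 1) ∧
      (∀ x ∈ B, ∀ y ∈ B, x * (a * y * a⁻¹) = (a * y * a⁻¹) * x))
    (hΦB : ∃ x ∈ B, x * x ≠ 1) : ∀ a ∈ A, ∀ b ∈ B, a * b = b * a := by
  by_contra hcon
  have hnA : ∃ a ∈ A, a ∉ Subgroup.normalizer (B : Set S) := by
    by_contra h
    push Not at h
    have h' := normalizes_symm A B hcard h (fun b hb hbN => (hA1 b hb hbN).1)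
    apply hcon
    intro a ha b hb
    have h1 : a * b * a⁻¹ * b⁻¹ ∈ B :=
      B.mul_mem ((Subgroup.mem_normalizer_iff.mp (h a ha) b).mp hb) (B.inv_mem hb)
    have h2 : a * b * a⁻¹ * b⁻¹ ∈ A := by
      have := (Subgroup.mem_normalizer_iff.mp (h' b hb) a⁻¹).mp (A.inv_mem ha)
      have e : a * b * a⁻¹ * b⁻¹ = a * (b * a⁻¹ * b⁻¹) := by group
      rw [e]
      exact A.mul_mem ha this
    have h3 := hAB _ h2 h1
    calc a * b = (a * b * a⁻¹ * b⁻¹) * (b * a) := by group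
      _ = b * a := by rw [h3, one_mul]
  have hnB : ∃ b ∈ B, b ∉ Subgroup.normalizer (A : Set S) := by
    by_contra h
    push Not at h
    obtain ⟨a, ha, haN⟩ := hnA
    exact haN (normalizes_symm B A hcard.symm h (fun a ha haN => (hB1 a ha haN).1) a ha)
  obtain ⟨a₀, ha₀, ha₀N⟩ := hnA
  obtain ⟨b₀, hb₀, hb₀N⟩ := hnB
  obtain ⟨k, hk⟩ := hS a₀
  obtain ⟨n, hn1, hn2⟩ := exists_sq_mem (Subgroup.normalizer (B : Set S)) k a₀ hk ha₀N
  have haA : a₀ ^ n ∈ A := A.pow_mem ha₀ n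
  obtain ⟨hTIa, hCa⟩ := hB1 _ haA hn1
  have hinv : ∀ b ∈ B, b ∉ Subgroup.normalizer (A : Set S) → b * b = 1 := by
    intro b hb hbN
    have hbN' : b⁻¹ ∉ Subgroup.normalizer (A : Set S) :=
      fun h => hbN (by simpa using Subgroup.inv_mem _ h)
    exact sq_eq_one A B (a₀ ^ n) b haA hb hn2 hTIa hCa (hA1 b⁻¹ (B.inv_mem hb) hbN').2
  obtain ⟨x, hxB, hx2⟩ := hΦB
  have hxN : x ∈ Subgroup.normalizer (A : Set S) := by
    by_contra h
    exact hx2 (hinv x hxB h)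
  have hxb : x * b₀ ∉ Subgroup.normalizer (A : Set S) := by
    intro h
    apply hb₀N
    have := Subgroup.mul_mem _ (Subgroup.inv_mem _ hxN) h
    simpa using this
  have h1 := hinv (x * b₀) (B.mul_mem hxB hb₀) hxb
  have h2 := hinv b₀ hb₀ hb₀N
  have hb₀i : b₀⁻¹ = b₀ := inv_eq_of_mul_eq_one_right h2
  have hconj : b₀ * x * b₀⁻¹ = x⁻¹ := by
    rw [hb₀i]
    calc b₀ * x * b₀ = x⁻¹ * ((x * b₀) * (x * b₀)) := by group
      _ = x⁻¹ := by rw [h1, mul_one]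
  have hx1 : x ≠ 1 := by
    rintro rfl
    simp at hx2
  obtain ⟨k', hk'⟩ := hS x
  obtain ⟨m, hm1, hm2⟩ := exists_pow_involution k' x hk' hx1
  have hτB : x ^ m ∈ B := B.pow_mem hxB m
  have hτN : x ^ m ∈ Subgroup.normalizer (A : Set S) := Subgroup.pow_mem _ hxN m
  have hτi : (x ^ m)⁻¹ = x ^ m := inv_eq_of_mul_eq_one_right hm2
  have hτc : x ^ m * b₀ = b₀ * x ^ m := by
    have : b₀ * x ^ m * b₀⁻¹ = x ^ m := by
      rw [← conj_pow, hconj, inv_pow, hτi]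
    calc x ^ m * b₀ = (b₀ * x ^ m * b₀⁻¹) * b₀ := by rw [this]
      _ = b₀ * x ^ m := by group
  obtain ⟨hTIb₀, hCb₀⟩ := hA1 b₀ hb₀ hb₀N
  obtain ⟨hTIa₀, hCa₀⟩ := hB1 a₀ ha₀ ha₀N
  exact hm1 (lemmaX B A (x ^ m) b₀ a₀ hτB hτN hb₀ ha₀ hτc hTIb₀ hTIa₀ hCa₀)

/-- Let S be a finite 2-group and Δ a set of subgroups of S closed under conjugation by S, all of the same order, each with nontrivial Frattini subgroup, and such that two distinct members of Δ meet trivially. Then any two distinct members of Δ commute elementwise. -/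
theorem result {S : Type*} [Group S] [Finite S] (hS : IsPGroup 2 S)
    (Δ : Set (Subgroup S)) (hinv : ∀ s : S, ∀ R ∈ Δ, R.map (MulAut.conj s).toMonoidHom ∈ Δ)
    (hΦ : ∀ R ∈ Δ, frattini ↥R ≠ ⊥) (hord : ∀ R ∈ Δ, ∀ T ∈ Δ, Nat.card ↥R = Nat.card ↥T)
    (hti : ∀ R ∈ Δ, ∀ T ∈ Δ, R = T ∨ R ⊓ T = ⊥) :
    ∀ R ∈ Δ, ∀ T ∈ Δ, R ≠ T → ⁅R, T⁆ = ⊥ := by
  have h2pow : ∀ x : S, ∃ k : ℕ, x ^ (2 ^ k) = 1 := fun x => hS x
  have hsq : ∀ R ∈ Δ, ∃ x ∈ R, x * x ≠ 1 := by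
    intro R hR
    by_contra h
    push Not at h
    apply hΦ R hR
    have : Fact (Nat.Prime 2) := ⟨Nat.prime_two⟩
    apply Cfsg.Agent.Helper14.frattini_eq_bot_of_exponent_p (p := 2)
    · intro a b
      have ha := h a a.2
      have hb := h b b.2
      have hab : (a : S) * b * (a * b) = 1 := h (a * b) (R.mul_mem a.2 b.2)
      apply Subtype.ext
      change (a : S) * b = b * a
      have hai : (a : S)⁻¹ = a := inv_eq_of_mul_eq_one_right ha
      have hbi : (b : S)⁻¹ = b := inv_eq_of_mul_eq_one_right hb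
      calc (a : S) * b = ((a : S) * b)⁻¹ := (inv_eq_of_mul_eq_one_right hab).symm
        _ = (b : S)⁻¹ * (a : S)⁻¹ := mul_inv_rev _ _
        _ = b * a := by rw [hbi, hai]
    · intro e
      apply Subtype.ext
      have := h e e.2
      simpa [pow_two] using this
  have key : ∀ n : ℕ, ∀ R ∈ Δ, ∀ T ∈ Δ, R ≠ T → Nat.card ↥(R ⊔ T) = n →
      ∀ x ∈ R, ∀ y ∈ T, x * y = y * x := by
    intro n
    induction n using Nat.strong_induction_on with
    | _ n ih =>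
      intro A hA B hB hne hn
      have step1 : ∀ (X Y : Subgroup S), X ∈ Δ → Y ∈ Δ → X ≠ Y → Nat.card ↥(X ⊔ Y) = n →
          ∀ b ∈ Y, b ∉ Subgroup.normalizer (X : Set S) →
            (∀ x ∈ X, b * x * b⁻¹ ∈ X → x = 1) ∧
            (∀ x ∈ X, ∀ y ∈ X, x * (b * y * b⁻¹) = (b * y * b⁻¹) * x) := by
        intro X Y hX hY hXY hcard b hb hbN
        obtain ⟨X', hX'def⟩ : ∃ X' : Subgroup S, X' = X.map (MulAut.conj b).toMonoidHom :=
          ⟨_, rfl⟩
        have hX'Δ : X' ∈ Δ := hX'def ▸ hinv b X hX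
        have hmem : ∀ g, b * g * b⁻¹ ∈ X' ↔ g ∈ X := by
          intro g
          rw [hX'def]
          constructor
          · rintro ⟨x, hx, hxg⟩
            have e : b * x * b⁻¹ = b * g * b⁻¹ := by simpa [MulAut.conj_apply] using hxg
            have : x = g := mul_left_cancel (mul_right_cancel e)
            rwa [← this]
          · intro hg
            exact ⟨g, hg, by simp [MulAut.conj_apply]⟩
        have hne' : X ≠ X' := by
          intro h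
          apply hbN
          rw [Subgroup.mem_normalizer_iff]
          intro g
          rw [← hmem g, ← h]
        have hTI : X ⊓ X' = ⊥ := by
          rcases hti X hX X' hX'Δ with h | h
          · exact absurd h hne'
          · exact h
        refine ⟨?_, ?_⟩
        · intro x hx hbx
          have h1 : b * x * b⁻¹ ∈ X ⊓ X' := ⟨hbx, (hmem x).mpr hx⟩
          rw [hTI, Subgroup.mem_bot] at h1
          calc x = b⁻¹ * (b * x * b⁻¹) * b := by group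
            _ = 1 := by rw [h1]; group
        · have hXne : X ≠ X ⊔ Y := by
            intro h
            have hYX : Y ≤ X := by rw [h]; exact le_sup_right
            exact hXY (Subgroup.eq_of_le_of_card_ge hYX (le_of_eq (hord X hX Y hY))).symm
          obtain ⟨M, hXM, hMH, hMn, hMcard⟩ := exists_normal_proper hS X (X ⊔ Y) le_sup_left hXne
          have hbH : b ∈ X ⊔ Y := (le_sup_right : Y ≤ X ⊔ Y) hb
          have hX'M : X' ≤ M := by
            rw [hX'def]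
            rintro _ ⟨x, hx, rfl⟩
            simpa [MulAut.conj_apply] using hMn b hbH x (hXM hx)
          have hlt : Nat.card ↥(X ⊔ X') < n := by
            rw [← hcard]
            exact lt_of_le_of_lt (Subgroup.card_le_of_le (sup_le hXM hX'M)) hMcard
          intro x hx y hy
          exact ih _ hlt X hX X' hX'Δ hne' rfl x hx (b * y * b⁻¹) ((hmem y).mpr hy)
      have hAB : ∀ x, x ∈ A → x ∈ B → x = 1 := by
        intro x hxA hxB
        rcases hti A hA B hB with h | h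
        · exact absurd h hne
        · have : x ∈ A ⊓ B := ⟨hxA, hxB⟩
          rwa [h, Subgroup.mem_bot] at this
      exact core h2pow A B hAB (hord A hA B hB) (step1 A B hA hB hne hn)
        (step1 B A hB hA hne.symm (by rw [sup_comm]; exact hn)) (hsq B hB)
  intro R hR T hT hne
  rw [Subgroup.commutator_eq_bot_iff_le_centralizer]
  intro x hx
  rw [Subgroup.mem_centralizer_iff]
  intro y hy
  exact (key _ R hR T hT hne rfl x hx y hy).symm

end Cfsg.Agent.S1782
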