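import Cfsg.Statements.S1785
import Cfsg.Agent.Helper9.ElemTwo

set_option autoImplicit false
open Cfsg

namespace Cfsg.Agent.S1785

open Cfsg.Agent.Helper9

/-- `C_E(A)` is not contained in `A` for `A` elementary abelian of order `8`. -/
theorem fix_not_le {X : Type*} [Group X] [Finite X] (E : Subgroup X) [E.Normal]
    (hE : Cfsg.IsElementaryAbelian 2 E) (hE32 : 32 ≤ Nat.card ↥E) (A : Subgroup X)
    (hA : Cfsg.IsElementaryAbelian 2 A) (hA8 : Nat.card ↥A = 8) :
    ¬ (E ⊓ Subgroup.centralizer (A : Set X)) ≤ A := by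
  intro hFA
  have hE' := Cfsg.Agent.Helper3.isElementaryAbelian_iff.1 hE
  obtain ⟨T, hT⟩ : ∃ T : Subgroup X, T = A ⊓ Subgroup.centralizer (E : Set X) := ⟨_, rfl⟩
  have hTA : T ≤ A := hT ▸ inf_le_left
  have hTE : T ≤ Subgroup.centralizer (E : Set X) := hT ▸ inf_le_right
  have hB := card_le_card_fix_pow E hE 8 A T hA8 hA hTA hTE
  have hFT : E ⊓ Subgroup.centralizer (A : Set X) ≤ T := by
    intro x hx
    rw [hT]
    refine Subgroup.mem_inf.2 ⟨hFA hx, ?_⟩
    rw [Subgroup.mem_centralizer_iff]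
    intro e he
    exact hE'.1 e he x (Subgroup.mem_inf.1 hx).1
  have hc := Subgroup.card_le_of_le hFT
  have hτk : T.relIndex A * Nat.card T = 8 := by
    rw [← hA8]
    exact relIndex_mul_card_of_le hTA
  obtain ⟨τ, hτ⟩ : ∃ τ, τ = Nat.card T := ⟨_, rfl⟩
  obtain ⟨k, hk⟩ : ∃ k, k = T.relIndex A := ⟨_, rfl⟩
  obtain ⟨c, hcdef⟩ : ∃ c, c = Nat.card ↥(E ⊓ Subgroup.centralizer (A : Set X)) := ⟨_, rfl⟩
  rw [← hk, ← hcdef] at hB
  rw [← hk, ← hτ] at hτk
  rw [← hcdef, ← hτ] at hc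
  have h32 : 32 ≤ τ ^ k := le_trans hE32 (le_trans hB (Nat.pow_le_pow_left hc k))
  have hτ8 : τ ≤ 8 := Nat.le_of_dvd (by norm_num) ⟨k, by rw [mul_comm]; exact hτk.symm⟩
  interval_cases τ
  · omega
  · simp at h32
  · have hk4 : k = 4 := by omega
    subst hk4
    norm_num at h32
  · omega
  · have hk2 : k = 2 := by omega
    subst hk2
    norm_num at h32
  · omega
  · omega
  · omega
  · have hk1 : k = 1 := by omega
    subst hk1
    norm_num at h32

/-- Progress step: from an `E₈` subgroup `A`, move to a commuting `E₈` subgroup lying in `E` or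
meeting `E` in a larger subgroup. -/
theorem step {X : Type*} [Group X] [Finite X] (E : Subgroup X) [E.Normal]
    (hE : Cfsg.IsElementaryAbelian 2 E) (hE32 : 32 ≤ Nat.card ↥E) (A : Subgroup X)
    (hA : Cfsg.IsElementaryAbelian 2 A) (hA8 : Nat.card ↥A = 8) :
    ∃ D : Subgroup X, Cfsg.IsElementaryAbelian 2 D ∧ Nat.card ↥D = 8 ∧ ⁅A, D⁆ = ⊥ ∧
      (D ≤ E ∨ Nat.card ↥(A ⊓ E) < Nat.card ↥(D ⊓ E)) := by
  haveI : Fact (Nat.Prime 2) := ⟨Nat.prime_two⟩
  have hA' := Cfsg.Agent.Helper3.isElementaryAbelian_iff.1 hA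
  obtain ⟨F, hF⟩ : ∃ F : Subgroup X, F = E ⊓ Subgroup.centralizer (A : Set X) := ⟨_, rfl⟩
  have hFA : ¬ F ≤ A := hF ▸ fix_not_le E hE hE32 A hA hA8
  have hFE : F ≤ E := hF ▸ inf_le_left
  have hFel : Cfsg.IsElementaryAbelian 2 F := Cfsg.Agent.Helper3.elemAb_mono hE hFE
  have hcommAF : ∀ a ∈ A, ∀ f ∈ F, a * f = f * a := by
    intro a ha f hf
    rw [hF] at hf
    exact Subgroup.mem_centralizer_iff.1 (Subgroup.mem_inf.1 hf).2 a ha
  have hUel : Cfsg.IsElementaryAbelian 2 (A ⊔ F) := Cfsg.Agent.Helper3.elemAb_sup hA hFel hcommAF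
  have hU' := Cfsg.Agent.Helper3.isElementaryAbelian_iff.1 hUel
  obtain ⟨G₁, hG₁⟩ : ∃ G₁ : Subgroup X, G₁ = (A ⊓ E) ⊔ F := ⟨_, rfl⟩
  have hG₁E : G₁ ≤ E := hG₁ ▸ sup_le inf_le_right hFE
  have hG₁U : G₁ ≤ A ⊔ F := hG₁ ▸ sup_le (inf_le_left.trans le_sup_left) le_sup_right
  have hG₁el : Cfsg.IsElementaryAbelian 2 G₁ := Cfsg.Agent.Helper3.elemAb_mono hE hG₁E
  have hAEG₁ : A ⊓ E ≤ G₁ := hG₁ ▸ le_sup_left
  have hlt : Nat.card ↥(A ⊓ E) < Nat.card G₁ := by
    by_contra hge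
    push Not at hge
    have heq : A ⊓ E = G₁ := Subgroup.eq_of_le_of_card_ge hAEG₁ hge
    apply hFA
    have : F ≤ G₁ := hG₁ ▸ le_sup_right
    rw [← heq] at this
    exact this.trans inf_le_left
  have hcomm_of_le : ∀ D : Subgroup X, D ≤ A ⊔ F → ⁅A, D⁆ = ⊥ := by
    intro D hD
    rw [Subgroup.commutator_eq_bot_iff_le_centralizer]
    intro a ha
    rw [Subgroup.mem_centralizer_iff]
    intro d hd
    exact hU'.1 d (hD hd) a (Subgroup.mem_sup_left ha)
  by_cases h8 : 8 ≤ Nat.card G₁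
  · obtain ⟨D, -, hDG₁, hDc⟩ := exists_between_card (⊥ : Subgroup X) G₁ bot_le hG₁el 0 3
      (by simp) (by norm_num) (by norm_num; exact h8)
    refine ⟨D, Cfsg.Agent.Helper3.elemAb_mono hG₁el hDG₁, by rw [hDc]; norm_num,
      hcomm_of_le D (hDG₁.trans hG₁U), Or.inl (hDG₁.trans hG₁E)⟩
  · push Not at h8
    obtain ⟨j, hj⟩ := IsPGroup.iff_card.1 (Cfsg.Agent.Helper3.elemAb_isPGroup hG₁el)
    have hj3 : j ≤ 3 := by
      by_contra h
      push Not at h
      have : 2 ^ 3 < 2 ^ j := Nat.pow_lt_pow_right (by norm_num) h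
      omega
    have hUc : 2 ^ 3 ≤ Nat.card ↥(A ⊔ F) := by
      have := Subgroup.card_le_of_le (le_sup_left : A ≤ A ⊔ F)
      rw [hA8] at this
      norm_num
      exact this
    obtain ⟨D, hG₁D, hDU, hDc⟩ := exists_between_card G₁ (A ⊔ F) hG₁U hUel j 3 hj hj3 hUc
    refine ⟨D, Cfsg.Agent.Helper3.elemAb_mono hUel hDU, by rw [hDc]; norm_num,
      hcomm_of_le D hDU, Or.inr ?_⟩
    exact lt_of_lt_of_le hlt (Subgroup.card_le_of_le (le_inf hG₁D hG₁E))

theorem result {X : Type*} [Group X] [Finite X]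
    (hX : IsPGroup 2 X) (E : Subgroup X) [E.Normal] (hE : Cfsg.IsElementaryAbelian 2 E) (hE32 : 32 ≤ Nat.card ↥E) :
    (∀ A B : Subgroup X, Cfsg.IsElementaryAbelian 2 A → Nat.card ↥A = 8 → Cfsg.IsElementaryAbelian 2 B → Nat.card ↥B = 8 →
        Relation.ReflTransGen
          (fun C D : Subgroup X => Cfsg.IsElementaryAbelian 2 C ∧ Nat.card ↥C = 8 ∧ Cfsg.IsElementaryAbelian 2 D ∧ Nat.card ↥D = 8 ∧ ⁅C, D⁆ = ⊥)
          A B) ∧
      (∀ V : Subgroup X, Cfsg.IsElementaryAbelian 2 V → Nat.card ↥V = 4 →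
        ∃ A : Subgroup X, V ≤ A ∧ Cfsg.IsElementaryAbelian 2 A ∧ Nat.card ↥A = 8) := by
  haveI : Fact (Nat.Prime 2) := ⟨Nat.prime_two⟩
  have hE' := Cfsg.Agent.Helper3.isElementaryAbelian_iff.1 hE
  constructor
  · obtain ⟨R, hR⟩ : ∃ R : Subgroup X → Subgroup X → Prop, R = (fun C D : Subgroup X =>
        Cfsg.IsElementaryAbelian 2 C ∧ Nat.card ↥C = 8 ∧ Cfsg.IsElementaryAbelian 2 D ∧
          Nat.card ↥D = 8 ∧ ⁅C, D⁆ = ⊥) := ⟨_, rfl⟩
    rw [← hR]
    have hsymm : ∀ C D : Subgroup X, R C D → R D C := by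
      intro C D h
      rw [hR] at h ⊢
      obtain ⟨h1, h2, h3, h4, h5⟩ := h
      exact ⟨h3, h4, h1, h2, by rw [Subgroup.commutator_comm]; exact h5⟩
    have hrev : ∀ C D : Subgroup X, Relation.ReflTransGen R C D →
        Relation.ReflTransGen R D C := by
      intro C D h
      induction h with
      | refl => exact Relation.ReflTransGen.refl
      | tail _ hbc ih => exact Relation.ReflTransGen.head (hsymm _ _ hbc) ih
    have key : ∀ n : ℕ, ∀ A : Subgroup X, Cfsg.IsElementaryAbelian 2 A → Nat.card ↥A = 8 →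
        8 - Nat.card ↥(A ⊓ E) ≤ n →
        ∃ D : Subgroup X, Cfsg.IsElementaryAbelian 2 D ∧ Nat.card ↥D = 8 ∧ D ≤ E ∧
          Relation.ReflTransGen R A D := by
      intro n
      induction n with
      | zero =>
        intro A hA hA8 hn
        have hle : Nat.card ↥(A ⊓ E) ≤ Nat.card A := Subgroup.card_le_of_le inf_le_left
        have heq : A ⊓ E = A := Subgroup.eq_of_le_of_card_ge inf_le_left (by omega)
        exact ⟨A, hA, hA8, heq ▸ inf_le_right, Relation.ReflTransGen.refl⟩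
      | succ n ih =>
        intro A hA hA8 hn
        obtain ⟨D, hD, hD8, hAD, hor⟩ := step E hE hE32 A hA hA8
        have hRAD : R A D := by
          rw [hR]
          exact ⟨hA, hA8, hD, hD8, hAD⟩
        rcases hor with hDE | hlt
        · exact ⟨D, hD, hD8, hDE, Relation.ReflTransGen.single hRAD⟩
        · have hle : Nat.card ↥(D ⊓ E) ≤ Nat.card D := Subgroup.card_le_of_le inf_le_left
          obtain ⟨D', hD', hD'8, hD'E, hchain⟩ := ih D hD hD8 (by omega)
          exact ⟨D', hD', hD'8, hD'E, Relation.ReflTransGen.head hRAD hchain⟩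
    intro A B hA hA8 hB hB8
    obtain ⟨DA, hDA, hDA8, hDAE, hchA⟩ := key _ A hA hA8 le_rfl
    obtain ⟨DB, hDB, hDB8, hDBE, hchB⟩ := key _ B hB hB8 le_rfl
    have hmid : R DA DB := by
      rw [hR]
      refine ⟨hDA, hDA8, hDB, hDB8, ?_⟩
      rw [Subgroup.commutator_eq_bot_iff_le_centralizer]
      intro a ha
      rw [Subgroup.mem_centralizer_iff]
      intro d hd
      exact hE'.1 d (hDBE hd) a (hDAE ha)
    exact hchA.trans ((Relation.ReflTransGen.single hmid).trans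
      (hrev _ _ hchB))
  · intro V hV hV4
    have hV' := Cfsg.Agent.Helper3.isElementaryAbelian_iff.1 hV
    obtain ⟨F, hF⟩ : ∃ F : Subgroup X, F = E ⊓ Subgroup.centralizer (V : Set X) := ⟨_, rfl⟩
    have hFE : F ≤ E := hF ▸ inf_le_left
    have hFel : Cfsg.IsElementaryAbelian 2 F := Cfsg.Agent.Helper3.elemAb_mono hE hFE
    -- |F| ≥ 4
    obtain ⟨T, hT⟩ : ∃ T : Subgroup X, T = V ⊓ Subgroup.centralizer (E : Set X) := ⟨_, rfl⟩
    have hTV : T ≤ V := hT ▸ inf_le_left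
    have hTE : T ≤ Subgroup.centralizer (E : Set X) := hT ▸ inf_le_right
    have hB := card_le_card_fix_pow E hE 4 V T hV4 hV hTV hTE
    rw [← hF] at hB
    have hτk : T.relIndex V * Nat.card T = 4 := by
      rw [← hV4]
      exact relIndex_mul_card_of_le hTV
    have hF4 : 4 ≤ Nat.card F := by
      by_contra hlt
      push Not at hlt
      obtain ⟨j, hj⟩ := IsPGroup.iff_card.1 (Cfsg.Agent.Helper3.elemAb_isPGroup hFel)
      have hj1 : j ≤ 1 := by
        by_contra h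
        push Not at h
        have : 2 ^ 2 ≤ 2 ^ j := Nat.pow_le_pow_right (by norm_num) h
        omega
      have hF2 : Nat.card F ≤ 2 := by
        rw [hj]
        calc 2 ^ j ≤ 2 ^ 1 := Nat.pow_le_pow_right (by norm_num) hj1
          _ = 2 := by norm_num
      have hk4 : T.relIndex V ≤ 4 := by
        have hpos : 0 < Nat.card T := Nat.card_pos
        nlinarith
      have h1 : Nat.card E ≤ 2 ^ 4 :=
        calc Nat.card E ≤ Nat.card F ^ (T.relIndex V) := hB
          _ ≤ 2 ^ (T.relIndex V) := Nat.pow_le_pow_left hF2 _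
          _ ≤ 2 ^ 4 := Nat.pow_le_pow_right (by norm_num) hk4
      norm_num at h1
      omega
    have hcommVF : ∀ a ∈ V, ∀ f ∈ F, a * f = f * a := by
      intro a ha f hf
      rw [hF] at hf
      exact Subgroup.mem_centralizer_iff.1 (Subgroup.mem_inf.1 hf).2 a ha
    -- W
    have hW : ∃ W : Subgroup X, V ≤ W ∧ Cfsg.IsElementaryAbelian 2 W ∧ 2 ^ 3 ≤ Nat.card W := by
      by_cases hFV : F ≤ V
      · have heq : F = V := Subgroup.eq_of_le_of_card_ge hFV (by rw [hV4]; exact hF4)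
        refine ⟨E, heq ▸ hFE, hE, ?_⟩
        norm_num
        omega
      · have hUel : Cfsg.IsElementaryAbelian 2 (V ⊔ F) :=
          Cfsg.Agent.Helper3.elemAb_sup hV hFel hcommVF
        refine ⟨V ⊔ F, le_sup_left, hUel, ?_⟩
        obtain ⟨j, hj⟩ := IsPGroup.iff_card.1 (Cfsg.Agent.Helper3.elemAb_isPGroup hUel)
        have hlt : Nat.card V < Nat.card ↥(V ⊔ F) := by
          by_contra hge
          push Not at hge
          have heq : V = V ⊔ F := Subgroup.eq_of_le_of_card_ge le_sup_left hge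
          apply hFV
          rw [heq]
          exact le_sup_right
        rw [hj, hV4] at hlt
        rw [hj]
        have hj3 : 3 ≤ j := by
          by_contra h
          push Not at h
          have : 2 ^ j ≤ 2 ^ 2 := Nat.pow_le_pow_right (by norm_num) (by omega)
          omega
        exact Nat.pow_le_pow_right (by norm_num) hj3
    obtain ⟨W, hVW, hWel, hWc⟩ := hW
    obtain ⟨D, hVD, hDW, hDc⟩ := exists_between_card V W hVW hWel 2 3 (by rw [hV4]; norm_num)
      (by norm_num) hWc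
    exact ⟨D, hVD, Cfsg.Agent.Helper3.elemAb_mono hWel hDW, by rw [hDc]; norm_num⟩

end Cfsg.Agent.S1785
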