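import Cfsg.Statements.S1961
import Mathlib
import Cfsg.Agent.Helper10.FusionCtl

set_option autoImplicit false
open Cfsg

namespace Cfsg.Agent.S1961

/-- Local-to-global control of strong fusion through well-placed subgroups. Let p be a prime, G a finite group with Sylow p-subgroup S, and W a conjugacy functor for p on G. If W controls strong fusion in N_G(T) for every nonidentity subgroup T of S that is well placed in S with respect to W, then W controls strong fusion in G. -/
theorem result {G : Type*} [Group G] [Finite G] {p : ℕ} [Fact p.Prime] (S : Sylow p G) (W : Subgroup G → Subgroup G) (hW : Cfsg.IsConjugacyFunctor p W) (hloc : ∀ T : Subgroup G, T ≠ ⊥ → Cfsg.IsWellPlaced p W (S : Subgroup G) T → Cfsg.ControlsStrongFusionIn p W (Subgroup.normalizer ((T : Subgroup G) : Set G))) : Cfsg.ControlsStrongFusionIn p W ⊤ := by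
  refine ⟨S, le_top, S.isPGroup', ?_, ?_⟩
  · rw [Subgroup.relIndex_top_right]; exact S.not_dvd_index
  · intro A g _ hAS hAg
    have hfam := Cfsg.Agent.Helper10.isConjugationFamily_of_hyp S
      {T : Subgroup G | Cfsg.IsWellPlaced p W (S : Subgroup G) T} (fun U hU => hU.1)
      (fun T hT => by
        obtain ⟨h, hwp, -⟩ := Cfsg.Agent.Helper10.exists_wellPlaced_conj S W hW _ T hT rfl
        exact ⟨_, hwp, ⟨h, rfl⟩, hwp.2 0⟩) A g⁻¹ hAS (by
        rintro _ ⟨a, ha, rfl⟩
        rw [inv_inv]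
        exact hAg ⟨a, ha, rfl⟩)
    have key : ∀ (A : Set G) (g' : G),
        Cfsg.Agent.Helper10.Dec {T : Subgroup G | Cfsg.IsWellPlaced p W (S : Subgroup G) T} A g' →
        ∃ x ∈ Subgroup.normalizer ((W (S : Subgroup G) : Subgroup G) : Set G),
          ∀ a ∈ A, x⁻¹ * a * x = g'⁻¹ * a * g' := by
      intro A g' hdec
      induction hdec with
      | nil A => exact ⟨1, Subgroup.one_mem _, fun a _ => by simp⟩
      | cons A T x₀ g'' hT hx₀ hA hdec ih =>
        obtain ⟨x', hx', hx'A⟩ := ih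
        by_cases hTbot : T = ⊥
        · refine ⟨x', hx', fun a ha => ?_⟩
          have h1 : a ∈ T := hA ha
          rw [hTbot, Subgroup.mem_bot] at h1
          subst h1; simp
        · have hTS₁ : T ≤ (S : Subgroup G) ⊓ Subgroup.normalizer (T : Set G) :=
            le_inf hT.1 Subgroup.le_normalizer
          obtain ⟨y, hy, hyA⟩ := Cfsg.Agent.Helper10.climb S W hW hloc _ T hTbot hT rfl A x₀⁻¹
            (Subgroup.inv_mem _ hx₀) (hA.trans (SetLike.coe_subset_coe.2 hTS₁)) (by
              rintro _ ⟨a, ha, rfl⟩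
              exact hTS₁ ((Subgroup.mem_normalizer_iff.1 (Subgroup.inv_mem _ hx₀) a).1 (hA ha)))
          refine ⟨y⁻¹ * x', Subgroup.mul_mem _ (Subgroup.inv_mem _ hy) hx', fun a ha => ?_⟩
          have h1 := hyA a ha
          have h2 := hx'A (x₀⁻¹ * a * x₀) ⟨a, ha, rfl⟩
          calc (y⁻¹ * x')⁻¹ * a * (y⁻¹ * x') = x'⁻¹ * (y * a * y⁻¹) * x' := by group
            _ = x'⁻¹ * (x₀⁻¹ * a * x₀) * x' := by rw [h1, inv_inv]
            _ = g''⁻¹ * (x₀⁻¹ * a * x₀) * g'' := h2
            _ = (x₀ * g'')⁻¹ * a * (x₀ * g'') := by group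
    obtain ⟨x, hx, hxA⟩ := key A g⁻¹ hfam
    refine ⟨x⁻¹, Subgroup.mem_inf.2 ⟨Subgroup.mem_top _, Subgroup.inv_mem _ hx⟩, fun a ha => ?_⟩
    have h3 := hxA a ha
    rw [inv_inv] at h3 ⊢
    exact h3

end Cfsg.Agent.S1961
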