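import Cfsg.Statements.S1962
import Mathlib
import Cfsg.Agent.Helper10.TransferCtl

set_option autoImplicit false
open Cfsg

namespace Cfsg.Agent.S1962


open scoped commutatorElement

/-- Local-to-global control of transfer through well-placed subgroups. Let p be a prime, G a finite group with Sylow p-subgroup S, and W a conjugacy functor for p on G. If W controls transfer in N_G(T) for every nonidentity subgroup T of S that is well placed in S with respect to W, then W controls transfer in G: S ∩ G' = S ∩ (N_G(W(S)))'. -/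
theorem result {G : Type*} [Group G] [Finite G] {p : ℕ} [Fact p.Prime] (S : Sylow p G) (W : Subgroup G → Subgroup G) (hW : Cfsg.IsConjugacyFunctor p W) (hloc : ∀ T : Subgroup G, T ≠ ⊥ → Cfsg.IsWellPlaced p W (S : Subgroup G) T → Cfsg.ControlsTransferIn p W (Subgroup.normalizer ((T : Subgroup G) : Set G))) : Cfsg.ControlsTransferIn p W ⊤ := by
  refine ⟨S, le_top, S.isPGroup', ?_, ?_⟩
  · rw [Subgroup.relIndex_top_right]; exact S.not_dvd_index
  · rw [top_inf_eq]
    apply le_antisymm
    · have hfoc : (S : Subgroup G) ⊓ ⁅(⊤ : Subgroup G), ⊤⁆ = (S : Subgroup G).focalSubgroup := by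
        rw [inf_comm]; exact Subgroup.commutator_inf_eq_focalSubgroup S
      rw [hfoc, Subgroup.focalSubgroup_def, Subgroup.closure_le]
      rintro g ⟨hgS, x, hxS, u, rfl⟩
      have hux : u * x * u⁻¹ ∈ (S : Subgroup G) := by
        have h1 : x⁻¹ * ⁅x, u⁆ ∈ (S : Subgroup G) := Subgroup.mul_mem _ (Subgroup.inv_mem _ hxS) hgS
        have e : x⁻¹ * ⁅x, u⁆ = (u * x * u⁻¹)⁻¹ := by rw [commutatorElement_def]; group
        rw [e] at h1
        exact (Subgroup.inv_mem_iff _).1 h1
      have hfam := Cfsg.Agent.Helper10.isConjugationFamily_of_hyp S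
        {T : Subgroup G | Cfsg.IsWellPlaced p W (S : Subgroup G) T} (fun U hU => hU.1)
        (fun T hT => by
          obtain ⟨h, hwp, -⟩ := Cfsg.Agent.Helper10.exists_wellPlaced_conj S W hW _ T hT rfl
          exact ⟨_, hwp, ⟨h, rfl⟩, hwp.2 0⟩) {x} u⁻¹ (Set.singleton_subset_iff.2 hxS) (by
          rintro _ ⟨a, ha, rfl⟩
          rw [Set.mem_singleton_iff] at ha
          subst ha
          rw [inv_inv]
          exact hux)
      have key : ∀ (A : Set G) (g' : G),
          Cfsg.Agent.Helper10.Dec {T : Subgroup G | Cfsg.IsWellPlaced p W (S : Subgroup G) T} A g' →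
          ∀ a ∈ A, a * (g'⁻¹ * a * g')⁻¹ ∈ (S : Subgroup G) ⊓
            ⁅Subgroup.normalizer ((W (S : Subgroup G) : Subgroup G) : Set G),
              Subgroup.normalizer ((W (S : Subgroup G) : Subgroup G) : Set G)⁆ := by
        intro A g' hdec
        induction hdec with
        | nil A =>
          intro a _
          have e : a * ((1 : G)⁻¹ * a * 1)⁻¹ = 1 := by group
          rw [e]; exact Subgroup.one_mem _
        | cons A T x₀ g'' hT hx₀ hA hdec ih =>
          intro a ha
          have hb := ih (x₀⁻¹ * a * x₀) ⟨a, ha, rfl⟩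
          have hab : a * (x₀⁻¹ * a * x₀)⁻¹ ∈ (S : Subgroup G) ⊓
              ⁅Subgroup.normalizer ((W (S : Subgroup G) : Subgroup G) : Set G),
                Subgroup.normalizer ((W (S : Subgroup G) : Subgroup G) : Set G)⁆ := by
            by_cases hTbot : T = ⊥
            · have h1 : a ∈ T := hA ha
              rw [hTbot, Subgroup.mem_bot] at h1
              subst h1
              have e : (1 : G) * (x₀⁻¹ * 1 * x₀)⁻¹ = 1 := by group
              rw [e]; exact Subgroup.one_mem _
            · apply Cfsg.Agent.Helper10.climb_t S W hW hloc _ T hTbot hT rfl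
              have haT : a ∈ T := hA ha
              have hbT : x₀⁻¹ * a * x₀ ∈ T := by
                have := (Subgroup.mem_normalizer_iff.1 (Subgroup.inv_mem _ hx₀) a).1 haT
                simpa using this
              have habT : a * (x₀⁻¹ * a * x₀)⁻¹ ∈ T := T.mul_mem haT (T.inv_mem hbT)
              refine Subgroup.mem_inf.2 ⟨Subgroup.mem_inf.2 ⟨hT.1 habT, Subgroup.le_normalizer habT⟩, ?_⟩
              have e : a * (x₀⁻¹ * a * x₀)⁻¹ = ⁅a, x₀⁻¹⁆ := by rw [commutatorElement_def]; group
              rw [e]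
              exact Subgroup.commutator_mem_commutator (Subgroup.le_normalizer haT)
                (Subgroup.inv_mem _ hx₀)
          have e : a * ((x₀ * g'')⁻¹ * a * (x₀ * g''))⁻¹ = (a * (x₀⁻¹ * a * x₀)⁻¹) *
              ((x₀⁻¹ * a * x₀) * (g''⁻¹ * (x₀⁻¹ * a * x₀) * g'')⁻¹) := by group
          rw [e]; exact Subgroup.mul_mem _ hab hb
      have h5 := key {x} u⁻¹ hfam x rfl
      have e : ⁅x, u⁆ = x * (u⁻¹⁻¹ * x * u⁻¹)⁻¹ := by rw [commutatorElement_def]; group
      rw [e]; exact h5
    · exact inf_le_inf_left _ (Subgroup.commutator_mono le_top le_top)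

end Cfsg.Agent.S1962
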