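import Cfsg.Statements.S1966
import Mathlib
import Cfsg.Agent.Helper10.PCore

set_option autoImplicit false
open Cfsg

namespace Cfsg.Agent.S1966

/-- Let p be a prime, G a finite group with Sylow p-subgroup S and 𝓕 a conjugation family for S in G. Then the members of 𝓕 containing O_p(G) still form a conjugation family for S in G. -/
theorem result {G : Type*} [Group G] [Finite G] {p : ℕ} [Fact p.Prime] (S : Sylow p G) (𝓕 : Set (Subgroup G)) (h : Cfsg.IsConjugationFamily 𝓕 (S : Subgroup G)) : Cfsg.IsConjugationFamily {T : Subgroup G | T ∈ 𝓕 ∧ Cfsg.pCore p G ≤ T} (S : Subgroup G) := by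
  obtain ⟨h1, h2⟩ := h
  refine ⟨fun T hT => h1 T hT.1, ?_⟩
  intro A g hAne hAS hAg
  have hOn : (Cfsg.pCore p G).Normal := Cfsg.Agent.Helper10.pCore_normal p G
  have hOS : Cfsg.pCore p G ≤ (S : Subgroup G) := Cfsg.Agent.Helper10.pCore_le_sylow S
  have hAO : (fun a => g⁻¹ * a * g) '' (A ∪ (Cfsg.pCore p G : Set G)) ⊆ ((S : Subgroup G) : Set G) := by
    rintro _ ⟨a, ha | ha, rfl⟩
    · exact hAg ⟨a, ha, rfl⟩
    · apply hOS
      have := hOn.conj_mem a ha g⁻¹
      simpa using this
  obtain ⟨n, T, x, hprod, hT, hx, h0, hstep⟩ := h2 (A ∪ (Cfsg.pCore p G : Set G)) g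
    (hAne.mono Set.subset_union_left) (Set.union_subset hAS hOS) hAO
  refine ⟨n, T, x, hprod, ?_, hx, ?_, ?_⟩
  · intro i
    refine ⟨hT i, ?_⟩
    obtain ⟨i, hi⟩ := i
    cases i with
    | zero =>
      intro y hy
      exact h0 hi (Or.inr hy)
    | succ j =>
      have hj := hstep ⟨j, by omega⟩ hi
      intro y hy
      apply hj
      refine ⟨((List.ofFn x).take (j + 1)).prod * y * (((List.ofFn x).take (j + 1)).prod)⁻¹,
        Or.inr (hOn.conj_mem y hy _), by group⟩
  · intro h
    exact Set.subset_union_left.trans (h0 h)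
  · intro i h
    exact (Set.image_mono Set.subset_union_left).trans (hstep i h)

end Cfsg.Agent.S1966
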