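import Cfsg.Statements.S1967
import Mathlib

set_option autoImplicit false
open Cfsg

namespace Cfsg.Agent.S1967

open scoped Pointwise

/-- Let p be a prime, G a finite group with Sylow p-subgroup S and W a conjugacy functor for p on G. Then W controls strong fusion in G if and only if, whenever T ≤ S and g ∈ G satisfy gTg⁻¹ ≤ S, one can write g = n c with n ∈ N_G(W(S)) and c ∈ C_G(T). -/
theorem result {G : Type*} [Group G] [Finite G] {p : ℕ} [Fact p.Prime] (S : Sylow p G) (W : Subgroup G → Subgroup G) (hW : Cfsg.IsConjugacyFunctor p W) : Cfsg.ControlsStrongFusionIn p W ⊤ ↔ ∀ (T : Subgroup G) (g : G), T ≤ (S : Subgroup G) → T.map (MulAut.conj g).toMonoidHom ≤ (S : Subgroup G) → ∃ n ∈ Subgroup.normalizer ((W (S : Subgroup G) : Subgroup G) : Set G), ∃ c ∈ Subgroup.centralizer (T : Set G), g = n * c := by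
  constructor
  · rintro ⟨T', -, hT'p, hT'i, hT'⟩ T g hTS hTg
    rw [Subgroup.relIndex_top_right] at hT'i
    -- T' is a Sylow subgroup, conjugate to S
    obtain ⟨k, hk⟩ := MulAction.exists_smul_eq G (hT'p.toSylow hT'i) S
    have hkS : (S : Subgroup G) = T'.map (MulAut.conj k).toMonoidHom := by
      rw [← hk, Sylow.coe_subgroup_smul]
      ext y
      rw [Subgroup.mem_smul_pointwise_iff_exists, Subgroup.mem_map]
      rfl
    have hWS : W (S : Subgroup G) = (W T').map (MulAut.conj k).toMonoidHom := by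
      rw [hkS]; exact (hW T' hT'p).2.2 k
    -- the set A = k⁻¹ T k and h = k⁻¹ g k
    have hA : (fun t => k⁻¹ * t * k) '' (T : Set G) ⊆ (T' : Set G) := by
      rintro _ ⟨t, ht, rfl⟩
      have h1 : t ∈ T'.map (MulAut.conj k).toMonoidHom := by rw [← hkS]; exact hTS ht
      obtain ⟨s, hs, hse⟩ := Subgroup.mem_map.1 h1
      have hse' : k * s * k⁻¹ = t := hse
      have : k⁻¹ * t * k = s := by rw [← hse']; group
      show k⁻¹ * t * k ∈ T'
      rw [this]; exact hs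
    have hhA : (fun a => (k⁻¹ * g * k) * a * (k⁻¹ * g * k)⁻¹) '' ((fun t => k⁻¹ * t * k) '' (T : Set G)) ⊆ (T' : Set G) := by
      rintro _ ⟨_, ⟨t, ht, rfl⟩, rfl⟩
      have h0 : g * t * g⁻¹ ∈ (S : Subgroup G) := hTg (Subgroup.mem_map.2 ⟨t, ht, rfl⟩)
      have h1 : g * t * g⁻¹ ∈ T'.map (MulAut.conj k).toMonoidHom := by rw [← hkS]; exact h0
      obtain ⟨s, hs, hse⟩ := Subgroup.mem_map.1 h1
      have hse' : k * s * k⁻¹ = g * t * g⁻¹ := hse
      have : (k⁻¹ * g * k) * (k⁻¹ * t * k) * (k⁻¹ * g * k)⁻¹ = s := by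
        calc (k⁻¹ * g * k) * (k⁻¹ * t * k) * (k⁻¹ * g * k)⁻¹ = k⁻¹ * (g * t * g⁻¹) * k := by group
          _ = k⁻¹ * (k * s * k⁻¹) * k := by rw [hse']
          _ = s := by group
      show (k⁻¹ * g * k) * (k⁻¹ * t * k) * (k⁻¹ * g * k)⁻¹ ∈ T'
      rw [this]; exact hs
    obtain ⟨x, hx, hxe⟩ := hT' _ (k⁻¹ * g * k) (Subgroup.mem_top _) hA hhA
    have hxN : x ∈ Subgroup.normalizer ((W T' : Subgroup G) : Set G) := (Subgroup.mem_inf.1 hx).2
    refine ⟨k * x * k⁻¹, ?_, (k * x * k⁻¹)⁻¹ * g, ?_, by group⟩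
    · rw [hWS, ← Subgroup.map_equiv_normalizer_eq]
      exact Subgroup.mem_map.2 ⟨x, hxN, rfl⟩
    · rw [Subgroup.mem_centralizer_iff]
      intro t ht
      have h1 := hxe (k⁻¹ * t * k) ⟨t, ht, rfl⟩
      have h2 : (k * x * k⁻¹) * t * (k * x * k⁻¹)⁻¹ = g * t * g⁻¹ := by
        calc (k * x * k⁻¹) * t * (k * x * k⁻¹)⁻¹ = k * (x * (k⁻¹ * t * k) * x⁻¹) * k⁻¹ := by group
          _ = k * ((k⁻¹ * g * k) * (k⁻¹ * t * k) * (k⁻¹ * g * k)⁻¹) * k⁻¹ := by rw [h1]
          _ = g * t * g⁻¹ := by group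
      calc t * ((k * x * k⁻¹)⁻¹ * g) = (k * x * k⁻¹)⁻¹ * ((k * x * k⁻¹) * t * (k * x * k⁻¹)⁻¹) * (k * x * k⁻¹) * ((k * x * k⁻¹)⁻¹ * g) := by group
        _ = (k * x * k⁻¹)⁻¹ * (g * t * g⁻¹) * (k * x * k⁻¹) * ((k * x * k⁻¹)⁻¹ * g) := by rw [h2]
        _ = (k * x * k⁻¹)⁻¹ * g * t := by group
  · intro hfac
    refine ⟨(S : Subgroup G), le_top, S.isPGroup', ?_, ?_⟩
    · rw [Subgroup.relIndex_top_right]; exact S.not_dvd_index
    · intro A h _ hAS hhA
      have h1 : Subgroup.closure A ≤ (S : Subgroup G) := (Subgroup.closure_le _).2 hAS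
      have h2 : (Subgroup.closure A).map (MulAut.conj h).toMonoidHom ≤ (S : Subgroup G) := by
        rw [MonoidHom.map_closure, Subgroup.closure_le]
        rintro _ ⟨a, ha, rfl⟩
        exact hhA ⟨a, ha, rfl⟩
      obtain ⟨n, hn, c, hc, rfl⟩ := hfac (Subgroup.closure A) h h1 h2
      refine ⟨n, Subgroup.mem_inf.2 ⟨Subgroup.mem_top _, hn⟩, fun a ha => ?_⟩
      rw [Subgroup.mem_centralizer_iff] at hc
      have h3 : a * c = c * a := hc a (Subgroup.subset_closure ha)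
      calc n * a * n⁻¹ = n * (a * c) * c⁻¹ * n⁻¹ := by group
        _ = n * (c * a) * c⁻¹ * n⁻¹ := by rw [h3]
        _ = n * c * a * (n * c)⁻¹ := by group

end Cfsg.Agent.S1967
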