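import Cfsg.Statements.S1968
import Mathlib
import Cfsg.Agent.Helper10.FusionCtl
import Cfsg.Agent.Helper10.ConjFam

set_option autoImplicit false
open Cfsg

namespace Cfsg.Agent.S1968


open Cfsg.Agent.Helper10 in
theorem first_move {G : Type*} [Group G] (𝓕 : Set (Subgroup G)) (A : Subgroup G) :
    ∀ (A' : Set G) (g' : G), Dec 𝓕 A' g' → A' = (A : Set G) → cj g' A' ≠ A' →
      ∃ T ∈ 𝓕, A ≤ T ∧ ∃ x ∈ Subgroup.normalizer (T : Set G), cj x (A : Set G) ≠ (A : Set G) := by
  intro A' g' hdec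
  induction hdec with
  | nil A' => intro _ h; exact absurd (cj_one A') h
  | cons A' T x g'' hT hx hA hdec ih =>
    intro hA' hne
    by_cases hx' : cj x A' = A'
    · apply ih (hx'.trans hA')
      rw [hx']
      intro h
      apply hne
      rw [← cj_cj, hx']; exact h
    · subst hA'
      exact ⟨T, hT, SetLike.coe_subset_coe.1 hA, x, hx, hx'⟩

/-- Let p be a prime, G a finite group with Sylow p-subgroup S and W a conjugacy functor for p on G with Z(P) ≤ W(P) for every p-subgroup P. Let A be a subgroup of Z(S) normalized by N_G(W(S)) that is not weakly closed in S with respect to G. Then there is a subgroup T of S, well placed in S with respect to W, such that: A ≤ T; N_G(W(N_S(T))) normalizes A; N_S(T) is a Sylow p-subgroup of N_G(T); A ≤ Z(N_S(T)); and A is not weakly closed in N_S(T) with respect to N_G(T), that is, some N_G(T)-conjugate of A other than A lies in N_S(T). -/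
theorem result {G : Type*} [Group G] [Finite G] {p : ℕ} [Fact p.Prime] (S : Sylow p G) (W : Subgroup G → Subgroup G) (hW : Cfsg.IsConjugacyFunctor p W) (hWZ : ∀ P : Subgroup G, IsPGroup p ↥P → P ⊓ Subgroup.centralizer (P : Set G) ≤ W P) (A : Subgroup G) (hAZ : A ≤ (S : Subgroup G) ⊓ Subgroup.centralizer ((S : Subgroup G) : Set G)) (hAN : Subgroup.normalizer ((W (S : Subgroup G) : Subgroup G) : Set G) ≤ Subgroup.normalizer ((A : Subgroup G) : Set G)) (hnwc : ¬ Cfsg.IsWeaklyClosed A (S : Subgroup G)) : ∃ T : Subgroup G, Cfsg.IsWellPlaced p W (S : Subgroup G) T ∧ A ≤ T ∧ Subgroup.normalizer ((W ((S : Subgroup G) ⊓ Subgroup.normalizer ((T : Subgroup G) : Set G)) : Subgroup G) : Set G) ≤ Subgroup.normalizer ((A : Subgroup G) : Set G) ∧ ¬ p ∣ ((S : Subgroup G) ⊓ Subgroup.normalizer ((T : Subgroup G) : Set G)).relIndex (Subgroup.normalizer ((T : Subgroup G) : Set G)) ∧ A ≤ Subgroup.centralizer (((S : Subgroup G) ⊓ Subgroup.normalizer ((T : Subgroup G) : Set G) : Subgroup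 G) : Set G) ∧ ∃ g ∈ Subgroup.normalizer ((T : Subgroup G) : Set G), A.map (MulAut.conj g).toMonoidHom ≤ (S : Subgroup G) ⊓ Subgroup.normalizer ((T : Subgroup G) : Set G) ∧ A.map (MulAut.conj g).toMonoidHom ≠ A := by
  have hAS : A ≤ (S : Subgroup G) := hAZ.trans inf_le_left
  have hAC : A ≤ Subgroup.centralizer ((S : Subgroup G) : Set G) := hAZ.trans inf_le_right
  -- a conjugate of A in S different from A
  have h1 : ∃ g : G, A.map (MulAut.conj g).toMonoidHom ≤ (S : Subgroup G) ∧
      A.map (MulAut.conj g).toMonoidHom ≠ A := by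
    by_contra hcon
    apply hnwc
    refine ⟨hAS, fun g hg => ?_⟩
    by_contra hne
    exact hcon ⟨g, hg, hne⟩
  obtain ⟨g, hgS, hgne⟩ := h1
  have hfam := Cfsg.Agent.Helper10.isConjugationFamily_of_hyp S
    {T : Subgroup G | Cfsg.IsWellPlaced p W (S : Subgroup G) T} (fun U hU => hU.1)
    (fun T hT => by
      obtain ⟨h, hwp, -⟩ := Cfsg.Agent.Helper10.exists_wellPlaced_conj S W hW _ T hT rfl
      exact ⟨_, hwp, ⟨h, rfl⟩, hwp.2 0⟩) (A : Set G) g⁻¹ (SetLike.coe_subset_coe.2 hAS) (by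
      rw [← Cfsg.Agent.Helper10.coe_map_conj]; exact SetLike.coe_subset_coe.2 hgS)
  obtain ⟨T₀, hT₀wp, hAT₀, x₀, hx₀, hx₀A⟩ := first_move _ A _ _ hfam rfl (by
    rw [← Cfsg.Agent.Helper10.coe_map_conj]
    intro h
    exact hgne (SetLike.coe_injective h))
  -- the set of candidates
  let C : Set (Subgroup G) := {T | Cfsg.IsWellPlaced p W (S : Subgroup G) T ∧ A ≤ T ∧
    ¬ Subgroup.normalizer ((T : Subgroup G) : Set G) ≤ Subgroup.normalizer ((A : Subgroup G) : Set G)}
  have hCne : C.Nonempty := by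
    refine ⟨T₀, hT₀wp, hAT₀, fun hle => hx₀A ?_⟩
    exact Cfsg.Agent.Helper10.cj_normalizer (hle hx₀)
  obtain ⟨T, hTC, hTmax⟩ := Set.exists_max_image C
    (fun T => Nat.card ((S : Subgroup G) ⊓ Subgroup.normalizer ((T : Subgroup G) : Set G) :
      Subgroup G)) (Set.toFinite C) hCne
  obtain ⟨hTwp, hAT, hTN⟩ := hTC
  have hTS : T ≤ (S : Subgroup G) := hTwp.1
  have hAcent : A ≤ Subgroup.centralizer (((S : Subgroup G) ⊓
      Subgroup.normalizer ((T : Subgroup G) : Set G) : Subgroup G) : Set G) :=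
    hAC.trans (Subgroup.centralizer_le (SetLike.coe_subset_coe.2 inf_le_left))
  have hANT : A ≤ (S : Subgroup G) ⊓ Subgroup.normalizer ((T : Subgroup G) : Set G) :=
    le_inf hAS (hAT.trans Subgroup.le_normalizer)
  have hNSp : IsPGroup p ((S : Subgroup G) ⊓ Subgroup.normalizer (T : Set G) : Subgroup G) :=
    S.isPGroup'.to_le inf_le_left
  refine ⟨T, hTwp, hAT, ?_, hTwp.2 0, hAcent, ?_⟩
  · by_cases hN : (S : Subgroup G) ≤ Subgroup.normalizer (T : Set G)
    · rw [inf_eq_left.2 hN]; exact hAN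
    · by_contra hcon
      have hmem : W ((S : Subgroup G) ⊓ Subgroup.normalizer (T : Set G)) ∈ C := by
        refine ⟨Cfsg.Agent.Helper10.isWellPlaced_tower_one W _ T hW S.isPGroup' hTwp, ?_, hcon⟩
        exact (le_inf hANT hAcent).trans (hWZ _ hNSp)
      have h2 := hTmax _ hmem
      have h3 := (Cfsg.Agent.Helper10.tower_growth S W hW T hN).2
      exact absurd h2 (not_le.2 h3)
  · have h4 : ∃ x ∈ Subgroup.normalizer ((T : Subgroup G) : Set G),
        x ∉ Subgroup.normalizer ((A : Subgroup G) : Set G) := by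
      by_contra hcon
      apply hTN
      intro x hx
      by_contra hxA
      exact hcon ⟨x, hx, hxA⟩
    obtain ⟨x, hxT, hxA⟩ := h4
    refine ⟨x, hxT, ?_, fun h => hxA (Cfsg.Agent.Helper16.mem_normalizer_of_map_conj_eq h)⟩
    rw [Cfsg.Agent.Helper16.map_conj_le_iff]
    intro a ha
    have h5 : x * a * x⁻¹ ∈ T := (Subgroup.mem_normalizer_iff.1 hxT a).1 (hAT ha)
    exact Subgroup.mem_inf.2 ⟨hTS h5, Subgroup.le_normalizer h5⟩

end Cfsg.Agent.S1968
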