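import Cfsg.Statements.S1969
import Mathlib
import Cfsg.Agent.Helper10.SecFusion2

set_option autoImplicit false
universe u
open Cfsg

namespace Cfsg.Agent.S1969

/-- Let p be a prime, G a finite group and W an isomorphism-invariant p-group functor (W assigns to every group Q a subgroup W(Q), nontrivial whenever Q is a nontrivial finite p-group, and every isomorphism from a finite p-group Q onto a group R carries W(Q) onto W(R)). Suppose that W(S*) is normal in G* whenever G* = K/R is a section of G with C_{G*}(O_p(G*)) ≤ O_p(G*) and S* is a Sylow p-subgroup of G*. Then W controls strong fusion in every section of G: for every section K/R and every Sylow p-subgroup T of K/R, the subgroup W(T) controls strong fusion in K/R. -/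
theorem result {G : Type u} [Group G] [Finite G] {p : ℕ} [Fact p.Prime] (W : ∀ (Q : Type u) [Group Q], Subgroup Q) (hW : Cfsg.IsCharPFunctor.{u} p W) (hloc : ∀ (K R : Subgroup G) [hR : (R.subgroupOf K).Normal], Subgroup.centralizer ((Cfsg.pCore p (↥K ⧸ R.subgroupOf K) : Subgroup (↥K ⧸ R.subgroupOf K)) : Set (↥K ⧸ R.subgroupOf K)) ≤ Cfsg.pCore p (↥K ⧸ R.subgroupOf K) → ∀ T : Sylow p (↥K ⧸ R.subgroupOf K), (Cfsg.inducedFunctor (G := (↥K ⧸ R.subgroupOf K)) W ((T : Subgroup (↥K ⧸ R.subgroupOf K)))).Normal) : ∀ (K R : Subgroup G) [hR : (R.subgroupOf K).Normal], ∀ T : Sylow p (↥K ⧸ R.subgroupOf K), Cfsg.ControlsStrongFusion p (Cfsg.inducedFunctor (G := (↥K ⧸ R.subgroupOf K)) W ((T : Subgroup (↥K ⧸ R.subgroupOf K)))) := by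
  classical
  have h𝓦 : ∀ W' ∈ ({W} : Set (∀ (Q : Type u) [Group Q], Subgroup Q)),
      Cfsg.IsCharPFunctor.{u} p W' := by
    intro W' hW'
    rw [Set.mem_singleton_iff] at hW'
    rw [hW']; exact hW
  have main := Cfsg.Agent.Helper10.ctl_main h𝓦 (Set.singleton_nonempty W)
    (fun H _ => Cfsg.Agent.Helper10.IsSec G H)
    (fun H _ _ h L => h.sub L) (fun H _ _ h M _ => h.quot M) ?_
  · intro K R hR T
    have hctl := main (Nat.card (↥K ⧸ R.subgroupOf K)) (↥K ⧸ R.subgroupOf K) rfl
      (Cfsg.Agent.Helper10.isSec_quot K R)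
    refine ⟨T, Cfsg.Agent.Helper10.ind_le W _, ?_⟩
    intro A hA
    refine ⟨hA, ?_⟩
    intro g hgA
    obtain ⟨c, hc, e⟩ := hctl T A g hA hgA
    refine ⟨c, ?_, fun a ha => (e a ha).symm⟩
    apply hc.mem_subgroup
    intro y hy
    rw [Cfsg.Agent.Helper10.mem_stp] at hy
    obtain ⟨W', hW', -, hy2⟩ := hy
    rw [Set.mem_singleton_iff] at hW'
    rw [hW'] at hy2
    exact hy2
  · intro H _ _ hsec hcons
    obtain ⟨K, R, hR, ⟨e⟩⟩ := hsec.exists_iso
    haveI : Finite (↥K ⧸ R.subgroupOf K) := Finite.of_equiv H e.symm.toEquiv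
    have h1 := hloc K R (Cfsg.Agent.Helper10.constrained_equiv e.symm hcons)
    have h2 : Cfsg.Agent.Helper10.Ctl p {W} (↥K ⧸ R.subgroupOf K) := by
      intro T A g hA hgA
      have hn := h1 T
      have hg : g ∈ Cfsg.Agent.Helper10.stepSet (Cfsg.Agent.Helper10.fam {W} _) ⊤
          (T : Subgroup (↥K ⧸ R.subgroupOf K)) := by
        rw [Cfsg.Agent.Helper10.mem_stp]
        refine ⟨W, rfl, Subgroup.mem_top _, ?_⟩
        rw [Subgroup.normalizer_eq_top_iff.mpr hn]; exact Subgroup.mem_top _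
      exact Cfsg.Agent.Helper10.Good.of_ch (Cfsg.Agent.Helper10.Ch.single hg hA hgA)
    exact Cfsg.Agent.Helper10.Ctl.equiv h𝓦 e h2

end Cfsg.Agent.S1969
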