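import Cfsg.Statements.S1970
import Mathlib
import Cfsg.Agent.Helper10.SecTransfer2

set_option autoImplicit false
universe u
open Cfsg

namespace Cfsg.Agent.S1970

/-- Let p be a prime, G a finite group and W an isomorphism-invariant p-group functor (W assigns to every group Q a subgroup W(Q), nontrivial whenever Q is a nontrivial finite p-group, and every isomorphism from a finite p-group Q onto a group R carries W(Q) onto W(R)). Suppose that for every section G* = K/R of G with C_{G*}(O_p(G*)) ≤ O_p(G*) and every Sylow p-subgroup S* of G*, one has O_p(G*) ∩ (G*)' = O_p(G*) ∩ (N_{G*}(W(S*)))'. Then W controls transfer in every section G* of G: S* ∩ (G*)' = S* ∩ (N_{G*}(W(S*)))' for a Sylow p-subgroup S* of G*. -/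
theorem result {G : Type u} [Group G] [Finite G] {p : ℕ} [Fact p.Prime] (W : ∀ (Q : Type u) [Group Q], Subgroup Q) (hW : Cfsg.IsCharPFunctor.{u} p W) (hloc : ∀ (K R : Subgroup G) [hR : (R.subgroupOf K).Normal], Subgroup.centralizer ((Cfsg.pCore p (↥K ⧸ R.subgroupOf K) : Subgroup (↥K ⧸ R.subgroupOf K)) : Set (↥K ⧸ R.subgroupOf K)) ≤ Cfsg.pCore p (↥K ⧸ R.subgroupOf K) → ∀ T : Sylow p (↥K ⧸ R.subgroupOf K), Cfsg.pCore p (↥K ⧸ R.subgroupOf K) ⊓ commutator (↥K ⧸ R.subgroupOf K) = Cfsg.pCore p (↥K ⧸ R.subgroupOf K) ⊓ ⁅Subgroup.normalizer ((Cfsg.inducedFunctor (G := (↥K ⧸ R.subgroupOf K)) W ((T : Subgroup (↥K ⧸ R.subgroupOf K))) : Subgroup (↥K ⧸ R.subgroupOf K)) : Set (↥K ⧸ R.subgroupOf K)), Subgroup.normalizer ((Cfsg.inducedFunctor (G := (↥K ⧸ R.subgroupOf K)) W ((T : Subgroup (↥K ⧸ R.subgroupOf K))) : Subgroup (↥K ⧸ R.subgroupOf K)) : Set (↥K ⧸ R.subgroupOf K))⁆) : ∀ (K R : Subgroup G) [hR : (R.subgroupOf K).Normal], Cfsg.ControlsTransferIn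 p (Cfsg.inducedFunctor (G := (↥K ⧸ R.subgroupOf K)) W) ⊤ := by
  classical
  have h𝓦 : ∀ W' ∈ ({W} : Set (∀ (Q : Type u) [Group Q], Subgroup Q)),
      Cfsg.IsCharPFunctor.{u} p W' := by
    intro W' hW'
    rw [Set.mem_singleton_iff.mp hW']; exact hW
  have hP : ∀ (H : Type u) [Group H] [Finite H], Cfsg.Agent.Helper10.IsSec G H →
      Subgroup.centralizer ((Cfsg.pCore p H : Subgroup H) : Set H) ≤ Cfsg.pCore p H →
      ∀ T : Sylow p H, Cfsg.pCore p H ⊓ commutator H ≤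
        Cfsg.Agent.Helper10.tfoc {W} H (T : Subgroup H) := by
    intro H _ _ hsec hc
    obtain ⟨K, R, hR, ⟨e⟩⟩ := hsec.exists_iso
    haveI : Finite (↥K ⧸ R.subgroupOf K) := Finite.of_equiv H e.symm.toEquiv
    refine Cfsg.Agent.Helper10.pcore_tfoc_equiv h𝓦 e ?_
    intro T'
    have h1 := hloc K R (Cfsg.Agent.Helper10.constrained_equiv e.symm hc) T'
    rw [h1]
    refine le_trans ?_ (Cfsg.Agent.Helper10.term_le_tfoc _ W rfl)
    exact inf_le_inf_right _ (Cfsg.Agent.Helper23.le_sylow_of_normal inferInstance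
        (Cfsg.Agent.Helper23.pCore_isPGroup p) T')
  have main := Cfsg.Agent.Helper10.tctl_main h𝓦
    (fun H _ => Cfsg.Agent.Helper10.IsSec G H)
    (fun H _ _ h L => h.sub L) (fun H _ _ h M _ => h.quot M) hP
    (fun H _ _ _ T => Cfsg.Agent.Helper10.commutator_le_tfoc_of_nonempty h𝓦 ⟨W, rfl⟩ T)
  intro K R hR
  have h1 := main (Nat.card (↥K ⧸ R.subgroupOf K)) (↥K ⧸ R.subgroupOf K) rfl
    (Cfsg.Agent.Helper10.isSec_quot K R)
  obtain ⟨T⟩ : Nonempty (Sylow p (↥K ⧸ R.subgroupOf K)) := inferInstance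
  refine ⟨T, le_top, T.2, by rw [Subgroup.relIndex_top_right]; exact T.not_dvd_index, ?_⟩
  rw [top_inf_eq, ← _root_.commutator_def]
  apply le_antisymm
  · refine le_trans (h1 T) ?_
    apply Cfsg.Agent.Helper10.tfoc_le_of
    intro W' hW'
    rw [Set.mem_singleton_iff.mp hW']
  · rw [_root_.commutator_def]
    exact inf_le_inf_left _ (Subgroup.commutator_mono le_top le_top)

end Cfsg.Agent.S1970
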