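import Cfsg.Statements.S1972
import Mathlib
import Cfsg.Agent.Helper10.MinCex

set_option autoImplicit false
universe u
open Cfsg

namespace Cfsg.Agent.S1972

/-- Let p be a prime, G a finite group and W an isomorphism-invariant p-group functor (W assigns to every group Q a subgroup W(Q), nontrivial whenever Q is a nontrivial finite p-group, and every isomorphism from a finite p-group Q onto a group R carries W(Q) onto W(R)). Suppose that whenever G* = K/R is a section of G with C_{G*}(O_p(G*)) ≤ O_p(G*) and S* is a Sylow p-subgroup of G* with W(S*) not normal in G*, there is an element g of S* outside O_p(G*) such that [X, g, …, g] ≤ Y with p − 1 entries g, for every chief factor X/Y of G* with X ≤ O_p(G*). Then W controls transfer in every section of G. -/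
theorem result {G : Type u} [Group G] [Finite G] {p : ℕ} [Fact p.Prime] (W : ∀ (Q : Type u) [Group Q], Subgroup Q) (hW : Cfsg.IsCharPFunctor.{u} p W) (hloc : ∀ (K R : Subgroup G) [hR : (R.subgroupOf K).Normal], Subgroup.centralizer ((Cfsg.pCore p (↥K ⧸ R.subgroupOf K) : Subgroup (↥K ⧸ R.subgroupOf K)) : Set (↥K ⧸ R.subgroupOf K)) ≤ Cfsg.pCore p (↥K ⧸ R.subgroupOf K) → ∀ T : Sylow p (↥K ⧸ R.subgroupOf K), ¬ (Cfsg.inducedFunctor (G := (↥K ⧸ R.subgroupOf K)) W ((T : Subgroup (↥K ⧸ R.subgroupOf K)))).Normal → ∃ g : (↥K ⧸ R.subgroupOf K), g ∈ (T : Subgroup (↥K ⧸ R.subgroupOf K)) ∧ g ∉ Cfsg.pCore p (↥K ⧸ R.subgroupOf K) ∧ ∀ U V : Subgroup (↥K ⧸ R.subgroupOf K), Cfsg.IsChiefFactor U V → U ≤ Cfsg.pCore p (↥K ⧸ R.subgroupOf K) → Cfsg.iterCommutator U (Subgroup.zpowers g) (p - 1) ≤ V) : ∀ (K R : Subgroup G) [hR : (R.subgroupOf K).Normal], Cfsg.ControlsTransferIn p (Cfsg.inducedFunctor (G := (↥K ⧸ R.subgroupOf K)) W) ⊤ := by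
  classical
  have h𝓦 : ∀ W' ∈ ({W} : Set (∀ (Q : Type u) [Group Q], Subgroup Q)),
      Cfsg.IsCharPFunctor.{u} p W' := by
    intro W' hW'
    rw [Set.mem_singleton_iff.mp hW']; exact hW
  have main : ∀ (n : ℕ) (H : Type u) [Group H] [Finite H], Cfsg.Agent.Helper10.IsSec G H →
      Nat.card H = n → Cfsg.Agent.Helper10.TCtl p {W} H := by
    intro n
    induction n using Nat.strong_induction_on with
    | _ n ih =>
    intro H _ _ hsec hn
    obtain ⟨K, R, hR, ⟨e⟩⟩ := hsec.exists_iso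
    haveI : Finite (↥K ⧸ R.subgroupOf K) := Finite.of_equiv H e.symm.toEquiv
    refine Cfsg.Agent.Helper10.TCtl.equiv h𝓦 e ?_
    have hcard : Nat.card (↥K ⧸ R.subgroupOf K) = n := by
      rw [← hn]; exact Nat.card_congr e.toEquiv
    have hsecKR : Cfsg.Agent.Helper10.IsSec G (↥K ⧸ R.subgroupOf K) :=
      Cfsg.Agent.Helper10.isSec_quot K R
    intro T
    by_contra hX
    have hsub : ∀ L : Subgroup (↥K ⧸ R.subgroupOf K), L ≠ ⊤ →
        Cfsg.Agent.Helper10.TCtl p {W} ↥L := fun L hL =>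
      ih _ (by rw [← hcard]; exact Cfsg.Agent.Helper10.card_lt_of_ne_top hL) ↥L
        (hsecKR.sub L) rfl
    have hquot : ∀ (N : Subgroup (↥K ⧸ R.subgroupOf K)) [N.Normal], N ≠ ⊥ →
        Cfsg.Agent.Helper10.TCtl p {W} ((↥K ⧸ R.subgroupOf K) ⧸ N) := fun N _ hN =>
      ih _ (by rw [← hcard]; exact Cfsg.Agent.Helper10.card_quot_lt_of_ne_bot hN) _
        (hsecKR.quot N) rfl
    obtain ⟨hcons, -, -, -, hd⟩ :=
      Cfsg.Agent.Helper10.mincex_structure h𝓦 ⟨W, rfl⟩ T hsub hquot hX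
    by_cases hWn : (Cfsg.inducedFunctor W (T : Subgroup (↥K ⧸ R.subgroupOf K))).Normal
    · apply hX
      refine le_trans ?_ (Cfsg.Agent.Helper10.term_le_tfoc _ W rfl)
      rw [Subgroup.normalizer_eq_top_iff.mpr hWn, ← _root_.commutator_def]
    · obtain ⟨g, hgT, hgP, hg⟩ := hloc K R hcons T hWn
      obtain ⟨U, V, hUV, hUP, hnot⟩ := hd g hgT hgP
      exact hnot (hg U V hUV hUP)
  intro K R hR
  have h1 := main (Nat.card (↥K ⧸ R.subgroupOf K)) (↥K ⧸ R.subgroupOf K)
    (Cfsg.Agent.Helper10.isSec_quot K R) rfl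
  obtain ⟨T⟩ : Nonempty (Sylow p (↥K ⧸ R.subgroupOf K)) := inferInstance
  refine ⟨T, le_top, T.2, by rw [Subgroup.relIndex_top_right]; exact T.not_dvd_index, ?_⟩
  rw [top_inf_eq, ← _root_.commutator_def]
  apply le_antisymm
  · refine le_trans (h1 T) ?_
    apply Cfsg.Agent.Helper10.tfoc_le_of
    intro W' hW'
    rw [Set.mem_singleton_iff.mp hW']
  · rw [_root_.commutator_def]
    exact inf_le_inf_left _ (Subgroup.commutator_mono le_top le_top)

end Cfsg.Agent.S1972
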