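import Cfsg.Statements.S1981
import Mathlib
import Cfsg.Agent.Helper10.KSeq

set_option autoImplicit false
open Cfsg

namespace Cfsg.Agent.S1981

/-- Let P be a finite p-group generated by its abelian normal subgroups. Then both K-infinity subgroups of P equal P. -/
theorem result {P : Type*} [Group P] [Finite P] {p : ℕ} [Fact p.Prime] (hP : IsPGroup p P) (hgen : ⨆ A ∈ {A : Subgroup P | A.Normal ∧ IsMulCommutative ↥A}, A = ⊤) : Cfsg.kInfLower P = ⊤ ∧ Cfsg.kInfUpper P = ⊤ := by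
  have hE : ∀ n, Cfsg.kSeqEven P n = ⊤ := by
    intro n
    rw [eq_top_iff, ← hgen]
    refine iSup₂_le fun A hA => ?_
    obtain ⟨hAn, hAc⟩ := hA
    rw [Cfsg.Agent.Helper10.kSeqEven_def]
    haveI := hAn
    exact le_sSup (Cfsg.Agent.Helper10.abelian_normal_mem_kLower A hAc _)
  have hO : ∀ n, Cfsg.kSeqOdd P n = ⊤ := by
    intro n
    cases n with
    | zero => exact Cfsg.Agent.Helper10.kSeqOdd_zero P
    | succ n =>
      rw [eq_top_iff, ← hgen]
      refine iSup₂_le fun A hA => ?_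
      obtain ⟨hAn, hAc⟩ := hA
      rw [Cfsg.Agent.Helper10.kSeqOdd_succ_eq]
      haveI := hAn
      exact le_sSup (Cfsg.Agent.Helper10.abelian_normal_mem_kUpper A hAc _)
  constructor
  · show (⨆ n, Cfsg.kSeqEven P n) = ⊤
    rw [eq_top_iff, ← hE 0]
    exact le_iSup (fun n => Cfsg.kSeqEven P n) 0
  · show (⨅ n, Cfsg.kSeqOdd P n) = ⊤
    simp [hO]

end Cfsg.Agent.S1981
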