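import Cfsg.Statements.S1986
import Mathlib
import Cfsg.Agent.Helper10.WeakPow
import Cfsg.Agent.Helper10.KTransfer

set_option autoImplicit false
universe u
open Cfsg

namespace Cfsg.Agent.S1986

/-- Let p be a prime, G a finite group with Sylow p-subgroup S, K the lower K-infinity subgroup of S, and Z the subgroup of p-th powers of elements of Z(S). Then every element of Z commuting with all of N_G(K) is weakly closed in S with respect to G, and every subgroup of Z that is normal in N_G(K) is weakly closed in S with respect to G. -/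
theorem result {G : Type u} [Group G] [Finite G] {p : ℕ} [Fact p.Prime] (S : Sylow p G) (Z : Subgroup G) (hZ : Z = Subgroup.closure ((fun z : G => z ^ p) '' (((S : Subgroup G) ⊓ Subgroup.centralizer (((S : Subgroup G) : Subgroup G) : Set G) : Subgroup G) : Set G))) : (∀ x ∈ Z ⊓ Subgroup.centralizer ((Subgroup.normalizer ((Cfsg.inducedFunctor Cfsg.kInfLower (S : Subgroup G) : Subgroup G) : Set G) : Subgroup G) : Set G), ∀ g : G, g * x * g⁻¹ ∈ (S : Subgroup G) → g * x * g⁻¹ = x) ∧ ∀ A : Subgroup G, A ≤ Z → Subgroup.normalizer ((Cfsg.inducedFunctor Cfsg.kInfLower (S : Subgroup G) : Subgroup G) : Set G) ≤ Subgroup.normalizer ((A : Subgroup G) : Set G) → Cfsg.IsWeaklyClosed A (S : Subgroup G) := by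
  have hchar : Cfsg.IsCharPFunctor.{u} p (fun (Q : Type u) [Group Q] => Cfsg.kInfLower Q) :=
    Cfsg.Agent.Helper10.isCharPFunctor_kInfLower
  have hW : Cfsg.IsConjugacyFunctor p (Cfsg.inducedFunctor (G := G) Cfsg.kInfLower) :=
    Cfsg.Agent.Helper10.isConjugacyFunctor_ind _ hchar
  have hWZ : ∀ P : Subgroup G, IsPGroup p ↥P →
      P ⊓ Subgroup.centralizer ((P : Subgroup G) : Set G) ≤
        Cfsg.inducedFunctor (G := G) Cfsg.kInfLower P := by
    intro P hP a ha
    have ha1 : a ∈ P := ha.1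
    have ha2 : a ∈ Subgroup.centralizer ((P : Subgroup G) : Set G) := ha.2
    obtain ⟨h1, h2, -, -⟩ := Cfsg.Agent.S1978.result hP
    have h3 : (⟨a, ha1⟩ : ↥P) ∈ Subgroup.center ↥P := by
      rw [Subgroup.mem_center_iff]
      intro b
      apply Subtype.ext
      rw [Subgroup.mem_centralizer_iff] at ha2
      exact ha2 (b : G) b.2
    exact ⟨⟨a, ha1⟩, h1 (h2 h3), rfl⟩
  refine Cfsg.Agent.Helper10.pow_weak_closure S _ hW hWZ ?_ Z hZ
  intro H T hTH hTp hidx hnn
  have hT' : IsPGroup p (T.subgroupOf H) := hTp.comap_subtype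
  obtain ⟨S', hS'⟩ : ∃ S' : Sylow p ↥H, (S' : Subgroup ↥H) = T.subgroupOf H :=
    ⟨hT'.toSylow hidx, rfl⟩
  have hS'map : (S' : Subgroup ↥H).map H.subtype = T := by
    rw [hS']; exact Subgroup.map_subgroupOf_eq_of_le hTH
  have hS'mem : ∀ a : ↥H, a ∈ (S' : Subgroup ↥H) ↔ (a : G) ∈ T := by
    intro a; rw [hS']; exact Subgroup.mem_subgroupOf
  have hind : Cfsg.inducedFunctor (G := G) Cfsg.kInfLower T =
      (Cfsg.inducedFunctor (G := ↥H) Cfsg.kInfLower (S' : Subgroup ↥H)).map H.subtype := by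
    rw [← hS'map]
    exact Cfsg.Agent.Helper10.ind_map_subtype _ hchar H (S' : Subgroup ↥H) S'.isPGroup'
  have hK : ¬ (Cfsg.inducedFunctor Cfsg.kInfLower (S' : Subgroup ↥H)).Normal := by
    intro hn
    apply hnn
    intro n hnH
    rw [Subgroup.mem_normalizer_iff]
    intro a
    rw [hind]
    constructor
    · rintro ⟨a', ha', rfl⟩
      exact ⟨⟨n, hnH⟩ * a' * ⟨n, hnH⟩⁻¹, hn.conj_mem a' ha' ⟨n, hnH⟩, rfl⟩
    · rintro ⟨b', hb', hb⟩
      refine ⟨⟨n, hnH⟩⁻¹ * b' * ⟨n, hnH⟩, ?_, ?_⟩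
      · have h0 := hn.conj_mem b' hb' ⟨n, hnH⟩⁻¹
        rw [inv_inv] at h0; exact h0
      · show n⁻¹ * (b' : G) * n = a
        have e : (b' : G) = n * a * n⁻¹ := hb
        rw [e]; group
  obtain ⟨g', hg'S, hg'P, hquad, -⟩ := Cfsg.Agent.Helper10.kinf_chief4 S' (Or.inl hK)
  refine ⟨(g' : G), (hS'mem g').1 hg'S, ?_, ?_⟩
  · rintro ⟨c, hc, hcg⟩
    have e : c = g' := Subtype.ext hcg
    rw [e] at hc
    exact hg'P hc
  · have h2 := congrArg (Subgroup.map H.subtype) hquad
    rw [Subgroup.map_commutator, Subgroup.map_commutator,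
      Cfsg.Agent.Helper10.map_inf_centralizer_inj H.subtype H.subtype_injective,
      MonoidHom.map_zpowers, Subgroup.map_bot] at h2
    exact h2

end Cfsg.Agent.S1986
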