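import Cfsg.Statements.S1993
import Mathlib
import Cfsg.Agent.Helper10.KStable

set_option autoImplicit false
universe u
open Cfsg

namespace Cfsg.Agent.S1993

/-- Let p be a prime, G a finite group with Sylow p-subgroup S, and K the upper K-infinity subgroup of S. If p ≥ 5 then S ∩ G' = S ∩ (N_G(K))'; and if p is odd and every section of G is p-stable in the normalizer form, then K controls strong fusion in G. -/
theorem result {G : Type u} [Group G] [Finite G] {p : ℕ} [Fact p.Prime] (S : Sylow p G) : (5 ≤ p → (S : Subgroup G) ⊓ commutator G = (S : Subgroup G) ⊓ ⁅Subgroup.normalizer ((Cfsg.inducedFunctor Cfsg.kInfUpper (S : Subgroup G) : Subgroup G) : Set G), Subgroup.normalizer ((Cfsg.inducedFunctor Cfsg.kInfUpper (S : Subgroup G) : Subgroup G) : Set G)⁆) ∧ (p ≠ 2 → (∀ (K R : Subgroup G) [hR : (R.subgroupOf K).Normal], Cfsg.IsNormalizerPStable p (↥K ⧸ R.subgroupOf K)) → Cfsg.ControlsStrongFusion p (Cfsg.inducedFunctor Cfsg.kInfUpper (S : Subgroup G))) := by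
  refine ⟨fun hp5 => ?_, fun _ hst => ?_⟩
  · have h1 := Cfsg.Agent.Helper10.tctl_kInfUpper hp5 G
    apply le_antisymm
    · refine le_trans (h1 S) ?_
      apply Cfsg.Agent.Helper10.tfoc_le_of
      intro W' hW'
      rw [Set.mem_singleton_iff.mp hW']
    · rw [_root_.commutator_def]
      exact inf_le_inf_left _ (Subgroup.commutator_mono le_top le_top)
  · exact Cfsg.Agent.Helper10.csf_of_qstab (fun (Q : Type u) [Group Q] => Cfsg.kInfUpper Q)
      Cfsg.Agent.Helper10.isCharPFunctor_kInfUpper
      (fun X _ _ S hc h => (Cfsg.Agent.Helper10.kinf_normal_of_qstab S hc h).2)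
      (Cfsg.Agent.Helper10.qstab_of_sections hst) S

end Cfsg.Agent.S1993
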