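import Cfsg.Statements.S1995
import Mathlib
import Cfsg.Agent.Helper10.SecTransfer2

set_option autoImplicit false
universe u
open Cfsg

namespace Cfsg.Agent.S1995

/-- Let p be a prime, G a finite group and 𝓦 a set of isomorphism-invariant p-group functors (W assigns to every group Q a subgroup W(Q), nontrivial whenever Q is a nontrivial finite p-group, and every isomorphism from a finite p-group Q onto a group R carries W(Q) onto W(R)). If the conjugacy functors induced by 𝓦 control transfer in every section G* = K/R of G with C_{G*}(O_p(G*)) ≤ O_p(G*), then they control transfer in G: S ∩ G' is generated by the subgroups S ∩ (N_G(W(S)))', W ∈ 𝓦, for a Sylow p-subgroup S. -/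
theorem result {G : Type u} [Group G] [Finite G] {p : ℕ} [Fact p.Prime] (𝓦 : Set (∀ (Q : Type u) [Group Q], Subgroup Q)) (h𝓦 : ∀ W ∈ 𝓦, Cfsg.IsCharPFunctor.{u} p W) (hloc : ∀ (K R : Subgroup G) [hR : (R.subgroupOf K).Normal], Subgroup.centralizer ((Cfsg.pCore p (↥K ⧸ R.subgroupOf K) : Subgroup (↥K ⧸ R.subgroupOf K)) : Set (↥K ⧸ R.subgroupOf K)) ≤ Cfsg.pCore p (↥K ⧸ R.subgroupOf K) → Cfsg.FamilyControlsTransferIn p ((fun W => Cfsg.inducedFunctor (G := (↥K ⧸ R.subgroupOf K)) W) '' 𝓦) ⊤) : Cfsg.FamilyControlsTransferIn p ((fun W => Cfsg.inducedFunctor (G := G) W) '' 𝓦) ⊤ := by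
  classical
  have hcons : ∀ (H : Type u) [Group H] [Finite H], Cfsg.Agent.Helper10.IsSec G H →
      Subgroup.centralizer ((Cfsg.pCore p H : Subgroup H) : Set H) ≤ Cfsg.pCore p H →
      Cfsg.Agent.Helper10.TCtl p 𝓦 H := by
    intro H _ _ hsec hc
    obtain ⟨K, R, hR, ⟨e⟩⟩ := hsec.exists_iso
    haveI : Finite (↥K ⧸ R.subgroupOf K) := Finite.of_equiv H e.symm.toEquiv
    exact Cfsg.Agent.Helper10.TCtl.equiv h𝓦 e (Cfsg.Agent.Helper10.tctl_of_ft h𝓦
      (hloc K R (Cfsg.Agent.Helper10.constrained_equiv e.symm hc)))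
  have hTT : ∀ (H : Type u) [Group H] [Finite H], Cfsg.Agent.Helper10.IsSec G H →
      ∀ T : Sylow p H, ⁅(T : Subgroup H), (T : Subgroup H)⁆ ≤
        Cfsg.Agent.Helper10.tfoc 𝓦 H (T : Subgroup H) := by
    intro H _ _ hsec T
    by_cases hne : 𝓦.Nonempty
    · exact Cfsg.Agent.Helper10.commutator_le_tfoc_of_nonempty h𝓦 hne T
    · have hsecT : Cfsg.Agent.Helper10.IsSec G ↥(T : Subgroup H) := hsec.sub _
      have hTp : IsPGroup p ↥(T : Subgroup H) := T.2
      have hcore : Cfsg.pCore p ↥(T : Subgroup H) = ⊤ :=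
        top_le_iff.mp (Cfsg.Agent.Helper23.le_pCore
          (inferInstance : (⊤ : Subgroup ↥(T : Subgroup H)).Normal) (hTp.to_subgroup _))
      have hc : Subgroup.centralizer ((Cfsg.pCore p ↥(T : Subgroup H) :
          Subgroup ↥(T : Subgroup H)) : Set ↥(T : Subgroup H)) ≤
          Cfsg.pCore p ↥(T : Subgroup H) := by
        rw [hcore]; exact le_top
      have h1 := hcons ↥(T : Subgroup H) hsecT hc
      obtain ⟨Q, hQ⟩ := (hTp.to_subgroup (⊤ : Subgroup ↥(T : Subgroup H))).exists_le_sylow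
      have hQ' : (Q : Subgroup ↥(T : Subgroup H)) = ⊤ := top_le_iff.mp hQ
      have h2 := h1 Q
      have h3 : Cfsg.Agent.Helper10.tfoc 𝓦 ↥(T : Subgroup H)
          (Q : Subgroup ↥(T : Subgroup H)) ≤ ⊥ :=
        Cfsg.Agent.Helper10.tfoc_le_of _ _ (fun W hW => absurd ⟨W, hW⟩ hne)
      have h4 : commutator ↥(T : Subgroup H) ≤ ⊥ := by
        have h5 := le_trans h2 h3
        rwa [hQ', top_inf_eq] at h5
      rw [← Subgroup.map_subtype_commutator, le_bot_iff.mp h4, Subgroup.map_bot]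
      exact bot_le
  have main := Cfsg.Agent.Helper10.tctl_main h𝓦
    (fun H _ => Cfsg.Agent.Helper10.IsSec G H)
    (fun H _ _ h L => h.sub L) (fun H _ _ h M _ => h.quot M)
    (fun H _ _ hsec hc T => le_trans (inf_le_inf_right _
      (Cfsg.Agent.Helper23.le_sylow_of_normal inferInstance
        (Cfsg.Agent.Helper23.pCore_isPGroup p) T)) (hcons H hsec hc T))
    hTT (Nat.card G) G rfl (Cfsg.Agent.Helper10.IsSec.refl G)
  exact Cfsg.Agent.Helper10.ft_of_tctl main

end Cfsg.Agent.S1995
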