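import Cfsg.Statements.S1996
import Mathlib
import Cfsg.Agent.Helper10.SecFusion2

set_option autoImplicit false
universe u
open Cfsg

namespace Cfsg.Agent.S1996

/-- Let p be a prime, G a finite group and W₁, W₂ two isomorphism-invariant p-group functors (W assigns to every group Q a subgroup W(Q), nontrivial whenever Q is a nontrivial finite p-group, and every isomorphism from a finite p-group Q onto a group R carries W(Q) onto W(R)). Suppose that G* = N_{G*}(W₁(S*)) N_{G*}(W₂(S*)) whenever G* = K/R is a section of G with C_{G*}(O_p(G*)) ≤ O_p(G*) and S* is a Sylow p-subgroup of G*. Then the pair {W₁, W₂} controls strong fusion in G. -/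
theorem result {G : Type u} [Group G] [Finite G] {p : ℕ} [Fact p.Prime] (W₁ W₂ : ∀ (Q : Type u) [Group Q], Subgroup Q) (hW₁ : Cfsg.IsCharPFunctor.{u} p W₁) (hW₂ : Cfsg.IsCharPFunctor.{u} p W₂) (hfac : ∀ (K R : Subgroup G) [hR : (R.subgroupOf K).Normal], Subgroup.centralizer ((Cfsg.pCore p (↥K ⧸ R.subgroupOf K) : Subgroup (↥K ⧸ R.subgroupOf K)) : Set (↥K ⧸ R.subgroupOf K)) ≤ Cfsg.pCore p (↥K ⧸ R.subgroupOf K) → ∀ T : Sylow p (↥K ⧸ R.subgroupOf K), ∀ x : (↥K ⧸ R.subgroupOf K), ∃ a ∈ Subgroup.normalizer ((Cfsg.inducedFunctor (G := (↥K ⧸ R.subgroupOf K)) W₁ (T : Subgroup (↥K ⧸ R.subgroupOf K)) : Subgroup (↥K ⧸ R.subgroupOf K)) : Set (↥K ⧸ R.subgroupOf K)), ∃ b ∈ Subgroup.normalizer ((Cfsg.inducedFunctor (G := (↥K ⧸ R.subgroupOf K)) W₂ (T : Subgroup (↥K ⧸ R.subgroupOf K)) : Subgroup (↥K ⧸ R.subgroupOf K)) : Set (↥K ⧸ R.subgroupOf K)), x = a * b) : Cfsg.FamilyControlsStrongFusionIn p {Cfsg.inducedFunctor (G := G) W₁,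 Cfsg.inducedFunctor (G := G) W₂} ⊤ := by
  classical
  have h𝓦 : ∀ W' ∈ ({W₁, W₂} : Set (∀ (Q : Type u) [Group Q], Subgroup Q)),
      Cfsg.IsCharPFunctor.{u} p W' := by
    intro W' hW'
    rcases hW' with hW' | hW'
    · rw [hW']; exact hW₁
    · rw [Set.mem_singleton_iff] at hW'; rw [hW']; exact hW₂
  have main := Cfsg.Agent.Helper10.ctl_main' h𝓦
    (fun H _ => Cfsg.Agent.Helper10.IsSec G H)
    (fun H _ _ h L => h.sub L) (fun H _ _ h M _ => h.quot M) ?_ G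
    (Cfsg.Agent.Helper10.IsSec.refl G)
  · have h3 := Cfsg.Agent.Helper10.fcsf_of_ctl main
    have e : Cfsg.Agent.Helper10.fam {W₁, W₂} G =
        {Cfsg.inducedFunctor (G := G) W₁, Cfsg.inducedFunctor (G := G) W₂} :=
      Set.image_pair _ _ _
    rw [e] at h3
    exact h3
  · intro H _ _ hsec hcons
    obtain ⟨K, R, hR, ⟨e⟩⟩ := hsec.exists_iso
    haveI : Finite (↥K ⧸ R.subgroupOf K) := Finite.of_equiv H e.symm.toEquiv
    have h1 := hfac K R (Cfsg.Agent.Helper10.constrained_equiv e.symm hcons)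
    refine Cfsg.Agent.Helper10.Ctl.equiv h𝓦 e ?_
    intro T A g hA hgA
    obtain ⟨a, ha, b, hb, hgab⟩ := h1 T g
    have hp : p.Prime := Fact.out
    have hT1 : (T : Subgroup (↥K ⧸ R.subgroupOf K)) ≤ Subgroup.normalizer
        ((Cfsg.inducedFunctor W₁ (T : Subgroup (↥K ⧸ R.subgroupOf K)) :
          Subgroup (↥K ⧸ R.subgroupOf K)) : Set (↥K ⧸ R.subgroupOf K)) :=
      fun t ht => Cfsg.Agent.Helper10.normalizer_le_normalizer_ind W₁ hW₁ _ T.2
        (Subgroup.le_normalizer ht)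
    have hT2 : (T : Subgroup (↥K ⧸ R.subgroupOf K)) ≤ Subgroup.normalizer
        ((Cfsg.inducedFunctor W₂ (T : Subgroup (↥K ⧸ R.subgroupOf K)) :
          Subgroup (↥K ⧸ R.subgroupOf K)) : Set (↥K ⧸ R.subgroupOf K)) :=
      fun t ht => Cfsg.Agent.Helper10.normalizer_le_normalizer_ind W₂ hW₂ _ T.2
        (Subgroup.le_normalizer ht)
    have hidx : ¬ p ∣ (T : Subgroup (↥K ⧸ R.subgroupOf K)).relIndex
        (Subgroup.normalizer
          ((Cfsg.inducedFunctor W₁ (T : Subgroup (↥K ⧸ R.subgroupOf K)) :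
            Subgroup (↥K ⧸ R.subgroupOf K)) : Set (↥K ⧸ R.subgroupOf K)) ⊓
         Subgroup.normalizer
          ((Cfsg.inducedFunctor W₂ (T : Subgroup (↥K ⧸ R.subgroupOf K)) :
            Subgroup (↥K ⧸ R.subgroupOf K)) : Set (↥K ⧸ R.subgroupOf K))) := by
      intro hd
      exact T.not_dvd_index (dvd_trans hd
        (Dvd.intro _ (Subgroup.relIndex_mul_index (le_inf hT1 hT2))))
    have hBp : IsPGroup p (Subgroup.closure (Cfsg.Agent.Helper10.lc b A)) := by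
      have hle : Subgroup.closure (Cfsg.Agent.Helper10.lc b A) ≤
          (T : Subgroup (↥K ⧸ R.subgroupOf K)).map (MulAut.conj b).toMonoidHom := by
        rw [Subgroup.closure_le]
        rintro _ ⟨x, hx, rfl⟩
        exact ⟨x, hA hx, rfl⟩
      exact (T.2.map _).to_le hle
    have hBN : Subgroup.closure (Cfsg.Agent.Helper10.lc b A) ≤
        (Subgroup.normalizer
          ((Cfsg.inducedFunctor W₁ (T : Subgroup (↥K ⧸ R.subgroupOf K)) :
            Subgroup (↥K ⧸ R.subgroupOf K)) : Set (↥K ⧸ R.subgroupOf K)) ⊓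
         Subgroup.normalizer
          ((Cfsg.inducedFunctor W₂ (T : Subgroup (↥K ⧸ R.subgroupOf K)) :
            Subgroup (↥K ⧸ R.subgroupOf K)) : Set (↥K ⧸ R.subgroupOf K))) := by
      rw [Subgroup.closure_le]
      rintro _ ⟨x, hx, rfl⟩
      refine ⟨?_, ?_⟩
      · have h2 : g * x * g⁻¹ ∈ (T : Subgroup (↥K ⧸ R.subgroupOf K)) := hgA ⟨x, hx, rfl⟩
        have e2 : b * x * b⁻¹ = a⁻¹ * (g * x * g⁻¹) * a := by rw [hgab]; group
        show b * x * b⁻¹ ∈ _
        rw [e2]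
        exact Subgroup.mul_mem _ (Subgroup.mul_mem _ (Subgroup.inv_mem _ ha) (hT1 h2)) ha
      · exact Subgroup.mul_mem _ (Subgroup.mul_mem _ hb (hT2 (hA hx))) (Subgroup.inv_mem _ hb)
    obtain ⟨y, hy, hyB⟩ := Cfsg.Agent.Helper10.exists_conj_into_of_relIndex _
      (T : Subgroup (↥K ⧸ R.subgroupOf K)) T.2 hidx _ hBp hBN
    have hstep1 : y * b ∈ Cfsg.Agent.Helper10.stepSet
        (Cfsg.Agent.Helper10.fam {W₁, W₂} (↥K ⧸ R.subgroupOf K)) ⊤
        (T : Subgroup (↥K ⧸ R.subgroupOf K)) := by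
      rw [Cfsg.Agent.Helper10.mem_stp]
      exact ⟨W₂, Set.mem_insert_of_mem _ rfl, Subgroup.mem_top _,
        Subgroup.mul_mem _ hy.2 hb⟩
    have hstep2 : a * y⁻¹ ∈ Cfsg.Agent.Helper10.stepSet
        (Cfsg.Agent.Helper10.fam {W₁, W₂} (↥K ⧸ R.subgroupOf K)) ⊤
        (T : Subgroup (↥K ⧸ R.subgroupOf K)) := by
      rw [Cfsg.Agent.Helper10.mem_stp]
      exact ⟨W₁, Set.mem_insert _ _, Subgroup.mem_top _,
        Subgroup.mul_mem _ ha (Subgroup.inv_mem _ hy.1)⟩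
    have hybA : Cfsg.Agent.Helper10.lc (y * b) A ⊆
        ((T : Subgroup (↥K ⧸ R.subgroupOf K)) : Set (↥K ⧸ R.subgroupOf K)) := by
      rintro _ ⟨x, hx, rfl⟩
      have h2 := hyB (b * x * b⁻¹) (Subgroup.subset_closure ⟨x, hx, rfl⟩)
      have e2 : y * b * x * (y * b)⁻¹ = y * (b * x * b⁻¹) * y⁻¹ := by group
      show y * b * x * (y * b)⁻¹ ∈ _
      rw [e2]; exact h2
    have hg2 : a * y⁻¹ * (y * b) = g := by rw [hgab]; group
    have hch := Cfsg.Agent.Helper10.Ch.step A (y * b) (a * y⁻¹)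
      (Cfsg.Agent.Helper10.Ch.single hstep1 hA hybA) hstep2 (by rw [hg2]; exact hgA)
    rw [hg2] at hch
    exact Cfsg.Agent.Helper10.Good.of_ch hch

end Cfsg.Agent.S1996
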