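import Cfsg.Statements.S1998
import Mathlib
import Cfsg.Agent.Helper10.MinCex

set_option autoImplicit false
universe u
open Cfsg

namespace Cfsg.Agent.S1998

/-- Let p be a prime, G a finite group with Sylow p-subgroup S, and 𝓦 a nonempty set of isomorphism-invariant p-group functors (W assigns to every group Q a subgroup W(Q), nontrivial whenever Q is a nontrivial finite p-group, and every isomorphism from a finite p-group Q onto a group R carries W(Q) onto W(R)). Suppose the induced conjugacy functors control transfer in every section of G other than G itself, but not in G. Let T be the subgroup generated by the S ∩ (N_G(W(S)))', W ∈ 𝓦, and M = N_G(T ∩ O_p(G)). Then: C_G(O_p(G)) ≤ O_p(G); M is a proper subgroup of G containing every proper subgroup of G that contains S (the unique maximal subgroup over S); [O_p(G), M] ≤ O_p(G) ∩ M' ≤ O_p(G) ∩ T; and every element u of S outside O_p(G) satisfies [X, u, …, u]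 ≰ Y with p − 1 entries u, for some chief factor X/Y of G with X ≤ O_p(G). -/
theorem result {G : Type u} [Group G] [Finite G] {p : ℕ} [Fact p.Prime] (S : Sylow p G) (𝓦 : Set (∀ (Q : Type u) [Group Q], Subgroup Q)) (h𝓦 : ∀ W ∈ 𝓦, Cfsg.IsCharPFunctor.{u} p W) (hne : 𝓦.Nonempty) (hsec : ∀ (K R : Subgroup G) [hR : (R.subgroupOf K).Normal], (K = ⊤ → R ≠ ⊥) → Cfsg.FamilyControlsTransferIn p ((fun W => Cfsg.inducedFunctor (G := (↥K ⧸ R.subgroupOf K)) W) '' 𝓦) ⊤) (hG : ¬ Cfsg.FamilyControlsTransferIn p ((fun W => Cfsg.inducedFunctor (G := G) W) '' 𝓦) ⊤) (T M : Subgroup G) (hT : T = (⨆ W ∈ 𝓦, (S : Subgroup G) ⊓ ⁅Subgroup.normalizer ((Cfsg.inducedFunctor (G := G) W (S : Subgroup G) : Subgroup G) : Set G), Subgroup.normalizer ((Cfsg.inducedFunctor (G := G) W (S : Subgroup G) : Subgroup G) : Set G)⁆)) (hM : M = Subgroup.normalizer ((T ⊓ Cfsg.pCore p G : Subgroup G) : Set G)) : Subgroup.centralizer ((Cfsg.pCore p G : Subgroup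 G) : Set G) ≤ Cfsg.pCore p G ∧ (M ≠ ⊤ ∧ ∀ H : Subgroup G, (S : Subgroup G) ≤ H → H ≠ ⊤ → H ≤ M) ∧ (⁅Cfsg.pCore p G, M⁆ ≤ Cfsg.pCore p G ⊓ ⁅M, M⁆ ∧ Cfsg.pCore p G ⊓ ⁅M, M⁆ ≤ Cfsg.pCore p G ⊓ T) ∧ ∀ u : G, u ∈ (S : Subgroup G) → u ∉ Cfsg.pCore p G → ∃ U V : Subgroup G, Cfsg.IsChiefFactor U V ∧ U ≤ Cfsg.pCore p G ∧ ¬ Cfsg.iterCommutator U (Subgroup.zpowers u) (p - 1) ≤ V := by
  classical
  have hsecT : ∀ (H : Type u) [Group H] [Finite H], Cfsg.Agent.Helper10.IsSec G H →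
      Nat.card H < Nat.card G → Cfsg.Agent.Helper10.TCtl p 𝓦 H := by
    intro H _ _ hs hcard
    obtain ⟨K, R, hR, ⟨e⟩⟩ := hs.exists_iso
    haveI : Finite (↥K ⧸ R.subgroupOf K) := Finite.of_equiv H e.symm.toEquiv
    refine Cfsg.Agent.Helper10.TCtl.equiv h𝓦 e (Cfsg.Agent.Helper10.tctl_of_ft h𝓦
      (hsec K R ?_))
    intro hK hRb
    subst hK
    subst hRb
    have h1 : Nat.card (↥(⊤ : Subgroup G) ⧸ (⊥ : Subgroup G).subgroupOf ⊤) = Nat.card G := by
      rw [← Subgroup.index_eq_card, Subgroup.bot_subgroupOf, Subgroup.index_bot,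
        Subgroup.card_top]
    have h2 : Nat.card (↥(⊤ : Subgroup G) ⧸ (⊥ : Subgroup G).subgroupOf ⊤) = Nat.card H :=
      Nat.card_congr e.toEquiv
    omega
  have hsub : ∀ L : Subgroup G, L ≠ ⊤ → Cfsg.Agent.Helper10.TCtl p 𝓦 ↥L := fun L hL =>
    hsecT ↥L ((Cfsg.Agent.Helper10.IsSec.refl G).sub L) (Cfsg.Agent.Helper10.card_lt_of_ne_top hL)
  have hquot : ∀ (N : Subgroup G) [N.Normal], N ≠ ⊥ →
      Cfsg.Agent.Helper10.TCtl p 𝓦 (G ⧸ N) := fun N _ hN =>
    hsecT (G ⧸ N) ((Cfsg.Agent.Helper10.IsSec.refl G).quot N)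
      (Cfsg.Agent.Helper10.card_quot_lt_of_ne_bot hN)
  have hT' : T = Cfsg.Agent.Helper10.tfoc 𝓦 G (S : Subgroup G) := hT
  have hX : ¬ (S : Subgroup G) ⊓ commutator G ≤
      Cfsg.Agent.Helper10.tfoc 𝓦 G (S : Subgroup G) := by
    intro h
    apply hG
    refine ⟨S, le_top, S.2, by rw [Subgroup.relIndex_top_right]; exact S.not_dvd_index, ?_⟩
    have h1 := Cfsg.Agent.Helper10.ft_iff_aux (𝓦 := 𝓦) (X := G) (S : Subgroup G)
    unfold Cfsg.Agent.Helper10.fam at h1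
    rw [h1, ← _root_.commutator_def]
    exact le_antisymm h (Cfsg.Agent.Helper10.tfoc_le _)
  obtain ⟨hcons, hSne, ⟨hb4, hb3⟩, hb1, hd⟩ :=
    Cfsg.Agent.Helper10.mincex_structure h𝓦 hne S hsub hquot hX
  rw [← hT', ← hM] at hb4 hb3
  rw [← hT'] at hb1
  have hPS : Cfsg.pCore p G ≤ (S : Subgroup G) :=
    Cfsg.Agent.Helper23.le_sylow_of_normal inferInstance (Cfsg.Agent.Helper23.pCore_isPGroup p) S
  have hSM : (S : Subgroup G) ≤ M := hb3 _ le_rfl hSne
  refine ⟨hcons, ⟨hb4, hb3⟩, ⟨?_, ?_⟩, hd⟩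
  · exact le_inf (Subgroup.commutator_le_left _ _)
      (Subgroup.commutator_mono (hPS.trans hSM) le_rfl)
  · exact le_inf inf_le_left
      (le_trans (le_inf (inf_le_left.trans hPS) inf_le_right) (hb1 M hSM hb4))

end Cfsg.Agent.S1998
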