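import Cfsg.Statements.S2005
import Mathlib
import Cfsg.Agent.Helper10.NpcMin

set_option autoImplicit false
universe u
open Cfsg

namespace Cfsg.Agent.S2005

/-- Thompson's normal p-complement criterion in functor form. Let p be a prime, G a finite group with Sylow p-subgroup S, and W an isomorphism-invariant p-group functor (W assigns to every group Q a subgroup W(Q), nontrivial whenever Q is a nontrivial finite p-group, and every isomorphism from a finite p-group Q onto a group R carries W(Q) onto W(R)). Suppose N_G(W(S)) has a normal p-complement, and that W(S*) is normal in G* whenever G* = K/R is a section of G with C_{G*}(O_p(G*)) ≤ O_p(G*) such that G*/O_p(G*) has a normal p-complement, and S* is a Sylow p-subgroup of G* that is a maximal subgroup of G*. Then G has a normal p-complement. -/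
theorem result {G : Type u} [Group G] [Finite G] {p : ℕ} [Fact p.Prime] (W : ∀ (Q : Type u) [Group Q], Subgroup Q) (hW : Cfsg.IsCharPFunctor.{u} p W) (S : Sylow p G) (hN : Cfsg.HasNormalPComplement p ↥(Subgroup.normalizer ((Cfsg.inducedFunctor (G := G) W (S : Subgroup G) : Subgroup G) : Set G))) (hloc : ∀ (K R : Subgroup G) [hR : (R.subgroupOf K).Normal], Subgroup.centralizer ((Cfsg.pCore p (↥K ⧸ R.subgroupOf K) : Subgroup (↥K ⧸ R.subgroupOf K)) : Set (↥K ⧸ R.subgroupOf K)) ≤ Cfsg.pCore p (↥K ⧸ R.subgroupOf K) → Cfsg.HasNormalPComplement p ((↥K ⧸ R.subgroupOf K) ⧸ Cfsg.pCore p (↥K ⧸ R.subgroupOf K)) → ∀ T : Sylow p (↥K ⧸ R.subgroupOf K), IsCoatom (T : Subgroup (↥K ⧸ R.subgroupOf K)) → (Cfsg.inducedFunctor (G := (↥K ⧸ R.subgroupOf K)) W ((T : Subgroup (↥K ⧸ R.subgroupOf K)))).Normal) : Cfsg.HasNormalPComplement p G := by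
  classical
  refine Cfsg.Agent.Helper10.npc_reduction W hW (fun H _ => Cfsg.Agent.Helper10.IsSec G H)
    (fun H _ _ h L => h.sub L) (fun H _ _ h M _ => h.quot M) ?_ (Nat.card G) G rfl
    (Cfsg.Agent.Helper10.IsSec.refl G) S hN
  intro H _ _ hsec T hms hT
  obtain ⟨K, R, hR, ⟨e⟩⟩ := hsec.exists_iso
  haveI : Finite (↥K ⧸ R.subgroupOf K) := Finite.of_equiv H e.symm.toEquiv
  have h1 := hloc K R (Cfsg.Agent.Helper10.constrained_equiv e.symm hms.cons) ?_
    (Cfsg.Agent.Helper10.sylowEquiv e T) ?_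
  · have h2 : Cfsg.inducedFunctor W (T : Subgroup H) =
        (Cfsg.inducedFunctor W ((Cfsg.Agent.Helper10.sylowEquiv e T : Sylow p _) :
          Subgroup (↥K ⧸ R.subgroupOf K))).map e.toMonoidHom := by
      rw [← Cfsg.Agent.Helper10.ind_map_inj W hW e.toMonoidHom e.injective _
        (Cfsg.Agent.Helper10.sylowEquiv e T).2, Cfsg.Agent.Helper10.map_sylowEquiv]
    have h3 : (Cfsg.inducedFunctor W (T : Subgroup H)).Normal := by
      rw [h2]; exact h1.map _ e.surjective
    apply hms.nnpc
    have h4 := Subgroup.normalizer_eq_top_iff.mpr h3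
    rw [h4] at hT
    exact Cfsg.Agent.Helper10.npc_of_equiv Subgroup.topEquiv hT
  · exact Cfsg.Agent.Helper10.npc_of_equiv
      (QuotientGroup.congr (Cfsg.pCore p H) (Cfsg.pCore p (↥K ⧸ R.subgroupOf K)) e.symm
        (Cfsg.Agent.Helper10.pCore_map_equiv e.symm)) hms.quot
  · rw [Cfsg.Agent.Helper10.coe_sylowEquiv]
    have h5 : (T : Subgroup H).comap e.toMonoidHom = (MulEquiv.mapSubgroup e.symm) (T : Subgroup H) := by
      ext x
      simp only [MulEquiv.mapSubgroup, Subgroup.mem_comap, MulEquiv.coe_toMonoidHom,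
        RelIso.coe_fn_mk, Equiv.coe_fn_mk, Subgroup.mem_map]
      constructor
      · intro h; exact ⟨e x, h, by simp⟩
      · rintro ⟨y, hy, rfl⟩; simpa using hy
    rw [h5]
    exact (OrderIso.isCoatom_iff (MulEquiv.mapSubgroup e.symm) _).mpr hms.coatom

end Cfsg.Agent.S2005
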