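import Cfsg.Statements.S2006
import Mathlib
import Cfsg.Agent.Helper10.NpcChief

set_option autoImplicit false
universe u
open Cfsg

namespace Cfsg.Agent.S2006

/-- Let p be a prime, G a finite group with Sylow p-subgroup S, and W an isomorphism-invariant p-group functor (W assigns to every group Q a subgroup W(Q), nontrivial whenever Q is a nontrivial finite p-group, and every isomorphism from a finite p-group Q onto a group R carries W(Q) onto W(R)). Suppose N_G(W(S)) has a normal p-complement, and that whenever G* = K/R is a section of G with C_{G*}(O_p(G*)) ≤ O_p(G*) and S* is a Sylow p-subgroup of G* with W(S*) not normal in G*, there are an element g of S* outside O_p(G*) and a chief factor X/Y of G* with X ≤ O_p(G*) such that [X, g, …, g] ≤ Y with p − 1 entries g but [X, g] ≰ Y. Then G has a normal p-complement. -/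
theorem result {G : Type u} [Group G] [Finite G] {p : ℕ} [Fact p.Prime] (W : ∀ (Q : Type u) [Group Q], Subgroup Q) (hW : Cfsg.IsCharPFunctor.{u} p W) (S : Sylow p G) (hN : Cfsg.HasNormalPComplement p ↥(Subgroup.normalizer ((Cfsg.inducedFunctor (G := G) W (S : Subgroup G) : Subgroup G) : Set G))) (hloc : ∀ (K R : Subgroup G) [hR : (R.subgroupOf K).Normal], Subgroup.centralizer ((Cfsg.pCore p (↥K ⧸ R.subgroupOf K) : Subgroup (↥K ⧸ R.subgroupOf K)) : Set (↥K ⧸ R.subgroupOf K)) ≤ Cfsg.pCore p (↥K ⧸ R.subgroupOf K) → ∀ T : Sylow p (↥K ⧸ R.subgroupOf K), ¬ (Cfsg.inducedFunctor (G := (↥K ⧸ R.subgroupOf K)) W ((T : Subgroup (↥K ⧸ R.subgroupOf K)))).Normal → ∃ g : (↥K ⧸ R.subgroupOf K), g ∈ (T : Subgroup (↥K ⧸ R.subgroupOf K)) ∧ g ∉ Cfsg.pCore p (↥K ⧸ R.subgroupOf K) ∧ ∃ U V : Subgroup (↥K ⧸ R.subgroupOf K), Cfsg.IsChiefFactor U V ∧ U ≤ Cfsg.pCore p (↥K ⧸ R.subgroupOf K) ∧ Cfsg.iterCommutator U (Subgroup.zpowers g) (p - 1) ≤ V ∧ ¬ ⁅U, Subgroup.zpowers g⁆ ≤ V) :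 Cfsg.HasNormalPComplement p G := by
  classical
  refine Cfsg.Agent.Helper10.npc_reduction W hW (fun H _ => Cfsg.Agent.Helper10.IsSec G H)
    (fun H _ _ h L => h.sub L) (fun H _ _ h M _ => h.quot M) ?_ (Nat.card G) G rfl
    (Cfsg.Agent.Helper10.IsSec.refl G) S hN
  intro H _ _ hsec T hms hT
  obtain ⟨K, R, hR, ⟨e⟩⟩ := hsec.exists_iso
  haveI : Finite (↥K ⧸ R.subgroupOf K) := Finite.of_equiv H e.symm.toEquiv
  have hnn : ¬ (Cfsg.inducedFunctor W (T : Subgroup H)).Normal := by
    intro h3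
    apply hms.nnpc
    have h4 := Subgroup.normalizer_eq_top_iff.mpr h3
    rw [h4] at hT
    exact Cfsg.Agent.Helper10.npc_of_equiv Subgroup.topEquiv hT
  have h2 : Cfsg.inducedFunctor W (T : Subgroup H) =
      (Cfsg.inducedFunctor W ((Cfsg.Agent.Helper10.sylowEquiv e T : Sylow p _) :
        Subgroup (↥K ⧸ R.subgroupOf K))).map e.toMonoidHom := by
    rw [← Cfsg.Agent.Helper10.ind_map_inj W hW e.toMonoidHom e.injective _
      (Cfsg.Agent.Helper10.sylowEquiv e T).2, Cfsg.Agent.Helper10.map_sylowEquiv]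
  obtain ⟨g', hg'T, hg'P, U', V', hUV', hU'P, hit', hnc'⟩ :=
    hloc K R (Cfsg.Agent.Helper10.constrained_equiv e.symm hms.cons)
      (Cfsg.Agent.Helper10.sylowEquiv e T) (by
        intro h1; apply hnn; rw [h2]; exact h1.map _ e.surjective)
  have hz : (Subgroup.zpowers g').map e.toMonoidHom = Subgroup.zpowers (e g') := by
    rw [MonoidHom.map_zpowers]; rfl
  apply Cfsg.Agent.Helper10.min_no_chief hms (e g') ?_ ?_ (U'.map e.toMonoidHom)
    (V'.map e.toMonoidHom) (Cfsg.Agent.Helper10.isChiefFactor_map_equiv e hUV') ?_ ?_ ?_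
  · rw [Cfsg.Agent.Helper10.coe_sylowEquiv] at hg'T; exact hg'T
  · rw [Cfsg.Agent.Helper10.mem_pCore_equiv e]; exact hg'P
  · rw [← Cfsg.Agent.Helper10.pCore_map_equiv e]; exact Subgroup.map_mono hU'P
  · rw [← hz, ← Cfsg.Agent.Helper10.iterCommutator_map]
    exact Subgroup.map_mono hit'
  · intro hle
    apply hnc'
    rw [← hz, ← Subgroup.map_commutator] at hle
    exact (Subgroup.map_le_map_iff_of_injective e.injective).mp hle

end Cfsg.Agent.S2006
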