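import Cfsg.Statements.S2009
import Mathlib

set_option autoImplicit false
open Cfsg

namespace Cfsg.Agent.S2009


/-- An element `e` with `e * e = 1` acting fixed-point-freely on a finite normal subgroup `N` inverts it. -/
theorem inverts_of_fpf {H : Type*} [Group H] [Finite H] (N : Subgroup H) [N.Normal] (e : H)
    (he : e * e = 1) (hfpf : N ⊓ Subgroup.centralizer ({e} : Set H) = ⊥) :
    ∀ n ∈ N, e * n * e⁻¹ = n⁻¹ := by
  have hinv : e⁻¹ = e := inv_eq_of_mul_eq_one_left he
  -- the map n ↦ n⁻¹ * (e * n * e⁻¹) on N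
  let f : N → N := fun n => ⟨(n : H)⁻¹ * (e * n * e⁻¹),
    N.mul_mem (N.inv_mem n.2) (Subgroup.Normal.conj_mem inferInstance _ n.2 e)⟩
  have hf : Function.Injective f := by
    intro m n hmn
    have h1 : (m : H)⁻¹ * (e * m * e⁻¹) = (n : H)⁻¹ * (e * n * e⁻¹) := congrArg Subtype.val hmn
    have h2 : (n : H) * (m : H)⁻¹ ∈ N ⊓ Subgroup.centralizer ({e} : Set H) := by
      refine Subgroup.mem_inf.2 ⟨N.mul_mem n.2 (N.inv_mem m.2), ?_⟩
      rw [Subgroup.mem_centralizer_iff]
      intro y hy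
      rw [Set.mem_singleton_iff] at hy
      rw [hy]
      have h4 : (m : H)⁻¹ * e * m = (n : H)⁻¹ * e * n := by
        calc (m : H)⁻¹ * e * m = ((m : H)⁻¹ * (e * m * e⁻¹)) * e := by group
          _ = ((n : H)⁻¹ * (e * n * e⁻¹)) * e := by rw [h1]
          _ = (n : H)⁻¹ * e * n := by group
      calc e * ((n : H) * (m : H)⁻¹) = n * ((n : H)⁻¹ * e * n) * (m : H)⁻¹ := by group
        _ = n * ((m : H)⁻¹ * e * m) * (m : H)⁻¹ := by rw [h4]
        _ = (n : H) * (m : H)⁻¹ * e := by group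
    rw [hfpf, Subgroup.mem_bot] at h2
    have h5 : (n : H) = m := by
      have := mul_inv_eq_one.1 h2
      exact this
    exact Subtype.ext h5.symm
  have hs : Function.Surjective f := Finite.surjective_of_injective hf
  intro n hn
  obtain ⟨m, hm⟩ := hs ⟨n, hn⟩
  have h1 : (m : H)⁻¹ * (e * m * e⁻¹) = n := congrArg Subtype.val hm
  rw [← h1]
  have hee : e⁻¹ * e⁻¹ = 1 := by rw [← mul_inv_rev, he, inv_one]
  calc e * ((m : H)⁻¹ * (e * m * e⁻¹)) * e⁻¹ = e * (m : H)⁻¹ * e * m * (e⁻¹ * e⁻¹) := by group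
    _ = e * (m : H)⁻¹ * e * m := by rw [hee, mul_one]
    _ = e * (m : H)⁻¹ * e⁻¹ * m := by rw [hinv]
    _ = ((m : H)⁻¹ * (e * m * e⁻¹))⁻¹ := by group

/-- Core: under the hypotheses, every proper normal subgroup is trivial. -/
theorem proper_normal_eq_bot {H : Type*} [Group H] [Finite H] (z : H) (hz : orderOf z = 2)
    (hN : ∀ N : Subgroup H, N.Normal → N ≠ ⊤ → N ⊓ Subgroup.centralizer ({z} : Set H) = ⊥)
    (E : Subgroup H) (hE : IsKleinFour ↥E) (hzE : z ∈ E) (hc : ∀ e ∈ E, e ≠ 1 → IsConj z e)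
    (N : Subgroup H) [hNn : N.Normal] (hNtop : N ≠ ⊤) : N = ⊥ := by
  have hz1 : z ≠ 1 := by
    intro h; rw [h, orderOf_one] at hz; omega
  -- squares in E are trivial
  have hsq : ∀ e ∈ E, e * e = 1 := by
    intro e he
    have := IsKleinFour.mul_self (⟨e, he⟩ : E)
    exact congrArg Subtype.val this
  -- fixed-point-freeness for all nontrivial e ∈ E
  have hfpf : ∀ e ∈ E, e ≠ 1 → N ⊓ Subgroup.centralizer ({e} : Set H) = ⊥ := by
    intro e he he1
    obtain ⟨c, hc'⟩ := isConj_iff.1 (hc e he he1)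
    rw [eq_bot_iff]
    intro n hn
    rw [Subgroup.mem_bot]
    obtain ⟨hnN, hnC⟩ := Subgroup.mem_inf.1 hn
    rw [Subgroup.mem_centralizer_iff] at hnC
    have hne : e * n = n * e := hnC e rfl
    have h1 : c⁻¹ * n * c ∈ N ⊓ Subgroup.centralizer ({z} : Set H) := by
      refine Subgroup.mem_inf.2 ⟨?_, ?_⟩
      · have := Subgroup.Normal.conj_mem hNn n hnN c⁻¹
        simpa using this
      · rw [Subgroup.mem_centralizer_iff]
        intro y hy
        rw [Set.mem_singleton_iff] at hy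
        subst hy
        have hy2 : y = c⁻¹ * e * c := by rw [← hc']; group
        rw [hy2]
        calc c⁻¹ * e * c * (c⁻¹ * n * c) = c⁻¹ * (e * n) * c := by group
          _ = c⁻¹ * (n * e) * c := by rw [hne]
          _ = c⁻¹ * n * c * (c⁻¹ * e * c) := by group
    rw [hN N hNn hNtop, Subgroup.mem_bot] at h1
    have : n = c * (c⁻¹ * n * c) * c⁻¹ := by group
    rw [this, h1]; group
  -- pick e ∈ E with e ≠ 1, e ≠ z
  have hex : ∃ e ∈ E, e ≠ 1 ∧ e ≠ z := by
    by_contra hcon
    push Not at hcon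
    have hsub : (E : Set H) ⊆ {1, z} := by
      intro e he
      by_cases h1 : e = 1
      · left; exact h1
      · right; exact hcon e he h1
    have hcard : Nat.card E = 4 := IsKleinFour.card_four
    have h2 : (E : Set H).ncard ≤ ({1, z} : Set H).ncard := Set.ncard_le_ncard hsub (Set.toFinite _)
    have h3 : ({1, z} : Set H).ncard ≤ 2 := Set.ncard_insert_le _ _ |>.trans (by simp)
    have h4 : Nat.card E = (E : Set H).ncard := Nat.card_coe_set_eq _
    omega
  obtain ⟨e, heE, he1, hez⟩ := hex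
  have hze1 : z * e ≠ 1 := by
    intro h
    have : z = e⁻¹ := eq_inv_of_mul_eq_one_left h
    have h2 : e⁻¹ = e := inv_eq_of_mul_eq_one_left (hsq e heE)
    exact hez (by rw [this, h2])
  have hzeE : z * e ∈ E := E.mul_mem hzE heE
  have i1 := inverts_of_fpf N z (hsq z hzE) (hfpf z hzE hz1)
  have i2 := inverts_of_fpf N e (hsq e heE) (hfpf e heE he1)
  rw [eq_bot_iff]
  intro n hn
  have h3 : n ∈ N ⊓ Subgroup.centralizer ({z * e} : Set H) := by
    refine Subgroup.mem_inf.2 ⟨hn, ?_⟩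
    rw [Subgroup.mem_centralizer_iff]
    intro y hy
    rw [Set.mem_singleton_iff] at hy
    subst hy
    have h4 : z * e * n * (z * e)⁻¹ = n := by
      calc z * e * n * (z * e)⁻¹ = z * (e * n * e⁻¹) * z⁻¹ := by group
        _ = z * n⁻¹ * z⁻¹ := by rw [i2 n hn]
        _ = (n⁻¹)⁻¹ := i1 n⁻¹ (N.inv_mem hn)
        _ = n := inv_inv n
    calc z * e * n = (z * e * n * (z * e)⁻¹) * (z * e) := by group
      _ = n * (z * e) := by rw [h4]
  rw [hfpf (z * e) hzeE hze1] at h3
  exact h3

/-- Let H be a finite group and z an involution such that every proper normal subgroup of H meets the centralizer of z trivially, and suppose z lies in a Klein four-subgroup E of H all three of whose involutions are conjugate to z in H. Then H is simple. -/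
theorem result {H : Type*} [Group H] [Finite H] (z : H) (hz : orderOf z = 2) (hN : ∀ N : Subgroup H, N.Normal → N ≠ ⊤ → N ⊓ Subgroup.centralizer ({z} : Set H) = ⊥) (E : Subgroup H) (hE : IsKleinFour ↥E) (hzE : z ∈ E) (hc : ∀ e ∈ E, e ≠ 1 → IsConj z e) : IsSimpleGroup H := by
  have hz1 : z ≠ 1 := by
    intro h; rw [h, orderOf_one] at hz; omega
  have : Nontrivial H := ⟨⟨z, 1, hz1⟩⟩
  refine ⟨fun N hNn => ?_⟩
  by_cases hNtop : N = ⊤
  · right; exact hNtop
  · left; exact proper_normal_eq_bot z hz hN E hE hzE hc N hNtop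

end Cfsg.Agent.S2009
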