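import Cfsg.Statements.S2008
import Mathlib
import Cfsg.Agent.S2009

set_option autoImplicit false
open Cfsg

namespace Cfsg.Agent.S2008

/-- Let H be a finite group and z an involution such that every proper normal subgroup of H meets the centralizer of z trivially, and suppose z lies in a Klein four-subgroup E of H all three of whose involutions are conjugate to z in H. Then H has no non-trivial abelian normal subgroup. -/
theorem result {H : Type*} [Group H] [Finite H] (z : H) (hz : orderOf z = 2) (hN : ∀ N : Subgroup H, N.Normal → N ≠ ⊤ → N ⊓ Subgroup.centralizer ({z} : Set H) = ⊥) (E : Subgroup H) (hE : IsKleinFour ↥E) (hzE : z ∈ E) (hc : ∀ e ∈ E, e ≠ 1 → IsConj z e) (N : Subgroup H) [N.Normal] (hab : IsMulCommutative ↥N) : N = ⊥ := by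
  by_cases hNtop : N = ⊤
  · exfalso
    -- H is abelian; pick e ∈ E, e ≠ 1, e ≠ z, conjugate to z hence equal to z
    have hz1 : z ≠ 1 := by
      intro h; rw [h, orderOf_one] at hz; omega
    have hex : ∃ e ∈ E, e ≠ 1 ∧ e ≠ z := by
      by_contra hcon
      push Not at hcon
      have hsub : (E : Set H) ⊆ {1, z} := by
        intro e he
        by_cases h1 : e = 1
        · left; exact h1
        · right; exact hcon e he h1
      have hcard : Nat.card E = 4 := IsKleinFour.card_four
      have h2 : (E : Set H).ncard ≤ ({1, z} : Set H).ncard := Set.ncard_le_ncard hsub (Set.toFinite _)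
      have h3 : ({1, z} : Set H).ncard ≤ 2 := Set.ncard_insert_le _ _ |>.trans (by simp)
      have h4 : Nat.card E = (E : Set H).ncard := Nat.card_coe_set_eq _
      omega
    obtain ⟨e, heE, he1, hez⟩ := hex
    obtain ⟨c, hc'⟩ := isConj_iff.1 (hc e heE he1)
    have hcomm : c * z = z * c := by
      have hcN : c ∈ N := by rw [hNtop]; trivial
      have hzN : z ∈ N := by rw [hNtop]; trivial
      have := hab.is_comm.comm (⟨c, hcN⟩ : N) ⟨z, hzN⟩
      exact congrArg Subtype.val this
    apply hez
    rw [← hc', hcomm]; group
  · exact Cfsg.Agent.S2009.proper_normal_eq_bot z hz hN E hE hzE hc N hNtop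

end Cfsg.Agent.S2008
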