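import Cfsg.Statements.S2158
import Cfsg.Agent.Helper11.ChevCanon
import Cfsg.Agent.S2157
import Mathlib

set_option autoImplicit false
open Cfsg

namespace Cfsg.Agent.S2158

open Cfsg.Lie Cfsg.Agent.Helper11


/-- In a Chevalley group of type G₂, B₂, D₄, F₄, E₆, E₇ or E₈ over any field, an element of the group whose matrix is the diagonal matrix `ĥ(χ)` of a character `χ` of the root lattice already lies in the diagonal subgroup H (the non-trivial inclusion of the statement that the group meets the group of all such diagonal matrices in H). -/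
theorem result {F : Type*} [Field F] (D : Cfsg.Lie.ChevalleyDatum) (hD : D ∈ [Cfsg.Lie.chevG2, Cfsg.Lie.chevB2, Cfsg.Lie.chevD4, Cfsg.Lie.chevF4, Cfsg.Lie.chevE6, Cfsg.Lie.chevE7, Cfsg.Lie.chevE8]) (χ : ℕ → Fˣ) (hχ : D.IsRootCharacter χ) (g : GL D.Idx F) (hg : g ∈ D.group F)
    (hgχ : (g : Matrix D.Idx D.Idx F) = D.charDiag F χ) : g ∈ D.diagonalSubgroup F := by
  have hconj : ∀ s, s < D.nroots → ∀ t : F, g * xG hD s t * g⁻¹ = xG hD s ((χ s : F) * t) := by
    intro s hs t
    rw [mul_inv_eq_iff_eq_mul]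
    apply Units.ext
    rw [Units.val_mul, Units.val_mul, xG_val, xG_val, hgχ]
    have h1 := Cfsg.Agent.S2157.result D hD χ hχ s hs t
    have h2 : D.charDiag F (fun s => (χ s)⁻¹) * D.charDiag F χ = 1 := by
      unfold ChevalleyDatum.charDiag
      rw [Matrix.diagonal_mul_diagonal, ← Matrix.diagonal_one]
      congr 1; funext j; rcases j with j | u <;> simp
    rw [← h1]
    simp only [mul_assoc]
    rw [h2, mul_one]
  obtain ⟨b, hb, n, hn, u, hu, e⟩ := canon_exists hD g hg
  have huU : u ∈ D.posUnipotent F := by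
    refine Subgroup.closure_mono ?_ hu
    rintro x ⟨r, t, hpos, _, hx⟩
    exact ⟨r, t, hpos, hx⟩
  have en : n = b⁻¹ * g * u⁻¹ := by rw [e]; group
  obtain ⟨h, hh, v, hv, env⟩ := N_word_form hD n hn
  have hgU : ∀ y ∈ D.posUnipotent F, g * y * g⁻¹ ∈ D.posUnipotent F := by
    intro y hy
    have hy' : y ∈ Subgroup.closure {g : GL D.Idx F | ∃ (r : ℕ) (t : F), D.IsPosRoot r ∧
        (g : Matrix D.Idx D.Idx F) = D.x F r t} := hy
    refine conj_closure_le _ _ g ?_ y hy'
    rintro x ⟨r, t', hpos, hx⟩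
    rw [eq_xG hD x r t' hx, hconj r hpos.1 t']
    exact xG_mem_posU hD r hpos _
  have hwH : wordN (F := F) hD v ∈ D.diagonalSubgroup F := by
    apply wordN_mem_H_of_B hD _ v rfl hv
    intro s hs1 hs2 t
    have ew : wordN (F := F) hD v = h⁻¹ * b⁻¹ * g * u⁻¹ := by
      have e0 : wordN (F := F) hD v = h⁻¹ * n := by rw [env]; group
      rw [e0, en]; group
    have hxs : xG hD s t ∈ D.posUnipotent F :=
      xG_mem_posU hD s (((pos_iff7 hD s hs2).1).mpr hs1) t
    have h1 : u⁻¹ * xG hD s t * u ∈ D.posUnipotent F :=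
      mul_mem (mul_mem (inv_mem huU) hxs) huU
    have h2 := hgU _ h1
    have h3 : wordN hD v * xG hD s t * (wordN hD v)⁻¹ =
        (h⁻¹ * b⁻¹) * (g * (u⁻¹ * xG hD s t * u) * g⁻¹) * (h⁻¹ * b⁻¹)⁻¹ := by
      rw [ew]; group
    rw [h3]
    have hhb : h⁻¹ * b⁻¹ ∈ D.borelSubgroup F :=
      mul_mem (inv_mem (Subgroup.mem_sup_right hh)) (inv_mem hb)
    exact mul_mem (mul_mem hhb (Subgroup.mem_sup_left h2)) (inv_mem hhb)
  have hgB : g ∈ D.borelSubgroup F := by
    rw [e, env]
    exact mul_mem (mul_mem hb (Subgroup.mem_sup_right (mul_mem hh hwH)))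
      (Subgroup.mem_sup_left huU)
  obtain ⟨u₂, hu₂, h₂, hh₂, eg⟩ := mem_sup_of_normalizes (D.diagonalSubgroup F)
    (D.posUnipotent F)
    (fun a ha n hn => ((Subgroup.mem_normalizer_iff.mp (H_le_normalizer_posU hD ha)) n).mp hn)
    g hgB
  have hu1 : u₂ = 1 := by
    have hdiag : ∀ a b, a ≠ b → ((u₂ : GL D.Idx F) : Matrix D.Idx D.Idx F) a b = 0 := by
      have e2 : u₂ = g * h₂⁻¹ := by rw [eg]; group
      intro a b hab
      have hh2 := H_le_diag hD (inv_mem hh₂)
      rw [e2, Units.val_mul, hgχ]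
      unfold ChevalleyDatum.charDiag
      rw [Matrix.diagonal_mul, hh2 a b hab, mul_zero]
    have h1 := posU_up7 hD u₂ hu₂
    apply Units.ext
    rw [Units.val_one]
    apply sub_eq_zero.mp
    ext a b
    by_contra hne
    have h3 := h1 a b hne
    by_cases e' : a = b
    · subst e'; omega
    · apply hne
      rw [Matrix.sub_apply, hdiag a b e', Matrix.one_apply_ne e', sub_zero]; rfl
  rw [eg, hu1, one_mul]
  exact hh₂

end Cfsg.Agent.S2158
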