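import Cfsg.Statements.S2299
import Mathlib
import Cfsg.Agent.Helper12.SL2Half

set_option autoImplicit false
open Cfsg

namespace Cfsg.Agent.S2299

open Cfsg.Agent.Helper12
open Cfsg.Agent.S2305 (th)
open Cfsg.Agent.S2308 (belG)


/-- Over a finite field F with q elements, q odd, every irreducible complex character of SL₂ has degree 1, q, q + 1, q − 1, (q + 1)/2 or (q − 1)/2; and when q ≥ 5 (so that these six numbers are distinct) there are exactly one irreducible character of degree 1, one of degree q, (q − 3)/2 of degree q + 1, (q − 1)/2 of degree q − 1, two of degree (q + 1)/2 and two of degree (q − 1)/2. -/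
theorem result {F : Type*} [Field F] [Fintype F] (hodd : Odd (Fintype.card F)) :
    (∀ χ : Matrix.SpecialLinearGroup (Fin 2) F → ℂ, Cfsg.IsIrrCharacter (Matrix.SpecialLinearGroup (Fin 2) F) χ →
      χ 1 = 1 ∨ χ 1 = (Fintype.card F : ℂ) ∨ χ 1 = (Fintype.card F : ℂ) + 1 ∨ χ 1 = (Fintype.card F : ℂ) - 1 ∨
        χ 1 = (((Fintype.card F + 1) / 2 : ℕ) : ℂ) ∨ χ 1 = (((Fintype.card F - 1) / 2 : ℕ) : ℂ)) ∧
    (5 ≤ Fintype.card F →
      Nat.card {χ : Cfsg.IrrCharacter (Matrix.SpecialLinearGroup (Fin 2) F) // (χ : Matrix.SpecialLinearGroup (Fin 2) F → ℂ) 1 = 1} = 1 ∧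
      Nat.card {χ : Cfsg.IrrCharacter (Matrix.SpecialLinearGroup (Fin 2) F) // (χ : Matrix.SpecialLinearGroup (Fin 2) F → ℂ) 1 = (Fintype.card F : ℂ)} = 1 ∧
      Nat.card {χ : Cfsg.IrrCharacter (Matrix.SpecialLinearGroup (Fin 2) F) // (χ : Matrix.SpecialLinearGroup (Fin 2) F → ℂ) 1 = (Fintype.card F : ℂ) + 1} = (Fintype.card F - 3) / 2 ∧
      Nat.card {χ : Cfsg.IrrCharacter (Matrix.SpecialLinearGroup (Fin 2) F) // (χ : Matrix.SpecialLinearGroup (Fin 2) F → ℂ) 1 = (Fintype.card F : ℂ) - 1} = (Fintype.card F - 1) / 2 ∧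
      Nat.card {χ : Cfsg.IrrCharacter (Matrix.SpecialLinearGroup (Fin 2) F) // (χ : Matrix.SpecialLinearGroup (Fin 2) F → ℂ) 1 = (((Fintype.card F + 1) / 2 : ℕ) : ℂ)} = 2 ∧
      Nat.card {χ : Cfsg.IrrCharacter (Matrix.SpecialLinearGroup (Fin 2) F) // (χ : Matrix.SpecialLinearGroup (Fin 2) F → ℂ) 1 = (((Fintype.card F - 1) / 2 : ℕ) : ℂ)} = 2) := by
  classical
  have hodd' := hodd
  obtain ⟨e, he⟩ := hodd'
  have hQ : (Fintype.card F : ℂ) = 2 * (e : ℂ) + 1 := by
    rw [he]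
    first | (push_cast; ring) | push_cast
  choose deg hdeg using fun χ : (Cfsg.IrrCharacter (Matrix.SpecialLinearGroup (Fin 2) F)) => Helper24.irr_one_eq_natCast χ
  have hiff : ∀ (χ : (Cfsg.IrrCharacter (Matrix.SpecialLinearGroup (Fin 2) F))) (k : ℕ) (c : ℂ), c = (k : ℂ) →
      ((χ : (Matrix.SpecialLinearGroup (Fin 2) F) → ℂ) 1 = c ↔ deg χ = k) := by
    intro χ k c hc
    rw [hdeg χ, hc]
    exact Nat.cast_inj
  have htype := fun χ : (Cfsg.IrrCharacter (Matrix.SpecialLinearGroup (Fin 2) F)) => sl2_types χ (2 * e) (deg χ) he (hdeg χ)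
  have hall0 : ∀ χ : (Cfsg.IrrCharacter (Matrix.SpecialLinearGroup (Fin 2) F)), deg χ = 2 * e ∨ deg χ = e ∨ deg χ = 2 * e + 2 ∨ deg χ = 1 ∨
      deg χ = 2 * e + 1 ∨ deg χ = e + 1 := by
    intro χ
    rcases htype χ with (h | ⟨h, -⟩) | ⟨h, -⟩ | ⟨h, -⟩ | ⟨h, -⟩ | ⟨h, -⟩
    · exact Or.inl h
    · exact Or.inr (Or.inl (by omega))
    · exact Or.inr (Or.inr (Or.inl h))
    · exact Or.inr (Or.inr (Or.inr (Or.inl h)))
    · exact Or.inr (Or.inr (Or.inr (Or.inr (Or.inl h))))
    · exact Or.inr (Or.inr (Or.inr (Or.inr (Or.inr (by omega)))))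
  have hp : (Fintype.card F + 1) / 2 = e + 1 := by omega
  have hmi : (Fintype.card F - 1) / 2 = e := by omega
  constructor
  · intro χ hχ
    have hd' : χ 1 = ((deg ⟨χ, hχ⟩ : ℕ) : ℂ) := hdeg ⟨χ, hχ⟩
    rw [hd', hQ, hp, hmi]
    rcases hall0 ⟨χ, hχ⟩ with h | h | h | h | h | h
    · right
      right
      right
      left
      rw [h]
      first | (push_cast; ring) | push_cast
    · right
      right
      right
      right
      right
      rw [h]
    · right
      right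
      left
      rw [h]
      first | (push_cast; ring) | push_cast
    · left
      rw [h, Nat.cast_one]
    · right
      left
      rw [h]
      first | (push_cast; ring) | push_cast
    · right
      right
      right
      right
      left
      rw [h]
  · intro h5
    have he2 : 2 ≤ e := by omega
    have hT1 : ∀ χ : (Cfsg.IrrCharacter (Matrix.SpecialLinearGroup (Fin 2) F)), deg χ = 1 → (χ : (Matrix.SpecialLinearGroup (Fin 2) F) → ℂ) = fun _ => (1 : ℂ) := by
      intro χ h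
      rcases htype χ with (h' | ⟨h', -⟩) | ⟨h', -⟩ | ⟨-, h'⟩ | ⟨h', -⟩ | ⟨h', -⟩
      · omega
      · omega
      · omega
      · exact h'
      · omega
      · omega
    have hT2 : ∀ χ : (Cfsg.IrrCharacter (Matrix.SpecialLinearGroup (Fin 2) F)), deg χ = 2 * e + 1 → ∀ g : (Matrix.SpecialLinearGroup (Fin 2) F), (χ : (Matrix.SpecialLinearGroup (Fin 2) F) → ℂ) g =
        Cfsg.indFun (Cfsg.upperTriangularGL 2 F) (fun _ => (1 : ℂ)) (Matrix.SpecialLinearGroup.toGL g) - 1 := by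
      intro χ h
      rcases htype χ with (h' | ⟨h', -⟩) | ⟨h', -⟩ | ⟨h', -⟩ | ⟨-, h'⟩ | ⟨h', -⟩
      · omega
      · omega
      · omega
      · omega
      · exact h'
      · omega
    have hT3 : ∀ χ : (Cfsg.IrrCharacter (Matrix.SpecialLinearGroup (Fin 2) F)), deg χ = 2 * e + 2 ↔
        ∃ γ : MulChar F ℂ, γ ≠ γ⁻¹ ∧ (χ : (Matrix.SpecialLinearGroup (Fin 2) F) → ℂ) = Cfsg.indFun ((Cfsg.upperTriangularGL 2 F).comap Matrix.SpecialLinearGroup.toGL) (thS γ) := by
      intro χ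
      constructor
      · intro h
        rcases htype χ with (h' | ⟨h', -⟩) | ⟨-, h'⟩ | ⟨h', -⟩ | ⟨h', -⟩ | ⟨h', -⟩
        · omega
        · omega
        · exact h'
        · omega
        · omega
        · omega
      · rintro ⟨γ, -, hγ⟩
        have h1 := hdeg χ
        rw [hγ, RS_one, hQ] at h1
        have h2 : ((2 * e + 2 : ℕ) : ℂ) = ((deg χ : ℕ) : ℂ) := by
          rw [← h1]
          first | (push_cast; ring) | push_cast
        exact (Nat.cast_injective h2).symm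
    have hc1 : Nat.card {χ : (Cfsg.IrrCharacter (Matrix.SpecialLinearGroup (Fin 2) F)) // deg χ = 1} = 1 := by
      rw [Nat.card_eq_one_iff_unique]
      refine ⟨⟨?_⟩, ⟨⟨⟨fun _ => (1 : ℂ), Helper24.isIrrCharacter_one⟩, ?_⟩⟩⟩
      · rintro ⟨χ, hχ⟩ ⟨χ', hχ'⟩
        exact Subtype.ext (Subtype.ext ((hT1 χ hχ).trans (hT1 χ' hχ').symm))
      · have h1 := hdeg ⟨fun _ => (1 : ℂ), Helper24.isIrrCharacter_one⟩
        have h2 : ((deg ⟨fun _ => (1 : ℂ), Helper24.isIrrCharacter_one⟩ : ℕ) : ℂ) = ((1 : ℕ) : ℂ) := by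
          rw [Nat.cast_one]
          exact h1.symm
        exact Nat.cast_injective h2
    have hc2 : Nat.card {χ : (Cfsg.IrrCharacter (Matrix.SpecialLinearGroup (Fin 2) F)) // deg χ = 2 * e + 1} = 1 := by
      rw [Nat.card_eq_one_iff_unique]
      obtain ⟨St, hSt⟩ := exists_sl2_St (F := F)
      refine ⟨⟨?_⟩, ⟨⟨St, ?_⟩⟩⟩
      · rintro ⟨χ, hχ⟩ ⟨χ', hχ'⟩
        refine Subtype.ext (Subtype.ext (funext (fun g => ?_)))
        exact ((hT2 χ hχ g).trans (hT2 χ' hχ' g).symm)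
      · have h1 := hdeg St
        have hone : ((1 : (Matrix.GeneralLinearGroup (Fin 2) F)) : (Matrix (Fin 2) (Fin 2) F)) = (1 : F) • (1 : (Matrix (Fin 2) (Fin 2) F)) := (one_smul _ _).symm
        rw [hSt 1, map_one, S2308.indFun1_scalar 1 1 hone, hQ] at h1
        have h2 : ((2 * e + 1 : ℕ) : ℂ) = ((deg St : ℕ) : ℂ) := by
          rw [← h1]
          first | (push_cast; ring) | push_cast
        exact (Nat.cast_injective h2).symm
    obtain ⟨N3, hN3⟩ : ∃ N3 : ℕ, N3 = Nat.card {χ : (Cfsg.IrrCharacter (Matrix.SpecialLinearGroup (Fin 2) F)) // deg χ = 2 * e + 2} := ⟨_, rfl⟩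
    have hc3 : N3 + 1 = e := by
      have h1 := sl2_count_ps (fun χ : (Cfsg.IrrCharacter (Matrix.SpecialLinearGroup (Fin 2) F)) => deg χ = 2 * e + 2) hT3
      rw [card_noninvol_odd hodd, he] at h1
      rw [hN3]
      omega
    obtain ⟨φ, φ₂, d₀, η, hP₀, hη1, hη2, hdec, hφ, hφ₂⟩ := exists_ps_pair (F := F) hodd
    have hdφ : deg φ = e + 1 := by
      have h1 : ((2 * deg φ : ℕ) : ℂ) = ((2 * e + 2 : ℕ) : ℂ) := by
        rw [hdeg φ, hQ] at hφ
        push_cast
        linear_combination hφ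
      have h2 : 2 * deg φ = 2 * e + 2 := Nat.cast_injective h1
      omega
    have hdφ₂ : deg φ₂ = e + 1 := by
      have h1 : ((2 * deg φ₂ : ℕ) : ℂ) = ((2 * e + 2 : ℕ) : ℂ) := by
        rw [hdeg φ₂, hQ] at hφ₂
        push_cast
        linear_combination hφ₂
      have h2 : 2 * deg φ₂ = 2 * e + 2 := Nat.cast_injective h1
      omega
    have hc5 : Nat.card {χ : (Cfsg.IrrCharacter (Matrix.SpecialLinearGroup (Fin 2) F)) // deg χ = e + 1} = 2 := by
      rw [Nat.card_eq_two_iff]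
      refine ⟨⟨φ, hdφ⟩, ⟨φ₂, hdφ₂⟩, ?_, ?_⟩
      · intro h
        exact hP₀.ne (congrArg Subtype.val h).symm
      · apply Set.eq_univ_of_forall
        rintro ⟨χ, hχ⟩
        rw [Set.mem_insert_iff, Set.mem_singleton_iff]
        rcases ps_half_mem (2 * e) he (by omega) φ φ₂ η hη1 hη2 hdec χ (deg χ) (hdeg χ) (by omega)
          with h | h
        · left
          exact Subtype.ext h
        · right
          exact Subtype.ext h
    have card_filter : ∀ k : ℕ, Nat.card {χ : (Cfsg.IrrCharacter (Matrix.SpecialLinearGroup (Fin 2) F)) // deg χ = k} =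
        (Finset.univ.filter (fun χ : (Cfsg.IrrCharacter (Matrix.SpecialLinearGroup (Fin 2) F)) => deg χ = k)).card := by
      intro k
      rw [Nat.card_eq_fintype_card]
      exact Fintype.card_of_subtype _ (fun χ => by simp)
    obtain ⟨A, hA⟩ : ∃ A : ℕ, A = Nat.card {χ : (Cfsg.IrrCharacter (Matrix.SpecialLinearGroup (Fin 2) F)) // deg χ = 2 * e} := ⟨_, rfl⟩
    obtain ⟨Bc, hBc⟩ : ∃ Bc : ℕ, Bc = Nat.card {χ : (Cfsg.IrrCharacter (Matrix.SpecialLinearGroup (Fin 2) F)) // deg χ = e} := ⟨_, rfl⟩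
    have hB : Bc ≤ 2 := by
      rw [hBc, card_filter]
      by_cases hemp : (Finset.univ.filter (fun χ : (Cfsg.IrrCharacter (Matrix.SpecialLinearGroup (Fin 2) F)) => deg χ = e)) = ∅
      · rw [hemp]
        simp
      · obtain ⟨χ₀, hχ₀⟩ := Finset.nonempty_iff_ne_empty.mpr hemp
        have hd₀ : deg χ₀ = e := (Finset.mem_filter.mp hχ₀).2
        obtain ⟨χ₀', d₁, hP₁, -⟩ := half_pair_of_deg (2 * e) he (by omega) χ₀ (deg χ₀) (hdeg χ₀)
          (Or.inr (by omega))
        have hsub : Finset.univ.filter (fun χ : (Cfsg.IrrCharacter (Matrix.SpecialLinearGroup (Fin 2) F)) => deg χ = e) ⊆ {χ₀, χ₀'} := by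
          intro χ hχ
          have hd : deg χ = e := (Finset.mem_filter.mp hχ).2
          obtain ⟨χ', d₂, hP₂, -⟩ := half_pair_of_deg (2 * e) he (by omega) χ (deg χ) (hdeg χ)
            (Or.inr (by omega))
          rw [Finset.mem_insert, Finset.mem_singleton]
          exact cusp_pair_mem hodd (2 * e) he hP₁ hP₂ (deg χ₀) (deg χ) (hdeg χ₀) (hdeg χ)
            (by omega) (by omega)
        exact (Finset.card_le_card hsub).trans Finset.card_le_two
    have sum_filter_sq : ∀ k : ℕ, ∑ χ ∈ Finset.univ.filter (fun χ : (Cfsg.IrrCharacter (Matrix.SpecialLinearGroup (Fin 2) F)) => deg χ = k), deg χ ^ 2 =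
        Nat.card {χ : (Cfsg.IrrCharacter (Matrix.SpecialLinearGroup (Fin 2) F)) // deg χ = k} * k ^ 2 := by
      intro k
      have h1 : ∀ χ ∈ Finset.univ.filter (fun χ : (Cfsg.IrrCharacter (Matrix.SpecialLinearGroup (Fin 2) F)) => deg χ = k), deg χ ^ 2 = k ^ 2 := by
        intro χ hχ
        rw [(Finset.mem_filter.mp hχ).2]
      rw [Finset.sum_congr rfl h1, Finset.sum_const, smul_eq_mul, card_filter]
    have hs : ∑ χ : (Cfsg.IrrCharacter (Matrix.SpecialLinearGroup (Fin 2) F)), deg χ ^ 2 = 2 * e * (2 * e + 1) * (2 * e + 2) := by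
      have h1 := Helper24.sum_irr_one_sq (G := (Matrix.SpecialLinearGroup (Fin 2) F))
      rw [sl2_card, he] at h1
      have h3 : ((2 * e + 1) * ((2 * e + 1) ^ 2 - 1) : ℕ) = 2 * e * (2 * e + 1) * (2 * e + 2) := by
        have h4 : (2 * e + 1) ^ 2 - 1 = 2 * e * (2 * e + 2) := by
          have : (2 * e + 1) ^ 2 = 2 * e * (2 * e + 2) + 1 := by ring
          omega
        rw [h4]
        ring
      rw [h3] at h1
      have h2 : (∑ χ : (Cfsg.IrrCharacter (Matrix.SpecialLinearGroup (Fin 2) F)), ((deg χ ^ 2 : ℕ) : ℂ)) =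
          ((2 * e * (2 * e + 1) * (2 * e + 2) : ℕ) : ℂ) := by
        rw [← h1]
        refine Finset.sum_congr rfl (fun χ _ => ?_)
        rw [hdeg χ]
        first | (push_cast; ring) | push_cast
      exact_mod_cast h2
    have hmaps : ∀ χ ∈ (Finset.univ : Finset (Cfsg.IrrCharacter (Matrix.SpecialLinearGroup (Fin 2) F))),
        deg χ ∈ ({1, 2 * e + 1, 2 * e + 2, e + 1, 2 * e, e} : Finset ℕ) := by
      intro χ _
      simp only [Finset.mem_insert, Finset.mem_singleton]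
      rcases hall0 χ with h | h | h | h | h | h
      · exact Or.inr (Or.inr (Or.inr (Or.inr (Or.inl h))))
      · exact Or.inr (Or.inr (Or.inr (Or.inr (Or.inr h))))
      · exact Or.inr (Or.inr (Or.inl h))
      · exact Or.inl h
      · exact Or.inr (Or.inl h)
      · exact Or.inr (Or.inr (Or.inr (Or.inl h)))
    have hfib : ∑ j ∈ ({1, 2 * e + 1, 2 * e + 2, e + 1, 2 * e, e} : Finset ℕ),
        ∑ χ ∈ Finset.univ.filter (fun χ : (Cfsg.IrrCharacter (Matrix.SpecialLinearGroup (Fin 2) F)) => deg χ = j), deg χ ^ 2 = ∑ χ : (Cfsg.IrrCharacter (Matrix.SpecialLinearGroup (Fin 2) F)), deg χ ^ 2 :=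
      Finset.sum_fiberwise_of_maps_to hmaps (fun χ => deg χ ^ 2)
    have n1 : (1 : ℕ) ∉ ({2 * e + 1, 2 * e + 2, e + 1, 2 * e, e} : Finset ℕ) := by
      simp only [Finset.mem_insert, Finset.mem_singleton]
      omega
    have n2 : 2 * e + 1 ∉ ({2 * e + 2, e + 1, 2 * e, e} : Finset ℕ) := by
      simp only [Finset.mem_insert, Finset.mem_singleton]
      omega
    have n3 : 2 * e + 2 ∉ ({e + 1, 2 * e, e} : Finset ℕ) := by
      simp only [Finset.mem_insert, Finset.mem_singleton]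
      omega
    have n4 : e + 1 ∉ ({2 * e, e} : Finset ℕ) := by
      simp only [Finset.mem_insert, Finset.mem_singleton]
      omega
    have n5 : 2 * e ∉ ({e} : Finset ℕ) := by
      simp only [Finset.mem_singleton]
      omega
    rw [Finset.sum_insert n1, Finset.sum_insert n2, Finset.sum_insert n3, Finset.sum_insert n4,
      Finset.sum_insert n5, Finset.sum_singleton, sum_filter_sq, sum_filter_sq, sum_filter_sq,
      sum_filter_sq, sum_filter_sq, sum_filter_sq, hs, hc1, hc2, ← hN3, hc5, ← hA, ← hBc] at hfib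
    have hN3z : (N3 : ℤ) + 1 = (e : ℤ) := by exact_mod_cast hc3
    have eGz : (1 : ℤ) * 1 ^ 2 + (1 * (2 * (e : ℤ) + 1) ^ 2 + ((N3 : ℤ) * (2 * (e : ℤ) + 2) ^ 2 +
        (2 * ((e : ℤ) + 1) ^ 2 + ((A : ℤ) * (2 * (e : ℤ)) ^ 2 + (Bc : ℤ) * (e : ℤ) ^ 2)))) =
        2 * (e : ℤ) * (2 * (e : ℤ) + 1) * (2 * (e : ℤ) + 2) := by
      exact_mod_cast hfib
    have hkey : (4 * (A : ℤ) + (Bc : ℤ) - (4 * (e : ℤ) + 2)) * (e : ℤ) ^ 2 = 0 := by
      linear_combination eGz - (2 * (e : ℤ) + 2) ^ 2 * hN3z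
    have hez : (e : ℤ) ^ 2 ≠ 0 := by
      have h0 : (e : ℤ) ≠ 0 := by
        have : e ≠ 0 := by omega
        exact_mod_cast this
      exact pow_ne_zero 2 h0
    have h4AB : 4 * A + Bc = 4 * e + 2 := by
      have h := (mul_eq_zero.mp hkey).resolve_right hez
      have h' : 4 * (A : ℤ) + (Bc : ℤ) = 4 * (e : ℤ) + 2 := by linarith
      exact_mod_cast h'
    have hBc2 : Bc = 2 := by omega
    have hAe : A = e := by omega
    refine ⟨?_, ?_, ?_, ?_, ?_, ?_⟩
    · exact (Nat.card_congr (Equiv.subtypeEquivRight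
        (fun χ => hiff χ 1 1 (by norm_num)))).trans hc1
    · exact (Nat.card_congr (Equiv.subtypeEquivRight
        (fun χ => hiff χ (2 * e + 1) _ (by rw [he])))).trans hc2
    · have ee : Nat.card {χ : (Cfsg.IrrCharacter (Matrix.SpecialLinearGroup (Fin 2) F)) // deg χ = 2 * e + 2} = (Fintype.card F - 3) / 2 := by
        rw [← hN3, he]
        omega
      exact (Nat.card_congr (Equiv.subtypeEquivRight
        (fun χ => hiff χ (2 * e + 2) _ (by rw [he]; first | (push_cast; ring) | push_cast)))).trans ee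
    · have ee : Nat.card {χ : (Cfsg.IrrCharacter (Matrix.SpecialLinearGroup (Fin 2) F)) // deg χ = 2 * e} = (Fintype.card F - 1) / 2 := by
        rw [← hA, hAe, he]
        omega
      exact (Nat.card_congr (Equiv.subtypeEquivRight
        (fun χ => hiff χ (2 * e) _ (by rw [he]; first | (push_cast; ring) | push_cast)))).trans ee
    · exact (Nat.card_congr (Equiv.subtypeEquivRight
        (fun χ => hiff χ (e + 1) _ (by rw [hp])))).trans hc5
    · have ee : Nat.card {χ : (Cfsg.IrrCharacter (Matrix.SpecialLinearGroup (Fin 2) F)) // deg χ = e} = 2 := by rw [← hBc, hBc2]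
      exact (Nat.card_congr (Equiv.subtypeEquivRight
        (fun χ => hiff χ e _ (by rw [hmi])))).trans ee

end Cfsg.Agent.S2299
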