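import Cfsg.Statements.S2300
import Mathlib
import Cfsg.Agent.Helper12.SL2Count
import Cfsg.Agent.S2298

set_option autoImplicit false
open Cfsg

namespace Cfsg.Agent.S2300

open Cfsg.Agent.Helper12
open Cfsg.Agent.S2305 (th)
open Cfsg.Agent.S2308 (belG)


/-- Over a finite field F with q elements, q even, every irreducible complex character of SL₂ has degree 1, q − 1, q or q + 1; and when q ≥ 4 (so that these four numbers are distinct) there are exactly one irreducible character of degree 1, one of degree q, (q − 2)/2 of degree q + 1 and q/2 of degree q − 1. -/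
theorem result {F : Type*} [Field F] [Fintype F] [CharP F 2] :
    (∀ χ : Matrix.SpecialLinearGroup (Fin 2) F → ℂ, Cfsg.IsIrrCharacter (Matrix.SpecialLinearGroup (Fin 2) F) χ →
      χ 1 = 1 ∨ χ 1 = (Fintype.card F : ℂ) - 1 ∨ χ 1 = (Fintype.card F : ℂ) ∨ χ 1 = (Fintype.card F : ℂ) + 1) ∧
    (4 ≤ Fintype.card F →
      Nat.card {χ : Cfsg.IrrCharacter (Matrix.SpecialLinearGroup (Fin 2) F) // (χ : Matrix.SpecialLinearGroup (Fin 2) F → ℂ) 1 = 1} = 1 ∧
      Nat.card {χ : Cfsg.IrrCharacter (Matrix.SpecialLinearGroup (Fin 2) F) // (χ : Matrix.SpecialLinearGroup (Fin 2) F → ℂ) 1 = (Fintype.card F : ℂ)} = 1 ∧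
      Nat.card {χ : Cfsg.IrrCharacter (Matrix.SpecialLinearGroup (Fin 2) F) // (χ : Matrix.SpecialLinearGroup (Fin 2) F → ℂ) 1 = (Fintype.card F : ℂ) + 1} = (Fintype.card F - 2) / 2 ∧
      Nat.card {χ : Cfsg.IrrCharacter (Matrix.SpecialLinearGroup (Fin 2) F) // (χ : Matrix.SpecialLinearGroup (Fin 2) F → ℂ) 1 = (Fintype.card F : ℂ) - 1} = Fintype.card F / 2) := by
  classical
  have heven2 : Fintype.card F % 2 = 0 := FiniteField.even_card_of_char_two (ringChar.eq F 2)
  have heven : Even (Fintype.card F) := Nat.even_iff.mpr heven2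
  have hnotodd : ¬ Odd (Fintype.card F) := fun h => by
    have := Nat.odd_iff.mp h
    omega
  obtain ⟨m, hm⟩ : ∃ m, Fintype.card F = m + 1 :=
    Nat.exists_eq_succ_of_ne_zero Fintype.card_ne_zero
  have hQ : (Fintype.card F : ℂ) = (m : ℂ) + 1 := by
    rw [hm]
    push_cast
    ring
  choose deg hdeg using fun χ : (Cfsg.IrrCharacter (Matrix.SpecialLinearGroup (Fin 2) F)) => Helper24.irr_one_eq_natCast χ
  have hiff : ∀ (χ : (Cfsg.IrrCharacter (Matrix.SpecialLinearGroup (Fin 2) F))) (k : ℕ) (c : ℂ), c = (k : ℂ) →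
      ((χ : (Matrix.SpecialLinearGroup (Fin 2) F) → ℂ) 1 = c ↔ deg χ = k) := by
    intro χ k c hc
    rw [hdeg χ, hc]
    exact Nat.cast_inj
  have htype := fun χ : Cfsg.IrrCharacter (Matrix.SpecialLinearGroup (Fin 2) F) => sl2_types χ m (deg χ) hm (hdeg χ)
  have hall0 : ∀ χ : Cfsg.IrrCharacter (Matrix.SpecialLinearGroup (Fin 2) F), deg χ = m ∨ deg χ = m + 2 ∨ deg χ = 1 ∨ deg χ = m + 1 := by
    intro χ
    rcases htype χ with (h | ⟨-, ho⟩) | ⟨h, -⟩ | ⟨h, -⟩ | ⟨h, -⟩ | ⟨-, ho, -⟩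
    · exact Or.inl h
    · exact absurd ho hnotodd
    · exact Or.inr (Or.inl h)
    · exact Or.inr (Or.inr (Or.inl h))
    · exact Or.inr (Or.inr (Or.inr h))
    · exact absurd ho hnotodd
  constructor
  · intro χ hχ
    have hd' : χ 1 = ((deg ⟨χ, hχ⟩ : ℕ) : ℂ) := hdeg ⟨χ, hχ⟩
    rw [hd', hQ]
    rcases hall0 ⟨χ, hχ⟩ with h | h | h | h
    · right
      left
      rw [h]
      ring
    · right
      right
      right
      rw [h]
      first | (push_cast; ring) | push_cast
    · left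
      rw [h]
      norm_num
    · right
      right
      left
      rw [h]
      first | (push_cast; ring) | push_cast
  · intro h4
    have hm3 : 3 ≤ m := by omega
    have hT1 : ∀ χ : Cfsg.IrrCharacter (Matrix.SpecialLinearGroup (Fin 2) F), deg χ = 1 → (χ : (Matrix.SpecialLinearGroup (Fin 2) F) → ℂ) = fun _ => (1 : ℂ) := by
      intro χ h
      rcases htype χ with (h' | ⟨-, ho⟩) | ⟨h', -⟩ | ⟨-, h'⟩ | ⟨h', -⟩ | ⟨-, ho, -⟩
      · omega
      · exact absurd ho hnotodd
      · omega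
      · exact h'
      · omega
      · exact absurd ho hnotodd
    have hT2 : ∀ χ : Cfsg.IrrCharacter (Matrix.SpecialLinearGroup (Fin 2) F), deg χ = m + 1 → ∀ g : (Matrix.SpecialLinearGroup (Fin 2) F), (χ : (Matrix.SpecialLinearGroup (Fin 2) F) → ℂ) g =
        Cfsg.indFun (Cfsg.upperTriangularGL 2 F) (fun _ => (1 : ℂ)) (Matrix.SpecialLinearGroup.toGL g) - 1 := by
      intro χ h
      rcases htype χ with (h' | ⟨-, ho⟩) | ⟨h', -⟩ | ⟨h', -⟩ | ⟨-, h'⟩ | ⟨-, ho, -⟩
      · omega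
      · exact absurd ho hnotodd
      · omega
      · omega
      · exact h'
      · exact absurd ho hnotodd
    have hT3 : ∀ χ : Cfsg.IrrCharacter (Matrix.SpecialLinearGroup (Fin 2) F), deg χ = m + 2 ↔
        ∃ γ : MulChar F ℂ, γ ≠ γ⁻¹ ∧ (χ : (Matrix.SpecialLinearGroup (Fin 2) F) → ℂ) = Cfsg.indFun ((Cfsg.upperTriangularGL 2 F).comap Matrix.SpecialLinearGroup.toGL) (thS γ) := by
      intro χ
      constructor
      · intro h
        rcases htype χ with (h' | ⟨-, ho⟩) | ⟨-, h'⟩ | ⟨h', -⟩ | ⟨h', -⟩ | ⟨-, ho, -⟩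
        · omega
        · exact absurd ho hnotodd
        · exact h'
        · omega
        · omega
        · exact absurd ho hnotodd
      · rintro ⟨γ, -, hγ⟩
        have h1 := hdeg χ
        rw [hγ, RS_one, hQ] at h1
        have h2 : ((m + 2 : ℕ) : ℂ) = ((deg χ : ℕ) : ℂ) := by
          rw [← h1]
          first | (push_cast; ring) | push_cast
        exact (Nat.cast_injective h2).symm
    have hc1 : Nat.card {χ : Cfsg.IrrCharacter (Matrix.SpecialLinearGroup (Fin 2) F) // deg χ = 1} = 1 := by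
      rw [Nat.card_eq_one_iff_unique]
      refine ⟨⟨?_⟩, ⟨⟨⟨fun _ => (1 : ℂ), Helper24.isIrrCharacter_one⟩, ?_⟩⟩⟩
      · rintro ⟨χ, hχ⟩ ⟨χ', hχ'⟩
        exact Subtype.ext (Subtype.ext ((hT1 χ hχ).trans (hT1 χ' hχ').symm))
      · have h1 := hdeg ⟨fun _ => (1 : ℂ), Helper24.isIrrCharacter_one⟩
        have h2 : ((deg ⟨fun _ => (1 : ℂ), Helper24.isIrrCharacter_one⟩ : ℕ) : ℂ) = ((1 : ℕ) : ℂ) := by
          rw [Nat.cast_one]
          exact h1.symm
        exact Nat.cast_injective h2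
    have hc2 : Nat.card {χ : Cfsg.IrrCharacter (Matrix.SpecialLinearGroup (Fin 2) F) // deg χ = m + 1} = 1 := by
      rw [Nat.card_eq_one_iff_unique]
      obtain ⟨St, hSt⟩ := exists_sl2_St (F := F)
      refine ⟨⟨?_⟩, ⟨⟨St, ?_⟩⟩⟩
      · rintro ⟨χ, hχ⟩ ⟨χ', hχ'⟩
        refine Subtype.ext (Subtype.ext (funext (fun g => ?_)))
        exact ((hT2 χ hχ g).trans (hT2 χ' hχ' g).symm)
      · have h1 := hdeg St
        have hone : ((1 : (Matrix.GeneralLinearGroup (Fin 2) F)) : (Matrix (Fin 2) (Fin 2) F)) = (1 : F) • (1 : (Matrix (Fin 2) (Fin 2) F)) := (one_smul _ _).symm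
        rw [hSt 1, map_one, S2308.indFun1_scalar 1 1 hone, hQ] at h1
        have h2 : ((m + 1 : ℕ) : ℂ) = ((deg St : ℕ) : ℂ) := by
          rw [← h1]
          first | (push_cast; ring) | push_cast
        exact (Nat.cast_injective h2).symm
    obtain ⟨N3, hN3⟩ : ∃ N3 : ℕ, N3 = Nat.card {χ : Cfsg.IrrCharacter (Matrix.SpecialLinearGroup (Fin 2) F) // deg χ = m + 2} := ⟨_, rfl⟩
    have hc3 : 2 * N3 = m - 1 := by
      have h1 := sl2_count_ps (fun χ : Cfsg.IrrCharacter (Matrix.SpecialLinearGroup (Fin 2) F) => deg χ = m + 2) hT3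
      rw [card_noninvol_even heven, hm] at h1
      rw [hN3]
      omega
    have card_filter : ∀ k : ℕ, Nat.card {χ : (Cfsg.IrrCharacter (Matrix.SpecialLinearGroup (Fin 2) F)) // deg χ = k} =
        (Finset.univ.filter (fun χ : (Cfsg.IrrCharacter (Matrix.SpecialLinearGroup (Fin 2) F)) => deg χ = k)).card := by
      intro k
      rw [Nat.card_eq_fintype_card]
      exact Fintype.card_of_subtype _ (fun χ => by simp)
    have h1ne : (1 : ℕ) ≠ m + 1 := by omega
    have h2ne : (1 : ℕ) ≠ m + 2 := by omega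
    have h3ne : m + 1 ≠ m + 2 := by omega
    have hsplit := S2298.sum_four_split deg 1 (m + 1) (m + 2) h1ne h2ne h3ne
    obtain ⟨C, hC⟩ : ∃ C : Finset (Cfsg.IrrCharacter (Matrix.SpecialLinearGroup (Fin 2) F)), C = Finset.univ.filter
        (fun χ : (Cfsg.IrrCharacter (Matrix.SpecialLinearGroup (Fin 2) F)) => deg χ ≠ 1 ∧ deg χ ≠ m + 1 ∧ deg χ ≠ m + 2) := ⟨_, rfl⟩
    have sum_filter_sq : ∀ k : ℕ, ∑ χ ∈ Finset.univ.filter (fun χ : (Cfsg.IrrCharacter (Matrix.SpecialLinearGroup (Fin 2) F)) => deg χ = k), deg χ ^ 2 =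
        Nat.card {χ : (Cfsg.IrrCharacter (Matrix.SpecialLinearGroup (Fin 2) F)) // deg χ = k} * k ^ 2 := by
      intro k
      have h1 : ∀ χ ∈ Finset.univ.filter (fun χ : (Cfsg.IrrCharacter (Matrix.SpecialLinearGroup (Fin 2) F)) => deg χ = k), deg χ ^ 2 = k ^ 2 := by
        intro χ hχ
        rw [(Finset.mem_filter.mp hχ).2]
      rw [Finset.sum_congr rfl h1, Finset.sum_const, smul_eq_mul, card_filter]
    have hs : ∑ χ : (Cfsg.IrrCharacter (Matrix.SpecialLinearGroup (Fin 2) F)), deg χ ^ 2 = m * (m + 1) * (m + 2) := by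
      have h1 := Helper24.sum_irr_one_sq (G := (Matrix.SpecialLinearGroup (Fin 2) F))
      rw [sl2_card, hm] at h1
      have h3 : ((m + 1) * ((m + 1) ^ 2 - 1) : ℕ) = m * (m + 1) * (m + 2) := by
        have h4 : (m + 1) ^ 2 - 1 = m * (m + 2) := by
          have : (m + 1) ^ 2 = m * (m + 2) + 1 := by ring
          omega
        rw [h4]
        ring
      rw [h3] at h1
      have h2 : (∑ χ : (Cfsg.IrrCharacter (Matrix.SpecialLinearGroup (Fin 2) F)), ((deg χ ^ 2 : ℕ) : ℂ)) = ((m * (m + 1) * (m + 2) : ℕ) : ℂ) := by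
        rw [← h1]
        refine Finset.sum_congr rfl (fun χ _ => ?_)
        rw [hdeg χ]
        first | (push_cast; ring) | push_cast
      exact_mod_cast h2
    have eG : m * (m + 1) * (m + 2) =
        1 * 1 ^ 2 + 1 * (m + 1) ^ 2 + N3 * (m + 2) ^ 2 + ∑ χ ∈ C, deg χ ^ 2 := by
      have h := hsplit (fun χ => deg χ ^ 2)
      beta_reduce at h
      rw [hs, sum_filter_sq, sum_filter_sq, sum_filter_sq, hc1, hc2, ← hN3, ← hC] at h
      exact h
    have hCdeg : ∀ χ ∈ C, deg χ = m := by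
      intro χ hχ
      rw [hC] at hχ
      obtain ⟨-, g1, g2, g3⟩ := Finset.mem_filter.mp hχ
      rcases hall0 χ with h | h | h | h
      · exact h
      · exact absurd h g3
      · exact absurd h g1
      · exact absurd h g2
    have hCsum : ∑ χ ∈ C, deg χ ^ 2 = C.card * m ^ 2 := by
      have h1 : ∀ χ ∈ C, deg χ ^ 2 = m ^ 2 := by
        intro χ hχ
        rw [hCdeg χ hχ]
      rw [Finset.sum_congr rfl h1, Finset.sum_const, smul_eq_mul]
    have hc4 : Nat.card {χ : (Cfsg.IrrCharacter (Matrix.SpecialLinearGroup (Fin 2) F)) // deg χ = m} = C.card := by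
      rw [card_filter]
      congr 1
      ext χ
      constructor
      · intro h
        have h' : deg χ = m := (Finset.mem_filter.mp h).2
        rw [hC]
        exact Finset.mem_filter.mpr ⟨Finset.mem_univ _, by omega, by omega, by omega⟩
      · intro h
        exact Finset.mem_filter.mpr ⟨Finset.mem_univ _, hCdeg χ h⟩
    have hmz : (m : ℤ) = 2 * (N3 : ℤ) + 1 := by
      have : m = 2 * N3 + 1 := by omega
      exact_mod_cast this
    have eGz : (m : ℤ) * ((m : ℤ) + 1) * ((m : ℤ) + 2) =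
        1 * 1 ^ 2 + 1 * ((m : ℤ) + 1) ^ 2 + (N3 : ℤ) * ((m : ℤ) + 2) ^ 2 + (C.card : ℤ) * (m : ℤ) ^ 2 := by
      have h := eG
      rw [hCsum] at h
      exact_mod_cast h
    have hkey : (2 * (C.card : ℤ) - ((m : ℤ) + 1)) * (m : ℤ) ^ 2 = 0 := by
      linear_combination (-2 : ℤ) * eGz + ((m : ℤ) + 2) ^ 2 * hmz
    have hmz0 : (m : ℤ) ^ 2 ≠ 0 := by
      have h0 : (m : ℤ) ≠ 0 := by
        have : m ≠ 0 := by omega
        exact_mod_cast this
      exact pow_ne_zero 2 h0
    have h2C : 2 * C.card = m + 1 := by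
      have h := (mul_eq_zero.mp hkey).resolve_right hmz0
      have h' : (2 * (C.card : ℤ)) = (m : ℤ) + 1 := by linarith
      exact_mod_cast h'
    refine ⟨?_, ?_, ?_, ?_⟩
    · exact (Nat.card_congr (Equiv.subtypeEquivRight
        (fun χ => hiff χ 1 1 (by norm_num)))).trans hc1
    · exact (Nat.card_congr (Equiv.subtypeEquivRight
        (fun χ => hiff χ (m + 1) _ (by rw [hm])))).trans hc2
    · have e : Nat.card {χ : Cfsg.IrrCharacter (Matrix.SpecialLinearGroup (Fin 2) F) // deg χ = m + 2} = (Fintype.card F - 2) / 2 := by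
        rw [← hN3, hm]
        omega
      exact (Nat.card_congr (Equiv.subtypeEquivRight
        (fun χ => hiff χ (m + 2) _ (by rw [hm]; first | (push_cast; ring) | push_cast)))).trans e
    · have e : Nat.card {χ : Cfsg.IrrCharacter (Matrix.SpecialLinearGroup (Fin 2) F) // deg χ = m} = Fintype.card F / 2 := by
        rw [hc4, hm]
        omega
      exact (Nat.card_congr (Equiv.subtypeEquivRight
        (fun χ => hiff χ m _ (by rw [hm]; first | (push_cast; ring) | push_cast)))).trans e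

end Cfsg.Agent.S2300
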