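import Cfsg.Statements.S2301
import Cfsg.Agent.Helper12.SL2Unip

set_option autoImplicit false
open Cfsg

namespace Cfsg.Agent.S2301

open Cfsg.Agent.Helper12

/-- Over a finite field with q elements of odd characteristic p, the elements of order p of SL₂ (the non-identity unipotent elements) fall into exactly two conjugacy classes, each of size (q² − 1)/2; two upper unitriangular matrices with non-zero off-diagonal entries b and b′ are conjugate exactly when bb′ is a square. -/
theorem result {F : Type*} [Field F] [Fintype F] (p : ℕ) [Fact p.Prime] [CharP F p] (hp : p ≠ 2) :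
    Nat.card {C : ConjClasses (Matrix.SpecialLinearGroup (Fin 2) F) // ∃ g : Matrix.SpecialLinearGroup (Fin 2) F, orderOf g = p ∧ ConjClasses.mk g = C} = 2 ∧
    (∀ g : Matrix.SpecialLinearGroup (Fin 2) F, orderOf g = p → Nat.card (ConjClasses.mk g).carrier = (Fintype.card F ^ 2 - 1) / 2) ∧
    ∀ g h : Matrix.SpecialLinearGroup (Fin 2) F, (g : Matrix (Fin 2) (Fin 2) F) 0 0 = 1 → (g : Matrix (Fin 2) (Fin 2) F) 1 1 = 1 → (g : Matrix (Fin 2) (Fin 2) F) 1 0 = 0 → (g : Matrix (Fin 2) (Fin 2) F) 0 1 ≠ 0 →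
      (h : Matrix (Fin 2) (Fin 2) F) 0 0 = 1 → (h : Matrix (Fin 2) (Fin 2) F) 1 1 = 1 → (h : Matrix (Fin 2) (Fin 2) F) 1 0 = 0 → (h : Matrix (Fin 2) (Fin 2) F) 0 1 ≠ 0 →
      (IsConj g h ↔ IsSquare ((g : Matrix (Fin 2) (Fin 2) F) 0 1 * (h : Matrix (Fin 2) (Fin 2) F) 0 1)) := by
  classical
  have h2 : (2 : F) ≠ 0 := by
    intro h
    have h' : ((2 : ℕ) : F) = 0 := by exact_mod_cast h
    have hdvd := (CharP.cast_eq_zero_iff F p 2).mp h'
    exact hp ((Nat.prime_dvd_prime_iff_eq (Fact.out) Nat.prime_two).mp hdvd)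
  have hring : ringChar F ≠ 2 := by
    rw [ringChar.eq F p]
    exact hp
  have key : ∀ g : Matrix.SpecialLinearGroup (Fin 2) F, orderOf g = p →
      ∃ b : F, b ≠ 0 ∧ IsConj g (sl2U b) := by
    intro g hg
    have hg1 : g ≠ 1 := by
      rintro rfl
      rw [orderOf_one] at hg
      exact (Fact.out : p.Prime).ne_one hg.symm
    have hgp : g ^ p = 1 := by rw [← hg]; exact pow_orderOf_eq_one g
    exact sl2_exists_conj_sl2U h2 g (sl2_trace_eq_two_of_pow_char p g hgp) hg1
  obtain ⟨ε, hε⟩ := FiniteField.exists_nonsquare hring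
  have hε0 : ε ≠ 0 := by
    rintro rfl
    exact hε ⟨0, (mul_zero 0).symm⟩
  have hsq : ∀ b : F, b ≠ 0 → IsSquare (b * 1) ∨ IsSquare (b * ε) := by
    intro b hb
    by_cases hbs : IsSquare b
    · left; rwa [mul_one]
    · right
      rw [← quadraticChar_one_iff_isSquare (mul_ne_zero hb hε0), map_mul,
        quadraticChar_neg_one_iff_not_isSquare.mpr hbs, quadraticChar_neg_one_iff_not_isSquare.mpr hε]
      norm_num
  refine ⟨?_, ?_, ?_⟩
  · have hset : {C : ConjClasses (Matrix.SpecialLinearGroup (Fin 2) F) | ∃ g : Matrix.SpecialLinearGroup (Fin 2) F, orderOf g = p ∧ ConjClasses.mk g = C} =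
        {ConjClasses.mk (sl2U (1 : F)), ConjClasses.mk (sl2U ε)} := by
      ext C
      simp only [Set.mem_insert_iff, Set.mem_singleton_iff]
      constructor
      · rintro ⟨g, hg, rfl⟩
        obtain ⟨b, hb, hconj⟩ := key g hg
        rcases hsq b hb with h | h
        · left
          rw [ConjClasses.mk_eq_mk_iff_isConj]
          exact hconj.trans ((sl2U_isConj_iff hb one_ne_zero).mpr h)
        · right
          rw [ConjClasses.mk_eq_mk_iff_isConj]
          exact hconj.trans ((sl2U_isConj_iff hb hε0).mpr h)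
      · rintro (rfl | rfl)
        · exact ⟨sl2U 1, orderOf_sl2U p one_ne_zero, rfl⟩
        · exact ⟨sl2U ε, orderOf_sl2U p hε0, rfl⟩
    have hne : ConjClasses.mk (sl2U (1 : F)) ≠ ConjClasses.mk (sl2U ε) := by
      rw [Ne, ConjClasses.mk_eq_mk_iff_isConj, sl2U_isConj_iff one_ne_zero hε0, one_mul]
      exact hε
    show Nat.card ↥{C : ConjClasses (Matrix.SpecialLinearGroup (Fin 2) F) | ∃ g : Matrix.SpecialLinearGroup (Fin 2) F, orderOf g = p ∧ ConjClasses.mk g = C} = 2
    rw [hset, Nat.card_coe_set_eq, Set.ncard_pair hne]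
  · intro g hg
    obtain ⟨b, hb, hconj⟩ := key g hg
    rw [ConjClasses.mk_eq_mk_iff_isConj.mpr hconj]
    exact sl2U_card_carrier h2 hb
  · intro g h g00 g11 g10 g01 h00 h11 h10 h01
    have hg := sl2_eq_sl2U g g00 g10 g11
    have hh := sl2_eq_sl2U h h00 h10 h11
    have key2 := sl2U_isConj_iff g01 h01
    rw [← hg, ← hh] at key2
    exact key2

end Cfsg.Agent.S2301
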