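import Cfsg.Statements.S2303
import Mathlib

set_option autoImplicit false
open Cfsg

namespace Cfsg.Agent.S2303

open Matrix

theorem gl2_eta {F : Type*} [Field F] (g : Matrix.GeneralLinearGroup (Fin 2) F) :
    ∃ a b c d : F, (g : Matrix (Fin 2) (Fin 2) F) = !![a, b; c, d] ∧ a * d - b * c ≠ 0 := by
  refine ⟨(g : Matrix (Fin 2) (Fin 2) F) 0 0, (g : Matrix (Fin 2) (Fin 2) F) 0 1,
    (g : Matrix (Fin 2) (Fin 2) F) 1 0, (g : Matrix (Fin 2) (Fin 2) F) 1 1, Matrix.eta_fin_two _, ?_⟩
  have := Matrix.GeneralLinearGroup.det_ne_zero g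
  rwa [Matrix.det_fin_two] at this

theorem gl2_comm_iff {F : Type*} [Field F] (g k : Matrix.GeneralLinearGroup (Fin 2) F) :
    k ∈ Subgroup.centralizer ({g} : Set (Matrix.GeneralLinearGroup (Fin 2) F)) ↔
      (k : Matrix (Fin 2) (Fin 2) F) * (g : Matrix (Fin 2) (Fin 2) F) =
        (g : Matrix (Fin 2) (Fin 2) F) * (k : Matrix (Fin 2) (Fin 2) F) := by
  rw [Subgroup.mem_centralizer_singleton_iff]
  constructor
  · intro h
    have := congrArg Units.val h
    simpa using this
  · intro h
    apply Units.ext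
    simpa using h

theorem card_ne_zero_pairs {F : Type*} [Field F] [Fintype F] :
    Nat.card {p : F × F // p ≠ 0} = Fintype.card F ^ 2 - 1 := by
  classical
  have h := Nat.card_congr (Equiv.sumCompl (· = (0 : F × F)))
  rw [Nat.card_sum, Nat.card_unique, Nat.card_prod] at h
  show Nat.card {p : F × F // ¬ p = 0} = _
  rw [← Nat.card_eq_fintype_card (α := F), pow_two]
  omega

theorem part1 {F : Type*} [Field F] [Fintype F] (g : Matrix.GeneralLinearGroup (Fin 2) F)
    (h01 : (g : Matrix (Fin 2) (Fin 2) F) 0 1 = 0) (h10 : (g : Matrix (Fin 2) (Fin 2) F) 1 0 = 0)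
    (hne : (g : Matrix (Fin 2) (Fin 2) F) 0 0 ≠ (g : Matrix (Fin 2) (Fin 2) F) 1 1) :
    Nat.card (Subgroup.centralizer ({g} : Set (Matrix.GeneralLinearGroup (Fin 2) F))) =
      (Fintype.card F - 1) ^ 2 := by
  classical
  obtain ⟨a, b, c, d, hg, hdet⟩ := gl2_eta g
  rw [hg] at h01 h10 hne
  simp at h01 h10 hne
  subst h01 h10
  have had : a - d ≠ 0 := sub_ne_zero.mpr hne
  have hchar : ∀ k : Matrix.GeneralLinearGroup (Fin 2) F,
      k ∈ Subgroup.centralizer ({g} : Set (Matrix.GeneralLinearGroup (Fin 2) F)) ↔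
      ((k : Matrix (Fin 2) (Fin 2) F) 0 1 = 0 ∧ (k : Matrix (Fin 2) (Fin 2) F) 1 0 = 0) := by
    intro k
    rw [gl2_comm_iff, hg]
    obtain ⟨x, y, z, w, hk, hkdet⟩ := gl2_eta k
    rw [hk]
    constructor
    · intro h
      have e01 := congrFun (congrFun h 0) 1
      have e10 := congrFun (congrFun h 1) 0
      simp only [Matrix.mul_apply, Fin.sum_univ_two, Matrix.of_apply, Matrix.cons_val_zero,
        Matrix.cons_val_one, Matrix.cons_val', Matrix.cons_val_fin_one] at e01 e10
      constructor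
      · have : y * (a - d) = 0 := by linear_combination -e01
        simpa using (mul_eq_zero.mp this).resolve_right had
      · have : z * (a - d) = 0 := by linear_combination e10
        simpa using (mul_eq_zero.mp this).resolve_right had
    · rintro ⟨h1, h2⟩
      simp at h1 h2
      subst h1 h2
      ext i j
      fin_cases i <;> fin_cases j <;> simp [Matrix.mul_apply, Fin.sum_univ_two] <;> ring
  have hnz : ∀ k : Matrix.GeneralLinearGroup (Fin 2) F,
      k ∈ Subgroup.centralizer ({g} : Set (Matrix.GeneralLinearGroup (Fin 2) F)) →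
      (k : Matrix (Fin 2) (Fin 2) F) 0 0 ≠ 0 ∧ (k : Matrix (Fin 2) (Fin 2) F) 1 1 ≠ 0 := by
    intro k hk
    obtain ⟨h1, h2⟩ := (hchar k).mp hk
    have hd := Matrix.GeneralLinearGroup.det_ne_zero k
    rw [Matrix.det_fin_two, h1, zero_mul, sub_zero] at hd
    exact ⟨left_ne_zero_of_mul hd, right_ne_zero_of_mul hd⟩
  let f : Subgroup.centralizer ({g} : Set (Matrix.GeneralLinearGroup (Fin 2) F)) → Fˣ × Fˣ :=
    fun k => (Units.mk0 _ (hnz k.1 k.2).1, Units.mk0 _ (hnz k.1 k.2).2)
  have hf : Function.Bijective f := by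
    constructor
    · intro k k' hkk'
      have h1 : (k.1 : Matrix (Fin 2) (Fin 2) F) 0 0 = (k'.1 : Matrix (Fin 2) (Fin 2) F) 0 0 :=
        congrArg (fun p : Fˣ × Fˣ => (p.1 : F)) hkk'
      have h2 : (k.1 : Matrix (Fin 2) (Fin 2) F) 1 1 = (k'.1 : Matrix (Fin 2) (Fin 2) F) 1 1 :=
        congrArg (fun p : Fˣ × Fˣ => (p.2 : F)) hkk'
      obtain ⟨e1, e2⟩ := (hchar k.1).mp k.2
      obtain ⟨e1', e2'⟩ := (hchar k'.1).mp k'.2
      apply Subtype.ext
      apply Matrix.GeneralLinearGroup.ext
      intro i j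
      fin_cases i <;> fin_cases j
      · exact h1
      · exact e1.trans e1'.symm
      · exact e2.trans e2'.symm
      · exact h2
    · rintro ⟨u, v⟩
      refine ⟨⟨Matrix.GeneralLinearGroup.mkOfDetNeZero !![(u : F), 0; 0, (v : F)]
        (by simp [Matrix.det_fin_two]), ?_⟩, ?_⟩
      · rw [hchar]
        constructor <;> rfl
      · apply Prod.ext <;> apply Units.ext <;> rfl
  rw [Nat.card_congr (Equiv.ofBijective f hf), Nat.card_prod, Nat.card_units, Nat.card_eq_fintype_card,
    pow_two]

theorem part2 {F : Type*} [Field F] [Fintype F] (g : Matrix.GeneralLinearGroup (Fin 2) F)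
    (hne : ∀ (c : F) (v : Fin 2 → F), v ≠ 0 → (g : Matrix (Fin 2) (Fin 2) F).mulVec v ≠ c • v) :
    Nat.card (Subgroup.centralizer ({g} : Set (Matrix.GeneralLinearGroup (Fin 2) F))) =
      Fintype.card F ^ 2 - 1 := by
  classical
  obtain ⟨a, b, c, d, hg, hdet⟩ := gl2_eta g
  rw [hg] at hne
  have noeig : ∀ x z : F, (x ≠ 0 ∨ z ≠ 0) → c * x ^ 2 + (d - a) * x * z - b * z ^ 2 ≠ 0 := by
    intro x z hxz h0
    have hv : (![x, z] : Fin 2 → F) ≠ 0 := by
      intro h
      have h1 := congrFun h 0
      have h2 := congrFun h 1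
      simp at h1 h2
      rcases hxz with h' | h'
      · exact h' h1
      · exact h' h2
    by_cases hx : x = 0
    · subst hx
      have hz : z ≠ 0 := by simpa using hxz
      have hb : b = 0 := by
        have : b * z ^ 2 = 0 := by linear_combination -h0
        rcases mul_eq_zero.mp this with h | h
        · exact h
        · exact absurd (pow_eq_zero_iff (two_ne_zero) |>.mp h) hz
      apply hne d ![0, z] hv
      ext i
      fin_cases i <;> simp [Matrix.mulVec, dotProduct, Fin.sum_univ_two, hb]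
    · apply hne ((a * x + b * z) / x) ![x, z] hv
      ext i
      fin_cases i
      · simp [Matrix.mulVec, dotProduct, Fin.sum_univ_two]
        field_simp
      · simp [Matrix.mulVec, dotProduct, Fin.sum_univ_two]
        field_simp
        linear_combination h0
  have hc : c ≠ 0 := by
    have := noeig 1 0 (Or.inl one_ne_zero)
    simpa using this
  have hchar : ∀ k : Matrix.GeneralLinearGroup (Fin 2) F,
      k ∈ Subgroup.centralizer ({g} : Set (Matrix.GeneralLinearGroup (Fin 2) F)) ↔
      ((k : Matrix (Fin 2) (Fin 2) F) 0 1 = b * (k : Matrix (Fin 2) (Fin 2) F) 1 0 / c ∧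
       (k : Matrix (Fin 2) (Fin 2) F) 1 1 =
        (k : Matrix (Fin 2) (Fin 2) F) 0 0 + (k : Matrix (Fin 2) (Fin 2) F) 1 0 * (d - a) / c) := by
    intro k
    rw [gl2_comm_iff, hg]
    obtain ⟨x, y, z, w, hk, hkdet⟩ := gl2_eta k
    rw [hk]
    constructor
    · intro h
      have e00 := congrFun (congrFun h 0) 0
      have e10 := congrFun (congrFun h 1) 0
      simp only [Matrix.mul_apply, Fin.sum_univ_two, Matrix.of_apply, Matrix.cons_val_zero,
        Matrix.cons_val_one, Matrix.cons_val', Matrix.cons_val_fin_one] at e00 e10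
      constructor
      · simp only [Matrix.of_apply, Matrix.cons_val_zero,
          Matrix.cons_val_one, Matrix.cons_val', Matrix.cons_val_fin_one]
        field_simp
        linear_combination e00
      · simp only [Matrix.of_apply, Matrix.cons_val_zero,
          Matrix.cons_val_one, Matrix.cons_val', Matrix.cons_val_fin_one]
        field_simp
        linear_combination e10
    · rintro ⟨h1, h2⟩
      simp only [Matrix.of_apply, Matrix.cons_val_zero,
          Matrix.cons_val_one, Matrix.cons_val', Matrix.cons_val_fin_one] at h1 h2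
      subst h1 h2
      ext i j
      fin_cases i <;> fin_cases j <;> simp [Matrix.mul_apply, Fin.sum_univ_two] <;> field_simp <;> ring
  have hcol : ∀ k : Matrix.GeneralLinearGroup (Fin 2) F,
      ((k : Matrix (Fin 2) (Fin 2) F) 0 0, (k : Matrix (Fin 2) (Fin 2) F) 1 0) ≠ (0 : F × F) := by
    intro k h
    have h1 : (k : Matrix (Fin 2) (Fin 2) F) 0 0 = 0 := congrArg Prod.fst h
    have h2 : (k : Matrix (Fin 2) (Fin 2) F) 1 0 = 0 := congrArg Prod.snd h
    have hd := Matrix.GeneralLinearGroup.det_ne_zero k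
    rw [Matrix.det_fin_two, h1, h2] at hd
    simp at hd
  let f : Subgroup.centralizer ({g} : Set (Matrix.GeneralLinearGroup (Fin 2) F)) → {p : F × F // p ≠ 0} :=
    fun k => ⟨((k.1 : Matrix (Fin 2) (Fin 2) F) 0 0, (k.1 : Matrix (Fin 2) (Fin 2) F) 1 0), hcol k.1⟩
  have hf : Function.Bijective f := by
    constructor
    · intro k k' hkk'
      have hkk'' := congrArg Subtype.val hkk'
      have h1 : (k.1 : Matrix (Fin 2) (Fin 2) F) 0 0 = (k'.1 : Matrix (Fin 2) (Fin 2) F) 0 0 :=
        congrArg Prod.fst hkk''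
      have h2 : (k.1 : Matrix (Fin 2) (Fin 2) F) 1 0 = (k'.1 : Matrix (Fin 2) (Fin 2) F) 1 0 :=
        congrArg Prod.snd hkk''
      obtain ⟨e1, e2⟩ := (hchar k.1).mp k.2
      obtain ⟨e1', e2'⟩ := (hchar k'.1).mp k'.2
      apply Subtype.ext
      apply Matrix.GeneralLinearGroup.ext
      intro i j
      fin_cases i <;> fin_cases j
      · exact h1
      · show (k.1 : Matrix (Fin 2) (Fin 2) F) 0 1 = (k'.1 : Matrix (Fin 2) (Fin 2) F) 0 1
        rw [e1, e1', h2]
      · exact h2
      · show (k.1 : Matrix (Fin 2) (Fin 2) F) 1 1 = (k'.1 : Matrix (Fin 2) (Fin 2) F) 1 1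
        rw [e2, e2', h1, h2]
    · rintro ⟨⟨x, z⟩, hxz⟩
      have hxz' : x ≠ 0 ∨ z ≠ 0 := by
        by_contra h
        push Not at h
        exact hxz (by rw [h.1, h.2]; rfl)
      have hdetk : (!![x, b * z / c; z, x + z * (d - a) / c] : Matrix (Fin 2) (Fin 2) F).det ≠ 0 := by
        rw [Matrix.det_fin_two_of]
        have := noeig x z hxz'
        intro h0
        apply this
        field_simp at h0
        linear_combination h0
      refine ⟨⟨Matrix.GeneralLinearGroup.mkOfDetNeZero _ hdetk, ?_⟩, ?_⟩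
      · rw [hchar]
        constructor <;> rfl
      · rfl
  rw [Nat.card_congr (Equiv.ofBijective f hf)]
  exact card_ne_zero_pairs

/-- Over a finite field with q elements: a diagonal element of GL₂ with two distinct diagonal entries has centralizer of order (q − 1)² (so q(q + 1) conjugates), and an element of GL₂ with no eigenvector in F² has centralizer of order q² − 1 (so q(q − 1) conjugates). -/
theorem result {F : Type*} [Field F] [Fintype F] (g : Matrix.GeneralLinearGroup (Fin 2) F) :
    ((g : Matrix (Fin 2) (Fin 2) F) 0 1 = 0 → (g : Matrix (Fin 2) (Fin 2) F) 1 0 = 0 → (g : Matrix (Fin 2) (Fin 2) F) 0 0 ≠ (g : Matrix (Fin 2) (Fin 2) F) 1 1 →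
      Nat.card (Subgroup.centralizer ({g} : Set (Matrix.GeneralLinearGroup (Fin 2) F))) = (Fintype.card F - 1) ^ 2) ∧
    ((∀ (c : F) (v : Fin 2 → F), v ≠ 0 → (g : Matrix (Fin 2) (Fin 2) F).mulVec v ≠ c • v) →
      Nat.card (Subgroup.centralizer ({g} : Set (Matrix.GeneralLinearGroup (Fin 2) F))) = Fintype.card F ^ 2 - 1) :=
  ⟨fun h01 h10 hne => part1 g h01 h10 hne, fun h => part2 g h⟩

end Cfsg.Agent.S2303
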