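import Cfsg.Statements.S2306
import Mathlib
import Cfsg.Agent.Helper12.SL2IndInner

set_option autoImplicit false
open Cfsg

namespace Cfsg.Agent.S2306

open Cfsg.Agent.Helper12

/-- Over a finite field F, for a multiplicative character α of F, the function induced to SL₂ from the linear character b ↦ α(b₁₁) of the upper triangular subgroup is an irreducible character if and only if α² ≠ 1. -/
theorem result {F : Type*} [Field F] [Fintype F] [DecidableEq F] (α : MulChar F ℂ) :
    Cfsg.IsIrrCharacter (Matrix.SpecialLinearGroup (Fin 2) F) (Cfsg.indFun ((Cfsg.upperTriangularGL 2 F).comap Matrix.SpecialLinearGroup.toGL) (fun b => α (((b : Matrix.SpecialLinearGroup (Fin 2) F) : Matrix (Fin 2) (Fin 2) F) 0 0))) ↔ α ^ 2 ≠ 1 := by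
  classical
  show Cfsg.IsIrrCharacter (Matrix.SpecialLinearGroup (Fin 2) F) (Cfsg.indFun ((Cfsg.upperTriangularGL 2 F).comap Matrix.SpecialLinearGroup.toGL) (thS α)) ↔ _
  have hin := classInner_RS α α
  rw [if_pos rfl] at hin
  have hsq : α ^ 2 = 1 ↔ α = α⁻¹ := by rw [sq, eq_inv_iff_mul_eq_one]
  constructor
  · intro hirr hα
    have h1 : Cfsg.classInner (Cfsg.indFun ((Cfsg.upperTriangularGL 2 F).comap Matrix.SpecialLinearGroup.toGL) (thS α)) (Cfsg.indFun ((Cfsg.upperTriangularGL 2 F).comap Matrix.SpecialLinearGroup.toGL) (thS α)) = 1 :=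
      Helper24.irr_inner_self ⟨_, hirr⟩
    rw [h1, if_pos (hsq.mp hα)] at hin
    norm_num at hin
  · intro hα
    rw [if_neg (fun h => hα (hsq.mpr h)), add_zero] at hin
    exact Helper24.isIrrCharacter_of_inner_self
      (Helper24.isCharacter_induced _ _ (thS_isCharacter α)) hin

end Cfsg.Agent.S2306
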