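import Cfsg.Statements.S2309
import Mathlib
import Cfsg.Agent.Helper12.GL2Char

set_option autoImplicit false
open Cfsg

namespace Cfsg.Agent.S2309

open Cfsg.Agent.Helper12

/-- Over a finite field F with q elements: every irreducible complex character of GL₂ of degree q − 1 vanishes at every diagonal matrix with two distinct entries, and every irreducible complex character of degree q + 1 vanishes at every element with no eigenvector in F². -/
theorem result {F : Type*} [Field F] [Fintype F] (χ : Matrix.GeneralLinearGroup (Fin 2) F → ℂ) (hχ : Cfsg.IsIrrCharacter (Matrix.GeneralLinearGroup (Fin 2) F) χ) (g : Matrix.GeneralLinearGroup (Fin 2) F) :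
    (χ 1 = (Fintype.card F : ℂ) - 1 → (g : Matrix (Fin 2) (Fin 2) F) 0 1 = 0 → (g : Matrix (Fin 2) (Fin 2) F) 1 0 = 0 → (g : Matrix (Fin 2) (Fin 2) F) 0 0 ≠ (g : Matrix (Fin 2) (Fin 2) F) 1 1 → χ g = 0) ∧
    (χ 1 = (Fintype.card F : ℂ) + 1 → (∀ (c : F) (v : Fin 2 → F), v ≠ 0 → (g : Matrix (Fin 2) (Fin 2) F).mulVec v ≠ c • v) → χ g = 0) := by
  classical
  obtain ⟨m, hm⟩ : ∃ m, Fintype.card F = m + 1 :=
    Nat.exists_eq_succ_of_ne_zero Fintype.card_ne_zero
  have hm1 : 1 ≤ m := by
    have := Fintype.one_lt_card (α := F)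
    omega
  have hQ : (Fintype.card F : ℂ) = (m : ℂ) + 1 := by
    rw [hm]
    push_cast
    ring
  rcases gl2_classify χ hχ m hm with ⟨n, hn, hdvd, hineq, hval, hsplit⟩ | ⟨h1, hval, hell⟩ |
    ⟨h1, hval, hnorm⟩ | ⟨h1, hval, hsp, hell⟩
  · refine ⟨fun _ h01 h10 hne => hsplit g h01 h10 hne, ?_⟩
    intro hdeg _
    exfalso
    have e : (n : ℂ) = (m : ℂ) + 2 := by
      rw [← hn, hdeg, hQ]
      ring
    have e' : n = m + 2 := by exact_mod_cast e
    subst e'
    have h2 : m ∣ 2 := (Nat.dvd_add_right (dvd_refl m)).mp hdvd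
    have h3 : m ≤ 2 := Nat.le_of_dvd (by norm_num) h2
    interval_cases m
    · norm_num at hineq
    · norm_num at hineq
  · refine ⟨?_, fun _ hg => hell g hg⟩
    intro hdeg
    exfalso
    rw [h1, hQ] at hdeg
    have h2 : (2 : ℂ) = 0 := by linear_combination hdeg
    norm_num at h2
  · constructor
    · intro hdeg h01 h10 hne
      exfalso
      rw [h1, hQ] at hdeg
      have e : (m : ℂ) = 1 := by linear_combination -hdeg
      have e' : m = 1 := by exact_mod_cast e
      have hcu : Fintype.card Fˣ = 1 := by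
        rw [Fintype.card_units, hm]
        omega
      have hd := S2305.det_ne_zero' g
      rw [h01, zero_mul, sub_zero] at hd
      have h00 := left_ne_zero_of_mul hd
      have h11 := right_ne_zero_of_mul hd
      have h5 := Fintype.card_le_one_iff.mp hcu.le (Units.mk0 _ h00) (Units.mk0 _ h11)
      exact hne (congrArg Units.val h5)
    · intro hdeg _
      exfalso
      rw [h1, hQ] at hdeg
      have e : (m : ℂ) + 1 = 0 := by linear_combination -hdeg
      have e' : m + 1 = 0 := by exact_mod_cast e
      omega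
  · constructor
    · intro hdeg
      exfalso
      rw [h1, hQ] at hdeg
      have h2 : (1 : ℂ) = 0 := by linear_combination hdeg
      norm_num at h2
    · intro hdeg
      exfalso
      rw [h1, hQ] at hdeg
      have h2 : (1 : ℂ) = 0 := by linear_combination -hdeg
      norm_num at h2

end Cfsg.Agent.S2309
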