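import Cfsg.Statements.S2310
import Mathlib
import Cfsg.Agent.Helper12.GL2Char

set_option autoImplicit false
open Cfsg

namespace Cfsg.Agent.S2310

open Cfsg.Agent.Helper12

/-- Over a finite field F with q ≥ 3 elements, let u be the upper unitriangular matrix of GL₂ with off-diagonal entry 1. An irreducible complex character χ of GL₂ takes at u the value 1 if χ has degree 1 or q + 1, the value −1 if χ has degree q − 1, and the value 0 if χ has degree q. -/
theorem result {F : Type*} [Field F] [Fintype F] (hq : 3 ≤ Fintype.card F) (χ : Matrix.GeneralLinearGroup (Fin 2) F → ℂ) (hχ : Cfsg.IsIrrCharacter (Matrix.GeneralLinearGroup (Fin 2) F) χ)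
    (u : Matrix.GeneralLinearGroup (Fin 2) F) (hu : (u : Matrix (Fin 2) (Fin 2) F) = !![1, 1; 0, 1]) :
    (χ 1 = 1 → χ u = 1) ∧ (χ 1 = (Fintype.card F : ℂ) + 1 → χ u = 1) ∧
    (χ 1 = (Fintype.card F : ℂ) - 1 → χ u = -1) ∧ (χ 1 = (Fintype.card F : ℂ) → χ u = 0) := by
  classical
  obtain ⟨m, hm⟩ : ∃ m, Fintype.card F = m + 1 :=
    Nat.exists_eq_succ_of_ne_zero Fintype.card_ne_zero
  have hm1 : 1 ≤ m := by
    have := Fintype.one_lt_card (α := F)
    omega
  have hQ : (Fintype.card F : ℂ) = (m : ℂ) + 1 := by
    rw [hm]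
    push_cast
    ring
  have hm2 : 2 ≤ m := by omega
  have huu : u = S2308.belG 1 1 1 := Units.ext hu
  rw [huu]
  rcases gl2_classify χ hχ m hm with ⟨n, hn, hdvd, hineq, hval, hsplit⟩ | ⟨h1, hval, hell⟩ |
    ⟨h1, hval, hnorm⟩ | ⟨h1, hval, hsp, hell⟩
  · refine ⟨?_, ?_, ?_, ?_⟩
    · intro hdeg
      exfalso
      have e : (n : ℂ) = 1 := by
        rw [← hn]
        exact hdeg
      have e' : n = 1 := by exact_mod_cast e
      subst e'
      have h3 : m ≤ 1 := Nat.le_of_dvd (by norm_num) hdvd
      omega
    · intro hdeg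
      exfalso
      have e : (n : ℂ) = (m : ℂ) + 2 := by
        rw [← hn, hdeg, hQ]
        ring
      have e' : n = m + 2 := by exact_mod_cast e
      subst e'
      have h2 : m ∣ 2 := (Nat.dvd_add_right (dvd_refl m)).mp hdvd
      have h3 : m ≤ 2 := Nat.le_of_dvd (by norm_num) h2
      have h4 : m = 2 := by omega
      subst h4
      norm_num at hineq
    · intro hdeg
      have e : (n : ℂ) = (m : ℂ) := by
        rw [← hn, hdeg, hQ]
        ring
      have hm0 : (m : ℂ) ≠ 0 := Nat.cast_ne_zero.mpr (by omega)
      rw [hval, e, div_self hm0]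
    · intro hdeg
      exfalso
      have e : (n : ℂ) = (m : ℂ) + 1 := by
        rw [← hn, hdeg, hQ]
      have e' : n = m + 1 := by exact_mod_cast e
      subst e'
      have h2 : m ∣ 1 := (Nat.dvd_add_right (dvd_refl m)).mp hdvd
      have h3 : m ≤ 1 := Nat.le_of_dvd (by norm_num) h2
      omega
  · refine ⟨?_, fun _ => hval, ?_, ?_⟩
    · intro hdeg
      exfalso
      rw [h1] at hdeg
      have e : (m : ℂ) + 1 = 0 := by linear_combination hdeg
      have e' : m + 1 = 0 := by exact_mod_cast e
      omega
    · intro hdeg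
      exfalso
      rw [h1, hQ] at hdeg
      have h2 : (2 : ℂ) = 0 := by linear_combination hdeg
      norm_num at h2
    · intro hdeg
      exfalso
      rw [h1, hQ] at hdeg
      have h2 : (1 : ℂ) = 0 := by linear_combination hdeg
      norm_num at h2
  · refine ⟨fun _ => hval, ?_, ?_, ?_⟩
    · intro hdeg
      exfalso
      rw [h1, hQ] at hdeg
      have e : (m : ℂ) + 1 = 0 := by linear_combination -hdeg
      have e' : m + 1 = 0 := by exact_mod_cast e
      omega
    · intro hdeg
      exfalso
      rw [h1, hQ] at hdeg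
      have e : (m : ℂ) = 1 := by linear_combination -hdeg
      have e' : m = 1 := by exact_mod_cast e
      omega
    · intro hdeg
      exfalso
      rw [h1, hQ] at hdeg
      have e : (m : ℂ) = 0 := by linear_combination -hdeg
      have e' : m = 0 := by exact_mod_cast e
      omega
  · refine ⟨?_, ?_, ?_, fun _ => hval⟩
    · intro hdeg
      exfalso
      rw [h1] at hdeg
      have e : (m : ℂ) = 0 := by linear_combination hdeg
      have e' : m = 0 := by exact_mod_cast e
      omega
    · intro hdeg
      exfalso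
      rw [h1, hQ] at hdeg
      have h2 : (1 : ℂ) = 0 := by linear_combination -hdeg
      norm_num at h2
    · intro hdeg
      exfalso
      rw [h1, hQ] at hdeg
      have h2 : (1 : ℂ) = 0 := by linear_combination hdeg
      norm_num at h2

end Cfsg.Agent.S2310
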