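import Cfsg.Statements.S2315
import Mathlib
-- import your own Cfsg.Agent.* helpers here

set_option autoImplicit false
open Cfsg

namespace Cfsg.Agent.S2315

open Matrix

variable {F : Type*} [Field F]

theorem nilp_pow_card {κ : Type*} [Fintype κ] [DecidableEq κ] (N : Matrix κ κ F)
    (h : IsNilpotent N) : N ^ Fintype.card κ = 0 := by
  have h1 := Matrix.isNilpotent_charpoly_sub_pow_of_isNilpotent h
  have h2 : N.charpoly = Polynomial.X ^ Fintype.card κ := sub_eq_zero.mp h1.eq_zero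
  have h3 := Matrix.aeval_self_charpoly N
  rw [h2] at h3
  simpa using h3

section blocks

variable {κ μ : Type*} [Fintype κ] [Fintype μ] [DecidableEq κ] [DecidableEq μ]

theorem blk_pow (N : Matrix κ κ F) (A : Matrix μ μ F) (j : ℕ) :
    (fromBlocks N 0 0 A) ^ j = fromBlocks (N ^ j) 0 0 (A ^ j) := by
  induction j with
  | zero => simp [fromBlocks_one]
  | succ j ih => rw [pow_succ, ih, fromBlocks_multiply, pow_succ, pow_succ]; simp

theorem blk_rank (B : Matrix μ μ F) (hB : IsUnit B) :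
    (fromBlocks (0 : Matrix κ κ F) 0 0 B).rank = Fintype.card μ := by
  classical
  have h1 : fromBlocks (0 : Matrix κ κ F) 0 0 B
      = fromBlocks (1 : Matrix κ κ F) 0 0 B * fromBlocks (0 : Matrix κ κ F) 0 0 1 := by
    rw [fromBlocks_multiply]; simp
  have h2 : IsUnit (fromBlocks (1 : Matrix κ κ F) 0 0 B).det := by
    rw [Matrix.det_fromBlocks_zero₁₂]
    simpa using (Matrix.isUnit_iff_isUnit_det B).mp hB
  rw [h1, Matrix.rank_mul_eq_right_of_isUnit_det _ _ h2]
  have h3 : fromBlocks (0 : Matrix κ κ F) 0 0 (1 : Matrix μ μ F)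
      = Matrix.diagonal (Sum.elim (fun _ => (0 : F)) (fun _ => (1 : F))) := by
    rw [← Matrix.fromBlocks_diagonal]
    congr 1
    · ext i j; simp
  rw [h3, Matrix.rank_diagonal]
  rw [← Fintype.card_congr (Equiv.ofBijective (fun j : μ =>
    (⟨Sum.inr j, by simp⟩ : {i : κ ⊕ μ // Sum.elim (fun _ => (0 : F)) (fun _ => (1 : F)) i ≠ 0})) ?_)]
  constructor
  · intro a b hab
    exact Sum.inr_injective (congrArg Subtype.val hab)
  · rintro ⟨i, hi⟩
    rcases i with i | i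
    · simp at hi
    · exact ⟨i, rfl⟩

end blocks

/-- Dimension of the generalized kernel. -/
noncomputable def fit {ι : Type*} [Fintype ι] [DecidableEq ι] (M : Matrix ι ι F) : ℕ :=
  Fintype.card ι - (M ^ Fintype.card ι).rank

theorem fit_conj {ι : Type*} [Fintype ι] [DecidableEq ι] (M g : Matrix ι ι F) (hg : IsUnit g) :
    fit (g * M * g⁻¹) = fit M := by
  unfold fit
  have hdet : IsUnit g.det := (Matrix.isUnit_iff_isUnit_det g).mp hg
  have h1 : ∀ j : ℕ, (g * M * g⁻¹) ^ j = g * M ^ j * g⁻¹ := by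
    intro j
    induction j with
    | zero => simp [Matrix.mul_nonsing_inv g hdet]
    | succ j ih =>
      rw [pow_succ, ih, pow_succ]
      calc g * M ^ j * g⁻¹ * (g * M * g⁻¹) = g * M ^ j * (g⁻¹ * g) * M * g⁻¹ := by
            simp only [Matrix.mul_assoc]
        _ = g * (M ^ j * M) * g⁻¹ := by
            rw [Matrix.nonsing_inv_mul g hdet]; simp only [Matrix.mul_assoc, Matrix.mul_one]
  rw [h1]
  have hdet' : IsUnit (g⁻¹).det := by
    rw [Matrix.det_nonsing_inv]; simpa using hdet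
  rw [Matrix.rank_mul_eq_left_of_isUnit_det _ _ hdet', Matrix.rank_mul_eq_right_of_isUnit_det _ _ hdet]

theorem fit_reindex {ι ι' : Type*} [Fintype ι] [DecidableEq ι] [Fintype ι'] [DecidableEq ι']
    (e : ι ≃ ι') (M : Matrix ι ι F) : fit (Matrix.reindex e e M) = fit M := by
  unfold fit
  have h1 : ∀ j : ℕ, (Matrix.reindex e e M) ^ j = Matrix.reindex e e (M ^ j) := by
    intro j
    exact (map_pow (Matrix.reindexAlgEquiv F F e) M j).symm
  rw [h1, Matrix.rank_reindex, Fintype.card_congr e]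

theorem fit_blk {κ μ : Type*} [Fintype κ] [Fintype μ] [DecidableEq κ] [DecidableEq μ]
    (N : Matrix κ κ F) (A : Matrix μ μ F) (hN : N ^ Fintype.card κ = 0) (hA : IsUnit A) :
    fit (fromBlocks N 0 0 A) = Fintype.card κ := by
  unfold fit
  rw [blk_pow]
  have h1 : N ^ Fintype.card (κ ⊕ μ) = 0 := by
    rw [Fintype.card_sum, pow_add, hN, zero_mul]
  rw [h1, blk_rank _ (hA.pow _), Fintype.card_sum]
  omega

theorem fit_le {ι : Type*} [Fintype ι] [DecidableEq ι] (M : Matrix ι ι F) :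
    fit M ≤ Fintype.card ι := Nat.sub_le _ _

theorem fit_eq_card {ι : Type*} [Fintype ι] [DecidableEq ι] (M : Matrix ι ι F) :
    fit M = Fintype.card ι ↔ M ^ Fintype.card ι = 0 := by
  unfold fit
  constructor
  · intro h
    have h1 : (M ^ Fintype.card ι).rank = 0 := by
      have := Matrix.rank_le_card_width (M ^ Fintype.card ι)
      omega
    have h2 : LinearMap.range (M ^ Fintype.card ι).mulVecLin = ⊥ := by
      apply Submodule.finrank_eq_zero.mp
      exact h1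
    have h3 : (M ^ Fintype.card ι).mulVecLin = 0 := LinearMap.range_eq_bot.mp h2
    have h4 : Matrix.toLin' (M ^ Fintype.card ι) = Matrix.toLin' 0 := by
      rw [Matrix.toLin'_apply']; rw [h3]; simp
    exact Matrix.toLin'.injective h4
  · intro h
    rw [h]; simp

theorem comm_blk {κ μ : Type*} [Fintype κ] [Fintype μ] [DecidableEq κ] [DecidableEq μ]
    (N N' : Matrix κ κ F) (A A' : Matrix μ μ F) (hN : N ^ Fintype.card κ = 0)
    (hN' : N' ^ Fintype.card κ = 0) (hA : IsUnit A) (hA' : IsUnit A')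
    (h11 : Matrix κ κ F) (h12 : Matrix κ μ F) (h21 : Matrix μ κ F) (h22 : Matrix μ μ F)
    (hc : fromBlocks N 0 0 A * fromBlocks h11 h12 h21 h22
      = fromBlocks h11 h12 h21 h22 * fromBlocks N' 0 0 A') :
    h12 = 0 ∧ h21 = 0 ∧ N * h11 = h11 * N' ∧ A * h22 = h22 * A' := by
  rw [fromBlocks_multiply, fromBlocks_multiply, fromBlocks_inj] at hc
  simp only [Matrix.zero_mul, Matrix.mul_zero, add_zero, zero_add] at hc
  obtain ⟨c11, c12, c21, c22⟩ := hc
  have e1 : ∀ j : ℕ, N ^ j * h12 = h12 * A' ^ j := by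
    intro j
    induction j with
    | zero => simp
    | succ j ih =>
      rw [pow_succ, Matrix.mul_assoc, c12, ← Matrix.mul_assoc, ih, Matrix.mul_assoc, ← pow_succ]
  have e2 : ∀ j : ℕ, A ^ j * h21 = h21 * N' ^ j := by
    intro j
    induction j with
    | zero => simp
    | succ j ih =>
      rw [pow_succ, Matrix.mul_assoc, c21, ← Matrix.mul_assoc, ih, Matrix.mul_assoc, ← pow_succ]
  refine ⟨?_, ?_, c11, c22⟩
  · have h1 := e1 (Fintype.card κ)
    rw [hN, Matrix.zero_mul] at h1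
    have hu : IsUnit (A' ^ Fintype.card κ).det := (Matrix.isUnit_iff_isUnit_det _).mp (hA'.pow _)
    calc h12 = h12 * A' ^ Fintype.card κ * (A' ^ Fintype.card κ)⁻¹ := by
          rw [Matrix.mul_assoc, Matrix.mul_nonsing_inv _ hu, Matrix.mul_one]
      _ = 0 := by rw [← h1, Matrix.zero_mul]
  · have h1 := e2 (Fintype.card κ)
    rw [hN', Matrix.mul_zero] at h1
    have hu : IsUnit (A ^ Fintype.card κ).det := (Matrix.isUnit_iff_isUnit_det _).mp (hA.pow _)
    calc h21 = (A ^ Fintype.card κ)⁻¹ * (A ^ Fintype.card κ * h21) := by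
          rw [← Matrix.mul_assoc, Matrix.nonsing_inv_mul _ hu, Matrix.one_mul]
      _ = 0 := by rw [h1, Matrix.mul_zero]

theorem mulVecLin_pow {ι : Type*} [Fintype ι] [DecidableEq ι] (M : Matrix ι ι F) (j : ℕ) :
    (M ^ j).mulVecLin = M.mulVecLin ^ j := by
  induction j with
  | zero => simp [Matrix.mulVecLin_one]; rfl
  | succ j ih => rw [pow_succ, Matrix.mulVecLin_mul, ih, pow_succ]; rfl

theorem fitting {κ μ : Type*} [Fintype κ] [Fintype μ] [DecidableEq κ] [DecidableEq μ]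
    (M : Matrix (κ ⊕ μ) (κ ⊕ μ) F) (hM : fit M = Fintype.card κ) :
    ∃ (G G' : Matrix (κ ⊕ μ) (κ ⊕ μ) F) (N : Matrix κ κ F) (A : Matrix μ μ F),
      G * G' = 1 ∧ G' * G = 1 ∧ N ^ Fintype.card κ = 0 ∧ IsUnit A ∧
      M = G * fromBlocks N 0 0 A * G' := by
  classical
  set n := Fintype.card (κ ⊕ μ) with hn
  have hnc : n = Fintype.card κ + Fintype.card μ := Fintype.card_sum
  set f : Module.End F (κ ⊕ μ → F) := M.mulVecLin with hf
  have hfr : Module.finrank F (κ ⊕ μ → F) = n := Module.finrank_fintype_fun_eq_card F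
  have hrank : (M ^ n).rank = Fintype.card μ := by
    unfold fit at hM
    rw [← hn] at hM
    have := Matrix.rank_le_card_width (M ^ n)
    rw [← hn] at this
    omega
  set K := LinearMap.ker (f ^ n) with hK
  set I := LinearMap.range (f ^ n) with hI
  have hfI : Module.finrank F I = Fintype.card μ := by
    rw [← hrank, hI, hf, ← mulVecLin_pow]
    rfl
  have hfK : Module.finrank F K = Fintype.card κ := by
    have := LinearMap.finrank_range_add_finrank_ker (f ^ n)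
    rw [hfr] at this
    change Module.finrank F I + Module.finrank F K = n at this
    omega
  -- stabilization
  have hstab : ∀ (j : ℕ) (y : κ ⊕ μ → F), (f ^ (n + j)) y = 0 → (f ^ n) y = 0 := by
    intro j y hy
    have h1 : LinearMap.ker (f ^ (n + j)) = LinearMap.ker (f ^ Module.finrank F (κ ⊕ μ → F)) :=
      Module.End.ker_pow_eq_ker_pow_finrank_of_le (by rw [hfr]; omega)
    rw [hfr] at h1
    have h2 : y ∈ LinearMap.ker (f ^ (n + j)) := hy
    rw [h1] at h2
    exact h2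
  have hdisj : Disjoint K I := by
    rw [Submodule.disjoint_def]
    intro x hxK hxI
    obtain ⟨y, rfl⟩ := hxI
    have h1 : (f ^ (n + n)) y = 0 := by
      rw [pow_add]; exact hxK
    exact hstab n y h1
  have hcompl : IsCompl K I := by
    refine ⟨hdisj, ?_⟩
    rw [codisjoint_iff]
    exact Submodule.eq_top_of_disjoint K I (by rw [hfK, hfI, hfr, hnc]) hdisj
  have hKinv : ∀ x ∈ K, f x ∈ K := by
    intro x hx
    show (f ^ n) (f x) = 0
    have h1 : (f ^ n) (f x) = f ((f ^ n) x) := by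
      rw [← Module.End.mul_apply, ← Module.End.mul_apply, ← pow_succ, ← pow_succ']
    rw [h1, show (f ^ n) x = 0 from hx, map_zero]
  have hIinv : ∀ x ∈ I, f x ∈ I := by
    rintro x ⟨y, rfl⟩
    refine ⟨f y, ?_⟩
    rw [← Module.End.mul_apply, ← Module.End.mul_apply, ← pow_succ, ← pow_succ']
  have hIker : ∀ x ∈ I, f x = 0 → x = 0 := by
    rintro x ⟨y, rfl⟩ hx
    apply hstab 1 y
    rw [pow_succ']
    exact hx
  let eK : (κ → F) ≃ₗ[F] K := LinearEquiv.ofFinrankEq _ _ (by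
    rw [Module.finrank_fintype_fun_eq_card, hfK])
  let eI : (μ → F) ≃ₗ[F] I := LinearEquiv.ofFinrankEq _ _ (by
    rw [Module.finrank_fintype_fun_eq_card, hfI])
  let fK : K →ₗ[F] K := f.restrict hKinv
  let fI : I →ₗ[F] I := f.restrict hIinv
  let N' : Module.End F (κ → F) := eK.symm.toLinearMap ∘ₗ fK ∘ₗ eK.toLinearMap
  let A' : Module.End F (μ → F) := eI.symm.toLinearMap ∘ₗ fI ∘ₗ eI.toLinearMap
  let e : ((κ → F) × (μ → F)) ≃ₗ[F] (κ ⊕ μ → F) :=
    (eK.prodCongr eI) ≪≫ₗ Submodule.prodEquivOfIsCompl K I hcompl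
  have he : ∀ x y, e (x, y) = (eK x : κ ⊕ μ → F) + (eI y : κ ⊕ μ → F) := by
    intro x y
    simp [e]
  have hfe : ∀ x y, f (e (x, y)) = e (N' x, A' y) := by
    intro x y
    rw [he, he, map_add]
    simp [N', A', fK, fI, LinearMap.restrict_apply]
  let s : (κ ⊕ μ → F) ≃ₗ[F] (κ → F) × (μ → F) := LinearEquiv.sumArrowLequivProdArrow κ μ F F
  let E : (κ ⊕ μ → F) ≃ₗ[F] (κ ⊕ μ → F) := s ≪≫ₗ e
  refine ⟨LinearMap.toMatrix' E.toLinearMap, LinearMap.toMatrix' E.symm.toLinearMap,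
    LinearMap.toMatrix' N', LinearMap.toMatrix' A', ?_, ?_, ?_, ?_, ?_⟩
  · rw [← LinearMap.toMatrix'_comp, ← LinearMap.toMatrix'_id]
    congr 1
    ext x : 1
    simp
  · rw [← LinearMap.toMatrix'_comp, ← LinearMap.toMatrix'_id]
    congr 1
    ext x : 1
    simp
  · apply nilp_pow_card
    refine ⟨n, ?_⟩
    have h1 : ∀ (j : ℕ) (x : κ → F), (N' ^ j) x = eK.symm ((fK ^ j) (eK x)) := by
      intro j
      induction j with
      | zero => intro x; simp
      | succ j ih =>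
        intro x
        rw [pow_succ, Module.End.mul_apply, ih, pow_succ, Module.End.mul_apply]
        simp [N']
    have h2 : N' ^ n = 0 := by
      apply LinearMap.ext
      intro x
      rw [h1]
      have h3 : (fK ^ n) (eK x) = 0 := by
        apply Subtype.ext
        rw [Module.End.pow_restrict n hKinv]
        rw [LinearMap.coe_restrict_apply]
        exact (eK x).2
      rw [h3]; simp
    have h4 : (LinearMap.toMatrix' N') ^ n = LinearMap.toMatrix' (N' ^ n) := by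
      exact (map_pow (LinearMap.toMatrixAlgEquiv' (R := F) (n := κ)) N' n).symm
    rw [h4, h2]; simp
  · rw [← Matrix.mulVec_injective_iff_isUnit]
    intro x y hxy
    rw [LinearMap.toMatrix'_mulVec, LinearMap.toMatrix'_mulVec] at hxy
    have h1 : A' (x - y) = 0 := by rw [map_sub, hxy, sub_self]
    have h2 : fI (eI (x - y)) = 0 := by
      have : eI.symm (fI (eI (x - y))) = 0 := h1
      exact (LinearEquiv.map_eq_zero_iff eI.symm).mp this
    have h3 : f (eI (x - y) : κ ⊕ μ → F) = 0 := by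
      have := congrArg Subtype.val h2
      simpa [fI, LinearMap.coe_restrict_apply] using this
    have h4 := hIker _ (eI (x - y)).2 h3
    have h5 : eI (x - y) = 0 := Subtype.ext h4
    have h6 : x - y = 0 := (LinearEquiv.map_eq_zero_iff eI).mp h5
    exact sub_eq_zero.mp h6
  · have hMG : M * LinearMap.toMatrix' E.toLinearMap
        = LinearMap.toMatrix' E.toLinearMap * fromBlocks (LinearMap.toMatrix' N') 0 0 (LinearMap.toMatrix' A') := by
      apply Matrix.toLin'.injective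
      apply LinearMap.ext
      intro x
      rw [Matrix.toLin'_mul, Matrix.toLin'_mul]
      simp only [LinearMap.comp_apply, Matrix.toLin'_toMatrix', Matrix.toLin'_apply]
      rw [fromBlocks_mulVec]
      simp only [Matrix.zero_mulVec, add_zero, zero_add, LinearMap.toMatrix'_mulVec]
      have h1 : E x = e (x ∘ Sum.inl, x ∘ Sum.inr) := by
        show e (s x) = _
        congr 1
      have h2 : E (Sum.elim (N' (x ∘ Sum.inl)) (A' (x ∘ Sum.inr)))
          = e (N' (x ∘ Sum.inl), A' (x ∘ Sum.inr)) := by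
        show e (s _) = _
        congr 1
      show M *ᵥ (E x) = E _
      rw [h2, ← hfe, h1]
      rfl
    have hGG : LinearMap.toMatrix' E.toLinearMap * LinearMap.toMatrix' E.symm.toLinearMap = 1 := by
      rw [← LinearMap.toMatrix'_comp, ← LinearMap.toMatrix'_id]
      congr 1
      ext x : 1
      simp
    rw [← hMG, Matrix.mul_assoc, hGG, Matrix.mul_one]

section count

variable {κ μ : Type*} [Fintype κ] [Fintype μ] [DecidableEq κ] [DecidableEq μ]

/-- block-diagonal unit -/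
def dg (h₁ : (Matrix κ κ F)ˣ) (h₂ : (Matrix μ μ F)ˣ) : (Matrix (κ ⊕ μ) (κ ⊕ μ) F)ˣ :=
  ⟨fromBlocks (h₁ : Matrix κ κ F) 0 0 (h₂ : Matrix μ μ F),
   fromBlocks ((h₁⁻¹ : (Matrix κ κ F)ˣ) : Matrix κ κ F) 0 0
     ((h₂⁻¹ : (Matrix μ μ F)ˣ) : Matrix μ μ F),
   by rw [fromBlocks_multiply]; simp [fromBlocks_one],
   by rw [fromBlocks_multiply]; simp [fromBlocks_one]⟩

theorem dg_val (h₁ : (Matrix κ κ F)ˣ) (h₂ : (Matrix μ μ F)ˣ) :
    ((dg h₁ h₂ : (Matrix (κ ⊕ μ) (κ ⊕ μ) F)ˣ) : Matrix (κ ⊕ μ) (κ ⊕ μ) F)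
      = fromBlocks (h₁ : Matrix κ κ F) 0 0 (h₂ : Matrix μ μ F) := rfl

theorem dg_inv_val (h₁ : (Matrix κ κ F)ˣ) (h₂ : (Matrix μ μ F)ˣ) :
    (((dg h₁ h₂)⁻¹ : (Matrix (κ ⊕ μ) (κ ⊕ μ) F)ˣ) : Matrix (κ ⊕ μ) (κ ⊕ μ) F)
      = fromBlocks ((h₁⁻¹ : (Matrix κ κ F)ˣ) : Matrix κ κ F) 0 0
     ((h₂⁻¹ : (Matrix μ μ F)ˣ) : Matrix μ μ F) := rfl

theorem conj_pow' {ι : Type*} [Fintype ι] [DecidableEq ι] (g g' M : Matrix ι ι F)
    (h : g' * g = 1) (j : ℕ) : (g * M * g') ^ j * g = g * M ^ j := by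
  induction j with
  | zero => simp
  | succ j ih =>
    rw [pow_succ', Matrix.mul_assoc, ih, pow_succ']
    calc g * M * g' * (g * M ^ j) = g * M * (g' * g) * M ^ j := by
          simp only [Matrix.mul_assoc]
      _ = g * (M * M ^ j) := by rw [h]; simp only [Matrix.mul_assoc, Matrix.mul_one]

/-- the parametrization map -/
noncomputable def Phi (x : (Matrix (κ ⊕ μ) (κ ⊕ μ) F)ˣ ×
      {N : Matrix κ κ F // N ^ Fintype.card κ = 0} × (Matrix μ μ F)ˣ) :
    {M : Matrix (κ ⊕ μ) (κ ⊕ μ) F // fit M = Fintype.card κ} :=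
  ⟨(x.1 : Matrix _ _ F) * fromBlocks (x.2.1 : Matrix κ κ F) 0 0 (x.2.2 : Matrix μ μ F)
      * ((x.1⁻¹ : (Matrix _ _ F)ˣ) : Matrix _ _ F), by
    rw [Matrix.coe_units_inv, fit_conj _ _ x.1.isUnit]
    exact fit_blk _ _ x.2.1.2 x.2.2.isUnit⟩

theorem fiber_card (M : {M : Matrix (κ ⊕ μ) (κ ⊕ μ) F // fit M = Fintype.card κ}) :
    Nat.card {x // Phi x = M} = Nat.card ((Matrix κ κ F)ˣ × (Matrix μ μ F)ˣ) := by
  classical
  obtain ⟨G, G', N₀, A₀, hGG', hG'G, hN₀, hA₀, hM⟩ := fitting M.1 M.2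
  obtain ⟨A₀u, hA₀u⟩ := hA₀
  let g₀ : (Matrix (κ ⊕ μ) (κ ⊕ μ) F)ˣ := ⟨G, G', hGG', hG'G⟩
  have key1 : ∀ h₁ : (Matrix κ κ F)ˣ,
      (((h₁⁻¹ : (Matrix κ κ F)ˣ) : Matrix κ κ F) * N₀ * (h₁ : Matrix κ κ F)) ^ Fintype.card κ
        = 0 := by
    intro h₁
    have h1 := conj_pow' ((h₁⁻¹ : (Matrix κ κ F)ˣ) : Matrix κ κ F) (h₁ : Matrix κ κ F) N₀
      (by simp) (Fintype.card κ)
    rw [hN₀, Matrix.mul_zero] at h1
    calc (((h₁⁻¹ : (Matrix κ κ F)ˣ) : Matrix κ κ F) * N₀ * (h₁ : Matrix κ κ F)) ^ Fintype.card κ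
        = ((((h₁⁻¹ : (Matrix κ κ F)ˣ) : Matrix κ κ F) * N₀ * (h₁ : Matrix κ κ F)) ^ Fintype.card κ
          * ((h₁⁻¹ : (Matrix κ κ F)ˣ) : Matrix κ κ F)) * (h₁ : Matrix κ κ F) := by
          rw [Matrix.mul_assoc (_ ^ _), Units.inv_mul, Matrix.mul_one]
      _ = 0 := by rw [h1, Matrix.zero_mul]
  have key2 : ∀ (h₁ : (Matrix κ κ F)ˣ) (h₂ : (Matrix μ μ F)ˣ),
      Phi (g₀ * dg h₁ h₂, ⟨_, key1 h₁⟩, h₂⁻¹ * A₀u * h₂) = M := by
    intro h₁ h₂
    apply Subtype.ext
    show ((g₀ * dg h₁ h₂ : (Matrix (κ ⊕ μ) (κ ⊕ μ) F)ˣ) : Matrix _ _ F)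
      * fromBlocks (((h₁⁻¹ : (Matrix κ κ F)ˣ) : Matrix κ κ F) * N₀ * (h₁ : Matrix κ κ F)) 0 0
          ((h₂⁻¹ * A₀u * h₂ : (Matrix μ μ F)ˣ) : Matrix μ μ F)
      * (((g₀ * dg h₁ h₂)⁻¹ : (Matrix (κ ⊕ μ) (κ ⊕ μ) F)ˣ) : Matrix _ _ F) = M.1
    simp only [_root_.mul_inv_rev, Units.val_mul, dg_val, dg_inv_val]
    rw [hM]
    have h1 : fromBlocks (h₁ : Matrix κ κ F) 0 0 (h₂ : Matrix μ μ F)
        * fromBlocks (((h₁⁻¹ : (Matrix κ κ F)ˣ) : Matrix κ κ F) * N₀ * (h₁ : Matrix κ κ F)) 0 0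
          (((h₂⁻¹ : (Matrix μ μ F)ˣ) : Matrix μ μ F) * (A₀u : Matrix μ μ F) * (h₂ : Matrix μ μ F))
        * fromBlocks ((h₁⁻¹ : (Matrix κ κ F)ˣ) : Matrix κ κ F) 0 0
          ((h₂⁻¹ : (Matrix μ μ F)ˣ) : Matrix μ μ F) = fromBlocks N₀ 0 0 A₀ := by
      rw [fromBlocks_multiply, fromBlocks_multiply]
      simp only [Matrix.zero_mul, Matrix.mul_zero, add_zero, zero_add]
      congr 1
      · simp [Matrix.mul_assoc]
      · simp [Matrix.mul_assoc, hA₀u]
    show G * _ * _ * (_ * G') = _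
    rw [← h1]
    simp only [Matrix.mul_assoc]
  symm
  apply Nat.card_eq_of_bijective (fun h : (Matrix κ κ F)ˣ × (Matrix μ μ F)ˣ =>
    (⟨(g₀ * dg h.1 h.2, ⟨_, key1 h.1⟩, h.2⁻¹ * A₀u * h.2), key2 h.1 h.2⟩ : {x // Phi x = M}))
  constructor
  · intro h h' hh
    have h1 := congrArg (fun z : {x // Phi x = M} => z.1.1) hh
    have h2 : dg h.1 h.2 = dg h'.1 h'.2 := mul_left_cancel h1
    have h3 := congrArg Units.val h2
    rw [dg_val, dg_val, fromBlocks_inj] at h3
    exact Prod.ext (Units.ext h3.1) (Units.ext h3.2.2.2)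
  · rintro ⟨⟨g, ⟨N, hN⟩, A⟩, hx⟩
    have hx' : (g : Matrix _ _ F) * fromBlocks N 0 0 (A : Matrix μ μ F)
        * ((g⁻¹ : (Matrix _ _ F)ˣ) : Matrix _ _ F) = G * fromBlocks N₀ 0 0 A₀ * G' := by
      rw [← hM]
      exact congrArg Subtype.val hx
    set H : Matrix (κ ⊕ μ) (κ ⊕ μ) F := G' * (g : Matrix _ _ F) with hH
    have hHu : IsUnit H := by
      have : H = ((g₀⁻¹ * g : (Matrix (κ ⊕ μ) (κ ⊕ μ) F)ˣ) : Matrix _ _ F) := rfl
      rw [this]
      exact Units.isUnit _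
    have hc : fromBlocks N₀ 0 0 A₀ * H = H * fromBlocks N 0 0 (A : Matrix μ μ F) := by
      have h1 := congrArg (fun X => G' * X * (g : Matrix _ _ F)) hx'
      simp only [Matrix.mul_assoc, Units.inv_mul, Matrix.mul_one] at h1
      rw [← Matrix.mul_assoc G' G, hG'G, Matrix.one_mul] at h1
      rw [hH, Matrix.mul_assoc]
      exact h1.symm
    have hHb := (fromBlocks_toBlocks H).symm
    rw [hHb] at hc
    obtain ⟨c12, c21, c11, c22⟩ := comm_blk N₀ N A₀ (A : Matrix μ μ F) hN₀ hN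
      (hA₀u ▸ Units.isUnit A₀u) (Units.isUnit A) _ _ _ _ hc
    rw [c12, c21] at hHb
    rw [hHb, Matrix.isUnit_fromBlocks_zero₁₂] at hHu
    obtain ⟨⟨u₁, hu₁⟩, ⟨u₂, hu₂⟩⟩ := hHu
    refine ⟨(u₁, u₂), ?_⟩
    apply Subtype.ext
    refine Prod.ext ?_ (Prod.ext ?_ ?_)
    · apply Units.ext
      show G * fromBlocks (u₁ : Matrix κ κ F) 0 0 (u₂ : Matrix μ μ F) = (g : Matrix _ _ F)
      rw [hu₁, hu₂, ← hHb, hH, ← Matrix.mul_assoc, hGG', Matrix.one_mul]
    · apply Subtype.ext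
      show ((u₁⁻¹ : (Matrix κ κ F)ˣ) : Matrix κ κ F) * N₀ * (u₁ : Matrix κ κ F) = N
      rw [hu₁, Matrix.mul_assoc, c11, ← hu₁, ← Matrix.mul_assoc, Units.inv_mul, Matrix.one_mul]
    · apply Units.ext
      show ((u₂⁻¹ : (Matrix μ μ F)ˣ) : Matrix μ μ F) * (A₀u : Matrix μ μ F) * (u₂ : Matrix μ μ F)
        = (A : Matrix μ μ F)
      rw [hu₂, hA₀u, Matrix.mul_assoc, c22, ← hu₂, ← Matrix.mul_assoc, Units.inv_mul,
        Matrix.one_mul]

theorem count_fit [Fintype F] :
    Nat.card {M : Matrix (κ ⊕ μ) (κ ⊕ μ) F // fit M = Fintype.card κ}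
        * Nat.card (Matrix κ κ F)ˣ
      = Nat.card (Matrix (κ ⊕ μ) (κ ⊕ μ) F)ˣ
        * Nat.card {N : Matrix κ κ F // N ^ Fintype.card κ = 0} := by
  classical
  let _ : Fintype {M : Matrix (κ ⊕ μ) (κ ⊕ μ) F // fit M = Fintype.card κ} := Fintype.ofFinite _
  have h1 := Nat.card_congr (Equiv.sigmaFiberEquiv (Phi (F := F) (κ := κ) (μ := μ)))
  rw [Nat.card_sigma] at h1
  simp_rw [fiber_card] at h1
  rw [Finset.sum_const, Finset.card_univ, smul_eq_mul, ← Nat.card_eq_fintype_card,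
    Nat.card_prod, Nat.card_prod, Nat.card_prod] at h1
  have hpos : 0 < Nat.card (Matrix μ μ F)ˣ := Nat.card_pos
  apply Nat.eq_of_mul_eq_mul_right hpos
  rw [Nat.mul_assoc, h1, Nat.mul_assoc]

end count

section final

variable [Fintype F]

/-- ratio of orders of general linear groups -/
def rt (q n k : ℕ) : ℕ := ∏ j ∈ Finset.Ico k n, q ^ j * (q ^ (j + 1) - 1)

theorem rt_self (q n : ℕ) : rt q n n = 1 := by simp [rt]

theorem rt_succ (q n k : ℕ) (hk : k ≤ n) : rt q (n + 1) k = rt q n k * (q ^ n * (q ^ (n + 1) - 1)) := by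
  unfold rt
  rw [Finset.prod_Ico_succ_top hk]

theorem arith_id (q : ℕ) (hq : 1 ≤ q) (n : ℕ) :
    ∑ k ∈ Finset.range n, rt q n k * q ^ (k * (k - 1)) + q ^ (n * (n - 1)) = q ^ (n * n) := by
  induction n with
  | zero => simp
  | succ n ih =>
    have h1 : ∑ k ∈ Finset.range (n + 1), rt q (n + 1) k * q ^ (k * (k - 1))
        = (q ^ n * (q ^ (n + 1) - 1)) * q ^ (n * n) := by
      rw [← ih, Finset.sum_range_succ, rt_succ q n n le_rfl, rt_self, Nat.mul_add, Finset.mul_sum]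
      congr 1
      · apply Finset.sum_congr rfl
        intro k hk
        rw [rt_succ q n k (Finset.mem_range.mp hk).le]
        ring
      · ring
    rw [h1]
    obtain ⟨t, ht⟩ : ∃ t, q ^ (n + 1) = t + 1 := ⟨q ^ (n + 1) - 1, by
      have : 1 ≤ q ^ (n + 1) := Nat.one_le_pow _ _ hq
      omega⟩
    have h2 : q ^ (n + 1) - 1 = t := by omega
    rw [h2]
    have h3 : (n + 1) * (n + 1 - 1) = n * n + n := by
      rw [Nat.add_sub_cancel]; ring
    have h4 : (n + 1) * (n + 1) = n * n + n + (n + 1) := by ring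
    rw [h3, h4, pow_add (q) (n * n + n) (n + 1), ht, pow_add]
    ring

theorem gl_succ (n : ℕ) : Nat.card (Matrix (Fin (n + 1)) (Fin (n + 1)) F)ˣ
    = Nat.card (Matrix (Fin n) (Fin n) F)ˣ
      * (Fintype.card F ^ n * (Fintype.card F ^ (n + 1) - 1)) := by
  have h1 := Matrix.card_GL_field (𝔽 := F) (n + 1)
  have h2 := Matrix.card_GL_field (𝔽 := F) n
  rw [show Nat.card (Matrix (Fin (n + 1)) (Fin (n + 1)) F)ˣ = _ from h1,
    show Nat.card (Matrix (Fin n) (Fin n) F)ˣ = _ from h2]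
  set q := Fintype.card F
  rw [Fin.prod_univ_succ]
  have h3 : ∀ i : Fin n, q ^ (n + 1) - q ^ ((i.succ : Fin (n + 1)) : ℕ) = q * (q ^ n - q ^ (i : ℕ)) := by
    intro i
    rw [Nat.mul_sub, Fin.val_succ, pow_succ', pow_succ' q (i : ℕ)]
  rw [Finset.prod_congr rfl (fun i _ => h3 i), Finset.prod_mul_distrib, Finset.prod_const,
    Finset.card_univ, Fintype.card_fin]
  simp only [Fin.val_zero, pow_zero]
  ring

theorem gl_rt (n k : ℕ) (hk : k ≤ n) : Nat.card (Matrix (Fin n) (Fin n) F)ˣ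
    = Nat.card (Matrix (Fin k) (Fin k) F)ˣ * rt (Fintype.card F) n k := by
  induction n, hk using Nat.le_induction with
  | base => rw [rt_self, Nat.mul_one]
  | succ n hkn ih => rw [gl_succ, ih, rt_succ _ _ _ hkn, Nat.mul_assoc]

theorem count_fit_fin (n k : ℕ) (hk : k ≤ n) :
    Nat.card {M : Matrix (Fin n) (Fin n) F // fit M = k}
      = rt (Fintype.card F) n k * Nat.card {N : Matrix (Fin k) (Fin k) F // N ^ k = 0} := by
  classical
  have hkn : k + (n - k) = n := by omega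
  let e : Fin k ⊕ Fin (n - k) ≃ Fin n := finSumFinEquiv.trans (finCongr hkn)
  have h1 := count_fit (F := F) (κ := Fin k) (μ := Fin (n - k))
  have h2 : Nat.card {M : Matrix (Fin k ⊕ Fin (n - k)) (Fin k ⊕ Fin (n - k)) F //
      fit M = Fintype.card (Fin k)} = Nat.card {M : Matrix (Fin n) (Fin n) F // fit M = k} := by
    apply Nat.card_congr
    exact Equiv.subtypeEquiv (Matrix.reindex e e) (fun M => by
      rw [fit_reindex, Fintype.card_fin])
  have h3 : Nat.card (Matrix (Fin k ⊕ Fin (n - k)) (Fin k ⊕ Fin (n - k)) F)ˣ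
      = Nat.card (Matrix (Fin n) (Fin n) F)ˣ :=
    Nat.card_congr (Units.mapEquiv
      (Matrix.reindexAlgEquiv F F e).toRingEquiv.toMulEquiv).toEquiv
  have h4 : Nat.card {N : Matrix (Fin k) (Fin k) F // N ^ Fintype.card (Fin k) = 0}
      = Nat.card {N : Matrix (Fin k) (Fin k) F // N ^ k = 0} := by
    rw [Fintype.card_fin]
  rw [h2, h3, h4, gl_rt n k hk] at h1
  have hpos : 0 < Nat.card (Matrix (Fin k) (Fin k) F)ˣ := Nat.card_pos
  apply Nat.eq_of_mul_eq_mul_left hpos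
  rw [Nat.mul_comm, h1, Nat.mul_assoc]

theorem sum_fit (n : ℕ) :
    ∑ k ∈ Finset.range (n + 1), Nat.card {M : Matrix (Fin n) (Fin n) F // fit M = k}
      = Fintype.card F ^ (n * n) := by
  classical
  have h0 : ∀ M : Matrix (Fin n) (Fin n) F, fit M < n + 1 := by
    intro M
    have := fit_le M
    rw [Fintype.card_fin] at this
    omega
  have h1 := Nat.card_congr (Equiv.sigmaFiberEquiv
    (fun M : Matrix (Fin n) (Fin n) F => (⟨fit M, h0 M⟩ : Fin (n + 1))))
  rw [Nat.card_sigma] at h1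
  have h2 : Nat.card (Matrix (Fin n) (Fin n) F) = Fintype.card F ^ (n * n) := by
    show Nat.card (Fin n → Fin n → F) = _
    rw [Nat.card_fun, Nat.card_fun, Nat.card_eq_fintype_card, Nat.card_eq_fintype_card,
      Fintype.card_fin, ← pow_mul]
  rw [h2] at h1
  rw [← h1, ← Fin.sum_univ_eq_sum_range
    (fun k => Nat.card {M : Matrix (Fin n) (Fin n) F // fit M = k}) (n + 1)]
  apply Finset.sum_congr rfl
  intro k _
  apply Nat.card_congr
  exact Equiv.subtypeEquivRight (fun M => by rw [Fin.ext_iff])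

theorem nil_count (n : ℕ) :
    Nat.card {N : Matrix (Fin n) (Fin n) F // N ^ n = 0} = Fintype.card F ^ (n * (n - 1)) := by
  induction n using Nat.strong_induction_on with
  | _ n ih =>
    have h1 := sum_fit (F := F) n
    rw [Finset.sum_range_succ] at h1
    have h2 : ∑ k ∈ Finset.range n, Nat.card {M : Matrix (Fin n) (Fin n) F // fit M = k}
        = ∑ k ∈ Finset.range n, rt (Fintype.card F) n k * Fintype.card F ^ (k * (k - 1)) := by
      apply Finset.sum_congr rfl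
      intro k hk
      have hk' := Finset.mem_range.mp hk
      rw [count_fit_fin n k hk'.le, ih k hk']
    rw [h2, count_fit_fin n n le_rfl, rt_self, Nat.one_mul] at h1
    have h3 := arith_id (Fintype.card F) Fintype.card_pos n
    rw [← h3] at h1
    exact Nat.add_left_cancel h1

end final


/-- Steinberg's count of unipotent elements for the general linear group: over a finite field with q elements of characteristic p, the number of elements of GL_n of p-power order (the unipotent matrices) is q^(n(n−1)). -/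
theorem result {F : Type*} [Field F] [Fintype F] (p : ℕ) [Fact p.Prime] [CharP F p] (n : ℕ) :
    Nat.card {g : Matrix.GeneralLinearGroup (Fin n) F // ∃ k : ℕ, orderOf g = p ^ k} = Fintype.card F ^ (n * (n - 1)) := by
  classical
  rw [← nil_count]
  rcases Nat.eq_zero_or_pos n with rfl | hn
  · have h1 : Nat.card {g : Matrix.GeneralLinearGroup (Fin 0) F // ∃ k : ℕ, orderOf g = p ^ k}
        = 1 := by
      rw [Nat.card_eq_one_iff_unique]
      refine ⟨⟨fun a b => Subtype.ext (Subsingleton.elim _ _)⟩, ⟨⟨1, 0, by simp⟩⟩⟩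
    have h2 : Nat.card {N : Matrix (Fin 0) (Fin 0) F // N ^ 0 = 0} = 1 := by
      rw [Nat.card_eq_one_iff_unique]
      refine ⟨⟨fun a b => Subtype.ext (Subsingleton.elim _ _)⟩, ⟨⟨0, Subsingleton.elim _ _⟩⟩⟩
    rw [h1, h2]
  · have : Nonempty (Fin n) := ⟨⟨0, hn⟩⟩
    have hp := (Fact.out : p.Prime)
    apply Nat.card_eq_of_bijective
      (fun g : {g : Matrix.GeneralLinearGroup (Fin n) F // ∃ k : ℕ, orderOf g = p ^ k} =>
      (⟨(g.1 : Matrix (Fin n) (Fin n) F) - 1, by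
        obtain ⟨k, hk⟩ := g.2
        have h1 : (g.1 : Matrix (Fin n) (Fin n) F) ^ (p ^ k) = 1 := by
          rw [← Units.val_pow_eq_pow_val, ← hk, pow_orderOf_eq_one]; rfl
        have h2 : ((g.1 : Matrix (Fin n) (Fin n) F) - 1) ^ (p ^ k) = 0 := by
          rw [sub_pow_char_pow_of_commute _ _ (Commute.one_right _), h1, one_pow, sub_self]
        have h3 := nilp_pow_card _ ⟨_, h2⟩
        rw [Fintype.card_fin] at h3
        exact h3⟩ : {N : Matrix (Fin n) (Fin n) F // N ^ n = 0}))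
    constructor
    · intro a b hab
      have h1 := congrArg Subtype.val hab
      simp only [sub_left_inj] at h1
      exact Subtype.ext (Units.ext h1)
    · rintro ⟨N, hN⟩
      have h1 : N ^ (p ^ n) = 0 := pow_eq_zero_of_le (Nat.lt_pow_self hp.one_lt).le hN
      have h2 : (1 + N) ^ (p ^ n) = 1 := by
        rw [add_pow_char_pow_of_commute _ _ (Commute.one_left _), h1, one_pow, add_zero]
      obtain ⟨g, hg⟩ := IsUnit.of_pow_eq_one h2 (pow_ne_zero _ hp.ne_zero)
      have h3 : g ^ (p ^ n) = 1 := by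
        apply Units.ext
        rw [Units.val_pow_eq_pow_val, hg, h2]; rfl
      obtain ⟨k, -, hk⟩ := (Nat.dvd_prime_pow hp).mp (orderOf_dvd_of_pow_eq_one h3)
      refine ⟨⟨g, k, hk⟩, ?_⟩
      apply Subtype.ext
      show (g : Matrix (Fin n) (Fin n) F) - 1 = N
      rw [hg]; simp


end Cfsg.Agent.S2315
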