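import Mathlib
import Cfsg.Statements.S2570
import Cfsg.Agent.Helper16.Jordan
-- import your own Cfsg.Agent.* helpers here

set_option autoImplicit false
open Cfsg

namespace Cfsg.Agent.S2570


open Cfsg.Agent.Helper16.Jordan

section aux
variable {F : Type*} [Field F]

/-- `g - 1` has Jordan chain data whose multiset of chain lengths is `s`. -/
abbrev HasType {n : ℕ} (g : GL (Fin n) F) (s : Multiset ℕ) : Prop :=
  ∃ (ι : Type) (_ : Fintype ι) (m : ι → ℕ) (v : ι → Fin n → F),
    JD (Matrix.toLin' ((g : Matrix (Fin n) (Fin n) F) - 1)) ⊤ m v ∧ Finset.univ.val.map m = s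

theorem order_iff {p : ℕ} [Fact p.Prime] [CharP F p] {n : ℕ} (hn : 0 < n) (g : GL (Fin n) F) :
    orderOf g = p ↔ ((g : Matrix (Fin n) (Fin n) F) - 1) ^ p = 0 ∧ g ≠ 1 := by
  have : Nonempty (Fin n) := ⟨⟨0, hn⟩⟩
  have : CharP (Matrix (Fin n) (Fin n) F) p := Matrix.charP p
  rw [orderOf_eq_prime_iff]
  have h1 : ((g : Matrix (Fin n) (Fin n) F) - 1) ^ p
      = (g : Matrix (Fin n) (Fin n) F) ^ p - 1 := by
    rw [sub_pow_char_of_commute p (Commute.one_right _), one_pow]
  rw [h1, sub_eq_zero, ← Units.val_pow_eq_pow_val, Units.val_eq_one]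

theorem exists_type {p : ℕ} [Fact p.Prime] [CharP F p] {n : ℕ} (hn : 0 < n) (g : GL (Fin n) F)
    (hg : orderOf g = p) :
    ∃ μ : Nat.Partition n, ((∀ a ∈ μ.parts, a ≤ p) ∧ ¬ ∀ a ∈ μ.parts, a = 1) ∧
      HasType g μ.parts := by
  rw [order_iff hn] at hg
  obtain ⟨hpow, hne⟩ := hg
  have hNp : (Matrix.toLin' ((g : Matrix (Fin n) (Fin n) F) - 1)) ^ p = 0 := by
    rw [← Matrix.toLin'_pow, hpow, map_zero]
  obtain ⟨ι, hι, m, v, hpos, hJD⟩ :=
    exists_JD (Matrix.toLin' ((g : Matrix (Fin n) (Fin n) F) - 1)) p hNp _ ⊤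
      (fun _ _ => Submodule.mem_top) rfl
  have hsum := hJD.sum_eq
  refine ⟨⟨Finset.univ.val.map m, ?_, ?_⟩, ⟨?_, ?_⟩, ⟨ι, hι, m, v, hJD, rfl⟩⟩
  · intro a ha
    rw [Multiset.mem_map] at ha
    obtain ⟨i, -, rfl⟩ := ha
    exact hpos i
  · rw [← Finset.sum_eq_multiset_sum]; exact hsum
  · intro a ha
    have ha' : a ∈ Finset.univ.val.map m := ha
    rw [Multiset.mem_map] at ha'
    obtain ⟨i, -, rfl⟩ := ha'
    exact hJD.le_of_pow_eq_zero p hNp i
  · intro hall
    apply hne
    have h0 : Matrix.toLin' ((g : Matrix (Fin n) (Fin n) F) - 1) = 0 :=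
      hJD.eq_zero_of_ones
        (fun i => hall (m i) (Multiset.mem_map_of_mem m (Finset.mem_univ_val i)))
    have h1 : (g : Matrix (Fin n) (Fin n) F) - 1 = 0 := by
      apply Matrix.toLin'.injective
      rw [h0, map_zero]
    exact Units.ext (sub_eq_zero.1 h1)

theorem exists_rep_gl {p : ℕ} [Fact p.Prime] [CharP F p] {n : ℕ} (hn : 0 < n)
    (μ : Nat.Partition n) (h1 : ∀ a ∈ μ.parts, a ≤ p) (h2 : ¬ ∀ a ∈ μ.parts, a = 1) :
    ∃ g : GL (Fin n) F, orderOf g = p ∧ HasType g μ.parts := by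
  classical
  have hmap : (Finset.univ : Finset μ.parts.ToType).val.map (fun x => x.1) = μ.parts :=
    Multiset.map_univ_coe μ.parts
  have hmem : ∀ i : μ.parts.ToType, i.1 ∈ μ.parts := fun i => Multiset.count_pos.1 i.2.pos
  have hsum : ∑ i : μ.parts.ToType, i.1 = n := by
    rw [Finset.sum_eq_multiset_sum, hmap, μ.parts_sum]
  obtain ⟨M, v, hJD⟩ := exists_rep (F := F) (fun x : μ.parts.ToType => x.1) hsum
  have hMp : M ^ p = 0 := by
    apply Matrix.toLin'.injective
    rw [Matrix.toLin'_pow, map_zero]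
    exact hJD.pow_eq_zero p (fun i => h1 _ (hmem i))
  have : Nonempty (Fin n) := ⟨⟨0, hn⟩⟩
  have : CharP (Matrix (Fin n) (Fin n) F) p := Matrix.charP p
  have hone : (1 + M) ^ p = 1 := by
    rw [add_pow_char_of_commute p (Commute.one_left _), one_pow, hMp, add_zero]
  have hp0 : p ≠ 0 := (Fact.out : p.Prime).ne_zero
  obtain ⟨g, hg⟩ : ∃ g : GL (Fin n) F, (g : Matrix (Fin n) (Fin n) F) = 1 + M :=
    ⟨(IsUnit.of_pow_eq_one hone hp0).unit, rfl⟩
  have hgM : (g : Matrix (Fin n) (Fin n) F) - 1 = M := by rw [hg, add_sub_cancel_left]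
  refine ⟨g, ?_, ⟨μ.parts.ToType, inferInstance, fun x => x.1, v, ?_, hmap⟩⟩
  · rw [order_iff hn, hgM]
    refine ⟨hMp, ?_⟩
    intro hg1
    have hM0 : M = 0 := by rw [← hgM, hg1, Units.val_one, sub_self]
    apply h2
    intro a ha
    by_contra ha1
    have hpos : 0 < a := μ.parts_pos ha
    have h3 := hJD.ne_zero (⟨a, ⟨0, Multiset.count_pos.2 ha⟩⟩ : μ.parts.ToType)
      (by show 2 ≤ a; omega)
    apply h3
    rw [hM0, map_zero]
  · rw [hgM]; exact hJD

theorem conj_of_type {n : ℕ} (g g' : GL (Fin n) F) (s : Multiset ℕ) (h : HasType g s)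
    (h' : HasType g' s) : IsConj g g' := by
  obtain ⟨ι, hι, m, v, hJD, hm⟩ := h
  obtain ⟨ι', hι', m', v', hJD', hm'⟩ := h'
  obtain ⟨x, hx⟩ := conj_of_JD _ _ hJD hJD' (hm.trans hm'.symm)
  rw [isConj_iff]
  refine ⟨x, ?_⟩
  have h1 : (x : Matrix (Fin n) (Fin n) F) * g = g' * x := by
    have h0 := hx
    rw [Matrix.mul_sub, Matrix.sub_mul, Matrix.mul_one, Matrix.one_mul] at h0
    exact sub_left_inj.1 h0
  have h2 : x * g = g' * x := Units.ext (by rw [Units.val_mul, Units.val_mul]; exact h1)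
  rw [h2, mul_inv_cancel_right]

theorem type_unique {n : ℕ} (g g' : GL (Fin n) F) (s s' : Multiset ℕ) (h : HasType g s)
    (h' : HasType g' s') (hc : IsConj g g') (hs : ∀ a ∈ s, 0 < a) (hs' : ∀ a ∈ s', 0 < a) :
    s = s' := by
  classical
  obtain ⟨ι, hι, m, v, hJD, hm⟩ := h
  obtain ⟨ι', hι', m', v', hJD', hm'⟩ := h'
  have hrank : ∀ j : ℕ, ∑ i, (m i - j) = ∑ i, (m' i - j) := by
    intro j
    rw [← hJD.finrank_range_pow j, ← hJD'.finrank_range_pow j, ← Matrix.toLin'_pow,
      ← Matrix.toLin'_pow]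
    have h1 : ∀ A : Matrix (Fin n) (Fin n) F,
        Module.finrank F (LinearMap.range (Matrix.toLin' A)) = A.rank := by
      intro A; rw [Matrix.rank, Matrix.toLin'_apply']
    rw [h1, h1]
    obtain ⟨x, hx⟩ := isConj_iff.1 hc
    apply Cfsg.Agent.S2577.rank_eq_of_conj x
    have hsc : SemiconjBy (x : Matrix (Fin n) (Fin n) F)
        ((g : Matrix (Fin n) (Fin n) F) - 1) ((g' : Matrix (Fin n) (Fin n) F) - 1) := by
      have h2 : x * g = g' * x := by rw [← hx]; group
      have h3 : (x : Matrix (Fin n) (Fin n) F) * g = g' * x := by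
        rw [← Units.val_mul, h2, Units.val_mul]
      show (x : Matrix (Fin n) (Fin n) F) * ((g : Matrix (Fin n) (Fin n) F) - 1)
        = ((g' : Matrix (Fin n) (Fin n) F) - 1) * x
      rw [Matrix.mul_sub, Matrix.sub_mul, Matrix.mul_one, Matrix.one_mul, h3]
    exact hsc.pow_right j
  refine Multiset.ext.2 (fun a => ?_)
  rcases Nat.eq_zero_or_pos a with rfl | ha
  · rw [Multiset.count_eq_zero.2 (fun h0 => absurd (hs 0 h0) (lt_irrefl 0)),
      Multiset.count_eq_zero.2 (fun h0 => absurd (hs' 0 h0) (lt_irrefl 0))]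
  · have e1 := count_identity m a ha
    have e2 := count_identity m' a ha
    rw [hm] at e1
    rw [hm'] at e2
    rw [hrank a, hrank (a - 1), hrank (a + 1)] at e1
    omega

end aux


/-- Number of conjugacy classes of elements of order p in GL_n over a finite field of characteristic p: they correspond to the Jordan types, that is, to the partitions of n with all parts at most p other than the partition into ones, so there are (number of partitions of n with parts ≤ p) − 1 of them. -/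
theorem result {F : Type*} [Field F] [Fintype F] {p : ℕ} [Fact p.Prime] [CharP F p] (n : ℕ) : Nat.card {C : ConjClasses (GL (Fin n) F) // ∃ g : GL (Fin n) F, ConjClasses.mk g = C ∧ orderOf g = p} = (Finset.univ.filter (fun μ : Nat.Partition n => ∀ a ∈ μ.parts, a ≤ p)).card - 1 := by
  classical
  rcases Nat.eq_zero_or_pos n with rfl | hn
  · have hempty : IsEmpty {C : ConjClasses (GL (Fin 0) F) //
        ∃ g : GL (Fin 0) F, ConjClasses.mk g = C ∧ orderOf g = p} := by
      refine ⟨fun ⟨C, g, _, hg⟩ => ?_⟩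
      have h1 : g = 1 := Units.ext (Subsingleton.elim _ _)
      rw [h1, orderOf_one] at hg
      exact (Fact.out : p.Prime).one_lt.ne hg
    rw [Nat.card_of_isEmpty]
    have h2 : (Finset.univ.filter (fun μ : Nat.Partition 0 => ∀ a ∈ μ.parts, a ≤ p)).card
        ≤ 1 := by
      refine (Finset.card_le_univ _).trans ?_
      rw [Fintype.card_unique]
    omega
  · have hrep : ∀ μ : {μ : Nat.Partition n //
          (∀ a ∈ μ.parts, a ≤ p) ∧ ¬ ∀ a ∈ μ.parts, a = 1},
        ∃ g : GL (Fin n) F, orderOf g = p ∧ HasType g μ.1.parts :=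
      fun μ => exists_rep_gl hn μ.1 μ.2.1 μ.2.2
    choose r hr1 hr2 using hrep
    have hbij : Function.Bijective (fun μ : {μ : Nat.Partition n //
          (∀ a ∈ μ.parts, a ≤ p) ∧ ¬ ∀ a ∈ μ.parts, a = 1} =>
        (⟨ConjClasses.mk (r μ), ⟨r μ, rfl, hr1 μ⟩⟩ : {C : ConjClasses (GL (Fin n) F) //
          ∃ g : GL (Fin n) F, ConjClasses.mk g = C ∧ orderOf g = p})) := by
      constructor
      · intro μ ν hμν
        have h1 : ConjClasses.mk (r μ) = ConjClasses.mk (r ν) := congrArg Subtype.val hμν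
        rw [ConjClasses.mk_eq_mk_iff_isConj] at h1
        have h2 := type_unique _ _ _ _ (hr2 μ) (hr2 ν) h1 (fun a ha => μ.1.parts_pos ha)
          (fun a ha => ν.1.parts_pos ha)
        exact Subtype.ext (Nat.Partition.ext h2)
      · rintro ⟨C, g, rfl, hg⟩
        obtain ⟨μ, hQ, hT⟩ := exists_type hn g hg
        refine ⟨⟨μ, hQ⟩, Subtype.ext ?_⟩
        exact ConjClasses.mk_eq_mk_iff_isConj.2 (conj_of_type _ _ _ (hr2 ⟨μ, hQ⟩) hT)
    rw [← Nat.card_congr (Equiv.ofBijective _ hbij), Nat.card_eq_fintype_card,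
      Fintype.card_subtype]
    obtain ⟨μ₁, hμ₁⟩ : ∃ μ₁ : Nat.Partition n, μ₁.parts = Multiset.replicate n 1 :=
      ⟨⟨Multiset.replicate n 1, fun {i} hi => by
        rw [Multiset.eq_of_mem_replicate hi]; exact Nat.one_pos, by simp⟩, rfl⟩
    have hones : ∀ μ : Nat.Partition n, (∀ a ∈ μ.parts, a = 1) ↔ μ = μ₁ := by
      intro μ
      constructor
      · intro h
        apply Nat.Partition.ext
        rw [hμ₁, Multiset.eq_replicate]
        refine ⟨?_, h⟩
        have h1 := μ.parts_sum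
        have h2 : μ.parts = Multiset.replicate (Multiset.card μ.parts) 1 :=
          Multiset.eq_replicate.2 ⟨rfl, h⟩
        rw [h2, Multiset.sum_replicate, smul_eq_mul, mul_one] at h1
        rw [h2, Multiset.card_replicate]
        exact h1
      · rintro rfl a ha
        rw [hμ₁] at ha
        exact Multiset.eq_of_mem_replicate ha
    have hp1 : 1 ≤ p := (Fact.out : p.Prime).one_lt.le
    have hfilter : Finset.univ.filter (fun μ : Nat.Partition n =>
          (∀ a ∈ μ.parts, a ≤ p) ∧ ¬ ∀ a ∈ μ.parts, a = 1)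
        = (Finset.univ.filter (fun μ : Nat.Partition n => ∀ a ∈ μ.parts, a ≤ p)).erase μ₁ := by
      ext μ
      rw [Finset.mem_erase, Finset.mem_filter, Finset.mem_filter, hones]
      constructor
      · rintro ⟨-, h1, h2⟩; exact ⟨h2, Finset.mem_univ _, h1⟩
      · rintro ⟨h2, -, h1⟩; exact ⟨Finset.mem_univ _, h1, h2⟩
    have hmem : μ₁ ∈ Finset.univ.filter (fun μ : Nat.Partition n => ∀ a ∈ μ.parts, a ≤ p) := by
      rw [Finset.mem_filter]
      refine ⟨Finset.mem_univ _, fun a ha => ?_⟩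
      rw [hμ₁] at ha
      rw [Multiset.eq_of_mem_replicate ha]
      exact hp1
    rw [hfilter, Finset.card_erase_of_mem hmem]

end Cfsg.Agent.S2570
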