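import Mathlib
import Cfsg.Statements.S2317
import Cfsg.Agent.Helper16.Jordan
import Cfsg.Agent.S2570
-- import your own Cfsg.Agent.* helpers here

set_option autoImplicit false
open Cfsg

namespace Cfsg.Agent.S2317


open Cfsg.Agent.Helper16.Jordan

section aux
variable {F : Type*} [Field F]

theorem exists_type' {n : ℕ} (g : GL (Fin n) F) (e : ℕ)
    (he : ((g : Matrix (Fin n) (Fin n) F) - 1) ^ e = 0) :
    ∃ μ : Nat.Partition n, Cfsg.Agent.S2570.HasType g μ.parts := by
  have hNp : (Matrix.toLin' ((g : Matrix (Fin n) (Fin n) F) - 1)) ^ e = 0 := by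
    rw [← Matrix.toLin'_pow, he, map_zero]
  obtain ⟨ι, hι, m, v, hpos, hJD⟩ :=
    exists_JD (Matrix.toLin' ((g : Matrix (Fin n) (Fin n) F) - 1)) e hNp _ ⊤
      (fun _ _ => Submodule.mem_top) rfl
  have hsum := hJD.sum_eq
  refine ⟨⟨Finset.univ.val.map m, ?_, ?_⟩, ⟨ι, hι, m, v, hJD, rfl⟩⟩
  · intro a ha
    rw [Multiset.mem_map] at ha
    obtain ⟨i, -, rfl⟩ := ha
    exact hpos i
  · rw [← Finset.sum_eq_multiset_sum]; exact hsum

theorem exists_rep' {n : ℕ} (μ : Nat.Partition n) :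
    ∃ g : GL (Fin n) F, ((g : Matrix (Fin n) (Fin n) F) - 1) ^ n = 0 ∧
      Cfsg.Agent.S2570.HasType g μ.parts := by
  classical
  have hmap : (Finset.univ : Finset μ.parts.ToType).val.map (fun x => x.1) = μ.parts :=
    Multiset.map_univ_coe μ.parts
  have hmem : ∀ i : μ.parts.ToType, i.1 ∈ μ.parts := fun i => Multiset.count_pos.1 i.2.pos
  have hsum : ∑ i : μ.parts.ToType, i.1 = n := by
    rw [Finset.sum_eq_multiset_sum, hmap, μ.parts_sum]
  obtain ⟨M, v, hJD⟩ := exists_rep (F := F) (fun x : μ.parts.ToType => x.1) hsum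
  have hMn : M ^ n = 0 := by
    apply Matrix.toLin'.injective
    rw [Matrix.toLin'_pow, map_zero]
    refine hJD.pow_eq_zero n (fun i => ?_)
    have h1 := Multiset.le_sum_of_mem (hmem i)
    rw [μ.parts_sum] at h1
    exact h1
  obtain ⟨g, hg⟩ : ∃ g : GL (Fin n) F, (g : Matrix (Fin n) (Fin n) F) = 1 + M :=
    ⟨(IsNilpotent.isUnit_one_add ⟨n, hMn⟩).unit, rfl⟩
  have hgM : (g : Matrix (Fin n) (Fin n) F) - 1 = M := by rw [hg, add_sub_cancel_left]
  refine ⟨g, by rw [hgM]; exact hMn, ⟨μ.parts.ToType, inferInstance, fun x => x.1, v, ?_, hmap⟩⟩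
  rw [hgM]; exact hJD

theorem nilp_of_order {p : ℕ} [Fact p.Prime] [CharP F p] {n : ℕ} (g : GL (Fin n) F) (k : ℕ)
    (hk : orderOf g = p ^ k) : ∃ e, ((g : Matrix (Fin n) (Fin n) F) - 1) ^ e = 0 := by
  rcases Nat.eq_zero_or_pos n with rfl | hn
  · exact ⟨0, Subsingleton.elim _ _⟩
  · have : Nonempty (Fin n) := ⟨⟨0, hn⟩⟩
    have : CharP (Matrix (Fin n) (Fin n) F) p := Matrix.charP p
    refine ⟨p ^ k, ?_⟩
    rw [sub_pow_char_pow_of_commute p k (Commute.one_right _), one_pow,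
      ← Units.val_pow_eq_pow_val, ← hk, pow_orderOf_eq_one, Units.val_one, sub_self]

theorem order_of_nilp {p : ℕ} [Fact p.Prime] [CharP F p] {n : ℕ} (g : GL (Fin n) F) (e : ℕ)
    (he : ((g : Matrix (Fin n) (Fin n) F) - 1) ^ e = 0) : ∃ k, orderOf g = p ^ k := by
  have hpp : p.Prime := Fact.out
  rcases Nat.eq_zero_or_pos n with rfl | hn
  · refine ⟨0, ?_⟩
    have h1 : g = 1 := Units.ext (Subsingleton.elim _ _)
    rw [h1, orderOf_one, pow_zero]
  · have : Nonempty (Fin n) := ⟨⟨0, hn⟩⟩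
    have : CharP (Matrix (Fin n) (Fin n) F) p := Matrix.charP p
    have h1 : ((g : Matrix (Fin n) (Fin n) F) - 1) ^ (p ^ e) = 0 :=
      pow_eq_zero_of_le (Nat.lt_pow_self hpp.one_lt).le he
    rw [sub_pow_char_pow_of_commute p e (Commute.one_right _), one_pow, sub_eq_zero,
      ← Units.val_pow_eq_pow_val, Units.val_eq_one] at h1
    obtain ⟨m, -, hm⟩ := (Nat.dvd_prime_pow hpp).1 (orderOf_dvd_of_pow_eq_one h1)
    exact ⟨m, hm⟩

end aux


/-- Over a finite field of characteristic p, the conjugacy classes of GL_n consisting of elements of p-power order (the unipotent classes) are as many as the partitions of n. -/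
theorem result {F : Type*} [Field F] [Fintype F] (p : ℕ) [Fact p.Prime] [CharP F p] (n : ℕ) :
    Nat.card {C : ConjClasses (Matrix.GeneralLinearGroup (Fin n) F) //
      ∃ g : Matrix.GeneralLinearGroup (Fin n) F, (∃ k : ℕ, orderOf g = p ^ k) ∧ ConjClasses.mk g = C} =
      Fintype.card (Nat.Partition n) := by
  classical
  have hrep : ∀ μ : Nat.Partition n, ∃ g : GL (Fin n) F,
      ((g : Matrix (Fin n) (Fin n) F) - 1) ^ n = 0 ∧ Cfsg.Agent.S2570.HasType g μ.parts :=
    fun μ => exists_rep' μ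
  choose r hr1 hr2 using hrep
  have hbij : Function.Bijective (fun μ : Nat.Partition n =>
      (⟨ConjClasses.mk (r μ), ⟨r μ, order_of_nilp (p := p) (r μ) n (hr1 μ), rfl⟩⟩ :
        {C : ConjClasses (Matrix.GeneralLinearGroup (Fin n) F) //
          ∃ g : Matrix.GeneralLinearGroup (Fin n) F,
            (∃ k : ℕ, orderOf g = p ^ k) ∧ ConjClasses.mk g = C})) := by
    constructor
    · intro μ ν hμν
      have h1 : ConjClasses.mk (r μ) = ConjClasses.mk (r ν) := congrArg Subtype.val hμν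
      rw [ConjClasses.mk_eq_mk_iff_isConj] at h1
      exact Nat.Partition.ext (Cfsg.Agent.S2570.type_unique _ _ _ _ (hr2 μ) (hr2 ν) h1
        (fun a ha => μ.parts_pos ha) (fun a ha => ν.parts_pos ha))
    · rintro ⟨C, g, ⟨k, hk⟩, rfl⟩
      obtain ⟨e, he⟩ := nilp_of_order g k hk
      obtain ⟨μ, hT⟩ := exists_type' g e he
      refine ⟨μ, Subtype.ext ?_⟩
      exact ConjClasses.mk_eq_mk_iff_isConj.2
        (Cfsg.Agent.S2570.conj_of_type _ _ _ (hr2 μ) hT)
  rw [← Nat.card_congr (Equiv.ofBijective _ hbij), Nat.card_eq_fintype_card]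

end Cfsg.Agent.S2317
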