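import Cfsg.Statements.S2320
import Mathlib
import Cfsg.Agent.Helper12.GL2Char

set_option autoImplicit false
open Cfsg

namespace Cfsg.Agent.S2320

open Cfsg.Agent.Helper12

/-- Over a finite field F with q elements, every irreducible complex character of GL₂ of degree q takes a value of absolute value 1 at every diagonal matrix with two different diagonal entries and at every element with no eigenvector in F². -/
theorem result {F : Type*} [Field F] [Fintype F] (χ : Matrix.GeneralLinearGroup (Fin 2) F → ℂ) (hχ : Cfsg.IsIrrCharacter (Matrix.GeneralLinearGroup (Fin 2) F) χ) (hdeg : χ 1 = (Fintype.card F : ℂ)) (g : Matrix.GeneralLinearGroup (Fin 2) F) :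
    ((g : Matrix (Fin 2) (Fin 2) F) 0 1 = 0 → (g : Matrix (Fin 2) (Fin 2) F) 1 0 = 0 → (g : Matrix (Fin 2) (Fin 2) F) 0 0 ≠ (g : Matrix (Fin 2) (Fin 2) F) 1 1 → ‖χ g‖ = 1) ∧
    ((∀ (c : F) (v : Fin 2 → F), v ≠ 0 → (g : Matrix (Fin 2) (Fin 2) F).mulVec v ≠ c • v) → ‖χ g‖ = 1) := by
  classical
  obtain ⟨m, hm⟩ : ∃ m, Fintype.card F = m + 1 :=
    Nat.exists_eq_succ_of_ne_zero Fintype.card_ne_zero
  have hm1 : 1 ≤ m := by
    have := Fintype.one_lt_card (α := F)
    omega
  have hQ : (Fintype.card F : ℂ) = (m : ℂ) + 1 := by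
    rw [hm]
    push_cast
    ring
  rcases gl2_classify χ hχ m hm with ⟨n, hn, hdvd, hineq, hval, hsplit⟩ | ⟨h1, hval, hell⟩ |
    ⟨h1, hval, hnorm⟩ | ⟨h1, hval, hsp, hell⟩
  · exfalso
    have e : (n : ℂ) = (m : ℂ) + 1 := by
      rw [← hn, hdeg, hQ]
    have e' : n = m + 1 := by exact_mod_cast e
    subst e'
    have h2 : m ∣ 1 := (Nat.dvd_add_right (dvd_refl m)).mp hdvd
    have h3 : m ≤ 1 := Nat.le_of_dvd (by norm_num) h2
    have h4 : m = 1 := by omega
    subst h4
    norm_num at hineq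
  · exfalso
    rw [h1, hQ] at hdeg
    have h2 : (1 : ℂ) = 0 := by linear_combination hdeg
    norm_num at h2
  · exact ⟨fun _ _ _ => hnorm g, fun _ => hnorm g⟩
  · exact ⟨fun h01 h10 hne => hsp g h01 h10 hne, fun hg => hell g hg⟩

end Cfsg.Agent.S2320
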