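import Cfsg.Statements.S2321
import Mathlib
import Cfsg.Agent.Helper12.SL2Cliff

set_option autoImplicit false
open Cfsg

namespace Cfsg.Agent.S2321

open Cfsg.Agent.Helper12
open Cfsg.Agent.S2305 (th)
open Cfsg.Agent.S2308 (belG)


/-- Over a finite field F with q elements, an irreducible complex character of SL₂ of degree q (the Steinberg character) takes the value 1 at every diagonal matrix whose diagonal entry a has a² ≠ 1, the value −1 at every element with no eigenvector in F², and the value 0 at every upper triangular matrix with equal diagonal entries and non-zero upper right entry. -/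
theorem result {F : Type*} [Field F] [Fintype F] (χ : Matrix.SpecialLinearGroup (Fin 2) F → ℂ) (hχ : Cfsg.IsIrrCharacter (Matrix.SpecialLinearGroup (Fin 2) F) χ) (hdeg : χ 1 = (Fintype.card F : ℂ)) (g : Matrix.SpecialLinearGroup (Fin 2) F) :
    ((g : Matrix (Fin 2) (Fin 2) F) 0 1 = 0 → (g : Matrix (Fin 2) (Fin 2) F) 1 0 = 0 → (g : Matrix (Fin 2) (Fin 2) F) 0 0 ^ 2 ≠ 1 → χ g = 1) ∧
    ((∀ (c : F) (v : Fin 2 → F), v ≠ 0 → (g : Matrix (Fin 2) (Fin 2) F).mulVec v ≠ c • v) → χ g = -1) ∧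
    ((g : Matrix (Fin 2) (Fin 2) F) 1 0 = 0 → (g : Matrix (Fin 2) (Fin 2) F) 0 0 = (g : Matrix (Fin 2) (Fin 2) F) 1 1 → (g : Matrix (Fin 2) (Fin 2) F) 0 1 ≠ 0 → χ g = 0) := by
  classical
  obtain ⟨m, hm⟩ : ∃ m : ℕ, Fintype.card F = m + 1 :=
    ⟨Fintype.card F - 1, by have := Fintype.card_pos (α := F); omega⟩
  have hm1 : 1 ≤ m := by
    have := Fintype.one_lt_card (α := F)
    omega
  have hQ : (Fintype.card F : ℂ) = (m : ℂ) + 1 := by
    rw [hm]
    push_cast
    ring
  obtain ⟨χ', hχ'⟩ : ∃ χ' : Cfsg.IrrCharacter (Matrix.SpecialLinearGroup (Fin 2) F), (χ' : (Matrix.SpecialLinearGroup (Fin 2) F) → ℂ) = χ := ⟨⟨χ, hχ⟩, rfl⟩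
  obtain ⟨n, hn⟩ := Helper24.irr_one_eq_natCast χ'
  rw [hχ'] at hn
  obtain ⟨Θ, hcl⟩ := sl2_cliff χ'
  rw [hχ'] at hcl
  obtain ⟨k, hk⟩ := Helper24.irr_one_eq_natCast Θ
  have htype := gl2_type_nat (Θ : (Matrix.GeneralLinearGroup (Fin 2) F) → ℂ) Θ.2 m hm k hk
  have hnm : n = m + 1 := by
    have e : (n : ℂ) = (m : ℂ) + 1 := by
      rw [← hn, hdeg, hQ]
    exact_mod_cast e
  have hmain : ∀ g : (Matrix.SpecialLinearGroup (Fin 2) F), χ g = Cfsg.indFun (Cfsg.upperTriangularGL 2 F) (fun _ => (1 : ℂ)) (Matrix.SpecialLinearGroup.toGL g) - 1 := by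
    rcases hcl with hres | ⟨hodd, χ₂, hne, hdec, d, hd, hd'⟩
    · have hnk : n = k := by
        have e : (n : ℂ) = (k : ℂ) := by
          rw [← hn, ← hk, hres 1, map_one]
        exact_mod_cast e
      rcases htype with ⟨t1, -⟩ | ⟨t1, -⟩ | ⟨t1, -⟩ | ⟨t1, α, hα⟩
      · exfalso
        omega
      · exfalso
        omega
      · exfalso
        omega
      · intro g
        rw [hres g, hα (Matrix.SpecialLinearGroup.toGL g), detChar_toGL, one_mul]
    · exfalso
      have h21 : (χ₂ : (Matrix.SpecialLinearGroup (Fin 2) F) → ℂ) 1 = χ 1 := hd 1 1 (by rw [map_one, mul_one, mul_inv_cancel])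
      have hk2 : k = 2 * n := by
        have e : (k : ℂ) = 2 * (n : ℂ) := by
          rw [← hk, ← hn]
          have h3 := hdec 1
          rw [map_one, h21] at h3
          rw [h3]
          ring
        exact_mod_cast e
      rcases htype with ⟨t1, -⟩ | ⟨t1, -⟩ | ⟨t1, -⟩ | ⟨t1, -⟩ <;> omega
  refine ⟨fun h01 h10 hsq => ?_, fun hell => ?_, fun h10 heq h01 => ?_⟩
  · have hne : (g : (Matrix (Fin 2) (Fin 2) F)) 0 0 ≠ (g : (Matrix (Fin 2) (Fin 2) F)) 1 1 := by
      intro heq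
      apply hsq
      have hd := g.det_coe
      rw [Matrix.det_fin_two, h01, h10, mul_zero, sub_zero, ← heq] at hd
      rw [sq]
      exact hd
    rw [hmain g, S2308.indFun1_diag (Matrix.SpecialLinearGroup.toGL g) h01 h10 hne]
    norm_num
  · rw [hmain g, S2308.indFun1_elliptic (Matrix.SpecialLinearGroup.toGL g) hell]
    norm_num
  · rw [hmain g, S2308.indFun1_unip (Matrix.SpecialLinearGroup.toGL g) h10 heq h01, sub_self]

end Cfsg.Agent.S2321
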