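import Cfsg.Statements.S2322
import Mathlib
import Cfsg.Agent.Helper12.SL2Half

set_option autoImplicit false
open Cfsg

namespace Cfsg.Agent.S2322

open Cfsg.Agent.Helper12
open Cfsg.Agent.S2305 (th)
open Cfsg.Agent.S2308 (belG)

section q3

variable {F : Type*} [Field F] [Fintype F] [DecidableEq F]

/-- The squared absolute value of a function. -/
noncomputable def nrmF (χ : (Matrix.SpecialLinearGroup (Fin 2) F) → ℂ) : (Matrix.SpecialLinearGroup (Fin 2) F) → ℂ := fun g => χ g * starRingEnd ℂ (χ g)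

theorem nrmF_apply (χ : (Matrix.SpecialLinearGroup (Fin 2) F) → ℂ) (g : (Matrix.SpecialLinearGroup (Fin 2) F)) : nrmF χ g = χ g * starRingEnd ℂ (χ g) := rfl

theorem sum_row (g : F → ℂ) (k : ℂ) (hk : ∀ y : Fˣ, g (y : F) = k) :
    ∑ c : F, g c = g 0 + ((Fintype.card F : ℂ) - 1) * k := by
  have h1 : ∀ c ∈ Finset.univ.erase (0 : F), g c = k := by
    intro c hc
    have h := hk (Units.mk0 c (Finset.mem_erase.mp hc).1)
    rw [Units.val_mk0] at h
    exact h
  rw [← Finset.add_sum_erase Finset.univ g (Finset.mem_univ (0 : F)), Finset.sum_congr rfl h1,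
    Finset.sum_const, Finset.card_erase_of_mem (Finset.mem_univ _), Finset.card_univ, nsmul_eq_mul,
    Nat.cast_sub Fintype.card_pos, Nat.cast_one]

theorem q3_cusp_ell (h3 : Fintype.card F = 3) (χ : (Cfsg.IrrCharacter (Matrix.SpecialLinearGroup (Fin 2) F))) (Θ : Cfsg.IrrCharacter (Matrix.GeneralLinearGroup (Fin 2) F))
    (hres : ∀ g : (Matrix.SpecialLinearGroup (Fin 2) F), (χ : (Matrix.SpecialLinearGroup (Fin 2) F) → ℂ) g = (Θ : (Matrix.GeneralLinearGroup (Fin 2) F) → ℂ) (Matrix.SpecialLinearGroup.toGL g))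
    (hΘ1 : (Θ : (Matrix.GeneralLinearGroup (Fin 2) F) → ℂ) 1 = 2) (hΘu : (Θ : (Matrix.GeneralLinearGroup (Fin 2) F) → ℂ) (belG 1 1 1) = -1)
    (g₀ : (Matrix.SpecialLinearGroup (Fin 2) F)) (hg₀ : ∀ (c : F) (v : Fin 2 → F), v ≠ 0 → (g₀ : (Matrix (Fin 2) (Fin 2) F)).mulVec v ≠ c • v) :
    (χ : (Matrix.SpecialLinearGroup (Fin 2) F) → ℂ) g₀ = 0 := by
  have hq : (Fintype.card F : ℂ) = 3 := by
    rw [h3]
    norm_num
  have hχ1 : (χ : (Matrix.SpecialLinearGroup (Fin 2) F) → ℂ) 1 = 2 := by rw [hres 1, map_one, hΘ1]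
  have hc2 : starRingEnd ℂ (2 : ℂ) = 2 := map_ofNat _ 2
  have hinv : ∀ a : Fˣ, (a : F) = ((a⁻¹ : Fˣ) : F) := by
    intro a
    have h1 := FiniteField.pow_card_sub_one_eq_one (a : F) (Units.ne_zero a)
    rw [h3] at h1
    have h2 : (a : F) * (a : F) = (a : F) * ((a⁻¹ : Fˣ) : F) := by
      rw [Units.mul_inv, ← pow_two]
      exact h1
    exact mul_left_cancel₀ (Units.ne_zero a) h2
  have hN0 : ∀ a : Fˣ, nrmF (χ : (Matrix.SpecialLinearGroup (Fin 2) F) → ℂ) (bel a 0) = 4 := by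
    intro a
    rcases unit_inv_cases a (hinv a) with h | h
    · rw [h, bel_one_zero, nrmF_apply, hχ1, hc2]
      norm_num
    · rw [h, nrmF_apply, irr_central_normSq χ (bel (-1 : Fˣ) (0 : F)) bel_neg_one_central, hχ1]
      norm_num
  have hNu : ∀ (c : F), c ≠ 0 → nrmF (χ : (Matrix.SpecialLinearGroup (Fin 2) F) → ℂ) (bel 1 c) = 1 := by
    intro c hc
    obtain ⟨D, hD⟩ := belG_conj_one (1 : Fˣ) c hc
    have h1 : (χ : (Matrix.SpecialLinearGroup (Fin 2) F) → ℂ) (bel 1 c) = -1 := by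
      rw [hres, toGL_bel, inv_one, hD, Helper24.irr_conj, hΘu]
    rw [nrmF_apply, h1, map_neg, map_one]
    norm_num
  have hNn : ∀ (a : Fˣ) (c : F), c ≠ 0 → nrmF (χ : (Matrix.SpecialLinearGroup (Fin 2) F) → ℂ) (bel a c) = 1 := by
    intro a c hc
    rcases unit_inv_cases a (hinv a) with h | h
    · rw [h]
      exact hNu c hc
    · have e : bel (-1 : Fˣ) c = (bel (-1 : Fˣ) (0 : F)) * bel 1 (-c) := by rw [bel_neg_mul, neg_neg]
      have hu := irr_central_unit χ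
      have h2 := hNu (-c) (neg_ne_zero.mpr hc)
      rw [nrmF_apply] at h2
      have e2 : (χ : (Matrix.SpecialLinearGroup (Fin 2) F) → ℂ) ((bel (-1 : Fˣ) (0 : F)) * bel 1 (-c)) = (χ : (Matrix.SpecialLinearGroup (Fin 2) F) → ℂ) (bel (-1 : Fˣ) (0 : F)) / (χ : (Matrix.SpecialLinearGroup (Fin 2) F) → ℂ) 1 * (χ : (Matrix.SpecialLinearGroup (Fin 2) F) → ℂ) (bel 1 (-c)) := by
        rw [irr_central_mul χ _ bel_neg_one_central]
        ring
      rw [h, e, nrmF_apply, e2, map_mul]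
      linear_combination ((χ : (Matrix.SpecialLinearGroup (Fin 2) F) → ℂ) (bel 1 (-c)) * starRingEnd ℂ ((χ : (Matrix.SpecialLinearGroup (Fin 2) F) → ℂ) (bel 1 (-c)))) * hu + h2
  have hR0 : ∀ a : Fˣ, Cfsg.indFun ((Cfsg.upperTriangularGL 2 F).comap Matrix.SpecialLinearGroup.toGL) (thS (1 : MulChar F ℂ)) (bel a 0) = 4 := by
    intro a
    have heq : ((bel a 0 : (Matrix.SpecialLinearGroup (Fin 2) F)) : (Matrix (Fin 2) (Fin 2) F)) 0 0 = ((bel a 0 : (Matrix.SpecialLinearGroup (Fin 2) F)) : (Matrix (Fin 2) (Fin 2) F)) 1 1 := hinv a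
    have h := indFunS_central (1 : MulChar F ℂ) (bel a 0) rfl rfl heq
    have h1 : (1 : MulChar F ℂ) (((bel a 0 : (Matrix.SpecialLinearGroup (Fin 2) F)) : (Matrix (Fin 2) (Fin 2) F)) 0 0) = 1 := MulChar.one_apply_coe a
    rw [h, h1, hq]
    norm_num
  have hRn : ∀ (a : Fˣ) (c : F), c ≠ 0 → Cfsg.indFun ((Cfsg.upperTriangularGL 2 F).comap Matrix.SpecialLinearGroup.toGL) (thS (1 : MulChar F ℂ)) (bel a c) = 1 := by
    intro a c hc
    have heq : ((bel a c : (Matrix.SpecialLinearGroup (Fin 2) F)) : (Matrix (Fin 2) (Fin 2) F)) 0 0 = ((bel a c : (Matrix.SpecialLinearGroup (Fin 2) F)) : (Matrix (Fin 2) (Fin 2) F)) 1 1 := hinv a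
    have h01 : ((bel a c : (Matrix.SpecialLinearGroup (Fin 2) F)) : (Matrix (Fin 2) (Fin 2) F)) 0 1 ≠ 0 := hc
    have h := indFunS_unip (1 : MulChar F ℂ) (bel a c) rfl heq h01
    have h1 : (1 : MulChar F ℂ) (((bel a c : (Matrix.SpecialLinearGroup (Fin 2) F)) : (Matrix (Fin 2) (Fin 2) F)) 0 0) = 1 := MulChar.one_apply_coe a
    rw [h, h1]
  have hcardU : (Fintype.card F : ℂ) - 1 = 2 := by
    rw [hq]
    norm_num
  have hS1 : ∑ a : Fˣ, ∑ c : F, nrmF (χ : (Matrix.SpecialLinearGroup (Fin 2) F) → ℂ) (bel a c) = 12 := by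
    have hrow : ∀ a : Fˣ, ∑ c : F, nrmF (χ : (Matrix.SpecialLinearGroup (Fin 2) F) → ℂ) (bel a c) = 6 := by
      intro a
      have hk : ∀ y : Fˣ, nrmF (χ : (Matrix.SpecialLinearGroup (Fin 2) F) → ℂ) (bel a (y : F)) = 1 := fun y => hNn a (y : F) (Units.ne_zero y)
      have h' : ∑ c : F, nrmF (χ : (Matrix.SpecialLinearGroup (Fin 2) F) → ℂ) (bel a c) = nrmF (χ : (Matrix.SpecialLinearGroup (Fin 2) F) → ℂ) (bel a 0) + ((Fintype.card F : ℂ) - 1) * 1 :=
        sum_row (fun c : F => nrmF (χ : (Matrix.SpecialLinearGroup (Fin 2) F) → ℂ) (bel a c)) 1 hk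
      rw [h', hN0, hcardU]
      norm_num
    rw [Finset.sum_congr rfl (fun a _ => hrow a), Finset.sum_const, Finset.card_univ,
      Fintype.card_units, h3, nsmul_eq_mul]
    norm_num
  have hS2 : ∑ a : Fˣ, ∑ c : F, Cfsg.indFun ((Cfsg.upperTriangularGL 2 F).comap Matrix.SpecialLinearGroup.toGL) (thS (1 : MulChar F ℂ)) (bel a c) * nrmF (χ : (Matrix.SpecialLinearGroup (Fin 2) F) → ℂ) (bel a c) = 36 := by
    have hrow : ∀ a : Fˣ, ∑ c : F, Cfsg.indFun ((Cfsg.upperTriangularGL 2 F).comap Matrix.SpecialLinearGroup.toGL) (thS (1 : MulChar F ℂ)) (bel a c) * nrmF (χ : (Matrix.SpecialLinearGroup (Fin 2) F) → ℂ) (bel a c) = 18 := by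
      intro a
      have hk : ∀ y : Fˣ, Cfsg.indFun ((Cfsg.upperTriangularGL 2 F).comap Matrix.SpecialLinearGroup.toGL) (thS (1 : MulChar F ℂ)) (bel a (y : F)) * nrmF (χ : (Matrix.SpecialLinearGroup (Fin 2) F) → ℂ) (bel a (y : F)) = 1 := by
        intro y
        rw [hRn a (y : F) (Units.ne_zero y), hNn a (y : F) (Units.ne_zero y), one_mul]
      have h' : ∑ c : F, Cfsg.indFun ((Cfsg.upperTriangularGL 2 F).comap Matrix.SpecialLinearGroup.toGL) (thS (1 : MulChar F ℂ)) (bel a c) * nrmF (χ : (Matrix.SpecialLinearGroup (Fin 2) F) → ℂ) (bel a c) =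
          Cfsg.indFun ((Cfsg.upperTriangularGL 2 F).comap Matrix.SpecialLinearGroup.toGL) (thS (1 : MulChar F ℂ)) (bel a 0) * nrmF (χ : (Matrix.SpecialLinearGroup (Fin 2) F) → ℂ) (bel a 0) + ((Fintype.card F : ℂ) - 1) * 1 :=
        sum_row (fun c : F => Cfsg.indFun ((Cfsg.upperTriangularGL 2 F).comap Matrix.SpecialLinearGroup.toGL) (thS (1 : MulChar F ℂ)) (bel a c) * nrmF (χ : (Matrix.SpecialLinearGroup (Fin 2) F) → ℂ) (bel a c)) 1 hk
      rw [h', hN0, hR0, hcardU]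
      norm_num
    rw [Finset.sum_congr rfl (fun a _ => hrow a), Finset.sum_const, Finset.card_univ,
      Fintype.card_units, h3, nsmul_eq_mul]
    norm_num
  have hcl : ∀ x g : (Matrix.SpecialLinearGroup (Fin 2) F), nrmF (χ : (Matrix.SpecialLinearGroup (Fin 2) F) → ℂ) (x * g * x⁻¹) = nrmF (χ : (Matrix.SpecialLinearGroup (Fin 2) F) → ℂ) g := by
    intro x g
    rw [nrmF_apply, nrmF_apply, Helper24.irr_conj]
  have hG : (Fintype.card (Matrix.SpecialLinearGroup (Fin 2) F) : ℂ) = 24 := by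
    rw [card_SL_complex, hq]
    norm_num
  have hA0 : ∑ g : (Matrix.SpecialLinearGroup (Fin 2) F), nrmF (χ : (Matrix.SpecialLinearGroup (Fin 2) F) → ℂ) g = 24 := by
    have h := Helper24.irr_inner_self χ
    rw [Helper24.classInner_def', Nat.card_eq_fintype_card, hG] at h
    have h' : ∑ g : (Matrix.SpecialLinearGroup (Fin 2) F), nrmF (χ : (Matrix.SpecialLinearGroup (Fin 2) F) → ℂ) g = ∑ g : (Matrix.SpecialLinearGroup (Fin 2) F), (χ : (Matrix.SpecialLinearGroup (Fin 2) F) → ℂ) g * starRingEnd ℂ ((χ : (Matrix.SpecialLinearGroup (Fin 2) F) → ℂ) g) := rfl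
    rw [h']
    have h24 : (24 : ℂ) ≠ 0 := by norm_num
    rw [inv_mul_eq_iff_eq_mul₀ h24] at h
    rw [h]
    norm_num
  have hA1 : ∑ g : (Matrix.SpecialLinearGroup (Fin 2) F), Cfsg.indFun ((Cfsg.upperTriangularGL 2 F).comap Matrix.SpecialLinearGroup.toGL) (thS (1 : MulChar F ℂ)) g * nrmF (χ : (Matrix.SpecialLinearGroup (Fin 2) F) → ℂ) g = 48 := by
    rw [sum_R1_mul (nrmF (χ : (Matrix.SpecialLinearGroup (Fin 2) F) → ℂ)) hcl, hS1, hq]
    norm_num
  have hclR : ∀ x g : (Matrix.SpecialLinearGroup (Fin 2) F), Cfsg.indFun ((Cfsg.upperTriangularGL 2 F).comap Matrix.SpecialLinearGroup.toGL) (thS (1 : MulChar F ℂ)) (x * g * x⁻¹) * nrmF (χ : (Matrix.SpecialLinearGroup (Fin 2) F) → ℂ) (x * g * x⁻¹) = Cfsg.indFun ((Cfsg.upperTriangularGL 2 F).comap Matrix.SpecialLinearGroup.toGL) (thS (1 : MulChar F ℂ)) g * nrmF (χ : (Matrix.SpecialLinearGroup (Fin 2) F) → ℂ) g := by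
    intro x g
    rw [indFun_conj, hcl]
  have hA2 : ∑ g : (Matrix.SpecialLinearGroup (Fin 2) F), Cfsg.indFun ((Cfsg.upperTriangularGL 2 F).comap Matrix.SpecialLinearGroup.toGL) (thS (1 : MulChar F ℂ)) g * (Cfsg.indFun ((Cfsg.upperTriangularGL 2 F).comap Matrix.SpecialLinearGroup.toGL) (thS (1 : MulChar F ℂ)) g * nrmF (χ : (Matrix.SpecialLinearGroup (Fin 2) F) → ℂ) g) = 144 := by
    have h : ∑ g : (Matrix.SpecialLinearGroup (Fin 2) F), Cfsg.indFun ((Cfsg.upperTriangularGL 2 F).comap Matrix.SpecialLinearGroup.toGL) (thS (1 : MulChar F ℂ)) g * (Cfsg.indFun ((Cfsg.upperTriangularGL 2 F).comap Matrix.SpecialLinearGroup.toGL) (thS (1 : MulChar F ℂ)) g * nrmF (χ : (Matrix.SpecialLinearGroup (Fin 2) F) → ℂ) g) =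
        ((Fintype.card F : ℂ) + 1) * ∑ a : Fˣ, ∑ c : F, Cfsg.indFun ((Cfsg.upperTriangularGL 2 F).comap Matrix.SpecialLinearGroup.toGL) (thS (1 : MulChar F ℂ)) (bel a c) * nrmF (χ : (Matrix.SpecialLinearGroup (Fin 2) F) → ℂ) (bel a c) :=
      sum_R1_mul (fun g => Cfsg.indFun ((Cfsg.upperTriangularGL 2 F).comap Matrix.SpecialLinearGroup.toGL) (thS (1 : MulChar F ℂ)) g * nrmF (χ : (Matrix.SpecialLinearGroup (Fin 2) F) → ℂ) g) hclR
    rw [h, hS2, hq]
    norm_num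
  have hT : ∀ g : (Matrix.SpecialLinearGroup (Fin 2) F), ∃ r : ℝ, 0 ≤ r ∧ (Cfsg.indFun ((Cfsg.upperTriangularGL 2 F).comap Matrix.SpecialLinearGroup.toGL) (thS (1 : MulChar F ℂ)) g - 1) * (Cfsg.indFun ((Cfsg.upperTriangularGL 2 F).comap Matrix.SpecialLinearGroup.toGL) (thS (1 : MulChar F ℂ)) g - 4) * nrmF (χ : (Matrix.SpecialLinearGroup (Fin 2) F) → ℂ) g = (r : ℂ) := by
    intro g
    rcases sl2_tricho g with hell | ⟨x, a, c, rfl⟩
    · refine ⟨4 * Complex.normSq ((χ : (Matrix.SpecialLinearGroup (Fin 2) F) → ℂ) g), mul_nonneg (by norm_num) (Complex.normSq_nonneg _), ?_⟩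
      rw [indFunS_elliptic (1 : MulChar F ℂ) g hell, nrmF_apply, Complex.mul_conj]
      push_cast
      ring
    · refine ⟨0, le_refl 0, ?_⟩
      rw [indFun_conj, hcl, Complex.ofReal_zero]
      by_cases hc : c = 0
      · rw [hc, hR0]
        ring
      · rw [hRn a c hc]
        ring
  choose r hr0 hr using hT
  have hsum : ∑ g : (Matrix.SpecialLinearGroup (Fin 2) F), (Cfsg.indFun ((Cfsg.upperTriangularGL 2 F).comap Matrix.SpecialLinearGroup.toGL) (thS (1 : MulChar F ℂ)) g - 1) * (Cfsg.indFun ((Cfsg.upperTriangularGL 2 F).comap Matrix.SpecialLinearGroup.toGL) (thS (1 : MulChar F ℂ)) g - 4) * nrmF (χ : (Matrix.SpecialLinearGroup (Fin 2) F) → ℂ) g = 0 := by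
    have e : ∀ g : (Matrix.SpecialLinearGroup (Fin 2) F), (Cfsg.indFun ((Cfsg.upperTriangularGL 2 F).comap Matrix.SpecialLinearGroup.toGL) (thS (1 : MulChar F ℂ)) g - 1) * (Cfsg.indFun ((Cfsg.upperTriangularGL 2 F).comap Matrix.SpecialLinearGroup.toGL) (thS (1 : MulChar F ℂ)) g - 4) * nrmF (χ : (Matrix.SpecialLinearGroup (Fin 2) F) → ℂ) g =
        Cfsg.indFun ((Cfsg.upperTriangularGL 2 F).comap Matrix.SpecialLinearGroup.toGL) (thS (1 : MulChar F ℂ)) g * (Cfsg.indFun ((Cfsg.upperTriangularGL 2 F).comap Matrix.SpecialLinearGroup.toGL) (thS (1 : MulChar F ℂ)) g * nrmF (χ : (Matrix.SpecialLinearGroup (Fin 2) F) → ℂ) g) - 5 * (Cfsg.indFun ((Cfsg.upperTriangularGL 2 F).comap Matrix.SpecialLinearGroup.toGL) (thS (1 : MulChar F ℂ)) g * nrmF (χ : (Matrix.SpecialLinearGroup (Fin 2) F) → ℂ) g) + 4 * nrmF (χ : (Matrix.SpecialLinearGroup (Fin 2) F) → ℂ) g := by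
      intro g
      ring
    have e5 : ∑ g : (Matrix.SpecialLinearGroup (Fin 2) F), 5 * (Cfsg.indFun ((Cfsg.upperTriangularGL 2 F).comap Matrix.SpecialLinearGroup.toGL) (thS (1 : MulChar F ℂ)) g * nrmF (χ : (Matrix.SpecialLinearGroup (Fin 2) F) → ℂ) g) = 5 * ∑ g : (Matrix.SpecialLinearGroup (Fin 2) F), Cfsg.indFun ((Cfsg.upperTriangularGL 2 F).comap Matrix.SpecialLinearGroup.toGL) (thS (1 : MulChar F ℂ)) g * nrmF (χ : (Matrix.SpecialLinearGroup (Fin 2) F) → ℂ) g :=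
      (Finset.mul_sum _ _ _).symm
    have e4 : ∑ g : (Matrix.SpecialLinearGroup (Fin 2) F), 4 * nrmF (χ : (Matrix.SpecialLinearGroup (Fin 2) F) → ℂ) g = 4 * ∑ g : (Matrix.SpecialLinearGroup (Fin 2) F), nrmF (χ : (Matrix.SpecialLinearGroup (Fin 2) F) → ℂ) g :=
      (Finset.mul_sum _ _ _).symm
    rw [Finset.sum_congr rfl (fun g _ => e g), Finset.sum_add_distrib, Finset.sum_sub_distrib, e5, e4,
      hA2, hA1, hA0]
    norm_num
  have hsumr : ∑ g : (Matrix.SpecialLinearGroup (Fin 2) F), r g = 0 := by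
    have h : ∑ g : (Matrix.SpecialLinearGroup (Fin 2) F), ((r g : ℝ) : ℂ) = 0 := by
      rw [← hsum]
      exact Finset.sum_congr rfl (fun g _ => (hr g).symm)
    have h2 : ((∑ g : (Matrix.SpecialLinearGroup (Fin 2) F), r g : ℝ) : ℂ) = 0 := by
      rw [Complex.ofReal_sum]
      exact h
    exact Complex.ofReal_eq_zero.mp h2
  have hr₀ := (Finset.sum_eq_zero_iff_of_nonneg (fun g _ => hr0 g)).mp hsumr g₀ (Finset.mem_univ _)
  have hT₀ := hr g₀
  rw [hr₀, Complex.ofReal_zero, indFunS_elliptic (1 : MulChar F ℂ) g₀ hg₀, nrmF_apply] at hT₀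
  have h4 : (χ : (Matrix.SpecialLinearGroup (Fin 2) F) → ℂ) g₀ * starRingEnd ℂ ((χ : (Matrix.SpecialLinearGroup (Fin 2) F) → ℂ) g₀) = 0 := by linear_combination (1 / 4 : ℂ) * hT₀
  rcases mul_eq_zero.mp h4 with h | h
  · exact h
  · exact (map_eq_zero (starRingEnd ℂ)).mp h

end q3

/-- Over a finite field F with q elements, q odd: every irreducible complex character of SL₂ of degree q − 1 or (q − 1)/2 vanishes at every diagonal matrix whose diagonal entry a has a² ≠ 1, and every irreducible complex character of degree q + 1 or (q + 1)/2 vanishes at every element with no eigenvector in F². -/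
theorem result {F : Type*} [Field F] [Fintype F] (hodd : Odd (Fintype.card F)) (χ : Matrix.SpecialLinearGroup (Fin 2) F → ℂ) (hχ : Cfsg.IsIrrCharacter (Matrix.SpecialLinearGroup (Fin 2) F) χ) (g : Matrix.SpecialLinearGroup (Fin 2) F) :
    ((χ 1 = (Fintype.card F : ℂ) - 1 ∨ χ 1 = (((Fintype.card F - 1) / 2 : ℕ) : ℂ)) →
      (g : Matrix (Fin 2) (Fin 2) F) 0 1 = 0 → (g : Matrix (Fin 2) (Fin 2) F) 1 0 = 0 → (g : Matrix (Fin 2) (Fin 2) F) 0 0 ^ 2 ≠ 1 → χ g = 0) ∧
    ((χ 1 = (Fintype.card F : ℂ) + 1 ∨ χ 1 = (((Fintype.card F + 1) / 2 : ℕ) : ℂ)) →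
      (∀ (c : F) (v : Fin 2 → F), v ≠ 0 → (g : Matrix (Fin 2) (Fin 2) F).mulVec v ≠ c • v) → χ g = 0) := by
  classical
  have hodd' := hodd
  obtain ⟨e, he⟩ := hodd'
  have hq3 : 3 ≤ Fintype.card F := by
    have := Fintype.one_lt_card (α := F)
    omega
  have he1 : 1 ≤ e := by omega
  obtain ⟨χ', hχ'⟩ : ∃ χ' : (Cfsg.IrrCharacter (Matrix.SpecialLinearGroup (Fin 2) F)), (χ' : (Matrix.SpecialLinearGroup (Fin 2) F) → ℂ) = χ := ⟨⟨χ, hχ⟩, rfl⟩
  subst hχ'
  obtain ⟨n, hn⟩ := Helper24.irr_one_eq_natCast χ'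
  obtain ⟨Θ, hcl⟩ := sl2_cliff χ'
  obtain ⟨k, hk⟩ := Helper24.irr_one_eq_natCast Θ
  have htype := gl2_type_nat (Θ : (Matrix.GeneralLinearGroup (Fin 2) F) → ℂ) Θ.2 (2 * e) he k hk
  have hQ : (Fintype.card F : ℂ) = 2 * (e : ℂ) + 1 := by
    rw [he]
    first | (push_cast; ring) | push_cast
  have hp : (Fintype.card F + 1) / 2 = e + 1 := by omega
  have hmi : (Fintype.card F - 1) / 2 = e := by omega
  constructor
  · intro hdeg h01 h10 hsq
    have hn' : n = 2 * e ∨ n = e := by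
      rcases hdeg with h | h
      · left
        have e1 : (n : ℂ) = ((2 * e : ℕ) : ℂ) := by
          rw [← hn, h, hQ]
          first | (push_cast; ring) | push_cast
        exact_mod_cast e1
      · right
        rw [hn, hmi] at h
        exact_mod_cast h
    obtain ⟨⟨a, c⟩, hac⟩ := bel_surj g ((mem_BS_iff g).mpr h10)
    have hac' : bel a c = g := hac
    have hc0 : c = 0 := by
      have h := congrArg (fun x : (Matrix.SpecialLinearGroup (Fin 2) F) => (x : (Matrix (Fin 2) (Fin 2) F)) 0 1) hac'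
      exact h.trans h01
    have ha0 : (a : F) = (g : (Matrix (Fin 2) (Fin 2) F)) 0 0 := congrArg (fun x : (Matrix.SpecialLinearGroup (Fin 2) F) => (x : (Matrix (Fin 2) (Fin 2) F)) 0 0) hac'
    rw [hc0] at hac'
    have hane : (a : F) ≠ ((a⁻¹ : Fˣ) : F) := by
      intro h
      apply hsq
      rw [← ha0, pow_two]
      have h2 := Units.mul_inv a
      rw [← h] at h2
      exact h2
    have he2 : 2 ≤ e := by
      by_contra hcon
      have he1' : e = 1 := by omega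
      apply hsq
      have h1 := FiniteField.pow_card_sub_one_eq_one ((g : (Matrix (Fin 2) (Fin 2) F)) 0 0)
        (by rw [← ha0]; exact Units.ne_zero a)
      rw [he, he1'] at h1
      exact h1
    rw [← hac']
    rcases hcl with hcl | ⟨-, χ₂, hne, hsum, d, hd, hd'⟩
    · have ek : (k : ℂ) = (n : ℂ) := by rw [← hk, ← hn, hcl 1, map_one]
      have ek' : k = n := by exact_mod_cast ek
      rcases htype with ⟨h1, -, hvan⟩ | ⟨h1, -⟩ | ⟨h1, -⟩ | ⟨h1, -⟩
      · rw [hcl, toGL_bel]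
        exact hvan a a⁻¹ hane 0
      · omega
      · omega
      · omega
    · have hP : HalfPair χ' χ₂ d := ⟨hne, hd, hd'⟩
      have ek : (k : ℂ) = ((2 * n : ℕ) : ℂ) := by
        rw [← hk]
        have h1 := hsum 1
        rw [map_one, hp_one hP, hn] at h1
        rw [h1]
        first | (push_cast; ring) | push_cast
      have ek' : k = 2 * n := by exact_mod_cast ek
      have h2 := hp_tr hodd hP (bel a 0) (bel_trace_ne a 0 hane)
      rw [psiF_apply] at h2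
      have h3 := hsum (bel a 0)
      rw [toGL_bel] at h3
      rcases htype with ⟨h1, -, hvan⟩ | ⟨h1, -⟩ | ⟨h1, -⟩ | ⟨h1, -⟩
      · rw [hvan a a⁻¹ hane 0] at h3
        linear_combination (-1 / 2 : ℂ) * h3 + (1 / 2 : ℂ) * h2
      · omega
      · omega
      · omega
  · intro hdeg hell
    have hn' : n = 2 * e + 2 ∨ n = e + 1 := by
      rcases hdeg with h | h
      · left
        have e1 : (n : ℂ) = ((2 * e + 2 : ℕ) : ℂ) := by
          rw [← hn, h, hQ]
          first | (push_cast; ring) | push_cast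
        exact_mod_cast e1
      · right
        rw [hn, hp] at h
        exact_mod_cast h
    rcases hcl with hcl | ⟨-, χ₂, hne, hsum, d, hd, hd'⟩
    · have ek : (k : ℂ) = (n : ℂ) := by rw [← hk, ← hn, hcl 1, map_one]
      have ek' : k = n := by exact_mod_cast ek
      rcases htype with ⟨h1, h2, -⟩ | ⟨h1, -, hvan, -⟩ | ⟨h1, -⟩ | ⟨h1, -⟩
      · have he1' : e = 1 := by omega
        have h3 : Fintype.card F = 3 := by omega
        have hΘ1 : (Θ : (Matrix.GeneralLinearGroup (Fin 2) F) → ℂ) 1 = 2 := by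
          rw [hk, h1, he1']
          norm_num
        exact q3_cusp_ell h3 χ' Θ hcl hΘ1 h2 g hell
      · rw [hcl]
        exact hvan (Matrix.SpecialLinearGroup.toGL g) hell
      · omega
      · omega
    · have hP : HalfPair χ' χ₂ d := ⟨hne, hd, hd'⟩
      have ek : (k : ℂ) = ((2 * n : ℕ) : ℂ) := by
        rw [← hk]
        have h1 := hsum 1
        rw [map_one, hp_one hP, hn] at h1
        rw [h1]
        first | (push_cast; ring) | push_cast
      have ek' : k = 2 * n := by exact_mod_cast ek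
      have h2 := hp_tr hodd hP g (ell_trace g hell)
      rw [psiF_apply] at h2
      have h3 := hsum g
      rcases htype with ⟨h1, -⟩ | ⟨h1, -, hvan, -⟩ | ⟨h1, -⟩ | ⟨h1, -⟩
      · omega
      · rw [hvan (Matrix.SpecialLinearGroup.toGL g) hell] at h3
        linear_combination (-1 / 2 : ℂ) * h3 + (1 / 2 : ℂ) * h2
      · omega
      · omega

end Cfsg.Agent.S2322
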