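import Cfsg.Statements.S2323
import Mathlib
import Cfsg.Agent.Helper12.SL2Cliff

set_option autoImplicit false
open Cfsg

namespace Cfsg.Agent.S2323

open Cfsg.Agent.Helper12
open Cfsg.Agent.S2305 (th)
open Cfsg.Agent.S2308 (belG)


/-- Over a finite field F with q ≥ 4 elements, let u be the upper unitriangular matrix of SL₂ with off-diagonal entry 1. An irreducible complex character of SL₂ takes at u the value 1 if its degree is q + 1 and the value −1 if its degree is q − 1. -/
theorem result {F : Type*} [Field F] [Fintype F] (hq : 4 ≤ Fintype.card F) (χ : Matrix.SpecialLinearGroup (Fin 2) F → ℂ) (hχ : Cfsg.IsIrrCharacter (Matrix.SpecialLinearGroup (Fin 2) F) χ)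
    (u : Matrix.SpecialLinearGroup (Fin 2) F) (hu : (u : Matrix (Fin 2) (Fin 2) F) = !![1, 1; 0, 1]) :
    (χ 1 = (Fintype.card F : ℂ) + 1 → χ u = 1) ∧ (χ 1 = (Fintype.card F : ℂ) - 1 → χ u = -1) := by
  classical
  obtain ⟨m, hm⟩ : ∃ m : ℕ, Fintype.card F = m + 1 := ⟨Fintype.card F - 1, by omega⟩
  have hm3 : 3 ≤ m := by omega
  have hQ : (Fintype.card F : ℂ) = (m : ℂ) + 1 := by
    rw [hm]
    push_cast
    ring
  obtain ⟨χ', hχ'⟩ : ∃ χ' : Cfsg.IrrCharacter (Matrix.SpecialLinearGroup (Fin 2) F), (χ' : (Matrix.SpecialLinearGroup (Fin 2) F) → ℂ) = χ := ⟨⟨χ, hχ⟩, rfl⟩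
  obtain ⟨n, hn⟩ := Helper24.irr_one_eq_natCast χ'
  rw [hχ'] at hn
  obtain ⟨Θ, hcl⟩ := sl2_cliff χ'
  rw [hχ'] at hcl
  obtain ⟨k, hk⟩ := Helper24.irr_one_eq_natCast Θ
  have htype := gl2_type_nat (Θ : (Matrix.GeneralLinearGroup (Fin 2) F) → ℂ) Θ.2 m hm k hk
  have huG := toGL_unip u hu
  have hdeg1 : χ 1 = (Fintype.card F : ℂ) + 1 → n = m + 2 := by
    intro h
    have e : (n : ℂ) = (m : ℂ) + 2 := by
      rw [← hn, h, hQ]
      ring
    exact_mod_cast e
  have hdeg2 : χ 1 = (Fintype.card F : ℂ) - 1 → n = m := by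
    intro h
    have e : (n : ℂ) = (m : ℂ) := by
      rw [← hn, h, hQ]
      ring
    exact_mod_cast e
  rcases hcl with hres | ⟨hodd, χ₂, hne, hdec, d, hd, hd'⟩
  · have hnk : n = k := by
      have e : (n : ℂ) = (k : ℂ) := by
        rw [← hn, ← hk, hres 1, map_one]
      exact_mod_cast e
    have hval : χ u = (Θ : (Matrix.GeneralLinearGroup (Fin 2) F) → ℂ) (belG 1 1 1) := by
      rw [hres u, huG]
    rcases htype with ⟨t1, tu, -⟩ | ⟨t1, tu, -, -⟩ | ⟨t1, -⟩ | ⟨t1, -⟩
    · refine ⟨fun h => ?_, fun _ => ?_⟩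
      · have := hdeg1 h
        exfalso
        omega
      · rw [hval, tu]
    · refine ⟨fun _ => ?_, fun h => ?_⟩
      · rw [hval, tu]
      · have := hdeg2 h
        exfalso
        omega
    · refine ⟨fun h => ?_, fun h => ?_⟩
      · have := hdeg1 h
        exfalso
        omega
      · have := hdeg2 h
        exfalso
        omega
    · refine ⟨fun h => ?_, fun h => ?_⟩
      · have := hdeg1 h
        exfalso
        omega
      · have := hdeg2 h
        exfalso
        omega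
  · have h21 : (χ₂ : (Matrix.SpecialLinearGroup (Fin 2) F) → ℂ) 1 = χ 1 := hd 1 1 (by rw [map_one, mul_one, mul_inv_cancel])
    have hk2 : k = 2 * n := by
      have e : (k : ℂ) = 2 * (n : ℂ) := by
        rw [← hk, ← hn]
        have h3 := hdec 1
        rw [map_one, h21] at h3
        rw [h3]
        ring
      exact_mod_cast e
    have hk4 : k = m ∨ k = m + 2 ∨ k = 1 ∨ k = m + 1 := by
      rcases htype with ⟨t1, -⟩ | ⟨t1, -⟩ | ⟨t1, -⟩ | ⟨t1, -⟩
      · exact Or.inl t1
      · exact Or.inr (Or.inl t1)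
      · exact Or.inr (Or.inr (Or.inl t1))
      · exact Or.inr (Or.inr (Or.inr t1))
    refine ⟨fun h => ?_, fun h => ?_⟩
    · have := hdeg1 h
      exfalso
      omega
    · have := hdeg2 h
      exfalso
      omega

end Cfsg.Agent.S2323
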