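import Cfsg.Statements.S2325
import Cfsg.Agent.Helper12.SL2

set_option autoImplicit false
open Cfsg

namespace Cfsg.Agent.S2325

open Matrix Cfsg.Agent.Helper12 Polynomial

variable {F : Type*} [Field F]

/-- sign of a boolean -/
def sgn (b : Bool) : F := if b then 1 else -1

theorem sgn_mul_self (b : Bool) : (sgn b : F) * sgn b = 1 := by
  cases b <;> simp [sgn]

/-- scalar ±1 in SL₂ -/
def scal (b : Bool) : Matrix.SpecialLinearGroup (Fin 2) F :=
  sl2mk (sgn b) 0 0 (sgn b) (by rw [sgn_mul_self]; ring)

theorem scal_conj (b : Bool) (c : Matrix.SpecialLinearGroup (Fin 2) F) : c * scal b * c⁻¹ = scal b := by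
  rw [mul_inv_eq_iff_eq_mul, sl2_mul_eq_iff]
  obtain ⟨x, y, z, w, hc, -⟩ := sl2_eta c
  rw [hc, scal, sl2mk_val]
  ext i j
  fin_cases i <;> fin_cases j <;> simp [Matrix.mul_apply, Fin.sum_univ_two] <;> ring1

theorem norm_universal [Fintype F] (hodd : Odd (Fintype.card F)) (t : F) (ht : t ^ 2 ≠ 4) (w : F) :
    ∃ x y : F, x ^ 2 + t * x * y + y ^ 2 = w := by
  have h2 : (2 : F) ≠ 0 := by
    intro h
    have hch : ringChar F = 2 := by
      have : (2 : ℕ) ∣ ringChar F ∨ True := Or.inr trivial
      have h' : ((2 : ℕ) : F) = 0 := by exact_mod_cast h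
      have hdvd := (ringChar.spec F 2).mp h'
      have hp := CharP.char_is_prime_or_zero F (ringChar F)
      rcases hp with hp | hp
      · exact ((Nat.prime_dvd_prime_iff_eq hp Nat.prime_two).mp hdvd)
      · rw [hp] at hdvd
        simp at hdvd
    have := FiniteField.even_card_iff_char_two.mp hch
    rcases hodd with ⟨k, hk⟩
    omega
  have h4 : (4 : F) ≠ 0 := by
    have : (4 : F) = 2 * 2 := by norm_num
    rw [this]
    exact mul_ne_zero h2 h2
  set c : F := 1 - t ^ 2 / 4 with hc
  have hc0 : c ≠ 0 := by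
    intro h
    apply ht
    rw [hc] at h
    field_simp at h
    linear_combination -h
  have hcard : Fintype.card F % 2 = 1 := Nat.odd_iff.mp hodd
  have hf : degree (X ^ 2 : F[X]) = 2 := degree_X_pow 2
  have hg : degree (C c * X ^ 2 + C 0 * X + C (-w) : F[X]) = 2 := degree_quadratic hc0
  obtain ⟨a, b, hab⟩ := FiniteField.exists_root_sum_quadratic hf hg hcard
  simp at hab
  refine ⟨a - t * b / 2, b, ?_⟩
  rw [hc] at hab
  field_simp
  field_simp at hab
  linear_combination hab

/-- parametrisation of the classes -/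
noncomputable def psi (ν : F) (hν : ν ≠ 0) : F ⊕ (Bool × Bool) → ConjClasses (Matrix.SpecialLinearGroup (Fin 2) F)
  | Sum.inl t => ConjClasses.mk (sl2Comp t 1 one_ne_zero)
  | Sum.inr (b, false) => ConjClasses.mk (scal b)
  | Sum.inr (b, true) => ConjClasses.mk (sl2Comp (2 * sgn b) ν hν)

theorem not_conj_scal_comp (b : Bool) (t s : F) (hs : s ≠ 0) : ¬ IsConj (scal b) (sl2Comp t s hs) := by
  intro h
  rw [isConj_iff] at h
  obtain ⟨c, hc⟩ := h
  rw [scal_conj] at hc
  have := congrArg (fun x : Matrix.SpecialLinearGroup (Fin 2) F => (x : Matrix (Fin 2) (Fin 2) F) 1 0) hc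
  simp [scal] at this
  exact hs this.symm

theorem trace_eq_of_conj (t s t' s' : F) (hs : s ≠ 0) (hs' : s' ≠ 0)
    (h : IsConj (sl2Comp t s hs) (sl2Comp t' s' hs')) : t = t' := by
  rw [isConj_iff] at h
  obtain ⟨c, hc⟩ := h
  have h1 := sl2_trace_conj c (sl2Comp t s hs)
  rw [hc] at h1
  simp [Matrix.trace_fin_two] at h1
  exact h1.symm

theorem sgn_injective (h2 : (2 : F) ≠ 0) : Function.Injective (sgn : Bool → F) := by
  intro b b' h
  cases b <;> cases b' <;> simp [sgn] at h ⊢
  · apply h2
    linear_combination -h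
  · apply h2
    linear_combination h

theorem psi_injective (h2 : (2 : F) ≠ 0) (ν : F) (hν : ν ≠ 0) (hns : ¬ IsSquare ν) :
    Function.Injective (psi ν hν) := by
  have key : ∀ (b : Bool), ¬ IsConj (sl2Comp (2 * sgn b) 1 one_ne_zero) (sl2Comp (2 * sgn b) ν hν) := by
    intro b h
    obtain ⟨x, y, hxy⟩ := sl2Comp_norm_of_isConj _ _ _ _ _ h
    apply hns
    refine ⟨ν * (x + sgn b * y), ?_⟩
    have hb := sgn_mul_self (F := F) b
    have e : (x + sgn b * y) ^ 2 = 1 / ν := by
      rw [← hxy]
      linear_combination y ^ 2 * hb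
    have : ν = ν * ν * (1 / ν) := by field_simp
    rw [← e] at this
    linear_combination this
  rintro (t | ⟨b, _ | _⟩) (t' | ⟨b', _ | _⟩) h <;> simp only [psi, ConjClasses.mk_eq_mk_iff_isConj] at h
  · rw [trace_eq_of_conj _ _ _ _ _ _ h]
  · exact absurd h.symm (not_conj_scal_comp _ _ _ _)
  · exfalso
    have ht := trace_eq_of_conj _ _ _ _ _ _ h
    subst ht
    exact key b' h
  · exact absurd h (not_conj_scal_comp _ _ _ _)
  · rw [isConj_iff] at h
    obtain ⟨c, hc⟩ := h
    rw [scal_conj] at hc
    have := congrArg (fun x : Matrix.SpecialLinearGroup (Fin 2) F => (x : Matrix (Fin 2) (Fin 2) F) 0 0) hc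
    simp [scal] at this
    rw [sgn_injective h2 this]
  · exact absurd h (not_conj_scal_comp _ _ _ _)
  · exfalso
    have ht := trace_eq_of_conj _ _ _ _ _ _ h
    subst ht
    exact key b h.symm
  · exact absurd h.symm (not_conj_scal_comp _ _ _ _)
  · have ht := trace_eq_of_conj _ _ _ _ _ _ h
    have : sgn b = (sgn b' : F) := mul_left_cancel₀ h2 ht
    rw [sgn_injective h2 this]

theorem psi_surjective [Fintype F] (hodd : Odd (Fintype.card F)) (hch : ringChar F ≠ 2) (h2 : (2 : F) ≠ 0)
    (ν : F) (hν : ν ≠ 0) (hns : ¬ IsSquare ν) :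
    Function.Surjective (psi ν hν) := by
  intro x
  obtain ⟨g, rfl⟩ := ConjClasses.exists_rep x
  rcases sl2_exists_conj g with ⟨h01, h10, h00⟩ | ⟨s, hs, P, hP⟩
  · have hdet := g.det_coe
    rw [Matrix.det_fin_two, h01, ← h00] at hdet
    have ha : ((g : Matrix (Fin 2) (Fin 2) F) 0 0 - 1) * ((g : Matrix (Fin 2) (Fin 2) F) 0 0 + 1) = 0 := by
      linear_combination hdet
    rcases mul_eq_zero.mp ha with ha | ha
    · refine ⟨Sum.inr (true, false), ?_⟩
      simp only [psi]
      congr 1
      apply Matrix.SpecialLinearGroup.ext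
      intro i j
      have ha' : (g : Matrix (Fin 2) (Fin 2) F) 0 0 = 1 := by linear_combination ha
      fin_cases i <;> fin_cases j <;> simp [scal, sgn, h01, h10, ha', ← h00]
    · refine ⟨Sum.inr (false, false), ?_⟩
      simp only [psi]
      congr 1
      apply Matrix.SpecialLinearGroup.ext
      intro i j
      have ha' : (g : Matrix (Fin 2) (Fin 2) F) 0 0 = -1 := by linear_combination ha
      fin_cases i <;> fin_cases j <;> simp [scal, sgn, h01, h10, ha', ← h00]
  · set t := (g : Matrix (Fin 2) (Fin 2) F).trace with ht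
    have h1 : IsConj (sl2Comp t s hs) g := by
      rw [isConj_iff]
      refine ⟨P, ?_⟩
      rw [← hP]
      group
    by_cases ht4 : t ^ 2 = 4
    · -- t = ± 2
      have hb : ∃ b : Bool, t = 2 * sgn b := by
        have : (t - 2) * (t + 2) = 0 := by linear_combination ht4
        rcases mul_eq_zero.mp this with h | h
        · exact ⟨true, by simp [sgn]; linear_combination h⟩
        · exact ⟨false, by simp [sgn]; linear_combination h⟩
      obtain ⟨b, hb⟩ := hb
      by_cases hsq : IsSquare s
      · obtain ⟨r, hr⟩ := hsq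
        have hr0 : r ≠ 0 := by
          rintro rfl
          apply hs
          simpa using hr
        refine ⟨Sum.inl t, ?_⟩
        simp only [psi, ConjClasses.mk_eq_mk_iff_isConj]
        refine IsConj.trans ?_ h1
        apply sl2Comp_isConj_of_norm _ 1 s one_ne_zero hs (r⁻¹) 0
        rw [hr]
        field_simp
        ring
      · refine ⟨Sum.inr (b, true), ?_⟩
        simp only [psi, ConjClasses.mk_eq_mk_iff_isConj]
        rw [← hb]
        refine IsConj.trans ?_ h1
        have hq : IsSquare (ν / s) := by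
          have hνs : ν / s ≠ 0 := div_ne_zero hν hs
          rw [FiniteField.isSquare_iff hch hνs]
          have e1 : ν ^ (Fintype.card F / 2) = -1 := by
            rcases FiniteField.pow_dichotomy hch hν with h | h
            · exact absurd ((FiniteField.isSquare_iff hch hν).mpr h) hns
            · exact h
          have e2 : s ^ (Fintype.card F / 2) = -1 := by
            rcases FiniteField.pow_dichotomy hch hs with h | h
            · exact absurd ((FiniteField.isSquare_iff hch hs).mpr h) hsq
            · exact h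
          rw [div_pow, e1, e2]
          norm_num
        obtain ⟨r, hr⟩ := hq
        apply sl2Comp_isConj_of_norm _ ν s hν hs r 0
        rw [hr]
        ring
    · refine ⟨Sum.inl t, ?_⟩
      simp only [psi, ConjClasses.mk_eq_mk_iff_isConj]
      refine IsConj.trans ?_ h1
      obtain ⟨x, y, hxy⟩ := norm_universal hodd t ht4 (1 / s)
      exact sl2Comp_isConj_of_norm _ 1 s one_ne_zero hs x y hxy

/-- Over a finite field with q elements, q odd, the special linear group SL₂ has exactly q + 4 conjugacy classes. -/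
theorem result {F : Type*} [Field F] [Fintype F] (hodd : Odd (Fintype.card F)) :
    Nat.card (ConjClasses (Matrix.SpecialLinearGroup (Fin 2) F)) = Fintype.card F + 4 := by
  classical
  have hch : ringChar F ≠ 2 := by
    intro h
    have := FiniteField.even_card_iff_char_two.mp h
    rcases hodd with ⟨k, hk⟩
    omega
  have h2 : (2 : F) ≠ 0 := Ring.two_ne_zero hch
  obtain ⟨ν, hns⟩ := FiniteField.exists_nonsquare hch
  have hν : ν ≠ 0 := by
    rintro rfl
    exact hns ⟨0, by simp⟩
  rw [← Nat.card_congr (Equiv.ofBijective (psi ν hν)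
    ⟨psi_injective h2 ν hν hns, psi_surjective hodd hch h2 ν hν hns⟩)]
  rw [Nat.card_eq_fintype_card, Fintype.card_sum, Fintype.card_prod, Fintype.card_bool]

end Cfsg.Agent.S2325
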