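import Cfsg.Statements.S2329

set_option autoImplicit false
open Cfsg

namespace Cfsg.Agent.S2329

open Matrix

/-- The standard unipotent element. -/
noncomputable def jmat (F : Type*) [Field F] : Matrix.GeneralLinearGroup (Fin 2) F :=
  Matrix.GeneralLinearGroup.mkOfDetNeZero !![1, 1; 0, 1] (by simp [Matrix.det_fin_two])

theorem exists_conj_jmat {F : Type*} [Field F] (p : ℕ) [Fact p.Prime] [CharP F p]
    (g : Matrix.GeneralLinearGroup (Fin 2) F) (hg : orderOf g = p) :
    ∃ P : Matrix.GeneralLinearGroup (Fin 2) F, g * P = P * jmat F := by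
  have hp : p.Prime := Fact.out
  have hgp : g ^ p = 1 := by rw [← hg]; exact pow_orderOf_eq_one g
  have hg1 : g ≠ 1 := by
    intro h
    rw [h, orderOf_one] at hg
    exact hp.ne_one hg.symm
  set A : Matrix (Fin 2) (Fin 2) F := (g : Matrix (Fin 2) (Fin 2) F) with hA
  have hAp : A ^ p = 1 := by
    have := congrArg (fun x : Matrix.GeneralLinearGroup (Fin 2) F => (x : Matrix (Fin 2) (Fin 2) F)) hgp
    simpa using this
  have hA1 : A ≠ 1 := by
    intro h
    apply hg1
    exact Units.ext h
  have hNp : (A - 1) ^ p = 0 := by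
    rw [sub_pow_char_of_commute p (Commute.one_right A), hAp, one_pow, sub_self]
  have hnil : IsNilpotent (A - 1) := ⟨p, hNp⟩
  have htr : (A - 1).trace = 0 := (Matrix.isNilpotent_trace_of_isNilpotent hnil).eq_zero
  have hdet : (A - 1).det = 0 := by
    have h1 : (A - 1).det ^ p = 0 := by rw [← Matrix.det_pow, hNp, Matrix.det_zero]
    exact pow_eq_zero_iff (hp.ne_zero) |>.mp h1
  -- write out entries
  obtain ⟨a, b, c, d, hN⟩ : ∃ a b c d : F, A - 1 = !![a, b; c, d] :=
    ⟨(A - 1) 0 0, (A - 1) 0 1, (A - 1) 1 0, (A - 1) 1 1, Matrix.eta_fin_two (A - 1)⟩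
  rw [hN] at htr hdet
  simp [Matrix.trace_fin_two, Matrix.det_fin_two] at htr hdet
  have hd : d = -a := by linear_combination htr
  subst hd
  have hAeq : A = !![1 + a, b; c, 1 - a] := by
    have : A = (A - 1) + 1 := by abel
    rw [this, hN]
    ext i j
    fin_cases i <;> fin_cases j <;> simp <;> ring
  by_cases hc : c = 0
  · subst hc
    have ha : a = 0 := by
      have : a * a = 0 := by linear_combination -hdet
      simpa using this
    subst ha
    have hb : b ≠ 0 := by
      intro hb
      apply hA1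
      rw [hAeq, hb]
      ext i j
      fin_cases i <;> fin_cases j <;> simp
    refine ⟨Matrix.GeneralLinearGroup.mkOfDetNeZero !![b, 0; 0, 1] (by simpa [Matrix.det_fin_two] using hb), ?_⟩
    apply Units.ext
    change A * !![b, 0; 0, 1] = !![b, 0; 0, 1] * !![1, 1; 0, 1]
    rw [hAeq]
    ext i j
    fin_cases i <;> fin_cases j <;> simp [Matrix.mul_apply, Fin.sum_univ_two]
  · refine ⟨Matrix.GeneralLinearGroup.mkOfDetNeZero !![a, 1; c, 0] (by simpa [Matrix.det_fin_two] using hc), ?_⟩
    apply Units.ext
    change A * !![a, 1; c, 0] = !![a, 1; c, 0] * !![1, 1; 0, 1]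
    rw [hAeq]
    ext i j
    fin_cases i <;> fin_cases j <;> simp [Matrix.mul_apply, Fin.sum_univ_two] <;> first | ring1 | linear_combination (-1 : F) * hdet

/-- Over a finite field of characteristic p, any two elements of order p of GL₂ are conjugate: there is a single conjugacy class of non-identity unipotent elements. -/
theorem result {F : Type*} [Field F] [Fintype F] (p : ℕ) [Fact p.Prime] [CharP F p] (g h : Matrix.GeneralLinearGroup (Fin 2) F)
    (hg : orderOf g = p) (hh : orderOf h = p) : IsConj g h := by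
  obtain ⟨P, hP⟩ := exists_conj_jmat p g hg
  obtain ⟨Q, hQ⟩ := exists_conj_jmat p h hh
  rw [isConj_iff]
  refine ⟨Q * P⁻¹, ?_⟩
  have hg' : g = P * jmat F * P⁻¹ := by rw [← hP]; group
  have hh' : h = Q * jmat F * Q⁻¹ := by rw [← hQ]; group
  rw [hg', hh']
  group

end Cfsg.Agent.S2329
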