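import Cfsg.Statements.S2330

set_option autoImplicit false
open Cfsg

namespace Cfsg.Agent.S2330

open Matrix

variable {F : Type*} [Field F]

/-- scalar matrix as an element of GL₂ -/
noncomputable def sc (a : Fˣ) : Matrix.GeneralLinearGroup (Fin 2) F :=
  Matrix.GeneralLinearGroup.mkOfDetNeZero !![(a : F), 0; 0, (a : F)] (by simp [Matrix.det_fin_two])

/-- companion matrix as an element of GL₂ -/
noncomputable def comp (t : F) (d : Fˣ) : Matrix.GeneralLinearGroup (Fin 2) F :=
  Matrix.GeneralLinearGroup.mkOfDetNeZero !![0, -(d : F); 1, t] (by simp [Matrix.det_fin_two])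

theorem sc_val (a : Fˣ) : ((sc a : Matrix.GeneralLinearGroup (Fin 2) F) : Matrix (Fin 2) (Fin 2) F) = !![(a : F), 0; 0, (a : F)] := rfl

theorem comp_val (t : F) (d : Fˣ) : ((comp t d : Matrix.GeneralLinearGroup (Fin 2) F) : Matrix (Fin 2) (Fin 2) F) = !![0, -(d : F); 1, t] := rfl

theorem conj_sc (a : Fˣ) (c : Matrix.GeneralLinearGroup (Fin 2) F) : c * sc a * c⁻¹ = sc a := by
  have h : sc a * c = c * sc a := by
    apply Units.ext
    have e : ((c : Matrix.GeneralLinearGroup (Fin 2) F) : Matrix (Fin 2) (Fin 2) F) =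
        !![(c : Matrix (Fin 2) (Fin 2) F) 0 0, (c : Matrix (Fin 2) (Fin 2) F) 0 1; (c : Matrix (Fin 2) (Fin 2) F) 1 0, (c : Matrix (Fin 2) (Fin 2) F) 1 1] :=
      Matrix.eta_fin_two _
    rw [Units.val_mul, Units.val_mul, sc_val, e]
    ext i j
    fin_cases i <;> fin_cases j <;> simp [Matrix.mul_apply, Fin.sum_univ_two] <;> ring1
  rw [← h]
  group

/-- every element of GL₂ is conjugate to a scalar or to the companion matrix of its (trace, det) -/
theorem exists_conj (g : Matrix.GeneralLinearGroup (Fin 2) F) :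
    (∃ a : Fˣ, g = sc a) ∨ ∃ (t : F) (d : Fˣ) (P : Matrix.GeneralLinearGroup (Fin 2) F), g * P = P * comp t d := by
  set A : Matrix (Fin 2) (Fin 2) F := (g : Matrix (Fin 2) (Fin 2) F) with hA
  obtain ⟨a, b, c, d, hN⟩ : ∃ a b c d : F, A = !![a, b; c, d] :=
    ⟨A 0 0, A 0 1, A 1 0, A 1 1, Matrix.eta_fin_two A⟩
  have hdet : A.det ≠ 0 := by
    have := Matrix.GeneralLinearGroup.det_ne_zero g
    simpa [hA] using this
  rw [hN, Matrix.det_fin_two_of] at hdet
  by_cases hc : c = 0
  · by_cases hb : b = 0
    · by_cases had : a = d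
      · left
        subst hc hb had
        have ha : a ≠ 0 := by
          intro h
          apply hdet
          rw [h]; ring
        refine ⟨Units.mk0 a ha, ?_⟩
        apply Units.ext
        rw [sc_val]
        exact hN
      · right
        refine ⟨a + d, Units.mk0 (a * d - b * c) hdet,
          Matrix.GeneralLinearGroup.mkOfDetNeZero !![1, a; 1, d] (by
            rw [Matrix.det_fin_two_of]
            intro h
            apply had
            linear_combination -h), ?_⟩
        apply Units.ext
        change A * !![1, a; 1, d] = !![1, a; 1, d] * !![0, -(a * d - b * c); 1, a + d]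
        rw [hN, hc, hb]
        ext i j
        fin_cases i <;> fin_cases j <;> simp [Matrix.mul_apply, Fin.sum_univ_two] <;> ring1
    · right
      refine ⟨a + d, Units.mk0 (a * d - b * c) hdet,
        Matrix.GeneralLinearGroup.mkOfDetNeZero !![0, b; 1, d] (by
          rw [Matrix.det_fin_two_of]
          simpa using hb), ?_⟩
      apply Units.ext
      change A * !![0, b; 1, d] = !![0, b; 1, d] * !![0, -(a * d - b * c); 1, a + d]
      rw [hN, hc]
      ext i j
      fin_cases i <;> fin_cases j <;> simp [Matrix.mul_apply, Fin.sum_univ_two] <;> ring1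
  · right
    refine ⟨a + d, Units.mk0 (a * d - b * c) hdet,
      Matrix.GeneralLinearGroup.mkOfDetNeZero !![1, a; 0, c] (by
        rw [Matrix.det_fin_two_of]
        simpa using hc), ?_⟩
    apply Units.ext
    change A * !![1, a; 0, c] = !![1, a; 0, c] * !![0, -(a * d - b * c); 1, a + d]
    rw [hN]
    ext i j
    fin_cases i <;> fin_cases j <;> simp [Matrix.mul_apply, Fin.sum_univ_two] <;> ring1

/-- the map from parameters to conjugacy classes -/
noncomputable def psi : Fˣ ⊕ (F × Fˣ) → ConjClasses (Matrix.GeneralLinearGroup (Fin 2) F)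
  | Sum.inl a => ConjClasses.mk (sc a)
  | Sum.inr td => ConjClasses.mk (comp td.1 td.2)

theorem trace_conj (c g : Matrix.GeneralLinearGroup (Fin 2) F) :
    ((c * g * c⁻¹ : Matrix.GeneralLinearGroup (Fin 2) F) : Matrix (Fin 2) (Fin 2) F).trace = (g : Matrix (Fin 2) (Fin 2) F).trace := by
  rw [Units.val_mul, Units.val_mul]
  exact Matrix.trace_units_conj c _

theorem det_conj (c g : Matrix.GeneralLinearGroup (Fin 2) F) :
    ((c * g * c⁻¹ : Matrix.GeneralLinearGroup (Fin 2) F) : Matrix (Fin 2) (Fin 2) F).det = (g : Matrix (Fin 2) (Fin 2) F).det := by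
  rw [Units.val_mul, Units.val_mul]
  exact Matrix.det_units_conj c _

theorem psi_injective : Function.Injective (psi (F := F)) := by
  rintro (a | ⟨t, d⟩) (a' | ⟨t', d'⟩) h
  · simp only [psi, ConjClasses.mk_eq_mk_iff_isConj, isConj_iff] at h
    obtain ⟨c, hc⟩ := h
    rw [conj_sc] at hc
    have := congrArg (fun x : Matrix.GeneralLinearGroup (Fin 2) F => (x : Matrix (Fin 2) (Fin 2) F) 0 0) hc
    simp [sc_val] at this
    rw [Units.ext this]
  · exfalso
    simp only [psi, ConjClasses.mk_eq_mk_iff_isConj, isConj_iff] at h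
    obtain ⟨c, hc⟩ := h
    rw [conj_sc] at hc
    have := congrArg (fun x : Matrix.GeneralLinearGroup (Fin 2) F => (x : Matrix (Fin 2) (Fin 2) F) 1 0) hc
    simp [sc_val, comp_val] at this
  · exfalso
    simp only [psi, ConjClasses.mk_eq_mk_iff_isConj] at h
    have h := h.symm
    rw [isConj_iff] at h
    obtain ⟨c, hc⟩ := h
    rw [conj_sc] at hc
    have := congrArg (fun x : Matrix.GeneralLinearGroup (Fin 2) F => (x : Matrix (Fin 2) (Fin 2) F) 1 0) hc
    simp [sc_val, comp_val] at this
  · simp only [psi, ConjClasses.mk_eq_mk_iff_isConj, isConj_iff] at h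
    obtain ⟨c, hc⟩ := h
    have h1 := trace_conj c (comp t d)
    have h2 := det_conj c (comp t d)
    rw [hc] at h1 h2
    simp [comp_val, Matrix.trace_fin_two, Matrix.det_fin_two] at h1 h2
    have : d = d' := Units.ext h2.symm
    rw [h1, this]

theorem psi_surjective : Function.Surjective (psi (F := F)) := by
  intro x
  obtain ⟨g, rfl⟩ := ConjClasses.exists_rep x
  rcases exists_conj g with ⟨a, rfl⟩ | ⟨t, d, P, hP⟩
  · exact ⟨Sum.inl a, rfl⟩
  · refine ⟨Sum.inr (t, d), ?_⟩
    simp only [psi, ConjClasses.mk_eq_mk_iff_isConj, isConj_iff]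
    refine ⟨P, ?_⟩
    rw [← hP]
    group

/-- Over a finite field with q elements, the general linear group GL₂ has exactly q² − 1 conjugacy classes. -/
theorem result {F : Type*} [Field F] [Fintype F] :
    Nat.card (ConjClasses (Matrix.GeneralLinearGroup (Fin 2) F)) = Fintype.card F ^ 2 - 1 := by
  classical
  rw [← Nat.card_congr (Equiv.ofBijective psi ⟨psi_injective, psi_surjective⟩)]
  rw [Nat.card_eq_fintype_card, Fintype.card_sum, Fintype.card_prod, Fintype.card_units]
  have hq : 1 ≤ Fintype.card F := Fintype.card_pos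
  obtain ⟨k, hk⟩ : ∃ k, Fintype.card F = k + 1 := ⟨Fintype.card F - 1, by omega⟩
  rw [hk]
  simp only [Nat.add_sub_cancel]
  have : (k + 1) ^ 2 = k + (k + 1) * k + 1 := by ring
  rw [this, Nat.add_sub_cancel]

end Cfsg.Agent.S2330
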