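import Cfsg.Statements.S2331
import Cfsg.Agent.Helper12.SL2

set_option autoImplicit false
open Cfsg

namespace Cfsg.Agent.S2331

open Matrix Cfsg.Agent.Helper12

variable {F : Type*} [Field F]

/-- parametrisation of the classes -/
noncomputable def psi : Option F → ConjClasses (Matrix.SpecialLinearGroup (Fin 2) F)
  | none => ConjClasses.mk 1
  | some t => ConjClasses.mk (sl2Comp t 1 one_ne_zero)

theorem psi_injective : Function.Injective (psi (F := F)) := by
  rintro (_ | t) (_ | t') h
  · rfl
  · exfalso
    simp only [psi, ConjClasses.mk_eq_mk_iff_isConj, isConj_one_right] at h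
    have := congrArg (fun x : Matrix.SpecialLinearGroup (Fin 2) F => (x : Matrix (Fin 2) (Fin 2) F) 1 0) h
    simp at this
  · exfalso
    simp only [psi, ConjClasses.mk_eq_mk_iff_isConj, isConj_one_left] at h
    have := congrArg (fun x : Matrix.SpecialLinearGroup (Fin 2) F => (x : Matrix (Fin 2) (Fin 2) F) 1 0) h
    simp at this
  · simp only [psi, ConjClasses.mk_eq_mk_iff_isConj, isConj_iff] at h
    obtain ⟨c, hc⟩ := h
    have h1 := sl2_trace_conj c (sl2Comp t 1 one_ne_zero)
    rw [hc] at h1
    simp [Matrix.trace_fin_two] at h1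
    rw [h1]

theorem psi_surjective [Fintype F] [CharP F 2] : Function.Surjective (psi (F := F)) := by
  intro x
  obtain ⟨g, rfl⟩ := ConjClasses.exists_rep x
  rcases sl2_exists_conj g with ⟨h01, h10, h00⟩ | ⟨s, hs, P, hP⟩
  · refine ⟨none, ?_⟩
    have hdet := g.det_coe
    rw [Matrix.det_fin_two, h01, ← h00] at hdet
    have h2 : (2 : F) = 0 := CharP.ofNat_eq_zero F 2
    have ha : (g : Matrix (Fin 2) (Fin 2) F) 0 0 = 1 := by
      have : ((g : Matrix (Fin 2) (Fin 2) F) 0 0 - 1) ^ 2 = 0 := by
        linear_combination hdet - (g : Matrix (Fin 2) (Fin 2) F) 0 0 * h2 + h2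
      have := pow_eq_zero_iff (two_ne_zero) |>.mp this
      linear_combination this
    have : g = 1 := by
      apply Matrix.SpecialLinearGroup.ext
      intro i j
      fin_cases i <;> fin_cases j <;> simp [h01, h10, ha, ← h00]
    rw [this]
    rfl
  · refine ⟨some (g : Matrix (Fin 2) (Fin 2) F).trace, ?_⟩
    simp only [psi, ConjClasses.mk_eq_mk_iff_isConj]
    obtain ⟨r, hr⟩ := FiniteField.isSquare_of_char_two (ringChar.eq F 2) s
    have h1 : IsConj (sl2Comp (g : Matrix (Fin 2) (Fin 2) F).trace s hs) g := by
      rw [isConj_iff]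
      refine ⟨P, ?_⟩
      rw [← hP]
      group
    have h2 : IsConj (sl2Comp (g : Matrix (Fin 2) (Fin 2) F).trace 1 one_ne_zero)
        (sl2Comp (g : Matrix (Fin 2) (Fin 2) F).trace s hs) := by
      have hr0 : r ≠ 0 := by
        rintro rfl
        apply hs
        simpa using hr
      apply sl2Comp_isConj_of_norm _ 1 s one_ne_zero hs (r⁻¹) 0
      rw [hr]
      field_simp
      ring
    exact h2.trans h1

/-- Over a finite field with q elements, q even, the special linear group SL₂ has exactly q + 1 conjugacy classes. -/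
theorem result {F : Type*} [Field F] [Fintype F] [CharP F 2] :
    Nat.card (ConjClasses (Matrix.SpecialLinearGroup (Fin 2) F)) = Fintype.card F + 1 := by
  classical
  rw [← Nat.card_congr (Equiv.ofBijective psi ⟨psi_injective, psi_surjective⟩)]
  rw [Nat.card_eq_fintype_card, Fintype.card_option]

end Cfsg.Agent.S2331
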