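import Cfsg.Statements.S2365
import Cfsg.Agent.Helper14.HermCount
import Cfsg.Agent.S0278
import Cfsg.Agent.S0279

set_option autoImplicit false
open Cfsg

namespace Cfsg.Agent.S2365

open Matrix Cfsg.Agent.Helper8.SULag Cfsg.Agent.Helper14.HermCount

theorem dvd_card_SU {F : Type*} [Field F] [Fintype F] {q : ℕ} (hF : Fintype.card F = q ^ 2)
    (k : ℕ) (hk : 2 ≤ k) (s : ℕ) [Fact s.Prime]
    (h : s ∣ q ∨ ∃ i, 1 ≤ i ∧ i ≤ k ∧ (-(q : ZMod s)) ^ i = 1) :
    s ∣ Nat.card (Cfsg.SU k F q) := by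
  have hsp : s.Prime := Fact.out
  have hq2 : 2 ≤ q := q_two_le hF
  have hcard := Cfsg.Agent.S0278.result hF k (by omega)
  obtain ⟨k', rfl⟩ : ∃ k', k = k' + 1 := ⟨k - 1, by omega⟩
  have h00 : Even 0 := ⟨0, rfl⟩
  rw [Finset.prod_range_succ', if_pos h00, zero_add, pow_one] at hcard
  have hcard' : Nat.card (Cfsg.SU (k' + 1) F q) = q ^ ((k' + 1) * (k' + 1 - 1) / 2)
      * ∏ i ∈ Finset.range k',
        (if Even (i + 1) then q ^ (i + 1 + 1) + 1 else q ^ (i + 1 + 1) - 1) := by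
    apply Nat.eq_of_mul_eq_mul_left (by omega : 0 < q + 1)
    rw [hcard]
    ring
  rw [hcard']
  rcases h with h | ⟨i, hi1, hik, hi⟩
  · apply Dvd.dvd.mul_right
    apply dvd_pow h
    have h1 : 2 ≤ (k' + 1) * (k' + 1 - 1) := by
      rw [Nat.add_sub_cancel]
      nlinarith
    omega
  · apply Dvd.dvd.mul_left
    obtain ⟨i₂, hi₂1, hi₂k, hi₂⟩ : ∃ i₂, 2 ≤ i₂ ∧ i₂ ≤ k' + 1 ∧ (-(q : ZMod s)) ^ i₂ = 1 := by
      by_cases h1 : i = 1
      · refine ⟨2, le_refl _, by omega, ?_⟩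
        rw [h1, pow_one] at hi
        rw [hi, one_pow]
      · exact ⟨i, by omega, hik, hi⟩
    obtain ⟨i₃, rfl⟩ : ∃ i₃, i₂ = i₃ + 1 + 1 := ⟨i₂ - 2, by omega⟩
    refine Dvd.dvd.trans ?_ (Finset.dvd_prod_of_mem _ (Finset.mem_range.mpr (by omega : i₃ < k')))
    rw [neg_pow] at hi₂
    split_ifs with hev
    · have hodd : Odd (i₃ + 1 + 1) := hev.add_one
      rw [hodd.neg_one_pow] at hi₂
      rw [← ZMod.natCast_eq_zero_iff]
      push_cast
      linear_combination -hi₂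
    · have hev2 : Even (i₃ + 1 + 1) := by
        rw [Nat.not_even_iff_odd] at hev
        exact hev.add_one
      rw [hev2.neg_one_pow, one_mul] at hi₂
      rw [← ZMod.natCast_eq_zero_iff, Nat.cast_sub (Nat.one_le_pow _ _ (by omega))]
      push_cast
      rw [hi₂, sub_self]

theorem ulin {K : Type*} [Field K] [Fintype K] {q : ℕ} (hK : Fintype.card K = q ^ 2) (p : ℕ)
    [Fact p.Prime] [CharP K p] (s : ℕ) [Fact s.Prime] (hsp : s ≠ p) (m : ℕ) (hm : 4 ≤ m)
    (he : m - 1 ≤ orderOf (-(q : ZMod s)))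
    (X U : Matrix (Fin m) (Fin m) K)
    (hXu : ∀ v w, hermForm m K q (X *ᵥ v) (X *ᵥ w) = hermForm m K q v w)
    (hUu : ∀ v w, hermForm m K q (U *ᵥ v) (U *ᵥ w) = hermForm m K q v w)
    (hXs : X ^ s = 1) (hX1 : X ≠ 1) (hU1 : U ≠ 1) (j : ℕ) (hUp : U ^ (p ^ j) = 1)
    (hcomm : X * U = U * X) : False := by
  classical
  have hqf := qf_of_card hK
  have hpp : p.Prime := Fact.out
  have hsp' : s.Prime := Fact.out
  haveI : NeZero m := ⟨by omega⟩
  have hsq : ¬ s ∣ q := by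
    intro h
    obtain ⟨f, -, hf⟩ := FiniteField.card K p
    have : s ∣ p ^ (f : ℕ) := by
      rw [← hf, hK]
      exact dvd_pow h two_ne_zero
    exact hsp ((Nat.prime_dvd_prime_iff_eq hsp' hpp).mp (hsp'.dvd_of_dvd_pow this))
  have hsK : (s : K) ≠ 0 := by
    intro h
    rw [CharP.cast_eq_zero_iff K p] at h
    exact hsp ((Nat.prime_dvd_prime_iff_eq hpp hsp').mp h).symm
  have hVcard : Fintype.card (Fin m → K) = q ^ (2 * m) := by
    rw [Fintype.card_fun, Fintype.card_fin, hK, ← pow_mul]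
  obtain ⟨E, hE⟩ : ∃ E : Submodule K (Fin m → K),
      E = LinearMap.ker (Matrix.toLin' (X - 1)) := ⟨_, rfl⟩
  have hEmem : ∀ v, v ∈ E ↔ X *ᵥ v = v := by
    intro v
    rw [hE, LinearMap.mem_ker, Matrix.toLin'_apply, Matrix.sub_mulVec, Matrix.one_mulVec,
      sub_eq_zero]
  have hs1 : 1 ≤ s := hsp'.one_lt.le
  have hXXi : X * X ^ (s - 1) = 1 := by rw [← pow_succ', Nat.sub_add_cancel hs1, hXs]
  have hXsurj : ∀ w, X *ᵥ ((X ^ (s - 1)) *ᵥ w) = w := fun w => by
    rw [Matrix.mulVec_mulVec, hXXi, Matrix.one_mulVec]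
  have hL : ∀ y z : Fin m → K, y = X *ᵥ z - z → X *ᵥ y = y → y = 0 := by
    intro y z hy hXy
    have hXz : X *ᵥ z = z + y := by rw [hy]; abel
    have hk : ∀ k : ℕ, (X ^ k) *ᵥ z = z + (k : K) • y := by
      intro k
      induction k with
      | zero => simp
      | succ k ih =>
        rw [pow_succ', ← Matrix.mulVec_mulVec, ih, Matrix.mulVec_add, Matrix.mulVec_smul, hXy,
          hXz]
        push_cast
        rw [add_smul, one_smul]
        abel
    have h1 := hk s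
    rw [hXs, Matrix.one_mulVec] at h1
    have h2 : (s : K) • y = 0 := by
      have : z + (s : K) • y = z + 0 := by rw [add_zero]; exact h1.symm
      exact add_left_cancel this
    rcases smul_eq_zero.mp h2 with h | h
    · exact absurd h hsK
    · exact h
  have hrad1 : ∀ z : Fin m → K,
      (∀ w, hermForm m K q (X *ᵥ z - z) (X *ᵥ w - w) = 0) ↔ z ∈ E := by
    intro z
    rw [hEmem]
    constructor
    · intro h
      have h1 : ∀ w, hermForm m K q (X *ᵥ z - z) (X *ᵥ w)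
          = hermForm m K q (X *ᵥ z - z) w := by
        intro w
        have := h w
        rw [h_sub_right hqf, sub_eq_zero] at this
        exact this
      have h2 : X *ᵥ (X *ᵥ z - z) - (X *ᵥ z - z) = 0 := by
        apply h_nondeg hqf
        intro w'
        rw [h_sub_left]
        have e1 : hermForm m K q (X *ᵥ (X *ᵥ z - z)) w'
            = hermForm m K q (X *ᵥ z - z) ((X ^ (s - 1)) *ᵥ w') := by
          conv_lhs => rw [← hXsurj w']
          rw [hXu]
        have e2 : hermForm m K q (X *ᵥ z - z) w'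
            = hermForm m K q (X *ᵥ z - z) ((X ^ (s - 1)) *ᵥ w') := by
          conv_lhs => rw [← hXsurj w']
          rw [h1]
        rw [e1, e2, sub_self]
      have := hL (X *ᵥ z - z) z rfl (sub_eq_zero.mp h2)
      exact sub_eq_zero.mp this
    · intro h w
      rw [h, sub_self, h_zero_left]
  obtain ⟨dE, hdE⟩ : ∃ dE, dE = Module.finrank K E := ⟨_, rfl⟩
  have hcardE : Nat.card {z : Fin m → K //
      ∀ w, hermForm m K q (X *ᵥ z - z) (X *ᵥ w - w) = 0} = q ^ (2 * dE) := by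
    have e : {z : Fin m → K // ∀ w, hermForm m K q (X *ᵥ z - z) (X *ᵥ w - w) = 0} ≃ E :=
      Equiv.subtypeEquivRight (fun z => hrad1 z)
    rw [Nat.card_congr e, Module.natCard_eq_pow_finrank (K := K) (V := E),
      Nat.card_eq_fintype_card, hK, ← hdE, ← pow_mul]
  have hXiter : ∀ (k : ℕ) (v : Fin m → K),
      (fun v : Fin m → K => X *ᵥ v)^[k] v = (X ^ k) *ᵥ v := by
    intro k
    induction k with
    | zero => intro v; simp
    | succ k ih =>
      intro v
      rw [Function.iterate_succ_apply, ih, Matrix.mulVec_mulVec, ← pow_succ]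
  have hXiter_s : (fun v : Fin m → K => X *ᵥ v)^[s] = id := by
    funext v
    rw [hXiter, hXs, Matrix.one_mulVec]
    rfl
  obtain ⟨hdEm, h1⟩ := herm_count hK s hsq m dE hVcard
    (fun v w => hermForm m K q (X *ᵥ v - v) (X *ᵥ w - w))
    (fun u v w => by
      show hermForm m K q (X *ᵥ (u + v) - (u + v)) (X *ᵥ w - w)
        = hermForm m K q (X *ᵥ u - u) (X *ᵥ w - w) + hermForm m K q (X *ᵥ v - v) (X *ᵥ w - w)
      rw [Matrix.mulVec_add, ← h_add_left]
      congr 1
      abel)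
    (fun c u w => by
      show hermForm m K q (X *ᵥ (c • u) - c • u) (X *ᵥ w - w)
        = c * hermForm m K q (X *ᵥ u - u) (X *ᵥ w - w)
      rw [Matrix.mulVec_smul, ← smul_sub, h_smul_left])
    (fun u v => by
      show hermForm m K q (X *ᵥ v - v) (X *ᵥ u - u)
        = (hermForm m K q (X *ᵥ u - u) (X *ᵥ v - v)) ^ q
      rw [← frob_apply hqf, h_conj hqf])
    hcardE (fun v => X *ᵥ v) hXiter_s
    (fun u v => by
      show hermForm m K q (X *ᵥ (X *ᵥ u) - X *ᵥ u) (X *ᵥ (X *ᵥ v) - X *ᵥ v)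
        = hermForm m K q (X *ᵥ u - u) (X *ᵥ v - v)
      rw [← Matrix.mulVec_sub, ← Matrix.mulVec_sub, hXu])
    (fun v hv => by
      show hermForm m K q (X *ᵥ v - v) (X *ᵥ v - v) = 0
      rw [hv, sub_self, h_zero_left])
  have hEtop : E ≠ ⊤ := by
    intro h
    apply hX1
    apply Matrix.toLin'.injective
    apply LinearMap.ext
    intro v
    have hv : v ∈ E := by rw [h]; exact Submodule.mem_top
    rw [Matrix.toLin'_apply, Matrix.toLin'_apply, (hEmem v).mp hv, Matrix.one_mulVec]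
  have hdElt : dE < m := by
    rw [hdE]
    have := Submodule.finrank_lt hEtop
    rwa [Module.finrank_fin_fun] at this
  obtain ⟨e, hee⟩ : ∃ e, e = orderOf (-(q : ZMod s)) := ⟨_, rfl⟩
  rw [← hee] at he
  have hd1 : e ∣ m - dE := by
    rw [hee]
    exact orderOf_dvd_of_pow_eq_one h1
  have hle1 : e ≤ m - dE := Nat.le_of_dvd (by omega) hd1
  have hdE1 : dE ≤ 1 := by omega
  obtain ⟨M, hM0, hXM, hMnil, hMskew⟩ : ∃ M : Matrix (Fin m) (Fin m) K, M ≠ 0 ∧ X * M = M * X ∧
      M ^ (p ^ j) = 0 ∧ ∀ v w, hermForm m K q (M *ᵥ v) w = - hermForm m K q v (M *ᵥ w) := by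
    have hpj : 1 ≤ p ^ j := Nat.one_le_pow _ _ hpp.pos
    obtain ⟨Ui, hUi⟩ : ∃ Ui, Ui = U ^ (p ^ j - 1) := ⟨_, rfl⟩
    have hUUi : U * Ui = 1 := by rw [hUi, ← pow_succ', Nat.sub_add_cancel hpj, hUp]
    have hUiU : Ui * U = 1 := by rw [hUi, ← pow_succ, Nat.sub_add_cancel hpj, hUp]
    have hXUi : X * Ui = Ui * X := by
      rw [hUi]
      exact ((show Commute X U from hcomm).pow_right _).eq
    have hU1' : ∀ v w, hermForm m K q (U *ᵥ v) w = hermForm m K q v (Ui *ᵥ w) := by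
      intro v w
      have := hUu v (Ui *ᵥ w)
      rw [Matrix.mulVec_mulVec, hUUi, Matrix.one_mulVec] at this
      exact this
    have hU2' : ∀ v w, hermForm m K q (Ui *ᵥ v) w = hermForm m K q v (U *ᵥ w) := by
      intro v w
      have := hUu (Ui *ᵥ v) w
      rw [Matrix.mulVec_mulVec, hUUi, Matrix.one_mulVec] at this
      exact this.symm
    by_cases hUU : U * U = 1
    · have hp2 : p = 2 := by
        by_contra hne
        have hodd : Odd (p ^ j) := (hpp.odd_of_ne_two hne).pow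
        obtain ⟨k, hk⟩ := hodd
        apply hU1
        have : U ^ (p ^ j) = U := by rw [hk, pow_succ, pow_mul, sq, hUU, one_pow, one_mul]
        rw [← this, hUp]
      have h2K : (2 : K) = 0 := by
        have := CharP.cast_eq_zero K p
        rw [hp2] at this
        exact_mod_cast this
      have hUiU' : Ui = U := by
        calc Ui = Ui * (U * U) := by rw [hUU, mul_one]
          _ = (Ui * U) * U := by rw [mul_assoc]
          _ = U := by rw [hUiU, one_mul]
      refine ⟨U - 1, fun h => hU1 (sub_eq_zero.mp h), ?_, ?_, ?_⟩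
      · rw [mul_sub, sub_mul, mul_one, one_mul, hcomm]
      · rw [sub_pow_char_pow_of_commute p j (Commute.one_right U), hUp, one_pow, sub_self]
      · intro v w
        have e1 : hermForm m K q ((U - 1) *ᵥ v) w = hermForm m K q v ((U - 1) *ᵥ w) := by
          rw [Matrix.sub_mulVec, Matrix.sub_mulVec, Matrix.one_mulVec, Matrix.one_mulVec,
            h_sub_left, h_sub_right hqf, hU1', hUiU']
        rw [e1]
        apply eq_neg_of_add_eq_zero_left
        rw [← two_mul, h2K, zero_mul]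
    · refine ⟨U - Ui, ?_, ?_, ?_, ?_⟩
      · intro h
        apply hUU
        have h1 : U = Ui := sub_eq_zero.mp h
        calc U * U = U * Ui := by rw [← h1]
          _ = 1 := hUUi
      · rw [mul_sub, sub_mul, hcomm, hXUi]
      · have hcUUi : Commute U Ui := by
          rw [hUi]
          exact Commute.pow_right (Commute.refl U) _
        rw [sub_pow_char_pow_of_commute p j hcUUi, hUp, hUi, ← pow_mul, mul_comm, pow_mul, hUp,
          one_pow, sub_self]
      · intro v w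
        rw [Matrix.sub_mulVec, Matrix.sub_mulVec, h_sub_left, h_sub_right hqf, hU1', hU2']
        ring
  obtain ⟨η, hη⟩ := hqf.ex
  obtain ⟨θ, hθ⟩ : ∃ θ : K, θ = η - η ^ q := ⟨_, rfl⟩
  have hθ0 : θ ≠ 0 := by
    rw [hθ]
    intro h
    exact hη (sub_eq_zero.mp h).symm
  have hθq : θ ^ q = -θ := by
    have h := map_sub (frob hqf) η (η ^ q)
    rw [frob_apply, frob_apply, frob_apply, hqf.inv] at h
    rw [hθ, h]
    ring
  have hMk : ∀ (k : ℕ) (v : Fin m → K), X *ᵥ ((M ^ k) *ᵥ v) = (M ^ k) *ᵥ (X *ᵥ v) := by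
    intro k v
    rw [Matrix.mulVec_mulVec, Matrix.mulVec_mulVec, ((show Commute X M from hXM).pow_right k).eq]
  have hMX1 : ∀ v : Fin m → K, X *ᵥ (M *ᵥ v) = M *ᵥ (X *ᵥ v) := by
    intro v
    have := hMk 1 v
    rw [pow_one] at this
    exact this
  have hME : ∀ v, v ∈ E → M *ᵥ v = 0 := by
    intro v hv
    by_cases hv0 : v = 0
    · rw [hv0, Matrix.mulVec_zero]
    have hMvE : M *ᵥ v ∈ E := by
      rw [hEmem] at hv ⊢
      rw [hMX1, hv]
    have hfr : Module.finrank K E ≤ 1 := by rw [← hdE]; exact hdE1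
    obtain ⟨g, hg⟩ := finrank_le_one_iff.mp hfr
    obtain ⟨a, ha⟩ := hg ⟨v, hv⟩
    obtain ⟨b, hb⟩ := hg ⟨M *ᵥ v, hMvE⟩
    have ha' : a • (g : Fin m → K) = v := congrArg Subtype.val ha
    have hb' : b • (g : Fin m → K) = M *ᵥ v := congrArg Subtype.val hb
    have ha0 : a ≠ 0 := by
      rintro rfl
      rw [zero_smul] at ha'
      exact hv0 ha'.symm
    have hc : M *ᵥ v = (b * a⁻¹) • v := by
      rw [← hb', ← ha', smul_smul, mul_assoc, inv_mul_cancel₀ ha0, mul_one]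
    have hck : ∀ k : ℕ, (M ^ k) *ᵥ v = (b * a⁻¹) ^ k • v := by
      intro k
      induction k with
      | zero => simp
      | succ k ih =>
        rw [pow_succ, ← Matrix.mulVec_mulVec, hc, Matrix.mulVec_smul, ih, smul_smul, ← pow_succ']
    have h0 := hck (p ^ j)
    rw [hMnil, Matrix.zero_mulVec] at h0
    rcases smul_eq_zero.mp h0.symm with h | h
    · have h3 : b * a⁻¹ = 0 := (pow_eq_zero_iff (pow_pos hpp.pos j).ne').mp h
      rw [hc, h3, zero_smul]
    · exact absurd h hv0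
  obtain ⟨Km, hKm⟩ : ∃ Km : Submodule K (Fin m → K),
      Km = LinearMap.ker (Matrix.toLin' M) := ⟨_, rfl⟩
  have hKmem : ∀ v, v ∈ Km ↔ M *ᵥ v = 0 := by
    intro v
    rw [hKm, LinearMap.mem_ker, Matrix.toLin'_apply]
  have hrad2 : ∀ z : Fin m → K, (∀ w, θ * hermForm m K q (M *ᵥ z) w = 0) ↔ z ∈ Km := by
    intro z
    rw [hKmem]
    constructor
    · intro h
      apply h_nondeg hqf
      intro w
      rcases mul_eq_zero.mp (h w) with h' | h'
      · exact absurd h' hθ0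
      · exact h'
    · intro h w
      rw [h, h_zero_left, mul_zero]
  obtain ⟨dK, hdK⟩ : ∃ dK, dK = Module.finrank K Km := ⟨_, rfl⟩
  have hcardK : Nat.card {z : Fin m → K // ∀ w, θ * hermForm m K q (M *ᵥ z) w = 0}
      = q ^ (2 * dK) := by
    have e : {z : Fin m → K // ∀ w, θ * hermForm m K q (M *ᵥ z) w = 0} ≃ Km :=
      Equiv.subtypeEquivRight (fun z => hrad2 z)
    rw [Nat.card_congr e, Module.natCard_eq_pow_finrank (K := K) (V := Km),
      Nat.card_eq_fintype_card, hK, ← hdK, ← pow_mul]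
  obtain ⟨hdKm, h2⟩ := herm_count hK s hsq m dK hVcard
    (fun v w => θ * hermForm m K q (M *ᵥ v) w)
    (fun u v w => by
      show θ * hermForm m K q (M *ᵥ (u + v)) w
        = θ * hermForm m K q (M *ᵥ u) w + θ * hermForm m K q (M *ᵥ v) w
      rw [Matrix.mulVec_add, h_add_left, mul_add])
    (fun c u w => by
      show θ * hermForm m K q (M *ᵥ (c • u)) w = c * (θ * hermForm m K q (M *ᵥ u) w)
      rw [Matrix.mulVec_smul, h_smul_left]
      ring)
    (fun u v => by
      show θ * hermForm m K q (M *ᵥ v) u = (θ * hermForm m K q (M *ᵥ u) v) ^ q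
      rw [mul_pow, hθq, ← frob_apply hqf (hermForm m K q (M *ᵥ u) v), h_conj hqf, hMskew v u]
      ring)
    hcardK (fun v => X *ᵥ v) hXiter_s
    (fun u v => by
      show θ * hermForm m K q (M *ᵥ (X *ᵥ u)) (X *ᵥ v) = θ * hermForm m K q (M *ᵥ u) v
      rw [← hMX1, hXu])
    (fun v hv => by
      show θ * hermForm m K q (M *ᵥ v) v = 0
      rw [hME v ((hEmem v).mpr hv), h_zero_left, mul_zero])
  have hd2 : e ∣ m - dK := by
    rw [hee]
    exact orderOf_dvd_of_pow_eq_one h2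
  have hEK : E < Km := by
    refine lt_of_le_of_ne (fun v hv => (hKmem v).mpr (hME v hv)) ?_
    intro hEq
    obtain ⟨v₁, hv₁⟩ : ∃ v₁ : Fin m → K, X *ᵥ v₁ - v₁ ≠ 0 := by
      by_contra hcon
      push_neg at hcon
      apply hEtop
      rw [eq_top_iff]
      intro v _
      rw [hEmem]
      exact sub_eq_zero.mp (hcon v)
    have hex : ∃ k, (M ^ k) *ᵥ (X *ᵥ v₁ - v₁) = 0 :=
      ⟨p ^ j, by rw [hMnil, Matrix.zero_mulVec]⟩
    have hk0 : Nat.find hex ≠ 0 := by
      intro h0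
      have := Nat.find_spec hex
      rw [h0, pow_zero, Matrix.one_mulVec] at this
      exact hv₁ this
    obtain ⟨k, hk⟩ : ∃ k, Nat.find hex = k + 1 := ⟨Nat.find hex - 1, by omega⟩
    have hwne : (M ^ k) *ᵥ (X *ᵥ v₁ - v₁) ≠ 0 := Nat.find_min hex (by omega : k < Nat.find hex)
    have hw0 : M *ᵥ ((M ^ k) *ᵥ (X *ᵥ v₁ - v₁)) = 0 := by
      have := Nat.find_spec hex
      rw [hk, pow_succ', ← Matrix.mulVec_mulVec] at this
      exact this
    have hwE : (M ^ k) *ᵥ (X *ᵥ v₁ - v₁) ∈ E := by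
      rw [hEq]
      exact (hKmem _).mpr hw0
    apply hwne
    have hform : (M ^ k) *ᵥ (X *ᵥ v₁ - v₁) = X *ᵥ ((M ^ k) *ᵥ v₁) - (M ^ k) *ᵥ v₁ := by
      rw [Matrix.mulVec_sub, hMk]
    exact hL _ ((M ^ k) *ᵥ v₁) hform ((hEmem _).mp hwE)
  have hlt : dE < dK := by
    rw [hdE, hdK]
    exact Submodule.finrank_lt_finrank_of_lt hEK
  have hKtop : Km ≠ ⊤ := by
    intro h
    apply hM0
    apply Matrix.toLin'.injective
    apply LinearMap.ext
    intro v
    have hv : v ∈ Km := by rw [h]; exact Submodule.mem_top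
    rw [Matrix.toLin'_apply, (hKmem v).mp hv, map_zero, LinearMap.zero_apply]
  have hdKlt : dK < m := by
    rw [hdK]
    have := Submodule.finrank_lt hKtop
    rwa [Module.finrank_fin_fun] at this
  have hle2 : e ≤ m - dK := Nat.le_of_dvd (by omega) hd2
  have hdE0 : dE = 0 := by omega
  have hem : e = m - 1 := by omega
  rw [hdE0, hem, Nat.sub_zero] at hd1
  have h3 : (m - 1) ∣ 1 := by
    have := Nat.dvd_sub hd1 (dvd_refl (m - 1))
    rwa [show m - (m - 1) = 1 by omega] at this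
  have := Nat.le_of_dvd one_pos h3
  omega


/-- Let q be a power of the prime p, F the field with q² elements, m ≥ 4, and let a, b be commuting elements of PSU(m, q) with a of order p. Then every prime divisor of the order of b divides the order of SU(m − 2, q). -/
theorem result {F : Type*} [Field F] [Fintype F] (p : ℕ) [Fact p.Prime] [CharP F p] (m q : ℕ) (hm : 4 ≤ m) (hF : Fintype.card F = q ^ 2)
    (a b : Cfsg.PSU m F q) (ha : orderOf a = p) (hab : Commute a b) :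
    (orderOf b).primeFactors ⊆ (Nat.card ↥(Cfsg.SU (m - 2) F q)).primeFactors := by
  classical
  intro s hs
  rw [Nat.mem_primeFactors] at hs ⊢
  obtain ⟨hsp, hsdvd, hb0⟩ := hs
  haveI := Fact.mk hsp
  have hpp : p.Prime := Fact.out
  have hqf := qf_of_card hF
  have hq2 : 2 ≤ q := q_two_le hF
  haveI : Finite (Matrix.SpecialLinearGroup (Fin (m - 2)) F) :=
    Finite.of_injective (fun A : Matrix.SpecialLinearGroup (Fin (m - 2)) F =>
      (A : Matrix (Fin (m - 2)) (Fin (m - 2)) F)) (fun a b h => Subtype.ext h)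
  have hcardne : Nat.card ↥(Cfsg.SU (m - 2) F q) ≠ 0 := Nat.card_pos.ne'
  refine ⟨hsp, ?_, hcardne⟩
  obtain ⟨f, -, hq⟩ := FiniteField.card F p
  have hpq : p ∣ q := by
    have : p ∣ q ^ 2 := by
      rw [← hF, hq]
      exact dvd_pow_self p f.pos.ne'
    exact hpp.dvd_of_dvd_pow this
  by_cases hsp' : s = p
  · apply dvd_card_SU hF (m - 2) (by omega) s
    left
    rw [hsp']
    exact hpq
  have hsq : ¬ s ∣ q := by
    intro h
    have : s ∣ p ^ (f : ℕ) := by
      rw [← hq, hF]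
      exact dvd_pow h two_ne_zero
    exact hsp' ((Nat.prime_dvd_prime_iff_eq hsp hpp).mp (hsp.dvd_of_dvd_pow this))
  have hq0 : (-(q : ZMod s)) ≠ 0 := by
    rw [Ne, neg_eq_zero, ZMod.natCast_eq_zero_iff]
    exact hsq
  obtain ⟨e, he⟩ : ∃ e, e = orderOf (-(q : ZMod s)) := ⟨_, rfl⟩
  have he1 : 1 ≤ e := by
    rw [he]
    have hs2 := hsp.two_le
    exact orderOf_pos_iff.mpr (isOfFinOrder_iff_pow_eq_one.mpr
      ⟨s - 1, by omega, ZMod.pow_card_sub_one_eq_one hq0⟩)
  by_cases hen : e ≤ m - 2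
  · apply dvd_card_SU hF (m - 2) (by omega) s
    right
    exact ⟨e, he1, hen, by rw [he]; exact pow_orderOf_eq_one _⟩
  exfalso
  have hege : m - 1 ≤ orderOf (-(q : ZMod s)) := by
    rw [← he]
    omega
  obtain ⟨b₁, hb₁⟩ : ∃ b₁, b₁ = b ^ (orderOf b / s) := ⟨_, rfl⟩
  have hb₁o : orderOf b₁ = s := by
    rw [hb₁]
    exact orderOf_pow_orderOf_div hb0 hsdvd
  have hab₁ : a * b₁ = b₁ * a := by
    rw [hb₁]
    exact (hab.pow_right _).eq
  obtain ⟨A, hA⟩ := QuotientGroup.mk_surjective a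
  obtain ⟨B, hB⟩ := QuotientGroup.mk_surjective b₁
  have hm1 : 1 ≤ m := by omega
  have hcs : ∀ z : Cfsg.SU m F q, z ∈ Subgroup.center (Cfsg.SU m F q) →
      ∃ μ : F, ((z : Matrix.SpecialLinearGroup (Fin m) F) : Matrix (Fin m) (Fin m) F)
        = μ • (1 : Matrix (Fin m) (Fin m) F) ∧ μ ^ m = 1 ∧ μ ^ (q + 1) = 1 := by
    intro z hz
    obtain ⟨μ, h1, h2, h3⟩ := Cfsg.Agent.S0279.center_scalar hF m hm1 z hz
    exact ⟨μ, by rw [h1, Matrix.smul_one_eq_diagonal], h2, h3⟩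
  have hnotc : ∀ z : Cfsg.SU m F q, z ∉ Subgroup.center (Cfsg.SU m F q) → ∀ c : F,
      c ^ (q + 1) = 1 →
      ((z : Matrix.SpecialLinearGroup (Fin m) F) : Matrix (Fin m) (Fin m) F)
        ≠ c • (1 : Matrix (Fin m) (Fin m) F) := by
    intro z hz c hc1 hc
    apply hz
    have hdet : c ^ m = 1 := by
      have h1 := (z : Matrix.SpecialLinearGroup (Fin m) F).det_coe
      rw [hc, Matrix.det_smul, Matrix.det_one, mul_one, Fintype.card_fin] at h1
      exact h1
    obtain ⟨z', hz', hz'm⟩ := Cfsg.Agent.S0279.scalar_mem m q c hdet hc1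
    have : z = z' := by
      apply Subtype.ext
      apply Subtype.ext
      rw [hc, hz'm, Matrix.smul_one_eq_diagonal]
    rw [this]
    exact hz'
  have hAp : A ^ p ∈ Subgroup.center (Cfsg.SU m F q) := by
    rw [← QuotientGroup.eq_one_iff, QuotientGroup.mk_pow, hA, ← ha, pow_orderOf_eq_one]
  have hAnc : A ∉ Subgroup.center (Cfsg.SU m F q) := by
    intro h
    have h1 : a = 1 := by
      rw [← hA]
      exact (QuotientGroup.eq_one_iff A).mpr h
    rw [h1, orderOf_one] at ha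
    exact hpp.one_lt.ne ha
  have hBs : B ^ s ∈ Subgroup.center (Cfsg.SU m F q) := by
    rw [← QuotientGroup.eq_one_iff, QuotientGroup.mk_pow, hB, ← hb₁o, pow_orderOf_eq_one]
  have hBnc : B ∉ Subgroup.center (Cfsg.SU m F q) := by
    intro h
    have h1 : b₁ = 1 := by
      rw [← hB]
      exact (QuotientGroup.eq_one_iff B).mpr h
    rw [h1, orderOf_one] at hb₁o
    exact hsp.one_lt.ne hb₁o
  obtain ⟨lam, hAl, hlam, hlamq⟩ := hcs _ hAp
  obtain ⟨nu, hBn, hnu, hnuq⟩ := hcs _ hBs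
  obtain ⟨Z, hZdef⟩ : ∃ Z, Z = (B * A)⁻¹ * (A * B) := ⟨_, rfl⟩
  have hZ : Z ∈ Subgroup.center (Cfsg.SU m F q) := by
    rw [hZdef, ← QuotientGroup.eq, QuotientGroup.mk_mul, QuotientGroup.mk_mul, hA, hB, hab₁]
  obtain ⟨zeta, hZz, -, -⟩ := hcs _ hZ
  obtain ⟨Am, hAm⟩ : ∃ Am : Matrix (Fin m) (Fin m) F,
      Am = ((A : Matrix.SpecialLinearGroup (Fin m) F) : Matrix (Fin m) (Fin m) F) := ⟨_, rfl⟩
  obtain ⟨Bm, hBm⟩ : ∃ Bm : Matrix (Fin m) (Fin m) F,
      Bm = ((B : Matrix.SpecialLinearGroup (Fin m) F) : Matrix (Fin m) (Fin m) F) := ⟨_, rfl⟩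
  have hApm : Am ^ p = lam • (1 : Matrix (Fin m) (Fin m) F) := by
    rw [hAm, ← hAl, Subgroup.coe_pow, Matrix.SpecialLinearGroup.coe_pow]
  have hBsm : Bm ^ s = nu • (1 : Matrix (Fin m) (Fin m) F) := by
    rw [hBm, ← hBn, Subgroup.coe_pow, Matrix.SpecialLinearGroup.coe_pow]
  have hABz : Am * Bm = zeta • (Bm * Am) := by
    have h1 : (B * A) * Z = A * B := by
      rw [hZdef]
      group
    have h2 := congrArg (fun M : Cfsg.SU m F q =>
      ((M : Matrix.SpecialLinearGroup (Fin m) F) : Matrix (Fin m) (Fin m) F)) h1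
    simp only [Subgroup.coe_mul, Matrix.SpecialLinearGroup.coe_mul] at h2
    rw [hZz, mul_smul_comm, mul_one] at h2
    rw [hAm, hBm]
    exact h2.symm
  have hAu : ∀ v w, hermForm m F q (Am *ᵥ v) (Am *ᵥ w) = hermForm m F q v w := by
    rw [hAm]
    exact A.2
  have hBu : ∀ v w, hermForm m F q (Bm *ᵥ v) (Bm *ᵥ w) = hermForm m F q v w := by
    rw [hBm]
    exact B.2
  have hscal : ∀ (c : F) (Mx : Matrix (Fin m) (Fin m) F), c ^ (q + 1) = 1 →
      (∀ v w, hermForm m F q (Mx *ᵥ v) (Mx *ᵥ w) = hermForm m F q v w) →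
      ∀ v w, hermForm m F q ((c⁻¹ • Mx) *ᵥ v) ((c⁻¹ • Mx) *ᵥ w) = hermForm m F q v w := by
    intro c Mx hc hMx v w
    rw [Matrix.smul_mulVec, Matrix.smul_mulVec, h_smul_left, h_smul_right hqf, frob_apply, hMx,
      ← mul_assoc, ← pow_succ', inv_pow, hc, inv_one, one_mul]
  have hne0 : ∀ c : F, c ^ (q + 1) = 1 → c ≠ 0 := by
    rintro c hc rfl
    rw [zero_pow (Nat.succ_ne_zero q)] at hc
    exact zero_ne_one hc
  have hlam0 := hne0 lam hlamq
  have hnu0 := hne0 nu hnuq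
  obtain ⟨mu, hmu, hmuq⟩ : ∃ mu : F, mu ^ p = lam ∧ mu ^ (q + 1) = 1 := by
    refine ⟨lam ^ (p ^ ((f : ℕ) - 1)), ?_, ?_⟩
    · rw [← pow_mul, ← pow_succ, Nat.sub_add_cancel f.pos, ← hq, FiniteField.pow_card]
    · rw [← pow_mul, mul_comm, pow_mul, hlamq, one_pow]
  have hmu0 := hne0 mu hmuq
  obtain ⟨u, hu⟩ : ∃ u : Matrix (Fin m) (Fin m) F, u = mu⁻¹ • Am := ⟨_, rfl⟩
  have hup : u ^ (p ^ 1) = 1 := by
    rw [pow_one, hu, smul_pow, hApm, smul_smul, inv_pow, hmu, inv_mul_cancel₀ hlam0, one_smul]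
  have huu : ∀ v w, hermForm m F q (u *ᵥ v) (u *ᵥ w) = hermForm m F q v w := by
    rw [hu]
    exact hscal mu Am hmuq hAu
  have hu1 : u ≠ 1 := by
    intro h
    apply hnotc A hAnc mu hmuq
    have : Am = mu • (mu⁻¹ • Am) := by rw [smul_smul, mul_inv_cancel₀ hmu0, one_smul]
    rw [← hAm, this, ← hu, h]
  have hs1 : ¬ s ∣ q + 1 := by
    intro h
    have h1 : (-(q : ZMod s)) = 1 := by
      have h2 : (((q + 1 : ℕ)) : ZMod s) = 0 := (ZMod.natCast_eq_zero_iff _ _).mpr h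
      push_cast at h2
      linear_combination -h2
    rw [h1, orderOf_one] at hege
    omega
  have hcop : Nat.Coprime s (q + 1) := (Nat.Prime.coprime_iff_not_dvd hsp).mpr hs1
  obtain ⟨t, -, ht⟩ := Nat.exists_mul_mod_eq_one_of_coprime hcop (by omega : 1 < q + 1)
  obtain ⟨rho, hrho, hrhoq⟩ : ∃ rho : F, rho ^ s = nu ∧ rho ^ (q + 1) = 1 := by
    refine ⟨nu ^ t, ?_, ?_⟩
    · rw [← pow_mul, mul_comm t s, ← Nat.div_add_mod (s * t) (q + 1), ht, pow_add, pow_mul, hnuq,
        one_pow, one_mul, pow_one]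
    · rw [← pow_mul, mul_comm, pow_mul, hnuq, one_pow]
  have hrho0 := hne0 rho hrhoq
  obtain ⟨B', hB'⟩ : ∃ B' : Matrix (Fin m) (Fin m) F, B' = rho⁻¹ • Bm := ⟨_, rfl⟩
  have hB's : B' ^ s = 1 := by
    rw [hB', smul_pow, hBsm, smul_smul, inv_pow, hrho, inv_mul_cancel₀ hnu0, one_smul]
  have hB'u : ∀ v w, hermForm m F q (B' *ᵥ v) (B' *ᵥ w) = hermForm m F q v w := by
    rw [hB']
    exact hscal rho Bm hrhoq hBu
  have hB'1 : B' ≠ 1 := by
    intro h
    apply hnotc B hBnc rho hrhoq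
    have : Bm = rho • (rho⁻¹ • Bm) := by rw [smul_smul, mul_inv_cancel₀ hrho0, one_smul]
    rw [← hBm, this, ← hB', h]
  have hB'0 : B' ≠ 0 := by
    intro h
    rw [h, zero_pow hsp.ne_zero] at hB's
    haveI : NeZero m := ⟨by omega⟩
    exact zero_ne_one hB's
  have hcz : u * B' = zeta • (B' * u) := by
    rw [hu, hB', smul_mul_smul_comm, smul_mul_smul_comm, hABz, smul_smul, smul_smul]
    congr 1
    ring
  have hpowk : ∀ k : ℕ, u ^ k * B' = zeta ^ k • (B' * u ^ k) := by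
    intro k
    induction k with
    | zero => simp
    | succ k ih =>
      rw [pow_succ u, mul_assoc, hcz, mul_smul_comm, ← mul_assoc, ih, smul_mul_assoc, smul_smul,
        mul_assoc, pow_succ zeta, mul_comm (zeta ^ k) zeta]
  have hz : zeta ^ p = 1 := by
    have h1 := hpowk p
    rw [pow_one] at hup
    rw [hup, one_mul, mul_one] at h1
    by_contra hne
    have h2 : (1 - zeta ^ p) • B' = 0 := by rw [sub_smul, one_smul, ← h1, sub_self]
    rcases smul_eq_zero.mp h2 with h3 | h3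
    · exact hne (sub_eq_zero.mp h3).symm
    · exact hB'0 h3
  have hz1 : zeta = 1 := by
    have h1 : (zeta - 1) ^ p = 0 := by rw [sub_pow_char, hz, one_pow, sub_self]
    exact sub_eq_zero.mp ((pow_eq_zero_iff hpp.ne_zero).mp h1)
  rw [hz1, one_smul] at hcz
  exact ulin hF p s hsp' m hm hege B' u hB'u huu hB's hB'1 hu1 1 hup hcz.symm

end Cfsg.Agent.S2365
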