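import Cfsg.Statements.S2367
import Mathlib

set_option autoImplicit false
open Cfsg

namespace Cfsg.Agent.S2367

theorem fact_prod (l : List (ℕ × ℕ)) (hl : ∀ x ∈ l, x.1.Prime) (p : ℕ) :
    (l.map (fun x : ℕ × ℕ => x.1 ^ x.2)).prod.factorization p
      = ((l.filter (fun x : ℕ × ℕ => x.1 = p)).map Prod.snd).sum := by
  induction l with
  | nil => simp
  | cons x l ih =>
    have hx : x.1.Prime := hl x List.mem_cons_self
    have hl' : ∀ y ∈ l, y.1.Prime := fun y hy => hl y (List.mem_cons_of_mem _ hy)
    have h1 : x.1 ^ x.2 ≠ 0 := pow_ne_zero _ hx.ne_zero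
    have h2 : (l.map (fun x : ℕ × ℕ => x.1 ^ x.2)).prod ≠ 0 := by
      apply List.prod_ne_zero
      simp only [List.mem_map, not_exists, not_and]
      intro y hy h0
      exact (pow_ne_zero _ (hl' y hy).ne_zero) h0
    rw [List.map_cons, List.prod_cons, Nat.factorization_mul h1 h2, Finsupp.add_apply, ih hl',
      Nat.factorization_pow, Finsupp.smul_apply, hx.factorization, Finsupp.single_apply,
      List.filter_cons]
    by_cases hxp : x.1 = p
    · simp [hxp]
    · simp [hxp]

theorem sporadic_check (l : List (ℕ × ℕ)) (hl : ∀ x ∈ l, x.1.Prime)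
    (hc : ∀ x ∈ l, x.1 ≠ 2 → ((l.filter (fun y : ℕ × ℕ => y.1 = x.1)).map Prod.snd).sum = 3 →
      x.1 ^ 3 < 2 ^ ((l.filter (fun y : ℕ × ℕ => y.1 = 2)).map Prod.snd).sum)
    (N : ℕ) (hN : N = (l.map (fun x : ℕ × ℕ => x.1 ^ x.2)).prod)
    (p : ℕ) (hodd : p ≠ 2) (h3 : N.factorization p = 3) :
    p ^ 3 < 2 ^ N.factorization 2 := by
  subst hN
  rw [fact_prod l hl] at h3 ⊢
  have hex : ∃ x ∈ l, x.1 = p := by
    by_contra hne
    push Not at hne
    have h0 : l.filter (fun x : ℕ × ℕ => x.1 = p) = [] := by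
      rw [List.filter_eq_nil_iff]
      intro x hx
      simpa using hne x hx
    rw [h0] at h3
    simp at h3
  obtain ⟨x, hx, rfl⟩ := hex
  exact hc x hx hodd h3

theorem small_primes : ∀ q ∈ ([2, 3, 5, 7, 11, 13, 17, 19, 23, 29, 31, 37, 41, 43, 47, 59, 67, 71] : List ℕ), q.Prime := by
  intro q hq
  simp only [List.mem_cons, List.mem_nil_iff, or_false] at hq
  rcases hq with rfl | rfl | rfl | rfl | rfl | rfl | rfl | rfl | rfl | rfl | rfl | rfl | rfl | rfl | rfl | rfl | rfl | rfl <;> norm_num

theorem primes_of (l : List (ℕ × ℕ))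
    (h : ∀ x ∈ l, x.1 ∈ ([2, 3, 5, 7, 11, 13, 17, 19, 23, 29, 31, 37, 41, 43, 47, 59, 67, 71] : List ℕ)) : ∀ x ∈ l, x.1.Prime :=
  fun x hx => small_primes _ (h x hx)

theorem alt_case (n : ℕ) (N : ℕ) (hN : 2 * N = n.factorial)
    (p : ℕ) (hp : p.Prime) (hodd : p ≠ 2) (h3 : N.factorization p = 3) :
    p ^ 3 < 2 ^ N.factorization 2 := by
  have hN0 : N ≠ 0 := by
    rintro rfl
    exact (Nat.factorial_ne_zero n) (by simpa using hN.symm)
  have hfp : (n.factorial).factorization p = 3 := by
    rw [← hN, Nat.factorization_mul two_ne_zero hN0, Finsupp.add_apply, h3,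
      Nat.factorization_eq_zero_of_not_dvd
        (fun h => hodd ((Nat.prime_dvd_prime_iff_eq hp Nat.prime_two).1 h))]
  have hf2 : (n.factorial).factorization 2 = 1 + N.factorization 2 := by
    rw [← hN, Nat.factorization_mul two_ne_zero hN0, Finsupp.add_apply,
      Nat.prime_two.factorization_self]
  have hp3 : 3 ≤ p := by
    have := hp.two_le
    omega
  have h3p : 3 * p ≤ n := by
    have hdvd : p ^ 3 ∣ n.factorial :=
      (hp.pow_dvd_iff_le_factorization (Nat.factorial_ne_zero n)).2 (le_of_eq hfp.symm)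
    by_cases hlt : n < p ^ 2
    · have hn0 : n ≠ 0 := by
        rintro rfl
        have h1 : p ^ 3 ∣ 1 := by simpa using hdvd
        have h2 : p ^ 3 = 1 := Nat.dvd_one.1 h1
        have h4 : 3 ^ 3 ≤ p ^ 3 := Nat.pow_le_pow_left hp3 3
        omega
      have hlog : Nat.log p n < 2 := Nat.log_lt_of_lt_pow hn0 hlt
      have h5 := (hp.pow_dvd_factorial_iff hlog).1 hdvd
      have h6 : Finset.Ico 1 2 = ({1} : Finset ℕ) := by decide
      rw [h6, Finset.sum_singleton, pow_one] at h5
      exact (Nat.le_div_iff_mul_le hp.pos).1 h5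
    · push Not at hlt
      nlinarith
  have hv2 : n / 2 + n / 4 ≤ (n.factorial).factorization 2 := by
    rw [← Nat.prime_two.pow_dvd_iff_le_factorization (Nat.factorial_ne_zero n)]
    have hlog : Nat.log 2 n < n + 3 := by
      have := Nat.log_le_self 2 n
      omega
    rw [Nat.prime_two.pow_dvd_factorial_iff hlog]
    have hsub : ({1, 2} : Finset ℕ) ⊆ Finset.Ico 1 (n + 3) := by
      intro i hi
      simp only [Finset.mem_insert, Finset.mem_singleton] at hi
      rw [Finset.mem_Ico]
      omega
    calc n / 2 + n / 4 = ∑ i ∈ ({1, 2} : Finset ℕ), n / 2 ^ i := by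
          rw [Finset.sum_pair (by norm_num)]
          norm_num
      _ ≤ ∑ i ∈ Finset.Ico 1 (n + 3), n / 2 ^ i :=
          Finset.sum_le_sum_of_subset hsub
  have hE : (3 * p) / 2 + (3 * p) / 4 ≤ 1 + N.factorization 2 := by
    rw [← hf2]
    have h1 : (3 * p) / 2 ≤ n / 2 := Nat.div_le_div_right h3p
    have h2 : (3 * p) / 4 ≤ n / 4 := Nat.div_le_div_right h3p
    omega
  by_cases hp5 : 5 ≤ p
  · have hE' : 3 * (p / 2 + 1) ≤ N.factorization 2 := by omega
    have hlt : p < 2 ^ (p / 2 + 1) := by
      have h1 : p / 2 < 2 ^ (p / 2) := Nat.lt_two_pow_self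
      have h2 : 2 ^ (p / 2 + 1) = 2 * 2 ^ (p / 2) := by rw [pow_succ, mul_comm]
      rw [h2]
      generalize 2 ^ (p / 2) = X at h1
      omega
    calc p ^ 3 < (2 ^ (p / 2 + 1)) ^ 3 := Nat.pow_lt_pow_left hlt (by norm_num)
      _ = 2 ^ (3 * (p / 2 + 1)) := by ring
      _ ≤ 2 ^ N.factorization 2 := Nat.pow_le_pow_right (by norm_num) hE'
  · have hp34 : p = 3 ∨ p = 4 := by omega
    rcases hp34 with rfl | rfl
    · have hE' : 5 ≤ N.factorization 2 := by omega
      calc 3 ^ 3 < 2 ^ 5 := by norm_num
        _ ≤ 2 ^ N.factorization 2 := Nat.pow_le_pow_right (by norm_num) hE'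
    · exact absurd hp (by norm_num)


/-- Let G be an alternating group of degree at least 5 or a simple group with the order of one of the 26 sporadic groups, and let p be an odd prime such that p³ is the exact power of p dividing the order of G. Then p³ is less than the 2-part of the order of G. -/
theorem result {G : Type*} [Group G] [Finite G] (hG : Cfsg.IsAlternating G ∨ Cfsg.IsSporadic G)
    (p : ℕ) (hp : p.Prime) (hodd : p ≠ 2) (h3 : (Nat.card G).factorization p = 3) :
    p ^ 3 < 2 ^ (Nat.card G).factorization 2 := by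
  rcases hG with hA | hS
  · obtain ⟨n, hn, ⟨e⟩⟩ := hA
    have hcard : 2 * Nat.card G = n.factorial := by
      haveI : Nontrivial (Fin n) := Fin.nontrivial_iff_two_le.2 (by omega)
      rw [Nat.card_congr e.toEquiv, two_mul_nat_card_alternatingGroup, Nat.card_perm, Nat.card_eq_fintype_card, Fintype.card_fin]
    exact alt_case n _ hcard p hp hodd h3
  · unfold Cfsg.IsSporadic at hS
    rcases hS with h | h | h | h | h | h | h | h | h | h | h | h | h | h | h | h | h | h | h | h | h | h | h | h | h | h
    · exact sporadic_check [(2, 4), (3, 2), (5, 1), (11, 1)] (primes_of _ (by decide)) (by decide) _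
        (by rw [h.2]; norm_num) p hodd h3
    · exact sporadic_check [(2, 6), (3, 3), (5, 1), (11, 1)] (primes_of _ (by decide)) (by decide) _
        (by rw [h.2]; norm_num) p hodd h3
    · exact sporadic_check [(2, 7), (3, 2), (5, 1), (7, 1), (11, 1)] (primes_of _ (by decide)) (by decide) _
        (by rw [h.2]; norm_num) p hodd h3
    · exact sporadic_check [(2, 7), (3, 2), (5, 1), (7, 1), (11, 1), (23, 1)] (primes_of _ (by decide)) (by decide) _
        (by rw [h.2]; norm_num) p hodd h3
    · exact sporadic_check [(2, 10), (3, 3), (5, 1), (7, 1), (11, 1), (23, 1)] (primes_of _ (by decide)) (by decide) _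
        (by rw [h.2]; norm_num) p hodd h3
    · exact sporadic_check [(2, 3), (3, 1), (5, 1), (7, 1), (11, 1), (19, 1)] (primes_of _ (by decide)) (by decide) _
        (by rw [h.2]; norm_num) p hodd h3
    · exact sporadic_check [(2, 7), (3, 3), (5, 2), (7, 1)] (primes_of _ (by decide)) (by decide) _
        (by rw [h.2]; norm_num) p hodd h3
    · exact sporadic_check [(2, 7), (3, 5), (5, 1), (17, 1), (19, 1)] (primes_of _ (by decide)) (by decide) _
        (by rw [h.2]; norm_num) p hodd h3
    · exact sporadic_check [(2, 21), (3, 3), (5, 1), (7, 1), (11, 3), (23, 1), (29, 1), (31, 1), (37, 1), (43, 1)] (primes_of _ (by decide)) (by decide) _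
        (by rw [h.2]; norm_num) p hodd h3
    · exact sporadic_check [(2, 21), (3, 9), (5, 4), (7, 2), (11, 1), (13, 1), (23, 1)] (primes_of _ (by decide)) (by decide) _
        (by rw [h.2]; norm_num) p hodd h3
    · exact sporadic_check [(2, 18), (3, 6), (5, 3), (7, 1), (11, 1), (23, 1)] (primes_of _ (by decide)) (by decide) _
        (by rw [h.2]; norm_num) p hodd h3
    · exact sporadic_check [(2, 10), (3, 7), (5, 3), (7, 1), (11, 1), (23, 1)] (primes_of _ (by decide)) (by decide) _
        (by rw [h.2]; norm_num) p hodd h3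
    · exact sporadic_check [(2, 17), (3, 9), (5, 2), (7, 1), (11, 1), (13, 1)] (primes_of _ (by decide)) (by decide) _
        (by rw [h.2]; norm_num) p hodd h3
    · exact sporadic_check [(2, 18), (3, 13), (5, 2), (7, 1), (11, 1), (13, 1), (17, 1), (23, 1)] (primes_of _ (by decide)) (by decide) _
        (by rw [h.2]; norm_num) p hodd h3
    · exact sporadic_check [(2, 21), (3, 16), (5, 2), (7, 3), (11, 1), (13, 1), (17, 1), (23, 1), (29, 1)] (primes_of _ (by decide)) (by decide) _
        (by rw [h.2]; norm_num) p hodd h3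
    · exact sporadic_check [(2, 9), (3, 2), (5, 3), (7, 1), (11, 1)] (primes_of _ (by decide)) (by decide) _
        (by rw [h.2]; norm_num) p hodd h3
    · exact sporadic_check [(2, 7), (3, 6), (5, 3), (7, 1), (11, 1)] (primes_of _ (by decide)) (by decide) _
        (by rw [h.2]; norm_num) p hodd h3
    · exact sporadic_check [(2, 10), (3, 3), (5, 2), (7, 3), (17, 1)] (primes_of _ (by decide)) (by decide) _
        (by rw [h.2]; norm_num) p hodd h3
    · exact sporadic_check [(2, 14), (3, 3), (5, 3), (7, 1), (13, 1), (29, 1)] (primes_of _ (by decide)) (by decide) _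
        (by rw [h.2]; norm_num) p hodd h3
    · exact sporadic_check [(2, 13), (3, 7), (5, 2), (7, 1), (11, 1), (13, 1)] (primes_of _ (by decide)) (by decide) _
        (by rw [h.2]; norm_num) p hodd h3
    · exact sporadic_check [(2, 9), (3, 4), (5, 1), (7, 3), (11, 1), (19, 1), (31, 1)] (primes_of _ (by decide)) (by decide) _
        (by rw [h.2]; norm_num) p hodd h3
    · exact sporadic_check [(2, 14), (3, 6), (5, 6), (7, 1), (11, 1), (19, 1)] (primes_of _ (by decide)) (by decide) _
        (by rw [h.2]; norm_num) p hodd h3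
    · exact sporadic_check [(2, 8), (3, 7), (5, 6), (7, 1), (11, 1), (31, 1), (37, 1), (67, 1)] (primes_of _ (by decide)) (by decide) _
        (by rw [h.2]; norm_num) p hodd h3
    · exact sporadic_check [(2, 15), (3, 10), (5, 3), (7, 2), (13, 1), (19, 1), (31, 1)] (primes_of _ (by decide)) (by decide) _
        (by rw [h.2]; norm_num) p hodd h3
    · exact sporadic_check [(2, 41), (3, 13), (5, 6), (7, 2), (11, 1), (13, 1), (17, 1), (19, 1), (23, 1), (31, 1), (47, 1)] (primes_of _ (by decide)) (by decide) _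
        (by rw [h.2]; norm_num) p hodd h3
    · exact sporadic_check [(2, 46), (3, 20), (5, 9), (7, 6), (11, 2), (13, 3), (17, 1), (19, 1), (23, 1), (29, 1), (31, 1), (41, 1), (47, 1), (59, 1), (71, 1)] (primes_of _ (by decide)) (by decide) _
        (by rw [h.2]; norm_num) p hodd h3

end Cfsg.Agent.S2367
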