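import Mathlib
import Cfsg.Statements.S2368

set_option autoImplicit false
open Cfsg

namespace Cfsg.Agent.S2368

theorem nilp_pow_card {F : Type*} [Field F] (m : ℕ) (N : Matrix (Fin m) (Fin m) F) (j : ℕ)
    (h : N ^ j = 0) : N ^ m = 0 := by
  have hf : (Matrix.toLinAlgEquiv' (R := F) (n := Fin m) N) ^ j = 0 := by
    rw [← map_pow, h, map_zero]
  have hker := Module.End.ker_pow_le_ker_pow_finrank
    (Matrix.toLinAlgEquiv' (R := F) (n := Fin m) N) j
  rw [hf, LinearMap.ker_zero, top_le_iff, LinearMap.ker_eq_top, Module.finrank_fintype_fun_eq_card,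
    Fintype.card_fin] at hker
  have h2 : Matrix.toLinAlgEquiv' (R := F) (n := Fin m) (N ^ m) = 0 := by
    rw [map_pow]; exact hker
  exact (Matrix.toLinAlgEquiv' (R := F) (n := Fin m)).injective (by rw [h2, map_zero])

def shift (F : Type*) [Field F] (m : ℕ) : Matrix (Fin m) (Fin m) F :=
  Matrix.of fun i j => if j.val = i.val + 1 then 1 else 0

theorem shift_pow (F : Type*) [Field F] (m j : ℕ) :
    ∀ a b : Fin m, ((shift F m) ^ j) a b = if b.val = a.val + j then 1 else 0 := by
  induction j with
  | zero =>
    intro a b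
    rw [pow_zero, Matrix.one_apply]
    by_cases hab : a = b
    · rw [if_pos hab, if_pos (by rw [hab]; rfl)]
    · rw [if_neg hab, if_neg]
      intro h
      exact hab (Fin.ext (by omega))
  | succ j ih =>
    intro a b
    rw [pow_succ, Matrix.mul_apply]
    by_cases h : b.val = a.val + (j + 1)
    · rw [if_pos h]
      have hc : a.val + j < m := by
        have := b.isLt
        omega
      rw [Finset.sum_eq_single (⟨a.val + j, hc⟩ : Fin m)]
      · rw [ih, if_pos rfl, one_mul]
        show (if b.val = a.val + j + 1 then (1 : F) else 0) = 1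
        rw [if_pos (by omega)]
      · intro c _ hcne
        rw [ih, if_neg, zero_mul]
        intro hcv
        exact hcne (Fin.ext hcv)
      · intro habs
        exact absurd (Finset.mem_univ _) habs
    · rw [if_neg h]
      apply Finset.sum_eq_zero
      intro c _
      rw [ih]
      by_cases hc : c.val = a.val + j
      · rw [if_pos hc, one_mul]
        show (if b.val = c.val + 1 then (1 : F) else 0) = 0
        rw [if_neg (by omega)]
      · rw [if_neg hc, zero_mul]

/-- Let F be a finite field of characteristic p and m ≥ 1. Every element of GL(m, F) of p-power order has order less than p·m, and GL(m, F) has an element of p-power order at least m; so the largest order of a p-element of GL(m, F) is the least power of p that is at least m. -/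
theorem result {F : Type*} [Field F] [Fintype F] (p : ℕ) [Fact p.Prime] [CharP F p] (m : ℕ) (hm : 1 ≤ m) :
    (∀ g : Matrix.GeneralLinearGroup (Fin m) F, (∃ j : ℕ, orderOf g = p ^ j) → orderOf g < p * m) ∧
      ∃ g : Matrix.GeneralLinearGroup (Fin m) F, (∃ j : ℕ, orderOf g = p ^ j) ∧ m ≤ orderOf g := by
  have hp : p.Prime := Fact.out
  haveI : NeZero m := ⟨by omega⟩
  haveI : Nonempty (Fin m) := ⟨0⟩
  have hp1 : 1 < p := hp.one_lt
  -- the exponent
  have hk1 : m ≤ p ^ Nat.clog p m := Nat.le_pow_clog hp1 m
  have hk2 : p ^ Nat.clog p m < p * m := by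
    by_cases hm1 : m = 1
    · rw [hm1, Nat.clog_one_right, pow_zero, mul_one]; exact hp1
    · have hm2 : 1 < m := by omega
      have hpos := Nat.clog_pos hp1 hm2
      have hlt := Nat.pow_pred_clog_lt_self hp1 hm2
      have h1 : (Nat.clog p m).pred + 1 = Nat.clog p m := Nat.succ_pred_eq_of_pos hpos
      have hsplit : p ^ Nat.clog p m = p * p ^ (Nat.clog p m).pred := by
        rw [← pow_succ', h1]
      rw [hsplit]
      exact Nat.mul_lt_mul_of_pos_left hlt hp.pos
  -- unipotent matrices have order dividing p ^ clog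
  have hpow : ∀ N : Matrix (Fin m) (Fin m) F, N ^ m = 0 → (1 + N) ^ (p ^ Nat.clog p m) = 1 := by
    intro N hN
    have hc : Commute (1 : Matrix (Fin m) (Fin m) F) N := Commute.one_left N
    rw [add_pow_char_pow_of_commute (p := p) (n := Nat.clog p m) hc, one_pow]
    have hN2 : N ^ (p ^ Nat.clog p m) = 0 := by
      rw [← Nat.sub_add_cancel hk1, pow_add, hN, mul_zero]
    rw [hN2, add_zero]
  constructor
  · rintro g ⟨j, hj⟩
    have hgM : (g : Matrix (Fin m) (Fin m) F) ^ (p ^ j) = 1 := by
      rw [← Units.val_pow_eq_pow_val, ← hj, pow_orderOf_eq_one, Units.val_one]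
    have hN : ((g : Matrix (Fin m) (Fin m) F) - 1) ^ (p ^ j) = 0 := by
      rw [sub_pow_char_pow_of_commute (p := p) (n := j) (Commute.one_right _), hgM, one_pow,
        sub_self]
    have hNm := nilp_pow_card m _ _ hN
    have h1 := hpow _ hNm
    rw [add_sub_cancel] at h1
    have hg1 : g ^ (p ^ Nat.clog p m) = 1 := by
      apply Units.ext
      rw [Units.val_pow_eq_pow_val, h1, Units.val_one]
    have hdvd := orderOf_dvd_of_pow_eq_one hg1
    exact lt_of_le_of_lt (Nat.le_of_dvd (pow_pos hp.pos _) hdvd) hk2
  · have hsm : (shift F m) ^ m = 0 := by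
      ext a b
      rw [shift_pow, if_neg, Matrix.zero_apply]
      have := b.isLt
      omega
    have hA := hpow _ hsm
    have hpk : 1 ≤ p ^ Nat.clog p m := Nat.one_le_pow _ _ hp.pos
    let g : Matrix.GeneralLinearGroup (Fin m) F :=
      ⟨1 + shift F m, (1 + shift F m) ^ (p ^ Nat.clog p m - 1),
        by rw [← pow_succ', Nat.sub_add_cancel hpk, hA],
        by rw [← pow_succ, Nat.sub_add_cancel hpk, hA]⟩
    have hg1 : g ^ (p ^ Nat.clog p m) = 1 := by
      apply Units.ext
      rw [Units.val_pow_eq_pow_val, Units.val_one]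
      exact hA
    have hdvd := orderOf_dvd_of_pow_eq_one hg1
    obtain ⟨j, -, hj⟩ := (Nat.dvd_prime_pow hp).mp hdvd
    refine ⟨g, ⟨j, hj⟩, ?_⟩
    by_contra hlt
    push Not at hlt
    rw [hj] at hlt
    have hgj : g ^ (p ^ j) = 1 := by rw [← hj]; exact pow_orderOf_eq_one g
    have hMj : (1 + shift F m) ^ (p ^ j) = 1 := by
      have := congrArg (fun u : Matrix.GeneralLinearGroup (Fin m) F =>
        (u : Matrix (Fin m) (Fin m) F)) hgj
      simpa [Units.val_pow_eq_pow_val] using this
    rw [add_pow_char_pow_of_commute (p := p) (n := j) (Commute.one_left (shift F m)), one_pow]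
      at hMj
    have hsj : (shift F m) ^ (p ^ j) = 0 := by
      have := hMj
      rwa [add_eq_left] at this
    have hs1 : (shift F m) ^ (m - 1) = 0 := by
      have hle : p ^ j ≤ m - 1 := by omega
      rw [← Nat.sub_add_cancel hle, pow_add, hsj, mul_zero]
    have hentry := shift_pow F m (m - 1) (0 : Fin m) ⟨m - 1, by omega⟩
    rw [hs1, Matrix.zero_apply, if_pos (by simp)] at hentry
    exact zero_ne_one hentry

end Cfsg.Agent.S2368
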