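import Cfsg.Statements.S2379
import Mathlib
import Cfsg.Agent.Helper14.SylTorus2
import Cfsg.Agent.Helper2.SLCard

set_option autoImplicit false
open Cfsg

namespace Cfsg.Agent.S2379
open Cfsg.Agent.Helper14.SylTorus

theorem val_SL {F : Type*} [Field F] [Fintype F] (n : ℕ) (hn : 1 ≤ n) (r : ℕ)
    [hr : Fact r.Prime] (hrq : ¬ r ∣ Fintype.card F) :
    (Nat.card (Matrix.SpecialLinearGroup (Fin n) F)).factorization r =
      ∑ j ∈ Finset.Ico 2 (n + 1), padicValNat r (Fintype.card F ^ j - 1) := by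
  have h1 := Cfsg.Agent.Helper2.SLCard.card_SL_mul F n hn
  have h2 := val_GL (F := F) n r hrq
  have hq2 : 2 ≤ Fintype.card F := Fintype.one_lt_card
  have hS0 : Nat.card (Matrix.SpecialLinearGroup (Fin n) F) ≠ 0 := Nat.card_pos.ne'
  have h3 : (Fintype.card F - 1).factorization r = padicValNat r (Fintype.card F - 1) :=
    Nat.factorization_def _ hr.out
  rw [← h1, Nat.factorization_mul hS0 (by omega), Finsupp.add_apply,
    Finset.sum_eq_sum_Ico_succ_bot (by omega), pow_one, h3] at h2
  have h5 : (Nat.card (Matrix.SpecialLinearGroup (Fin n) F)).factorization r =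
      ∑ j ∈ Finset.Ico (1 + 1) (n + 1), padicValNat r (Fintype.card F ^ j - 1) := by omega
  exact h5


/-- Sylow subgroups of `SL_n(q)` for large primes. Let `F` be a field with `q` elements and `r` a prime with `r > n` and `r ∤ q` (so `r` does not divide the order `n!` of the Weyl group). Let `d` be the multiplicative order of `q` modulo `r`, `a` the number of integers `i` with `2 ≤ i ≤ n` divisible by `d` (the degrees of the Weyl group are `2, …, n`), and `m` the `r`-part of the value at `q` of the `d`-th cyclotomic polynomial. Then every Sylow `r`-subgroup of `SL_n(q)` is a direct product of `a` cyclic groups of order `m`. -/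
theorem result {F : Type*} [Field F] [Fintype F] {q : ℕ} (hq : Fintype.card F = q) (n : ℕ)
    (r : ℕ) [Fact r.Prime] (hrn : n < r) (hrq : ¬ r ∣ q) (P : Sylow r (Matrix.SpecialLinearGroup (Fin n) F)) :
    Nonempty (↥(P : Subgroup (Matrix.SpecialLinearGroup (Fin n) F)) ≃*
      (Fin ((Finset.Icc 2 n).filter (fun i => orderOf (q : ZMod r) ∣ i)).card →
        Multiplicative (ZMod (r ^ padicValNat r ((Polynomial.cyclotomic (orderOf (q : ZMod r)) ℤ).eval (q : ℤ)).natAbs)))) := by
  classical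
  subst hq
  obtain ⟨d, hd⟩ : ∃ d, d = orderOf ((Fintype.card F : ℕ) : ZMod r) := ⟨_, rfl⟩
  obtain ⟨k, hk⟩ : ∃ k, k = padicValNat r
      ((Polynomial.cyclotomic d ℤ).eval ((Fintype.card F : ℕ) : ℤ)).natAbs := ⟨_, rfl⟩
  rw [← hd, ← hk]
  have hq2 : 2 ≤ Fintype.card F := Fintype.one_lt_card
  have hd0 : 0 < d := by rw [hd]; exact ord_pos r _ hrq
  obtain ⟨c, hc⟩ : ∃ c, c = ((Finset.Icc 2 n).filter (fun i => d ∣ i)).card := ⟨_, rfl⟩
  rw [← hc]
  suffices hex : ∃ Φ : (Fin c → Multiplicative (ZMod (r ^ k))) →*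
      Matrix.SpecialLinearGroup (Fin n) F, Function.Injective Φ by
    obtain ⟨Φ, hΦ⟩ := hex
    refine sylow_of_torus r c k Φ hΦ ?_ P
    rcases Nat.eq_zero_or_pos n with rfl | hn
    · have h0 : c = 0 := by rw [hc]; simp
      rw [h0, mul_zero]
      have h1 : Nat.card (Matrix.SpecialLinearGroup (Fin 0) F) = 1 :=
        Nat.card_eq_one_iff_unique.mpr ⟨⟨fun a b => Subtype.ext (Subsingleton.elim _ _)⟩, ⟨1⟩⟩
      rw [h1]
      simp
    · rw [val_SL n hn r hrq]
      rw [Finset.sum_congr rfl (fun j hj => val_pow r _ hq2 hrq j (by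
        rw [Finset.mem_Ico] at hj
        intro h'
        have := Nat.le_of_dvd (by omega) h'
        omega))]
      rw [← hd, ← hk, sum_ite_count, hc]
      congr 1
  rcases Nat.eq_zero_or_pos n with rfl | hn
  · have h0 : c = 0 := by rw [hc]; simp
    subst h0
    exact ⟨1, fun x y _ => Subsingleton.elim x y⟩
  have hdvd1 : r ∣ Fintype.card F - 1 ↔ d ∣ 1 := by
    have := dvd_iff r (Fintype.card F) (by omega) 1
    rwa [pow_one, ← hd] at this
  by_cases hd1 : d = 1
  · obtain ⟨n', rfl⟩ : ∃ n', n = n' + 1 := ⟨n - 1, by omega⟩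
    have hcn : c = n' := by
      rw [hc, hd1, Finset.filter_true_of_mem (fun _ _ => one_dvd _), Nat.card_Icc]
      omega
    rw [hcn]
    have hkq : r ^ k ∣ Nat.card Fˣ := by
      rw [Nat.card_units, Nat.card_eq_fintype_card]
      have h1 := val_cyc r _ hq2 hrq
      rw [← hd, ← hk, hd1, pow_one] at h1
      rw [← h1]
      exact pow_padicValNat_dvd
    obtain ⟨f, hf⟩ := exists_hom_zmod (C := Fˣ) (r ^ k) hkq
    exact diag_torus f hf n'
  · have hd2 : 2 ≤ d := by omega
    have hcn : c = n / d := by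
      rw [hc, ← Nat.Ioc_filter_dvd_card_eq_div n d]
      congr 1
      ext j
      simp only [Finset.mem_filter, Finset.mem_Icc, Finset.mem_Ioc]
      constructor
      · rintro ⟨⟨h1, h2⟩, h3⟩
        exact ⟨⟨by omega, h2⟩, h3⟩
      · rintro ⟨⟨h1, h2⟩, h3⟩
        have := Nat.le_of_dvd h1 h3
        exact ⟨⟨by omega, h2⟩, h3⟩
    rw [hcn]
    have key : ∃ Φ : (Fin (n / d) → Multiplicative (ZMod (r ^ k))) →* GL (Fin n) F,
        Function.Injective Φ := by
      rw [hk, hd]
      exact gl_torus (F := F) n r hrq _ (Nat.div_mul_le_self n _)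
    obtain ⟨Φ, hΦ⟩ := key
    have hnr : ¬ r ∣ Fintype.card F - 1 := by
      rw [hdvd1, Nat.dvd_one]; exact hd1
    have hcop : Nat.Coprime (r ^ k) (Fintype.card F - 1) :=
      Nat.Coprime.pow_left k ((Nat.Prime.coprime_iff_not_dvd (Fact.out)).mpr hnr)
    exact lift_SL Φ hΦ (det_one_of_coprime Φ (r ^ k) (pow_eq_one_zmod _ _) hcop)

end Cfsg.Agent.S2379
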