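import Cfsg.Statements.S2380
import Mathlib
import Cfsg.Agent.Helper14.SylTorus

set_option autoImplicit false
open scoped MatrixGroups
open Cfsg

namespace Cfsg.Agent.S2380
open Cfsg.Agent.Helper14.SylTorus

/-- Sylow subgroups of `GL_n(q)` for large primes. Let `F` be a field with `q` elements and `r` a prime with `r > n` and `r ∤ q`. Let `d` be the multiplicative order of `q` modulo `r` and `m` the `r`-part of the value at `q` of the `d`-th cyclotomic polynomial. Then every Sylow `r`-subgroup of `GL_n(q)` is a direct product of `⌊n/d⌋` cyclic groups of order `m` (the degrees of the Weyl group being `1, …, n`). -/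
theorem result {F : Type*} [Field F] [Fintype F] {q : ℕ} (hq : Fintype.card F = q) (n : ℕ)
    (r : ℕ) [Fact r.Prime] (hrn : n < r) (hrq : ¬ r ∣ q) (P : Sylow r (GL (Fin n) F)) :
    Nonempty (↥(P : Subgroup (GL (Fin n) F)) ≃*
      (Fin (n / orderOf (q : ZMod r)) →
        Multiplicative (ZMod (r ^ padicValNat r ((Polynomial.cyclotomic (orderOf (q : ZMod r)) ℤ).eval (q : ℤ)).natAbs)))) := by
  classical
  subst hq
  obtain ⟨d, hd⟩ : ∃ d, d = orderOf ((Fintype.card F : ℕ) : ZMod r) := ⟨_, rfl⟩
  obtain ⟨k, hk⟩ : ∃ k, k = padicValNat r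
      ((Polynomial.cyclotomic d ℤ).eval ((Fintype.card F : ℕ) : ℤ)).natAbs := ⟨_, rfl⟩
  rw [← hd, ← hk]
  have hq2 : 2 ≤ Fintype.card F := Fintype.one_lt_card
  have hd0 : 0 < d := by rw [hd]; exact ord_pos r _ hrq
  obtain ⟨p, hp⟩ := CharP.exists F
  haveI := hp
  haveI : Fact p.Prime := ⟨CharP.char_is_prime F p⟩
  haveI : NeZero d := ⟨hd0.ne'⟩
  haveI : Fintype (FiniteField.Extension F p d) := Fintype.ofFinite _
  have hdim : Module.finrank F (FiniteField.Extension F p d) = d :=
    FiniteField.finrank_extension F p d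
  have hLcard : Nat.card (FiniteField.Extension F p d)ˣ = Fintype.card F ^ d - 1 := by
    rw [Nat.card_units, Nat.card_eq_fintype_card,
      Module.card_eq_pow_finrank (K := F) (V := FiniteField.Extension F p d), hdim]
  have hkd : r ^ k ∣ Fintype.card F ^ d - 1 := by
    rw [hk, hd, ← val_cyc r _ hq2 hrq]
    exact pow_padicValNat_dvd
  obtain ⟨f, hf⟩ := exists_hom_zmod (C := (FiniteField.Extension F p d)ˣ) (r ^ k)
    (by rw [hLcard]; exact hkd)
  obtain ⟨φ, hφ⟩ := torusGL (F := F) (L := FiniteField.Extension F p d) (n / d) d n hdim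
    (Nat.div_mul_le_self n d)
  refine sylow_of_torus r (n / d) k (φ.comp (f.compLeft (Fin (n / d)))) ?_ ?_ P
  · intro x y h
    have h1 := hφ h
    funext i
    exact hf (congrFun h1 i)
  · rw [val_GL n r hrq]
    rw [Finset.sum_congr rfl (fun j hj => val_pow r _ hq2 hrq j (by
      rw [Finset.mem_Ico] at hj
      intro h'
      have := Nat.le_of_dvd (by omega) h'
      omega))]
    rw [← hd, ← hk, sum_ite_count]
    congr 1
    rw [← Nat.Ioc_filter_dvd_card_eq_div n d]
    congr 1

end Cfsg.Agent.S2380
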