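import Cfsg.Statements.S2384
import Mathlib
import Cfsg.Agent.Helper14.SemiCount
import Cfsg.Agent.S2388

set_option autoImplicit false
open Cfsg

namespace Cfsg.Agent.S2384
open Cfsg.Agent.Helper14.SemiConj

/-- In `SL_n(q)`, `q` a power of the prime `p`, the number of conjugacy classes of elements of order prime to `p` (the semisimple classes) is `q^(n-1)`. -/
theorem result {F : Type*} [Field F] [Fintype F] {q : ℕ} (hq : Fintype.card F = q) (p : ℕ) [Fact p.Prime] [CharP F p] (n : ℕ) (hn : 1 ≤ n) :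
    Nat.card {c : ConjClasses (Matrix.SpecialLinearGroup (Fin n) F) //
      ∃ g : Matrix.SpecialLinearGroup (Fin n) F, ConjClasses.mk g = c ∧ (orderOf g).Coprime p} = q ^ (n - 1) := by
  classical
  subst hq
  obtain ⟨n', rfl⟩ : ∃ n', n = n' + 1 := ⟨n - 1, by omega⟩
  have hrep : ∀ c : {c : ConjClasses (Matrix.SpecialLinearGroup (Fin (n' + 1)) F) //
      ∃ g : Matrix.SpecialLinearGroup (Fin (n' + 1)) F,
      ConjClasses.mk g = c ∧ (orderOf g).Coprime p},
      ∃ g : Matrix.SpecialLinearGroup (Fin (n' + 1)) F,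
      ConjClasses.mk g = c.1 ∧ (orderOf g).Coprime p := fun c => c.2
  choose rep hrep1 hrep2 using hrep
  have hsq : ((-1 : F) ^ (n' + 1)) * ((-1 : F) ^ (n' + 1)) = 1 := by
    rw [← mul_pow]; simp
  have hcoeff : ∀ g : Matrix.SpecialLinearGroup (Fin (n' + 1)) F,
      (g : Matrix (Fin (n' + 1)) (Fin (n' + 1)) F).charpoly.coeff 0 = (-1) ^ (n' + 1) := by
    intro g
    have h1 := Matrix.det_eq_sign_charpoly_coeff (g : Matrix (Fin (n' + 1)) (Fin (n' + 1)) F)
    rw [g.2, Fintype.card_fin] at h1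
    calc (g : Matrix (Fin (n' + 1)) (Fin (n' + 1)) F).charpoly.coeff 0
        = ((-1 : F) ^ (n' + 1) * (-1 : F) ^ (n' + 1)) *
          (g : Matrix (Fin (n' + 1)) (Fin (n' + 1)) F).charpoly.coeff 0 := by
          rw [hsq, one_mul]
      _ = (-1 : F) ^ (n' + 1) * ((-1 : F) ^ (n' + 1) *
          (g : Matrix (Fin (n' + 1)) (Fin (n' + 1)) F).charpoly.coeff 0) := by ring
      _ = (-1) ^ (n' + 1) := by rw [← h1, mul_one]
  obtain ⟨Θ, hΘ⟩ : ∃ Θ : {c : ConjClasses (Matrix.SpecialLinearGroup (Fin (n' + 1)) F) //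
      ∃ g : Matrix.SpecialLinearGroup (Fin (n' + 1)) F,
      ConjClasses.mk g = c ∧ (orderOf g).Coprime p} →
      {x : {χ : Polynomial F // χ.Monic ∧ χ.natDegree = n' + 1} //
        x.1.coeff 0 = (-1) ^ (n' + 1)},
      ∀ c, (Θ c).1.1 = (rep c : Matrix (Fin (n' + 1)) (Fin (n' + 1)) F).charpoly :=
    ⟨fun c => ⟨⟨(rep c : Matrix (Fin (n' + 1)) (Fin (n' + 1)) F).charpoly,
      Matrix.charpoly_monic _, by rw [Matrix.charpoly_natDegree_eq_dim, Fintype.card_fin]⟩,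
      hcoeff _⟩, fun c => rfl⟩
  have hinj : Function.Injective Θ := by
    intro c₁ c₂ h12
    have hc : (rep c₁ : Matrix (Fin (n' + 1)) (Fin (n' + 1)) F).charpoly =
        (rep c₂ : Matrix (Fin (n' + 1)) (Fin (n' + 1)) F).charpoly := by
      rw [← hΘ c₁, ← hΘ c₂, h12]
    apply Subtype.ext
    rw [← hrep1 c₁, ← hrep1 c₂, ConjClasses.mk_eq_mk_iff_isConj]
    exact Cfsg.Agent.S2388.result p (n' + 1) (rep c₁) (rep c₂) (hrep2 c₁) (hrep2 c₂) hc
  have hsurj : Function.Surjective Θ := by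
    rintro ⟨⟨χ, hχm, hχd⟩, hχ0⟩
    have hχ0' : χ.coeff 0 = (-1) ^ (n' + 1) := hχ0
    obtain ⟨M, m, hmp, hm0, hMm, hMc⟩ := exists_semisimple_matrix p (n' + 1) χ hχm hχd
      (by rw [hχ0']; exact pow_ne_zero _ (neg_ne_zero.mpr one_ne_zero))
    have hdet : M.det = 1 := by
      rw [Matrix.det_eq_sign_charpoly_coeff, hMc, hχ0', Fintype.card_fin, hsq]
    obtain ⟨g, hg⟩ : ∃ g : Matrix.SpecialLinearGroup (Fin (n' + 1)) F,
        (g : Matrix (Fin (n' + 1)) (Fin (n' + 1)) F) = M := ⟨⟨M, hdet⟩, rfl⟩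
    have hgo : (orderOf g).Coprime p := by
      apply Nat.Coprime.coprime_dvd_left _ hmp
      apply orderOf_dvd_of_pow_eq_one
      apply Subtype.ext
      rw [Matrix.SpecialLinearGroup.coe_pow, hg, hMm, Matrix.SpecialLinearGroup.coe_one]
    refine ⟨⟨ConjClasses.mk g, g, rfl, hgo⟩, ?_⟩
    apply Subtype.ext
    apply Subtype.ext
    rw [hΘ]
    show (rep ⟨ConjClasses.mk g, g, rfl, hgo⟩ :
      Matrix (Fin (n' + 1)) (Fin (n' + 1)) F).charpoly = χ
    have h1 : ConjClasses.mk (rep ⟨ConjClasses.mk g, g, rfl, hgo⟩) = ConjClasses.mk g :=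
      hrep1 ⟨ConjClasses.mk g, g, rfl, hgo⟩
    rw [ConjClasses.mk_eq_mk_iff_isConj, isConj_iff] at h1
    obtain ⟨c, hc⟩ := h1
    rw [← hMc, ← hg]
    have h4 := congrArg (fun y : Matrix.SpecialLinearGroup (Fin (n' + 1)) F =>
      ((Matrix.SpecialLinearGroup.toGL y : GL (Fin (n' + 1)) F) :
        Matrix (Fin (n' + 1)) (Fin (n' + 1)) F).charpoly) hc
    simp only [map_mul, map_inv, Units.val_mul, Matrix.coe_units_inv] at h4
    exact ((Matrix.charpoly_units_conj (Matrix.SpecialLinearGroup.toGL c) _).symm).trans h4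
  have hcard := card_monic_coeff_zero (F := F) n' (fun c => c = (-1) ^ (n' + 1))
  rw [Nat.card_congr (Equiv.ofBijective Θ ⟨hinj, hsurj⟩), hcard, Nat.card_eq_fintype_card,
    Fintype.card_subtype_eq, one_mul, Nat.add_sub_cancel]

end Cfsg.Agent.S2384
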