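import Cfsg.Statements.S2385
import Mathlib
import Cfsg.Agent.Helper14.SpPal
import Cfsg.Agent.S2389

set_option autoImplicit false
open Cfsg

namespace Cfsg.Agent.S2385

/-- In the symplectic group `Sp_{2n}(q)`, `q` a power of the prime `p`, the number of conjugacy classes of elements of order prime to `p` is `q^n`. -/
theorem result {F : Type*} [Field F] [Fintype F] {q : ℕ} (hq : Fintype.card F = q) (p : ℕ) [Fact p.Prime] [CharP F p] (n : ℕ) :
    Nat.card {c : ConjClasses ↥(Matrix.symplecticGroup (Fin n) F) //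
      ∃ g : ↥(Matrix.symplecticGroup (Fin n) F), ConjClasses.mk g = c ∧ (orderOf g).Coprime p} = q ^ n := by

  classical
  have hrep : ∀ c : {c : ConjClasses ↥(Matrix.symplecticGroup (Fin n) F) //
      ∃ g : ↥(Matrix.symplecticGroup (Fin n) F), ConjClasses.mk g = c ∧ (orderOf g).Coprime p},
      ∃ g : ↥(Matrix.symplecticGroup (Fin n) F), ConjClasses.mk g = c.1 ∧
        (orderOf g).Coprime p := fun c => c.2
  choose rep hrep1 hrep2 using hrep
  have hpal : ∀ g : ↥(Matrix.symplecticGroup (Fin n) F),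
      (g : Matrix (Fin n ⊕ Fin n) (Fin n ⊕ Fin n) F).charpoly.Monic ∧
      (g : Matrix (Fin n ⊕ Fin n) (Fin n ⊕ Fin n) F).charpoly.natDegree = 2 * n ∧
      (g : Matrix (Fin n ⊕ Fin n) (Fin n ⊕ Fin n) F).charpoly.reverse =
        (g : Matrix (Fin n ⊕ Fin n) (Fin n ⊕ Fin n) F).charpoly := by
    intro g
    refine ⟨Matrix.charpoly_monic _, ?_, Cfsg.Agent.Helper14.SpPal.rev_charpoly n _ g.2⟩
    rw [Matrix.charpoly_natDegree_eq_dim, Fintype.card_sum, Fintype.card_fin]; ring
  have hfin : Nat.card (Fin n → F) = q ^ n := by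
    rw [Nat.card_eq_fintype_card, Fintype.card_fun, Fintype.card_fin, hq]
  apply le_antisymm
  · rw [← hfin]
    apply Nat.card_le_card_of_injective (fun c => fun i : Fin n =>
      ((rep c : ↥(Matrix.symplecticGroup (Fin n) F)) :
        Matrix (Fin n ⊕ Fin n) (Fin n ⊕ Fin n) F).charpoly.coeff ((i : ℕ) + 1))
    intro c c' h
    have hc : ((rep c : ↥(Matrix.symplecticGroup (Fin n) F)) :
        Matrix (Fin n ⊕ Fin n) (Fin n ⊕ Fin n) F).charpoly =
        ((rep c' : ↥(Matrix.symplecticGroup (Fin n) F)) :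
        Matrix (Fin n ⊕ Fin n) (Fin n ⊕ Fin n) F).charpoly := by
      obtain ⟨m1, d1, r1⟩ := hpal (rep c)
      obtain ⟨m2, d2, r2⟩ := hpal (rep c')
      apply Cfsg.Agent.Helper14.SpPal.pal_ext m1 d1 r1 m2 d2 r2
      intro i hi
      exact congrFun h ⟨i, hi⟩
    have hconj := Cfsg.Agent.S2389.result p n (rep c) (rep c') (hrep2 c) (hrep2 c') hc
    apply Subtype.ext
    rw [← hrep1 c, ← hrep1 c']
    exact ConjClasses.mk_eq_mk_iff_isConj.mpr hconj
  · rw [← hfin]
    have hex : ∀ a : Fin n → F, ∃ h : ↥(Matrix.symplecticGroup (Fin n) F),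
        (orderOf h).Coprime p ∧
        (h : Matrix (Fin n ⊕ Fin n) (Fin n ⊕ Fin n) F).charpoly =
          Cfsg.Agent.Helper14.SpPal.palPoly n a := by
      intro a
      obtain ⟨G, hG, hGc⟩ := Cfsg.Agent.Helper14.SpPal.exists_sp_charpoly n
        (Cfsg.Agent.Helper14.SpPal.palPoly n a) (Cfsg.Agent.Helper14.SpPal.palPoly_monic n a)
        (Cfsg.Agent.Helper14.SpPal.palPoly_natDegree n a)
        (Cfsg.Agent.Helper14.SpPal.palPoly_reverse n a)
      obtain ⟨h, h1, h2⟩ := Cfsg.Agent.Helper14.SpPal.exists_pprime p n ⟨G, hG⟩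
      exact ⟨h, h1, h2.trans hGc⟩
    choose H hH1 hH2 using hex
    apply Nat.card_le_card_of_injective (fun a =>
      (⟨ConjClasses.mk (H a), H a, rfl, hH1 a⟩ :
        {c : ConjClasses ↥(Matrix.symplecticGroup (Fin n) F) //
          ∃ g : ↥(Matrix.symplecticGroup (Fin n) F), ConjClasses.mk g = c ∧
            (orderOf g).Coprime p}))
    intro a b hab
    have h1 : ConjClasses.mk (H a) = ConjClasses.mk (H b) := congrArg Subtype.val hab
    rw [ConjClasses.mk_eq_mk_iff_isConj] at h1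
    have h2 := Cfsg.Agent.Helper14.SpPal.charpoly_isConj n (H a) (H b) h1
    rw [hH2, hH2] at h2
    funext i
    rw [← Cfsg.Agent.Helper14.SpPal.palPoly_coeff_succ n a i,
      ← Cfsg.Agent.Helper14.SpPal.palPoly_coeff_succ n b i, h2]

end Cfsg.Agent.S2385
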