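import Cfsg.Statements.S2390
import Mathlib
import Cfsg.Agent.Helper14.SemiU
import Cfsg.Agent.S2388
import Cfsg.Agent.Helper8.GUConj3

set_option autoImplicit false
open Cfsg

namespace Cfsg.Agent.S2390

open scoped Matrix
open Cfsg.Agent.Helper8.SULag (QF frob frob_apply qf_of_card)
open Cfsg.Agent.Helper14.RegUniU (st st_mul st_st unitary_of_st st_of_unitary det_st)

/-- Semisimple elements of `SU_n(q)` that are conjugate in `GL_n(q²)` are conjugate in
`SU_n(q)`. -/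
theorem conj_su {F : Type*} [Field F] [Fintype F] {q : ℕ} (hF : Fintype.card F = q ^ 2)
    {n : ℕ} (hn : 0 < n) (g h : ↥(Cfsg.SU n F q)) (N : ℕ)
    (hgN : (g.1.1 : Matrix (Fin n) (Fin n) F) ^ N = 1) (hNF : (N : F) ≠ 0)
    (P : GL (Fin n) F)
    (hP : (P : Matrix (Fin n) (Fin n) F) * (g.1.1 : Matrix (Fin n) (Fin n) F)
      = (h.1.1 : Matrix (Fin n) (Fin n) F) * (P : Matrix (Fin n) (Fin n) F)) :
    IsConj g h := by
  classical
  have hq : QF F q := qf_of_card hF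
  obtain ⟨Mg, hMg⟩ : ∃ Mg : Matrix (Fin n) (Fin n) F, Mg = g.1.1 := ⟨_, rfl⟩
  obtain ⟨Mh, hMh⟩ : ∃ Mh : Matrix (Fin n) (Fin n) F, Mh = h.1.1 := ⟨_, rfl⟩
  rw [← hMg] at hgN hP
  rw [← hMh] at hP
  have hgu : ∀ x y, Cfsg.hermForm n F q (Mg *ᵥ x) (Mg *ᵥ y) = Cfsg.hermForm n F q x y := by
    rw [hMg]; exact g.2
  have hhu : ∀ x y, Cfsg.hermForm n F q (Mh *ᵥ x) (Mh *ᵥ y) = Cfsg.hermForm n F q x y := by
    rw [hMh]; exact h.2
  have hgst : st hq Mg * Mg = 1 := st_of_unitary hq Mg hgu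
  obtain ⟨gG, hgG⟩ : ∃ gG : GL (Fin n) F, (gG : Matrix (Fin n) (Fin n) F) = Mg :=
    ⟨Matrix.SpecialLinearGroup.toGL g.1, by rw [hMg]; rfl⟩
  obtain ⟨hG, hhG⟩ : ∃ hG : GL (Fin n) F, (hG : Matrix (Fin n) (Fin n) F) = Mh :=
    ⟨Matrix.SpecialLinearGroup.toGL h.1, by rw [hMh]; rfl⟩
  have hgGm : gG ∈ Cfsg.GU n F q := by
    rw [Cfsg.Agent.S0783.mem_GU_iff, hgG]; exact hgu
  have hhGm : hG ∈ Cfsg.GU n F q := by
    rw [Cfsg.Agent.S0783.mem_GU_iff, hhG]; exact hhu
  obtain ⟨U, hU, hUc⟩ := Cfsg.Agent.Helper8.GUC.conj_gu hF gG hG hgGm hhGm P (by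
    rw [mul_inv_eq_iff_eq_mul]
    apply Units.ext
    rw [Units.val_mul, Units.val_mul, hgG, hhG]
    exact hP)
  obtain ⟨MU, hMU⟩ : ∃ MU : Matrix (Fin n) (Fin n) F, MU = (U : Matrix (Fin n) (Fin n) F) :=
    ⟨_, rfl⟩
  have hUM : MU * Mg = Mh * MU := by
    have h1 : U * gG = hG * U := mul_inv_eq_iff_eq_mul.1 hUc
    have h2 := congrArg Units.val h1
    rw [Units.val_mul, Units.val_mul, hgG, hhG, ← hMU] at h2
    exact h2
  have hUu : st hq MU * MU = 1 := by
    rw [hMU]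
    exact st_of_unitary hq _ ((Cfsg.Agent.S0783.mem_GU_iff U).1 hU)
  have hUdet : MU.det ^ (q + 1) = 1 := by
    have h1 := congrArg Matrix.det hUu
    rw [Matrix.det_mul, det_st, frob_apply, Matrix.det_one] at h1
    rw [pow_succ]
    exact h1
  obtain ⟨c, hcu, hcX, hcdet⟩ := Cfsg.Agent.Helper14.SemiU.cent_det_gu hF hq hn Mg hgst N hgN
    hNF MU.det hUdet
  have hcu' : c * st hq c = 1 := mul_eq_one_comm.1 hcu
  obtain ⟨MY, hMY⟩ : ∃ MY : Matrix (Fin n) (Fin n) F, MY = MU * st hq c := ⟨_, rfl⟩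
  have hYdet : MY.det = 1 := by
    rw [hMY, Matrix.det_mul, det_st, hcdet, frob_apply, ← pow_succ']
    exact hUdet
  have hYu : st hq MY * MY = 1 := by
    calc st hq MY * MY = c * (st hq MU * MU) * st hq c := by
          rw [hMY, st_mul, st_st]
          simp only [Matrix.mul_assoc]
      _ = 1 := by rw [hUu, Matrix.mul_one, hcu']
  have hstc : st hq c * Mg = Mg * st hq c := by
    calc st hq c * Mg = st hq c * Mg * (c * st hq c) := by rw [hcu', Matrix.mul_one]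
      _ = st hq c * (Mg * c) * st hq c := by simp only [Matrix.mul_assoc]
      _ = st hq c * (c * Mg) * st hq c := by rw [hcX]
      _ = (st hq c * c) * Mg * st hq c := by simp only [Matrix.mul_assoc]
      _ = Mg * st hq c := by rw [hcu, Matrix.one_mul]
  have hYc : MY * Mg = Mh * MY := by
    calc MY * Mg = MU * (st hq c * Mg) := by rw [hMY, Matrix.mul_assoc]
      _ = MU * (Mg * st hq c) := by rw [hstc]
      _ = (MU * Mg) * st hq c := by rw [Matrix.mul_assoc]
      _ = Mh * MY := by rw [hUM, hMY, Matrix.mul_assoc]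
  rw [isConj_iff]
  refine ⟨⟨⟨MY, hYdet⟩, fun x y => unitary_of_st hq _ hYu x y⟩, ?_⟩
  rw [mul_inv_eq_iff_eq_mul]
  apply Subtype.ext
  apply Subtype.ext
  show MY * (g.1.1 : Matrix (Fin n) (Fin n) F) = (h.1.1 : Matrix (Fin n) (Fin n) F) * MY
  rw [← hMg, ← hMh]
  exact hYc


/-- In the special unitary group `SU_n(q)` (inside `SL_n` over the field with `q²` elements), `q` a power of the prime `p`, two elements of order prime to `p` with the same characteristic polynomial are conjugate in `SU_n(q)`. -/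
theorem result {F : Type*} [Field F] [Fintype F] {q : ℕ} (hF : Fintype.card F = q ^ 2) (p : ℕ) [Fact p.Prime] [CharP F p] (n : ℕ)
    (g h : ↥(Cfsg.SU n F q)) (hg : (orderOf g).Coprime p) (hh : (orderOf h).Coprime p)
    (hc : ((g : Matrix.SpecialLinearGroup (Fin n) F) : Matrix (Fin n) (Fin n) F).charpoly =
      ((h : Matrix.SpecialLinearGroup (Fin n) F) : Matrix (Fin n) (Fin n) F).charpoly) : IsConj g h := by
  classical
  rcases Nat.eq_zero_or_pos n with hn | hn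
  · subst hn
    have hgh : g = h := by
      apply Subtype.ext
      apply Subtype.ext
      ext i j
      exact i.elim0
    rw [hgh]
  have hpow : ∀ x : ↥(Cfsg.SU n F q), (x.1.1 : Matrix (Fin n) (Fin n) F) ^ orderOf x = 1 := by
    intro x
    have h2 : (((x ^ orderOf x : ↥(Cfsg.SU n F q)) : Matrix.SpecialLinearGroup (Fin n) F) :
        Matrix (Fin n) (Fin n) F) = 1 := by
      rw [pow_orderOf_eq_one]; rfl
    rw [Subgroup.coe_pow, Matrix.SpecialLinearGroup.coe_pow] at h2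
    exact h2
  have key : ∀ x : ↥(Cfsg.SU n F q), (orderOf x).Coprime p →
      Module.End.IsSemisimple (Matrix.toLin' (x.1.1 : Matrix (Fin n) (Fin n) F)) := by
    intro x hx
    exact Cfsg.Agent.S2388.semi_of_order p n _ (orderOf x) hx (hpow x)
  obtain ⟨P, hP⟩ := Cfsg.Agent.Helper14.SemiConj.conj_matrix _ _ (key g hg) (key h hh) hc
  have hNF : ((orderOf g : ℕ) : F) ≠ 0 := by
    intro h0
    rw [CharP.cast_eq_zero_iff F p] at h0
    have h1 : p ∣ Nat.gcd (orderOf g) p := Nat.dvd_gcd h0 dvd_rfl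
    rw [hg] at h1
    exact (Fact.out : p.Prime).one_lt.ne' (Nat.dvd_one.mp h1)
  exact conj_su hF hn g h (orderOf g) (hpow g) hNF P hP

end Cfsg.Agent.S2390
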