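import Cfsg.Statements.S2386
import Mathlib
import Cfsg.Agent.Helper14.SemiU2
import Cfsg.Agent.S2390

set_option autoImplicit false
open Cfsg

namespace Cfsg.Agent.S2386

open Polynomial
open scoped Matrix
open Cfsg.Agent.Helper8.SULag (QF frob frob_apply frob_frob qf_of_card)
open Cfsg.Agent.Helper14.RegUniU (st st_of_unitary unitary_of_st)
open Cfsg.Agent.Helper14.PrimeOrdU (sstar sstar_natDegree sstar_charpoly_unitary QC)
open Cfsg.Agent.Helper14.SemiU (sstar_coeff QC_of_sstar card_fix charpoly_isConj_su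
  exists_su_charpoly)


/-- In the special unitary group `SU_n(q)` (matrices of determinant one over the field with `q²` elements preserving the standard Hermitian form), `q` a power of the prime `p`, the number of conjugacy classes of elements of order prime to `p` is `q^(n-1)`. -/
theorem result {F : Type*} [Field F] [Fintype F] {q : ℕ} (hF : Fintype.card F = q ^ 2) (p : ℕ) [Fact p.Prime] [CharP F p] (n : ℕ) (hn : 1 ≤ n) :
    Nat.card {c : ConjClasses ↥(Cfsg.SU n F q) // ∃ g : ↥(Cfsg.SU n F q), ConjClasses.mk g = c ∧ (orderOf g).Coprime p} = q ^ (n - 1) := by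
  classical
  have hq : QF F q := qf_of_card hF
  obtain ⟨n', rfl⟩ : ∃ n', n = n' + 1 := ⟨n - 1, by omega⟩
  rw [Nat.add_sub_cancel]
  obtain ⟨ε, hε⟩ : ∃ ε : F, ε = (-1) ^ (n' + 1) := ⟨_, rfl⟩
  have hεσ : frob hq ε = ε := by rw [hε, map_pow, map_neg, map_one]
  have hεε : ε * ε = 1 := by rw [hε, ← mul_pow, neg_mul_neg, one_mul, one_pow]
  have hεinv : ε⁻¹ = ε := inv_eq_of_mul_eq_one_left hεε
  have hε0 : ε ≠ 0 := by
    intro h
    rw [h, zero_mul] at hεε
    exact zero_ne_one hεε
  obtain ⟨θ, hθ⟩ : ∃ θ : (Fin n' → F) → (Fin n' → F),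
      ∀ c i, θ c i = ε * frob hq (c (Fin.rev i)) :=
    ⟨fun c i => ε * frob hq (c (Fin.rev i)), fun _ _ => rfl⟩
  have hθadd : ∀ x y, θ (x + y) = θ x + θ y := by
    intro x y
    funext i
    rw [Pi.add_apply, hθ, hθ, hθ, Pi.add_apply, map_add, mul_add]
  have hθsm : ∀ (c : F) x, θ (c • x) = frob hq c • θ x := by
    intro c x
    funext i
    rw [Pi.smul_apply, hθ, hθ, Pi.smul_apply, smul_eq_mul, smul_eq_mul, map_mul]
    ring
  have hθinv : ∀ x, θ (θ x) = x := by
    intro x
    funext i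
    rw [hθ, hθ, Fin.rev_rev, map_mul, hεσ, frob_frob, ← mul_assoc, hεε, one_mul]
  have hT : Nat.card {c : Fin n' → F // θ c = c} = q ^ n' := card_fix hF hq θ hθadd hθsm hθinv
  obtain ⟨χ, hχ⟩ : ∃ χ : ↥(Cfsg.SU (n' + 1) F q) → F[X],
      ∀ x, χ x = (x.1.1 : Matrix (Fin (n' + 1)) (Fin (n' + 1)) F).charpoly := ⟨_, fun _ => rfl⟩
  have hchar : ∀ x : ↥(Cfsg.SU (n' + 1) F q),
      (χ x).Monic ∧ (χ x).natDegree = n' + 1 ∧ (χ x).coeff 0 = ε ∧ sstar hq (χ x) = χ x := by
    intro x
    rw [hχ]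
    refine ⟨Matrix.charpoly_monic _, ?_, ?_, ?_⟩
    · rw [Matrix.charpoly_natDegree_eq_dim, Fintype.card_fin]
    · have h1 := Matrix.det_eq_sign_charpoly_coeff
        (x.1.1 : Matrix (Fin (n' + 1)) (Fin (n' + 1)) F)
      rw [x.1.2, Fintype.card_fin, ← hε] at h1
      calc (x.1.1 : Matrix (Fin (n' + 1)) (Fin (n' + 1)) F).charpoly.coeff 0
          = ε * (ε * (x.1.1 : Matrix (Fin (n' + 1)) (Fin (n' + 1)) F).charpoly.coeff 0) := by
            rw [← mul_assoc, hεε, one_mul]
        _ = ε := by rw [← h1, mul_one]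
    · exact sstar_charpoly_unitary hq _ (st_of_unitary hq _ x.2)
  have hrel : ∀ f : F[X], f.natDegree = n' + 1 → f.coeff 0 = ε → sstar hq f = f →
      ∀ k, k ≤ n' + 1 → f.coeff k = ε * frob hq (f.coeff (n' + 1 - k)) := by
    intro f hd h0 hs k hk
    have h1 := sstar_coeff hq f k (by rw [hd]; exact hk)
    rw [hs, h0, hεσ, hεinv, hd] at h1
    exact h1
  have hrev : ∀ i : Fin n', ((Fin.rev i : Fin n') : ℕ) + 1 = n' + 1 - ((i : ℕ) + 1) := by
    intro i
    rw [Fin.val_rev]
    have := i.2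
    omega
  have hvec : ∀ x : ↥(Cfsg.SU (n' + 1) F q),
      θ (fun i : Fin n' => (χ x).coeff ((i : ℕ) + 1))
        = (fun i : Fin n' => (χ x).coeff ((i : ℕ) + 1)) := by
    intro x
    obtain ⟨hm, hd, h0, hs⟩ := hchar x
    funext i
    rw [hθ]
    show ε * frob hq ((χ x).coeff (((Fin.rev i : Fin n') : ℕ) + 1)) = (χ x).coeff ((i : ℕ) + 1)
    rw [hrev i]
    exact (hrel _ hd h0 hs ((i : ℕ) + 1) (by have := i.2; omega)).symm
  have hrep : ∀ c : {c : ConjClasses ↥(Cfsg.SU (n' + 1) F q) //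
      ∃ g : ↥(Cfsg.SU (n' + 1) F q), ConjClasses.mk g = c ∧ (orderOf g).Coprime p},
      ∃ g : ↥(Cfsg.SU (n' + 1) F q), ConjClasses.mk g = c.1 ∧ (orderOf g).Coprime p :=
    fun c => c.2
  choose rep hrep1 hrep2 using hrep
  apply le_antisymm
  · rw [← hT]
    apply Nat.card_le_card_of_injective (fun c =>
      (⟨fun i : Fin n' => (χ (rep c)).coeff ((i : ℕ) + 1), hvec (rep c)⟩ :
        {c : Fin n' → F // θ c = c}))
    intro c c' h
    have h' : ∀ j, j < n' → (χ (rep c)).coeff (j + 1) = (χ (rep c')).coeff (j + 1) :=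
      fun j hj => congrFun (congrArg Subtype.val h) ⟨j, hj⟩
    have hc : χ (rep c) = χ (rep c') := by
      obtain ⟨m1, d1, z1, -⟩ := hchar (rep c)
      obtain ⟨m2, d2, z2, -⟩ := hchar (rep c')
      ext k
      rcases Nat.lt_trichotomy k (n' + 1) with hk | hk | hk
      · rcases Nat.eq_zero_or_pos k with h0 | h0
        · rw [h0, z1, z2]
        · obtain ⟨j, rfl⟩ : ∃ j, k = j + 1 := ⟨k - 1, by omega⟩
          exact h' j (by omega)
      · have e1 : (χ (rep c)).coeff (n' + 1) = 1 := by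
          have := m1.coeff_natDegree
          rw [d1] at this
          exact this
        have e2 : (χ (rep c')).coeff (n' + 1) = 1 := by
          have := m2.coeff_natDegree
          rw [d2] at this
          exact this
        rw [hk, e1, e2]
      · rw [Polynomial.coeff_eq_zero_of_natDegree_lt (by rw [d1]; exact hk),
          Polynomial.coeff_eq_zero_of_natDegree_lt (by rw [d2]; exact hk)]
    have hconj := Cfsg.Agent.S2390.result hF p (n' + 1) (rep c) (rep c') (hrep2 c) (hrep2 c')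
      (by rw [← hχ, ← hχ]; exact hc)
    apply Subtype.ext
    rw [← hrep1 c, ← hrep1 c']
    exact ConjClasses.mk_eq_mk_iff_isConj.mpr hconj
  · rw [← hT]
    obtain ⟨e, he⟩ : ∃ e : {ψ : F[X] // ψ.Monic ∧ ψ.natDegree = n' + 1} ≃ (Fin (n' + 1) → F),
        ∀ x i, e x i = x.1.coeff (i : ℕ) := by
      refine ⟨(monicEquivDegreeLT (n' + 1)).trans (degreeLTEquiv F (n' + 1)).toEquiv,
        fun x i => ?_⟩
      show (x.1.eraseLead).coeff (i : ℕ) = x.1.coeff (i : ℕ)
      exact eraseLead_coeff_of_ne _ (by rw [x.2.2]; have := i.2; omega)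
    have hex : ∀ c : {c : Fin n' → F // θ c = c}, ∃ x : ↥(Cfsg.SU (n' + 1) F q),
        (orderOf x).Coprime p ∧ ∀ i : Fin n', (χ x).coeff ((i : ℕ) + 1) = c.1 i := by
      rintro ⟨c, hc⟩
      obtain ⟨f, hf⟩ : ∃ f : {ψ : F[X] // ψ.Monic ∧ ψ.natDegree = n' + 1},
          f = e.symm (Fin.cons ε c) := ⟨_, rfl⟩
      have hef : e f = Fin.cons ε c := by rw [hf, Equiv.apply_symm_apply]
      have hf0 : f.1.coeff 0 = ε := by
        have h0 := he f 0
        rw [hef, Fin.cons_zero] at h0
        exact h0.symm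
      have hfs : ∀ i : Fin n', f.1.coeff ((i : ℕ) + 1) = c i := by
        intro i
        have h1 := he f i.succ
        rw [hef, Fin.cons_succ] at h1
        exact h1.symm
      have hlead : f.1.coeff (n' + 1) = 1 := by
        have := f.2.1.coeff_natDegree
        rw [f.2.2] at this
        exact this
      have hfstar : sstar hq f.1 = f.1 := by
        ext k
        rcases Nat.lt_or_ge (n' + 1) k with hk | hk
        · rw [Polynomial.coeff_eq_zero_of_natDegree_lt (by
              rw [sstar_natDegree hq f.1 (by rw [hf0]; exact hε0), f.2.2]; exact hk),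
            Polynomial.coeff_eq_zero_of_natDegree_lt (by rw [f.2.2]; exact hk)]
        · rw [sstar_coeff hq f.1 k (by rw [f.2.2]; exact hk), hf0, hεσ, hεinv, f.2.2]
          rcases Nat.eq_zero_or_pos k with h0 | h0
          · subst h0
            rw [Nat.sub_zero, hf0, hlead, map_one, mul_one]
          · rcases Nat.lt_or_ge k (n' + 1) with hk2 | hk2
            · obtain ⟨j, rfl⟩ : ∃ j, k = j + 1 := ⟨k - 1, by omega⟩
              have hj : j < n' := by omega
              have h1 := hfs ⟨j, hj⟩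
              have h2 := hfs (Fin.rev ⟨j, hj⟩)
              rw [hrev ⟨j, hj⟩] at h2
              have h4 := congrFun hc ⟨j, hj⟩
              rw [hθ] at h4
              show ε * frob hq (f.1.coeff (n' + 1 - (j + 1))) = f.1.coeff (j + 1)
              rw [h2, h1]
              exact h4
            · have hkn : k = n' + 1 := by omega
              subst hkn
              rw [Nat.sub_self, hf0, hεσ, hεε, hlead]
      have hQC : QC hq f.1 := QC_of_sstar hq _ f.1 rfl f.2.1 (by rw [hf0]; exact hε0) hfstar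
      obtain ⟨x, hx1, hx2⟩ := exists_su_charpoly hq p f.1 hQC f.2.2 (by
        rw [hf0, ← hε]; exact hεε)
      refine ⟨x, hx1, fun i => ?_⟩
      rw [hχ, hx2]
      exact hfs i
    choose H hH1 hH2 using hex
    apply Nat.card_le_card_of_injective (fun c =>
      (⟨ConjClasses.mk (H c), H c, rfl, hH1 c⟩ :
        {c : ConjClasses ↥(Cfsg.SU (n' + 1) F q) //
          ∃ g : ↥(Cfsg.SU (n' + 1) F q), ConjClasses.mk g = c ∧ (orderOf g).Coprime p}))
    intro a b hab
    have h1 : ConjClasses.mk (H a) = ConjClasses.mk (H b) := congrArg Subtype.val hab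
    rw [ConjClasses.mk_eq_mk_iff_isConj] at h1
    have h2 : χ (H a) = χ (H b) := by
      rw [hχ, hχ]
      exact charpoly_isConj_su _ _ h1
    apply Subtype.ext
    funext i
    rw [← hH2 a i, ← hH2 b i, h2]

end Cfsg.Agent.S2386
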