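import Cfsg.Statements.S2387
import Mathlib
import Cfsg.Agent.Helper14.SemiCount

set_option autoImplicit false
open scoped MatrixGroups
open Cfsg

namespace Cfsg.Agent.S2387
open Cfsg.Agent.Helper14.SemiConj

/-- In `GL_n(q)` with `n ≥ 1`, `q` a power of the prime `p`, the number of conjugacy classes of elements of order prime to `p` (diagonalisable over the algebraic closure; determined by the characteristic polynomial) is `(q - 1) q^(n-1)`. -/
theorem result {F : Type*} [Field F] [Fintype F] {q : ℕ} (hq : Fintype.card F = q) (p : ℕ) [Fact p.Prime] [CharP F p] (n : ℕ) (hn : 1 ≤ n) :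
    Nat.card {c : ConjClasses (GL (Fin n) F) // ∃ g : GL (Fin n) F, ConjClasses.mk g = c ∧ (orderOf g).Coprime p} = (q - 1) * q ^ (n - 1) := by
  classical
  subst hq
  obtain ⟨n', rfl⟩ : ∃ n', n = n' + 1 := ⟨n - 1, by omega⟩
  have hrep : ∀ c : {c : ConjClasses (GL (Fin (n' + 1)) F) // ∃ g : GL (Fin (n' + 1)) F,
      ConjClasses.mk g = c ∧ (orderOf g).Coprime p}, ∃ g : GL (Fin (n' + 1)) F,
      ConjClasses.mk g = c.1 ∧ (orderOf g).Coprime p := fun c => c.2
  choose rep hrep1 hrep2 using hrep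
  have hsemi : ∀ g : GL (Fin (n' + 1)) F, (orderOf g).Coprime p →
      Module.End.IsSemisimple (Matrix.toLin' (g : Matrix (Fin (n' + 1)) (Fin (n' + 1)) F)) := by
    intro g hg
    apply semi_of_order p _ _ (orderOf g) hg
    rw [← Units.val_pow_eq_pow_val, pow_orderOf_eq_one, Units.val_one]
  have hcoeff : ∀ g : GL (Fin (n' + 1)) F,
      (g : Matrix (Fin (n' + 1)) (Fin (n' + 1)) F).charpoly.coeff 0 ≠ 0 := by
    intro g h0
    have h1 := Matrix.det_eq_sign_charpoly_coeff (g : Matrix (Fin (n' + 1)) (Fin (n' + 1)) F)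
    rw [h0, mul_zero] at h1
    have h2 : IsUnit (g : Matrix (Fin (n' + 1)) (Fin (n' + 1)) F).det :=
      (Matrix.isUnit_iff_isUnit_det _).mp g.isUnit
    rw [h1] at h2
    exact not_isUnit_zero h2
  obtain ⟨Θ, hΘ⟩ : ∃ Θ : {c : ConjClasses (GL (Fin (n' + 1)) F) // ∃ g : GL (Fin (n' + 1)) F,
      ConjClasses.mk g = c ∧ (orderOf g).Coprime p} →
      {x : {χ : Polynomial F // χ.Monic ∧ χ.natDegree = n' + 1} // x.1.coeff 0 ≠ 0},
      ∀ c, (Θ c).1.1 = (rep c : Matrix (Fin (n' + 1)) (Fin (n' + 1)) F).charpoly :=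
    ⟨fun c => ⟨⟨(rep c : Matrix (Fin (n' + 1)) (Fin (n' + 1)) F).charpoly,
      Matrix.charpoly_monic _, by rw [Matrix.charpoly_natDegree_eq_dim, Fintype.card_fin]⟩,
      hcoeff _⟩, fun c => rfl⟩
  have hinj : Function.Injective Θ := by
    intro c₁ c₂ h12
    have hc : (rep c₁ : Matrix (Fin (n' + 1)) (Fin (n' + 1)) F).charpoly =
        (rep c₂ : Matrix (Fin (n' + 1)) (Fin (n' + 1)) F).charpoly := by
      rw [← hΘ c₁, ← hΘ c₂, h12]
    obtain ⟨P, hP⟩ := conj_matrix _ _ (hsemi _ (hrep2 c₁)) (hsemi _ (hrep2 c₂)) hc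
    apply Subtype.ext
    rw [← hrep1 c₁, ← hrep1 c₂, ConjClasses.mk_eq_mk_iff_isConj, isConj_iff]
    refine ⟨P, ?_⟩
    rw [mul_inv_eq_iff_eq_mul]
    apply Units.ext
    exact hP
  have hsurj : Function.Surjective Θ := by
    rintro ⟨⟨χ, hχm, hχd⟩, hχ0⟩
    obtain ⟨M, m, hmp, hm0, hMm, hMc⟩ := exists_semisimple_matrix p (n' + 1) χ hχm hχd hχ0
    obtain ⟨g, hg⟩ : ∃ g : GL (Fin (n' + 1)) F,
        (g : Matrix (Fin (n' + 1)) (Fin (n' + 1)) F) = M :=
      ⟨⟨M, M ^ (m - 1), by rw [← pow_succ', Nat.sub_add_cancel hm0, hMm],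
        by rw [← pow_succ, Nat.sub_add_cancel hm0, hMm]⟩, rfl⟩
    have hgo : (orderOf g).Coprime p := by
      apply Nat.Coprime.coprime_dvd_left _ hmp
      apply orderOf_dvd_of_pow_eq_one
      apply Units.ext
      rw [Units.val_pow_eq_pow_val, hg, hMm, Units.val_one]
    refine ⟨⟨ConjClasses.mk g, g, rfl, hgo⟩, ?_⟩
    apply Subtype.ext
    apply Subtype.ext
    rw [hΘ]
    show (rep ⟨ConjClasses.mk g, g, rfl, hgo⟩ :
      Matrix (Fin (n' + 1)) (Fin (n' + 1)) F).charpoly = χ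
    have h1 : ConjClasses.mk (rep ⟨ConjClasses.mk g, g, rfl, hgo⟩) = ConjClasses.mk g :=
      hrep1 ⟨ConjClasses.mk g, g, rfl, hgo⟩
    rw [ConjClasses.mk_eq_mk_iff_isConj, isConj_iff] at h1
    obtain ⟨c, hc⟩ := h1
    rw [← hMc, ← hg]
    have h4 := congrArg (fun y : GL (Fin (n' + 1)) F =>
      (y : Matrix (Fin (n' + 1)) (Fin (n' + 1)) F).charpoly) hc
    simp only [Units.val_mul, Matrix.coe_units_inv] at h4
    exact ((Matrix.charpoly_units_conj c _).symm).trans h4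
  have hcard := card_monic_coeff_zero (F := F) n' (fun c => c ≠ 0)
  rw [Nat.card_congr (Equiv.ofBijective Θ ⟨hinj, hsurj⟩), hcard,
    ← Nat.card_congr unitsEquivNeZero, Nat.card_units, Nat.card_eq_fintype_card,
    Nat.add_sub_cancel]

end Cfsg.Agent.S2387
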