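import Cfsg.Statements.S2391
import Mathlib

set_option autoImplicit false
open Cfsg

namespace Cfsg.Agent.S2391

open Matrix

variable {F : Type*} [Field F] [Fintype F] {n : ℕ}

/-- The iterated fixed spaces of `U`. -/
def W (U : Subgroup (Matrix.SpecialLinearGroup (Fin n) F)) : ℕ → Submodule F (Fin n → F)
  | 0 => ⊥
  | (i + 1) => ⨅ u : U, (W U i).comap
      (Matrix.mulVecLin ((u : Matrix.SpecialLinearGroup (Fin n) F) : Matrix (Fin n) (Fin n) F)
        - LinearMap.id)

theorem mem_W_succ (U : Subgroup (Matrix.SpecialLinearGroup (Fin n) F)) (i : ℕ)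
    (v : Fin n → F) :
    v ∈ W U (i + 1) ↔ ∀ u ∈ U, (u : Matrix (Fin n) (Fin n) F) *ᵥ v - v ∈ W U i := by
  simp only [W, Submodule.mem_iInf, Submodule.mem_comap, LinearMap.sub_apply,
    Matrix.mulVecLin_apply, LinearMap.id_apply, Subtype.forall]

theorem mem_W_zero (U : Subgroup (Matrix.SpecialLinearGroup (Fin n) F)) (v : Fin n → F) :
    v ∈ W U 0 ↔ v = 0 := by
  simp only [W, Submodule.mem_bot]

theorem W_mono (U : Subgroup (Matrix.SpecialLinearGroup (Fin n) F)) (i : ℕ) :
    W U i ≤ W U (i + 1) := by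
  induction i with
  | zero =>
    intro v hv
    rw [mem_W_zero] at hv
    rw [hv]
    exact Submodule.zero_mem _
  | succ i ih =>
    intro v hv
    rw [mem_W_succ] at hv ⊢
    intro u hu
    exact ih (hv u hu)

theorem W_mono' (U : Subgroup (Matrix.SpecialLinearGroup (Fin n) F)) {i j : ℕ} (h : i ≤ j) :
    W U i ≤ W U j := monotone_nat_of_le_succ (W_mono U) h

theorem W_norm (U : Subgroup (Matrix.SpecialLinearGroup (Fin n) F))
    (g : Matrix.SpecialLinearGroup (Fin n) F)
    (hg : g ∈ Subgroup.normalizer (U : Set (Matrix.SpecialLinearGroup (Fin n) F))) (i : ℕ) :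
    ∀ v ∈ W U i, (g : Matrix (Fin n) (Fin n) F) *ᵥ v ∈ W U i := by
  induction i with
  | zero =>
    intro v hv
    rw [mem_W_zero] at hv ⊢
    rw [hv, Matrix.mulVec_zero]
  | succ i ih =>
    intro v hv
    rw [mem_W_succ] at hv ⊢
    intro u hu
    have hu' : g⁻¹ * u * g ∈ U := by
      have h := (Subgroup.mem_normalizer_iff.1 (Subgroup.inv_mem _ hg) u).1 hu
      simpa using h
    have h1 := ih _ (hv _ hu')
    have e : g * (g⁻¹ * u * g) = u * g := by group
    have h2 : (g : Matrix (Fin n) (Fin n) F) *ᵥ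
        (((g⁻¹ * u * g : Matrix.SpecialLinearGroup (Fin n) F) : Matrix (Fin n) (Fin n) F) *ᵥ v
          - v)
        = (u : Matrix (Fin n) (Fin n) F) *ᵥ ((g : Matrix (Fin n) (Fin n) F) *ᵥ v)
          - (g : Matrix (Fin n) (Fin n) F) *ᵥ v := by
      rw [Matrix.mulVec_sub, Matrix.mulVec_mulVec, ← Matrix.SpecialLinearGroup.coe_mul, e,
        Matrix.SpecialLinearGroup.coe_mul, Matrix.mulVec_mulVec]
    rw [← h2]
    exact h1

theorem W_norm_map (U : Subgroup (Matrix.SpecialLinearGroup (Fin n) F))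
    (g : Matrix.SpecialLinearGroup (Fin n) F)
    (hg : g ∈ Subgroup.normalizer (U : Set (Matrix.SpecialLinearGroup (Fin n) F))) (i : ℕ) :
    (W U i).map (Matrix.mulVecLin (g : Matrix (Fin n) (Fin n) F)) = W U i := by
  apply le_antisymm
  · rintro _ ⟨v, hv, rfl⟩
    exact W_norm U g hg i v hv
  · intro w hw
    refine ⟨((g⁻¹ : Matrix.SpecialLinearGroup (Fin n) F) : Matrix (Fin n) (Fin n) F) *ᵥ w,
      W_norm U g⁻¹ (Subgroup.inv_mem _ hg) i w hw, ?_⟩
    rw [Matrix.mulVecLin_apply, Matrix.mulVec_mulVec, ← Matrix.SpecialLinearGroup.coe_mul,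
      mul_inv_cancel, Matrix.SpecialLinearGroup.coe_one, Matrix.one_mulVec]

theorem W_lt (p : ℕ) [Fact p.Prime] [CharP F p]
    (U : Subgroup (Matrix.SpecialLinearGroup (Fin n) F)) (hU : IsPGroup p ↥U) (i : ℕ)
    (hi : W U i ≠ ⊤) : W U i < W U (i + 1) := by
  classical
  refine lt_of_le_of_ne (W_mono U i) ?_
  intro heq
  have hinv : ∀ u : ↥U, W U i ≤ (W U i).comap
      (Matrix.mulVecLin ((u : Matrix.SpecialLinearGroup (Fin n) F) : Matrix (Fin n) (Fin n) F)) := by
    intro u v hv
    exact W_norm U u (Subgroup.le_normalizer u.2) i v hv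
  let ρ : ↥U →* Module.End F ((Fin n → F) ⧸ W U i) :=
    { toFun := fun u => (W U i).mapQ (W U i)
        (Matrix.mulVecLin ((u : Matrix.SpecialLinearGroup (Fin n) F) : Matrix (Fin n) (Fin n) F))
        (hinv u)
      map_one' := by
        apply Submodule.linearMap_qext
        apply LinearMap.ext
        intro v
        simp
      map_mul' := by
        intro a b
        apply Submodule.linearMap_qext
        apply LinearMap.ext
        intro v
        simp [Matrix.mulVec_mulVec] }
  letI : MulAction ↥U ((Fin n → F) ⧸ W U i) := MulAction.compHom _ ρ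
  have hsmul : ∀ (u : ↥U) (v : Fin n → F),
      u • (Submodule.Quotient.mk v : (Fin n → F) ⧸ W U i)
        = Submodule.Quotient.mk
          (((u : Matrix.SpecialLinearGroup (Fin n) F) : Matrix (Fin n) (Fin n) F) *ᵥ v) :=
    fun u v => rfl
  have hfix := hU.card_modEq_card_fixedPoints ((Fin n → F) ⧸ W U i)
  haveI : Nontrivial ((Fin n → F) ⧸ W U i) := Submodule.Quotient.nontrivial_iff.2 hi
  have hpQ : p ∣ Nat.card ((Fin n → F) ⧸ W U i) := by
    obtain ⟨x, hx⟩ := exists_ne (0 : (Fin n → F) ⧸ W U i)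
    have h1 : p • x = 0 := by
      rw [← Nat.cast_smul_eq_nsmul F, CharP.cast_eq_zero, zero_smul]
    have h2 : addOrderOf x ∣ p := addOrderOf_dvd_of_nsmul_eq_zero h1
    have h3 : addOrderOf x = p := by
      rcases (Nat.dvd_prime Fact.out).1 h2 with h | h
      · exact absurd (AddMonoid.addOrderOf_eq_one_iff.1 h) hx
      · exact h
    rw [← h3]
    exact addOrderOf_dvd_natCard x
  have hpfix : p ∣ Nat.card (MulAction.fixedPoints ↥U ((Fin n → F) ⧸ W U i)) :=
    (Nat.modEq_zero_iff_dvd.1 ((hfix.symm.trans (Nat.modEq_zero_iff_dvd.2 hpQ))))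
  have h0 : (0 : (Fin n → F) ⧸ W U i) ∈ MulAction.fixedPoints ↥U ((Fin n → F) ⧸ W U i) := by
    rw [MulAction.mem_fixedPoints]
    intro u
    have h := hsmul u 0
    rw [Matrix.mulVec_zero] at h
    exact h
  have hex : ∃ x ∈ MulAction.fixedPoints ↥U ((Fin n → F) ⧸ W U i), x ≠ 0 := by
    by_contra hall
    push Not at hall
    have hone : Nat.card (MulAction.fixedPoints ↥U ((Fin n → F) ⧸ W U i)) = 1 := by
      rw [Nat.card_eq_one_iff_unique]
      exact ⟨⟨fun a b => Subtype.ext (by rw [hall a a.2, hall b b.2])⟩, ⟨⟨0, h0⟩⟩⟩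
    rw [hone] at hpfix
    exact (Fact.out : p.Prime).one_lt.ne' (Nat.dvd_one.1 hpfix)
  obtain ⟨x, hxfix, hx0⟩ := hex
  obtain ⟨v, rfl⟩ := Submodule.Quotient.mk_surjective (W U i) x
  have hv : v ∉ W U i := fun h => hx0 ((Submodule.Quotient.mk_eq_zero _).2 h)
  apply hv
  rw [heq, mem_W_succ]
  intro u hu
  have h := (MulAction.mem_fixedPoints.1 hxfix) ⟨u, hu⟩
  rw [hsmul] at h
  exact (Submodule.Quotient.eq _).1 h


/-- The Borel–Tits property of `SL_n(q)` in flag form: for a field `F` of characteristic `p` with finitely many elements and a non-trivial `p`-subgroup `U` of `SL_n(F)`, there is a flag `0 = V₀ < V₁ < ⋯ < V_{k+1} = F^n` with at least one proper non-zero member such that every element of the normaliser of `U` maps each `V_i` onto itself and every element of `U` acts trivially on each quotient `V_{i+1}/V_i` (so the normaliser lies in the parabolic subgroup of the flag and `U` in its unipotent radical). -/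
theorem result {F : Type*} [Field F] [Fintype F] (p : ℕ) [Fact p.Prime] [CharP F p] (n : ℕ)
    (U : Subgroup (Matrix.SpecialLinearGroup (Fin n) F)) (hU : IsPGroup p ↥U) (hne : U ≠ ⊥) :
    ∃ (k : ℕ) (V : Fin (k + 2) → Submodule F (Fin n → F)), 1 ≤ k ∧ StrictMono V ∧ V 0 = ⊥ ∧ V (Fin.last (k + 1)) = ⊤ ∧
      (∀ g ∈ Subgroup.normalizer (U : Set (Matrix.SpecialLinearGroup (Fin n) F)), ∀ i, (V i).map (Matrix.mulVecLin (g : Matrix (Fin n) (Fin n) F)) = V i) ∧
      (∀ u ∈ U, ∀ i : Fin (k + 1), ∀ v ∈ V i.succ, (u : Matrix (Fin n) (Fin n) F).mulVec v - v ∈ V (Fin.castSucc i)) := by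

  classical
  have hex : ∃ m, W U m = ⊤ := by
    by_contra hne'
    push Not at hne'
    have hdim : ∀ i, i ≤ Module.finrank F (W U i) := by
      intro i
      induction i with
      | zero => exact Nat.zero_le _
      | succ i ih =>
        have := Submodule.finrank_lt_finrank_of_lt (W_lt p U hU i (hne' i))
        omega
    have h1 := hdim (n + 1)
    have h2 : Module.finrank F (W U (n + 1)) ≤ n := by
      have := Submodule.finrank_le (W U (n + 1))
      simpa using this
    omega
  obtain ⟨m, hmtop, hmmin⟩ : ∃ m, W U m = ⊤ ∧ ∀ i, i < m → W U i ≠ ⊤ :=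
    ⟨Nat.find hex, Nat.find_spec hex, fun i hi => Nat.find_min hex hi⟩
  have hW1 : W U 1 ≠ ⊤ := by
    intro h
    apply hne
    rw [Subgroup.eq_bot_iff_forall]
    intro u hu
    have h1 : ∀ v : Fin n → F, (u : Matrix (Fin n) (Fin n) F) *ᵥ v = v := by
      intro v
      have hv : v ∈ W U (0 + 1) := by
        rw [zero_add, h]
        exact Submodule.mem_top
      rw [mem_W_succ] at hv
      have h0 := hv u hu
      rw [mem_W_zero] at h0
      exact sub_eq_zero.1 h0
    apply Subtype.ext
    rw [Matrix.SpecialLinearGroup.coe_one]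
    apply Matrix.toLin'.injective
    apply LinearMap.ext
    intro v
    rw [Matrix.toLin'_apply, Matrix.toLin'_apply, h1 v, Matrix.one_mulVec]
  have hm2 : 2 ≤ m := by
    by_contra hlt
    have hm1 : m ≤ 1 := by omega
    have h := W_mono' U hm1
    rw [hmtop] at h
    exact hW1 (top_le_iff.1 h)
  refine ⟨m - 1, fun i => W U i.val, by omega, ?_, ?_, ?_, ?_, ?_⟩
  · apply Fin.strictMono_iff_lt_succ.2
    intro i
    show W U (Fin.castSucc i).val < W U (i.succ).val
    rw [Fin.val_castSucc, Fin.val_succ]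
    exact W_lt p U hU i.val (hmmin _ (by have := i.2; omega))
  · rfl
  · show W U (Fin.last (m - 1 + 1)).val = ⊤
    rw [Fin.val_last]
    have e : m - 1 + 1 = m := by omega
    rw [e]
    exact hmtop
  · intro g hg i
    exact W_norm_map U g hg _
  · intro u hu i v hv
    have hv' : v ∈ W U (i.val + 1) := hv
    exact (mem_W_succ U _ v).1 hv' u hu

end Cfsg.Agent.S2391
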