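import Cfsg.Statements.S2411
import Cfsg.Agent.Helper20.SpGen16

set_option autoImplicit false
open Cfsg

namespace Cfsg.Agent.S2411

/-- The projective symplectic group `PSp_{2m}(q)` with `m ≥ 2` (and `q > 2` if `m = 2`) is generated by two of its elements. -/
theorem result {F : Type*} [Field F] [Fintype F] (m : ℕ) (hm : 2 ≤ m) (hF : m = 2 → 2 < Fintype.card F) :
    ∃ a b : Cfsg.PSp m F, Subgroup.closure ({a, b} : Set (Cfsg.PSp m F)) = ⊤ := by
  classical
  obtain ⟨κu, hκu⟩ := IsCyclic.exists_monoid_generator (α := Fˣ)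
  have hκ : (κu : F) * ((κu⁻¹ : Fˣ) : F) = 1 := by
    rw [← Units.val_mul, mul_inv_cancel, Units.val_one]
  have hgen : ∀ a : F, a ≠ 0 → ∃ l : ℕ, (κu : F) ^ l = a := by
    intro a ha
    obtain ⟨l, hl⟩ := (Submonoid.mem_powers_iff _ _).1 (hκu (Units.mk0 a ha))
    refine ⟨l, ?_⟩
    have h := congrArg Units.val hl
    rwa [Units.val_pow_eq_pow_val, Units.val_mk0] at h
  have key : ∃ (s : F) (N : ℕ), (N : F) ≠ 0 ∧ 2 - s ≠ 0 ∧
      ∀ (n : ℕ) (i : Fin n), Cfsg.Agent.Helper20.SpGen.tg_eps i s ^ N = 1 := by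
    by_cases h3 : (3 : F) = 0
    · refine ⟨0, 4, ?_, ?_, fun n i => Cfsg.Agent.Helper20.SpGen.tg_eps_four i⟩
      · intro h4
        have h4' : (4 : F) = 0 := by exact_mod_cast h4
        have h10 : (1 : F) = 0 := by linear_combination h4' - h3
        exact one_ne_zero h10
      · intro h2
        have h10 : (1 : F) = 0 := by linear_combination h3 - h2
        exact one_ne_zero h10
    · refine ⟨-1, 3, by exact_mod_cast h3, ?_, fun n i => Cfsg.Agent.Helper20.SpGen.tg_eps_three i⟩
      intro h2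
      apply h3
      linear_combination h2
  obtain ⟨s, N, hN, hs, hε⟩ := key
  have main : ∃ a b : Matrix.symplecticGroup (Fin m) F,
      Subgroup.closure ({a, b} : Set (Matrix.symplecticGroup (Fin m) F)) = ⊤ := by
    rcases Nat.lt_or_ge m 3 with h | h
    · have h2 : m = 2 := by omega
      subst h2
      exact Cfsg.Agent.Helper20.SpGen.tg_small _ _ hκ hgen s N hN hs (fun i => hε 2 i)
    · obtain ⟨k, rfl⟩ : ∃ k, m = k + 3 := ⟨m - 3, by omega⟩
      exact Cfsg.Agent.Helper20.SpGen.tg_big k _ _ hκ hgen s N hN hs (fun i => hε _ i)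
  obtain ⟨a, b, hab⟩ := main
  refine ⟨QuotientGroup.mk' (Subgroup.center (Matrix.symplecticGroup (Fin m) F)) a,
    QuotientGroup.mk' (Subgroup.center (Matrix.symplecticGroup (Fin m) F)) b, ?_⟩
  have h1 := MonoidHom.map_closure
    (QuotientGroup.mk' (Subgroup.center (Matrix.symplecticGroup (Fin m) F)))
    ({a, b} : Set (Matrix.symplecticGroup (Fin m) F))
  rw [hab, Subgroup.map_top_of_surjective _ (QuotientGroup.mk'_surjective _), Set.image_pair]
    at h1
  exact h1.symm

end Cfsg.Agent.S2411
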