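import Cfsg.Statements.S2416
import Cfsg.Agent.Helper11.ChevGenTab
import Mathlib

set_option autoImplicit false
open Cfsg

namespace Cfsg.Agent.S2416

open Cfsg.Lie Cfsg.Agent.Helper11


/-- A Chevalley group of type G₂, B₂, D₄, F₄, E₆, E₇ or E₈ over a finite field lies in (indeed equals) the subgroup generated by its monomial subgroup `N` and a single fundamental root subgroup `X_p`, where `p` is a short fundamental root if there are two root lengths (any fundamental root otherwise), provided the characteristic is not 2 for types B₂, F₄ and not 3 for type G₂ (and the field has more than two elements for B₂, G₂). -/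
theorem result {K : Type*} [Field K] [Finite K] (D : Cfsg.Lie.ChevalleyDatum) (hD : D ∈ [Cfsg.Lie.chevG2, Cfsg.Lie.chevB2, Cfsg.Lie.chevD4, Cfsg.Lie.chevF4, Cfsg.Lie.chevE6, Cfsg.Lie.chevE7, Cfsg.Lie.chevE8])
    (hK : D ∈ [Cfsg.Lie.chevB2, Cfsg.Lie.chevG2] → ∃ x : K, x ≠ 0 ∧ x ≠ 1)
    (h2 : D ∈ [Cfsg.Lie.chevB2, Cfsg.Lie.chevF4] → ringChar K ≠ 2) (h3 : D = Cfsg.Lie.chevG2 → ringChar K ≠ 3)
    (i : ℕ) (hi : i < D.rank) (hshort : D.isLong (D.simple i) = false) :
    D.group K ≤ D.monomialSubgroup K ⊔ D.rootSubgroup K (D.simple i) := by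
  have hD7 : Seven D := hD
  have hN : D.monomialSubgroup K ≤ D.monomialSubgroup K ⊔ D.rootSubgroup K (D.simple i) := le_sup_left
  have hX : ∀ t : K, xG hD7 (D.simple i) t ∈ D.monomialSubgroup K ⊔ D.rootSubgroup K (D.simple i) :=
    fun t => Subgroup.mem_sup_right (Subgroup.subset_closure ⟨t, rfl⟩)
  have two_ne : ringChar K ≠ 2 → (((2 : ℤ)) : K) ≠ 0 := by
    intro h
    have := Ring.two_ne_zero h
    exact_mod_cast this
  have three_ne : ringChar K ≠ 3 → (((3 : ℤ)) : K) ≠ 0 := by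
    intro h
    have := three_ne_zero_of_ringChar h
    exact_mod_cast this
  simp only [List.mem_cons, List.not_mem_nil, or_false] at hD
  rcases hD with rfl | rfl | rfl | rfl | rfl | rfl | rfl
  · exact gen2_le hD7 _ _ _ _ _ _ _ _ _ gen2OK_G2 (three_ne (h3 rfl)) i hi hshort _ hN hX
  · exact gen2_le hD7 _ _ _ _ _ _ _ _ _ gen2OK_B2 (two_ne (h2 (by simp))) i hi hshort _ hN hX
  · exact gen1_le hD7 _ _ _ gen1OK_D4 i hi hshort _ hN hX
  · exact gen2_le hD7 _ _ _ _ _ _ _ _ _ gen2OK_F4 (two_ne (h2 (by simp))) i hi hshort _ hN hX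
  · exact gen1_le hD7 _ _ _ gen1OK_E6 i hi hshort _ hN hX
  · exact gen1_le hD7 _ _ _ gen1OK_E7 i hi hshort _ hN hX
  · exact gen1_le hD7 _ _ _ gen1OK_E8 i hi hshort _ hN hX

end Cfsg.Agent.S2416
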