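import Cfsg.Statements.S2420
import Mathlib
-- import your own Cfsg.Agent.* helpers here

set_option autoImplicit false
open scoped MatrixGroups
open Cfsg

namespace Cfsg.Agent.S2420

theorem card_diff {F V : Type*} [Field F] [Fintype F] [AddCommGroup V] [Module F V] [Finite V]
    (U W : Submodule F V) (h : W ≤ U) :
    Nat.card {v : V // v ∈ U ∧ v ∉ W} = Nat.card U - Nat.card W := by
  classical
  have e : U ≃ {v : V // v ∈ U ∧ v ∉ W} ⊕ W :=
    { toFun := fun u => if hu : u.1 ∈ W then Sum.inr ⟨u.1, hu⟩ else Sum.inl ⟨u.1, u.2, hu⟩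
      invFun := fun x => match x with
        | Sum.inl v => ⟨v.1, v.2.1⟩
        | Sum.inr w => ⟨w.1, h w.2⟩
      left_inv := by
        intro u
        by_cases hu : u.1 ∈ W
        · simp [hu]
        · simp [hu]
      right_inv := by
        rintro (v | w)
        · simp [v.2.2]
        · simp }
  have h1 := Nat.card_congr e
  rw [Nat.card_sum] at h1
  omega

theorem count_flag {F V : Type*} [Field F] [Fintype F] [AddCommGroup V] [Module F V] [Finite V]
    (k : ℕ) : ∀ (U : Fin k → Submodule F V), Monotone U → ∀ (d : Fin k → ℕ),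
    (∀ j, Nat.card (U j) = Fintype.card F ^ d j) →
    Nat.card {s : Fin k → V // LinearIndependent F s ∧ ∀ j, s j ∈ U j}
      = ∏ j : Fin k, (Fintype.card F ^ d j - Fintype.card F ^ j.val) := by
  classical
  induction k with
  | zero =>
    intro U hU d hd
    rw [Finset.univ_eq_empty, Finset.prod_empty]
    have : Unique {s : Fin 0 → V // LinearIndependent F s ∧ ∀ j, s j ∈ U j} :=
      { default := ⟨fun i => i.elim0, linearIndependent_empty_type, fun j => j.elim0⟩
        uniq := fun s => Subtype.ext (funext fun i => i.elim0) }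
    exact Nat.card_unique
  | succ k ih =>
    intro U hU d hd
    have hfin : Finite {s : Fin k → V // LinearIndependent F s ∧ ∀ j, s j ∈ U j.castSucc} :=
      inferInstance
    have : Fintype {s : Fin k → V // LinearIndependent F s ∧ ∀ j, s j ∈ U j.castSucc} :=
      Fintype.ofFinite _
    have e : {s : Fin (k + 1) → V // LinearIndependent F s ∧ ∀ j, s j ∈ U j}
        ≃ Σ s' : {s : Fin k → V // LinearIndependent F s ∧ ∀ j, s j ∈ U j.castSucc},
            {v : V // v ∈ U (Fin.last k) ∧ v ∉ Submodule.span F (Set.range s'.1)} :=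
      { toFun := fun s => ⟨⟨Fin.init s.1, by
            have h1 := s.2.1
            rw [← Fin.snoc_init_self s.1, linearIndependent_finSnoc] at h1
            exact h1.1, fun j => s.2.2 j.castSucc⟩, ⟨s.1 (Fin.last k), s.2.2 _, by
            have h1 := s.2.1
            rw [← Fin.snoc_init_self s.1, linearIndependent_finSnoc] at h1
            exact h1.2⟩⟩
        invFun := fun x => ⟨Fin.snoc x.1.1 x.2.1, by
            rw [linearIndependent_finSnoc]
            exact ⟨x.1.2.1, x.2.2.2⟩, by
            intro j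
            refine Fin.lastCases ?_ (fun i => ?_) j
            · rw [Fin.snoc_last]; exact x.2.2.1
            · rw [Fin.snoc_castSucc]; exact x.1.2.2 i⟩
        left_inv := by
          intro s
          apply Subtype.ext
          exact Fin.snoc_init_self s.1
        right_inv := by
          rintro ⟨⟨s', hs'⟩, ⟨v, hv⟩⟩
          apply Sigma.subtype_ext
          · apply Subtype.ext
            show Fin.init (Fin.snoc s' v : Fin (k + 1) → V) = s'
            exact Fin.init_snoc _ _
          · show (Fin.snoc s' v : Fin (k + 1) → V) (Fin.last k) = v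
            exact Fin.snoc_last _ _ }
    rw [Nat.card_congr e, Nat.card_sigma]
    have hfib : ∀ s' : {s : Fin k → V // LinearIndependent F s ∧ ∀ j, s j ∈ U j.castSucc},
        Nat.card {v : V // v ∈ U (Fin.last k) ∧ v ∉ Submodule.span F (Set.range s'.1)}
          = Fintype.card F ^ d (Fin.last k) - Fintype.card F ^ k := by
      intro s'
      rw [card_diff]
      · rw [hd, Module.natCard_eq_pow_finrank (K := F), Nat.card_eq_fintype_card,
          finrank_span_eq_card s'.2.1, Fintype.card_fin]
      · rw [Submodule.span_le]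
        rintro _ ⟨j, rfl⟩
        exact hU (Fin.le_last _) (s'.2.2 j)
    rw [Finset.sum_congr rfl (fun s' _ => hfib s'), Finset.sum_const, Finset.card_univ,
      smul_eq_mul, ← Nat.card_eq_fintype_card,
      ih (fun j => U j.castSucc) (fun a b hab => hU (Fin.castSucc_le_castSucc_iff.mpr hab))
        (fun j => d j.castSucc) (fun j => hd _),
      Fin.prod_univ_castSucc]
    simp

def mu' {n : ℕ} (μ : Fin n → ℕ) (b : ℕ) : ℕ := if h : b < n then μ ⟨b, h⟩ else 0

def PS {n : ℕ} (μ : Fin n → ℕ) (b : ℕ) : ℕ := ∑ k ∈ Finset.range b, mu' μ k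

theorem PS_mono {n : ℕ} (μ : Fin n → ℕ) : Monotone (PS μ) := by
  intro a b hab
  exact Finset.sum_le_sum_of_subset (Finset.range_mono hab)

theorem PS_succ {n : ℕ} (μ : Fin n → ℕ) (b : ℕ) : PS μ (b + 1) = PS μ b + mu' μ b :=
  Finset.sum_range_succ _ _

theorem PS_n {n : ℕ} (μ : Fin n → ℕ) (hμ : ∑ i, μ i = n) : PS μ n = n := by
  calc PS μ n = ∑ i : Fin n, mu' μ i.val := Finset.sum_range _
    _ = ∑ i, μ i := Finset.sum_congr rfl (fun i _ => by simp [mu'])
    _ = n := hμ

theorem PS_filter {n : ℕ} (μ : Fin n → ℕ) (j : Fin n) :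
    ∑ k ∈ Finset.univ.filter (fun k : Fin n => k ≤ j), μ k = PS μ (j.val + 1) := by
  unfold PS
  rw [Finset.sum_filter]
  have h1 : ∀ k : Fin n, (if k ≤ j then μ k else 0)
      = (fun x => if x ≤ j.val then mu' μ x else 0) k.val := by
    intro k
    simp only [mu', k.isLt, dif_pos, Fin.le_def]
  rw [Finset.sum_congr rfl (fun k _ => h1 k),
    Fin.sum_univ_eq_sum_range (fun x => if x ≤ j.val then mu' μ x else 0) n, ← Finset.sum_filter]
  congr 1
  ext x
  simp only [Finset.mem_filter, Finset.mem_range]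
  have := j.isLt
  omega

def Lb {n : ℕ} (μ : Fin n → ℕ) (x : ℕ) : ℕ :=
  (Finset.univ.filter fun j : Fin n => PS μ (j.val + 1) ≤ x).card

theorem compLabel_eq {n : ℕ} (μ : Fin n → ℕ) (i : Fin n) : compLabel μ i = Lb μ i.val := by
  unfold compLabel Lb
  simp only [PS_filter]

theorem Lb_le_iff {n : ℕ} (μ : Fin n → ℕ) (b : ℕ) (hb : b < n) (x : ℕ) :
    Lb μ x ≤ b ↔ x < PS μ (b + 1) := by
  constructor
  · intro h
    by_contra hx
    push Not at hx
    have h1 : (Finset.univ.filter fun j : Fin n => j.val < b + 1)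
        ⊆ (Finset.univ.filter fun j : Fin n => PS μ (j.val + 1) ≤ x) := by
      intro j hj
      rw [Finset.mem_filter] at hj ⊢
      exact ⟨hj.1, le_trans (PS_mono μ (by omega)) hx⟩
    have h2 := Finset.card_le_card h1
    rw [Fin.card_filter_val_lt] at h2
    unfold Lb at h
    have : min n (b + 1) = b + 1 := by omega
    omega
  · intro h
    have h1 : (Finset.univ.filter fun j : Fin n => PS μ (j.val + 1) ≤ x)
        ⊆ (Finset.univ.filter fun j : Fin n => j.val < b) := by
      intro j hj
      rw [Finset.mem_filter] at hj ⊢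
      refine ⟨hj.1, ?_⟩
      by_contra hjb
      push Not at hjb
      have := PS_mono μ (show b + 1 ≤ j.val + 1 by omega)
      omega
    have h2 := Finset.card_le_card h1
    rw [Fin.card_filter_val_lt] at h2
    unfold Lb
    have : min n b = b := by omega
    omega

theorem Lb_lt {n : ℕ} (μ : Fin n → ℕ) (hμ : ∑ i, μ i = n) (x : ℕ) (hx : x < n) : Lb μ x < n := by
  have h1 := (Lb_le_iff μ (n - 1) (by omega) x).mpr
    (by rw [show n - 1 + 1 = n by omega, PS_n μ hμ]; exact hx)
  omega

theorem Lb_eq {n : ℕ} (μ : Fin n → ℕ) (b : ℕ) (hb : b < n) (x : ℕ) (h1 : PS μ b ≤ x)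
    (h2 : x < PS μ (b + 1)) : Lb μ x = b := by
  apply le_antisymm ((Lb_le_iff μ b hb x).mpr h2)
  rcases Nat.eq_zero_or_pos b with h0 | h0
  · omega
  · by_contra h
    push Not at h
    have := (Lb_le_iff μ (b - 1) (by omega) x).mp (by omega)
    rw [show b - 1 + 1 = b by omega] at this
    omega

def colSub (n : ℕ) (F : Type*) [Field F] (μ : Fin n → ℕ) (j : Fin n) :
    Submodule F (Fin n → F) where
  carrier := {x | ∀ i, compLabel μ j < compLabel μ i → x i = 0}
  add_mem' := by
    intro a b ha hb i hi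
    simp [ha i hi, hb i hi]
  zero_mem' := fun i _ => rfl
  smul_mem' := by
    intro c x hx i hi
    simp [hx i hi]

theorem colSub_mono (n : ℕ) (F : Type*) [Field F] (μ : Fin n → ℕ) : Monotone (colSub n F μ) := by
  intro j j' hjj' x hx i hi
  apply hx i
  refine lt_of_le_of_lt ?_ hi
  rw [compLabel_eq, compLabel_eq]
  unfold Lb
  apply Finset.card_le_card
  intro t ht
  rw [Finset.mem_filter] at ht ⊢
  exact ⟨ht.1, le_trans ht.2 (Fin.le_def.mp hjj')⟩

theorem card_colSub (n : ℕ) (F : Type*) [Field F] [Fintype F] (μ : Fin n → ℕ)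
    (hμ : ∑ i, μ i = n) (j : Fin n) :
    Nat.card (colSub n F μ j) = Fintype.card F ^ (PS μ (Lb μ j.val + 1)) := by
  classical
  have e : colSub n F μ j ≃ ({i : Fin n // compLabel μ i ≤ compLabel μ j} → F) :=
    { toFun := fun x i => x.1 i.1
      invFun := fun y => ⟨fun i => if h : compLabel μ i ≤ compLabel μ j then y ⟨i, h⟩ else 0, by
        intro i hi
        exact dif_neg (not_le.mpr hi)⟩
      left_inv := by
        intro x
        apply Subtype.ext
        funext i
        by_cases h : compLabel μ i ≤ compLabel μ j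
        · simp [h]
        · simp only [h, dif_neg, not_false_iff]
          exact (x.2 i (not_le.mp h)).symm
      right_inv := by
        intro y
        funext i
        simp [i.2] }
  rw [Nat.card_congr e, Nat.card_fun, Nat.card_eq_fintype_card (α := F), Nat.card_eq_fintype_card,
    Fintype.card_subtype]
  congr 1
  have hl := Lb_lt μ hμ j.val j.isLt
  have h1 : (Finset.univ.filter fun i : Fin n => compLabel μ i ≤ compLabel μ j)
      = Finset.univ.filter fun i : Fin n => i.val < PS μ (Lb μ j.val + 1) := by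
    apply Finset.filter_congr
    intro i _
    rw [compLabel_eq, compLabel_eq]
    exact Lb_le_iff μ _ hl i.val
  rw [h1, Fin.card_filter_val_lt]
  have : PS μ (Lb μ j.val + 1) ≤ n := by
    have := PS_mono μ (show Lb μ j.val + 1 ≤ n by omega)
    rw [PS_n μ hμ] at this
    exact this
  omega

theorem card_P (n : ℕ) (F : Type*) [Field F] [Fintype F] (μ : Fin n → ℕ)
    (hμ : ∑ i, μ i = n) :
    Nat.card (parabolicGL n F μ)
      = ∏ j : Fin n, (Fintype.card F ^ (PS μ (Lb μ j.val + 1)) - Fintype.card F ^ j.val) := by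
  rw [← count_flag n (colSub n F μ) (colSub_mono n F μ) (fun j => PS μ (Lb μ j.val + 1))
    (card_colSub n F μ hμ)]
  apply Nat.card_congr
  refine ((Matrix.equiv_GL_linearindependent n).subtypeEquiv
    (p := fun g => g ∈ parabolicGL n F μ) (q := fun s => ∀ j, s.1 j ∈ colSub n F μ j) ?_).trans
    (Equiv.subtypeSubtypeEquivSubtypeInter (fun s : Fin n → Fin n → F => LinearIndependent F s)
      (fun s => ∀ j, s j ∈ colSub n F μ j))
  intro g
  constructor
  · intro hg j i hi
    exact hg hi
  · intro h i j hij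
    exact h j i hij

theorem geom_id (p r : ℕ) : p * ∑ l ∈ Finset.range r, (p + 1) ^ l + 1 = (p + 1) ^ r := by
  induction r with
  | zero => simp
  | succ r ih =>
    rw [Finset.sum_range_succ, mul_add, pow_succ, ← ih]
    ring

theorem diff_eq (q : ℕ) (hq : 1 ≤ q) (j D : ℕ) (h : j < D) :
    q ^ D - q ^ j = q ^ j * (q - 1) * ∑ l ∈ Finset.range (D - j - 1 + 1), q ^ l := by
  obtain ⟨p, rfl⟩ : ∃ p, q = p + 1 := ⟨q - 1, by omega⟩
  have h1 := geom_id p (D - j - 1 + 1)
  have h2 : (p + 1) ^ D = (p + 1) ^ j * (p + 1) ^ (D - j - 1 + 1) := by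
    rw [← pow_add]; congr 1; omega
  rw [h2, ← h1, Nat.add_sub_cancel]
  apply Nat.sub_eq_of_eq_add
  ring

theorem block_prod {n : ℕ} (μ : Fin n → ℕ) (G : ℕ → ℕ) (m : ℕ) (hm : m ≤ n) :
    ∏ j ∈ Finset.range (PS μ m), G (PS μ (Lb μ j + 1) - j - 1)
      = ∏ b ∈ Finset.range m, ∏ t ∈ Finset.range (mu' μ b), G t := by
  induction m with
  | zero => simp [PS]
  | succ m ih =>
    rw [PS_succ, Finset.prod_range_add, ih (by omega), Finset.prod_range_succ]
    congr 1
    have h1 : ∏ x ∈ Finset.range (mu' μ m), G (PS μ (Lb μ (PS μ m + x) + 1) - (PS μ m + x) - 1)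
        = ∏ x ∈ Finset.range (mu' μ m), G (mu' μ m - 1 - x) := by
      apply Finset.prod_congr rfl
      intro x hx
      rw [Finset.mem_range] at hx
      rw [Lb_eq μ m (by omega) (PS μ m + x) (by omega) (by rw [PS_succ]; omega), PS_succ]
      congr 1
      omega
    rw [h1, Finset.prod_range_reflect]

theorem main {F : Type*} [Field F] [Fintype F] {n : ℕ} (μ : Fin n → ℕ) (hμ : ∑ i, μ i = n) :
    Nat.card (GL (Fin n) F ⧸ Cfsg.parabolicGL n F μ) *
        ∏ i : Fin n, ∏ j ∈ Finset.range (μ i), ∑ l ∈ Finset.range (j + 1), Fintype.card F ^ l =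
      ∏ j ∈ Finset.range n, ∑ l ∈ Finset.range (j + 1), Fintype.card F ^ l := by
  have hq : 1 < Fintype.card F := Fintype.one_lt_card
  set q := Fintype.card F with hqdef
  have hGL : Nat.card (GL (Fin n) F)
      = (∏ i ∈ Finset.range n, q ^ i * (q - 1)) *
        ∏ j ∈ Finset.range n, ∑ l ∈ Finset.range (j + 1), q ^ l := by
    rw [Matrix.card_GL_field n, Fin.prod_univ_eq_prod_range (fun i => q ^ n - q ^ i) n,
      ← Finset.prod_range_reflect (fun j => ∑ l ∈ Finset.range (j + 1), q ^ l) n,
      ← Finset.prod_mul_distrib]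
    apply Finset.prod_congr rfl
    intro i hi
    rw [Finset.mem_range] at hi
    rw [diff_eq q (by omega) i n hi, show n - i - 1 = n - 1 - i by omega]
  have hP : Nat.card (parabolicGL n F μ)
      = (∏ i ∈ Finset.range n, q ^ i * (q - 1)) *
        ∏ i : Fin n, ∏ j ∈ Finset.range (μ i), ∑ l ∈ Finset.range (j + 1), q ^ l := by
    rw [card_P n F μ hμ,
      Fin.prod_univ_eq_prod_range (fun j => q ^ (PS μ (Lb μ j + 1)) - q ^ j) n]
    have h1 : ∏ i : Fin n, ∏ j ∈ Finset.range (μ i), ∑ l ∈ Finset.range (j + 1), q ^ l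
        = ∏ b ∈ Finset.range n, ∏ t ∈ Finset.range (mu' μ b),
            ∑ l ∈ Finset.range (t + 1), q ^ l := by
      rw [Finset.prod_range]
      apply Finset.prod_congr rfl
      intro i _
      simp [mu']
    have h2 := block_prod μ (fun t => ∑ l ∈ Finset.range (t + 1), q ^ l) n le_rfl
    rw [PS_n μ hμ] at h2
    rw [h1, ← h2, ← Finset.prod_mul_distrib]
    apply Finset.prod_congr rfl
    intro j hj
    rw [Finset.mem_range] at hj
    have hl := Lb_lt μ hμ j hj
    have hb := (Lb_le_iff μ _ hl j).mp le_rfl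
    rw [diff_eq q (by omega) j _ hb]
  have hidx := Subgroup.card_eq_card_quotient_mul_card_subgroup (parabolicGL n F μ)
  rw [hGL, hP] at hidx
  have hC : 0 < ∏ i ∈ Finset.range n, q ^ i * (q - 1) := by
    apply Finset.prod_pos
    intro i _
    have : 0 < q ^ i := Nat.pow_pos (by omega)
    have : 0 < q - 1 := by omega
    positivity
  apply Nat.eq_of_mul_eq_mul_left hC
  rw [hidx]
  ring


/-- The number of partial flags of a given type: for a composition `μ` of `n` (with `n` parts, zeros allowed) and a field with `q` elements, the index of the standard parabolic subgroup `P_μ` in `GL_n(q)` times `∏_i {μ_i}` equals `{n}`, where `{r}` denotes the product over `k = 1, …, r` of the q-integers `1 + q + ⋯ + q^(k−1)`. -/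
theorem result {F : Type*} [Field F] [Fintype F] {q : ℕ} (hq : Fintype.card F = q) {n : ℕ} (μ : Fin n → ℕ) (hμ : ∑ i, μ i = n) :
    Nat.card (GL (Fin n) F ⧸ Cfsg.parabolicGL n F μ) * ∏ i : Fin n, ∏ j ∈ Finset.range (μ i), ∑ l ∈ Finset.range (j + 1), q ^ l =
      ∏ j ∈ Finset.range n, ∑ l ∈ Finset.range (j + 1), q ^ l := by
  subst hq
  exact main μ hμ


end Cfsg.Agent.S2420
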