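import Cfsg.Statements.S2426
import Mathlib
import Cfsg.Agent.Helper12.SL2Card
import Cfsg.Agent.Helper12.SL2Gen

set_option autoImplicit false

open Cfsg

namespace Cfsg.Agent.S2426

open Cfsg.Agent.Helper12

section Abstract

variable {K : Type*} [Field K] {G : Type*} [Group G]

/-- `w(t) = x(t) y(-t⁻¹) x(t)` -/
def ww (x y : K → G) (t : K) : G := x t * y (-t⁻¹) * x t

/-- `h(t) = w(t) w(1)⁻¹` -/
def hh (x y : K → G) (t : K) : G := ww x y t * (ww x y 1)⁻¹

theorem ww_def (x y : K → G) (t : K) : ww x y t = x t * y (-t⁻¹) * x t := rfl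

theorem hh_def (x y : K → G) (t : K) : hh x y t = ww x y t * (ww x y 1)⁻¹ := rfl

/-- Steinberg relations (A), (B') in rank one. -/
structure St (x y : K → G) : Prop where
  xadd : ∀ t u, x t * x u = x (t + u)
  yadd : ∀ t u, y t * y u = y (t + u)
  wx : ∀ t u, t ≠ 0 → ww x y t * x u * (ww x y t)⁻¹ = y (-(t⁻¹ ^ 2 * u))
  wy : ∀ t u, t ≠ 0 → ww y x t * y u * (ww y x t)⁻¹ = x (-(t⁻¹ ^ 2 * u))

variable {x y : K → G}

namespace St

theorem x0 (S : St x y) : x 0 = 1 := by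
  have h := S.xadd 0 0
  rw [add_zero] at h
  exact mul_left_cancel (a := x 0) (by rw [h, mul_one])

theorem y0 (S : St x y) : y 0 = 1 := by
  have h := S.yadd 0 0
  rw [add_zero] at h
  exact mul_left_cancel (a := y 0) (by rw [h, mul_one])

theorem xinv (S : St x y) (t : K) : (x t)⁻¹ = x (-t) := by
  apply inv_eq_of_mul_eq_one_right
  rw [S.xadd, add_neg_cancel, S.x0]

theorem yinv (S : St x y) (t : K) : (y t)⁻¹ = y (-t) := by
  apply inv_eq_of_mul_eq_one_right
  rw [S.yadd, add_neg_cancel, S.y0]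

theorem winv (S : St x y) (t : K) : (ww x y t)⁻¹ = ww x y (-t) := by
  rw [ww_def, ww_def, mul_inv_rev, mul_inv_rev, S.xinv, S.yinv, inv_neg, neg_neg, mul_assoc]

theorem braid (S : St x y) (s : K) (hs : s ≠ 0) : ww x y s = ww y x (-s⁻¹) := by
  have h := S.wx s s hs
  have e : s⁻¹ ^ 2 * s = s⁻¹ := by field_simp
  rw [e] at h
  have h2 : ww x y s * x s = y (-s⁻¹) * ww x y s := by
    rw [← h]; group
  rw [ww_def] at h2
  rw [ww_def, ww_def]
  have e2 : -(-s⁻¹)⁻¹ = s := by rw [inv_neg, inv_inv, neg_neg]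
  rw [e2]
  apply mul_right_cancel (b := x s)
  rw [h2]
  simp only [mul_assoc]

theorem wy' (S : St x y) (s u : K) (hs : s ≠ 0) :
    ww x y s * y u * (ww x y s)⁻¹ = x (-(s ^ 2 * u)) := by
  have h := S.wy (-s⁻¹) u (neg_ne_zero.mpr (inv_ne_zero hs))
  rw [← S.braid s hs] at h
  have e : (-s⁻¹)⁻¹ ^ 2 * u = s ^ 2 * u := by rw [inv_neg, inv_inv, neg_sq]
  rw [e] at h
  exact h

theorem wxc (S : St x y) (t u : K) (ht : t ≠ 0) :
    ww x y t * x u = y (-(t⁻¹ ^ 2 * u)) * ww x y t := by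
  rw [← S.wx t u ht]; group

theorem wyc (S : St x y) (t u : K) (ht : t ≠ 0) :
    ww x y t * y u = x (-(t ^ 2 * u)) * ww x y t := by
  rw [← S.wy' t u ht]; group

theorem w1inv (S : St x y) : (ww x y 1)⁻¹ = ww x y (-1) := S.winv 1

theorem hxc (S : St x y) (t u : K) (ht : t ≠ 0) :
    hh x y t * x u = x (t ^ 2 * u) * hh x y t := by
  rw [hh_def, S.w1inv]
  have h1 := S.wxc (-1) u (by norm_num)
  have e1 : -((-1 : K)⁻¹ ^ 2 * u) = -u := by norm_num
  rw [e1] at h1
  have h2 := S.wyc t (-u) ht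
  have e2 : -(t ^ 2 * -u) = t ^ 2 * u := by ring
  rw [e2] at h2
  calc ww x y t * ww x y (-1) * x u = ww x y t * (ww x y (-1) * x u) := by rw [mul_assoc]
    _ = ww x y t * (y (-u) * ww x y (-1)) := by rw [h1]
    _ = (ww x y t * y (-u)) * ww x y (-1) := by rw [mul_assoc]
    _ = x (t ^ 2 * u) * ww x y t * ww x y (-1) := by rw [h2]
    _ = x (t ^ 2 * u) * (ww x y t * ww x y (-1)) := by rw [mul_assoc]

theorem hyc (S : St x y) (t u : K) (ht : t ≠ 0) :
    hh x y t * y u = y (t⁻¹ ^ 2 * u) * hh x y t := by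
  rw [hh_def, S.w1inv]
  have h1 := S.wyc (-1) u (by norm_num)
  have e1 : -((-1 : K) ^ 2 * u) = -u := by ring
  rw [e1] at h1
  have h2 := S.wxc t (-u) ht
  have e2 : -(t⁻¹ ^ 2 * -u) = t⁻¹ ^ 2 * u := by ring
  rw [e2] at h2
  calc ww x y t * ww x y (-1) * y u = ww x y t * (ww x y (-1) * y u) := by rw [mul_assoc]
    _ = ww x y t * (x (-u) * ww x y (-1)) := by rw [h1]
    _ = (ww x y t * x (-u)) * ww x y (-1) := by rw [mul_assoc]
    _ = y (t⁻¹ ^ 2 * u) * ww x y t * ww x y (-1) := by rw [h2]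
    _ = y (t⁻¹ ^ 2 * u) * (ww x y t * ww x y (-1)) := by rw [mul_assoc]

theorem hxc_inv (S : St x y) (t u : K) (ht : t ≠ 0) :
    (hh x y t)⁻¹ * x u = x (t⁻¹ ^ 2 * u) * (hh x y t)⁻¹ := by
  have h := S.hxc t (t⁻¹ ^ 2 * u) ht
  have e : t ^ 2 * (t⁻¹ ^ 2 * u) = u := by field_simp
  rw [e] at h
  rw [inv_mul_eq_iff_eq_mul, ← mul_assoc, h, mul_assoc, mul_inv_cancel, mul_one]

theorem hyc_inv (S : St x y) (t u : K) (ht : t ≠ 0) :
    (hh x y t)⁻¹ * y u = y (t ^ 2 * u) * (hh x y t)⁻¹ := by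
  have h := S.hyc t (t ^ 2 * u) ht
  have e : t⁻¹ ^ 2 * (t ^ 2 * u) = u := by field_simp
  rw [e] at h
  rw [inv_mul_eq_iff_eq_mul, ← mul_assoc, h, mul_assoc, mul_inv_cancel, mul_one]

theorem hh1 (_S : St x y) : hh x y 1 = 1 := by
  rw [hh_def, mul_inv_cancel]

theorem ww_eq (_S : St x y) (t : K) : ww x y t = hh x y t * ww x y 1 := by
  rw [hh_def, inv_mul_cancel_right]

theorem hwc (S : St x y) (t u : K) (ht : t ≠ 0) (hu : u ≠ 0) :
    hh x y t * ww x y u = ww x y (t ^ 2 * u) * hh x y t := by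
  have e : t⁻¹ ^ 2 * (-u⁻¹) = -(t ^ 2 * u)⁻¹ := by field_simp
  calc hh x y t * ww x y u = hh x y t * x u * y (-u⁻¹) * x u := by
        rw [ww_def x y u]; simp only [mul_assoc]
    _ = x (t ^ 2 * u) * hh x y t * y (-u⁻¹) * x u := by rw [S.hxc t u ht]
    _ = x (t ^ 2 * u) * (hh x y t * y (-u⁻¹)) * x u := by simp only [mul_assoc]
    _ = x (t ^ 2 * u) * (y (-(t ^ 2 * u)⁻¹) * hh x y t) * x u := by rw [S.hyc t _ ht, e]
    _ = x (t ^ 2 * u) * y (-(t ^ 2 * u)⁻¹) * (hh x y t * x u) := by simp only [mul_assoc]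
    _ = x (t ^ 2 * u) * y (-(t ^ 2 * u)⁻¹) * (x (t ^ 2 * u) * hh x y t) := by rw [S.hxc t u ht]
    _ = ww x y (t ^ 2 * u) * hh x y t := by
        rw [ww_def x y (t ^ 2 * u)]; simp only [mul_assoc]

theorem hhc (S : St x y) (t u : K) (ht : t ≠ 0) (hu : u ≠ 0) :
    hh x y t * hh x y u = hh x y (t ^ 2 * u) * (hh x y (t ^ 2))⁻¹ * hh x y t := by
  have h1 := S.hwc t u ht hu
  have h2 := S.hwc t 1 ht one_ne_zero
  rw [mul_one] at h2
  have h3 : hh x y t * (ww x y 1)⁻¹ = (ww x y (t ^ 2))⁻¹ * hh x y t := by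
    rw [eq_inv_mul_iff_mul_eq, ← mul_assoc, ← h2, mul_assoc, mul_inv_cancel, mul_one]
  calc hh x y t * hh x y u = hh x y t * ww x y u * (ww x y 1)⁻¹ := by
        rw [hh_def x y u, mul_assoc]
    _ = ww x y (t ^ 2 * u) * (hh x y t * (ww x y 1)⁻¹) := by rw [h1, mul_assoc]
    _ = ww x y (t ^ 2 * u) * ((ww x y (t ^ 2))⁻¹ * hh x y t) := by rw [h3]
    _ = hh x y (t ^ 2 * u) * (hh x y (t ^ 2))⁻¹ * hh x y t := by
        rw [hh_def x y (t ^ 2 * u), hh_def x y (t ^ 2)]; group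

theorem w1w (S : St x y) (t : K) (ht : t ≠ 0) :
    ww x y 1 * ww x y t = ww x y t⁻¹ * ww x y 1 := by
  have e1 : -((1 : K)⁻¹ ^ 2 * t) = -t := by simp
  have e2 : -((1 : K) ^ 2 * -t⁻¹) = t⁻¹ := by simp
  have e3 : -(-t)⁻¹ = t⁻¹ := by rw [inv_neg, neg_neg]
  have hb := S.braid t⁻¹ (inv_ne_zero ht)
  rw [inv_inv] at hb
  have a1 := S.wxc 1 t one_ne_zero
  rw [e1] at a1
  have a2 := S.wyc 1 (-t⁻¹) one_ne_zero
  rw [e2] at a2
  calc ww x y 1 * ww x y t = ww x y 1 * x t * y (-t⁻¹) * x t := by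
        rw [ww_def x y t]; simp only [mul_assoc]
    _ = y (-t) * ww x y 1 * y (-t⁻¹) * x t := by rw [a1]
    _ = y (-t) * (ww x y 1 * y (-t⁻¹)) * x t := by simp only [mul_assoc]
    _ = y (-t) * (x t⁻¹ * ww x y 1) * x t := by rw [a2]
    _ = y (-t) * x t⁻¹ * (ww x y 1 * x t) := by simp only [mul_assoc]
    _ = y (-t) * x t⁻¹ * (y (-t) * ww x y 1) := by rw [a1]
    _ = ww y x (-t) * ww x y 1 := by
        rw [ww_def y x (-t), e3]; simp only [mul_assoc]
    _ = ww x y t⁻¹ * ww x y 1 := by rw [hb]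

theorem w1h (S : St x y) (t : K) (ht : t ≠ 0) :
    ww x y 1 * hh x y t = hh x y t⁻¹ * ww x y 1 := by
  rw [hh_def x y t, hh_def x y t⁻¹, ← mul_assoc, S.w1w t ht]
  group

/-- an element commuting with the generators is central -/
theorem central_of (hgen : ∀ T : Submonoid G, (∀ t, x t ∈ T) → (∀ t, y t ∈ T) → ∀ g, g ∈ T)
    (z : G) (hx : ∀ u, z * x u = x u * z) (hy : ∀ u, z * y u = y u * z) (g : G) :
    z * g = g * z := by
  let T : Submonoid G :=
    { carrier := {g | z * g = g * z}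
      one_mem' := by simp
      mul_mem' := by
        intro a b ha hb
        have ha' : z * a = a * z := ha
        have hb' : z * b = b * z := hb
        show z * (a * b) = a * b * z
        rw [← mul_assoc, ha', mul_assoc, hb', mul_assoc] }
  exact hgen T hx hy g

theorem f_central (S : St x y)
    (hgen : ∀ T : Submonoid G, (∀ t, x t ∈ T) → (∀ t, y t ∈ T) → ∀ g, g ∈ T)
    (t u : K) (ht : t ≠ 0) (hu : u ≠ 0) (g : G) :
    (hh x y t * hh x y u * (hh x y (t * u))⁻¹) * g =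
      g * (hh x y t * hh x y u * (hh x y (t * u))⁻¹) := by
  apply central_of hgen
  · intro v
    have e1 : u ^ 2 * ((t * u)⁻¹ ^ 2 * v) = t⁻¹ ^ 2 * v := by field_simp
    have e2 : t ^ 2 * (t⁻¹ ^ 2 * v) = v := by field_simp
    calc hh x y t * hh x y u * (hh x y (t * u))⁻¹ * x v
        = hh x y t * hh x y u * ((hh x y (t * u))⁻¹ * x v) := by simp only [mul_assoc]
      _ = hh x y t * hh x y u * (x ((t * u)⁻¹ ^ 2 * v) * (hh x y (t * u))⁻¹) := by
          rw [S.hxc_inv _ _ (mul_ne_zero ht hu)]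
      _ = hh x y t * (hh x y u * x ((t * u)⁻¹ ^ 2 * v)) * (hh x y (t * u))⁻¹ := by
          simp only [mul_assoc]
      _ = hh x y t * (x (t⁻¹ ^ 2 * v) * hh x y u) * (hh x y (t * u))⁻¹ := by
          rw [S.hxc u _ hu, e1]
      _ = (hh x y t * x (t⁻¹ ^ 2 * v)) * hh x y u * (hh x y (t * u))⁻¹ := by
          simp only [mul_assoc]
      _ = (x v * hh x y t) * hh x y u * (hh x y (t * u))⁻¹ := by rw [S.hxc t _ ht, e2]
      _ = x v * (hh x y t * hh x y u * (hh x y (t * u))⁻¹) := by simp only [mul_assoc]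
  · intro v
    have e1 : u⁻¹ ^ 2 * ((t * u) ^ 2 * v) = t ^ 2 * v := by field_simp
    have e2 : t⁻¹ ^ 2 * (t ^ 2 * v) = v := by field_simp
    calc hh x y t * hh x y u * (hh x y (t * u))⁻¹ * y v
        = hh x y t * hh x y u * ((hh x y (t * u))⁻¹ * y v) := by simp only [mul_assoc]
      _ = hh x y t * hh x y u * (y ((t * u) ^ 2 * v) * (hh x y (t * u))⁻¹) := by
          rw [S.hyc_inv _ _ (mul_ne_zero ht hu)]
      _ = hh x y t * (hh x y u * y ((t * u) ^ 2 * v)) * (hh x y (t * u))⁻¹ := by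
          simp only [mul_assoc]
      _ = hh x y t * (y (t ^ 2 * v) * hh x y u) * (hh x y (t * u))⁻¹ := by
          rw [S.hyc u _ hu, e1]
      _ = (hh x y t * y (t ^ 2 * v)) * hh x y u * (hh x y (t * u))⁻¹ := by
          simp only [mul_assoc]
      _ = (y v * hh x y t) * hh x y u * (hh x y (t * u))⁻¹ := by rw [S.hyc t _ ht, e2]
      _ = y v * (hh x y t * hh x y u * (hh x y (t * u))⁻¹) := by simp only [mul_assoc]

/-- the symbol relation `h(uv) = h(u) h(v)` for `u + v = 1` -/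
theorem hmul_of_add (S : St x y) (u v : K) (hu : u ≠ 0) (hv : v ≠ 0) (huv : u + v = 1) :
    hh x y (u * v) = hh x y u * hh x y v := by
  have huv0 : u * v ≠ 0 := mul_ne_zero hu hv
  have R1 : y (-u⁻¹) * x (-v) = x (-(u * v)) * hh x y u * y (-1) := by
    have a1 : y (-u⁻¹) = x (-u) * ww x y u * x (-u) := by
      rw [ww_def, ← S.xinv]; group
    have a2 : x (-1) = ww x y (-1) * x 1 * y (-1) := by
      rw [ww_def x y (-1)]
      have e : -(-1 : K)⁻¹ = 1 := by norm_num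
      rw [e, ← S.xinv 1, ← S.yinv 1]; group
    have a3 : x (-u) * x (-v) = x (-1) := by rw [S.xadd, ← neg_add, huv]
    have a4 : -u + u ^ 2 * 1 = -(u * v) := by
      have hv' : v = 1 - u := by linear_combination huv
      rw [hv']; ring
    calc y (-u⁻¹) * x (-v) = x (-u) * ww x y u * (x (-u) * x (-v)) := by
          rw [a1]; simp only [mul_assoc]
      _ = x (-u) * ww x y u * (ww x y (-1) * x 1 * y (-1)) := by rw [a3, a2]
      _ = x (-u) * (hh x y u * x 1) * y (-1) := by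
          rw [hh_def x y u, S.w1inv]; simp only [mul_assoc]
      _ = x (-u) * (x (u ^ 2 * 1) * hh x y u) * y (-1) := by rw [S.hxc u 1 hu]
      _ = x (-(u * v)) * hh x y u * y (-1) := by
          rw [← mul_assoc, S.xadd, a4]
  have R2 : x v * y u⁻¹ = y 1 * hh x y v * (hh x y (u * v))⁻¹ * x (u * v) := by
    have hbv := S.braid v hv
    have b1 : x v = y v⁻¹ * ww x y v * y v⁻¹ := by
      rw [hbv, ww_def y x]
      have e : -(-v⁻¹)⁻¹ = v := by rw [inv_neg, inv_inv, neg_neg]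
      rw [e, ← S.yinv]; group
    have b2 : y v⁻¹ * y u⁻¹ = y (u * v)⁻¹ := by
      rw [S.yadd]
      congr 1
      field_simp
      linear_combination huv
    have hb2 := S.braid (-(u * v)) (neg_ne_zero.mpr huv0)
    have e3 : -(-(u * v))⁻¹ = (u * v)⁻¹ := by rw [inv_neg, neg_neg]
    rw [e3] at hb2
    have b3 : y (u * v)⁻¹ = ww x y (-(u * v)) * y (-(u * v)⁻¹) * x (u * v) := by
      rw [hb2, ww_def y x, inv_inv, ← S.yinv, ← S.xinv]; group
    have b4 : ww x y v * ww x y (-(u * v)) = hh x y v * (hh x y (u * v))⁻¹ := by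
      rw [← S.winv (u * v), hh_def, hh_def]; group
    have b5 : (hh x y (u * v))⁻¹ * y (-(u * v)⁻¹) = y (-(u * v)) * (hh x y (u * v))⁻¹ := by
      rw [S.hyc_inv _ _ huv0]
      congr 2
      field_simp
    have b6 : hh x y v * y (-(u * v)) = y (-(u / v)) * hh x y v := by
      rw [S.hyc v _ hv]
      congr 2
      field_simp
    have b7 : y v⁻¹ * y (-(u / v)) = y 1 := by
      rw [S.yadd]
      congr 1
      field_simp
      linear_combination (-1 : K) * huv
    calc x v * y u⁻¹ = y v⁻¹ * ww x y v * (y v⁻¹ * y u⁻¹) := by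
          rw [b1]; simp only [mul_assoc]
      _ = y v⁻¹ * ww x y v * (ww x y (-(u * v)) * y (-(u * v)⁻¹) * x (u * v)) := by
          rw [b2, b3]
      _ = y v⁻¹ * (ww x y v * ww x y (-(u * v))) * y (-(u * v)⁻¹) * x (u * v) := by
          simp only [mul_assoc]
      _ = y v⁻¹ * (hh x y v * (hh x y (u * v))⁻¹) * y (-(u * v)⁻¹) * x (u * v) := by rw [b4]
      _ = y v⁻¹ * hh x y v * ((hh x y (u * v))⁻¹ * y (-(u * v)⁻¹)) * x (u * v) := by
          simp only [mul_assoc]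
      _ = y v⁻¹ * hh x y v * (y (-(u * v)) * (hh x y (u * v))⁻¹) * x (u * v) := by rw [b5]
      _ = y v⁻¹ * (hh x y v * y (-(u * v))) * (hh x y (u * v))⁻¹ * x (u * v) := by
          simp only [mul_assoc]
      _ = y v⁻¹ * (y (-(u / v)) * hh x y v) * (hh x y (u * v))⁻¹ * x (u * v) := by rw [b6]
      _ = (y v⁻¹ * y (-(u / v))) * hh x y v * (hh x y (u * v))⁻¹ * x (u * v) := by
          simp only [mul_assoc]
      _ = y 1 * hh x y v * (hh x y (u * v))⁻¹ * x (u * v) := by rw [b7]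
  have R3 : y (-u⁻¹) * x (-v) = x (-(u * v)) * hh x y (u * v) * (hh x y v)⁻¹ * y (-1) := by
    have e : y (-u⁻¹) * x (-v) = (x v * y u⁻¹)⁻¹ := by rw [mul_inv_rev, S.xinv, S.yinv]
    rw [e, R2, mul_inv_rev, mul_inv_rev, mul_inv_rev, inv_inv, S.xinv, S.yinv]
    simp only [mul_assoc]
  have h4 : x (-(u * v)) * hh x y u * y (-1) =
      x (-(u * v)) * hh x y (u * v) * (hh x y v)⁻¹ * y (-1) := R1.symm.trans R3
  have h5 : hh x y u = hh x y (u * v) * (hh x y v)⁻¹ := by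
    have h6 := mul_right_cancel h4
    rw [mul_assoc] at h6
    exact mul_left_cancel h6
  rw [h5, inv_mul_cancel_right]

end St

/-- every nonzero element of a finite field is a power of a generator -/
theorem exists_gen (K : Type*) [Field K] [Finite K] :
    ∃ g : K, g ≠ 0 ∧ ∀ t : K, t ≠ 0 → ∃ k : ℕ, t = g ^ k := by
  obtain ⟨g, hg⟩ := IsCyclic.exists_generator (α := Kˣ)
  refine ⟨(g : K), g.ne_zero, fun t ht => ?_⟩
  have h1 := hg (Units.mk0 t ht)
  rw [← (isOfFinOrder_of_finite g).mem_powers_iff_mem_zpowers] at h1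
  obtain ⟨k, hk⟩ := h1
  refine ⟨k, ?_⟩
  have h2 := congrArg (fun u : Kˣ => (u : K)) hk
  simpa using h2.symm

/-- every element of a finite field is a sum of two squares -/
theorem sum_two_sq (K : Type*) [Field K] [Finite K] (c : K) : ∃ a b : K, a ^ 2 + b ^ 2 = c := by
  classical
  haveI := Fintype.ofFinite K
  by_cases h2 : ringChar K = 2
  · obtain ⟨s, hs⟩ := FiniteField.isSquare_of_char_two h2 c
    exact ⟨s, 0, by rw [hs]; ring⟩
  · have hodd : Fintype.card K % 2 = 1 := FiniteField.odd_card_of_char_ne_two h2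
    obtain ⟨a, b, hab⟩ := FiniteField.exists_root_sum_quadratic
      (f := (Polynomial.X ^ 2 : Polynomial K)) (g := Polynomial.X ^ 2 - Polynomial.C c)
      (Polynomial.degree_X_pow 2) (Polynomial.degree_X_pow_sub_C (by norm_num) c) hodd
    refine ⟨a, b, ?_⟩
    simp at hab
    linear_combination hab

namespace St

variable [Finite K]

theorem hh_pow_central (S : St x y)
    (hgen : ∀ T : Submonoid G, (∀ t, x t ∈ T) → (∀ t, y t ∈ T) → ∀ g, g ∈ T)
    (g : K) (hg : g ≠ 0) (k : ℕ) :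
    ∃ z : G, (∀ a, z * a = a * z) ∧ hh x y (g ^ k) = hh x y g ^ k * z := by
  induction k with
  | zero => exact ⟨1, by simp, by rw [pow_zero, pow_zero, S.hh1, one_mul]⟩
  | succ k ih =>
    obtain ⟨z, hz, hk⟩ := ih
    have hc := S.f_central hgen g (g ^ k) hg (pow_ne_zero k hg)
    obtain ⟨F, hF⟩ : ∃ F, F = hh x y g * hh x y (g ^ k) * (hh x y (g * g ^ k))⁻¹ := ⟨_, rfl⟩
    rw [← hF] at hc
    have e1 : hh x y (g * g ^ k) = F⁻¹ * (hh x y g * hh x y (g ^ k)) := by rw [hF]; group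
    have h1 : ∀ a, F⁻¹ * a = a * F⁻¹ := by
      intro a
      rw [inv_mul_eq_iff_eq_mul, ← mul_assoc, hc a, mul_assoc, mul_inv_cancel, mul_one]
    refine ⟨F⁻¹ * z, ?_, ?_⟩
    · intro a
      rw [mul_assoc, hz a, ← mul_assoc, h1 a, mul_assoc]
    · rw [pow_succ', pow_succ']
      calc hh x y (g * g ^ k) = F⁻¹ * (hh x y g * hh x y (g ^ k)) := e1
        _ = (hh x y g * hh x y (g ^ k)) * F⁻¹ := h1 _
        _ = (hh x y g * (hh x y g ^ k * z)) * F⁻¹ := by rw [hk]
        _ = hh x y g * hh x y g ^ k * (z * F⁻¹) := by simp only [mul_assoc]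
        _ = hh x y g * hh x y g ^ k * (F⁻¹ * z) := by rw [hz F⁻¹]

theorem hh_comm (S : St x y)
    (hgen : ∀ T : Submonoid G, (∀ t, x t ∈ T) → (∀ t, y t ∈ T) → ∀ g, g ∈ T)
    (t u : K) (ht : t ≠ 0) (hu : u ≠ 0) : hh x y t * hh x y u = hh x y u * hh x y t := by
  obtain ⟨g, hg, hgen'⟩ := exists_gen K
  obtain ⟨a, rfl⟩ := hgen' t ht
  obtain ⟨b, rfl⟩ := hgen' u hu
  obtain ⟨z1, hz1, e1⟩ := S.hh_pow_central hgen g hg a
  obtain ⟨z2, hz2, e2⟩ := S.hh_pow_central hgen g hg b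
  rw [e1, e2]
  have A : Commute (hh x y g ^ a) (hh x y g ^ b * z2) :=
    (Commute.pow_pow_self (hh x y g) a b).mul_right (hz2 (hh x y g ^ a)).symm
  have B : Commute z1 (hh x y g ^ b * z2) := hz1 _
  exact (A.mul_left B).eq

theorem hh_sq_mul (S : St x y)
    (hgen : ∀ T : Submonoid G, (∀ t, x t ∈ T) → (∀ t, y t ∈ T) → ∀ g, g ∈ T)
    (t u : K) (ht : t ≠ 0) (hu : u ≠ 0) :
    hh x y (t ^ 2 * u) = hh x y (t ^ 2) * hh x y u := by
  have h1 := S.hhc t u ht hu
  rw [S.hh_comm hgen t u ht hu] at h1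
  have h3 := mul_right_cancel h1
  rw [S.hh_comm hgen (t ^ 2) u (pow_ne_zero 2 ht) hu, h3, inv_mul_cancel_right]

theorem hh_gg (S : St x y)
    (hgen : ∀ T : Submonoid G, (∀ t, x t ∈ T) → (∀ t, y t ∈ T) → ∀ g, g ∈ T)
    (g : K) (hg : g ≠ 0) : hh x y (g * g) = hh x y g * hh x y g := by
  obtain ⟨a, b, hab⟩ := sum_two_sq K g⁻¹
  have hsq : ∀ s : K, s ≠ 0 → g = s ^ 2 → hh x y (g * g) = hh x y g * hh x y g := by
    intro s hs e
    calc hh x y (g * g) = hh x y (s ^ 2 * g) := by rw [← e]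
      _ = hh x y (s ^ 2) * hh x y g := S.hh_sq_mul hgen s g hs hg
      _ = hh x y g * hh x y g := by rw [← e]
  by_cases ha : a = 0
  · have hb : b ≠ 0 := by
      rintro rfl
      rw [ha] at hab
      simp at hab
      exact hg hab.symm
    apply hsq b⁻¹ (inv_ne_zero hb)
    rw [ha] at hab
    have : g⁻¹ = b ^ 2 := by rw [← hab]; ring
    rw [inv_pow, ← this, inv_inv]
  by_cases hb : b = 0
  · apply hsq a⁻¹ (inv_ne_zero ha)
    rw [hb] at hab
    have : g⁻¹ = a ^ 2 := by rw [← hab]; ring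
    rw [inv_pow, ← this, inv_inv]
  have hsum : g * a ^ 2 + g * b ^ 2 = 1 := by
    rw [← mul_add, hab, mul_inv_cancel₀ hg]
  have ha2 : a ^ 2 ≠ 0 := pow_ne_zero 2 ha
  have hb2 : b ^ 2 ≠ 0 := pow_ne_zero 2 hb
  have hd := S.hmul_of_add (g * a ^ 2) (g * b ^ 2) (mul_ne_zero hg ha2) (mul_ne_zero hg hb2) hsum
  have e1 : hh x y (g * a ^ 2 * (g * b ^ 2)) = hh x y (a ^ 2) * hh x y (b ^ 2) * hh x y (g * g) := by
    have e : g * a ^ 2 * (g * b ^ 2) = (a * b) ^ 2 * (g * g) := by ring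
    have e' : (a * b) ^ 2 = a ^ 2 * b ^ 2 := by ring
    rw [e, S.hh_sq_mul hgen (a * b) (g * g) (mul_ne_zero ha hb) (mul_ne_zero hg hg), e',
      S.hh_sq_mul hgen a (b ^ 2) ha hb2]
  have e2 : hh x y (g * a ^ 2) = hh x y (a ^ 2) * hh x y g := by
    rw [mul_comm g, S.hh_sq_mul hgen a g ha hg]
  have e3 : hh x y (g * b ^ 2) = hh x y (b ^ 2) * hh x y g := by
    rw [mul_comm g, S.hh_sq_mul hgen b g hb hg]
  rw [e1, e2, e3] at hd
  have c1 := S.hh_comm hgen g (b ^ 2) hg hb2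
  have h7 : hh x y (a ^ 2) * hh x y (b ^ 2) * hh x y (g * g) =
      hh x y (a ^ 2) * hh x y (b ^ 2) * (hh x y g * hh x y g) := by
    rw [hd]
    calc hh x y (a ^ 2) * hh x y g * (hh x y (b ^ 2) * hh x y g)
        = hh x y (a ^ 2) * ((hh x y g * hh x y (b ^ 2)) * hh x y g) := by simp only [mul_assoc]
      _ = hh x y (a ^ 2) * ((hh x y (b ^ 2) * hh x y g) * hh x y g) := by rw [c1]
      _ = hh x y (a ^ 2) * hh x y (b ^ 2) * (hh x y g * hh x y g) := by simp only [mul_assoc]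
  exact mul_left_cancel h7

theorem hh_pow (S : St x y)
    (hgen : ∀ T : Submonoid G, (∀ t, x t ∈ T) → (∀ t, y t ∈ T) → ∀ g, g ∈ T)
    (g : K) (hg : g ≠ 0) (k : ℕ) : hh x y (g ^ k) = hh x y g ^ k := by
  have h2 := S.hh_gg hgen g hg
  induction k using Nat.twoStepInduction with
  | zero => rw [pow_zero, pow_zero, S.hh1]
  | one => rw [pow_one, pow_one]
  | more k ih1 _ =>
    have e : g ^ (k + 2) = g ^ 2 * g ^ k := by ring
    rw [e, S.hh_sq_mul hgen g (g ^ k) hg (pow_ne_zero k hg), ih1, pow_two, h2,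
      show k + 2 = 2 + k by ring, pow_add, pow_two]

theorem hh_mul (S : St x y)
    (hgen : ∀ T : Submonoid G, (∀ t, x t ∈ T) → (∀ t, y t ∈ T) → ∀ g, g ∈ T)
    (t u : K) (ht : t ≠ 0) (hu : u ≠ 0) : hh x y (t * u) = hh x y t * hh x y u := by
  obtain ⟨g, hg, hgen'⟩ := exists_gen K
  obtain ⟨a, rfl⟩ := hgen' t ht
  obtain ⟨b, rfl⟩ := hgen' u hu
  rw [← pow_add, S.hh_pow hgen g hg, S.hh_pow hgen g hg, S.hh_pow hgen g hg, pow_add]

theorem hh_inv (S : St x y)
    (hgen : ∀ T : Submonoid G, (∀ t, x t ∈ T) → (∀ t, y t ∈ T) → ∀ g, g ∈ T)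
    (t : K) (ht : t ≠ 0) : (hh x y t)⁻¹ = hh x y t⁻¹ := by
  apply inv_eq_of_mul_eq_one_right
  rw [← S.hh_mul hgen t t⁻¹ ht (inv_ne_zero ht), mul_inv_cancel₀ ht, S.hh1]

theorem w1w1 (S : St x y)
    (hgen : ∀ T : Submonoid G, (∀ t, x t ∈ T) → (∀ t, y t ∈ T) → ∀ g, g ∈ T) :
    ww x y 1 * ww x y 1 = hh x y (-1) := by
  have h1 : (hh x y (-1))⁻¹ = hh x y (-1) := by
    rw [S.hh_inv hgen (-1) (by norm_num)]
    congr 1
    norm_num
  rw [← h1, hh_def, ← S.w1inv, mul_inv_rev, inv_inv]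

theorem hm1_central (S : St x y)
    (hgen : ∀ T : Submonoid G, (∀ t, x t ∈ T) → (∀ t, y t ∈ T) → ∀ g, g ∈ T) (g : G) :
    hh x y (-1) * g = g * hh x y (-1) := by
  apply central_of hgen
  · intro u
    rw [S.hxc (-1) u (by norm_num)]
    congr 2
    ring
  · intro u
    rw [S.hyc (-1) u (by norm_num)]
    congr 2
    norm_num

/-- The Bruhat normal form. -/
def InS (x y : K → G) (p : G) : Prop :=
  (∃ a t : K, t ≠ 0 ∧ p = x a * hh x y t) ∨
    (∃ a t b : K, t ≠ 0 ∧ p = x a * hh x y t * ww x y 1 * x b)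

theorem inS_x (S : St x y) (c : K) {p : G} (hp : InS x y p) : InS x y (x c * p) := by
  rcases hp with ⟨a, t, ht, rfl⟩ | ⟨a, t, b, ht, rfl⟩
  · left
    exact ⟨c + a, t, ht, by rw [← mul_assoc, S.xadd]⟩
  · right
    exact ⟨c + a, t, b, ht, by simp only [← mul_assoc]; rw [S.xadd]⟩

theorem inS_h (S : St x y)
    (hgen : ∀ T : Submonoid G, (∀ t, x t ∈ T) → (∀ t, y t ∈ T) → ∀ g, g ∈ T)
    (s : K) (hs : s ≠ 0) {p : G} (hp : InS x y p) : InS x y (hh x y s * p) := by
  rcases hp with ⟨a, t, ht, rfl⟩ | ⟨a, t, b, ht, rfl⟩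
  · left
    refine ⟨s ^ 2 * a, s * t, mul_ne_zero hs ht, ?_⟩
    rw [← mul_assoc, S.hxc s a hs, mul_assoc, ← S.hh_mul hgen s t hs ht]
  · right
    refine ⟨s ^ 2 * a, s * t, b, mul_ne_zero hs ht, ?_⟩
    simp only [← mul_assoc]
    rw [S.hxc s a hs, mul_assoc (x (s ^ 2 * a)), ← S.hh_mul hgen s t hs ht]

theorem inS_w (S : St x y)
    (hgen : ∀ T : Submonoid G, (∀ t, x t ∈ T) → (∀ t, y t ∈ T) → ∀ g, g ∈ T)
    {p : G} (hp : InS x y p) : InS x y (ww x y 1 * p) := by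
  rcases hp with ⟨a, t, ht, rfl⟩ | ⟨a, t, b, ht, rfl⟩
  · right
    refine ⟨0, t⁻¹, t⁻¹ ^ 2 * a, inv_ne_zero ht, ?_⟩
    have e : x a * hh x y t = hh x y t * x (t⁻¹ ^ 2 * a) := by
      rw [S.hxc t _ ht]
      congr 2
      field_simp
    rw [e, ← mul_assoc, S.w1h t ht, S.x0, one_mul]
  · have e : x a * hh x y t = hh x y t * x (t⁻¹ ^ 2 * a) := by
      rw [S.hxc t _ ht]
      congr 2
      field_simp
    have k0 : ww x y 1 * (x a * hh x y t * ww x y 1 * x b) =
        hh x y t⁻¹ * (ww x y 1 * x (t⁻¹ ^ 2 * a) * ww x y 1 * x b) := by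
      rw [e]
      calc ww x y 1 * (hh x y t * x (t⁻¹ ^ 2 * a) * ww x y 1 * x b)
          = (ww x y 1 * hh x y t) * x (t⁻¹ ^ 2 * a) * ww x y 1 * x b := by simp only [mul_assoc]
        _ = (hh x y t⁻¹ * ww x y 1) * x (t⁻¹ ^ 2 * a) * ww x y 1 * x b := by rw [S.w1h t ht]
        _ = hh x y t⁻¹ * (ww x y 1 * x (t⁻¹ ^ 2 * a) * ww x y 1 * x b) := by
            simp only [mul_assoc]
    rw [k0]
    apply inS_h S hgen _ (inv_ne_zero ht)
    obtain ⟨c, hc⟩ : ∃ c, c = t⁻¹ ^ 2 * a := ⟨_, rfl⟩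
    rw [← hc]
    by_cases hc0 : c = 0
    · left
      refine ⟨b, -1, by norm_num, ?_⟩
      rw [hc0, S.x0, mul_one, S.w1w1 hgen]
      exact S.hm1_central hgen (x b)
    · have e1 : -((1 : K)⁻¹ ^ 2 * c) = -c := by simp
      have a1 := S.wxc 1 c one_ne_zero
      rw [e1] at a1
      have e0 : ww x y c⁻¹ = x c⁻¹ * y (-c) * x c⁻¹ := by
        rw [ww_def, inv_inv]
      have yc : y (-c) = x (-c⁻¹) * (hh x y c⁻¹ * ww x y 1) * x (-c⁻¹) := by
        rw [← S.ww_eq, e0, ← S.xinv c⁻¹]; group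
      have k1 : ww x y 1 * x c * ww x y 1 * x b =
          x (-c⁻¹) * (hh x y c⁻¹ * (hh x y (-1) * (ww x y 1 * x (-c⁻¹ + b)))) := by
        calc ww x y 1 * x c * ww x y 1 * x b = y (-c) * ww x y 1 * ww x y 1 * x b := by rw [a1]
          _ = y (-c) * (ww x y 1 * ww x y 1) * x b := by simp only [mul_assoc]
          _ = y (-c) * hh x y (-1) * x b := by rw [S.w1w1 hgen]
          _ = x (-c⁻¹) * (hh x y c⁻¹ * ww x y 1) * x (-c⁻¹) * hh x y (-1) * x b := by rw [yc]
          _ = x (-c⁻¹) * (hh x y c⁻¹ * ww x y 1) * (x (-c⁻¹) * hh x y (-1)) * x b := by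
              simp only [mul_assoc]
          _ = x (-c⁻¹) * (hh x y c⁻¹ * ww x y 1) * (hh x y (-1) * x (-c⁻¹)) * x b := by
              rw [S.hm1_central hgen (x (-c⁻¹))]
          _ = x (-c⁻¹) * (hh x y c⁻¹ * (ww x y 1 * hh x y (-1))) * (x (-c⁻¹) * x b) := by
              simp only [mul_assoc]
          _ = x (-c⁻¹) * (hh x y c⁻¹ * (hh x y (-1) * ww x y 1)) * x (-c⁻¹ + b) := by
              rw [S.hm1_central hgen (ww x y 1), S.xadd]
          _ = x (-c⁻¹) * (hh x y c⁻¹ * (hh x y (-1) * (ww x y 1 * x (-c⁻¹ + b)))) := by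
              simp only [mul_assoc]
      rw [k1]
      apply inS_x S
      apply inS_h S hgen _ (inv_ne_zero hc0)
      apply inS_h S hgen _ (by norm_num)
      right
      exact ⟨0, 1, -c⁻¹ + b, one_ne_zero, by rw [S.x0, S.hh1, one_mul, one_mul]⟩

theorem inS_y (S : St x y)
    (hgen : ∀ T : Submonoid G, (∀ t, x t ∈ T) → (∀ t, y t ∈ T) → ∀ g, g ∈ T)
    (c : K) {p : G} (hp : InS x y p) : InS x y (y c * p) := by
  by_cases hc : c = 0
  · rw [hc, S.y0, one_mul]; exact hp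
  · have e0 : ww x y (-c⁻¹) = x (-c⁻¹) * y c * x (-c⁻¹) := by
      have e : -(-c⁻¹)⁻¹ = c := by rw [inv_neg, inv_inv, neg_neg]
      rw [ww_def, e]
    have e1 : y c = x c⁻¹ * ww x y (-c⁻¹) * x c⁻¹ := by
      rw [e0, ← S.xinv c⁻¹]; group
    rw [e1, S.ww_eq (-c⁻¹)]
    simp only [mul_assoc]
    exact inS_x S _ (inS_h S hgen _ (neg_ne_zero.mpr (inv_ne_zero hc)) (inS_w S hgen (inS_x S _ hp)))

theorem all_inS (S : St x y)
    (hgen : ∀ T : Submonoid G, (∀ t, x t ∈ T) → (∀ t, y t ∈ T) → ∀ g, g ∈ T) (g : G) :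
    InS x y g := by
  let T : Submonoid G :=
    { carrier := {g | ∀ p, InS x y p → InS x y (g * p)}
      one_mem' := by
        intro p hp
        rw [one_mul]; exact hp
      mul_mem' := by
        intro a b ha hb p hp
        rw [mul_assoc]
        exact ha _ (hb _ hp) }
  have h1 : g ∈ T := hgen T (fun t p hp => inS_x S t hp) (fun t p hp => inS_y S hgen t hp) g
  have h2 := h1 1 (Or.inl ⟨0, 1, one_ne_zero, by rw [S.x0, S.hh1, one_mul]⟩)
  rwa [mul_one] at h2

theorem card_le (S : St x y)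
    (hgen : ∀ T : Submonoid G, (∀ t, x t ∈ T) → (∀ t, y t ∈ T) → ∀ g, g ∈ T) :
    Finite G ∧ Nat.card G ≤ Nat.card K * (Nat.card K - 1) * (Nat.card K + 1) := by
  let Φ : K × Kˣ × Option K → G := fun p =>
    match p.2.2 with
    | none => x p.1 * hh x y (p.2.1 : K)
    | some b => x p.1 * hh x y (p.2.1 : K) * ww x y 1 * x b
  have hsurj : Function.Surjective Φ := by
    intro g
    rcases all_inS S hgen g with ⟨a, t, ht, rfl⟩ | ⟨a, t, b, ht, rfl⟩
    · exact ⟨(a, Units.mk0 t ht, none), rfl⟩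
    · exact ⟨(a, Units.mk0 t ht, some b), rfl⟩
  haveI : Finite G := Finite.of_surjective Φ hsurj
  refine ⟨inferInstance, ?_⟩
  calc Nat.card G ≤ Nat.card (K × Kˣ × Option K) := Nat.card_le_card_of_surjective Φ hsurj
    _ = Nat.card K * (Nat.card K - 1) * (Nat.card K + 1) := by
      rw [Nat.card_prod, Nat.card_prod, Nat.card_units, Finite.card_option, mul_assoc]

end St

end Abstract

section Concrete

variable (K : Type*) [Field K]

/-- the relations of the statement -/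
abbrev rels : Set (FreeGroup (Bool × K)) :=
  {g : FreeGroup (Bool × K) | ∃ (b : Bool) (t u : K), g = FreeGroup.of (b, t) * FreeGroup.of (b, u) * (FreeGroup.of (b, t + u))⁻¹} ∪
    {g | ∃ (b : Bool) (t u : K), t ≠ 0 ∧
      g = (FreeGroup.of (b, t) * FreeGroup.of (!b, -t⁻¹) * FreeGroup.of (b, t)) * FreeGroup.of (b, u) *
            (FreeGroup.of (b, t) * FreeGroup.of (!b, -t⁻¹) * FreeGroup.of (b, t))⁻¹ * (FreeGroup.of (!b, -(t⁻¹ ^ 2 * u)))⁻¹}

/-- lower unitriangular matrices -/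
def sl2L {K : Type*} [Field K] (t : K) : Matrix.SpecialLinearGroup (Fin 2) K := sl2mk 1 0 t 1 (by ring)

theorem sl2L_val {K : Type*} [Field K] (t : K) :
    ((sl2L t : Matrix.SpecialLinearGroup (Fin 2) K) : Matrix (Fin 2) (Fin 2) K) = !![1, 0; t, 1] := rfl

theorem st_P : St (fun t : K => (PresentedGroup.of (true, t) : PresentedGroup (rels K)))
    (fun t : K => (PresentedGroup.of (false, t) : PresentedGroup (rels K))) := by
  refine ⟨?_, ?_, ?_, ?_⟩
  · intro t u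
    have h : PresentedGroup.mk (rels K)
        (FreeGroup.of (true, t) * FreeGroup.of (true, u) * (FreeGroup.of (true, t + u))⁻¹) = 1 :=
      PresentedGroup.one_of_mem (Or.inl ⟨true, t, u, rfl⟩)
    rw [map_mul, map_mul, map_inv, mul_inv_eq_one] at h
    exact h
  · intro t u
    have h : PresentedGroup.mk (rels K)
        (FreeGroup.of (false, t) * FreeGroup.of (false, u) * (FreeGroup.of (false, t + u))⁻¹) = 1 :=
      PresentedGroup.one_of_mem (Or.inl ⟨false, t, u, rfl⟩)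
    rw [map_mul, map_mul, map_inv, mul_inv_eq_one] at h
    exact h
  · intro t u ht
    have h : PresentedGroup.mk (rels K)
        ((FreeGroup.of (true, t) * FreeGroup.of (!true, -t⁻¹) * FreeGroup.of (true, t)) * FreeGroup.of (true, u) *
            (FreeGroup.of (true, t) * FreeGroup.of (!true, -t⁻¹) * FreeGroup.of (true, t))⁻¹ * (FreeGroup.of (!true, -(t⁻¹ ^ 2 * u)))⁻¹) = 1 :=
      PresentedGroup.one_of_mem (Or.inr ⟨true, t, u, ht, rfl⟩)
    simp only [map_mul, map_inv] at h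
    rw [mul_inv_eq_one] at h
    exact h
  · intro t u ht
    have h : PresentedGroup.mk (rels K)
        ((FreeGroup.of (false, t) * FreeGroup.of (!false, -t⁻¹) * FreeGroup.of (false, t)) * FreeGroup.of (false, u) *
            (FreeGroup.of (false, t) * FreeGroup.of (!false, -t⁻¹) * FreeGroup.of (false, t))⁻¹ * (FreeGroup.of (!false, -(t⁻¹ ^ 2 * u)))⁻¹) = 1 :=
      PresentedGroup.one_of_mem (Or.inr ⟨false, t, u, ht, rfl⟩)
    simp only [map_mul, map_inv] at h
    rw [mul_inv_eq_one] at h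
    exact h

theorem gen_P (T : Submonoid (PresentedGroup (rels K)))
    (hx : ∀ t : K, (PresentedGroup.of (true, t) : PresentedGroup (rels K)) ∈ T)
    (hy : ∀ t : K, (PresentedGroup.of (false, t) : PresentedGroup (rels K)) ∈ T)
    (g : PresentedGroup (rels K)) : g ∈ T := by
  induction g using PresentedGroup.induction_on with
  | _ z =>
    induction z using FreeGroup.induction_on with
    | C1 => rw [map_one]; exact T.one_mem
    | of p =>
      obtain ⟨b, t⟩ := p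
      cases b
      · exact hy t
      · exact hx t
    | inv_of p _ =>
      obtain ⟨b, t⟩ := p
      rw [map_inv]
      cases b
      · have h := (st_P K).yinv t
        have h' : (PresentedGroup.mk (rels K) (FreeGroup.of (false, t)))⁻¹ = PresentedGroup.of (false, -t) := h
        rw [h']; exact hy (-t)
      · have h := (st_P K).xinv t
        have h' : (PresentedGroup.mk (rels K) (FreeGroup.of (true, t)))⁻¹ = PresentedGroup.of (true, -t) := h
        rw [h']; exact hx (-t)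
    | mul a b ha hb => rw [map_mul]; exact T.mul_mem ha hb

theorem st_SL : St (sl2U : K → Matrix.SpecialLinearGroup (Fin 2) K) sl2L := by
  refine ⟨?_, ?_, ?_, ?_⟩
  · intro t u
    exact sl2U_mul t u
  · intro t u
    apply Subtype.ext
    rw [Matrix.SpecialLinearGroup.coe_mul, sl2L_val, sl2L_val, sl2L_val, Matrix.mul_fin_two]
    ext i j
    fin_cases i <;> fin_cases j <;> simp
  · intro t u ht
    rw [mul_inv_eq_iff_eq_mul, ww_def]
    apply Subtype.ext
    simp only [Matrix.SpecialLinearGroup.coe_mul, sl2U_val, sl2L_val, Matrix.mul_fin_two]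
    congr 1
    ext i j
    fin_cases i <;> fin_cases j
    all_goals simp only [Matrix.cons_val', Matrix.cons_val_zero, Matrix.cons_val_one,
      Matrix.cons_val_fin_one, Fin.zero_eta, Fin.mk_one, Matrix.empty_val', Fin.isValue]
    all_goals (first | (field_simp; ring) | field_simp | ring)
  · intro t u ht
    rw [mul_inv_eq_iff_eq_mul, ww_def]
    apply Subtype.ext
    simp only [Matrix.SpecialLinearGroup.coe_mul, sl2U_val, sl2L_val, Matrix.mul_fin_two]
    congr 1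
    ext i j
    fin_cases i <;> fin_cases j
    all_goals simp only [Matrix.cons_val', Matrix.cons_val_zero, Matrix.cons_val_one,
      Matrix.cons_val_fin_one, Fin.zero_eta, Fin.mk_one, Matrix.empty_val', Fin.isValue]
    all_goals (first | (field_simp; ring) | field_simp | ring)

/-- the generators of `SL₂` -/
def gen : Bool × K → Matrix.SpecialLinearGroup (Fin 2) K
  | (true, t) => sl2U t
  | (false, t) => sl2L t

theorem gen_rels : ∀ r ∈ rels K, FreeGroup.lift (gen K) r = 1 := by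
  intro r hr
  rcases hr with ⟨b, t, u, rfl⟩ | ⟨b, t, u, ht, rfl⟩
  · simp only [map_mul, map_inv, FreeGroup.lift_apply_of]
    cases b
    · show sl2L t * sl2L u * (sl2L (t + u))⁻¹ = 1
      rw [(st_SL K).yadd, mul_inv_cancel]
    · show sl2U t * sl2U u * (sl2U (t + u))⁻¹ = 1
      rw [(st_SL K).xadd, mul_inv_cancel]
  · simp only [map_mul, map_inv, FreeGroup.lift_apply_of]
    cases b
    · show (sl2L t * sl2U (-t⁻¹) * sl2L t) * sl2L u * (sl2L t * sl2U (-t⁻¹) * sl2L t)⁻¹ *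
        (sl2U (-(t⁻¹ ^ 2 * u)))⁻¹ = 1
      rw [mul_inv_eq_one]
      exact (st_SL K).wy t u ht
    · show (sl2U t * sl2L (-t⁻¹) * sl2U t) * sl2U u * (sl2U t * sl2L (-t⁻¹) * sl2U t)⁻¹ *
        (sl2L (-(t⁻¹ ^ 2 * u)))⁻¹ = 1
      rw [mul_inv_eq_one]
      exact (st_SL K).wx t u ht

/-- the natural map from the presented group -/
noncomputable def piHom : PresentedGroup (rels K) →* Matrix.SpecialLinearGroup (Fin 2) K :=
  PresentedGroup.toGroup (gen_rels K)

theorem piHom_x (t : K) : piHom K (PresentedGroup.of (true, t)) = sl2U t :=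
  PresentedGroup.toGroup.of (gen_rels K)

theorem piHom_y (t : K) : piHom K (PresentedGroup.of (false, t)) = sl2L t :=
  PresentedGroup.toGroup.of (gen_rels K)

theorem piHom_surj : Function.Surjective (piHom K) := by
  have hX : ((sl2L 1 : Matrix.SpecialLinearGroup (Fin 2) K) : Matrix (Fin 2) (Fin 2) K) 1 0 ≠ 0 := by
    rw [sl2L_val]; simp
  have h := sl2_generate (sl2L 1) hX (piHom K).range
    (fun y => ⟨PresentedGroup.of (true, y), piHom_x K y⟩)
    (fun y => ⟨PresentedGroup.of (false, 1) * PresentedGroup.of (true, y) *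
      (PresentedGroup.of (false, 1))⁻¹, by rw [map_mul, map_mul, map_inv, piHom_x, piHom_y]⟩)
  intro g
  have hg : g ∈ (piHom K).range := by rw [h]; trivial
  exact hg

theorem main [Finite K] :
    ∃ e : PresentedGroup (rels K) ≃* Matrix.SpecialLinearGroup (Fin 2) K,
      (∀ t : K, ((e (PresentedGroup.of (true, t)) : Matrix (Fin 2) (Fin 2) K)) = !![1, t; 0, 1]) ∧
      (∀ t : K, ((e (PresentedGroup.of (false, t)) : Matrix (Fin 2) (Fin 2) K)) = !![1, 0; t, 1]) := by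
  classical
  haveI := Fintype.ofFinite K
  obtain ⟨hfin, hcard⟩ := St.card_le (st_P K) (gen_P K)
  haveI := hfin
  have hq : 1 ≤ Fintype.card K := Fintype.card_pos
  have hbij : Function.Bijective (piHom K) := by
    apply (piHom_surj K).bijective_of_nat_card_le
    rw [sl2_card]
    rw [Nat.card_eq_fintype_card (α := K)] at hcard
    obtain ⟨m, hm⟩ : ∃ m, Fintype.card K = m + 1 := ⟨Fintype.card K - 1, by omega⟩
    rw [hm] at hcard ⊢
    have e1 : (m + 1) ^ 2 - 1 = m * (m + 2) := by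
      have : (m + 1) ^ 2 = m * (m + 2) + 1 := by ring
      omega
    rw [e1]
    have e2 : m + 1 - 1 = m := by omega
    rw [e2] at hcard
    calc Nat.card (PresentedGroup (rels K)) ≤ (m + 1) * m * (m + 1 + 1) := hcard
      _ = (m + 1) * (m * (m + 2)) := by ring
  refine ⟨MulEquiv.ofBijective (piHom K) hbij, fun t => ?_, fun t => ?_⟩
  · show ((piHom K (PresentedGroup.of (true, t)) : Matrix.SpecialLinearGroup (Fin 2) K) :
      Matrix (Fin 2) (Fin 2) K) = _
    rw [piHom_x]; rfl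
  · show ((piHom K (PresentedGroup.of (false, t)) : Matrix.SpecialLinearGroup (Fin 2) K) :
      Matrix (Fin 2) (Fin 2) K) = _
    rw [piHom_y]; rfl

end Concrete

/-- The rank-one Steinberg presentation of `SL₂` over a finite field `K`: generators `x(t)`, `y(t)` (`t ∈ K`; the two opposite root subgroups) subject to additivity `x(t)x(u) = x(t+u)`, `y(t)y(u) = y(t+u)` and, with `w(t) = x(t) y(−t⁻¹) x(t)` and `w'(t) = y(t) x(−t⁻¹) y(t)` for `t ≠ 0`, the relations `w(t) x(u) w(t)⁻¹ = y(−t⁻² u)` and `w'(t) y(u) w'(t)⁻¹ = x(−t⁻² u)`, present `SL₂(K)`, with `x(t) ↦ (1 t; 0 1)` and `y(t) ↦ (1 0; t 1)`. -/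
theorem result {K : Type*} [Field K] [Finite K] :
    ∃ e : PresentedGroup
        ({g : FreeGroup (Bool × K) | ∃ (b : Bool) (t u : K), g = FreeGroup.of (b, t) * FreeGroup.of (b, u) * (FreeGroup.of (b, t + u))⁻¹} ∪
          {g | ∃ (b : Bool) (t u : K), t ≠ 0 ∧
            g = (FreeGroup.of (b, t) * FreeGroup.of (!b, -t⁻¹) * FreeGroup.of (b, t)) * FreeGroup.of (b, u) *
                  (FreeGroup.of (b, t) * FreeGroup.of (!b, -t⁻¹) * FreeGroup.of (b, t))⁻¹ * (FreeGroup.of (!b, -(t⁻¹ ^ 2 * u)))⁻¹})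
        ≃* Matrix.SpecialLinearGroup (Fin 2) K,
      (∀ t : K, ((e (PresentedGroup.of (true, t)) : Matrix (Fin 2) (Fin 2) K)) = !![1, t; 0, 1]) ∧
      (∀ t : K, ((e (PresentedGroup.of (false, t)) : Matrix (Fin 2) (Fin 2) K)) = !![1, 0; t, 1]) := by
  exact main K

end Cfsg.Agent.S2426
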