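import Cfsg.Statements.S2432
import Mathlib
import Cfsg.Agent.Helper12.SL2Ind

set_option autoImplicit false
open Cfsg

namespace Cfsg.Agent.S2432

open Cfsg.Agent.Helper12

/-- Let F be a finite field with q elements, q odd, and for a multiplicative character α of F let R(α) be the function on SL₂ induced from the linear character b ↦ α(b₁₁) of the upper triangular subgroup. For multiplicative characters α, β the inner product of R(α) and R(β) equals the number of true statements among 'α = β' and 'α = β⁻¹' (the Mackey formula for the upper triangular subgroup, whose intersection with a conjugate by the Weyl element is the diagonal subgroup). -/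
theorem result {F : Type*} [Field F] [Fintype F] [DecidableEq F] (hodd : Odd (Fintype.card F))
    (α β : MulChar F ℂ) [Decidable (α = β)] [Decidable (α = β⁻¹)] :
    Cfsg.classInner (Cfsg.indFun ((Cfsg.upperTriangularGL 2 F).comap Matrix.SpecialLinearGroup.toGL) (fun b => α (((b : Matrix.SpecialLinearGroup (Fin 2) F) : Matrix (Fin 2) (Fin 2) F) 0 0))) (Cfsg.indFun ((Cfsg.upperTriangularGL 2 F).comap Matrix.SpecialLinearGroup.toGL) (fun b => β (((b : Matrix.SpecialLinearGroup (Fin 2) F) : Matrix (Fin 2) (Fin 2) F) 0 0))) =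
      (if α = β then 1 else 0) + (if α = β⁻¹ then 1 else 0) := by
  show (Nat.card (Matrix.SpecialLinearGroup (Fin 2) F) : ℂ)⁻¹ * ∑ g : Matrix.SpecialLinearGroup (Fin 2) F, Cfsg.indFun ((Cfsg.upperTriangularGL 2 F).comap Matrix.SpecialLinearGroup.toGL) (thS α) g *
    (starRingEnd ℂ) (Cfsg.indFun ((Cfsg.upperTriangularGL 2 F).comap Matrix.SpecialLinearGroup.toGL) (thS β) g) = _
  have hG0 : (Fintype.card (Matrix.SpecialLinearGroup (Fin 2) F) : ℂ) ≠ 0 := Nat.cast_ne_zero.mpr Fintype.card_ne_zero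
  have hq0 : (Fintype.card F : ℂ) ≠ 0 := Nat.cast_ne_zero.mpr Fintype.card_ne_zero
  have hq1 : (Fintype.card F : ℂ) - 1 ≠ 0 := card_sub_one_ne_zero
  have hψ : ∀ x g : Matrix.SpecialLinearGroup (Fin 2) F,
      (fun g => (starRingEnd ℂ) (Cfsg.indFun ((Cfsg.upperTriangularGL 2 F).comap Matrix.SpecialLinearGroup.toGL) (thS β) g)) (x * g * x⁻¹) =
      (fun g => (starRingEnd ℂ) (Cfsg.indFun ((Cfsg.upperTriangularGL 2 F).comap Matrix.SpecialLinearGroup.toGL) (thS β) g)) g := by
    intro x g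
    show (starRingEnd ℂ) (Cfsg.indFun ((Cfsg.upperTriangularGL 2 F).comap Matrix.SpecialLinearGroup.toGL) (thS β) (x * g * x⁻¹)) =
      (starRingEnd ℂ) (Cfsg.indFun ((Cfsg.upperTriangularGL 2 F).comap Matrix.SpecialLinearGroup.toGL) (thS β) g)
    rw [indFun_conj]
  have h1 := sum_indFun_mul ((Cfsg.upperTriangularGL 2 F).comap Matrix.SpecialLinearGroup.toGL) (thS α)
    (fun g => (starRingEnd ℂ) (Cfsg.indFun ((Cfsg.upperTriangularGL 2 F).comap Matrix.SpecialLinearGroup.toGL) (thS β) g)) hψ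
  have h2 := sum_BS (F := F) (thS α) (fun g => (starRingEnd ℂ) (Cfsg.indFun ((Cfsg.upperTriangularGL 2 F).comap Matrix.SpecialLinearGroup.toGL) (thS β) g))
  beta_reduce at h1 h2
  have h3 : ∀ a : Fˣ, (∑ c : F, thS α ⟨bel a c, bel_mem a c⟩ *
      (starRingEnd ℂ) (Cfsg.indFun ((Cfsg.upperTriangularGL 2 F).comap Matrix.SpecialLinearGroup.toGL) (thS β) (bel a c))) =
      (Fintype.card F : ℂ) * ((α * β⁻¹) (a : F) + (α * β) (a : F)) := by
    intro a
    have e4 : ∀ c : F, thS α ⟨bel a c, bel_mem a c⟩ *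
        (starRingEnd ℂ) (Cfsg.indFun ((Cfsg.upperTriangularGL 2 F).comap Matrix.SpecialLinearGroup.toGL) (thS β) (bel a c)) =
        α (a : F) * (starRingEnd ℂ) (Cfsg.indFun ((Cfsg.upperTriangularGL 2 F).comap Matrix.SpecialLinearGroup.toGL) (thS β) (bel a c)) := fun c => rfl
    rw [Finset.sum_congr rfl (fun c _ => e4 c), ← Finset.mul_sum, ← map_sum, indFunS_bel_sum,
      map_mul, map_add, map_natCast]
    have e2 : (starRingEnd ℂ) (β (a : F)) = β⁻¹ (a : F) := MulChar.star_apply' β _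
    have e3 : (starRingEnd ℂ) (β ((a⁻¹ : Fˣ) : F)) = β (a : F) := by
      have h := MulChar.star_apply' β ((a⁻¹ : Fˣ) : F)
      have h' : β⁻¹ ((a⁻¹ : Fˣ) : F) = β (a : F) := by
        rw [MulChar.inv_apply', Units.val_inv_eq_inv_val, inv_inv]
      exact h.trans h'
    rw [e2, e3, MulChar.mul_apply, MulChar.mul_apply]
    ring
  have hS1 : α = β → (∑ a : F, (α * β⁻¹) a) = (Fintype.card F : ℂ) - 1 := by
    intro h
    rw [h]
    exact mulChar_sum_self β
  have hS1' : α ≠ β → (∑ a : F, (α * β⁻¹) a) = 0 := fun h => mulChar_sum_ne h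
  have hS2 : α = β⁻¹ → (∑ a : F, (α * β) a) = (Fintype.card F : ℂ) - 1 := by
    intro h
    rw [h]
    have h5 := mulChar_sum_self β⁻¹
    rwa [inv_inv] at h5
  have hS2' : α ≠ β⁻¹ → (∑ a : F, (α * β) a) = 0 := by
    intro h
    have h5 := mulChar_sum_ne h
    rwa [inv_inv] at h5
  rw [h1, h2, Finset.sum_congr rfl (fun a _ => h3 a), ← Finset.mul_sum, Finset.sum_add_distrib,
    sum_units_eq (⇑(α * β⁻¹)) (MulChar.map_zero _), sum_units_eq (⇑(α * β)) (MulChar.map_zero _),
    card_BS, Nat.card_eq_fintype_card]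
  by_cases hab : α = β
  · by_cases hab' : α = β⁻¹
    · rw [if_pos hab, if_pos hab', hS1 hab, hS2 hab']
      field_simp <;> ring
    · rw [if_pos hab, if_neg hab', hS1 hab, hS2' hab']
      field_simp <;> ring
  · by_cases hab' : α = β⁻¹
    · rw [if_neg hab, if_pos hab', hS1' hab, hS2 hab']
      field_simp <;> ring
    · rw [if_neg hab, if_neg hab', hS1' hab, hS2' hab']
      simp

end Cfsg.Agent.S2432
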