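import Cfsg.Statements.S2434
import Mathlib
import Cfsg.Agent.Helper12.SL2Cusp
import Cfsg.Agent.S2299
import Cfsg.Agent.S2322

set_option autoImplicit false
open Cfsg

namespace Cfsg.Agent.S2434

open Cfsg.Agent.Helper12
open Cfsg.Agent.S2305 (th)
open Cfsg.Agent.S2308 (belG)


/-- Let F be a finite field with q elements, q odd, and C a cyclic subgroup of order q + 1 of SL₂ over F (a non-split torus; it contains the centre). For every homomorphism θ from C to the non-zero complex numbers with θ² ≠ 1 there is an irreducible complex character χ of degree q − 1 such that χ(c) = −θ(c) − θ(c)⁻¹ for every non-central c in C, χ(zg) = θ(z)χ(g) for central z in C, χ vanishes at diagonal elements with entry a, a² ≠ 1, and χ takes the value −1 at every upper unitriangular element other than 1. Conversely every irreducible character of degree q − 1 has, for some such θ, the values −θ(c) − θ(c)⁻¹ at the non-central elements c of C (for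 q ≥ 5 these are exactly the cuspidal characters of degree q − 1). -/
theorem result {F : Type*} [Field F] [Fintype F] (hodd : Odd (Fintype.card F))
    (C : Subgroup (Matrix.SpecialLinearGroup (Fin 2) F)) (hC : IsCyclic C) (hcard : Nat.card C = Fintype.card F + 1) :
    (∀ θ : C →* ℂˣ, (∃ c : C, θ c ^ 2 ≠ 1) →
      ∃ χ : Matrix.SpecialLinearGroup (Fin 2) F → ℂ, Cfsg.IsIrrCharacter (Matrix.SpecialLinearGroup (Fin 2) F) χ ∧ χ 1 = (Fintype.card F : ℂ) - 1 ∧
        (∀ c : C, (c : Matrix.SpecialLinearGroup (Fin 2) F) ∉ Subgroup.center (Matrix.SpecialLinearGroup (Fin 2) F) → χ c = -((θ c).val + (θ c)⁻¹.val)) ∧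
        (∀ c : C, (c : Matrix.SpecialLinearGroup (Fin 2) F) ∈ Subgroup.center (Matrix.SpecialLinearGroup (Fin 2) F) → ∀ g : Matrix.SpecialLinearGroup (Fin 2) F, χ ((c : Matrix.SpecialLinearGroup (Fin 2) F) * g) = (θ c).val * χ g) ∧
        (∀ g : Matrix.SpecialLinearGroup (Fin 2) F, (g : Matrix (Fin 2) (Fin 2) F) 0 1 = 0 → (g : Matrix (Fin 2) (Fin 2) F) 1 0 = 0 → (g : Matrix (Fin 2) (Fin 2) F) 0 0 ^ 2 ≠ 1 → χ g = 0) ∧
        (∀ g : Matrix.SpecialLinearGroup (Fin 2) F, (g : Matrix (Fin 2) (Fin 2) F) 1 0 = 0 → (g : Matrix (Fin 2) (Fin 2) F) 0 0 = 1 → (g : Matrix (Fin 2) (Fin 2) F) 1 1 = 1 → (g : Matrix (Fin 2) (Fin 2) F) 0 1 ≠ 0 → χ g = -1)) ∧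
    (∀ χ : Matrix.SpecialLinearGroup (Fin 2) F → ℂ, Cfsg.IsIrrCharacter (Matrix.SpecialLinearGroup (Fin 2) F) χ → χ 1 = (Fintype.card F : ℂ) - 1 →
      ∃ θ : C →* ℂˣ, (∃ c : C, θ c ^ 2 ≠ 1) ∧
        ∀ c : C, (c : Matrix.SpecialLinearGroup (Fin 2) F) ∉ Subgroup.center (Matrix.SpecialLinearGroup (Fin 2) F) → χ c = -((θ c).val + (θ c)⁻¹.val)) := by
  classical
  have hq1 : 1 < Fintype.card F := Fintype.one_lt_card
  haveI := hC
  obtain ⟨γ, hγ⟩ := IsCyclic.exists_generator (α := ↥C)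
  have hord : orderOf (γ : (Matrix.SpecialLinearGroup (Fin 2) F)) = Fintype.card F + 1 := by
    rw [Subgroup.orderOf_coe, orderOf_eq_card_of_forall_mem_zpowers hγ, hcard]
  have hell := ell_of_order (γ : (Matrix.SpecialLinearGroup (Fin 2) F)) hord
  have hpow : ∀ x : (Matrix.SpecialLinearGroup (Fin 2) F), x ∈ C → ∃ k : ℤ, (γ : (Matrix.SpecialLinearGroup (Fin 2) F)) ^ k = x := by
    intro x hx
    obtain ⟨k, hk⟩ := Subgroup.mem_zpowers_iff.mp (hγ ⟨x, hx⟩)
    refine ⟨k, ?_⟩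
    have h := congrArg Subtype.val hk
    rwa [Subgroup.coe_zpow] at h
  have hle : C ≤ (Subgroup.centralizer ({(γ : (Matrix.SpecialLinearGroup (Fin 2) F))} : Set (Matrix.SpecialLinearGroup (Fin 2) F))) := by
    intro x hx
    obtain ⟨k, hk⟩ := hpow x hx
    rw [Subgroup.mem_centralizer_singleton_iff, ← hk]
    exact ((Commute.refl (γ : (Matrix.SpecialLinearGroup (Fin 2) F))).zpow_left k).eq
  have hCeq : C = (Subgroup.centralizer ({(γ : (Matrix.SpecialLinearGroup (Fin 2) F))} : Set (Matrix.SpecialLinearGroup (Fin 2) F))) :=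
    Subgroup.eq_of_le_of_card_ge hle (by rw [torus_card hodd _ hell, hcard])
  obtain ⟨t₀, ht₀⟩ : ∃ t₀ : (Matrix.SpecialLinearGroup (Fin 2) F), t₀ = (γ : (Matrix.SpecialLinearGroup (Fin 2) F)) := ⟨_, rfl⟩
  rw [← ht₀] at hell hCeq
  have hgen : ∀ x ∈ (Subgroup.centralizer ({t₀} : Set (Matrix.SpecialLinearGroup (Fin 2) F))), x ∈ Subgroup.zpowers t₀ := by
    intro x hx
    rw [← hCeq] at hx
    obtain ⟨k, hk⟩ := hpow x hx
    exact Subgroup.mem_zpowers_iff.mpr ⟨k, by rw [ht₀]; exact hk⟩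
  clear hpow hle hord ht₀ hγ γ
  subst hCeq
  choose αf hαf using exists_alpha hodd t₀
  have hqc : (Fintype.card F : ℂ) - 1 ≠ 0 := card_sub_one_ne_zero
  have hnc : ∀ c : ↥(Subgroup.centralizer ({t₀} : Set (Matrix.SpecialLinearGroup (Fin 2) F))), (c : (Matrix.SpecialLinearGroup (Fin 2) F)) ∉ Subgroup.center (Matrix.SpecialLinearGroup (Fin 2) F) → (∀ (c₀ : F) (v : Fin 2 → F), v ≠ 0 → ((c : (Matrix.SpecialLinearGroup (Fin 2) F)) : (Matrix (Fin 2) (Fin 2) F)).mulVec v ≠ c₀ • v) :=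
    fun c h => torus_noncentral t₀ hell c c.2 h
  constructor
  · intro θ hθ
    have hirr := cuspF_irr hodd t₀ hell θ hθ (αf θ) (hαf θ)
    refine ⟨cuspF t₀ θ (αf θ), hirr, cuspF_one hodd t₀ hell θ (αf θ), ?_, ?_, ?_, ?_⟩
    · intro c hc
      exact cuspF_ell hodd t₀ hell θ (αf θ) c (hnc c hc)
    · intro c hc g'
      rcases sl2_center_two (c : (Matrix.SpecialLinearGroup (Fin 2) F)) hc with h | h
      · have hc1 : c = 1 := Subtype.ext h
        rw [h, one_mul, hc1, map_one, Units.val_one, one_mul]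
      · have hcm : c = ⟨(bel (-1 : Fˣ) (0 : F)), bel_neg_mem_torus t₀⟩ := Subtype.ext h
        have h3 : cuspF t₀ θ (αf θ) ((bel (-1 : Fˣ) (0 : F)) * g') =
            cuspF t₀ θ (αf θ) (bel (-1 : Fˣ) (0 : F)) * cuspF t₀ θ (αf θ) g' / cuspF t₀ θ (αf θ) 1 :=
          irr_central_mul ⟨_, hirr⟩ (bel (-1 : Fˣ) (0 : F)) (fun x => bel_neg_one_central x) g'
        rw [h, hcm, h3, cuspF_neg hodd t₀ hell θ (αf θ) (hαf θ), cuspF_one hodd t₀ hell θ (αf θ), div_eq_iff hqc]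
        ring
    · intro g' h01 h10 hsq
      exact cuspF_diag t₀ hell θ (αf θ) g' h01 h10 hsq
    · intro g' h10 h00 h11 h01
      exact cuspF_unip t₀ hell θ (αf θ) g' h10 h00 h11 h01
  · intro χ hχ hχ1
    haveI : NeZero (Fintype.card F + 1) := ⟨Nat.succ_ne_zero _⟩
    haveI : Fintype ↥(rootsOfUnity (Fintype.card F + 1) ℂ) := Fintype.ofFinite _
    have hμcard : Fintype.card ↥(rootsOfUnity (Fintype.card F + 1) ℂ) = Fintype.card F + 1 := by
      rw [← Nat.card_eq_fintype_card]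
      exact Complex.card_rootsOfUnity _
    have hωpow : ∀ ω : ↥(rootsOfUnity (Fintype.card F + 1) ℂ), (ω : ℂˣ) ^ (Fintype.card F + 1) = 1 :=
      fun ω => (mem_rootsOfUnity _ _).mp ω.2
    choose θf hθf using fun ω : ↥(rootsOfUnity (Fintype.card F + 1) ℂ) =>
      exists_torus_hom hodd t₀ hell hgen (ω : ℂˣ) (hωpow ω)
    have hsq : ∀ ω : ↥(rootsOfUnity (Fintype.card F + 1) ℂ), ¬ (((ω : ℂˣ) : ℂ)) ^ 2 = 1 →
        ∃ c : ↥(Subgroup.centralizer ({t₀} : Set (Matrix.SpecialLinearGroup (Fin 2) F))), θf ω c ^ 2 ≠ 1 := by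
      intro ω h
      refine ⟨⟨t₀, Subgroup.mem_centralizer_singleton_iff.mpr rfl⟩, ?_⟩
      rw [hθf ω]
      intro h2
      apply h
      rw [← Units.val_pow_eq_pow_val, h2, Units.val_one]
    have hval : ∀ ω : ↥(rootsOfUnity (Fintype.card F + 1) ℂ),
        cuspF t₀ (θf ω) (αf (θf ω)) t₀ = -(((ω : ℂˣ) : ℂ) + (((ω : ℂˣ)⁻¹ : ℂˣ) : ℂ)) := by
      intro ω
      have h := cuspF_ell hodd t₀ hell (θf ω) (αf (θf ω)) ⟨t₀, Subgroup.mem_centralizer_singleton_iff.mpr rfl⟩ hell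
      rw [hθf ω] at h
      exact h
    have hT : (Finset.univ.filter (fun ω : ↥(rootsOfUnity (Fintype.card F + 1) ℂ) => (((ω : ℂˣ) : ℂ)) ^ 2 = 1)).card ≤ 2 := by
      refine (Finset.card_le_card_of_injOn (t := ({1, -1} : Finset ℂ))
        (fun ω : ↥(rootsOfUnity (Fintype.card F + 1) ℂ) => ((ω : ℂˣ) : ℂ)) ?_ ?_).trans Finset.card_le_two
      · intro ω hω
        have h1 : (((ω : ℂˣ) : ℂ)) ^ 2 = 1 := by simpa using hω
        have h2 : ((((ω : ℂˣ) : ℂ)) - 1) * ((((ω : ℂˣ) : ℂ)) + 1) = 0 := by linear_combination h1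
        rcases mul_eq_zero.mp h2 with h | h
        · have h' := sub_eq_zero.mp h
          simp [h']
        · have h' := eq_neg_of_add_eq_zero_left h
          simp [h']
      · intro a _ b _ hab
        exact Subtype.ext (Units.ext hab)
    have hS : Fintype.card F - 1 ≤
        (Finset.univ.filter (fun ω : ↥(rootsOfUnity (Fintype.card F + 1) ℂ) => ¬ (((ω : ℂˣ) : ℂ)) ^ 2 = 1)).card := by
      have h := Finset.card_filter_add_card_filter_not (s := (Finset.univ : Finset ↥(rootsOfUnity (Fintype.card F + 1) ℂ)))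
        (fun ω : ↥(rootsOfUnity (Fintype.card F + 1) ℂ) => (((ω : ℂˣ) : ℂ)) ^ 2 = 1)
      rw [Finset.card_univ, hμcard] at h
      omega
    by_cases h3 : Fintype.card F = 3
    · obtain ⟨ω₁, hω₁⟩ : ∃ ω₁ : ↥(rootsOfUnity (Fintype.card F + 1) ℂ), ¬ (((ω₁ : ℂˣ) : ℂ)) ^ 2 = 1 := by
        have hpos : 0 < (Finset.univ.filter (fun ω : ↥(rootsOfUnity (Fintype.card F + 1) ℂ) => ¬ (((ω : ℂˣ) : ℂ)) ^ 2 = 1)).card := by
          omega
        obtain ⟨ω₁, hω₁⟩ := Finset.card_pos.mp hpos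
        exact ⟨ω₁, (Finset.mem_filter.mp hω₁).2⟩
      refine ⟨θf ω₁, hsq ω₁ hω₁, ?_⟩
      intro c hc
      have hcell := hnc c hc
      have hirr := cuspF_irr hodd t₀ hell (θf ω₁) (hsq ω₁ hω₁) (αf (θf ω₁)) (hαf (θf ω₁))
      have hdeg : ∀ ψ : (Matrix.SpecialLinearGroup (Fin 2) F) → ℂ, ψ 1 = (Fintype.card F : ℂ) - 1 → ψ 1 = (((Fintype.card F + 1) / 2 : ℕ) : ℂ) := by
        intro ψ hψ
        rw [hψ, h3]
        norm_num
      have e1 := (S2322.result hodd χ hχ (c : (Matrix.SpecialLinearGroup (Fin 2) F))).2 (Or.inr (hdeg χ hχ1)) hcell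
      have e2 := (S2322.result hodd _ hirr (c : (Matrix.SpecialLinearGroup (Fin 2) F))).2 (Or.inr (hdeg _ (cuspF_one hodd t₀ hell _ _))) hcell
      rw [e1, ← cuspF_ell hodd t₀ hell (θf ω₁) (αf (θf ω₁)) c hcell, e2]
    · have hq5 : 5 ≤ Fintype.card F := by
        obtain ⟨k, hk⟩ := hodd
        omega
      have hX := ((S2299.result hodd).2 hq5).2.2.2.1
      haveI : Fintype (Cfsg.IrrCharacter (Matrix.SpecialLinearGroup (Fin 2) F)) := Fintype.ofFinite _
      have hX' : (Finset.univ.filter (fun χ' : Cfsg.IrrCharacter (Matrix.SpecialLinearGroup (Fin 2) F) => (χ' : (Matrix.SpecialLinearGroup (Fin 2) F) → ℂ) 1 = (Fintype.card F : ℂ) - 1)).card =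
          (Fintype.card F - 1) / 2 := by
        rw [← hX, Nat.card_eq_fintype_card, Fintype.card_subtype]
      haveI : DecidableEq (Cfsg.IrrCharacter (Matrix.SpecialLinearGroup (Fin 2) F)) := Classical.decEq _
      obtain ⟨f, hf⟩ : ∃ f : {ω : ↥(rootsOfUnity (Fintype.card F + 1) ℂ) // ¬ (((ω : ℂˣ) : ℂ)) ^ 2 = 1} → Cfsg.IrrCharacter (Matrix.SpecialLinearGroup (Fin 2) F),
          ∀ ω, ((f ω : Cfsg.IrrCharacter (Matrix.SpecialLinearGroup (Fin 2) F)) : (Matrix.SpecialLinearGroup (Fin 2) F) → ℂ) = cuspF t₀ (θf ω.1) (αf (θf ω.1)) :=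
        ⟨fun ω => ⟨cuspF t₀ (θf ω.1) (αf (θf ω.1)),
          cuspF_irr hodd t₀ hell (θf ω.1) (hsq ω.1 ω.2) (αf (θf ω.1)) (hαf (θf ω.1))⟩, fun ω => rfl⟩
      have hfib : ∀ b ∈ Finset.univ.image f, (Finset.univ.filter (fun a => f a = b)).card ≤ 2 := by
        intro b hb
        obtain ⟨ω₀, -, rfl⟩ := Finset.mem_image.mp hb
        refine (Finset.card_le_card_of_injOn (t := ({ω₀.1, ω₀.1⁻¹} : Finset ↥(rootsOfUnity (Fintype.card F + 1) ℂ)))
          (fun a : {ω : ↥(rootsOfUnity (Fintype.card F + 1) ℂ) // ¬ (((ω : ℂˣ) : ℂ)) ^ 2 = 1} => a.1) ?_ ?_).trans Finset.card_le_two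
        · intro a ha
          have ha' : f a = f ω₀ := by
            have ha2 := ha
            simp only [Finset.coe_filter, Set.mem_setOf_eq, Finset.mem_filter, Finset.mem_univ, true_and] at ha2
            exact ha2
          have hv : ((f a : Cfsg.IrrCharacter (Matrix.SpecialLinearGroup (Fin 2) F)) : (Matrix.SpecialLinearGroup (Fin 2) F) → ℂ) t₀ = ((f ω₀ : Cfsg.IrrCharacter (Matrix.SpecialLinearGroup (Fin 2) F)) : (Matrix.SpecialLinearGroup (Fin 2) F) → ℂ) t₀ := by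
            rw [ha']
          rw [hf, hf, hval, hval] at hv
          have hx : (((a.1 : ℂˣ)) : ℂ) * ((((a.1 : ℂˣ))⁻¹ : ℂˣ) : ℂ) = 1 := Units.mul_inv _
          have hy : (((ω₀.1 : ℂˣ)) : ℂ) * ((((ω₀.1 : ℂˣ))⁻¹ : ℂˣ) : ℂ) = 1 := Units.mul_inv _
          have hprod : ((((a.1 : ℂˣ)) : ℂ) - (((ω₀.1 : ℂˣ)) : ℂ)) * ((((a.1 : ℂˣ)) : ℂ) - ((((ω₀.1 : ℂˣ))⁻¹ : ℂˣ) : ℂ)) = 0 := by
            linear_combination (-1 : ℂ) * hx - (((a.1 : ℂˣ)) : ℂ) * hv + hy
          have hmem : a.1 = ω₀.1 ∨ a.1 = ω₀.1⁻¹ := by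
            rcases mul_eq_zero.mp hprod with h | h
            · left
              exact Subtype.ext (Units.ext (sub_eq_zero.mp h))
            · right
              exact Subtype.ext (Units.ext (sub_eq_zero.mp h))
          rcases hmem with h | h
          · simp [h]
          · simp [h]
        · intro a _ b _ hab
          exact Subtype.ext hab
      have hfibers := Finset.card_le_mul_card_image _ 2 hfib
      rw [Finset.card_univ, Fintype.card_subtype] at hfibers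
      have himg_sub : Finset.univ.image f ⊆
          Finset.univ.filter (fun χ' : Cfsg.IrrCharacter (Matrix.SpecialLinearGroup (Fin 2) F) => (χ' : (Matrix.SpecialLinearGroup (Fin 2) F) → ℂ) 1 = (Fintype.card F : ℂ) - 1) := by
        intro b hb
        obtain ⟨ω, -, rfl⟩ := Finset.mem_image.mp hb
        rw [Finset.mem_filter, hf]
        exact ⟨Finset.mem_univ _, cuspF_one hodd t₀ hell _ _⟩
      have heq := Finset.eq_of_subset_of_card_le himg_sub (by
        rw [hX']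
        obtain ⟨k, hk⟩ := hodd
        omega)
      have hmem : (⟨χ, hχ⟩ : Cfsg.IrrCharacter (Matrix.SpecialLinearGroup (Fin 2) F)) ∈
          Finset.univ.filter (fun χ' : Cfsg.IrrCharacter (Matrix.SpecialLinearGroup (Fin 2) F) => (χ' : (Matrix.SpecialLinearGroup (Fin 2) F) → ℂ) 1 = (Fintype.card F : ℂ) - 1) := by
        rw [Finset.mem_filter]
        exact ⟨Finset.mem_univ _, hχ1⟩
      rw [← heq] at hmem
      obtain ⟨ω, -, hω⟩ := Finset.mem_image.mp hmem
      have hχeq : χ = cuspF t₀ (θf ω.1) (αf (θf ω.1)) := by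
        have h := congrArg Subtype.val hω
        rw [hf] at h
        exact h.symm
      refine ⟨θf ω.1, hsq ω.1 ω.2, ?_⟩
      intro c hc
      rw [hχeq]
      exact cuspF_ell hodd t₀ hell _ _ c (hnc c hc)

end Cfsg.Agent.S2434
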