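import Cfsg.Statements.S2435
import Mathlib
import Cfsg.Agent.Helper12.SL2Cusp2

set_option autoImplicit false
open Cfsg

namespace Cfsg.Agent.S2435

open Cfsg.Agent.Helper12
open Cfsg.Agent.S2305 (th)
open Cfsg.Agent.S2308 (belG)


/-- Let F be a finite field with q elements, q odd and q ≥ 5, and χ an irreducible complex character of SL₂ over F. If χ has degree (q + 1)/2, then at a diagonal element with entry a, a² ≠ 1, χ takes the value 1 when a is a square in F and −1 otherwise. If χ has degree (q − 1)/2, then at an element g with no eigenvector in F² (so g has order dividing q + 1), χ takes the value −1 when g raised to the power (q + 1)/2 is the identity and the value 1 otherwise. -/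
theorem result {F : Type*} [Field F] [Fintype F] (hodd : Odd (Fintype.card F)) (hq : 5 ≤ Fintype.card F)
    (χ : Matrix.SpecialLinearGroup (Fin 2) F → ℂ) (hχ : Cfsg.IsIrrCharacter (Matrix.SpecialLinearGroup (Fin 2) F) χ) (g : Matrix.SpecialLinearGroup (Fin 2) F) :
    (χ 1 = (((Fintype.card F + 1) / 2 : ℕ) : ℂ) → (g : Matrix (Fin 2) (Fin 2) F) 0 1 = 0 → (g : Matrix (Fin 2) (Fin 2) F) 1 0 = 0 → (g : Matrix (Fin 2) (Fin 2) F) 0 0 ^ 2 ≠ 1 →
      (IsSquare ((g : Matrix (Fin 2) (Fin 2) F) 0 0) → χ g = 1) ∧ (¬ IsSquare ((g : Matrix (Fin 2) (Fin 2) F) 0 0) → χ g = -1)) ∧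
    (χ 1 = (((Fintype.card F - 1) / 2 : ℕ) : ℂ) → (∀ (c : F) (v : Fin 2 → F), v ≠ 0 → (g : Matrix (Fin 2) (Fin 2) F).mulVec v ≠ c • v) →
      (((g ^ ((Fintype.card F + 1) / 2)) : Matrix (Fin 2) (Fin 2) F) = 1 → χ g = -1) ∧ (((g ^ ((Fintype.card F + 1) / 2)) : Matrix (Fin 2) (Fin 2) F) ≠ 1 → χ g = 1)) := by
  classical
  have hodd' := hodd
  obtain ⟨r, hr⟩ := hodd'
  refine ⟨fun h1 h01 h10 hsq => ?_, fun h1 hg => ?_⟩
  · exact Helper12.half_ps_diag hodd hq ⟨χ, hχ⟩ ((Fintype.card F + 1) / 2) h1 (by omega) g h01 h10 hsq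
  · have hk : 2 * ((Fintype.card F + 1) / 2) = Fintype.card F + 1 := by omega
    have h := Helper12.half_cusp_ell hodd hq ⟨χ, hχ⟩ ((Fintype.card F - 1) / 2) h1 (by omega) ((Fintype.card F + 1) / 2) hk g hg
    have hiff : ((g : (Matrix (Fin 2) (Fin 2) F)) ^ ((Fintype.card F + 1) / 2) = 1) ↔ g ^ ((Fintype.card F + 1) / 2) = 1 := by
      constructor
      · intro h'
        apply Subtype.ext
        rw [Matrix.SpecialLinearGroup.coe_pow, Matrix.SpecialLinearGroup.coe_one]
        exact h'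
      · intro h'
        rw [← Matrix.SpecialLinearGroup.coe_pow, h', Matrix.SpecialLinearGroup.coe_one]
    exact ⟨fun h' => h.1 (hiff.mp h'), fun h' => h.2 (fun h'' => h' (hiff.mpr h''))⟩

end Cfsg.Agent.S2435
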