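import Cfsg.Statements.S2438
import Mathlib
import Cfsg.Agent.Helper12.SL2Cliff

set_option autoImplicit false
open Cfsg

namespace Cfsg.Agent.S2438

open Cfsg.Agent.Helper12
open Cfsg.Agent.S2305 (th)
open Cfsg.Agent.S2308 (belG)


/-- Let F be a finite field with q elements, q odd, q ≥ 5, U the upper unitriangular subgroup of SL₂ over F, and χ an irreducible complex character. The sum of the values of χ over U equals 2q, q, 0, q, 0 according as the degree of χ is q + 1, q, q − 1, (q + 1)/2, (q − 1)/2; so among these five degrees the sum vanishes exactly for the degrees q − 1 and (q − 1)/2, i.e. the irreducible characters of those two degrees are the ones whose restriction to U does not contain the trivial character (the cuspidal characters), while those of degree q + 1, q and (q + 1)/2 are not cuspidal. -/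
theorem result {F : Type*} [Field F] [Fintype F] [DecidableEq F] (hodd : Odd (Fintype.card F)) (hq : 5 ≤ Fintype.card F)
    (χ : Matrix.SpecialLinearGroup (Fin 2) F → ℂ) (hχ : Cfsg.IsIrrCharacter (Matrix.SpecialLinearGroup (Fin 2) F) χ) :
    (χ 1 = (Fintype.card F : ℂ) + 1 →
      (∑ g : Matrix.SpecialLinearGroup (Fin 2) F, if (g : Matrix (Fin 2) (Fin 2) F) 1 0 = 0 ∧ (g : Matrix (Fin 2) (Fin 2) F) 0 0 = 1 ∧ (g : Matrix (Fin 2) (Fin 2) F) 1 1 = 1 then χ g else 0) = 2 * (Fintype.card F : ℂ)) ∧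
    (χ 1 = (Fintype.card F : ℂ) →
      (∑ g : Matrix.SpecialLinearGroup (Fin 2) F, if (g : Matrix (Fin 2) (Fin 2) F) 1 0 = 0 ∧ (g : Matrix (Fin 2) (Fin 2) F) 0 0 = 1 ∧ (g : Matrix (Fin 2) (Fin 2) F) 1 1 = 1 then χ g else 0) = (Fintype.card F : ℂ)) ∧
    (χ 1 = (Fintype.card F : ℂ) - 1 →
      (∑ g : Matrix.SpecialLinearGroup (Fin 2) F, if (g : Matrix (Fin 2) (Fin 2) F) 1 0 = 0 ∧ (g : Matrix (Fin 2) (Fin 2) F) 0 0 = 1 ∧ (g : Matrix (Fin 2) (Fin 2) F) 1 1 = 1 then χ g else 0) = 0) ∧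
    (χ 1 = (((Fintype.card F + 1) / 2 : ℕ) : ℂ) →
      (∑ g : Matrix.SpecialLinearGroup (Fin 2) F, if (g : Matrix (Fin 2) (Fin 2) F) 1 0 = 0 ∧ (g : Matrix (Fin 2) (Fin 2) F) 0 0 = 1 ∧ (g : Matrix (Fin 2) (Fin 2) F) 1 1 = 1 then χ g else 0) = (Fintype.card F : ℂ)) ∧
    (χ 1 = (((Fintype.card F - 1) / 2 : ℕ) : ℂ) →
      (∑ g : Matrix.SpecialLinearGroup (Fin 2) F, if (g : Matrix (Fin 2) (Fin 2) F) 1 0 = 0 ∧ (g : Matrix (Fin 2) (Fin 2) F) 0 0 = 1 ∧ (g : Matrix (Fin 2) (Fin 2) F) 1 1 = 1 then χ g else 0) = 0) := by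
  obtain ⟨j, hj⟩ := hodd
  obtain ⟨m, hm⟩ : ∃ m : ℕ, Fintype.card F = m + 1 := ⟨Fintype.card F - 1, by omega⟩
  have hm4 : 4 ≤ m := by omega
  have hmj : m = 2 * j := by omega
  have hQ : (Fintype.card F : ℂ) = (m : ℂ) + 1 := by
    rw [hm]
    push_cast
    ring
  obtain ⟨χ', hχ'⟩ : ∃ χ' : Cfsg.IrrCharacter (Matrix.SpecialLinearGroup (Fin 2) F), (χ' : (Matrix.SpecialLinearGroup (Fin 2) F) → ℂ) = χ := ⟨⟨χ, hχ⟩, rfl⟩
  obtain ⟨n, hn⟩ := Helper24.irr_one_eq_natCast χ'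
  rw [hχ'] at hn
  obtain ⟨Θ, hcl⟩ := sl2_cliff χ'
  rw [hχ'] at hcl
  obtain ⟨k, hk⟩ := Helper24.irr_one_eq_natCast Θ
  have htype := gl2_type_nat (Θ : (Matrix.GeneralLinearGroup (Fin 2) F) → ℂ) Θ.2 m hm k hk
  rw [sum_unipU χ]
  obtain ⟨S, hS⟩ : ∃ S : ℂ, S = ∑ c : F, χ (bel 1 c) := ⟨_, rfl⟩
  rw [← hS]
  have hsumΘ := sum_belG_unip Θ
  have key : (n = k ∧ S = (k : ℂ) + (m : ℂ) * (Θ : (Matrix.GeneralLinearGroup (Fin 2) F) → ℂ) (belG 1 1 1)) ∨
      (2 * n = k ∧ 2 * S = (k : ℂ) + (m : ℂ) * (Θ : (Matrix.GeneralLinearGroup (Fin 2) F) → ℂ) (belG 1 1 1)) := by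
    rcases hcl with hres | ⟨hodd, χ₂, hne, hdec, d, hd, hd'⟩
    · left
      have hnk : n = k := by
        have e : (n : ℂ) = (k : ℂ) := by
          rw [← hn, ← hk, hres 1, map_one]
        exact_mod_cast e
      refine ⟨hnk, ?_⟩
      have e1 : (∑ c : F, χ (bel 1 c)) = ∑ c : F, (Θ : (Matrix.GeneralLinearGroup (Fin 2) F) → ℂ) (belG 1 1 c) := by
        refine Finset.sum_congr rfl (fun c _ => ?_)
        rw [hres (bel 1 c), toGL_bel, inv_one]
      linear_combination hS + e1 + hsumΘ + hk + (Θ : (Matrix.GeneralLinearGroup (Fin 2) F) → ℂ) (belG 1 1 1) * hQ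
    · right
      have h21 : (χ₂ : (Matrix.SpecialLinearGroup (Fin 2) F) → ℂ) 1 = χ 1 := hd 1 1 (by rw [map_one, mul_one, mul_inv_cancel])
      have hk2 : 2 * n = k := by
        have e : (k : ℂ) = 2 * (n : ℂ) := by
          rw [← hk, ← hn]
          have h3 := hdec 1
          rw [map_one, h21] at h3
          rw [h3]
          ring
        have e' : k = 2 * n := by exact_mod_cast e
        omega
      refine ⟨hk2, ?_⟩
      have e2 : (∑ c : F, (χ₂ : (Matrix.SpecialLinearGroup (Fin 2) F) → ℂ) (bel 1 c)) = ∑ c : F, χ (bel 1 c) :=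
        twist_sum χ (χ₂ : (Matrix.SpecialLinearGroup (Fin 2) F) → ℂ) d hd 1
      have e3 : (∑ c : F, (Θ : (Matrix.GeneralLinearGroup (Fin 2) F) → ℂ) (belG 1 1 c)) =
          (∑ c : F, χ (bel 1 c)) + ∑ c : F, (χ₂ : (Matrix.SpecialLinearGroup (Fin 2) F) → ℂ) (bel 1 c) := by
        rw [← Finset.sum_add_distrib]
        refine Finset.sum_congr rfl (fun c _ => ?_)
        rw [← hdec (bel 1 c), toGL_bel, inv_one]
      linear_combination 2 * hS - e3 - e2 + hsumΘ + hk + (Θ : (Matrix.GeneralLinearGroup (Fin 2) F) → ℂ) (belG 1 1 1) * hQ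
  have hT : (k = m ∧ (k : ℂ) + (m : ℂ) * (Θ : (Matrix.GeneralLinearGroup (Fin 2) F) → ℂ) (belG 1 1 1) = 0) ∨
      (k = m + 2 ∧ (k : ℂ) + (m : ℂ) * (Θ : (Matrix.GeneralLinearGroup (Fin 2) F) → ℂ) (belG 1 1 1) = 2 * ((m : ℂ) + 1)) ∨
      k = 1 ∨
      (k = m + 1 ∧ (k : ℂ) + (m : ℂ) * (Θ : (Matrix.GeneralLinearGroup (Fin 2) F) → ℂ) (belG 1 1 1) = (m : ℂ) + 1) := by
    rcases htype with ⟨t1, tu, -⟩ | ⟨t1, tu, -, -⟩ | ⟨t1, -⟩ | ⟨t1, α, hα⟩
    · left
      refine ⟨t1, ?_⟩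
      rw [tu, t1]
      ring
    · right
      left
      refine ⟨t1, ?_⟩
      rw [tu, t1]
      push_cast
      ring
    · right
      right
      left
      exact t1
    · right
      right
      right
      refine ⟨t1, ?_⟩
      rw [hα (belG 1 1 1), S2308.indFun1_unip (belG (1 : Fˣ) 1 1) rfl rfl one_ne_zero, sub_self,
        mul_zero, mul_zero, add_zero, t1, Nat.cast_add, Nat.cast_one]
  have hd1 : χ 1 = (Fintype.card F : ℂ) + 1 → n = m + 2 := by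
    intro h
    have e : (n : ℂ) = (m : ℂ) + 2 := by
      rw [← hn, h, hQ]
      ring
    exact_mod_cast e
  have hd2 : χ 1 = (Fintype.card F : ℂ) → n = m + 1 := by
    intro h
    have e : (n : ℂ) = (m : ℂ) + 1 := by
      rw [← hn, h, hQ]
    exact_mod_cast e
  have hd3 : χ 1 = (Fintype.card F : ℂ) - 1 → n = m := by
    intro h
    have e : (n : ℂ) = (m : ℂ) := by
      rw [← hn, h, hQ]
      ring
    exact_mod_cast e
  have hd4 : χ 1 = (((Fintype.card F + 1) / 2 : ℕ) : ℂ) → n = j + 1 := by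
    intro h
    have e : (n : ℂ) = (((Fintype.card F + 1) / 2 : ℕ) : ℂ) := hn.symm.trans h
    have e' : n = (Fintype.card F + 1) / 2 := by exact_mod_cast e
    omega
  have hd5 : χ 1 = (((Fintype.card F - 1) / 2 : ℕ) : ℂ) → n = j := by
    intro h
    have e : (n : ℂ) = (((Fintype.card F - 1) / 2 : ℕ) : ℂ) := hn.symm.trans h
    have e' : n = (Fintype.card F - 1) / 2 := by exact_mod_cast e
    omega
  refine ⟨fun h => ?_, fun h => ?_, fun h => ?_, fun h => ?_, fun h => ?_⟩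
  · have hn1 := hd1 h
    rw [hQ]
    rcases key with ⟨e1, e2⟩ | ⟨e1, e2⟩ <;> rcases hT with ⟨t1, t2⟩ | ⟨t1, t2⟩ | t1 | ⟨t1, t2⟩ <;>
      first | (exfalso; omega) | linear_combination e2 + t2 |
        linear_combination (1 / 2 : ℂ) * e2 + (1 / 2 : ℂ) * t2
  · have hn1 := hd2 h
    rw [hQ]
    rcases key with ⟨e1, e2⟩ | ⟨e1, e2⟩ <;> rcases hT with ⟨t1, t2⟩ | ⟨t1, t2⟩ | t1 | ⟨t1, t2⟩ <;>
      first | (exfalso; omega) | linear_combination e2 + t2 |
        linear_combination (1 / 2 : ℂ) * e2 + (1 / 2 : ℂ) * t2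
  · have hn1 := hd3 h
    rcases key with ⟨e1, e2⟩ | ⟨e1, e2⟩ <;> rcases hT with ⟨t1, t2⟩ | ⟨t1, t2⟩ | t1 | ⟨t1, t2⟩ <;>
      first | (exfalso; omega) | linear_combination e2 + t2 |
        linear_combination (1 / 2 : ℂ) * e2 + (1 / 2 : ℂ) * t2
  · have hn1 := hd4 h
    rw [hQ]
    rcases key with ⟨e1, e2⟩ | ⟨e1, e2⟩ <;> rcases hT with ⟨t1, t2⟩ | ⟨t1, t2⟩ | t1 | ⟨t1, t2⟩ <;>
      first | (exfalso; omega) | linear_combination e2 + t2 |
        linear_combination (1 / 2 : ℂ) * e2 + (1 / 2 : ℂ) * t2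
  · have hn1 := hd5 h
    rcases key with ⟨e1, e2⟩ | ⟨e1, e2⟩ <;> rcases hT with ⟨t1, t2⟩ | ⟨t1, t2⟩ | t1 | ⟨t1, t2⟩ <;>
      first | (exfalso; omega) | linear_combination e2 + t2 |
        linear_combination (1 / 2 : ℂ) * e2 + (1 / 2 : ℂ) * t2

end Cfsg.Agent.S2438
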