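import Cfsg.Statements.S2531
import Cfsg.Agent.Helper20.ProjCount

set_option autoImplicit false
open Cfsg

namespace Cfsg.Agent.S2531

/-- Let `F` be a finite field and `n ≥ 3`. No set of permutations of the points of the projective space of `Fⁿ`, each induced by an invertible semilinear transformation of `Fⁿ` (so a subset of the full projective semilinear group), is sharply 2-transitive on the points: it is impossible that for all pairs of distinct points `(a, b)` and `(c, d)` exactly one member of the set sends `a` to `c` and `b` to `d`. -/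
theorem result {F : Type*} [Field F] [Finite F]
    (n : ℕ) (hn : 3 ≤ n) (S : Set (Equiv.Perm (Projectivization F (Fin n → F))))
    (hS : ∀ s ∈ S, ∃ (σ : F ≃+* F) (f : (Fin n → F) →ₛₗ[(σ : F →+* F)] (Fin n → F)) (hf : Function.Injective f),
      ∀ x, s x = Projectivization.map f hf x) :
    ¬ (∀ a b c d : Projectivization F (Fin n → F), a ≠ b → c ≠ d →
        ∃! s, s ∈ S ∧ s a = c ∧ s b = d) := by
  intro h2
  classical
  obtain ⟨m, rfl⟩ : ∃ m, n = m + 3 := ⟨n - 3, by omega⟩
  have hq1 : 1 < Nat.card F := Finite.one_lt_card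
  have h02 : (0 : Fin (m + 3)) ≠ 2 := by
    intro h
    have h' := congrArg Fin.val h
    simp at h'
    rw [Nat.mod_eq_of_lt (by omega)] at h'
    omega
  have h12 : (1 : Fin (m + 3)) ≠ 2 := by
    intro h
    have h' := congrArg Fin.val h
    simp at h'
    rw [Nat.mod_eq_of_lt (by omega)] at h'
    omega
  -- the hyperplane `v 0 = 0`
  let H : Submodule F (Fin (m + 3) → F) :=
    LinearMap.ker (LinearMap.proj (R := F) (φ := fun _ : Fin (m + 3) => F) 0)
  have hH : ∀ v : Fin (m + 3) → F, v ∈ H ↔ v 0 = 0 := fun v => by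
    simp [H, LinearMap.mem_ker]
  have he0 : (Pi.single 0 1 : Fin (m + 3) → F) ≠ 0 := by
    intro h
    have := congrFun h 0
    simp at this
  have he1 : (Pi.single 1 1 : Fin (m + 3) → F) ≠ 0 := by
    intro h
    have := congrFun h 1
    simp at this
  let x : Projectivization F (Fin (m + 3) → F) := Projectivization.mk F (Pi.single 0 1) he0
  have hx : ∀ y ∈ Cfsg.Agent.Helper20.ProjCount.pts H, x ≠ y := by
    intro y hy hyx
    rw [← hyx] at hy
    have h3 := (Cfsg.Agent.Helper20.ProjCount.mk_mem_pts H _ he0).1 hy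
    rw [hH] at h3
    simp at h3
  let y₀ : Projectivization F (Fin (m + 3) → F) := Projectivization.mk F (Pi.single 1 1) he1
  have hy₀ : x ≠ y₀ := hx y₀ ((Cfsg.Agent.Helper20.ProjCount.mk_mem_pts H _ he1).2 (by
    rw [hH]; simp))
  -- the members of `S` fixing `x`
  let T : Set (Equiv.Perm (Projectivization F (Fin (m + 3) → F))) := {s | s ∈ S ∧ s x = x}
  haveI : Fintype T := Fintype.ofFinite T
  have hT : Nat.card T + 1 = Nat.card (Projectivization F (Fin (m + 3) → F)) := by
    have e : T ≃ {y : Projectivization F (Fin (m + 3) → F) // y ≠ x} := by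
      refine Equiv.ofBijective (fun s => ⟨s.1 y₀, fun h => hy₀ (s.1.injective
        (s.2.2.trans h.symm))⟩) ⟨?_, ?_⟩
      · rintro ⟨s, hsS, hsx⟩ ⟨s', hsS', hsx'⟩ h
        have h' : s y₀ = s' y₀ := congrArg Subtype.val h
        have hne : x ≠ s y₀ := fun hh => hy₀ (s.injective (hsx.trans hh))
        obtain ⟨s₀, -, huniq⟩ := h2 x y₀ x (s y₀) hy₀ hne
        have e1 := huniq s ⟨hsS, hsx, rfl⟩
        have e2 := huniq s' ⟨hsS', hsx', h'.symm⟩
        apply Subtype.ext
        exact e1.trans e2.symm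
      · rintro ⟨c, hc⟩
        obtain ⟨s₀, ⟨hs₀, hs₀x, hs₀y⟩, -⟩ := h2 x y₀ x c hy₀ (Ne.symm hc)
        exact ⟨⟨s₀, hs₀, hs₀x⟩, Subtype.ext hs₀y⟩
    rw [Nat.card_congr e]
    haveI : Fintype (Projectivization F (Fin (m + 3) → F)) := Fintype.ofFinite _
    rw [Nat.card_eq_fintype_card, Nat.card_eq_fintype_card, Fintype.card_subtype_compl,
      Fintype.card_subtype_eq]
    have : 0 < Fintype.card (Projectivization F (Fin (m + 3) → F)) :=
      Fintype.card_pos_iff.2 ⟨x⟩
    omega
  have hT0 : (Nat.card T : ZMod (Nat.card F)) = 0 := by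
    have h3 := congrArg (Nat.cast : ℕ → ZMod (Nat.card F)) hT
    rw [Cfsg.Agent.Helper20.ProjCount.card_proj_mod] at h3
    push_cast at h3
    linear_combination h3
  -- the double count
  have e2 : (Σ s : T, {y : Projectivization F (Fin (m + 3) → F) //
      y ∈ Cfsg.Agent.Helper20.ProjCount.pts H ∧ s.1 y ∈ Cfsg.Agent.Helper20.ProjCount.pts H}) ≃
      (Cfsg.Agent.Helper20.ProjCount.pts H) × (Cfsg.Agent.Helper20.ProjCount.pts H) := by
    refine Equiv.ofBijective (fun z => (⟨z.2.1, z.2.2.1⟩, ⟨z.1.1 z.2.1, z.2.2.2⟩)) ⟨?_, ?_⟩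
    · rintro ⟨⟨s, hsS, hsx⟩, ⟨y, hy, hsy⟩⟩ ⟨⟨s', hsS', hsx'⟩, ⟨y', hy', hsy'⟩⟩ h
      have h1 : y = y' := congrArg (fun p => (p.1 : Projectivization F (Fin (m + 3) → F))) h
      have h3 : s y = s' y' := congrArg (fun p => (p.2 : Projectivization F (Fin (m + 3) → F))) h
      subst h1
      obtain ⟨s₀, -, huniq⟩ := h2 x y x (s y) (hx y hy) (hx _ hsy)
      have e1 := huniq s ⟨hsS, hsx, rfl⟩
      have e3 := huniq s' ⟨hsS', hsx', h3.symm⟩
      have : s = s' := e1.trans e3.symm
      subst this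
      rfl
    · rintro ⟨⟨y, hy⟩, ⟨y', hy'⟩⟩
      obtain ⟨s₀, ⟨hs₀, hs₀x, hs₀y⟩, -⟩ := h2 x y x y' (hx y hy) (hx y' hy')
      refine ⟨⟨⟨s₀, hs₀, hs₀x⟩, ⟨y, hy, by rw [hs₀y]; exact hy'⟩⟩, ?_⟩
      exact Prod.ext rfl (Subtype.ext hs₀y)
  have hcard := Nat.card_congr e2
  rw [Nat.card_sigma, Nat.card_prod] at hcard
  have h3 := congrArg (Nat.cast : ℕ → ZMod (Nat.card F)) hcard
  have hHbot : H ≠ ⊥ := by
    intro hb
    have : (Pi.single 1 1 : Fin (m + 3) → F) ∈ H := by rw [hH]; simp
    rw [hb, Submodule.mem_bot] at this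
    exact he1 this
  rw [Nat.cast_mul, Cfsg.Agent.Helper20.ProjCount.card_pts_mod H hHbot, Nat.cast_sum] at h3
  have hterm : ∀ s : T, (Nat.card {y : Projectivization F (Fin (m + 3) → F) //
      y ∈ Cfsg.Agent.Helper20.ProjCount.pts H ∧ s.1 y ∈ Cfsg.Agent.Helper20.ProjCount.pts H} :
      ZMod (Nat.card F)) = 1 := by
    rintro ⟨s, hsS, hsx⟩
    obtain ⟨σ, f, hf, hsf⟩ := hS s hsS
    have hset : {y : Projectivization F (Fin (m + 3) → F) |
        y ∈ Cfsg.Agent.Helper20.ProjCount.pts H ∧ s y ∈ Cfsg.Agent.Helper20.ProjCount.pts H} =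
        Cfsg.Agent.Helper20.ProjCount.pts (H ⊓ H.comap f) := by
      ext y
      induction y using Projectivization.ind with
      | h v hv =>
        simp only [Set.mem_setOf_eq]
        rw [hsf, Projectivization.map_mk, Cfsg.Agent.Helper20.ProjCount.mk_mem_pts,
          Cfsg.Agent.Helper20.ProjCount.mk_mem_pts, Cfsg.Agent.Helper20.ProjCount.mk_mem_pts,
          Submodule.mem_inf, Submodule.mem_comap]
    have hne : H ⊓ H.comap f ≠ ⊥ := by
      by_cases h0 : f (Pi.single 1 1) 0 = 0
      · intro hb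
        have : (Pi.single 1 1 : Fin (m + 3) → F) ∈ H ⊓ H.comap f := by
          rw [Submodule.mem_inf, Submodule.mem_comap, hH, hH]
          exact ⟨by simp, h0⟩
        rw [hb, Submodule.mem_bot] at this
        exact he1 this
      · intro hb
        have : (σ.symm (-(f (Pi.single 2 1) 0) / f (Pi.single 1 1) 0) •
            (Pi.single 1 1 : Fin (m + 3) → F) + Pi.single 2 1) ∈ H ⊓ H.comap f := by
          rw [Submodule.mem_inf, Submodule.mem_comap, hH, hH]
          refine ⟨by simp [h02], ?_⟩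
          rw [map_add, f.map_smulₛₗ]
          simp only [RingEquiv.coe_toRingHom, RingEquiv.apply_symm_apply, Pi.add_apply,
            Pi.smul_apply, smul_eq_mul]
          field_simp
          ring
        rw [hb, Submodule.mem_bot] at this
        have h4 := congrFun this 2
        simp [h12, h12.symm] at h4
    show (Nat.card ({y : Projectivization F (Fin (m + 3) → F) |
        y ∈ Cfsg.Agent.Helper20.ProjCount.pts H ∧ s y ∈ Cfsg.Agent.Helper20.ProjCount.pts H} :
        Set _) : ZMod (Nat.card F)) = 1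
    rw [hset]
    exact Cfsg.Agent.Helper20.ProjCount.card_pts_mod _ hne
  rw [Finset.sum_congr rfl (fun s _ => hterm s)] at h3
  simp only [Finset.sum_const, Finset.card_univ, nsmul_eq_mul, mul_one] at h3
  rw [← Nat.card_eq_fintype_card, hT0] at h3
  have h5 : ((1 : ℕ) : ZMod (Nat.card F)) = 0 := by simpa using h3.symm
  have h6 := (ZMod.natCast_eq_zero_iff _ _).1 h5
  have := Nat.le_of_dvd one_pos h6
  omega

end Cfsg.Agent.S2531
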