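import Cfsg.Statements.S2532
import Mathlib
-- import your own Cfsg.Agent.* helpers here

set_option autoImplicit false
open Cfsg

namespace Cfsg.Agent.S2532

theorem core {H X : Type*} [Group H] [Finite H] [Fintype X] [MulAction H X] (r : ℕ)
    (hm : Nat.card H * (2 ^ Nat.card H * r + 1) ≤ Fintype.card X) :
    ∃ Φ : Equiv.Perm (Fin r) →* Equiv.Perm X, Function.Injective Φ ∧
      ∀ (σ : Equiv.Perm (Fin r)) (h : H) (y : X), h • (Φ σ y) = Φ σ (h • y) := by
  classical
  have instH : Fintype H := Fintype.ofFinite H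
  have instΩ : Fintype (MulAction.orbitRel.Quotient H X) := Fintype.ofFinite _
  have instS : Fintype (Subgroup H) := Fintype.ofFinite _
  -- every point is a translate of the chosen representative of its orbit
  have hex : ∀ x : X, ∃ h : H,
      h • (Quotient.out (Quotient.mk'' x : MulAction.orbitRel.Quotient H X)) = x := by
    intro x
    have h1 : (Quotient.mk'' (Quotient.out (Quotient.mk'' x : MulAction.orbitRel.Quotient H X)) :
        MulAction.orbitRel.Quotient H X) = Quotient.mk'' x := Quotient.out_eq' _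
    have h2 := Quotient.eq''.mp h1
    rw [MulAction.orbitRel_apply] at h2
    obtain ⟨g, hg⟩ := h2
    refine ⟨g⁻¹, ?_⟩
    rw [← hg, inv_smul_smul]
  choose gx hgx using hex
  have h1 : Fintype.card X ≤ Fintype.card (MulAction.orbitRel.Quotient H X) * Fintype.card H := by
    rw [← Fintype.card_prod]
    refine Fintype.card_le_of_injective
      (fun x => ((Quotient.mk'' x : MulAction.orbitRel.Quotient H X), gx x)) ?_
    intro x y hxy
    simp only [Prod.mk.injEq] at hxy
    rw [← hgx x, ← hgx y, hxy.1, hxy.2]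
  have h2 : Fintype.card (Subgroup H) ≤ 2 ^ Fintype.card H := by
    rw [← Fintype.card_set]
    exact Fintype.card_le_of_injective (fun K : Subgroup H => (K : Set H)) SetLike.coe_injective
  have h3 : Fintype.card (Subgroup H) * r < Fintype.card (MulAction.orbitRel.Quotient H X) := by
    rw [Nat.card_eq_fintype_card] at hm
    have hpos : 0 < Fintype.card H := Fintype.card_pos
    have h4 : Fintype.card H * (2 ^ Fintype.card H * r + 1) ≤
        Fintype.card H * Fintype.card (MulAction.orbitRel.Quotient H X) := by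
      rw [mul_comm (Fintype.card H) (Fintype.card (MulAction.orbitRel.Quotient H X))]
      exact hm.trans h1
    have h5 := Nat.le_of_mul_le_mul_left h4 hpos
    have h6 : Fintype.card (Subgroup H) * r ≤ 2 ^ Fintype.card H * r :=
      Nat.mul_le_mul_right r h2
    omega
  obtain ⟨K, hK⟩ := Fintype.exists_lt_card_fiber_of_mul_lt_card
    (f := fun ω : MulAction.orbitRel.Quotient H X => MulAction.stabilizer H (Quotient.out ω)) h3
  have hcard : Fintype.card (Fin r) ≤ Fintype.card
      {ω : MulAction.orbitRel.Quotient H X // MulAction.stabilizer H (Quotient.out ω) = K} := by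
    rw [Fintype.card_fin, Fintype.card_subtype]
    exact hK.le
  obtain ⟨e⟩ := Function.Embedding.nonempty_of_card_le hcard
  have hstab : ∀ i, MulAction.stabilizer H (Quotient.out (e i).1) = K := fun i => (e i).2
  have horb : ∀ (i j : Fin r) (g g' : H),
      g • (Quotient.out (e i).1) = g' • (Quotient.out (e j).1) → i = j := by
    intro i j g g' hgg
    have h4 : (Quotient.mk'' (Quotient.out (e i).1) : MulAction.orbitRel.Quotient H X) =
        Quotient.mk'' (Quotient.out (e j).1) := by
      apply Quotient.eq''.mpr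
      rw [MulAction.orbitRel_apply]
      refine ⟨g⁻¹ * g', ?_⟩
      show (g⁻¹ * g') • Quotient.out (e j).1 = Quotient.out (e i).1
      rw [mul_smul, ← hgg, inv_smul_smul]
    rw [Quotient.out_eq', Quotient.out_eq'] at h4
    exact e.injective (Subtype.ext h4)
  -- the embedding
  have hιmk : ∀ (g : H) (i : Fin r),
      (Quotient.out (QuotientGroup.mk g : H ⧸ K)) • (Quotient.out (e i).1) =
        g • (Quotient.out (e i).1) := by
    intro g i
    obtain ⟨k, hk⟩ := QuotientGroup.mk_out_eq_mul K g
    rw [hk, mul_smul]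
    congr 1
    have hk2 : (k : H) ∈ MulAction.stabilizer H (Quotient.out (e i).1) := by
      rw [hstab i]; exact k.2
    exact MulAction.mem_stabilizer_iff.mp hk2
  have hιinj : Function.Injective
      (fun p : (H ⧸ K) × Fin r => (Quotient.out p.1) • (Quotient.out (e p.2).1)) := by
    rintro ⟨q, i⟩ ⟨q', j⟩ hqq
    simp only at hqq
    have hij : i = j := horb i j _ _ hqq
    subst hij
    have h5 : (Quotient.out q')⁻¹ * Quotient.out q ∈ K := by
      have h50 : (Quotient.out q')⁻¹ * Quotient.out q ∈
          MulAction.stabilizer H (Quotient.out (e i).1) := by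
        rw [MulAction.mem_stabilizer_iff, mul_smul, hqq, inv_smul_smul]
      rw [hstab i] at h50
      exact h50
    have h6 : (QuotientGroup.mk (Quotient.out q') : H ⧸ K) = QuotientGroup.mk (Quotient.out q) :=
      QuotientGroup.eq.mpr h5
    rw [QuotientGroup.out_eq', QuotientGroup.out_eq'] at h6
    rw [h6]
  let ι : (H ⧸ K) × Fin r ↪ X :=
    ⟨fun p => (Quotient.out p.1) • (Quotient.out (e p.2).1), hιinj⟩
  have hι : ∀ (g : H) (i : Fin r), ι (QuotientGroup.mk g, i) = g • (Quotient.out (e i).1) :=
    hιmk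
  let P : Equiv.Perm (Fin r) →* Equiv.Perm ((H ⧸ K) × Fin r) :=
    { toFun := fun σ => Equiv.prodCongr (Equiv.refl _) σ
      map_one' := by ext ⟨a, b⟩ <;> rfl
      map_mul' := by intro σ τ; ext ⟨a, b⟩ <;> rfl }
  have hPinj : Function.Injective P := by
    intro σ τ hστ
    ext i
    have h7 := congrArg (fun f : Equiv.Perm ((H ⧸ K) × Fin r) => (f ((QuotientGroup.mk (1 : H) : H ⧸ K), i)).2) hστ
    have h8 : (σ i : Fin r) = τ i := h7
    rw [h8]
  refine ⟨(Equiv.Perm.viaEmbeddingHom ι).comp P,
    (Equiv.Perm.viaEmbeddingHom_injective ι).comp hPinj, ?_⟩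
  have hΦ : ∀ (σ : Equiv.Perm (Fin r)) (g : H) (i : Fin r),
      ((Equiv.Perm.viaEmbeddingHom ι).comp P) σ (g • (Quotient.out (e i).1)) =
        g • (Quotient.out (e (σ i)).1) := by
    intro σ g i
    rw [← hι g i, ← hι g (σ i)]
    exact Equiv.Perm.viaEmbedding_apply (P σ) ι (QuotientGroup.mk g, i)
  have hΦ' : ∀ (σ : Equiv.Perm (Fin r)) (y : X), y ∉ Set.range ι →
      ((Equiv.Perm.viaEmbeddingHom ι).comp P) σ y = y := by
    intro σ y hy
    exact Equiv.Perm.viaEmbedding_apply_of_notMem (P σ) ι y hy
  intro σ h y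
  by_cases hy : y ∈ Set.range ι
  · obtain ⟨⟨q, i⟩, rfl⟩ := hy
    induction q using QuotientGroup.induction_on with
    | H g =>
      rw [hι g i, hΦ σ g i, ← mul_smul, ← mul_smul, hΦ σ (h * g) i]
  · have hy2 : h • y ∉ Set.range ι := by
      rintro ⟨⟨q, i⟩, hqi⟩
      induction q using QuotientGroup.induction_on with
      | H g =>
        apply hy
        refine ⟨(QuotientGroup.mk (h⁻¹ * g), i), ?_⟩
        rw [hι (h⁻¹ * g) i, mul_smul, ← hι g i, hqi, inv_smul_smul]
    rw [hΦ' σ y hy, hΦ' σ (h • y) hy2]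

/-- There is a function `f` of two natural-number arguments such that, whenever `m ≥ f(n, r)`, every subgroup of order `n` of the alternating group of degree `m` centralizes some subgroup of that alternating group isomorphic to the alternating group of degree `r`. -/
theorem result :
    ∃ f : ℕ → ℕ → ℕ, ∀ (m r : ℕ) (H : Subgroup ↥(alternatingGroup (Fin m))), f (Nat.card H) r ≤ m →
      ∃ K : Subgroup ↥(alternatingGroup (Fin m)), Nonempty (↥K ≃* ↥(alternatingGroup (Fin r))) ∧
        K ≤ Subgroup.centralizer (H : Set ↥(alternatingGroup (Fin m))) := by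
  refine ⟨fun n r => n * (2 ^ n * r + 1), fun m r H hm => ?_⟩
  obtain ⟨Φ, hinj, hcomm⟩ := core (H := H) (X := Fin m) r (by simpa using hm)
  have hle : alternatingGroup (Fin r) ≤ (Equiv.Perm.sign.comp Φ).ker := by
    rw [← Equiv.Perm.closure_three_cycles_eq_alternating, Subgroup.closure_le]
    intro τ hτ
    have hτ3 : τ ^ 3 = 1 := by
      have h := Equiv.Perm.IsThreeCycle.orderOf hτ
      rw [← h]; exact pow_orderOf_eq_one τ
    have h3 : (Equiv.Perm.sign.comp Φ) τ ^ 3 = 1 := by rw [← map_pow, hτ3, map_one]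
    have h2 : (Equiv.Perm.sign.comp Φ) τ ^ 2 = 1 := Int.units_sq _
    show (Equiv.Perm.sign.comp Φ) τ = 1
    calc (Equiv.Perm.sign.comp Φ) τ
        = (Equiv.Perm.sign.comp Φ) τ ^ 3 * ((Equiv.Perm.sign.comp Φ) τ ^ 2)⁻¹ := by group
      _ = 1 := by rw [h3, h2]; simp
  have heven : ∀ σ : alternatingGroup (Fin r),
      (Φ.comp (alternatingGroup (Fin r)).subtype) σ ∈ alternatingGroup (Fin m) := by
    intro σ
    exact Equiv.Perm.mem_alternatingGroup.mpr (hle σ.2)
  have hΨinj : Function.Injective
      ((Φ.comp (alternatingGroup (Fin r)).subtype).codRestrict (alternatingGroup (Fin m)) heven) := by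
    intro a b hab
    have h1 := congrArg Subtype.val hab
    exact Subtype.ext (hinj h1)
  refine ⟨((Φ.comp (alternatingGroup (Fin r)).subtype).codRestrict
    (alternatingGroup (Fin m)) heven).range, ⟨(MonoidHom.ofInjective hΨinj).symm⟩, ?_⟩
  rintro _ ⟨σ, rfl⟩
  rw [Subgroup.mem_centralizer_iff]
  intro h hh
  apply Subtype.ext
  apply Equiv.ext
  intro y
  exact hcomm σ.1 ⟨h, hh⟩ y

end Cfsg.Agent.S2532
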