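import Cfsg.Statements.S2533
import Mathlib
-- import your own Cfsg.Agent.* helpers here

set_option autoImplicit false
open Cfsg

namespace Cfsg.Agent.S2533

/-- The generalized dihedral group of `(ℤ/p)³`: pairs `(v, s)` with `(v, s)(w, t) = (v + s w, s t)`. -/
structure GD (p : ℕ) where
  v : Fin 3 → ZMod p
  s : ℤˣ

namespace GD

variable {p : ℕ}

theorem ext' {g h : GD p} (hv : g.v = h.v) (hs : g.s = h.s) : g = h := by
  cases g; cases h; cases hv; cases hs; rfl

/-- the sign `±1` as an element of `ZMod p` -/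
def sg (p : ℕ) (s : ℤˣ) : ZMod p := ((s : ℤ) : ZMod p)

theorem sg_one : sg p 1 = 1 := by simp [sg]

theorem sg_mul (s t : ℤˣ) : sg p (s * t) = sg p s * sg p t := by simp [sg]

theorem sg_neg_one : sg p (-1) = -1 := by simp [sg]

theorem sg_sq (s : ℤˣ) : sg p s ^ 2 = 1 := by
  rcases Int.units_eq_one_or s with h | h <;> simp [sg, h]

instance instMulGD : Mul (GD p) := ⟨fun g h => ⟨g.v + sg p g.s • h.v, g.s * h.s⟩⟩
instance instOneGD : One (GD p) := ⟨⟨0, 1⟩⟩
instance instInvGD : Inv (GD p) := ⟨fun g => ⟨-(sg p g.s⁻¹ • g.v), g.s⁻¹⟩⟩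

instance instGroupGD : Group (GD p) := Group.ofLeftAxioms
  (fun a b c => by
    apply ext'
    · show a.v + sg p a.s • b.v + sg p (a.s * b.s) • c.v = a.v + sg p a.s • (b.v + sg p b.s • c.v)
      rw [sg_mul, smul_add, mul_smul, add_assoc]
    · show a.s * b.s * c.s = a.s * (b.s * c.s)
      rw [mul_assoc])
  (fun a => by
    apply ext'
    · show (0 : Fin 3 → ZMod p) + sg p (1 : ℤˣ) • a.v = a.v
      rw [sg_one, one_smul, zero_add]
    · show (1 : ℤˣ) * a.s = a.s
      rw [one_mul])
  (fun a => by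
    apply ext'
    · show -(sg p a.s⁻¹ • a.v) + sg p a.s⁻¹ • a.v = 0
      rw [neg_add_cancel]
    · show a.s⁻¹ * a.s = 1
      rw [inv_mul_cancel])

theorem mul_v (g h : GD p) : (g * h).v = g.v + sg p g.s • h.v := rfl
theorem mul_s (g h : GD p) : (g * h).s = g.s * h.s := rfl
theorem one_v : (1 : GD p).v = 0 := rfl
theorem one_s : (1 : GD p).s = 1 := rfl

/-- underlying set -/
def equivProd : GD p ≃ (Fin 3 → ZMod p) × ℤˣ :=
  ⟨fun g => (g.v, g.s), fun q => ⟨q.1, q.2⟩, fun _ => rfl, fun _ => rfl⟩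

theorem finite_GD [NeZero p] : Finite (GD p) := Finite.of_equiv _ (equivProd (p := p)).symm

theorem card_GD [NeZero p] : Nat.card (GD p) = 2 * p ^ 3 := by
  rw [Nat.card_congr (equivProd (p := p)), Nat.card_prod, Nat.card_fun, Nat.card_fin,
    Nat.card_zmod, Nat.card_eq_fintype_card, Fintype.card_units_int, mul_comm]

/-- the cyclic shift matrix -/
def Sm (p d : ℕ) : Matrix (ZMod d) (ZMod d) (ZMod p) :=
  Matrix.of fun i j => if i = j + 1 then 1 else 0

/-- the matrix unit at `(0, 0)` -/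
def Em (p d : ℕ) : Matrix (ZMod d) (ZMod d) (ZMod p) :=
  Matrix.of fun i j => if i = 0 ∧ j = 0 then 1 else 0

/-- the lower left block -/
def Lm (d : ℕ) (v : Fin 3 → ZMod p) : Matrix (ZMod d) (ZMod d) (ZMod p) :=
  v 0 • 1 + v 1 • Sm p d + v 2 • Em p d

theorem Lm_add_smul (d : ℕ) (v w : Fin 3 → ZMod p) (c : ZMod p) :
    Lm d (v + c • w) = Lm d v + c • Lm d w := by
  simp only [Lm, Pi.add_apply, Pi.smul_apply, smul_eq_mul, add_smul, mul_smul, smul_add]
  abel

theorem Lm_zero (d : ℕ) : Lm d (0 : Fin 3 → ZMod p) = 0 := by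
  simp [Lm]

/-- the block matrix of a group element -/
def Mat (d : ℕ) (g : GD p) : Matrix (ZMod d ⊕ ZMod d) (ZMod d ⊕ ZMod d) (ZMod p) :=
  Matrix.fromBlocks 1 0 (Lm d g.v) (sg p g.s • 1)

theorem Mat_one (d : ℕ) [NeZero d] : Mat d (1 : GD p) = 1 := by
  rw [Mat, one_v, one_s, Lm_zero, sg_one, one_smul, Matrix.fromBlocks_one]

theorem Mat_mul (d : ℕ) [NeZero d] (g h : GD p) : Mat d (g * h) = Mat d g * Mat d h := by
  rw [Mat, Mat, Mat, Matrix.fromBlocks_multiply, mul_v, mul_s, Lm_add_smul, sg_mul]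
  congr 1
  · simp
  · simp
  · simp
  · rw [mul_zero, zero_add, Matrix.smul_mul, one_mul, smul_smul]

theorem Mat_det (d : ℕ) [NeZero d] (hd : Even d) (g : GD p) : (Mat d g).det = 1 := by
  rw [Mat, Matrix.det_fromBlocks_zero₁₂, Matrix.det_one, one_mul, Matrix.det_smul,
    Matrix.det_one, mul_one, ZMod.card]
  obtain ⟨k, hk⟩ := hd
  rw [hk, ← two_mul, pow_mul, sg_sq, one_pow]

/-- the representation -/
noncomputable def psi (d : ℕ) [NeZero d] (hd : Even d) {n : ℕ} (e : ZMod d ⊕ ZMod d ≃ Fin n) :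
    GD p →* Matrix.SpecialLinearGroup (Fin n) (ZMod p) where
  toFun g := ⟨Matrix.reindexAlgEquiv (ZMod p) (ZMod p) e (Mat d g), by
    rw [Matrix.det_reindexAlgEquiv]; exact Mat_det d hd g⟩
  map_one' := by
    apply Subtype.ext
    show Matrix.reindexAlgEquiv (ZMod p) (ZMod p) e (Mat d 1) = 1
    rw [Mat_one, map_one]
  map_mul' g h := by
    apply Subtype.ext
    show Matrix.reindexAlgEquiv (ZMod p) (ZMod p) e (Mat d (g * h)) =
      Matrix.reindexAlgEquiv (ZMod p) (ZMod p) e (Mat d g) *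
        Matrix.reindexAlgEquiv (ZMod p) (ZMod p) e (Mat d h)
    rw [Mat_mul, map_mul]

theorem psi_coe (d : ℕ) [NeZero d] (hd : Even d) {n : ℕ} (e : ZMod d ⊕ ZMod d ≃ Fin n)
    (g : GD p) : ((psi d hd e g : Matrix.SpecialLinearGroup (Fin n) (ZMod p)) :
      Matrix (Fin n) (Fin n) (ZMod p)) = Matrix.reindexAlgEquiv (ZMod p) (ZMod p) e (Mat d g) :=
  rfl

/-- a matrix commuting with the shift and the matrix unit is scalar -/
theorem comm_scalar (d : ℕ) [NeZero d] (α : Matrix (ZMod d) (ZMod d) (ZMod p))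
    (hS : α * Sm p d = Sm p d * α) (hE : α * Em p d = Em p d * α) : α = α 0 0 • 1 := by
  have e1 : ∀ i j, (α * Sm p d) i j = α i (j + 1) := by
    intro i j
    rw [Matrix.mul_apply, Finset.sum_eq_single (j + 1)]
    · simp [Sm]
    · intro k _ hk; simp [Sm, hk]
    · intro h; exact absurd (Finset.mem_univ _) h
  have e2 : ∀ i j, (Sm p d * α) i j = α (i - 1) j := by
    intro i j
    rw [Matrix.mul_apply, Finset.sum_eq_single (i - 1)]
    · simp [Sm]
    · intro k _ hk
      have hik : i ≠ k + 1 := fun h => hk (by rw [h, add_sub_cancel_right])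
      simp [Sm, hik]
    · intro h; exact absurd (Finset.mem_univ _) h
  have h1 : ∀ i j, α i (j + 1) = α (i - 1) j := fun i j => by rw [← e1, ← e2, hS]
  have h2 : ∀ (k : ℕ) (i : ZMod d), α i (k : ZMod d) = α (i - k) 0 := by
    intro k
    induction k with
    | zero => intro i; simp
    | succ k ih =>
      intro i
      rw [Nat.cast_succ, h1, ih]
      congr 1
      ring
  have h3 : ∀ i j : ZMod d, α i j = α (i - j) 0 := by
    intro i j
    have := h2 j.val i
    rwa [ZMod.natCast_zmod_val] at this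
  have h4 : ∀ i : ZMod d, i ≠ 0 → α i 0 = 0 := by
    intro i hi
    have h := congrFun (congrFun hE i) 0
    rw [Matrix.mul_apply, Matrix.mul_apply, Finset.sum_eq_single (0 : ZMod d)] at h
    · simpa [Em, hi] using h
    · intro k _ hk; simp [Em, hk]
    · intro h; exact absurd (Finset.mem_univ _) h
  ext i j
  rw [h3 i j, Matrix.smul_apply, Matrix.one_apply]
  by_cases hij : i = j
  · subst hij; simp
  · rw [if_neg hij, smul_zero]
    exact h4 _ (sub_ne_zero.mpr hij)

theorem eq_zero_of_eq_smul {m : Type*} {r : ZMod p} [Fact p.Prime] (hr : r ≠ 1)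
    {A : Matrix m m (ZMod p)} (h : A = r • A) : A = 0 := by
  have h1 : (1 - r) • A = 0 := by rw [sub_smul, one_smul, sub_eq_zero]; exact h
  rcases smul_eq_zero.mp h1 with h2 | h2
  · exact absurd (sub_eq_zero.mp h2).symm hr
  · exact h2

theorem det_lower (d : ℕ) [NeZero d] (C : Matrix (ZMod d) (ZMod d) (ZMod p)) :
    (Matrix.fromBlocks (0 : Matrix (ZMod d) (ZMod d) (ZMod p)) 0 C 0).det = 0 := by
  rw [Matrix.det_fromBlocks_zero₁₂, Matrix.det_zero, zero_mul]

/-- the commutant of the block matrices modulo scalars -/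
theorem block_comm [Fact p.Prime] (hp2 : (2 : ZMod p) ≠ 0) (d : ℕ) [NeZero d]
    (M : Matrix (ZMod d ⊕ ZMod d) (ZMod d ⊕ ZMod d) (ZMod p)) (hM : M.det ≠ 0)
    (h : ∀ g : GD p, ∃ r : ZMod p, M * Mat d g = r • (Mat d g * M)) : ∃ c : ZMod p, M = c • 1 := by
  obtain ⟨M11, M12, M21, M22, rfl⟩ : ∃ A B C D, M = Matrix.fromBlocks A B C D :=
    ⟨_, _, _, _, (Matrix.fromBlocks_toBlocks M).symm⟩
  have hu : ∀ v : Fin 3 → ZMod p, M12 * Lm d v = 0 ∧ M22 * Lm d v = Lm d v * M11 := by
    intro v
    obtain ⟨r, hr⟩ := h ⟨v, 1⟩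
    have hMat : Mat d (⟨v, 1⟩ : GD p) = Matrix.fromBlocks 1 0 (Lm d v) 1 := by
      rw [Mat, sg_one, one_smul]
    rw [hMat, Matrix.fromBlocks_multiply, Matrix.fromBlocks_multiply, Matrix.fromBlocks_smul,
      Matrix.fromBlocks_inj] at hr
    obtain ⟨h11, h12, h21, h22⟩ := hr
    simp only [mul_one, mul_zero, zero_add, one_mul, zero_mul, add_zero] at h11 h12 h21 h22
    have hr1 : r = 1 := by
      by_contra hne
      have z12 : M12 = 0 := eq_zero_of_eq_smul hne h12
      rw [z12, zero_mul, add_zero] at h11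
      rw [z12, mul_zero, zero_add] at h22
      have z11 : M11 = 0 := eq_zero_of_eq_smul hne h11
      have z22 : M22 = 0 := eq_zero_of_eq_smul hne h22
      apply hM
      rw [z11, z12, z22]
      exact det_lower d M21
    subst hr1
    rw [one_smul] at h11 h21 h22
    refine ⟨?_, ?_⟩
    · exact add_eq_left.mp h11
    · rw [add_comm] at h21
      exact add_right_cancel h21
  have h0 := hu ![1, 0, 0]
  have hL0 : Lm d (![1, 0, 0] : Fin 3 → ZMod p) = 1 := by simp [Lm]
  rw [hL0, mul_one, mul_one, one_mul] at h0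
  obtain ⟨z12, e22⟩ := h0
  subst z12
  subst e22
  have h1 := (hu ![0, 1, 0]).2
  have hL1 : Lm d (![0, 1, 0] : Fin 3 → ZMod p) = Sm p d := by simp [Lm]
  rw [hL1] at h1
  have h2 := (hu ![0, 0, 1]).2
  have hL2 : Lm d (![0, 0, 1] : Fin 3 → ZMod p) = Em p d := by simp [Lm]
  rw [hL2] at h2
  have hsc := comm_scalar d M22 h1 h2
  set c := M22 0 0 with hc
  rw [hsc] at hM ⊢
  -- the involution
  obtain ⟨r, hr⟩ := h ⟨0, -1⟩
  have hMat : Mat d (⟨0, -1⟩ : GD p) = Matrix.fromBlocks 1 0 0 (-1) := by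
    rw [Mat, sg_neg_one, Lm_zero, neg_smul, one_smul]
  rw [hsc, hMat, Matrix.fromBlocks_multiply, Matrix.fromBlocks_multiply, Matrix.fromBlocks_smul,
    Matrix.fromBlocks_inj] at hr
  obtain ⟨h11, -, h21, -⟩ := hr
  simp only [mul_one, mul_zero, zero_add, one_mul, zero_mul, add_zero] at h11 h21
  have hc0 : c ≠ 0 := by
    intro hc0
    apply hM
    rw [hc0, zero_smul]
    exact det_lower d M21
  have hr1 : r = 1 := by
    have h00 := congrFun (congrFun h11 0) 0
    simp only [Matrix.smul_apply, Matrix.one_apply_eq, smul_eq_mul, mul_one] at h00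
    have : 1 * c = r * c := by rw [one_mul]; exact h00
    exact (mul_right_cancel₀ hc0 this).symm
  subst hr1
  rw [one_smul] at h21
  have z21 : M21 = 0 := by
    have h5 : (2 : ZMod p) • M21 = 0 := by
      rw [two_smul]
      nth_rewrite 2 [h21]
      simp
    rcases smul_eq_zero.mp h5 with h6 | h6
    · exact absurd h6 hp2
    · exact h6
  refine ⟨c, ?_⟩
  rw [z21, ← Matrix.fromBlocks_one, Matrix.fromBlocks_smul, smul_zero]

theorem Lm_eq_zero (d : ℕ) [NeZero d] [Fact (1 < d)] (v : Fin 3 → ZMod p) (h : Lm d v = 0) :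
    v = 0 := by
  have h11 := congrFun (congrFun h 1) 1
  have h10 := congrFun (congrFun h 1) 0
  have h00 := congrFun (congrFun h 0) 0
  simp [Lm, Sm, Em] at h11 h10 h00
  funext i
  fin_cases i
  · simpa using h11
  · simpa using h10
  · simpa [h11] using h00

theorem main (p : ℕ) [Fact p.Prime] (hp : p ≠ 2) (N : ℕ) :
    ∃ n, N ≤ n ∧ ∃ φ : GD p →* Matrix.ProjectiveSpecialLinearGroup (Fin n) (ZMod p),
      Function.Injective φ ∧ Subgroup.centralizer
        (φ.range : Set (Matrix.ProjectiveSpecialLinearGroup (Fin n) (ZMod p))) = ⊥ := by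
  have hp2 : (2 : ZMod p) ≠ 0 := by
    intro h2
    have h3 : ((2 : ℕ) : ZMod p) = 0 := by exact_mod_cast h2
    rw [ZMod.natCast_eq_zero_iff] at h3
    exact hp ((Nat.prime_dvd_prime_iff_eq (Fact.out : p.Prime) Nat.prime_two).mp h3)
  obtain ⟨d, hd2, hdN, hev⟩ : ∃ d : ℕ, 2 ≤ d ∧ N ≤ d + d ∧ Even d :=
    ⟨2 * (N + 1), by omega, by omega, ⟨N + 1, by omega⟩⟩
  have : NeZero d := ⟨by omega⟩
  have : Fact (1 < d) := ⟨by omega⟩
  have hcard : Fintype.card (ZMod d ⊕ ZMod d) = d + d := by
    rw [Fintype.card_sum, ZMod.card]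
  refine ⟨d + d, hdN, ?_⟩
  set e : ZMod d ⊕ ZMod d ≃ Fin (d + d) := Fintype.equivFinOfCardEq hcard with he
  set R := Matrix.reindexAlgEquiv (ZMod p) (ZMod p) e with hR
  refine ⟨(QuotientGroup.mk' (Subgroup.center
    (Matrix.SpecialLinearGroup (Fin (d + d)) (ZMod p)))).comp (psi d hev e), ?_, ?_⟩
  · rw [injective_iff_map_eq_one]
    intro g hg
    have h1 : psi d hev e g ∈ Subgroup.center
        (Matrix.SpecialLinearGroup (Fin (d + d)) (ZMod p)) :=
      (QuotientGroup.eq_one_iff _).mp hg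
    rw [Matrix.SpecialLinearGroup.mem_center_iff] at h1
    obtain ⟨r, -, hrs⟩ := h1
    rw [psi_coe, Matrix.scalar_apply, ← Matrix.smul_one_eq_diagonal] at hrs
    have h2 : Mat d g = r • 1 := by
      apply R.injective
      rw [map_smul, map_one]
      exact hrs.symm
    rw [Mat, ← Matrix.fromBlocks_one, Matrix.fromBlocks_smul, Matrix.fromBlocks_inj] at h2
    obtain ⟨h11, -, h21, h22⟩ := h2
    have hr1 : r = 1 := by
      have h00 := congrFun (congrFun h11 0) 0
      simp only [Matrix.smul_apply, Matrix.one_apply_eq, smul_eq_mul, mul_one] at h00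
      exact h00.symm
    subst hr1
    rw [smul_zero] at h21
    have hv : g.v = 0 := Lm_eq_zero d g.v h21
    have hs : sg p g.s = 1 := by
      have h00 := congrFun (congrFun h22 0) 0
      simp only [Matrix.smul_apply, Matrix.one_apply_eq, smul_eq_mul, mul_one] at h00
      exact h00
    have hs1 : g.s = 1 := by
      rcases Int.units_eq_one_or g.s with h | h
      · exact h
      · exfalso
        rw [h, sg_neg_one] at hs
        apply hp2
        have : (1 : ZMod p) + 1 = 0 := by
          nth_rewrite 1 [← hs]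
          exact neg_add_cancel 1
        rw [← one_add_one_eq_two]; exact this
    exact ext' hv hs1
  · rw [eq_bot_iff]
    intro x hx
    induction x using QuotientGroup.induction_on with
    | H g =>
      rw [Subgroup.mem_bot, QuotientGroup.eq_one_iff]
      have key : ∀ h : GD p, ∃ r : ZMod p,
          R.symm g.1 * Mat d h = r • (Mat d h * R.symm g.1) := by
        intro h
        have hc := Subgroup.mem_centralizer_iff.mp hx _ ⟨h, rfl⟩
        have hc2 : (psi d hev e h * g)⁻¹ * (g * psi d hev e h) ∈ Subgroup.center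
            (Matrix.SpecialLinearGroup (Fin (d + d)) (ZMod p)) := QuotientGroup.eq.mp hc
        set z := (psi d hev e h * g)⁻¹ * (g * psi d hev e h) with hz
        rw [Matrix.SpecialLinearGroup.mem_center_iff] at hc2
        obtain ⟨r, -, hrs⟩ := hc2
        refine ⟨r, ?_⟩
        have h4 : g * psi d hev e h = (psi d hev e h * g) * z := by rw [hz]; group
        have h5 := congrArg Subtype.val h4
        simp only [Matrix.SpecialLinearGroup.coe_mul] at h5
        rw [← hrs, Matrix.scalar_apply, ← Matrix.smul_one_eq_diagonal, Matrix.mul_smul, mul_one,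
          psi_coe] at h5
        have h6 := congrArg R.symm h5
        rw [map_mul, map_smul, map_mul, hR, AlgEquiv.symm_apply_apply] at h6
        exact h6
      have hdet : (R.symm g.1).det = 1 := by
        rw [hR, Matrix.symm_reindexAlgEquiv, Matrix.det_reindexAlgEquiv]
        exact g.2
      obtain ⟨c, hc⟩ := block_comm hp2 d (R.symm g.1) (by rw [hdet]; exact one_ne_zero) key
      have hg1 : g.1 = c • 1 := by
        have h7 := congrArg R hc
        rw [AlgEquiv.apply_symm_apply, map_smul, map_one] at h7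
        exact h7
      rw [Matrix.SpecialLinearGroup.mem_center_iff]
      refine ⟨c, ?_, ?_⟩
      · have h8 : (c • (1 : Matrix (Fin (d + d)) (Fin (d + d)) (ZMod p))).det = 1 := by
          rw [← hg1]; exact g.2
        rw [Matrix.det_smul, Matrix.det_one, mul_one] at h8
        exact h8
      · rw [Matrix.scalar_apply, ← Matrix.smul_one_eq_diagonal]
        exact hg1.symm

end GD

/-- For every odd prime `p` there is a finite group `H` of order `2p³` which, for infinitely many `n`, embeds in the projective special linear group `PSL(n, p)` as a subgroup with trivial centralizer. -/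
theorem result
    (p : ℕ) [Fact p.Prime] (hp : p ≠ 2) :
    ∃ (H : Type) (_ : Group H) (_ : Finite H), Nat.card H = 2 * p ^ 3 ∧
      ∀ N : ℕ, ∃ n, N ≤ n ∧ ∃ φ : H →* Matrix.ProjectiveSpecialLinearGroup (Fin n) (ZMod p),
        Function.Injective φ ∧ Subgroup.centralizer (φ.range : Set (Matrix.ProjectiveSpecialLinearGroup (Fin n) (ZMod p))) = ⊥ := by
  have : NeZero p := ⟨(Fact.out : p.Prime).ne_zero⟩
  exact ⟨GD p, GD.instGroupGD, GD.finite_GD, GD.card_GD, fun N => GD.main p hp N⟩

end Cfsg.Agent.S2533
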