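import Cfsg.Statements.S2540
import Mathlib
import Cfsg.Agent.S0248
import Cfsg.Agent.S0249

set_option autoImplicit false
open Cfsg

namespace Cfsg.Agent.S2540

open Matrix
open scoped commutatorElement

theorem field_cond {F : Type*} [Field F] (hF : 4 ≤ Nat.card F) :
    ∃ a : F, a ≠ 0 ∧ a ^ 2 ≠ 1 := by
  have : Finite F := (Nat.card_pos_iff.1 (by omega)).2
  obtain ⟨x, hx⟩ : IsCyclic Fˣ := by infer_instance
  refine ⟨x, Units.ne_zero x, fun h ↦ ?_⟩
  grw [Nat.card_eq_card_units_add_one F, ← orderOf_eq_card_of_forall_mem_zpowers hx,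
    orderOf_le_of_pow_eq_one zero_lt_two (Units.ext <| by simpa using h)] at hF
  omega

theorem grp_aux {H : Type*} [Group H] (A B g X Y : H) (hX : X = B * g * B⁻¹ * g⁻¹)
    (hY : Y = A * g * A⁻¹ * g⁻¹) (hc : A * X = X * A) :
    A * B * g * (A * B)⁻¹ * g⁻¹ = X * Y := by
  calc A * B * g * (A * B)⁻¹ * g⁻¹ = A * (B * g * B⁻¹ * g⁻¹) * (g * A⁻¹ * g⁻¹) := by group
    _ = A * X * (g * A⁻¹ * g⁻¹) := by rw [hX]
    _ = X * A * (g * A⁻¹ * g⁻¹) := by rw [hc]
    _ = X * (A * g * A⁻¹ * g⁻¹) := by group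
    _ = X * Y := by rw [hY]

theorem core {F : Type*} [Field F] (n : ℕ) (hn : 1 ≤ n)
    (hperf : commutator (SpecialLinearGroup (Fin n) F) = ⊤)
    (hsimple : IsSimpleGroup (Matrix.ProjectiveSpecialLinearGroup (Fin n) F))
    (G : Subgroup (GL (Fin n) F))
    (hG : ∀ s : SpecialLinearGroup (Fin n) F, ∀ g ∈ G,
      (SpecialLinearGroup.toGL s) * g * (SpecialLinearGroup.toGL s)⁻¹ ∈ G) :
    (∀ g ∈ G, ∃ c : F, (g : Matrix (Fin n) (Fin n) F) = c • (1 : Matrix (Fin n) (Fin n) F)) ∨
      (SpecialLinearGroup.toGL : SpecialLinearGroup (Fin n) F →* GL (Fin n) F).range ≤ G := by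
  have : Nonempty (Fin n) := ⟨⟨0, by omega⟩⟩
  have := hsimple
  have hN : (G.comap (SpecialLinearGroup.toGL :
      SpecialLinearGroup (Fin n) F →* GL (Fin n) F)).Normal := by
    refine ⟨fun x hx s => ?_⟩
    show SpecialLinearGroup.toGL (s * x * s⁻¹) ∈ G
    rw [map_mul, map_mul, map_inv]
    exact hG s _ hx
  have hnorm := hN.map (QuotientGroup.mk' (Subgroup.center (SpecialLinearGroup (Fin n) F)))
    (QuotientGroup.mk'_surjective _)
  rcases hnorm.eq_bot_or_eq_top with hbot | htop
  · left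
    have hNZ : G.comap (SpecialLinearGroup.toGL :
        SpecialLinearGroup (Fin n) F →* GL (Fin n) F)
        ≤ Subgroup.center (SpecialLinearGroup (Fin n) F) := by
      have h := (Subgroup.map_eq_bot_iff _).1 hbot
      rwa [QuotientGroup.ker_mk'] at h
    intro g hg
    have hr : (SpecialLinearGroup.toGL : SpecialLinearGroup (Fin n) F →* GL (Fin n) F).range
        = (Matrix.GeneralLinearGroup.det : GL (Fin n) F →* Fˣ).ker := by
      apply SetLike.coe_injective
      rw [MonoidHom.coe_range, MonoidHom.coe_ker]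
      exact Matrix.SpecialLinearGroup.range_toGL
    have hcg : ∀ a b : Fˣ, a * b * a⁻¹ * b⁻¹ = 1 := fun a b => by
      rw [mul_comm a b, mul_inv_cancel_right, mul_inv_cancel]
    have hy : ∀ s : SpecialLinearGroup (Fin n) F, ∃ y : SpecialLinearGroup (Fin n) F,
        SpecialLinearGroup.toGL y
          = SpecialLinearGroup.toGL s * g * (SpecialLinearGroup.toGL s)⁻¹ * g⁻¹ := by
      intro s
      have h1 : SpecialLinearGroup.toGL s * g * (SpecialLinearGroup.toGL s)⁻¹ * g⁻¹
          ∈ (SpecialLinearGroup.toGL : SpecialLinearGroup (Fin n) F →* GL (Fin n) F).range := by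
        rw [hr, MonoidHom.mem_ker, map_mul, map_mul, map_mul, map_inv, map_inv]
        exact hcg _ _
      exact MonoidHom.mem_range.1 h1
    choose y hy using hy
    have hyZ : ∀ s, y s ∈ Subgroup.center (SpecialLinearGroup (Fin n) F) := by
      intro s
      apply hNZ
      show SpecialLinearGroup.toGL (y s) ∈ G
      rw [hy]
      exact G.mul_mem (hG s g hg) (G.inv_mem hg)
    have hmul : ∀ a b, y (a * b) = y b * y a := by
      intro a b
      apply SpecialLinearGroup.toGL_injective
      have hcomm : SpecialLinearGroup.toGL a * SpecialLinearGroup.toGL (y b)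
          = SpecialLinearGroup.toGL (y b) * SpecialLinearGroup.toGL a := by
        rw [← map_mul, ← map_mul, Subgroup.mem_center_iff.1 (hyZ b) a]
      rw [hy (a * b), map_mul, map_mul]
      exact grp_aux _ _ g _ _ (hy b) (hy a) hcomm
    let θ : SpecialLinearGroup (Fin n) F →* SpecialLinearGroup (Fin n) F :=
      MonoidHom.mk' y
        (fun a b => (hmul a b).trans (Subgroup.mem_center_iff.1 (hyZ b) (y a)).symm)
    have hker : commutator (SpecialLinearGroup (Fin n) F) ≤ θ.ker := by
      rw [commutator_def, Subgroup.commutator_le]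
      intro a _ b _
      rw [MonoidHom.mem_ker, map_commutatorElement, commutatorElement_def]
      have hab : θ a * θ b = θ b * θ a := Subgroup.mem_center_iff.1 (hyZ b) (y a)
      rw [hab, mul_inv_cancel_right, mul_inv_cancel]
    rw [hperf] at hker
    have hy1 : ∀ s, y s = 1 := fun s => MonoidHom.mem_ker.1 (hker (Subgroup.mem_top s))
    have hcom : ∀ s : SpecialLinearGroup (Fin n) F,
        SpecialLinearGroup.toGL s * g = g * SpecialLinearGroup.toGL s := by
      intro s
      have h1 : SpecialLinearGroup.toGL s * g * (SpecialLinearGroup.toGL s)⁻¹ * g⁻¹ = 1 := by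
        rw [← hy s, hy1 s, map_one]
      exact mul_inv_eq_iff_eq_mul.1 (mul_inv_eq_one.1 h1)
    obtain ⟨c, hc⟩ := Matrix.mem_range_scalar_of_commute_transvectionStruct
      (M := (g : Matrix (Fin n) (Fin n) F)) (fun t => by
        have h := congrArg (fun x : GL (Fin n) F => (x : Matrix (Fin n) (Fin n) F))
          (hcom ⟨t.toMatrix, t.det⟩)
        exact h)
    refine ⟨c, ?_⟩
    rw [← hc, Matrix.scalar_apply, Matrix.smul_one_eq_diagonal]
  · right
    have hmem : ∀ s : SpecialLinearGroup (Fin n) F,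
        ∃ a ∈ G.comap (SpecialLinearGroup.toGL :
          SpecialLinearGroup (Fin n) F →* GL (Fin n) F),
          a⁻¹ * s ∈ Subgroup.center (SpecialLinearGroup (Fin n) F) := by
      intro s
      have h1 : QuotientGroup.mk' (Subgroup.center (SpecialLinearGroup (Fin n) F)) s
          ∈ (G.comap (SpecialLinearGroup.toGL :
            SpecialLinearGroup (Fin n) F →* GL (Fin n) F)).map
            (QuotientGroup.mk' (Subgroup.center (SpecialLinearGroup (Fin n) F))) := by
        rw [htop]
        exact Subgroup.mem_top _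
      obtain ⟨a, ha, hEq⟩ := Subgroup.mem_map.1 h1
      have hEq' : (a : SpecialLinearGroup (Fin n) F ⧸
          Subgroup.center (SpecialLinearGroup (Fin n) F)) = s := hEq
      exact ⟨a, ha, QuotientGroup.eq.1 hEq'⟩
    have hle : commutator (SpecialLinearGroup (Fin n) F)
        ≤ G.comap (SpecialLinearGroup.toGL :
          SpecialLinearGroup (Fin n) F →* GL (Fin n) F) := by
      rw [commutator_def, Subgroup.commutator_le]
      intro s _ g' _
      obtain ⟨a, ha, hz⟩ := hmem s
      have hzg : (a⁻¹ * s) * g' = g' * (a⁻¹ * s) := (Subgroup.mem_center_iff.1 hz g').symm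
      have hs : ⁅s, g'⁆ = a * (g' * a⁻¹ * g'⁻¹) := by
        rw [commutatorElement_def]
        calc s * g' * s⁻¹ * g'⁻¹ = a * ((a⁻¹ * s) * g') * s⁻¹ * g'⁻¹ := by group
          _ = a * (g' * (a⁻¹ * s)) * s⁻¹ * g'⁻¹ := by rw [hzg]
          _ = a * (g' * a⁻¹ * g'⁻¹) := by group
      rw [hs]
      exact Subgroup.mul_mem _ ha (hN.conj_mem _ (Subgroup.inv_mem _ ha) g')
    rw [hperf] at hle
    rintro _ ⟨s, rfl⟩
    exact hle (Subgroup.mem_top s)

/-- Let F be a finite field and n ≥ 1, excluding the case n = 2 with #F ≤ 3. A subgroup of GL_n(F) that is normalized by every element of SL_n(F) either consists of scalar matrices or contains SL_n(F). -/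
theorem result {F : Type*} [Field F] [Fintype F] (n : ℕ) (hn : 1 ≤ n) (hex : ¬ (n = 2 ∧ Fintype.card F ≤ 3)) (G : Subgroup (Matrix.GeneralLinearGroup (Fin n) F)) (hG : ∀ s : Matrix.SpecialLinearGroup (Fin n) F, ∀ g ∈ G, (Matrix.SpecialLinearGroup.toGL s) * g * (Matrix.SpecialLinearGroup.toGL s)⁻¹ ∈ G) : (∀ g ∈ G, ∃ c : F, (g : Matrix (Fin n) (Fin n) F) = c • (1 : Matrix (Fin n) (Fin n) F)) ∨ (Matrix.SpecialLinearGroup.toGL : Matrix.SpecialLinearGroup (Fin n) F →* _).range ≤ G := by
  obtain rfl | rfl | h3 : n = 1 ∨ n = 2 ∨ 3 ≤ n := by omega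
  · left
    intro g _
    refine ⟨(g : Matrix (Fin 1) (Fin 1) F) 0 0, ?_⟩
    ext i j
    rw [Subsingleton.elim i 0, Subsingleton.elim j 0]
    simp
  · have h4 : 4 ≤ Nat.card F := by
      rw [Nat.card_eq_fintype_card]
      by_contra h
      exact hex ⟨rfl, by omega⟩
    obtain ⟨a, ha, hasq⟩ := field_cond h4
    exact core 2 hn (Matrix.SL2.commutator_eq_top ha hasq)
      (Matrix.ProjectiveSpecialLinearGroup.rank_two_simple h4) G hG
  · exact core n hn (Cfsg.Agent.S0248.result n h3) (Cfsg.Agent.S0249.result n h3) G hG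

end Cfsg.Agent.S2540
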