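import Cfsg.Statements.S2541
import Mathlib

set_option autoImplicit false
open Cfsg

namespace Cfsg.Agent.S2541

theorem perm6_pow (σ : Equiv.Perm (Fin 6)) (h : σ ^ 8 = 1) : σ ^ 4 = 1 := by
  have hord : orderOf σ ∣ 8 := orderOf_dvd_of_pow_eq_one h
  apply orderOf_dvd_iff_pow_eq_one.mp
  rw [← Equiv.Perm.lcm_cycleType]
  apply Multiset.lcm_dvd.mpr
  intro n hn
  have h1 : n ∣ 8 := (Equiv.Perm.dvd_of_mem_cycleType hn).trans hord
  have h2 : n ≤ 6 := by
    have h3 := Multiset.le_sum_of_mem hn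
    rw [Equiv.Perm.sum_cycleType] at h3
    exact h3.trans (le_trans (Finset.card_le_univ _) (by simp))
  interval_cases n <;> first | decide | (exfalso; revert h1; decide)

/-- Let F be a field with 9 elements. The symmetric group S_6 is not isomorphic to PGL_2(F) (although both have index-2 subgroups isomorphic to A_6). -/
theorem result {F : Type*} [Field F] [Fintype F] (hF : Fintype.card F = 9) : ¬ Nonempty (Equiv.Perm (Fin 6) ≃* Matrix.ProjGenLinGroup (Fin 2) F) := by
  classical
  rintro ⟨φ⟩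
  have hcard : Nat.card Fˣ = 8 := by rw [Nat.card_units, Nat.card_eq_fintype_card, hF]
  obtain ⟨ζ, hζ⟩ := IsCyclic.exists_generator (α := Fˣ)
  have hord : orderOf ζ = 8 := by rw [orderOf_eq_card_of_forall_mem_zpowers hζ, hcard]
  set D : Matrix (Fin 2) (Fin 2) F := Matrix.diagonal ![(ζ : F), 1] with hD
  have hDdet : D.det ≠ 0 := by
    rw [hD, Matrix.det_diagonal]
    simp
  set g : GL (Fin 2) F := Matrix.GeneralLinearGroup.mkOfDetNeZero D hDdet with hg
  have hgval : ∀ k : ℕ, ((g ^ k : GL (Fin 2) F) : Matrix (Fin 2) (Fin 2) F) = Matrix.diagonal ![(ζ : F) ^ k, 1] := by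
    intro k
    rw [Units.val_pow_eq_pow_val]
    show D ^ k = _
    rw [hD, Matrix.diagonal_pow]
    congr 1
    ext i
    fin_cases i <;> simp
  have hζ8 : (ζ : F) ^ 8 = 1 := by
    have : ζ ^ 8 = 1 := by rw [← hord]; exact pow_orderOf_eq_one ζ
    have := congrArg Units.val this
    simpa using this
  have hζ4 : (ζ : F) ^ 4 ≠ 1 := by
    intro h4
    have : ζ ^ 4 = 1 := Units.ext (by simpa using h4)
    have hdvd := orderOf_dvd_of_pow_eq_one this
    rw [hord] at hdvd
    revert hdvd; decide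
  have hg8 : g ^ 8 = 1 := by
    apply Units.ext
    rw [hgval 8, hζ8]
    ext i j
    fin_cases i <;> fin_cases j <;> simp
  set y : Matrix.ProjGenLinGroup (Fin 2) F := Matrix.ProjGenLinGroup.mk g with hy
  have hy8 : y ^ 8 = 1 := by
    rw [hy, ← map_pow, hg8, map_one]
  have hy4 : y ^ 4 ≠ 1 := by
    rw [hy, ← map_pow, Ne, Matrix.ProjGenLinGroup.mk_eq_one,
      Matrix.GeneralLinearGroup.mem_center_iff_val_mem_range_scalar]
    rintro ⟨c, hc⟩
    rw [hgval 4] at hc
    have h00 := congrFun (congrFun hc 0) 0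
    have h11 := congrFun (congrFun hc 1) 1
    simp at h00 h11
    exact hζ4 (by rw [← h00, h11])
  have hσ8 : (φ.symm y) ^ 8 = 1 := by rw [← map_pow, hy8, map_one]
  have hσ4 := perm6_pow _ hσ8
  apply hy4
  have := congrArg φ hσ4
  rwa [map_pow, MulEquiv.apply_symm_apply, map_one] at this

end Cfsg.Agent.S2541
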