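import Mathlib
import Cfsg.Statements.S2550
import Cfsg.Agent.S0243
import Cfsg.Agent.S0819

set_option autoImplicit false
open Cfsg

namespace Cfsg.Agent.S2550

/-- companion matrix of `x⁴ + x + 1` over the field with two elements -/
def M0 : Matrix (Fin 4) (Fin 4) (ZMod 2) := !![0,0,0,1; 1,0,0,1; 0,1,0,0; 0,0,1,0]

def N0 : Matrix (Fin 4) (Fin 4) (ZMod 2) := !![1,1,0,0; 0,0,1,0; 0,0,0,1; 1,0,0,0]

def Y0 : Matrix (Fin 4) (Fin 4) (ZMod 2) := !![1,1,0,0; 0,1,0,0; 0,0,1,0; 0,0,0,1]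

theorem M0N0 : M0 * N0 = 1 := by decide +kernel

theorem Y0Y0 : Y0 * Y0 = 1 := by decide +kernel

theorem det_eq_one_of_mul (A B : Matrix (Fin 4) (Fin 4) (ZMod 2)) (h : A * B = 1) :
    A.det = 1 := by
  have h1 : A.det * B.det = 1 := by rw [← Matrix.det_mul, h, Matrix.det_one]
  have h2 : ∀ x y : ZMod 2, x * y = 1 → x = 1 := by decide
  exact h2 _ _ h1

def x0 : Matrix.SpecialLinearGroup (Fin 4) (ZMod 2) := ⟨M0, det_eq_one_of_mul _ _ M0N0⟩

def y0 : Matrix.SpecialLinearGroup (Fin 4) (ZMod 2) := ⟨Y0, det_eq_one_of_mul _ _ Y0Y0⟩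

theorem M0_pow15 : M0 ^ 15 = 1 := by decide +kernel

theorem x0_pow15 : x0 ^ 15 = 1 := by
  apply Subtype.ext
  rw [Matrix.SpecialLinearGroup.coe_pow]
  exact M0_pow15

theorem x0_nc (k : ℕ) (h : M0 ^ k * Y0 ≠ Y0 * M0 ^ k) : x0 ^ k * y0 ≠ y0 * x0 ^ k := by
  intro h'
  apply h
  have := congrArg Subtype.val h'
  rw [Matrix.SpecialLinearGroup.coe_mul, Matrix.SpecialLinearGroup.coe_mul,
    Matrix.SpecialLinearGroup.coe_pow] at this
  exact this

theorem x0_5 : x0 ^ 5 * y0 ≠ y0 * x0 ^ 5 := x0_nc 5 (by decide +kernel)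

theorem x0_3 : x0 ^ 3 * y0 ≠ y0 * x0 ^ 3 := x0_nc 3 (by decide +kernel)

theorem map_inj {F : Type*} [Field F] (f : ZMod 2 →+* F) :
    Function.Injective (Matrix.SpecialLinearGroup.map (n := Fin 4) f) := by
  intro a b h
  apply Subtype.ext
  have h1 := congrArg Subtype.val h
  have hf : Function.Injective f := f.injective
  ext i j
  have h2 := congrFun (congrFun h1 i) j
  exact hf h2

/-- Let F be a field with 2 elements and K a field with 4 elements. PSL_4(F) and PSL_3(K) have the same order (20160) but are not isomorphic. -/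
theorem result {F K : Type*} [Field F] [Fintype F] [Field K] [Fintype K] (hF : Fintype.card F = 2) (hK : Fintype.card K = 4) : Nat.card (Matrix.ProjectiveSpecialLinearGroup (Fin 4) F) = Nat.card (Matrix.ProjectiveSpecialLinearGroup (Fin 3) K) ∧ ¬ Nonempty (Matrix.ProjectiveSpecialLinearGroup (Fin 4) F ≃* Matrix.ProjectiveSpecialLinearGroup (Fin 3) K) := by
  constructor
  · have h1 := Cfsg.Agent.S0243.result hF 4 (by norm_num)
    have h2 := Cfsg.Agent.S0243.result hK 3 (by norm_num)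
    have e1 : ∏ i : Fin 4, (2 ^ 4 - 2 ^ (i : ℕ)) = 20160 := by decide
    have e2 : ∏ i : Fin 3, (4 ^ 3 - 4 ^ (i : ℕ)) = 181440 := by decide
    have g1 : Nat.gcd 4 (2 - 1) = 1 := by decide
    have g2 : Nat.gcd 3 (4 - 1) = 3 := by decide
    rw [e1, g1] at h1
    rw [e2, g2] at h2
    generalize Nat.card (Matrix.ProjectiveSpecialLinearGroup (Fin 4) F) = c1 at h1 ⊢
    generalize Nat.card (Matrix.ProjectiveSpecialLinearGroup (Fin 3) K) = c2 at h2 ⊢
    omega
  · rintro ⟨φ⟩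
    let e : ZMod 2 ≃+* F := ZMod.ringEquivOfPrime F Nat.prime_two hF
    let ψ := Matrix.SpecialLinearGroup.map (n := Fin 4) (e : ZMod 2 →+* F)
    have hψ : Function.Injective ψ := map_inj _
    let gb : Matrix.ProjectiveSpecialLinearGroup (Fin 4) F := QuotientGroup.mk (ψ x0)
    have h15 : gb ^ 15 = 1 := by
      show (QuotientGroup.mk (ψ x0) : Matrix.ProjectiveSpecialLinearGroup (Fin 4) F) ^ 15 = 1
      rw [← QuotientGroup.mk_pow, ← map_pow, x0_pow15, map_one]; rfl
    have hnc : ∀ k, (x0 ^ k * y0 ≠ y0 * x0 ^ k) → gb ^ k ≠ 1 := by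
      intro k hk h
      have h1 : (ψ x0) ^ k ∈ Subgroup.center (Matrix.SpecialLinearGroup (Fin 4) F) := by
        apply (QuotientGroup.eq_one_iff _).1
        rw [QuotientGroup.mk_pow]; exact h
      have h2 := Subgroup.mem_center_iff.1 h1 (ψ y0)
      rw [← map_pow, ← map_mul, ← map_mul] at h2
      exact hk (hψ h2).symm
    have h5 := hnc 5 x0_5
    have h3 := hnc 3 x0_3
    have hord : orderOf gb = 15 := by
      have hdvd : orderOf gb ∣ 15 := orderOf_dvd_of_pow_eq_one h15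
      have h5' : ¬ orderOf gb ∣ 5 := fun h => h5 (orderOf_dvd_iff_pow_eq_one.1 h)
      have h3' : ¬ orderOf gb ∣ 3 := fun h => h3 (orderOf_dvd_iff_pow_eq_one.1 h)
      have hle : orderOf gb ≤ 15 := Nat.le_of_dvd (by norm_num) hdvd
      generalize orderOf gb = m at hdvd h5' h3' hle
      interval_cases m <;> omega
    have := Cfsg.Agent.S0819.result hK (φ gb)
    rw [MulEquiv.orderOf_eq] at this
    exact this hord

end Cfsg.Agent.S2550
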