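import Cfsg.Statements.S2552
import Mathlib

set_option autoImplicit false
open Cfsg

namespace Cfsg.Agent.S2552

open Matrix in
/-- a linear automorphism of `V` carrying `U₁` into `U₂` when the dimensions agree. -/
theorem exists_equiv {F V : Type*} [Field F] [AddCommGroup V] [Module F V] [FiniteDimensional F V]
    (U₁ U₂ : Submodule F V) (h : Module.finrank F U₁ = Module.finrank F U₂) :
    ∃ e : V ≃ₗ[F] V, ∀ u ∈ U₁, e u ∈ U₂ := by
  obtain ⟨W₁, h₁⟩ := Submodule.exists_isCompl U₁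
  obtain ⟨W₂, h₂⟩ := Submodule.exists_isCompl U₂
  have hW : Module.finrank F W₁ = Module.finrank F W₂ := by
    have e1 := Submodule.finrank_add_eq_of_isCompl h₁
    have e2 := Submodule.finrank_add_eq_of_isCompl h₂
    omega
  let eU : U₁ ≃ₗ[F] U₂ := LinearEquiv.ofFinrankEq _ _ h
  let eW : W₁ ≃ₗ[F] W₂ := LinearEquiv.ofFinrankEq _ _ hW
  refine ⟨(Submodule.prodEquivOfIsCompl U₁ W₁ h₁).symm ≪≫ₗ (eU.prodCongr eW) ≪≫ₗ
    Submodule.prodEquivOfIsCompl U₂ W₂ h₂, ?_⟩
  intro u hu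
  have : (Submodule.prodEquivOfIsCompl U₁ W₁ h₁).symm u = ((⟨u, hu⟩ : U₁), 0) :=
    Submodule.prodEquivOfIsCompl_symm_apply_left U₁ W₁ h₁ ⟨u, hu⟩
  simp only [LinearEquiv.trans_apply, this, LinearEquiv.prodCongr_apply, map_zero,
    Submodule.coe_prodEquivOfIsCompl', Submodule.coe_zero, add_zero]
  exact (eU ⟨u, hu⟩).2

/-- Let F be a finite field and n ≥ 1. For every k, the special linear group SL_n(F) acts transitively on the set of k-dimensional subspaces of F^n: any two subspaces of the same dimension are carried onto each other by some matrix of determinant 1. -/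
theorem result {F : Type*} [Field F] [Fintype F] (n : ℕ) (hn : 1 ≤ n) (U₁ U₂ : Submodule F (Fin n → F)) (h : Module.finrank F U₁ = Module.finrank F U₂) : ∃ g : Matrix.SpecialLinearGroup (Fin n) F, U₁.map ((Matrix.SpecialLinearGroup.toLin' g : (Fin n → F) ≃ₗ[F] (Fin n → F)) : (Fin n → F) →ₗ[F] (Fin n → F)) = U₂ := by
  classical
  -- it suffices to find `g` mapping `U₁` into `U₂`
  suffices hsuff : ∃ g : Matrix.SpecialLinearGroup (Fin n) F, ∀ u ∈ U₁, (g : Matrix (Fin n) (Fin n) F).mulVec u ∈ U₂ by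
    obtain ⟨g, hg⟩ := hsuff
    refine ⟨g, ?_⟩
    apply Submodule.eq_of_le_of_finrank_eq
    · rintro _ ⟨u, hu, rfl⟩
      exact hg u hu
    · rw [← h]
      exact LinearEquiv.finrank_map_eq (Matrix.SpecialLinearGroup.toLin' g) U₁
  by_cases hbot : U₂ = ⊥
  · -- then `U₁ = ⊥`
    have h0 : Module.finrank F U₁ = 0 := by rw [h, hbot]; simp
    have hU₁ : U₁ = ⊥ := Submodule.finrank_eq_zero.mp h0
    refine ⟨1, ?_⟩
    intro u hu
    rw [hU₁, Submodule.mem_bot] at hu
    subst hu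
    simp
  · obtain ⟨u₀, hu₀, hu₀ne⟩ := (Submodule.ne_bot_iff U₂).mp hbot
    obtain ⟨i, hi⟩ : ∃ i, u₀ i ≠ 0 := by
      by_contra hcon
      exact hu₀ne (funext fun j => by
        by_contra hj
        exact hcon ⟨j, hj⟩)
    obtain ⟨e, he⟩ := exists_equiv U₁ U₂ h
    set G : Matrix (Fin n) (Fin n) F := LinearMap.toMatrix' (e : (Fin n → F) →ₗ[F] (Fin n → F)) with hG
    have hGdet : G.det ≠ 0 := by
      rw [hG, LinearMap.det_toMatrix']
      exact (LinearEquiv.isUnit_det' e).ne_zero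
    set w : Fin n → F := Pi.single i (u₀ i)⁻¹ with hw
    have hwu : w ⬝ᵥ u₀ = 1 := by
      rw [hw, single_dotProduct]
      exact inv_mul_cancel₀ hi
    set M : Matrix (Fin n) (Fin n) F := 1 + Matrix.vecMulVec ((G.det⁻¹ - 1) • u₀) w with hM
    have hMdet : M.det = G.det⁻¹ := by
      rw [hM, Matrix.vecMulVec_eq (ι := Unit), Matrix.det_one_add_replicateCol_mul_replicateRow,
        dotProduct_smul, hwu]
      simp
    refine ⟨⟨M * G, by rw [Matrix.det_mul, hMdet, inv_mul_cancel₀ hGdet]⟩, ?_⟩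
    intro u hu
    show (M * G).mulVec u ∈ U₂
    rw [← Matrix.mulVec_mulVec]
    have h1 : G.mulVec u ∈ U₂ := by
      have : G.mulVec u = e u := by
        rw [hG]
        exact LinearMap.toMatrix'_mulVec _ u
      rw [this]
      exact he u hu
    rw [hM, Matrix.add_mulVec, Matrix.one_mulVec, Matrix.vecMulVec_mulVec]
    refine U₂.add_mem h1 ?_
    rw [op_smul_eq_smul]
    exact U₂.smul_mem _ (U₂.smul_mem _ hu₀)

end Cfsg.Agent.S2552
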