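import Cfsg.Statements.S2617
import Mathlib
-- import your own Cfsg.Agent.* helpers here

set_option autoImplicit false
open Cfsg

namespace Cfsg.Agent.S2617

theorem aniso {F : Type*} [Field F] (ζ : F) (hζ : ∀ t : F, t ^ 2 + t + ζ ≠ 0) (z1 z2 : F)
    (h : z1 ^ 2 + 1 * z1 * z2 + ζ * z2 ^ 2 = 0) : z1 = 0 ∧ z2 = 0 := by
  by_cases h2 : z2 = 0
  · subst h2
    simp at h
    exact ⟨h, rfl⟩
  · exfalso
    apply hζ (z1 / z2)
    field_simp
    linear_combination h

/-- The elliptic form in dimension `2k+2` has no totally singular subspace of dimension `> k`. -/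
theorem no_sing {F : Type*} [Field F] (k n : ℕ) (hn : k < n) (ζ : F)
    (hζ : ∀ t : F, t ^ 2 + t + ζ ≠ 0)
    (h : (Fin n → F) →ₗ[F] ((Fin k ⊕ Fin k) ⊕ Fin 2 → F)) (hinj : Function.Injective h)
    (hQ : ∀ a, Cfsg.quadFormMinus k F 1 ζ (h a) = 0) : False := by
  classical
  let px : ((Fin k ⊕ Fin k) ⊕ Fin 2 → F) →ₗ[F] (Fin k → F) :=
    LinearMap.funLeft F F (fun i => Sum.inl (Sum.inl i))
  let py : ((Fin k ⊕ Fin k) ⊕ Fin 2 → F) →ₗ[F] (Fin k → F) :=
    LinearMap.funLeft F F (fun i => Sum.inl (Sum.inr i))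
  let φ := px ∘ₗ h
  let ψ := py ∘ₗ h
  let K := LinearMap.ker φ
  have hK1 : ∀ a ∈ K, ∀ i, h a (Sum.inl (Sum.inl i)) = 0 := by
    intro a ha i
    have : φ a = 0 := ha
    exact congrFun this i
  have hK2 : ∀ a ∈ K, h a (Sum.inr 0) = 0 ∧ h a (Sum.inr 1) = 0 := by
    intro a ha
    have h1 := hQ a
    unfold Cfsg.quadFormMinus at h1
    have h0 : ∑ i : Fin k, h a (Sum.inl (Sum.inl i)) * h a (Sum.inl (Sum.inr i)) = 0 :=
      Finset.sum_eq_zero (fun i _ => by rw [hK1 a ha i, zero_mul])
    rw [h0, zero_add] at h1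
    exact aniso ζ hζ _ _ h1
  have horth : ∀ a, ∀ a' ∈ K, φ a ⬝ᵥ ψ a' = 0 := by
    intro a a' ha'
    have h1 := hQ (a + a')
    have h2 := hQ a
    unfold Cfsg.quadFormMinus at h1 h2
    rw [map_add] at h1
    simp only [Pi.add_apply, (hK2 a' ha').1, (hK2 a' ha').2, hK1 a' ha', add_zero] at h1
    have : φ a ⬝ᵥ ψ a'
        = ∑ i : Fin k, h a (Sum.inl (Sum.inl i)) * h a' (Sum.inl (Sum.inr i)) := rfl
    rw [this]
    simp only [mul_add, Finset.sum_add_distrib] at h1
    linear_combination h1 - h2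
  let D : LinearMap.BilinForm F (Fin k → F) := Matrix.toBilin' (1 : Matrix (Fin k) (Fin k) F)
  have hD : ∀ x y, D x y = x ⬝ᵥ y := fun x y => by simp [D, Matrix.toBilin'_apply']
  have hnd : D.Nondegenerate := by
    rw [LinearMap.BilinForm.nondegenerate_toBilin'_iff_det_ne_zero]
    simp
  have hrefl : D.IsRefl := by
    intro x y hxy
    rw [hD] at hxy ⊢
    rw [dotProduct_comm]; exact hxy
  let A := LinearMap.range φ
  have hfo := LinearMap.BilinForm.finrank_orthogonal hnd A
  let θ : K →ₗ[F] D.orthogonal A := LinearMap.codRestrict _ (ψ.domRestrict K) (by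
    intro a
    rw [LinearMap.BilinForm.mem_orthogonal_iff]
    rintro _ ⟨b, rfl⟩
    show D (φ b) (ψ a) = 0
    rw [hD]; exact horth b a a.2)
  have hθ : Function.Injective θ := by
    intro a a' haa
    have h3 : ψ a = ψ a' := congrArg Subtype.val haa
    have h4 : ψ ((a : Fin n → F) - a') = 0 := by rw [map_sub, h3, sub_self]
    have hm : ((a : Fin n → F) - a') ∈ K := K.sub_mem a.2 a'.2
    have h5 : h ((a : Fin n → F) - a') = 0 := by
      ext s
      rcases s with (i | i) | j
      · exact hK1 _ hm i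
      · exact congrFun h4 i
      · fin_cases j
        · exact (hK2 _ hm).1
        · exact (hK2 _ hm).2
    have h6 := hinj (h5.trans (map_zero h).symm)
    exact Subtype.ext (sub_eq_zero.mp h6)
  have hle : Module.finrank F K ≤ Module.finrank F (D.orthogonal A) :=
    LinearMap.finrank_le_finrank_of_injective hθ
  have hrn : Module.finrank F A + Module.finrank F K = Module.finrank F (Fin n → F) :=
    LinearMap.finrank_range_add_finrank_ker φ
  have hdimk : Module.finrank F (Fin k → F) = k := by simp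
  have hdimk1 : Module.finrank F (Fin n → F) = n := by simp
  have hAle : Module.finrank F A ≤ Module.finrank F (Fin k → F) := Submodule.finrank_le A
  rw [hdimk] at hfo hAle
  rw [hdimk1] at hrn
  omega

/-- The two standard quadratic forms of even dimension 2m over a finite field are not isometric: there is no linear isomorphism carrying the elliptic form Σ_(i<m−1) x_i y_i + z₁² + z₁z₂ + ζ z₂² (t² + t + ζ without roots) to the hyperbolic form Σ_(i<m) x_i y_i (they have different Witt index). -/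
theorem result {F : Type*} [Field F] [Finite F] {m : ℕ} (hm : 1 ≤ m) (ζ : F) (hζ : ∀ t : F, t ^ 2 + t + ζ ≠ 0) (g : (Fin m ⊕ Fin m → F) ≃ₗ[F] ((Fin (m - 1) ⊕ Fin (m - 1)) ⊕ Fin 2 → F)) : ¬ (∀ v : Fin m ⊕ Fin m → F, Cfsg.quadFormMinus (m - 1) F 1 ζ (g v) = Cfsg.quadFormPlus m F v) := by
  intro hg
  let ι : (Fin m → F) →ₗ[F] (Fin m ⊕ Fin m → F) :=
    { toFun := fun a => Sum.elim a 0
      map_add' := fun a b => by ext s; cases s <;> simp
      map_smul' := fun c a => by ext s; cases s <;> simp }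
  have hι : Function.Injective ι := fun a b hab => funext fun i => congrFun hab (Sum.inl i)
  refine no_sing (m - 1) m (by omega) ζ hζ (g.toLinearMap ∘ₗ ι) (g.injective.comp hι) ?_
  intro a
  exact (hg (ι a)).trans (by simp [Cfsg.quadFormPlus, ι])

end Cfsg.Agent.S2617
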