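import Cfsg.Statements.S2562
import Mathlib
import Cfsg.Agent.S2617
import Cfsg.Agent.S2620
-- import your own Cfsg.Agent.* helpers here

set_option autoImplicit false
open Cfsg

namespace Cfsg.Agent.S2562

/-- Witt indices over the field of two elements, m ≥ 1: for the plus-type form Σ xᵢyᵢ in dimension 2m some m-dimensional subspace is totally singular and no totally singular subspace has larger dimension; for the minus-type form Σ xᵢyᵢ + (z₁² + z₁z₂ + z₂²) in dimension 2m the maximal dimension of a totally singular subspace is m − 1. -/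
theorem result (m : ℕ) (hm : 1 ≤ m) :
    (∃ U : Submodule (ZMod 2) (Fin m ⊕ Fin m → ZMod 2), (∀ u ∈ U, Cfsg.quadFormPlus m (ZMod 2) u = 0) ∧ Module.finrank (ZMod 2) ↥U = m) ∧
    (∀ U : Submodule (ZMod 2) (Fin m ⊕ Fin m → ZMod 2), (∀ u ∈ U, Cfsg.quadFormPlus m (ZMod 2) u = 0) → Module.finrank (ZMod 2) ↥U ≤ m) ∧
    (∃ U : Submodule (ZMod 2) ((Fin (m - 1) ⊕ Fin (m - 1)) ⊕ Fin 2 → ZMod 2), (∀ u ∈ U, Cfsg.quadFormMinus (m - 1) (ZMod 2) 1 1 u = 0) ∧ Module.finrank (ZMod 2) ↥U = m - 1) ∧
    (∀ U : Submodule (ZMod 2) ((Fin (m - 1) ⊕ Fin (m - 1)) ⊕ Fin 2 → ZMod 2), (∀ u ∈ U, Cfsg.quadFormMinus (m - 1) (ZMod 2) 1 1 u = 0) → Module.finrank (ZMod 2) ↥U ≤ m - 1) := by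
  refine ⟨?_, ?_, ?_, ?_⟩
  · let ι : (Fin m → ZMod 2) →ₗ[ZMod 2] (Fin m ⊕ Fin m → ZMod 2) :=
      { toFun := fun a => Sum.elim a 0
        map_add' := fun a b => by ext s; cases s <;> simp
        map_smul' := fun c a => by ext s; cases s <;> simp }
    have hι : Function.Injective ι := fun a b hab => funext fun i => congrFun hab (Sum.inl i)
    refine ⟨LinearMap.range ι, ?_, ?_⟩
    · rintro _ ⟨a, rfl⟩
      simp [Cfsg.quadFormPlus, ι]
    · rw [LinearMap.finrank_range_of_inj hι]; simp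
  · intro U hU
    classical
    have hnd : (Matrix.toBilin' (S2620.smat m (ZMod 2))).Nondegenerate := by
      rw [LinearMap.BilinForm.nondegenerate_toBilin'_iff_det_ne_zero, S2620.det_S]
      exact pow_ne_zero _ (neg_ne_zero.mpr one_ne_zero)
    have hle : U ≤ (Matrix.toBilin' (S2620.smat m (ZMod 2))).orthogonal U := by
      intro u hu
      rw [LinearMap.BilinForm.mem_orthogonal_iff]
      intro v hv
      show Matrix.toBilin' (S2620.smat m (ZMod 2)) v u = 0
      rw [← S2620.polar_eq]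
      unfold QuadraticMap.polar
      rw [hU _ (U.add_mem hv hu), hU v hv, hU u hu]; simp
    have h1 := LinearMap.BilinForm.finrank_orthogonal hnd U
    have h2 := Submodule.finrank_mono hle
    have h3 : Module.finrank (ZMod 2) (Fin m ⊕ Fin m → ZMod 2) = m + m := by simp
    rw [h3] at h1
    omega
  · let ι : (Fin (m - 1) → ZMod 2) →ₗ[ZMod 2]
        ((Fin (m - 1) ⊕ Fin (m - 1)) ⊕ Fin 2 → ZMod 2) :=
      { toFun := fun a => Sum.elim (Sum.elim a 0) 0
        map_add' := fun a b => by ext s; rcases s with (s | s) | s <;> simp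
        map_smul' := fun c a => by ext s; rcases s with (s | s) | s <;> simp }
    have hι : Function.Injective ι :=
      fun a b hab => funext fun i => congrFun hab (Sum.inl (Sum.inl i))
    refine ⟨LinearMap.range ι, ?_, ?_⟩
    · rintro _ ⟨a, rfl⟩
      simp [Cfsg.quadFormMinus, ι]
    · rw [LinearMap.finrank_range_of_inj hι]; simp
  · intro U hU
    by_contra hgt
    rw [not_le] at hgt
    have hζ : ∀ t : ZMod 2, t ^ 2 + t + 1 ≠ 0 := by decide
    let b := Module.finBasis (ZMod 2) U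
    let h : (Fin (Module.finrank (ZMod 2) U) → ZMod 2) →ₗ[ZMod 2]
        ((Fin (m - 1) ⊕ Fin (m - 1)) ⊕ Fin 2 → ZMod 2) :=
      U.subtype ∘ₗ b.equivFun.symm.toLinearMap
    have hinj : Function.Injective h :=
      Subtype.val_injective.comp b.equivFun.symm.injective
    exact S2617.no_sing (m - 1) _ hgt 1 hζ h hinj (fun a => hU _ (b.equivFun.symm a).2)

end Cfsg.Agent.S2562
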