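import Cfsg.Statements.S2564
import Mathlib
import Cfsg.Agent.S2620
-- import your own Cfsg.Agent.* helpers here

set_option autoImplicit false
open Cfsg

namespace Cfsg.Agent.S2564

/-- The sign character of `ZMod 2`. -/
def chi (c : ZMod 2) : ℤ := if c = 0 then 1 else -1

theorem chi_add : ∀ a b : ZMod 2, chi (a + b) = chi a * chi b := by decide

theorem chi_add_one : ∀ a : ZMod 2, chi (a + 1) = - chi a := by decide

theorem chi_zero : chi 0 = 1 := by decide

theorem gauss (m : ℕ) (q : (Fin m ⊕ Fin m → ZMod 2) → ZMod 2)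
    (B : LinearMap.BilinForm (ZMod 2) (Fin m ⊕ Fin m → ZMod 2)) (hnd : B.Nondegenerate)
    (hq : ∀ u v, q (u + v) = q u + q v + B u v) (hq0 : q 0 = 0) :
    (∑ v : Fin m ⊕ Fin m → ZMod 2, chi (q v)) * (∑ v : Fin m ⊕ Fin m → ZMod 2, chi (q v))
      = 2 ^ (2 * m) := by
  classical
  have hz2 : ∀ c : ZMod 2, c = 0 ∨ c = 1 := by decide
  have step1 : ∀ u : Fin m ⊕ Fin m → ZMod 2,
      ∑ v : Fin m ⊕ Fin m → ZMod 2, chi (q u) * chi (q v)
        = ∑ v : Fin m ⊕ Fin m → ZMod 2, chi (q v) * chi (B u v) := by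
    intro u
    refine (Equiv.sum_comp (Equiv.addLeft u) (fun v => chi (q u) * chi (q v))).symm.trans
      (Finset.sum_congr rfl (fun v _ => ?_))
    show chi (q u) * chi (q (u + v)) = chi (q v) * chi (B u v)
    rw [← chi_add, ← chi_add, hq u v]
    congr 1
    have h2 : q u + q u = 0 := CharTwo.add_self_eq_zero _
    linear_combination h2
  have step2 : ∀ v : Fin m ⊕ Fin m → ZMod 2,
      ∑ u : Fin m ⊕ Fin m → ZMod 2, chi (B u v) = if v = 0 then 2 ^ (2 * m) else 0 := by
    intro v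
    split_ifs with hv
    · subst hv
      simp only [map_zero, chi_zero, Finset.sum_const, Finset.card_univ, nsmul_eq_mul, mul_one]
      simp [two_mul, pow_add]
    · obtain ⟨u₀, hu₀⟩ : ∃ u₀, B u₀ v = 1 := by
        by_contra hall
        apply hv
        apply hnd.2
        intro u
        rcases hz2 (B u v) with h | h
        · exact h
        · exact absurd ⟨u, h⟩ hall
      have e : ∑ u : Fin m ⊕ Fin m → ZMod 2, chi (B (u + u₀) v)
          = ∑ u : Fin m ⊕ Fin m → ZMod 2, chi (B u v) :=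
        Equiv.sum_comp (Equiv.addRight u₀) (fun u => chi (B u v))
      have e' : ∑ u : Fin m ⊕ Fin m → ZMod 2, chi (B (u + u₀) v)
          = - ∑ u : Fin m ⊕ Fin m → ZMod 2, chi (B u v) := by
        rw [← Finset.sum_neg_distrib]
        refine Finset.sum_congr rfl (fun u _ => ?_)
        rw [map_add, LinearMap.add_apply, hu₀, chi_add_one]
      linarith
  rw [Finset.sum_mul]
  simp_rw [Finset.mul_sum, step1]
  rw [Finset.sum_comm]
  simp_rw [← Finset.mul_sum, step2]
  rw [Finset.sum_eq_single 0]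
  · simp [hq0, chi_zero]
  · intro v _ hv; simp [hv]
  · intro h; exact absurd (Finset.mem_univ _) h

/-- On the 2m-dimensional space over the field of two elements (m ≥ 1) let f be the alternating form obtained by polarizing the plus-type form Σ xᵢyᵢ, and let q be any quadratic form polarizing to f. For a vector w, the function q + f(·, w) again polarizes to f, and it is equivalent to q under an invertible linear map (that is, has the same type) if and only if q(w) = 0. -/
theorem result (m : ℕ) (hm : 1 ≤ m) (q : (Fin m ⊕ Fin m → ZMod 2) → ZMod 2) (hq : (∀ u v : (Fin m ⊕ Fin m → ZMod 2), q (u + v) = q u + q v + (Cfsg.quadFormPlus m (ZMod 2) (u + v) - Cfsg.quadFormPlus m (ZMod 2) u - Cfsg.quadFormPlus m (ZMod 2) v))) (w : (Fin m ⊕ Fin m → ZMod 2)) :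
    (∀ u v : (Fin m ⊕ Fin m → ZMod 2), (q (u + v) + (Cfsg.quadFormPlus m (ZMod 2) (u + v + w) - Cfsg.quadFormPlus m (ZMod 2) (u + v) - Cfsg.quadFormPlus m (ZMod 2) w)) =
        (q u + (Cfsg.quadFormPlus m (ZMod 2) (u + w) - Cfsg.quadFormPlus m (ZMod 2) u - Cfsg.quadFormPlus m (ZMod 2) w)) + (q v + (Cfsg.quadFormPlus m (ZMod 2) (v + w) - Cfsg.quadFormPlus m (ZMod 2) v - Cfsg.quadFormPlus m (ZMod 2) w)) +
        (Cfsg.quadFormPlus m (ZMod 2) (u + v) - Cfsg.quadFormPlus m (ZMod 2) u - Cfsg.quadFormPlus m (ZMod 2) v)) ∧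
    ((∃ g : (Fin m ⊕ Fin m → ZMod 2) ≃ₗ[ZMod 2] (Fin m ⊕ Fin m → ZMod 2), ∀ v, q v + (Cfsg.quadFormPlus m (ZMod 2) (v + w) - Cfsg.quadFormPlus m (ZMod 2) v - Cfsg.quadFormPlus m (ZMod 2) w) = q (g v)) ↔ q w = 0) := by
  classical
  obtain ⟨B, hB⟩ : ∃ B : LinearMap.BilinForm (ZMod 2) (Fin m ⊕ Fin m → ZMod 2),
      B = Matrix.toBilin' (S2620.smat m (ZMod 2)) := ⟨_, rfl⟩
  have hf : ∀ u v : Fin m ⊕ Fin m → ZMod 2, Cfsg.quadFormPlus m (ZMod 2) (u + v)
      - Cfsg.quadFormPlus m (ZMod 2) u - Cfsg.quadFormPlus m (ZMod 2) v = B u v :=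
    fun u v => by rw [hB]; exact S2620.polar_eq m u v
  have hnd : B.Nondegenerate := by
    rw [hB, LinearMap.BilinForm.nondegenerate_toBilin'_iff_det_ne_zero, S2620.det_S]
    exact pow_ne_zero _ (neg_ne_zero.mpr one_ne_zero)
  have hz2 : ∀ c : ZMod 2, c = 0 ∨ c = 1 := by decide
  have h11 : (1 : ZMod 2) + 1 = 0 := by decide
  have hww : w + w = 0 := by funext i; exact CharTwo.add_self_eq_zero (w i)
  have hBww : B w w = 0 := by
    rw [← hf, hww]
    have h0 : Cfsg.quadFormPlus m (ZMod 2) 0 = 0 := by simp [Cfsg.quadFormPlus]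
    rw [h0, zero_sub, ← neg_add', CharTwo.add_self_eq_zero, neg_zero]
  have hqB : ∀ u v, q (u + v) = q u + q v + B u v := fun u v => by rw [hq u v, hf]
  have hq0 : q 0 = 0 := by
    have h1 := hqB 0 0
    rw [add_zero, map_zero, add_zero] at h1
    exact h1.trans (CharTwo.add_self_eq_zero _)
  refine ⟨?_, ?_, ?_⟩
  · intro u v
    rw [hf, hf, hf, hf, hqB u v, map_add, LinearMap.add_apply]
    ring
  · rintro ⟨g, hg⟩
    by_contra hw
    have hw1 : q w = 1 := (hz2 (q w)).resolve_left hw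
    have h1 : ∀ v, chi (q (g v)) = - chi (q (v + w)) := by
      intro v
      have h3 := hg v
      rw [hf] at h3
      have h2 := hqB v w
      rw [hw1] at h2
      rw [← h3, ← chi_add_one]
      congr 1
      linear_combination (-1 : ZMod 2) * h2 - h11
    have hS0 : (∑ v : Fin m ⊕ Fin m → ZMod 2, chi (q v)) = 0 := by
      have e1 : ∑ v : Fin m ⊕ Fin m → ZMod 2, chi (q (g v))
          = ∑ v : Fin m ⊕ Fin m → ZMod 2, chi (q v) :=
        Equiv.sum_comp g.toEquiv (fun v => chi (q v))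
      have e2 : ∑ v : Fin m ⊕ Fin m → ZMod 2, chi (q (v + w))
          = ∑ v : Fin m ⊕ Fin m → ZMod 2, chi (q v) :=
        Equiv.sum_comp (Equiv.addRight w) (fun v => chi (q v))
      have e3 : ∑ v : Fin m ⊕ Fin m → ZMod 2, chi (q (g v))
          = - ∑ v : Fin m ⊕ Fin m → ZMod 2, chi (q (v + w)) := by
        rw [← Finset.sum_neg_distrib]
        exact Finset.sum_congr rfl (fun v _ => h1 v)
      linarith
    have hS2 := gauss m q B hnd hqB hq0
    rw [hS0, mul_zero] at hS2
    have hpos : (0 : ℤ) < 2 ^ (2 * m) := by positivity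
    linarith
  · intro hw0
    obtain ⟨T, hT⟩ : ∃ T : (Fin m ⊕ Fin m → ZMod 2) →ₗ[ZMod 2] (Fin m ⊕ Fin m → ZMod 2),
        ∀ v, T v = v + B v w • w :=
      ⟨LinearMap.id + (B.flip w).smulRight w, fun v => by
        simp [LinearMap.BilinForm.flip_apply]⟩
    have hinv : Function.Involutive T := by
      intro v
      rw [hT, hT]
      simp only [map_add, map_smul, LinearMap.add_apply, LinearMap.smul_apply, hBww, smul_eq_mul,
        mul_zero, add_zero]
      rw [add_assoc, ← add_smul, CharTwo.add_self_eq_zero, zero_smul, add_zero]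
    refine ⟨LinearEquiv.ofInvolutive T hinv, fun v => ?_⟩
    show q v + (Cfsg.quadFormPlus m (ZMod 2) (v + w) - Cfsg.quadFormPlus m (ZMod 2) v
      - Cfsg.quadFormPlus m (ZMod 2) w) = q (T v)
    rw [hf, hT]
    rcases hz2 (B v w) with h | h
    · rw [h, zero_smul, add_zero, add_zero]
    · rw [h, one_smul, hqB v w, hw0, h, add_zero]

end Cfsg.Agent.S2564
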