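import Cfsg.Statements.S2565
import Mathlib
import Cfsg.Agent.S0825

set_option autoImplicit false
open Cfsg

namespace Cfsg.Agent.S2565

/-- The commutator subgroup of the full orthogonal group of the plus-type form Σ xᵢyᵢ in dimension 6 over the field of two elements (the group Ω⁺₆(2), of index 2) is isomorphic to the alternating group of degree 8. -/
theorem result :
    (Cfsg.Omega (ZMod 2) (Cfsg.quadFormPlus 3 (ZMod 2))).index = 2 ∧
    Nonempty (↥(Cfsg.Omega (ZMod 2) (Cfsg.quadFormPlus 3 (ZMod 2))) ≃* alternatingGroup (Fin 8)) := by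
  let ψ : ↥(Cfsg.isometryGroup (ZMod 2) (Cfsg.quadFormPlus 3 (ZMod 2))) ≃* Equiv.Perm (Fin 8) :=
    (MulEquiv.ofBijective Cfsg.Agent.S0825.φ Cfsg.Agent.S0825.φ_bij).symm
  have hmap : (commutator ↥(Cfsg.isometryGroup (ZMod 2) (Cfsg.quadFormPlus 3 (ZMod 2)))).map
      (ψ : ↥(Cfsg.isometryGroup (ZMod 2) (Cfsg.quadFormPlus 3 (ZMod 2))) →* Equiv.Perm (Fin 8))
      = alternatingGroup (Fin 8) := by
    rw [← alternatingGroup.commutator_perm_eq (α := Fin 8) (by simp), commutator_def,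
      commutator_def, Subgroup.map_commutator, Subgroup.map_top_of_surjective _ ψ.surjective]
  have t : ↥(Cfsg.Omega (ZMod 2) (Cfsg.quadFormPlus 3 (ZMod 2))) ≃* alternatingGroup (Fin 8) :=
    (ψ.subgroupMap (commutator _)).trans (MulEquiv.subgroupCongr hmap)
  refine ⟨?_, ⟨t⟩⟩
  have hG : Nat.card ↥(Cfsg.isometryGroup (ZMod 2) (Cfsg.quadFormPlus 3 (ZMod 2))) = 40320 := by
    rw [Nat.card_congr ψ.toEquiv, Nat.card_eq_fintype_card, Fintype.card_perm, Fintype.card_fin]
    rfl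
  have hΩ : Nat.card ↥(Cfsg.Omega (ZMod 2) (Cfsg.quadFormPlus 3 (ZMod 2))) = 20160 := by
    rw [Nat.card_congr t.toEquiv, Nat.card_eq_fintype_card]
    have h := two_mul_card_alternatingGroup (α := Fin 8)
    rw [Fintype.card_perm, Fintype.card_fin] at h
    have h8 : Nat.factorial 8 = 40320 := rfl
    omega
  have hidx := Subgroup.card_mul_index (Cfsg.Omega (ZMod 2) (Cfsg.quadFormPlus 3 (ZMod 2)))
  rw [hG, hΩ] at hidx
  omega

end Cfsg.Agent.S2565
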