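import Cfsg.Statements.S2566
import Mathlib
import Cfsg.Agent.Helper2.SymSp
import Cfsg.Agent.S0245

set_option autoImplicit false
open Cfsg

namespace Cfsg.Agent.S2566

open Matrix Cfsg.Agent.Helper2

abbrev K4 : Type := Fin 2 ⊕ Fin 2

abbrev X6 : Type := Fin 3 ⊕ Fin 3

abbrev QQ : (K4 → ZMod 2) → ZMod 2 := Cfsg.quadFormPlus 2 (ZMod 2)

def eK : K4 → Fin 4 := Sum.elim ![0, 1] ![2, 3]

def eX : X6 → Fin 6 := Sum.elim ![0, 1, 2] ![3, 4, 5]

def W0 : Matrix (Fin 6) (Fin 4) (ZMod 2) :=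
  !![1, 0, 1, 0;
     0, 1, 0, 0;
     0, 0, 0, 1;
     1, 0, 0, 0;
     0, 0, 1, 0;
     0, 1, 0, 1]

def W : Matrix X6 K4 (ZMod 2) := W0.submatrix eX eK

def uu : X6 → ZMod 2 := Sum.elim ![0, 1, 1] ![0, 0, 1]

def vv : X6 → ZMod 2 := Sum.elim ![1, 0, 0] ![1, 1, 0]

theorem hF1 : Wᵀ * W = J (Fin 2) (ZMod 2) := by decide +kernel

theorem hF2 : ∀ c, ∑ x, W x c = 0 := by decide +kernel

theorem hF3 : ∀ y x, (W * J (Fin 2) (ZMod 2) * Wᵀ) y x
    = (if y = x then 1 else 0) + uu x + vv y := by decide +kernel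

theorem h2 : (2 : ZMod 2) = 0 := by decide

noncomputable def fHom : Equiv.Perm X6 →* Matrix K4 K4 (ZMod 2) where
  toFun := SymSp.MM W
  map_one' := SymSp.MM_one W h2 hF1
  map_mul' := SymSp.MM_mul W (SymSp.AA_mul W hF2 uu vv hF3)

theorem fHom_inj : Function.Injective fHom := by
  intro σ τ h
  have h1 : SymSp.MM W σ = SymSp.MM W τ := h
  exact SymSp.spHom_injective W h2 hF1 hF2 uu vv hF3 (by decide) (Subtype.ext h1)

theorem toHomUnits_inj : Function.Injective fHom.toHomUnits := by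
  intro σ τ h
  apply fHom_inj
  exact congrArg (fun x : (Matrix K4 K4 (ZMod 2))ˣ => (x : Matrix K4 K4 (ZMod 2))) h

theorem mem36 : ∀ π ρ : Equiv.Perm (Fin 3), ∀ v : K4 → ZMod 2,
    QQ (SymSp.MM W (Equiv.sumCongr π ρ) *ᵥ v) = QQ v := by decide +kernel

theorem memg : ∀ v : K4 → ZMod 2,
    QQ (SymSp.MM W (Equiv.sumComm (Fin 3) (Fin 3)) *ᵥ v) = QQ v := by decide +kernel

noncomputable def γ : Equiv.Perm (Fin 3) × Equiv.Perm (Fin 3) →*
    ↥(Cfsg.isometryGroup (ZMod 2) QQ) :=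
  (fHom.toHomUnits.comp (Equiv.Perm.sumCongrHom (Fin 3) (Fin 3))).codRestrict _ (by
    rintro ⟨π, ρ⟩
    show ∀ u _v : K4 → ZMod 2, QQ (SymSp.MM W (Equiv.sumCongr π ρ) *ᵥ u) = QQ u
    intro u _
    exact mem36 π ρ u)

noncomputable def gs : ↥(Cfsg.isometryGroup (ZMod 2) QQ) :=
  ⟨fHom.toHomUnits (Equiv.sumComm (Fin 3) (Fin 3)), by
    show ∀ u _v : K4 → ZMod 2, QQ (SymSp.MM W (Equiv.sumComm (Fin 3) (Fin 3)) *ᵥ u) = QQ u
    intro u _
    exact memg u⟩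

theorem γ_inj : Function.Injective γ := by
  intro p q h
  apply Equiv.Perm.sumCongrHom_injective
  apply toHomUnits_inj
  exact congrArg Subtype.val h

noncomputable def αh : Equiv.Perm (Fin 3) →* ↥(Cfsg.isometryGroup (ZMod 2) QQ) :=
  γ.comp (MonoidHom.inl _ _)

noncomputable def βh : Equiv.Perm (Fin 3) →* ↥(Cfsg.isometryGroup (ZMod 2) QQ) :=
  γ.comp (MonoidHom.inr _ _)

theorem αh_apply (π : Equiv.Perm (Fin 3)) : αh π = γ (π, 1) := rfl

theorem βh_apply (π : Equiv.Perm (Fin 3)) : βh π = γ (1, π) := rfl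

theorem αh_inj : Function.Injective αh := by
  intro π ρ h
  have h1 : ((π, 1) : Equiv.Perm (Fin 3) × Equiv.Perm (Fin 3)) = (ρ, 1) := γ_inj h
  exact congrArg Prod.fst h1

theorem βh_inj : Function.Injective βh := by
  intro π ρ h
  have h1 : ((1, π) : Equiv.Perm (Fin 3) × Equiv.Perm (Fin 3)) = (1, ρ) := γ_inj h
  exact congrArg Prod.snd h1

theorem γ_split (π ρ : Equiv.Perm (Fin 3)) : γ (π, ρ) = αh π * βh ρ := by
  rw [αh_apply, βh_apply, ← map_mul, Prod.mk_mul_mk, mul_one, one_mul]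

theorem γ_split' (π ρ : Equiv.Perm (Fin 3)) : γ (π, ρ) = βh ρ * αh π := by
  rw [αh_apply, βh_apply, ← map_mul, Prod.mk_mul_mk, mul_one, one_mul]

theorem sup_eq : αh.range ⊔ βh.range = γ.range := by
  apply le_antisymm
  · apply sup_le
    · rintro _ ⟨π, rfl⟩
      exact ⟨(π, 1), rfl⟩
    · rintro _ ⟨π, rfl⟩
      exact ⟨(1, π), rfl⟩
  · rintro _ ⟨⟨π, ρ⟩, rfl⟩
    rw [γ_split]
    exact Subgroup.mul_mem_sup ⟨π, rfl⟩ ⟨ρ, rfl⟩

theorem card_range : Nat.card γ.range = 36 := by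
  rw [← Nat.card_congr (MonoidHom.ofInjective γ_inj).toEquiv, Nat.card_prod,
    Nat.card_eq_fintype_card, Fintype.card_perm, Fintype.card_fin]
  rfl

theorem gs_not_mem : gs ∉ γ.range := by
  rintro ⟨⟨π, ρ⟩, h⟩
  have h1 : fHom.toHomUnits (Equiv.sumCongr π ρ)
      = fHom.toHomUnits (Equiv.sumComm (Fin 3) (Fin 3)) := congrArg Subtype.val h
  have h2 := toHomUnits_inj h1
  have h3 : (Sum.inl (π 0) : X6) = Sum.inr 0 :=
    congrArg (fun σ : Equiv.Perm X6 => σ (Sum.inl 0)) h2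
  exact Sum.inl_ne_inr h3

theorem conj_eq (π : Equiv.Perm (Fin 3)) : gs * αh π * gs⁻¹ = βh π := by
  apply Subtype.ext
  show fHom.toHomUnits (Equiv.sumComm (Fin 3) (Fin 3)) * fHom.toHomUnits (Equiv.sumCongr π 1)
      * (fHom.toHomUnits (Equiv.sumComm (Fin 3) (Fin 3)))⁻¹
      = fHom.toHomUnits (Equiv.sumCongr 1 π)
  rw [← map_inv, ← map_mul, ← map_mul]
  refine congrArg fHom.toHomUnits (Equiv.ext (fun x => ?_))
  rcases x with x | x <;> rfl

def sw : K4 → K4 := Sum.swap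

def Tm (a : K4 → ZMod 2) : Matrix K4 K4 (ZMod 2) :=
  fun c d => (if c = d then 1 else 0) + a c * a (sw d)

def Bf (v a : K4 → ZMod 2) : ZMod 2 := ∑ d, v d * a (sw d)

theorem Tsymp : ∀ a : K4 → ZMod 2,
    Tm a * J (Fin 2) (ZMod 2) * (Tm a)ᵀ = J (Fin 2) (ZMod 2) := by decide +kernel

theorem P4a : ∀ a : K4 → ZMod 2, QQ a = 0 →
    ∀ v : K4 → ZMod 2, QQ (Tm a *ᵥ v) = QQ v + Bf v a := by decide +kernel

theorem P5 : ∀ u w : K4 → ZMod 2,
    QQ (u + w) + QQ u + QQ w = u ⬝ᵥ (J (Fin 2) (ZMod 2) *ᵥ w) := by decide +kernel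

theorem cardA : (Finset.univ.filter (fun a : K4 → ZMod 2 => QQ a = 0)).card = 10 := by
  decide +kernel

theorem Bf_single (c : K4) (a : K4 → ZMod 2) : Bf (Pi.single c 1) a = a (sw c) := by
  unfold Bf
  rw [Finset.sum_eq_single c]
  · rw [Pi.single_eq_same, one_mul]
  · intro d _ hd
    rw [Pi.single_eq_of_ne hd, zero_mul]
  · intro h
    exact absurd (Finset.mem_univ _) h

theorem bil_single (M : Matrix K4 K4 (ZMod 2)) (c d : K4) :
    (Pi.single c 1 : K4 → ZMod 2) ⬝ᵥ (M *ᵥ Pi.single d 1) = M c d := by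
  simp [dotProduct, Matrix.mulVec, Pi.single_apply]

theorem iso_symp (A : Matrix K4 K4 (ZMod 2)) (hA : ∀ u, QQ (A *ᵥ u) = QQ u) :
    A ∈ Matrix.symplecticGroup (Fin 2) (ZMod 2) := by
  rw [SymplecticGroup.mem_iff']
  have hB : ∀ u w : K4 → ZMod 2,
      (A *ᵥ u) ⬝ᵥ (J (Fin 2) (ZMod 2) *ᵥ (A *ᵥ w)) = u ⬝ᵥ (J (Fin 2) (ZMod 2) *ᵥ w) := by
    intro u w
    rw [← P5, ← P5, ← Matrix.mulVec_add, hA, hA, hA]
  have key : ∀ u w : K4 → ZMod 2,
      u ⬝ᵥ ((Aᵀ * J (Fin 2) (ZMod 2) * A) *ᵥ w) = u ⬝ᵥ (J (Fin 2) (ZMod 2) *ᵥ w) := by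
    intro u w
    rw [← hB u w, ← Matrix.mulVec_mulVec, ← Matrix.mulVec_mulVec,
      Matrix.dotProduct_mulVec u Aᵀ (J (Fin 2) (ZMod 2) *ᵥ (A *ᵥ w)), Matrix.vecMul_transpose]
  ext c d
  have h := key (Pi.single c 1) (Pi.single d 1)
  rw [bil_single, bil_single] at h
  exact h

noncomputable def inj (p : ↥(Cfsg.isometryGroup (ZMod 2) QQ) × {a : K4 → ZMod 2 // QQ a = 0}) :
    Matrix.symplecticGroup (Fin 2) (ZMod 2) :=
  ⟨(p.1 : Matrix.GeneralLinearGroup K4 (ZMod 2)).1, iso_symp _ (fun u => p.1.2 u u)⟩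
    * ⟨Tm p.2.1, SymplecticGroup.mem_iff.2 (Tsymp p.2.1)⟩

theorem inj_injective : Function.Injective inj := by
  rintro ⟨g, a⟩ ⟨g', b⟩ h
  have hmat : (g : Matrix.GeneralLinearGroup K4 (ZMod 2)).1 * Tm a.1
      = (g' : Matrix.GeneralLinearGroup K4 (ZMod 2)).1 * Tm b.1 := congrArg Subtype.val h
  have hab : a = b := by
    apply Subtype.ext
    have hv : ∀ v : K4 → ZMod 2, Bf v a.1 = Bf v b.1 := by
      intro v
      have h1 : QQ (Tm a.1 *ᵥ v) = QQ (Tm b.1 *ᵥ v) := by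
        have e1 : QQ ((g : Matrix.GeneralLinearGroup K4 (ZMod 2)).1 *ᵥ (Tm a.1 *ᵥ v))
            = QQ (Tm a.1 *ᵥ v) := g.2 (Tm a.1 *ᵥ v) (Tm a.1 *ᵥ v)
        have e2 : QQ ((g' : Matrix.GeneralLinearGroup K4 (ZMod 2)).1 *ᵥ (Tm b.1 *ᵥ v))
            = QQ (Tm b.1 *ᵥ v) := g'.2 (Tm b.1 *ᵥ v) (Tm b.1 *ᵥ v)
        rw [← e1, ← e2, Matrix.mulVec_mulVec, Matrix.mulVec_mulVec, hmat]
      rw [P4a a.1 a.2 v, P4a b.1 b.2 v] at h1
      exact add_left_cancel h1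
    funext c
    have h3 := hv (Pi.single (sw c) 1)
    rw [Bf_single, Bf_single] at h3
    have h4 : sw (sw c) = c := Sum.swap_swap c
    rw [h4] at h3
    exact h3
  subst hab
  have h5 : (⟨(g : Matrix.GeneralLinearGroup K4 (ZMod 2)).1, iso_symp _ (fun u => g.2 u u)⟩ :
      Matrix.symplecticGroup (Fin 2) (ZMod 2))
      = ⟨(g' : Matrix.GeneralLinearGroup K4 (ZMod 2)).1, iso_symp _ (fun u => g'.2 u u)⟩ :=
    mul_right_cancel h
  have h6 : (g : Matrix.GeneralLinearGroup K4 (ZMod 2)).1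
      = (g' : Matrix.GeneralLinearGroup K4 (ZMod 2)).1 := congrArg Subtype.val h5
  have h7 : g = g' := Subtype.ext (Units.ext h6)
  rw [h7]

theorem card_le : Nat.card ↥(Cfsg.isometryGroup (ZMod 2) QQ) ≤ 72 := by
  have h1 := Nat.card_le_card_of_injective inj inj_injective
  rw [Nat.card_prod] at h1
  have h3 : Nat.card {a : K4 → ZMod 2 // QQ a = 0} = 10 := by
    rw [Nat.card_eq_fintype_card, Fintype.card_subtype]
    exact cardA
  have h4 : Nat.card (Matrix.symplecticGroup (Fin 2) (ZMod 2)) = 720 := by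
    rw [Cfsg.Agent.S0245.result (ZMod.card 2) 2]
    norm_num [Finset.prod_range_succ]
  rw [h3, h4] at h1
  omega

theorem idx_card : γ.range.index = 2 ∧ Nat.card ↥(Cfsg.isometryGroup (ZMod 2) QQ) = 72 := by
  have h1 := Subgroup.card_mul_index γ.range
  rw [card_range] at h1
  have h2 := card_le
  have h3 : γ.range.index ≠ 1 := by
    intro h
    rw [Subgroup.index_eq_one] at h
    exact gs_not_mem (by rw [h]; exact Subgroup.mem_top _)
  have h4 : 0 < Nat.card ↥(Cfsg.isometryGroup (ZMod 2) QQ) := Nat.card_pos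
  have h5 : γ.range.index ≠ 0 := by
    intro h
    rw [h] at h1
    omega
  constructor <;> omega

/-- The full orthogonal group of the plus-type form x₁y₁ + x₂y₂ in dimension 4 over the field of two elements has order 72 and is isomorphic to the wreath product of the symmetric group of degree 3 by a group of order 2: it has a normal subgroup isomorphic to the direct product of two symmetric groups of degree 3, of index 2, whose two direct factors are interchanged by conjugation by some element. -/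
theorem result :
    Nat.card ↥(Cfsg.isometryGroup (ZMod 2) (Cfsg.quadFormPlus 2 (ZMod 2))) = 72 ∧
    ∃ (A B : Subgroup ↥(Cfsg.isometryGroup (ZMod 2) (Cfsg.quadFormPlus 2 (ZMod 2)))),
      Nonempty (↥A ≃* Equiv.Perm (Fin 3)) ∧ Nonempty (↥B ≃* Equiv.Perm (Fin 3)) ∧ A ⊓ B = ⊥ ∧ (∀ a ∈ A, ∀ b ∈ B, a * b = b * a) ∧
      (A ⊔ B).index = 2 ∧ ∃ g : ↥(Cfsg.isometryGroup (ZMod 2) (Cfsg.quadFormPlus 2 (ZMod 2))), A.map (MulAut.conj g).toMonoidHom = B := by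
  refine ⟨idx_card.2, αh.range, βh.range, ⟨(MonoidHom.ofInjective αh_inj).symm⟩,
    ⟨(MonoidHom.ofInjective βh_inj).symm⟩, ?_, ?_, ?_, gs, ?_⟩
  · rw [Subgroup.eq_bot_iff_forall]
    intro x hx
    obtain ⟨⟨π, hπ⟩, ⟨ρ, hρ⟩⟩ := Subgroup.mem_inf.1 hx
    have h1 : ((π, 1) : Equiv.Perm (Fin 3) × Equiv.Perm (Fin 3)) = (1, ρ) :=
      γ_inj (hπ.trans hρ.symm)
    have h2 : π = 1 := congrArg Prod.fst h1
    rw [← hπ, h2]
    exact map_one αh
  · intro a ha b hb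
    obtain ⟨π, rfl⟩ := ha
    obtain ⟨ρ, rfl⟩ := hb
    exact (γ_split π ρ).symm.trans (γ_split' π ρ)
  · rw [sup_eq]
    exact idx_card.1
  · ext a
    constructor
    · intro ha
      obtain ⟨x, hx, rfl⟩ := Subgroup.mem_map.1 ha
      obtain ⟨π, rfl⟩ := hx
      exact ⟨π, (conj_eq π).symm⟩
    · intro ha
      obtain ⟨ρ, rfl⟩ := ha
      exact Subgroup.mem_map.2 ⟨αh ρ, ⟨ρ, rfl⟩, conj_eq ρ⟩

end Cfsg.Agent.S2566
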