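import Cfsg.Statements.S2567
import Mathlib

set_option autoImplicit false
open Cfsg

namespace Cfsg.Agent.S2567

/-- general form: if `r` is a prime not dividing the order of the (finite) centre `Z` of `G`,
an element of order `r` of `G ⧸ Z` has a unique lift of order `r`. -/
theorem unique_lift {G : Type*} [Group G] [Finite (Subgroup.center G)] {r : ℕ} (hr : r.Prime)
    (hcop : ¬ r ∣ Nat.card (Subgroup.center G)) (x : G ⧸ Subgroup.center G) (hx : orderOf x = r) :
    ∃! g : G, (QuotientGroup.mk g : G ⧸ Subgroup.center G) = x ∧ orderOf g = r := by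
  have hc : (Nat.card (Subgroup.center G)).Coprime r :=
    ((Nat.Prime.coprime_iff_not_dvd hr).mpr hcop).symm
  obtain ⟨g0, rfl⟩ := QuotientGroup.mk_surjective x
  have hg0 : g0 ^ r ∈ Subgroup.center G := by
    rw [← QuotientGroup.eq_one_iff, QuotientGroup.mk_pow, ← hx]
    exact pow_orderOf_eq_one _
  -- r-th root in the centre
  obtain ⟨z, hz⟩ := (powCoprime hc).surjective (⟨g0 ^ r, hg0⟩⁻¹ : Subgroup.center G)
  have hz' : (z : G) ^ r = (g0 ^ r)⁻¹ := by
    have := congrArg Subtype.val hz
    simpa using this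
  have hzc : Commute g0 (z : G) := (Subgroup.mem_center_iff.mp z.2) g0
  have hpow : (g0 * (z : G)) ^ r = 1 := by
    rw [hzc.mul_pow, hz', mul_inv_cancel]
  have hmk : (QuotientGroup.mk (g0 * (z : G)) : G ⧸ Subgroup.center G) = QuotientGroup.mk g0 := by
    rw [QuotientGroup.mk_mul, (QuotientGroup.eq_one_iff (z : G)).mpr z.2, mul_one]
  have hne : g0 * (z : G) ≠ 1 := by
    intro h1
    rw [h1] at hmk
    have : orderOf (QuotientGroup.mk g0 : G ⧸ Subgroup.center G) = 1 := by
      rw [← hmk]; simp
    rw [hx] at this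
    exact hr.one_lt.ne' this
  haveI : Fact r.Prime := ⟨hr⟩
  have hord : orderOf (g0 * (z : G)) = r := orderOf_eq_prime hpow hne
  refine ⟨g0 * (z : G), ⟨hmk, hord⟩, ?_⟩
  rintro g' ⟨hg'mk, hg'ord⟩
  -- g' = (g0 z) z'
  have hz'mem : (g0 * (z : G))⁻¹ * g' ∈ Subgroup.center G := by
    rw [← QuotientGroup.eq, hmk, hg'mk]
  set z' : G := (g0 * (z : G))⁻¹ * g' with hz'def
  have hg' : g' = (g0 * (z : G)) * z' := by rw [hz'def]; group
  have hcomm : Commute (g0 * (z : G)) z' := (Subgroup.mem_center_iff.mp hz'mem) _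
  have hz'pow : z' ^ r = 1 := by
    have h1 : g' ^ r = 1 := by rw [← hg'ord]; exact pow_orderOf_eq_one _
    rw [hg', hcomm.mul_pow, hpow, one_mul] at h1
    exact h1
  have hz'one : z' = 1 := by
    have hd1 : orderOf (⟨z', hz'mem⟩ : Subgroup.center G) ∣ r := by
      apply orderOf_dvd_of_pow_eq_one
      exact Subtype.ext hz'pow
    have hd2 : orderOf (⟨z', hz'mem⟩ : Subgroup.center G) ∣ Nat.card (Subgroup.center G) :=
      orderOf_dvd_natCard _
    have hd3 : orderOf (⟨z', hz'mem⟩ : Subgroup.center G) = 1 :=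
      Nat.eq_one_of_dvd_coprimes hc hd2 hd1
    have := orderOf_eq_one_iff.mp hd3
    exact congrArg Subtype.val this
  rw [hg', hz'one, mul_one]

/-- Lifting elements of prime order from PGL to GL: let F be a finite field with q elements, r a prime not dividing q − 1, and x an element of order r in GL_n(F) modulo its centre (the scalar matrices). Then x has exactly one preimage in GL_n(F) of order r. -/
theorem result {F : Type*} [Field F] [Fintype F] {q n r : ℕ} (hF : Fintype.card F = q) (hr : r.Prime) (hdiv : ¬ r ∣ q - 1) (x : GL (Fin n) F ⧸ Subgroup.center (GL (Fin n) F)) (hx : orderOf x = r) : ∃! g : GL (Fin n) F, (QuotientGroup.mk g : GL (Fin n) F ⧸ Subgroup.center (GL (Fin n) F)) = x ∧ orderOf g = r := by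
  classical
  apply unique_lift hr _ x hx
  intro hdvd
  apply hdiv
  have h1 : Nat.card (Subgroup.center (GL (Fin n) F)) ∣ Nat.card Fˣ := by
    rw [Matrix.GeneralLinearGroup.center_eq_range_scalar]
    exact Subgroup.card_range_dvd _
  have h2 : Nat.card Fˣ = q - 1 := by
    rw [Nat.card_units, Nat.card_eq_fintype_card, hF]
  rw [h2] at h1
  exact hdvd.trans h1

end Cfsg.Agent.S2567
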