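import Cfsg.Statements.S2568
import Mathlib
import Cfsg.Agent.Helper14.PrimeOrd

set_option autoImplicit false
open Cfsg

namespace Cfsg.Agent.S2568
open Polynomial

/-- Number of conjugacy classes of elements of a given prime order r, coprime to the characteristic, in GL_n(q): if i is the multiplicative order of q modulo r and t = (r − 1)/i, the classes correspond to the non-zero t-tuples of natural numbers (a_1, …, a_t) with i(a_1 + ⋯ + a_t) ≤ n (a_j is the multiplicity of the j-th Frobenius orbit of nontrivial r-th roots of unity among the eigenvalues), so there are exactly C(⌊n/i⌋ + t, t) − 1 of them. -/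
theorem result {F : Type*} [Field F] [Fintype F] {p q : ℕ} [Fact p.Prime] [CharP F p] (hF : Fintype.card F = q) (n r i t : ℕ) (hr : r.Prime) (hrp : r ≠ p) (hi : i = orderOf (q : ZMod r)) (ht : t * i = r - 1) : Nat.card {C : ConjClasses (GL (Fin n) F) // ∃ g : GL (Fin n) F, ConjClasses.mk g = C ∧ orderOf g = r} = Nat.choose (n / i + t) t - 1 := by

  letI : DecidableEq F := Classical.decEq F
  haveI : Fact r.Prime := ⟨hr⟩
  obtain ⟨f, -, hq⟩ := FiniteField.card F p
  have hpr : p.Coprime r := (Nat.coprime_primes Fact.out hr).mpr (Ne.symm hrp)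
  have hrF : (r : F) ≠ 0 := by
    intro h0
    rw [CharP.cast_eq_zero_iff F p] at h0
    exact hrp ((Nat.prime_dvd_prime_iff_eq Fact.out hr).mp h0).symm
  have hord : orderOf (ZMod.unitOfCoprime (p ^ (f : ℕ)) (hpr.pow_left f)) = i := by
    rw [hi, ← hF, hq, ← orderOf_units, ZMod.coe_unitOfCoprime]
  have hipos : 0 < i := by rw [← hord]; exact orderOf_pos _
  have hcard := Polynomial.normalizedFactors_cyclotomic_card hq hpr
  rw [hord, Nat.totient_prime hr, ← ht, Nat.mul_div_cancel t hipos] at hcard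
  obtain ⟨Φ, hΦ⟩ : ∃ Φ : Finset F[X],
      Φ = (UniqueFactorizationMonoid.normalizedFactors (cyclotomic r F)).toFinset := ⟨_, rfl⟩
  rw [← hΦ] at hcard
  have hcyc : cyclotomic r F * (X - 1) = X ^ r - 1 := Polynomial.cyclotomic_prime_mul_X_sub_one F r
  have hX1irr : Irreducible (X - 1 : F[X]) := by
    have h := Polynomial.irreducible_X_sub_C (1 : F)
    rwa [map_one] at h
  have hX1mon : (X - 1 : F[X]).Monic := by
    have h := Polynomial.monic_X_sub_C (1 : F)
    rwa [map_one] at h
  have hΦirr : ∀ φ ∈ Φ, Irreducible φ := by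
    intro φ hφ
    rw [hΦ, Multiset.mem_toFinset] at hφ
    exact UniqueFactorizationMonoid.irreducible_of_normalized_factor φ hφ
  have hΦmon : ∀ φ ∈ Φ, φ.Monic := by
    intro φ hφ
    have hirrφ := hΦirr φ hφ
    rw [hΦ, Multiset.mem_toFinset] at hφ
    rw [← UniqueFactorizationMonoid.normalize_normalized_factor φ hφ]
    exact Polynomial.monic_normalize hirrφ.ne_zero
  have hΦdvd : ∀ φ ∈ Φ, φ ∣ cyclotomic r F := by
    intro φ hφ
    rw [hΦ, Multiset.mem_toFinset] at hφ
    exact UniqueFactorizationMonoid.dvd_of_mem_normalizedFactors hφ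
  have hΦdeg : ∀ φ ∈ Φ, φ.natDegree = i := by
    intro φ hφ
    rw [hΦ, Multiset.mem_toFinset] at hφ
    rw [Polynomial.natDegree_of_mem_normalizedFactors_cyclotomic hq hpr hφ, hord]
  have hΦ1 : X - 1 ∉ Φ := by
    intro h
    have h1 := Polynomial.eval_dvd (x := (1 : F)) (hΦdvd _ h)
    rw [Polynomial.eval_one_cyclotomic_prime] at h1
    simp at h1
    exact hrF h1
  have hirr : ∀ ψ ∈ insert (X - 1) Φ, Irreducible ψ := by
    intro ψ hψ
    rcases Finset.mem_insert.mp hψ with h | h
    · rw [h]; exact hX1irr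
    · exact hΦirr ψ h
  have hmon : ∀ ψ ∈ insert (X - 1) Φ, ψ.Monic := by
    intro ψ hψ
    rcases Finset.mem_insert.mp hψ with h | h
    · rw [h]; exact hX1mon
    · exact hΦmon ψ h
  have hdvd : ∀ ψ ∈ insert (X - 1) Φ, ψ ∣ X ^ r - 1 := by
    intro ψ hψ
    rcases Finset.mem_insert.mp hψ with h | h
    · rw [h]; exact Dvd.intro_left _ hcyc
    · exact (hΦdvd ψ h).trans (Dvd.intro _ hcyc)
  have hmem : ∀ ψ : F[X], Irreducible ψ → ψ.Monic → ψ ∣ X ^ r - 1 →
      ψ ∈ insert (X - 1) Φ := by
    intro ψ hψ hψm hψd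
    rw [← hcyc] at hψd
    rcases hψ.prime.dvd_or_dvd hψd with h | h
    · apply Finset.mem_insert_of_mem
      rw [hΦ, Multiset.mem_toFinset,
        UniqueFactorizationMonoid.mem_normalizedFactors_iff' (cyclotomic_ne_zero r F)]
      exact ⟨hψ, hψm.normalize_eq_self, h⟩
    · rw [Finset.mem_insert]
      left
      exact Polynomial.eq_of_monic_of_associated hψm hX1mon (hψ.associated_of_dvd hX1irr h)
  have hm0 : Finsupp.single (X - 1 : F[X]) (n / i) ∈
      (insert (X - 1) Φ).finsuppAntidiag (n / i) := by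
    rw [Finset.mem_finsuppAntidiag]
    refine ⟨?_, Finsupp.support_single_subset.trans (by
      rw [Finset.singleton_subset_iff]; exact Finset.mem_insert_self _ _)⟩
    rw [Finset.sum_eq_single (X - 1 : F[X])]
    · exact Finsupp.single_eq_same
    · intro b _ hb
      rw [Finsupp.single_apply, if_neg (Ne.symm hb)]
    · intro h
      exact absurd (Finset.mem_insert_self _ _) h
  rw [Cfsg.Agent.Helper14.PrimeOrd.card_abs Φ hΦ1 hirr hmon hΦdeg hipos p hr hrF hdvd hmem,
    Finset.card_erase_of_mem hm0, Finset.card_finsuppAntidiag_nat_eq_choose,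
    Finset.card_insert_of_notMem hΦ1, hcard]
  have e : ∀ N : ℕ, t + 1 + N - 1 = N + t := fun N => by omega
  rw [e, Nat.choose_symm_add]

end Cfsg.Agent.S2568
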