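import Cfsg.Statements.S2572
import Mathlib
import Cfsg.Agent.S2579
-- import your own Cfsg.Agent.* helpers here

set_option autoImplicit false
open Cfsg

namespace Cfsg.Agent.S2572

open Matrix

section
variable {F : Type*} [Field F] {k : ℕ}

/-- index type: first vector, second vector, rest -/
abbrev Idx (k : ℕ) : Type := Unit ⊕ (Unit ⊕ Fin k)

/-- the elementary nilpotent matrix -/
def E0 (F : Type*) [Field F] (k : ℕ) : Matrix (Idx k) (Idx k) F :=
  Matrix.single (Sum.inr (Sum.inl ())) (Sum.inl ()) 1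

/-- the general matrix commuting with `E0` -/
def Mat (a c : F) (β γ : Fin k → F) (D : Matrix (Fin k) (Fin k) F) : Matrix (Idx k) (Idx k) F :=
  Matrix.fromBlocks (Matrix.of fun _ _ => a) 0 (Matrix.of fun x _ => Sum.elim (fun _ => c) γ x)
    (Matrix.fromBlocks (Matrix.of fun _ _ => a) (Matrix.of fun _ j => β j) 0 D)

theorem det_Mat (a c : F) (β γ : Fin k → F) (D : Matrix (Fin k) (Fin k) F) :
    (Mat a c β γ D).det = a * (a * D.det) := by
  unfold Mat
  rw [Matrix.det_fromBlocks_zero₁₂, Matrix.det_fromBlocks_zero₂₁, Matrix.det_unique]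
  rfl

theorem comm_iff (M : Matrix (Idx k) (Idx k) F) :
    M * E0 F k = E0 F k * M ↔
      (∀ x, M (Sum.inl ()) (Sum.inr x) = 0) ∧ (∀ i, M (Sum.inr (Sum.inr i)) (Sum.inr (Sum.inl ())) = 0)
        ∧ M (Sum.inr (Sum.inl ())) (Sum.inr (Sum.inl ())) = M (Sum.inl ()) (Sum.inl ()) := by
  have hL : ∀ i j, (M * E0 F k) i j = if j = Sum.inl () then M i (Sum.inr (Sum.inl ())) else 0 := by
    intro i j
    unfold E0
    split_ifs with h
    · subst h
      rw [Matrix.mul_single_apply_same, mul_one]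
    · rw [Matrix.mul_single_apply_of_ne (hbj := h)]
  have hR : ∀ i j, (E0 F k * M) i j = if i = Sum.inr (Sum.inl ()) then M (Sum.inl ()) j else 0 := by
    intro i j
    unfold E0
    split_ifs with h
    · subst h
      rw [Matrix.single_mul_apply_same, one_mul]
    · rw [Matrix.single_mul_apply_of_ne (h := h)]
  constructor
  · intro h
    have h' : ∀ i j, (M * E0 F k) i j = (E0 F k * M) i j := fun i j => by rw [h]
    refine ⟨?_, ?_, ?_⟩
    · intro x
      have := h' (Sum.inr (Sum.inl ())) (Sum.inr x)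
      rw [hL, hR] at this
      simpa using this.symm
    · intro i
      have := h' (Sum.inr (Sum.inr i)) (Sum.inl ())
      rw [hL, hR] at this
      simpa using this
    · have := h' (Sum.inr (Sum.inl ())) (Sum.inl ())
      rw [hL, hR] at this
      simpa using this
  · rintro ⟨h1, h2, h3⟩
    ext i j
    rw [hL, hR]
    rcases i with _ | _ | i <;> rcases j with _ | _ | j <;> simp [h1, h2, h3]

theorem shape (M : Matrix (Idx k) (Idx k) F) (h : M * E0 F k = E0 F k * M) :
    M = Mat (M (Sum.inl ()) (Sum.inl ())) (M (Sum.inr (Sum.inl ())) (Sum.inl ()))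
      (fun j => M (Sum.inr (Sum.inl ())) (Sum.inr (Sum.inr j)))
      (fun i => M (Sum.inr (Sum.inr i)) (Sum.inl ()))
      (Matrix.of fun i j => M (Sum.inr (Sum.inr i)) (Sum.inr (Sum.inr j))) := by
  obtain ⟨h1, h2, h3⟩ := (comm_iff M).mp h
  ext i j
  unfold Mat
  rcases i with _ | _ | i <;> rcases j with _ | _ | j <;> simp [h1, h2, h3]

theorem Mat_comm (a c : F) (β γ : Fin k → F) (D : Matrix (Fin k) (Fin k) F) :
    Mat a c β γ D * E0 F k = E0 F k * Mat a c β γ D := by
  rw [comm_iff]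
  refine ⟨?_, ?_, ?_⟩
  · intro x
    rfl
  · intro i
    rfl
  · rfl

theorem Mat_inj {a c : F} {β γ : Fin k → F} {D : Matrix (Fin k) (Fin k) F}
    {a' c' : F} {β' γ' : Fin k → F} {D' : Matrix (Fin k) (Fin k) F}
    (h : Mat a c β γ D = Mat a' c' β' γ' D') :
    a = a' ∧ c = c' ∧ β = β' ∧ γ = γ' ∧ D = D' := by
  have h' : ∀ i j, Mat a c β γ D i j = Mat a' c' β' γ' D' i j := fun i j => by rw [h]
  refine ⟨?_, ?_, ?_, ?_, ?_⟩
  · simpa [Mat] using h' (Sum.inl ()) (Sum.inl ())
  · simpa [Mat] using h' (Sum.inr (Sum.inl ())) (Sum.inl ())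
  · funext j
    simpa [Mat] using h' (Sum.inr (Sum.inl ())) (Sum.inr (Sum.inr j))
  · funext i
    simpa [Mat] using h' (Sum.inr (Sum.inr i)) (Sum.inl ())
  · ext i j
    simpa [Mat] using h' (Sum.inr (Sum.inr i)) (Sum.inr (Sum.inr j))

theorem card_comm [Fintype F] :
    Nat.card {u : (Matrix (Idx k) (Idx k) F)ˣ //
        (u : Matrix (Idx k) (Idx k) F) * E0 F k = E0 F k * (u : Matrix (Idx k) (Idx k) F)}
      = (Fintype.card F - 1) * (Fintype.card F * (Fintype.card F ^ k * (Fintype.card F ^ k *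
          Nat.card (GL (Fin k) F)))) := by
  classical
  have hdet : ∀ g : GL (Fin k) F, (g : Matrix (Fin k) (Fin k) F).det ≠ 0 := fun g =>
    IsUnit.ne_zero ((Matrix.isUnit_iff_isUnit_det _).mp g.isUnit)
  let Φ : Fˣ × F × (Fin k → F) × (Fin k → F) × GL (Fin k) F →
      {u : (Matrix (Idx k) (Idx k) F)ˣ //
        (u : Matrix (Idx k) (Idx k) F) * E0 F k = E0 F k * (u : Matrix (Idx k) (Idx k) F)} :=
    fun p => ⟨Matrix.GeneralLinearGroup.mkOfDetNeZero
      (Mat (p.1 : F) p.2.1 p.2.2.1 p.2.2.2.1 (p.2.2.2.2 : Matrix (Fin k) (Fin k) F)) (by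
        rw [det_Mat]
        exact mul_ne_zero p.1.ne_zero (mul_ne_zero p.1.ne_zero (hdet _))), Mat_comm _ _ _ _ _⟩
  have hΦ : Function.Bijective Φ := by
    constructor
    · rintro ⟨a, c, β, γ, D⟩ ⟨a', c', β', γ', D'⟩ h
      have h1 : Mat (a : F) c β γ (D : Matrix (Fin k) (Fin k) F)
          = Mat (a' : F) c' β' γ' (D' : Matrix (Fin k) (Fin k) F) :=
        congrArg (fun u => ((u.1 : (Matrix (Idx k) (Idx k) F)ˣ) : Matrix (Idx k) (Idx k) F)) h
      obtain ⟨e1, e2, e3, e4, e5⟩ := Mat_inj h1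
      have e1' : a = a' := Units.ext e1
      have e5' : D = D' := Units.ext e5
      rw [e1', e2, e3, e4, e5']
    · rintro ⟨u, hu⟩
      have hs := shape (u : Matrix (Idx k) (Idx k) F) hu
      have hd : (u : Matrix (Idx k) (Idx k) F).det ≠ 0 :=
        IsUnit.ne_zero ((Matrix.isUnit_iff_isUnit_det _).mp u.isUnit)
      rw [hs, det_Mat] at hd
      have ha : (u : Matrix (Idx k) (Idx k) F) (Sum.inl ()) (Sum.inl ()) ≠ 0 := by
        intro h0
        rw [h0, zero_mul] at hd
        exact hd rfl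
      have hD : (Matrix.of fun i j => (u : Matrix (Idx k) (Idx k) F) (Sum.inr (Sum.inr i))
          (Sum.inr (Sum.inr j))).det ≠ 0 := by
        intro h0
        rw [h0, mul_zero, mul_zero] at hd
        exact hd rfl
      refine ⟨(Units.mk0 _ ha, (u : Matrix (Idx k) (Idx k) F) (Sum.inr (Sum.inl ())) (Sum.inl ()),
        (fun j => (u : Matrix (Idx k) (Idx k) F) (Sum.inr (Sum.inl ())) (Sum.inr (Sum.inr j))),
        (fun i => (u : Matrix (Idx k) (Idx k) F) (Sum.inr (Sum.inr i)) (Sum.inl ())),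
        Matrix.GeneralLinearGroup.mkOfDetNeZero _ hD), ?_⟩
      apply Subtype.ext
      apply Units.ext
      exact hs.symm
  rw [← Nat.card_congr (Equiv.ofBijective Φ hΦ), Nat.card_prod, Nat.card_prod, Nat.card_prod,
    Nat.card_prod, Nat.card_units, Nat.card_fun, Nat.card_eq_fintype_card (α := F), Nat.card_fin]

end

/-- the index bijection -/
noncomputable def idxEquiv (k : ℕ) : Idx k ≃ Fin (k + 2) :=
  Equiv.ofBijective (Sum.elim (fun _ => 0) (Sum.elim (fun _ => 1) (fun i => i.succ.succ))) (by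
    constructor
    · rintro (_ | _ | i) (_ | _ | j) h <;> simp [Fin.ext_iff] at h ⊢
      omega
    · intro x
      refine Fin.cases ⟨Sum.inl (), rfl⟩ (fun y => Fin.cases ⟨Sum.inr (Sum.inl ()), rfl⟩
        (fun z => ⟨Sum.inr (Sum.inr z), rfl⟩) y) x)

theorem main {F : Type*} [Field F] [Fintype F] (k : ℕ) (t : GL (Fin (k + 2)) F)
    (ht : Cfsg.IsTransvection (t : Matrix (Fin (k + 2)) (Fin (k + 2)) F)) :
    Nat.card ↥(Subgroup.centralizer ({t} : Set (GL (Fin (k + 2)) F)))
      = (Fintype.card F - 1) * (Fintype.card F * (Fintype.card F ^ k * (Fintype.card F ^ k *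
          Nat.card (GL (Fin k) F)))) := by
  classical
  obtain ⟨hr, hNN⟩ := ht
  set N := (t : Matrix (Fin (k + 2)) (Fin (k + 2)) F) - 1 with hN
  have hV : Module.finrank F (Fin (k + 2) → F) = k + 2 := by simp
  obtain ⟨b, hb0, hbi⟩ := S2579.adapted_basis k hV (Matrix.mulVecLin N) hr (by
    rw [← Matrix.mulVecLin_mul, hNN]
    simp)
  set b' : Module.Basis (Idx k) F (Fin (k + 2) → F) := b.reindex (idxEquiv k).symm with hb'
  have hb'a : ∀ i, b' i = b (idxEquiv k i) := fun i => by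
    rw [hb', Module.Basis.reindex_apply, Equiv.symm_symm]
  set ψ : Matrix (Fin (k + 2)) (Fin (k + 2)) F ≃ₐ[F] Matrix (Idx k) (Idx k) F :=
    Matrix.toLinAlgEquiv'.trans (LinearMap.toMatrixAlgEquiv b') with hψ
  have hψN : ψ N = E0 F k := by
    ext i j
    rw [hψ, AlgEquiv.trans_apply, LinearMap.toMatrixAlgEquiv_apply, Matrix.toLinAlgEquiv'_apply,
      hb'a]
    unfold E0
    rcases j with _ | _ | j
    · have h1 : N *ᵥ b (idxEquiv k (Sum.inl ())) = b' (Sum.inr (Sum.inl ())) := by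
        rw [hb'a]
        exact hb0
      rw [h1, Module.Basis.repr_self, Finsupp.single_apply, Matrix.single_apply]
      simp [eq_comm]
    · have h1 : N *ᵥ b (idxEquiv k (Sum.inr (Sum.inl ()))) = 0 := hbi _ (by
        show (1 : Fin (k + 2)) ≠ 0
        simp [Fin.ext_iff])
      rw [h1, map_zero]
      simp [Matrix.single_apply]
    · have h1 : N *ᵥ b (idxEquiv k (Sum.inr (Sum.inr j))) = 0 := hbi _ (by
        show j.succ.succ ≠ 0
        exact Fin.succ_ne_zero _)
      rw [h1, map_zero]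
      simp [Matrix.single_apply]
  have hiff : ∀ g : GL (Fin (k + 2)) F, g ∈ Subgroup.centralizer ({t} : Set (GL (Fin (k + 2)) F)) ↔
      ((Units.mapEquiv ψ.toRingEquiv.toMulEquiv g : (Matrix (Idx k) (Idx k) F)ˣ) :
          Matrix (Idx k) (Idx k) F) * E0 F k
        = E0 F k * ((Units.mapEquiv ψ.toRingEquiv.toMulEquiv g : (Matrix (Idx k) (Idx k) F)ˣ) :
          Matrix (Idx k) (Idx k) F) := by
    intro g
    have hval : ((Units.mapEquiv ψ.toRingEquiv.toMulEquiv g : (Matrix (Idx k) (Idx k) F)ˣ) :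
          Matrix (Idx k) (Idx k) F) = ψ (g : Matrix (Fin (k + 2)) (Fin (k + 2)) F) := rfl
    rw [hval, Subgroup.mem_centralizer_iff]
    have htN : (t : Matrix (Fin (k + 2)) (Fin (k + 2)) F) = N + 1 := by
      rw [hN]
      abel
    constructor
    · intro h
      have h1 := h t rfl
      have h3 : (t : Matrix (Fin (k + 2)) (Fin (k + 2)) F) * g = g * t := congrArg Units.val h1
      have h2 : N * (g : Matrix (Fin (k + 2)) (Fin (k + 2)) F) = g * N := by
        rw [hN, Matrix.sub_mul, Matrix.mul_sub, h3, one_mul, mul_one]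
      have h4 := congrArg ψ h2
      rw [map_mul, map_mul, hψN] at h4
      exact h4.symm
    · intro h x hx
      rw [Set.mem_singleton_iff] at hx
      subst hx
      apply Units.ext
      have h2 : N * (g : Matrix (Fin (k + 2)) (Fin (k + 2)) F) = g * N := by
        apply ψ.injective
        rw [map_mul, map_mul, hψN]
        exact h.symm
      rw [Units.val_mul, Units.val_mul, htN, add_mul, mul_add, h2, one_mul, mul_one]
  rw [← card_comm]
  exact Nat.card_congr (Equiv.subtypeEquiv (Units.mapEquiv ψ.toRingEquiv.toMulEquiv).toEquiv hiff)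


/-- Centraliser of a transvection in GL_n(q), n ≥ 2: if t − 1 has rank one and square zero, the centraliser of t in GL_n(q) has order q^(2n−3) (q − 1) |GL_(n−2)(q)| (a group of order q^(2n−3) extended by GL_1(q) × GL_(n−2)(q)). -/
theorem result {F : Type*} [Field F] [Fintype F] {q n : ℕ} (hF : Fintype.card F = q) (hn : 2 ≤ n) (t : GL (Fin n) F) (ht : Cfsg.IsTransvection (t : Matrix (Fin n) (Fin n) F)) : Nat.card ↥(Subgroup.centralizer ({t} : Set (GL (Fin n) F))) = q ^ (2 * n - 3) * (q - 1) * ∏ i : Fin (n - 2), (q ^ (n - 2) - q ^ (i : ℕ)) := by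
  obtain ⟨k, rfl⟩ : ∃ k, n = k + 2 := ⟨n - 2, by omega⟩
  rw [main k t ht, Matrix.card_GL_field, hF]
  show (q - 1) * (q * (q ^ k * (q ^ k * ∏ i : Fin k, (q ^ k - q ^ (i : ℕ)))))
    = q ^ (2 * (k + 2) - 3) * (q - 1) * ∏ i : Fin k, (q ^ k - q ^ (i : ℕ))
  have h1 : 2 * (k + 2) - 3 = k + k + 1 := by omega
  rw [h1, pow_succ, pow_add]
  ring


end Cfsg.Agent.S2572
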