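import Cfsg.Statements.S2574
import Cfsg.Agent.S2573
import Mathlib

set_option autoImplicit false
open Cfsg

namespace Cfsg.Agent.S2574

open Matrix

theorem mulVecLin_pow' {F ι : Type*} [Field F] [Fintype ι] [DecidableEq ι] (A : Matrix ι ι F) (k : ℕ) :
    Matrix.mulVecLin (A ^ k) = (Matrix.mulVecLin A) ^ k := by
  induction k with
  | zero => rw [pow_zero, pow_zero, Matrix.mulVecLin_one]; rfl
  | succ k ih => rw [pow_succ, Matrix.mulVecLin_mul, ih, pow_succ]; rfl

theorem ker_pow_mono {F V : Type*} [Field F] [AddCommGroup V] [Module F V] (N : V →ₗ[F] V)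
    {a b : ℕ} (h : a ≤ b) : LinearMap.ker (N ^ a) ≤ LinearMap.ker (N ^ b) := by
  intro x hx
  rw [LinearMap.mem_ker] at hx ⊢
  obtain ⟨c, rfl⟩ := Nat.exists_eq_add_of_le h
  rw [add_comm, pow_add, Module.End.mul_apply, hx, map_zero]

/-- A regular unipotent element of the symplectic group has totally isotropic small invariant subspaces: over a finite field, if u ∈ Sp_2m(F) satisfies (u − 1)^(2m) = 0 and rank(u − 1) = 2m − 1, and W is a u-invariant subspace with 2 dim W ≤ 2m, then the alternating form vanishes identically on W. -/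
theorem result {F : Type*} [Field F] [Finite F] {m : ℕ} (u : Matrix.symplecticGroup (Fin m) F) (hnil : ((u : Matrix (Fin m ⊕ Fin m) (Fin m ⊕ Fin m) F) - 1) ^ (2 * m) = 0) (hreg : ((u : Matrix (Fin m ⊕ Fin m) (Fin m ⊕ Fin m) F) - 1).rank = 2 * m - 1) (W : Submodule F (Fin m ⊕ Fin m → F)) (hW : ∀ v ∈ W, (u : Matrix (Fin m ⊕ Fin m) (Fin m ⊕ Fin m) F).mulVec v ∈ W) (hdim : 2 * Module.finrank F W ≤ 2 * m) : ∀ v ∈ W, ∀ w ∈ W, Cfsg.sympForm m F v w = 0 := by
  classical
  set A : Matrix (Fin m ⊕ Fin m) (Fin m ⊕ Fin m) F := (u : Matrix (Fin m ⊕ Fin m) (Fin m ⊕ Fin m) F) with hA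
  set B : LinearMap.BilinForm F (Fin m ⊕ Fin m → F) := Matrix.toBilin' (Matrix.J (Fin m) F) with hB
  have hBapp : ∀ x y, B x y = Cfsg.sympForm m F x y := by
    intro x y
    rw [hB, Matrix.toBilin'_apply']
    rfl
  have hBnd : B.Nondegenerate := by
    rw [hB, LinearMap.BilinForm.nondegenerate_toBilin'_iff_det_ne_zero]
    exact (Matrix.isUnit_det_J (Fin m) F).ne_zero
  -- invariance of the form
  have hAJ : Aᵀ * Matrix.J (Fin m) F * A = Matrix.J (Fin m) F :=
    SymplecticGroup.mem_iff'.mp u.2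
  have hinv : ∀ x y, B (A *ᵥ x) (A *ᵥ y) = B x y := by
    intro x y
    rw [hB, Matrix.toBilin'_apply', Matrix.toBilin'_apply']
    rw [← Matrix.vecMul_transpose, ← Matrix.dotProduct_mulVec, Matrix.mulVec_mulVec,
      Matrix.mulVec_mulVec, hAJ]
  set N : (Fin m ⊕ Fin m → F) →ₗ[F] (Fin m ⊕ Fin m → F) := Matrix.mulVecLin (A - 1) with hN
  have hNapp : ∀ v, N v = A *ᵥ v - v := by
    intro v; simp [hN]
  have hNnil : IsNilpotent N := ⟨2 * m, by rw [hN, ← mulVecLin_pow', hnil]; simp⟩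
  have hker : Module.finrank F (LinearMap.ker N) ≤ 1 := by
    have h1 := LinearMap.finrank_range_add_finrank_ker N
    have h2 : Module.finrank F (LinearMap.range N) = 2 * m - 1 := by
      rw [← hreg]; rfl
    have h3 : Module.finrank F (Fin m ⊕ Fin m → F) = 2 * m := by simp; ring
    omega
  have hWN : ∀ v ∈ W, N v ∈ W := by
    intro v hv
    rw [hNapp]
    exact W.sub_mem (hW v hv) hv
  -- `A` maps `W` onto `W`
  set A' : Matrix (Fin m ⊕ Fin m) (Fin m ⊕ Fin m) F :=
    ((u⁻¹ : Matrix.symplecticGroup (Fin m) F) : Matrix (Fin m ⊕ Fin m) (Fin m ⊕ Fin m) F) with hA'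
  have hAA' : A * A' = 1 := by
    have : u * u⁻¹ = 1 := mul_inv_cancel u
    exact congrArg Subtype.val this
  have hA'A : A' * A = 1 := by
    have : u⁻¹ * u = 1 := inv_mul_cancel u
    exact congrArg Subtype.val this
  let e : (Fin m ⊕ Fin m → F) ≃ₗ[F] (Fin m ⊕ Fin m → F) :=
    LinearEquiv.ofLinearMap (Matrix.mulVecLin A) (Matrix.mulVecLin A')
      (by rw [← Matrix.mulVecLin_mul, hAA', Matrix.mulVecLin_one])
      (by rw [← Matrix.mulVecLin_mul, hA'A, Matrix.mulVecLin_one])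
  have hWsurj : ∀ w ∈ W, ∃ w' ∈ W, A *ᵥ w' = w := by
    have hmap : W.map (e : (Fin m ⊕ Fin m → F) →ₗ[F] (Fin m ⊕ Fin m → F)) = W := by
      apply Submodule.eq_of_le_of_finrank_le
      · rintro _ ⟨v, hv, rfl⟩
        exact hW v hv
      · exact le_of_eq (LinearEquiv.finrank_map_eq e W).symm
    intro w hw
    rw [← hmap] at hw
    obtain ⟨w', hw', rfl⟩ := hw
    exact ⟨w', hw', rfl⟩
  -- the orthogonal complement is invariant
  set W' : Submodule F (Fin m ⊕ Fin m → F) := B.orthogonal W with hW'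
  have hW'N : ∀ v ∈ W', N v ∈ W' := by
    intro v hv
    rw [hNapp]
    refine W'.sub_mem ?_ hv
    rw [hW', LinearMap.BilinForm.mem_orthogonal_iff]
    intro w hw
    obtain ⟨w', hw', rfl⟩ := hWsurj w hw
    show B (A *ᵥ w') (A *ᵥ v) = 0
    rw [hinv]
    exact (LinearMap.BilinForm.mem_orthogonal_iff.mp hv) w' hw'
  have hfr : Module.finrank F W' = 2 * m - Module.finrank F W := by
    rw [hW', LinearMap.BilinForm.finrank_orthogonal hBnd]
    simp; ring_nf
  have e1 := Cfsg.Agent.S2573.eq_ker_pow N hNnil hker W hWN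
  have e2 := Cfsg.Agent.S2573.eq_ker_pow N hNnil hker W' hW'N
  have hle : W ≤ W' := by
    have h1 : LinearMap.ker (N ^ Module.finrank F W) ≤ LinearMap.ker (N ^ Module.finrank F W') := by
      rw [hfr]
      exact ker_pow_mono N (a := Module.finrank F W) (b := 2 * m - Module.finrank F W) (by omega)
    calc W = LinearMap.ker (N ^ Module.finrank F W) := e1
      _ ≤ LinearMap.ker (N ^ Module.finrank F W') := h1
      _ = W' := e2.symm
  intro v hv w hw
  rw [← hBapp]
  exact (LinearMap.BilinForm.mem_orthogonal_iff.mp (hle hw)) v hv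

end Cfsg.Agent.S2574
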