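import Cfsg.Statements.S2575
import Mathlib
-- import your own Cfsg.Agent.* helpers here

set_option autoImplicit false
open Cfsg

namespace Cfsg.Agent.S2575

theorem two_part (N : ℕ) (hN : N ≠ 0) : ∃ r, Odd r ∧ N = 2 ^ padicValNat 2 N * r := by
  obtain ⟨r, hr⟩ := pow_padicValNat_dvd (p := 2) (n := N)
  refine ⟨r, ?_, hr⟩
  by_contra hodd
  rw [Nat.not_odd_iff_even] at hodd
  obtain ⟨s, rfl⟩ := hodd.two_dvd
  apply pow_succ_padicValNat_not_dvd (p := 2) hN
  exact ⟨s, hr.trans (by ring)⟩

theorem neg_one_ne_one {F : Type*} [Field F] [Fintype F] (hq : Odd (Fintype.card F)) :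
    (-1 : F) ≠ 1 := by
  have h2 : ringChar F ≠ 2 := by
    intro h
    have := FiniteField.even_card_of_char_two h
    rw [Nat.odd_iff] at hq
    omega
  exact Ring.neg_one_ne_one_of_char_ne_two h2

theorem exists_prim {F : Type*} [Field F] [Fintype F] (hq : Odd (Fintype.card F)) :
    ∃ g : F, g ≠ 0 ∧ g ^ ((Fintype.card F - 1) / 2) = -1 := by
  classical
  obtain ⟨g, hg⟩ := IsCyclic.exists_generator (α := Fˣ)
  have ho : orderOf g = Fintype.card F - 1 := by
    rw [orderOf_eq_card_of_forall_mem_zpowers hg, Nat.card_eq_fintype_card, Fintype.card_units]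
  have hcard : 1 < Fintype.card F := Fintype.one_lt_card
  obtain ⟨k, hk⟩ := hq
  have hk0 : 0 < k := by omega
  have hhalf : (Fintype.card F - 1) / 2 = k := by omega
  refine ⟨(g : F), g.ne_zero, ?_⟩
  rw [hhalf]
  have h1 : ((g : F) ^ k) * ((g : F) ^ k) = 1 := by
    rw [← pow_add, ← Units.val_pow_eq_pow_val, ← two_mul]
    have : g ^ (2 * k) = 1 := by
      have := pow_orderOf_eq_one g
      rw [ho, hk] at this
      simpa using this
    rw [this]; rfl
  rcases mul_self_eq_one_iff.mp h1 with h | h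
  · exfalso
    have h' : g ^ k = 1 := Units.ext (by rw [Units.val_pow_eq_pow_val]; exact h)
    have := orderOf_dvd_of_pow_eq_one h'
    rw [ho, hk] at this
    have := Nat.le_of_dvd hk0 this
    omega
  · exact h

theorem exists_pow_eq_neg_one_iff {F : Type*} [Field F] [Fintype F]
    (hq : Odd (Fintype.card F)) {n : ℕ} (hn : n ≠ 0) :
    (∃ c : F, c ≠ 0 ∧ c ^ n = -1)
      ↔ padicValNat 2 n < padicValNat 2 (Fintype.card F - 1) := by
  have hcard : 1 < Fintype.card F := Fintype.one_lt_card
  have hN : Fintype.card F - 1 ≠ 0 := by omega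
  constructor
  · rintro ⟨c, hc, hcn⟩
    by_contra hlt
    rw [not_lt] at hlt
    obtain ⟨r, hr, hNr⟩ := two_part _ hN
    obtain ⟨s, hs⟩ := (padicValNat_dvd_iff_le hn).mpr hlt
    have h1 : (c ^ n) ^ r = 1 := by
      rw [← pow_mul, hs, mul_right_comm, ← hNr, pow_mul,
        FiniteField.pow_card_sub_one_eq_one c hc, one_pow]
    rw [hcn, hr.neg_one_pow] at h1
    exact neg_one_ne_one hq h1
  · intro hlt
    obtain ⟨g, hg0, hg⟩ := exists_prim hq
    obtain ⟨n', hn', hnn⟩ := two_part n hn
    obtain ⟨t, ht⟩ := (padicValNat_dvd_iff_le hN).mpr (Nat.succ_le_of_lt hlt)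
    have hhalf : (Fintype.card F - 1) / 2 = 2 ^ padicValNat 2 n * t := by
      rw [ht, pow_succ, mul_assoc, mul_comm 2 t, ← mul_assoc, Nat.mul_div_cancel _ (by norm_num)]
    refine ⟨g ^ t, pow_ne_zero _ hg0, ?_⟩
    rw [hhalf] at hg
    conv_lhs => rw [hnn]
    rw [← pow_mul, ← mul_assoc, mul_comm t, pow_mul, hg, hn'.neg_one_pow]

/-- Which diagonal involutions of PGL_n(q) lie in PSL_n(q), q odd: for the diagonal matrix t with i entries −1 and n − i entries 1, some non-zero scalar multiple of t has determinant one if and only if i is even or the 2-part of q − 1 exceeds the 2-part of n (that is, −1 is an n-th power in the field exactly in the latter case). -/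
theorem result {F : Type*} [Field F] [Fintype F] {q : ℕ} (hF : Fintype.card F = q) (hq : Odd q) {n : ℕ} (hn : 1 ≤ n) (i : ℕ) (hi : i ≤ n) : (∃ c : F, c ≠ 0 ∧ (c • Matrix.diagonal (fun j : Fin n => if (j : ℕ) < i then (-1 : F) else 1)).det = 1) ↔ (Even i ∨ padicValNat 2 n < padicValNat 2 (q - 1)) := by
  classical
  subst hF
  have hdet : ∀ c : F, (c • Matrix.diagonal
      (fun j : Fin n => if (j : ℕ) < i then (-1 : F) else 1)).det = c ^ n * (-1) ^ i := by
    intro c
    rw [Matrix.det_smul, Matrix.det_diagonal, Fintype.card_fin, Finset.prod_ite,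
      Finset.prod_const, Finset.prod_const_one, mul_one, Fin.card_filter_val_lt, min_eq_right hi]
  simp only [hdet]
  have hn0 : n ≠ 0 := by omega
  rw [← exists_pow_eq_neg_one_iff hq hn0]
  constructor
  · rintro ⟨c, hc, h⟩
    rcases Nat.even_or_odd i with hi' | hi'
    · exact Or.inl hi'
    · right
      rw [hi'.neg_one_pow] at h
      exact ⟨c, hc, by linear_combination -h⟩
  · rintro (hi' | ⟨c, hc, h⟩)
    · exact ⟨1, one_ne_zero, by rw [hi'.neg_one_pow]; simp⟩
    · rcases Nat.even_or_odd i with hi' | hi'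
      · exact ⟨1, one_ne_zero, by rw [hi'.neg_one_pow]; simp⟩
      · exact ⟨c, hc, by rw [hi'.neg_one_pow, h]; ring⟩

end Cfsg.Agent.S2575
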