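import Cfsg.Statements.S2576
import Mathlib
import Cfsg.Agent.S2575
-- import your own Cfsg.Agent.* helpers here

set_option autoImplicit false
open Cfsg

namespace Cfsg.Agent.S2576

/-- Which involutions of PGL_2m(q) coming from a scalar of the quadratic extension field lie in PSL_2m(q), q odd: let μ generate the Sylow 2-subgroup of the multiplicative group of the field with q elements (μ has order the 2-part of q − 1) and let t be the block-diagonal matrix with m diagonal blocks [[0, 1], [μ, 0]] (so t² is the scalar μ and t is an involution modulo scalars). Then some non-zero scalar multiple of t has determinant one if and only if q ≡ 3 (mod 4) or the 2-part of q − 1 is less than the 2-part of 2m. -/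
theorem result {F : Type*} [Field F] [Fintype F] {q : ℕ} (hF : Fintype.card F = q) (hq : Odd q) {m : ℕ} (hm : 1 ≤ m) (μ : F) (hμ : orderOf μ = 2 ^ padicValNat 2 (q - 1)) : (∃ c : F, c ≠ 0 ∧ (c • Matrix.blockDiagonal (fun _ : Fin m => !![(0 : F), 1; μ, 0])).det = 1) ↔ (q % 4 = 3 ∨ padicValNat 2 (q - 1) < padicValNat 2 (2 * m)) := by
  classical
  subst hF
  have hcard : 1 < Fintype.card F := Fintype.one_lt_card
  have hN : Fintype.card F - 1 ≠ 0 := by omega
  have hdet : ∀ c : F, (c • Matrix.blockDiagonal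
      (fun _ : Fin m => !![(0 : F), 1; μ, 0])).det = c ^ (2 * m) * (-μ) ^ m := by
    intro c
    rw [Matrix.det_smul, Matrix.det_blockDiagonal, Fintype.card_prod, Fintype.card_fin,
      Fintype.card_fin, Finset.prod_const, Finset.card_univ, Fintype.card_fin,
      Matrix.det_fin_two_of]
    congr 2
    ring
  simp only [hdet]
  obtain ⟨r, hr, hNr⟩ := S2575.two_part _ hN
  have h2N : ∀ j, 2 ^ j ∣ Fintype.card F - 1 ↔ j ≤ padicValNat 2 (Fintype.card F - 1) :=
    fun j => padicValNat_dvd_iff_le hN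
  obtain ⟨a, ha⟩ : ∃ a, padicValNat 2 (Fintype.card F - 1) = a := ⟨_, rfl⟩
  rw [ha] at hμ hNr h2N ⊢
  have ha1 : 1 ≤ a := by
    apply (h2N 1).mp
    obtain ⟨k, hk⟩ := hq
    exact ⟨k, by rw [pow_one]; omega⟩
  obtain ⟨a', ha'⟩ : ∃ a', a = a' + 1 := ⟨a - 1, by omega⟩
  have hμ1 : μ ^ (2 ^ a) = 1 := by rw [← hμ]; exact pow_orderOf_eq_one μ
  have hμ2 : μ ^ (2 ^ a') = -1 := by
    have h1 : μ ^ (2 ^ a') * μ ^ (2 ^ a') = 1 := by
      rw [← pow_add, ← two_mul, ← pow_succ', ← ha']; exact hμ1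
    rcases mul_self_eq_one_iff.mp h1 with h | h
    · exfalso
      have h2 := orderOf_dvd_of_pow_eq_one h
      rw [hμ, ha'] at h2
      have h3 := Nat.le_of_dvd (by positivity) h2
      rw [pow_succ] at h3
      have : 0 < 2 ^ a' := by positivity
      omega
    · exact h
  have hm0 : m ≠ 0 := by omega
  constructor
  · rintro ⟨c, hc, h⟩
    by_contra hcon
    rw [not_or, not_lt] at hcon
    obtain ⟨hq4, hle⟩ := hcon
    have ha2 : 2 ≤ a := by
      apply (h2N 2).mp
      obtain ⟨k, hk⟩ := hq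
      exact ⟨k / 2, by norm_num; omega⟩
    obtain ⟨m', hm', hmm⟩ := S2575.two_part (2 * m) (by omega)
    obtain ⟨w, hw⟩ : ∃ w, padicValNat 2 (2 * m) = w := ⟨_, rfl⟩
    rw [hw] at hmm hle
    obtain ⟨d, hd⟩ : ∃ d, a = w + d := ⟨a - w, by omega⟩
    have hme : m * (2 ^ d * r) = 2 ^ a' * (m' * r) := by
      apply Nat.eq_of_mul_eq_mul_left (by norm_num : 0 < 2)
      calc 2 * (m * (2 ^ d * r)) = (2 * m) * (2 ^ d * r) := by ring
        _ = (2 ^ w * m') * (2 ^ d * r) := by rw [← hmm]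
        _ = 2 ^ (w + d) * (m' * r) := by ring
        _ = 2 ^ (a' + 1) * (m' * r) := by rw [← hd, ha']
        _ = 2 * (2 ^ a' * (m' * r)) := by ring
    have h2me : 2 * m * (2 ^ d * r) = (Fintype.card F - 1) * m' := by
      rw [hNr, hd, hmm]; ring
    have hc1 : (c ^ (2 * m)) ^ (2 ^ d * r) = 1 := by
      rw [← pow_mul, h2me, pow_mul, FiniteField.pow_card_sub_one_eq_one c hc, one_pow]
    have hμ3 : (-μ) ^ (2 ^ a') = -1 := by
      rw [neg_pow, hμ2, Even.neg_one_pow (Nat.even_pow.mpr ⟨even_two, by omega⟩), one_mul]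
    have hc2 : ((-μ) ^ m) ^ (2 ^ d * r) = -1 := by
      rw [← pow_mul, hme, pow_mul, hμ3, (hm'.mul hr).neg_one_pow]
    have h3 : (c ^ (2 * m) * (-μ) ^ m) ^ (2 ^ d * r) = 1 := by rw [h, one_pow]
    rw [mul_pow, hc1, hc2, one_mul] at h3
    exact S2575.neg_one_ne_one hq h3
  · rintro (hq4 | hlt)
    · have ha_eq : a' = 0 := by
        by_contra hne
        have h4 : 2 ^ 2 ∣ Fintype.card F - 1 := (h2N 2).mpr (by omega)
        obtain ⟨t, ht⟩ := h4
        norm_num at ht
        omega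
      rw [ha_eq, pow_zero, pow_one] at hμ2
      refine ⟨1, one_ne_zero, ?_⟩
      rw [hμ2]; simp
    · have h1 : 2 ^ (a + 1) ∣ 2 * m :=
        (padicValNat_dvd_iff_le (by omega)).mpr (Nat.succ_le_of_lt hlt)
      obtain ⟨s, hs⟩ := h1
      have hms : m = 2 ^ a * s := by
        apply Nat.eq_of_mul_eq_mul_left (by norm_num : 0 < 2)
        rw [hs]; ring
      refine ⟨1, one_ne_zero, ?_⟩
      rw [one_pow, one_mul, hms, pow_mul, neg_pow, hμ1,
        Even.neg_one_pow (Nat.even_pow.mpr ⟨even_two, by omega⟩), one_mul, one_pow]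

end Cfsg.Agent.S2576
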