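import Cfsg.Statements.S2578
import Mathlib
-- import your own Cfsg.Agent.* helpers here

set_option autoImplicit false
open Cfsg

namespace Cfsg.Agent.S2578

open Matrix

section lin
variable {F : Type*} [Field F] {V : Type*} [AddCommGroup V] [Module F V] [FiniteDimensional F V]

theorem rank_comp_ge (f g : V →ₗ[F] V) :
    Module.finrank F (LinearMap.range g)
      ≤ Module.finrank F (LinearMap.range (f ∘ₗ g)) + Module.finrank F (LinearMap.ker f) := by
  have h := LinearMap.finrank_range_add_finrank_ker (f.domRestrict (LinearMap.range g))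
  have h1 : LinearMap.range (f.domRestrict (LinearMap.range g)) = LinearMap.range (f ∘ₗ g) := by
    ext y
    constructor
    · rintro ⟨⟨x, ⟨z, rfl⟩⟩, rfl⟩
      exact ⟨z, rfl⟩
    · rintro ⟨z, rfl⟩
      exact ⟨⟨g z, ⟨z, rfl⟩⟩, rfl⟩
  have h2 : Module.finrank F (LinearMap.ker (f.domRestrict (LinearMap.range g)))
      ≤ Module.finrank F (LinearMap.ker f) := by
    let φ : LinearMap.ker (f.domRestrict (LinearMap.range g)) →ₗ[F] LinearMap.ker f :=
      LinearMap.codRestrict (LinearMap.ker f)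
        ((LinearMap.range g).subtype ∘ₗ (LinearMap.ker (f.domRestrict (LinearMap.range g))).subtype)
        (fun x => by
          rw [LinearMap.mem_ker]
          exact LinearMap.mem_ker.mp x.2)
    apply LinearMap.finrank_le_finrank_of_injective (f := φ)
    intro x y hxy
    have h3 := congrArg (fun z : LinearMap.ker f => (z : V)) hxy
    exact Subtype.ext (Subtype.ext h3)
  rw [h1] at h
  omega

end lin

section shift
variable {F : Type*} [Field F] {n : ℕ}

theorem mat_ext {k : Type*} [Fintype k] [DecidableEq k] (A B : Matrix k k F)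
    (h : ∀ x, A *ᵥ x = B *ᵥ x) : A = B := by
  ext i j
  have := congrFun (h (Pi.single j 1)) i
  simpa using this

/-- lower shift matrix: `N e_j = e_{j+1}`. -/
def Nm (F : Type*) [Field F] (n : ℕ) : Matrix (Fin n) (Fin n) F :=
  Matrix.of fun i j => if (i : ℕ) = j + 1 then 1 else 0

theorem Nm_mul_apply (g : Matrix (Fin n) (Fin n) F) (i j : Fin n) :
    (Nm F n * g) i j = if h : 0 < (i : ℕ) then g ⟨i - 1, by omega⟩ j else 0 := by
  simp only [Matrix.mul_apply, Nm, Matrix.of_apply]
  split_ifs with h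
  · rw [Finset.sum_eq_single ⟨i - 1, by omega⟩]
    · rw [if_pos (by simp; omega), one_mul]
    · intro b _ hb
      rw [if_neg (fun h' => hb (Fin.ext (by simp; omega))), zero_mul]
    · intro h'
      exact absurd (Finset.mem_univ _) h'
  · apply Finset.sum_eq_zero
    intro b _
    rw [if_neg (by omega), zero_mul]

theorem mul_Nm_apply (g : Matrix (Fin n) (Fin n) F) (i j : Fin n) :
    (g * Nm F n) i j = if h : (j : ℕ) + 1 < n then g i ⟨j + 1, h⟩ else 0 := by
  simp only [Matrix.mul_apply, Nm, Matrix.of_apply]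
  split_ifs with h
  · rw [Finset.sum_eq_single ⟨j + 1, h⟩]
    · rw [if_pos rfl, mul_one]
    · intro b _ hb
      rw [if_neg (fun h' => hb (Fin.ext h')), mul_zero]
    · intro h'
      exact absurd (Finset.mem_univ _) h'
  · apply Finset.sum_eq_zero
    intro b _
    rw [if_neg (by have := b.2; omega), mul_zero]

theorem Nm_mulVec (x : Fin n → F) (i : Fin n) :
    (Nm F n *ᵥ x) i = if h : 0 < (i : ℕ) then x ⟨i - 1, by omega⟩ else 0 := by
  simp only [Matrix.mulVec, dotProduct, Nm, Matrix.of_apply]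
  split_ifs with h
  · rw [Finset.sum_eq_single ⟨i - 1, by omega⟩]
    · rw [if_pos (by simp; omega), one_mul]
    · intro b _ hb
      rw [if_neg (fun h' => hb (Fin.ext (by simp; omega))), zero_mul]
    · intro h'
      exact absurd (Finset.mem_univ _) h'
  · apply Finset.sum_eq_zero
    intro b _
    rw [if_neg (by omega), zero_mul]

theorem Nm_pow_mulVec (k : ℕ) (x : Fin n → F) (i : Fin n) :
    ((Nm F n ^ k) *ᵥ x) i = if h : k ≤ (i : ℕ) then x ⟨i - k, by omega⟩ else 0 := by
  induction k generalizing i with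
  | zero => simp
  | succ k ih =>
    rw [pow_succ', ← Matrix.mulVec_mulVec, Nm_mulVec]
    by_cases h : 0 < (i : ℕ)
    · rw [dif_pos h, ih]
      by_cases h1 : k + 1 ≤ (i : ℕ)
      · rw [dif_pos h1, dif_pos (by simp; omega)]
        congr 1
        apply Fin.ext
        simp
        omega
      · rw [dif_neg h1, dif_neg (by simp; omega)]
    · rw [dif_neg h, dif_neg (by omega)]

theorem Nm_pow_n : Nm F n ^ n = 0 := by
  apply mat_ext
  intro x
  funext i
  rw [Nm_pow_mulVec, dif_neg (by omega), Matrix.zero_mulVec]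
  rfl

theorem det_one_add_Nm : (1 + Nm F n).det = 1 := by
  rw [Matrix.det_of_isLowerTriangular]
  · apply Finset.prod_eq_one
    intro i _
    simp [Nm]
  · intro i j hij
    have hij' : i < j := hij
    have h1 : (i : ℕ) < j := hij'
    simp only [Matrix.add_apply, Nm, Matrix.of_apply]
    rw [Matrix.one_apply_ne (ne_of_lt hij'), if_neg (by omega), add_zero]

theorem Nm_rank (hn : 1 ≤ n) : (Nm F n).rank = n - 1 := by
  classical
  have h := LinearMap.finrank_range_add_finrank_ker (Nm F n).mulVecLin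
  rw [Module.finrank_fintype_fun_eq_card, Fintype.card_fin] at h
  have hk1 : Module.finrank F (LinearMap.ker (Nm F n).mulVecLin) ≤ 1 := by
    let φ : LinearMap.ker (Nm F n).mulVecLin →ₗ[F] F :=
      (LinearMap.proj (⟨n - 1, by omega⟩ : Fin n)) ∘ₗ (LinearMap.ker (Nm F n).mulVecLin).subtype
    have hφ : Function.Injective φ := by
      rw [← LinearMap.ker_eq_bot, LinearMap.ker_eq_bot']
      intro x hx
      have hx1 : (x : Fin n → F) ⟨n - 1, by omega⟩ = 0 := hx
      have hx2 : Nm F n *ᵥ (x : Fin n → F) = 0 := LinearMap.mem_ker.mp x.2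
      apply Subtype.ext
      funext i
      by_cases hi : (i : ℕ) + 1 < n
      · have h3 := congrFun hx2 ⟨i + 1, hi⟩
        rw [Nm_mulVec, dif_pos (by simp)] at h3
        exact h3
      · have hi' : i = ⟨n - 1, by omega⟩ := Fin.ext (by have := i.2; simp; omega)
        rw [hi']
        exact hx1
    have := LinearMap.finrank_le_finrank_of_injective hφ
    rwa [Module.finrank_self] at this
  have hk2 : 0 < Module.finrank F (LinearMap.ker (Nm F n).mulVecLin) := by
    rw [Module.finrank_pos_iff_exists_ne_zero]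
    refine ⟨⟨Pi.single ⟨n - 1, by omega⟩ 1, ?_⟩, ?_⟩
    · rw [LinearMap.mem_ker]
      show Nm F n *ᵥ _ = 0
      funext i
      rw [Nm_mulVec]
      by_cases h0 : 0 < (i : ℕ)
      · rw [dif_pos h0, Pi.single_eq_of_ne (fun h' => by
          have := congrArg Fin.val h'
          simp at this
          have := i.2
          omega)]
        rfl
      · rw [dif_neg h0]
        rfl
    · intro h0
      have := congrArg (fun z : LinearMap.ker (Nm F n).mulVecLin =>
        (z : Fin n → F) ⟨n - 1, by omega⟩) h0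
      simp at this
  show Module.finrank F (LinearMap.range (Nm F n).mulVecLin) = n - 1
  omega

theorem comm_det (hn : 1 ≤ n) (g : Matrix (Fin n) (Fin n) F) (hg : g * Nm F n = Nm F n * g) :
    g.det = g ⟨0, hn⟩ ⟨0, hn⟩ ^ n := by
  have R1 : ∀ (i j : ℕ) (hi : i + 1 < n) (hj : j + 1 < n),
      g ⟨i + 1, hi⟩ ⟨j + 1, hj⟩ = g ⟨i, by omega⟩ ⟨j, by omega⟩ := by
    intro i j hi hj
    have h1 := congrFun (congrFun hg ⟨i + 1, hi⟩) ⟨j, by omega⟩
    rw [mul_Nm_apply, Nm_mul_apply, dif_pos hj, dif_pos (by simp)] at h1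
    rw [h1]
    congr 1
  have R2 : ∀ (j : ℕ) (hj : j + 1 < n), g ⟨0, hn⟩ ⟨j + 1, hj⟩ = 0 := by
    intro j hj
    have h1 := congrFun (congrFun hg ⟨0, hn⟩) ⟨j, by omega⟩
    rw [mul_Nm_apply, Nm_mul_apply, dif_pos hj, dif_neg (by simp)] at h1
    exact h1
  have hlow : ∀ (i j : ℕ) (hi : i < n) (hj : j < n), i < j → g ⟨i, hi⟩ ⟨j, hj⟩ = 0 := by
    intro i
    induction i with
    | zero =>
      intro j hi hj hij
      obtain ⟨j', rfl⟩ : ∃ j', j = j' + 1 := ⟨j - 1, by omega⟩
      exact R2 j' hj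
    | succ i ih =>
      intro j hi hj hij
      obtain ⟨j', rfl⟩ : ∃ j', j = j' + 1 := ⟨j - 1, by omega⟩
      rw [R1 i j' hi hj]
      exact ih j' (by omega) (by omega) (by omega)
  have hdiag : ∀ (i : ℕ) (hi : i < n), g ⟨i, hi⟩ ⟨i, hi⟩ = g ⟨0, hn⟩ ⟨0, hn⟩ := by
    intro i
    induction i with
    | zero => intro hi; rfl
    | succ i ih =>
      intro hi
      rw [R1 i i hi hi]
      exact ih (by omega)
  rw [Matrix.det_of_isLowerTriangular]
  · rw [Finset.prod_eq_pow_card (b := g ⟨0, hn⟩ ⟨0, hn⟩)]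
    · simp
    · intro i _
      exact hdiag i i.2
  · intro i j hij
    have hij' : i < j := hij
    exact hlow i j i.2 j.2 hij'

end shift

section cyc
variable {F : Type*} [Field F] {n : ℕ}

theorem exists_cyclic (hn : 1 ≤ n) (M : Matrix (Fin n) (Fin n) F) (hr : M.rank = n - 1) :
    ∃ v, (M ^ (n - 1)) *ᵥ v ≠ 0 := by
  have h := LinearMap.finrank_range_add_finrank_ker M.mulVecLin
  rw [Module.finrank_fintype_fun_eq_card, Fintype.card_fin] at h
  have hr' : Module.finrank F (LinearMap.range M.mulVecLin) = n - 1 := hr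
  have hker : Module.finrank F (LinearMap.ker M.mulVecLin) = 1 := by omega
  have claim : ∀ i, i ≤ n → n - i ≤ Module.finrank F (LinearMap.range (M ^ i).mulVecLin) := by
    intro i
    induction i with
    | zero =>
      intro _
      rw [pow_zero, Matrix.mulVecLin_one, LinearMap.range_id, finrank_top,
        Module.finrank_fintype_fun_eq_card, Fintype.card_fin]
      omega
    | succ i ih =>
      intro hi
      have h1 := rank_comp_ge M.mulVecLin (M ^ i).mulVecLin
      rw [← Matrix.mulVecLin_mul, ← pow_succ', hker] at h1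
      have h2 := ih (by omega)
      omega
  have h1 := claim (n - 1) (by omega)
  by_contra hcon
  push Not at hcon
  have h0 : (M ^ (n - 1)).mulVecLin = 0 := by
    apply LinearMap.ext
    intro v
    exact hcon v
  rw [h0, LinearMap.range_zero, finrank_bot] at h1
  omega

theorem cyclic_li (M : Matrix (Fin n) (Fin n) F) (hM : M ^ n = 0) (v : Fin n → F)
    (hv : (M ^ (n - 1)) *ᵥ v ≠ 0) :
    LinearIndependent F (fun i : Fin n => (M ^ (i : ℕ)) *ᵥ v) := by
  classical
  rw [Fintype.linearIndependent_iff]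
  intro c hc
  by_contra hne
  push Not at hne
  obtain ⟨i1, hi1⟩ := hne
  have hP : ∃ k, ∃ h : k < n, c ⟨k, h⟩ ≠ 0 := ⟨i1, i1.2, hi1⟩
  obtain ⟨h0, hc0⟩ := Nat.find_spec hP
  have hmin := fun k (hk : k < Nat.find hP) => Nat.find_min hP hk
  set i0 := Nat.find hP with hi0
  have h1 := congrArg (fun w => (M ^ (n - 1 - i0)) *ᵥ w) hc
  simp only [Matrix.mulVec_sum, Matrix.mulVec_smul, Matrix.mulVec_mulVec, ← pow_add,
    Matrix.mulVec_zero] at h1
  rw [Finset.sum_eq_single ⟨i0, h0⟩] at h1
  · have h2 : n - 1 - i0 + i0 = n - 1 := by omega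
    simp only [h2] at h1
    rcases smul_eq_zero.mp h1 with h3 | h3
    · exact hc0 h3
    · exact hv h3
  · intro b _ hb
    by_cases hlt : (b : ℕ) < i0
    · have h3 := hmin b hlt
      push Not at h3
      rw [h3 b.2, zero_smul]
    · have hgt : i0 < (b : ℕ) := by
        have : (b : ℕ) ≠ i0 := fun h' => hb (Fin.ext h')
        omega
      rw [pow_eq_zero_of_le (show n ≤ n - 1 - i0 + b by omega) hM, Matrix.zero_mulVec, smul_zero]
  · intro h'
    exact absurd (Finset.mem_univ _) h'

theorem conj_shift (hn : 1 ≤ n) (M : Matrix (Fin n) (Fin n) F) (hM : M ^ n = 0)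
    (hr : M.rank = n - 1) :
    ∃ G : Matrix (Fin n) (Fin n) F, IsUnit G.det ∧ M * G = G * Nm F n := by
  obtain ⟨v, hv⟩ := exists_cyclic hn M hr
  have hli := cyclic_li M hM v hv
  set G : Matrix (Fin n) (Fin n) F :=
    Matrix.of (fun (r j : Fin n) => ((M ^ (j : ℕ)) *ᵥ v) r) with hG
  have hGcol : ∀ j : Fin n, (fun r => G r j) = (M ^ (j : ℕ)) *ᵥ v := fun j => rfl
  refine ⟨G, ?_, ?_⟩
  · rw [← Matrix.isUnit_iff_isUnit_det, ← Matrix.linearIndependent_cols_iff_isUnit]
    exact hli
  · ext r j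
    rw [mul_Nm_apply]
    have h1 : (M * G) r j = (M *ᵥ (fun r => G r j)) r := rfl
    rw [h1, hGcol, Matrix.mulVec_mulVec, ← pow_succ']
    by_cases hj : (j : ℕ) + 1 < n
    · rw [dif_pos hj]
      exact (congrFun (hGcol ⟨j + 1, hj⟩) r).symm
    · rw [dif_neg hj]
      have hjn : (j : ℕ) + 1 = n := by have := j.2; omega
      rw [hjn, hM, Matrix.zero_mulVec]
      rfl

theorem reg_of_conj (hn : 1 ≤ n) (M G : Matrix (Fin n) (Fin n) F) (hG : IsUnit G.det)
    (h : M * G = G * Nm F n) : M ^ n = 0 ∧ M.rank = n - 1 := by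
  have hpow : ∀ k : ℕ, M ^ k * G = G * Nm F n ^ k := by
    intro k
    induction k with
    | zero => simp
    | succ k ih => rw [pow_succ, Matrix.mul_assoc, h, ← Matrix.mul_assoc, ih, Matrix.mul_assoc,
        ← pow_succ]
  constructor
  · have h1 := hpow n
    rw [Nm_pow_n, Matrix.mul_zero] at h1
    have h2 : M ^ n = M ^ n * G * G⁻¹ := by
      rw [Matrix.mul_assoc, Matrix.mul_nonsing_inv G hG, Matrix.mul_one]
    rw [h2, h1, Matrix.zero_mul]
  · rw [← Matrix.rank_mul_eq_left_of_isUnit_det G M hG, h,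
      Matrix.rank_mul_eq_right_of_isUnit_det G _ hG, Nm_rank hn]

end cyc

section count
variable {F : Type*} [Field F] {n : ℕ}

def Dm (n : ℕ) (d : F) : Matrix (Fin n) (Fin n) F :=
  Matrix.diagonal (fun i => if (i : ℕ) = 0 then d else 1)

theorem Dm_mul (d e : F) : Dm n d * Dm n e = Dm n (d * e) := by
  unfold Dm
  rw [Matrix.diagonal_mul_diagonal]
  congr 1
  funext i
  split_ifs <;> simp

theorem Dm_one : Dm n (1 : F) = 1 := by
  unfold Dm
  rw [← Matrix.diagonal_one]
  congr 1
  funext i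
  split_ifs <;> rfl

theorem det_Dm (hn : 1 ≤ n) (d : F) : (Dm n d).det = d := by
  unfold Dm
  rw [Matrix.det_diagonal, Finset.prod_eq_single ⟨0, hn⟩]
  · simp
  · intro b _ hb
    rw [if_neg (fun h => hb (Fin.ext h))]
  · intro h
    exact absurd (Finset.mem_univ _) h

theorem conj_iff (a b : Matrix.SpecialLinearGroup (Fin n) F) :
    IsConj a b ↔ ∃ s : Matrix (Fin n) (Fin n) F, s.det = 1 ∧
      s * (a : Matrix (Fin n) (Fin n) F) = (b : Matrix (Fin n) (Fin n) F) * s := by
  rw [isConj_iff]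
  constructor
  · rintro ⟨c, hc⟩
    refine ⟨c, c.2, ?_⟩
    have h1 : c * a = b * c := by
      rw [← hc]
      group
    have := congrArg (fun x : Matrix.SpecialLinearGroup (Fin n) F =>
      (x : Matrix (Fin n) (Fin n) F)) h1
    simpa using this
  · rintro ⟨s, hs, h⟩
    obtain ⟨c, hc⟩ : ∃ c : Matrix.SpecialLinearGroup (Fin n) F,
        (c : Matrix (Fin n) (Fin n) F) = s := ⟨⟨s, hs⟩, rfl⟩
    refine ⟨c, ?_⟩
    rw [mul_inv_eq_iff_eq_mul]
    apply Subtype.ext
    rw [← hc] at h
    simpa using h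

theorem m1 {R : Type*} [Monoid R] (G D' D X u : R) (hD : D' * D = 1) (h : u * G = G * X) :
    (G * D') * (D * X * D') = u * (G * D') := by
  calc (G * D') * (D * X * D') = G * (D' * D) * X * D' := by simp only [mul_assoc]
    _ = G * X * D' := by rw [hD, mul_one]
    _ = u * (G * D') := by rw [← h, mul_assoc]

theorem m2 {R : Type*} [Monoid R] (E E' D D' X s : R) (hE : E' * E = 1) (hD : D' * D = 1)
    (h : s * (D * X * D') = (E * X * E') * s) : (E' * s * D) * X = X * (E' * s * D) := by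
  calc (E' * s * D) * X = E' * (s * (D * X * D')) * D := by
        simp only [mul_assoc]
        rw [hD, mul_one]
    _ = E' * ((E * X * E') * s) * D := by rw [h]
    _ = (E' * E) * X * (E' * s * D) := by simp only [mul_assoc]
    _ = X * (E' * s * D) := by rw [hE, one_mul]

theorem m3 {R : Type*} [Monoid R] (E E' D D' X : R) (hE : E' * E = 1) (hD : D' * D = 1) :
    (E * D') * (D * X * D') = (E * X * E') * (E * D') := by
  calc (E * D') * (D * X * D') = E * (D' * D) * X * D' := by simp only [mul_assoc]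
    _ = E * X * D' := by rw [hD, mul_one]
    _ = E * X * (E' * E) * D' := by rw [hE, mul_one]
    _ = (E * X * E') * (E * D') := by simp only [mul_assoc]

end count


/-- Regular unipotent classes of SL_n(q): for n ≥ 2 over the field with q elements, the matrices u of determinant one with (u − 1)^n = 0 and rank(u − 1) = n − 1 form a single GL_n(q)-class which splits into exactly gcd(n, q − 1) conjugacy classes of SL_n(q). -/
theorem result {F : Type*} [Field F] [Fintype F] {q : ℕ} (hF : Fintype.card F = q) {n : ℕ} (hn : 2 ≤ n) : Nat.card {C : ConjClasses (Matrix.SpecialLinearGroup (Fin n) F) // ∃ u : Matrix.SpecialLinearGroup (Fin n) F, ConjClasses.mk u = C ∧ ((u : Matrix (Fin n) (Fin n) F) - 1) ^ n = 0 ∧ ((u : Matrix (Fin n) (Fin n) F) - 1).rank = n - 1} = Nat.gcd n (q - 1) := by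
  classical
  have hn1 : 1 ≤ n := by omega
  have hDD : ∀ d : Fˣ, Dm n (d : F) * Dm n ((d⁻¹ : Fˣ) : F) = 1 := by
    intro d
    rw [Dm_mul, ← Units.val_mul, mul_inv_cancel, Units.val_one, Dm_one]
  have hDD' : ∀ d : Fˣ, Dm n ((d⁻¹ : Fˣ) : F) * Dm n (d : F) = 1 := by
    intro d
    rw [Dm_mul, ← Units.val_mul, inv_mul_cancel, Units.val_one, Dm_one]
  have hJdet : ∀ d : Fˣ, (Dm n (d : F) * (1 + Nm F n) * Dm n ((d⁻¹ : Fˣ) : F)).det = 1 := by
    intro d
    rw [Matrix.det_mul, Matrix.det_mul, det_Dm hn1, det_Dm hn1, det_one_add_Nm, mul_one,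
      ← Units.val_mul, mul_inv_cancel, Units.val_one]
  set J : Fˣ → Matrix.SpecialLinearGroup (Fin n) F :=
    fun d => ⟨Dm n (d : F) * (1 + Nm F n) * Dm n ((d⁻¹ : Fˣ) : F), hJdet d⟩ with hJ
  have hJc : ∀ d, ((J d : Matrix.SpecialLinearGroup (Fin n) F) : Matrix (Fin n) (Fin n) F)
      = Dm n (d : F) * (1 + Nm F n) * Dm n ((d⁻¹ : Fˣ) : F) := fun d => rfl
  have hJD : ∀ d, ((J d : Matrix.SpecialLinearGroup (Fin n) F) : Matrix (Fin n) (Fin n) F)
      * Dm n (d : F) = Dm n (d : F) * (1 + Nm F n) := by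
    intro d
    rw [hJc, Matrix.mul_assoc, hDD', Matrix.mul_one]
  have hJreg : ∀ d, ((J d : Matrix (Fin n) (Fin n) F) - 1) ^ n = 0
      ∧ ((J d : Matrix (Fin n) (Fin n) F) - 1).rank = n - 1 := by
    intro d
    apply reg_of_conj hn1 _ (Dm n (d : F))
    · rw [det_Dm hn1]
      exact d.isUnit
    · rw [sub_mul, hJD, one_mul, mul_add, mul_one, add_sub_cancel_left]
  let Ψ : Fˣ → {C : ConjClasses (Matrix.SpecialLinearGroup (Fin n) F) //
      ∃ u : Matrix.SpecialLinearGroup (Fin n) F, ConjClasses.mk u = C ∧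
        ((u : Matrix (Fin n) (Fin n) F) - 1) ^ n = 0 ∧
        ((u : Matrix (Fin n) (Fin n) F) - 1).rank = n - 1} :=
    fun d => ⟨ConjClasses.mk (J d), J d, rfl, hJreg d⟩
  have hsurj : Function.Surjective Ψ := by
    rintro ⟨C, u, rfl, hu1, hu2⟩
    obtain ⟨G, hG, hGN⟩ := conj_shift hn1 _ hu1 hu2
    have huG : (u : Matrix (Fin n) (Fin n) F) * G = G * (1 + Nm F n) := by
      rw [mul_add, mul_one, ← hGN, sub_mul, one_mul]
      abel
    refine ⟨hG.unit, ?_⟩
    apply Subtype.ext
    show ConjClasses.mk (J hG.unit) = ConjClasses.mk u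
    rw [ConjClasses.mk_eq_mk_iff_isConj, conj_iff]
    refine ⟨G * Dm n ((hG.unit⁻¹ : Fˣ) : F), ?_, ?_⟩
    · rw [Matrix.det_mul, det_Dm hn1]
      have h1 : G.det * ((hG.unit⁻¹ : Fˣ) : F)
          = (hG.unit : F) * ((hG.unit⁻¹ : Fˣ) : F) := rfl
      rw [h1, ← Units.val_mul, mul_inv_cancel, Units.val_one]
    · rw [hJc]
      exact m1 G _ _ _ _ (hDD' hG.unit) huG
  have hker : ∀ d d' : Fˣ, Ψ d = Ψ d' ↔ d⁻¹ * d' ∈ (powMonoidHom n : Fˣ →* Fˣ).range := by
    intro d d'
    constructor
    · intro h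
      have h1 : ConjClasses.mk (J d) = ConjClasses.mk (J d') := congrArg Subtype.val h
      rw [ConjClasses.mk_eq_mk_iff_isConj, conj_iff] at h1
      obtain ⟨s, hs, hsJ⟩ := h1
      rw [hJc, hJc] at hsJ
      have hcJ := m2 _ _ _ _ _ s (hDD' d') (hDD' d) hsJ
      set c := Dm n ((d'⁻¹ : Fˣ) : F) * s * Dm n (d : F) with hc
      have hcN : c * Nm F n = Nm F n * c := by
        rw [mul_add, add_mul, mul_one, one_mul] at hcJ
        exact add_left_cancel hcJ
      have hdet := comm_det hn1 c hcN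
      have hdetc : c.det = ((d'⁻¹ * d : Fˣ) : F) := by
        rw [hc, Matrix.det_mul, Matrix.det_mul, det_Dm hn1, det_Dm hn1, hs, mul_one,
          Units.val_mul]
      rw [hdetc] at hdet
      have ha : c ⟨0, hn1⟩ ⟨0, hn1⟩ ≠ 0 := by
        intro h0
        rw [h0, zero_pow (by omega)] at hdet
        exact (d'⁻¹ * d).ne_zero hdet
      refine ⟨(Units.mk0 _ ha)⁻¹, ?_⟩
      have h3 : (Units.mk0 _ ha) ^ n = d'⁻¹ * d := Units.ext (by simpa using hdet.symm)
      show ((Units.mk0 _ ha)⁻¹) ^ n = d⁻¹ * d'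
      rw [inv_pow, h3, _root_.mul_inv_rev, inv_inv]
    · rintro ⟨a, ha⟩
      have ha' : a ^ n = d⁻¹ * d' := ha
      apply Subtype.ext
      show ConjClasses.mk (J d) = ConjClasses.mk (J d')
      rw [ConjClasses.mk_eq_mk_iff_isConj, conj_iff]
      refine ⟨((a⁻¹ : Fˣ) : F) • (Dm n (d' : F) * Dm n ((d⁻¹ : Fˣ) : F)), ?_, ?_⟩
      · rw [Matrix.det_smul, Matrix.det_mul, det_Dm hn1, det_Dm hn1, Fintype.card_fin]
        have h4 : ((a⁻¹ : Fˣ) : F) ^ n * ((d' : F) * ((d⁻¹ : Fˣ) : F))
            = (((a ^ n)⁻¹ * (d' * d⁻¹) : Fˣ) : F) := by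
          rw [Units.val_mul, Units.val_mul, ← inv_pow, Units.val_pow_eq_pow_val]
        rw [h4, ha', mul_comm d' d⁻¹, inv_mul_cancel, Units.val_one]
      · rw [hJc, hJc, Matrix.smul_mul, Matrix.mul_smul]
        congr 1
        exact m3 _ _ _ _ _ (hDD' d') (hDD' d)
  let H : Subgroup Fˣ := (powMonoidHom n : Fˣ →* Fˣ).range
  let Φ : Fˣ ⧸ H → {C : ConjClasses (Matrix.SpecialLinearGroup (Fin n) F) //
      ∃ u : Matrix.SpecialLinearGroup (Fin n) F, ConjClasses.mk u = C ∧
        ((u : Matrix (Fin n) (Fin n) F) - 1) ^ n = 0 ∧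
        ((u : Matrix (Fin n) (Fin n) F) - 1).rank = n - 1} :=
    Quotient.lift Ψ (fun a b hab => (hker a b).mpr (QuotientGroup.leftRel_apply.mp hab))
  have hΦ : Function.Bijective Φ := by
    constructor
    · intro x y
      induction x using Quotient.inductionOn with
      | h a =>
        induction y using Quotient.inductionOn with
        | h b =>
          intro hxy
          apply Quotient.sound
          exact QuotientGroup.leftRel_apply.mpr ((hker a b).mp hxy)
    · intro y
      obtain ⟨d, hd⟩ := hsurj y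
      exact ⟨Quotient.mk _ d, hd⟩
  rw [← Nat.card_congr (Equiv.ofBijective Φ hΦ)]
  have h5 : Nat.card (Fˣ ⧸ H) = H.index := rfl
  rw [h5, IsCyclic.index_powMonoidHom_range, Nat.card_eq_fintype_card, Fintype.card_units, hF,
    Nat.gcd_comm]


end Cfsg.Agent.S2578
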