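import Mathlib
import Cfsg.Statements.S2580

set_option autoImplicit false
open Cfsg Polynomial Matrix

namespace Cfsg.Agent.S2580

section tau
variable {F : Type*} [Field F]

/-- coefficient of `X^(d-1)` of the remainder mod `q` -/
noncomputable def tauPoly (q : F[X]) (f : F[X]) : F := (f % q).coeff (q.natDegree - 1)

theorem tauPoly_add (q f g : F[X]) : tauPoly q (f + g) = tauPoly q f + tauPoly q g := by
  unfold tauPoly; rw [Polynomial.add_mod, coeff_add]

theorem tauPoly_C_mul (q : F[X]) (c : F) (f : F[X]) :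
    tauPoly q (C c * f) = c * tauPoly q f := by
  unfold tauPoly
  simp only [Polynomial.mod_def]
  rw [← smul_eq_C_mul, smul_modByMonic, coeff_smul, smul_eq_mul]

theorem tauPoly_congr (q f g : F[X]) (h : q ∣ f - g) : tauPoly q f = tauPoly q g := by
  unfold tauPoly
  have : (f - g) % q = 0 := EuclideanDomain.mod_eq_zero.mpr h
  rw [Polynomial.sub_mod, sub_eq_zero] at this
  rw [this]

theorem exists_tau (q : F[X]) (hq : q ≠ 0) :
    ∃ τ : (F[X] ⧸ Ideal.span {q}) → F, (∀ x y, τ (x + y) = τ x + τ y) ∧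
      (∀ c x, τ (Ideal.Quotient.mk _ (C c) * x) = c * τ x) ∧
      ∀ x, x ≠ 0 → ∃ y, τ (x * y) ≠ 0 := by
  classical
  have hsurj := Ideal.Quotient.mk_surjective (I := Ideal.span {q})
  let τ : (F[X] ⧸ Ideal.span {q}) → F := fun x => tauPoly q (Classical.choose (hsurj x))
  have hτ : ∀ f, τ (Ideal.Quotient.mk _ f) = tauPoly q f := by
    intro f
    apply tauPoly_congr
    have := Classical.choose_spec (hsurj (Ideal.Quotient.mk _ f))
    rw [← Ideal.mem_span_singleton, ← Ideal.Quotient.eq]
    exact this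
  refine ⟨τ, ?_, ?_, ?_⟩
  · intro x y
    obtain ⟨f, rfl⟩ := hsurj x
    obtain ⟨g, rfl⟩ := hsurj y
    rw [← map_add, hτ, hτ, hτ, tauPoly_add]
  · intro c x
    obtain ⟨f, rfl⟩ := hsurj x
    rw [← map_mul, hτ, hτ, tauPoly_C_mul]
  · intro x hx
    obtain ⟨f, rfl⟩ := hsurj x
    obtain ⟨r, hr⟩ : ∃ r, r = f % q := ⟨_, rfl⟩
    have hr0 : r ≠ 0 := by
      intro h0
      apply hx
      rw [Ideal.Quotient.eq_zero_iff_mem, Ideal.mem_span_singleton]
      rw [hr] at h0
      exact EuclideanDomain.mod_eq_zero.mp h0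
    have hfr : Ideal.Quotient.mk (Ideal.span {q}) f = Ideal.Quotient.mk _ r := by
      rw [Ideal.Quotient.eq, Ideal.mem_span_singleton]
      refine ⟨f / q, ?_⟩
      have := EuclideanDomain.mod_add_div f q
      rw [hr]
      linear_combination (-1 : F[X]) * this
    have hdeg : r.degree < q.degree := by rw [hr]; exact Polynomial.degree_mod_lt f hq
    have hnd : r.natDegree < q.natDegree := Polynomial.natDegree_lt_natDegree hr0 hdeg
    obtain ⟨m, hm⟩ : ∃ m, m = q.natDegree - 1 - r.natDegree := ⟨_, rfl⟩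
    have hdm : q.natDegree - 1 = r.natDegree + m := by omega
    refine ⟨Ideal.Quotient.mk _ (X ^ m), ?_⟩
    rw [hfr, ← map_mul, hτ]
    unfold tauPoly
    have hd2 : (r * X ^ m).degree < q.degree := by
      rw [degree_mul, degree_X_pow, Polynomial.degree_eq_natDegree hr0,
        Polynomial.degree_eq_natDegree hq]
      norm_cast
      omega
    rw [(Polynomial.mod_eq_self_iff hq).mpr hd2, hdm, coeff_mul_X_pow]
    exact Polynomial.leadingCoeff_ne_zero.mpr hr0

end tau

theorem exists_form {F : Type*} [Field F] {n : ℕ} (A : Matrix (Fin n) (Fin n) F) :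
    ∃ b : (Fin n → F) → (Fin n → F) → F, (∀ u v, b u v = b v u) ∧
      (∀ u u' v, b (u + u') v = b u v + b u' v) ∧ (∀ (c : F) u v, b (c • u) v = c * b u v) ∧
      (∀ u v, b (A.mulVec u) v = b u (A.mulVec v)) ∧ (∀ u, (∀ v, b u v = 0) → u = 0) := by
  classical
  let φ : Module.End F (Fin n → F) := Matrix.toLin' A
  have htors : Module.IsTorsion F[X] (Module.AEval' φ) :=
    Module.AEval.isTorsion_of_finiteDimensional F (Fin n → F) φ
  obtain ⟨ι, _, p, hp, e, ⟨E⟩⟩ := Module.equiv_directSum_of_isTorsion htors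
  have hq : ∀ i, p i ^ e i ≠ 0 := fun i => pow_ne_zero _ (hp i).ne_zero
  choose τ hτadd hτC hτnd using fun i => exists_tau (p i ^ e i) (hq i)
  have hτ0 : ∀ i, τ i 0 = 0 := by
    intro i
    have := hτadd i 0 0
    rw [add_zero] at this
    exact left_eq_add.mp this
  let ψ : (Fin n → F) → DirectSum ι (fun i => F[X] ⧸ F[X] ∙ (p i ^ e i)) :=
    fun u => E (Module.AEval'.of φ u)
  have hψadd : ∀ u v, ψ (u + v) = ψ u + ψ v := fun u v => by simp [ψ]
  have hψsmul : ∀ (c : F) u, ψ (c • u) = (C c : F[X]) • ψ u := by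
    intro c u
    simp only [ψ]
    rw [map_smul, ← Module.AEval.C_smul, map_smul]
  have hψA : ∀ u, ψ (A.mulVec u) = (X : F[X]) • ψ u := by
    intro u
    simp only [ψ]
    rw [← map_smul, Module.AEval'.X_smul_of]
    rfl
  have hsm : ∀ i (f : F[X]) (y : F[X] ⧸ F[X] ∙ (p i ^ e i)),
      f • y = Ideal.Quotient.mk _ f * y := by
    intro i f y
    obtain ⟨g, rfl⟩ := Ideal.Quotient.mk_surjective y
    rfl
  refine ⟨fun u v => ∑ i, τ i (ψ u i * ψ v i), ?_, ?_, ?_, ?_, ?_⟩
  · intro u v
    exact Finset.sum_congr rfl fun i _ => by rw [mul_comm]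
  · intro u u' v
    simp only [hψadd, DirectSum.add_apply, add_mul, hτadd, Finset.sum_add_distrib]
  · intro c u v
    simp only [hψsmul, DirectSum.smul_apply, hsm, mul_assoc, hτC, Finset.mul_sum]
  · intro u v
    simp only [hψA, DirectSum.smul_apply, hsm]
    refine Finset.sum_congr rfl fun i _ => ?_
    congr 1
    ring
  · intro u hu
    by_contra hne
    have hψu : ψ u ≠ 0 := by
      intro h0
      apply hne
      have : Module.AEval'.of φ u = 0 := by
        apply E.injective
        rw [map_zero]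
        exact h0
      simpa using this
    obtain ⟨i, hi⟩ : ∃ i, ψ u i ≠ 0 := by
      by_contra hcon
      push Not at hcon
      exact hψu (DFinsupp.ext hcon)
    obtain ⟨y, hy⟩ := hτnd i _ hi
    let v : Fin n → F := (Module.AEval'.of φ).symm (E.symm (DirectSum.of _ i y))
    have hv : ψ v = DirectSum.of _ i y := by simp [ψ, v]
    have := hu v
    simp only [hv] at this
    rw [Finset.sum_eq_single i] at this
    · rw [DirectSum.of_eq_same] at this
      exact hy this
    · intro j _ hji
      rw [DirectSum.of_eq_of_ne _ _ _ hji, mul_zero, hτ0]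
    · simp

theorem conj_transpose {F : Type*} [Field F] {n : ℕ} (A : Matrix (Fin n) (Fin n) F) :
    IsConj A A.transpose := by
  classical
  obtain ⟨b, bsymm, badd, bsmul, bA, bnd⟩ := exists_form A
  let B : LinearMap.BilinForm F (Fin n → F) :=
    LinearMap.mk₂ F b badd (fun c u v => by rw [bsmul, smul_eq_mul])
      (fun u v v' => by rw [bsymm, badd, bsymm v, bsymm v'])
      (fun c u v => by rw [bsymm, bsmul, bsymm, smul_eq_mul])
  let S : Matrix (Fin n) (Fin n) F := LinearMap.BilinForm.toMatrix' B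
  have hS : ∀ u v, b u v = u ⬝ᵥ S *ᵥ v := by
    intro u v
    rw [← Matrix.toBilin'_apply', Matrix.toBilin'_toMatrix']
    rfl
  have hdet : S.det ≠ 0 := by
    rw [← Matrix.separatingLeft_iff_det_ne_zero, Matrix.separatingLeft_def]
    intro u hu
    exact bnd u fun v => by rw [hS]; exact hu v
  have hSA : S * A = A.transpose * S := by
    apply Matrix.toBilin'.injective
    refine LinearMap.ext fun u => LinearMap.ext fun v => ?_
    rw [Matrix.toBilin'_apply', Matrix.toBilin'_apply', ← Matrix.mulVec_mulVec,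
      ← Matrix.mulVec_mulVec, ← hS, ← bA, hS, Matrix.dotProduct_mulVec u A.transpose,
      Matrix.vecMul_transpose]
  have hunit : IsUnit S := (Matrix.isUnit_iff_isUnit_det S).mpr (Ne.isUnit hdet)
  exact ⟨hunit.unit, hSA⟩

theorem result {F : Type*} [Field F] [Finite F] {n : ℕ} (A : Matrix (Fin n) (Fin n) F) : IsConj A A.transpose :=
  conj_transpose A

end Cfsg.Agent.S2580
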