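import Mathlib
import Cfsg.Statements.S2586
import Cfsg.Agent.S2580

set_option autoImplicit false
open Cfsg Matrix

namespace Cfsg.Agent.S2586

theorem conj_transpose' {F : Type*} [Field F] {ι : Type*} [Fintype ι] [DecidableEq ι]
    (A : Matrix ι ι F) : IsConj A A.transpose := by
  let e := Fintype.equivFin ι
  have h := Cfsg.Agent.S2580.conj_transpose (Matrix.reindex e e A)
  have h2 := (Matrix.reindexAlgEquiv F F e.symm).toMonoidHom.map_isConj h
  simpa using h2

theorem result {F : Type*} [Field F] [Finite F] {m : ℕ} (A : Matrix.symplecticGroup (Fin m) F) : IsConj (A : Matrix (Fin m ⊕ Fin m) (Fin m ⊕ Fin m) F) ((A⁻¹ : Matrix.symplecticGroup (Fin m) F) : Matrix (Fin m ⊕ Fin m) (Fin m ⊕ Fin m) F) := by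
  classical
  refine (conj_transpose' (A : Matrix (Fin m ⊕ Fin m) (Fin m ⊕ Fin m) F)).trans ?_
  rw [SymplecticGroup.coe_inv]
  have hJ : J (Fin m) F * J (Fin m) F = -1 := Matrix.J_squared (Fin m) F
  have hu : IsUnit (-J (Fin m) F) := by
    refine IsUnit.of_mul_eq_one (J (Fin m) F) ?_
    rw [neg_mul, hJ, neg_neg]
  refine ⟨hu.unit, ?_⟩
  show -J (Fin m) F * _ = -J (Fin m) F * _ * J (Fin m) F * -J (Fin m) F
  rw [mul_assoc (-J (Fin m) F * _), mul_neg, hJ, neg_neg, mul_one]

end Cfsg.Agent.S2586
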