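import Cfsg.Statements.S2588
import Mathlib
import Cfsg.Agent.Helper8.GUConj4

set_option autoImplicit false
open Cfsg

namespace Cfsg.Agent.S2588

open Cfsg.Agent.Helper8.GUC


/-- An invertible matrix A over the field with q² elements is conjugate in GL_n(q²) to an element of the general unitary group GU_n(q) (isometries of the Hermitian form Σ u_i v_i^q) if and only if A is similar to the inverse transpose of its entrywise q-th power (A ~ A^(−qT), the image of A under the map sending a matrix to the inverse transpose of its entrywise q-th power — inverse transpose composed with the field automorphism — whose fixed points form GU_n(q)). -/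
theorem result {K : Type*} [Field K] [Fintype K] {q n : ℕ} (hK : Fintype.card K = q ^ 2) (A : GL (Fin n) K) : (∃ B : ↥(Cfsg.GU n K q), IsConj A (B : GL (Fin n) K)) ↔ IsConj (A : Matrix (Fin n) (Fin n) K) (((A : Matrix (Fin n) (Fin n) K).map (fun x : K => x ^ q)).transpose)⁻¹ := by
  classical
  have hdagdef : ((A : Matrix (Fin n) (Fin n) K).map (fun x : K => x ^ q)).transpose
      = dag (S0284.frob hK) (A : Matrix (Fin n) (Fin n) K) := rfl
  rw [hdagdef]
  obtain ⟨σ, hσdef⟩ : ∃ σ : K →+* K, σ = S0284.frob hK := ⟨_, rfl⟩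
  rw [← hσdef]
  have hσ : ∀ x, σ (σ x) = x := by
    intro x
    rw [hσdef]
    exact S0284.frob_invol hK x
  obtain ⟨Am, hAm⟩ : ∃ Am : Matrix (Fin n) (Fin n) K, Am = (A : Matrix (Fin n) (Fin n) K) :=
    ⟨_, rfl⟩
  obtain ⟨Ai, hAi⟩ : ∃ Ai : Matrix (Fin n) (Fin n) K,
      Ai = ((A⁻¹ : GL (Fin n) K) : Matrix (Fin n) (Fin n) K) := ⟨_, rfl⟩
  have hA2 : Ai * Am = 1 := by rw [hAi, hAm, ← Units.val_mul, inv_mul_cancel, Units.val_one]
  rw [← hAm]
  have hAd1 : dag σ Am * dag σ Ai = 1 := by rw [← dag_mul, hA2, dag_one]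
  have hdet : IsUnit (dag σ Am).det := by
    have h := congrArg Matrix.det hAd1
    rw [Matrix.det_mul, Matrix.det_one] at h
    exact IsUnit.of_mul_eq_one _ h
  have hinv1 : (dag σ Am)⁻¹ * dag σ Am = 1 := Matrix.nonsing_inv_mul _ hdet
  have hinv2 : dag σ Am * (dag σ Am)⁻¹ = 1 := Matrix.mul_nonsing_inv _ hdet
  constructor
  · rintro ⟨B, hB⟩
    obtain ⟨P, hP⟩ := isConj_iff.1 hB
    obtain ⟨Pm, hPm⟩ : ∃ Pm : Matrix (Fin n) (Fin n) K, Pm = (P : Matrix (Fin n) (Fin n) K) :=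
      ⟨_, rfl⟩
    obtain ⟨Pi, hPi⟩ : ∃ Pi : Matrix (Fin n) (Fin n) K,
        Pi = ((P⁻¹ : GL (Fin n) K) : Matrix (Fin n) (Fin n) K) := ⟨_, rfl⟩
    obtain ⟨Bm, hBm⟩ : ∃ Bm : Matrix (Fin n) (Fin n) K,
        Bm = ((B : GL (Fin n) K) : Matrix (Fin n) (Fin n) K) := ⟨_, rfl⟩
    have hPPi : Pm * Pi = 1 := by rw [hPm, hPi, ← Units.val_mul, mul_inv_cancel, Units.val_one]
    have hPiP : Pi * Pm = 1 := by rw [hPm, hPi, ← Units.val_mul, inv_mul_cancel, Units.val_one]
    have hBd : dag σ Bm * Bm = 1 := by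
      rw [hσdef, hBm]
      exact dag_of_GU hK _ B.2
    have hPA : Pm * Am = Bm * Pm := by
      have h1 : P * A = (B : GL (Fin n) K) * P := by rw [← hP]; group
      rw [hPm, hAm, hBm, ← Units.val_mul, ← Units.val_mul, h1]
    obtain ⟨H, hH⟩ : ∃ H : Matrix (Fin n) (Fin n) K, H = dag σ Pm * Pm := ⟨_, rfl⟩
    have hHA : dag σ Am * H * Am = H := by
      calc dag σ Am * H * Am = dag σ (Pm * Am) * (Pm * Am) := by
            rw [hH, dag_mul]; simp only [mul_assoc]
        _ = dag σ Pm * (dag σ Bm * Bm) * Pm := by rw [hPA, dag_mul]; simp only [mul_assoc]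
        _ = H := by rw [hBd, mul_one, hH]
    have hH1 : H * (Pi * dag σ Pi) = 1 := by
      calc H * (Pi * dag σ Pi) = dag σ Pm * (Pm * Pi) * dag σ Pi := by
            rw [hH]; simp only [mul_assoc]
        _ = dag σ (Pi * Pm) := by rw [hPPi, mul_one, dag_mul]
        _ = 1 := by rw [hPiP, dag_one]
    have hH2 : (Pi * dag σ Pi) * H = 1 := mul_eq_one_comm.1 hH1
    refine ⟨⟨H, Pi * dag σ Pi, hH1, hH2⟩, ?_⟩
    show H * Am = (dag σ Am)⁻¹ * H
    calc H * Am = ((dag σ Am)⁻¹ * dag σ Am) * H * Am := by rw [hinv1, one_mul]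
      _ = (dag σ Am)⁻¹ * (dag σ Am * H * Am) := by simp only [mul_assoc]
      _ = (dag σ Am)⁻¹ * H := by rw [hHA]
  · rintro ⟨c, hc⟩
    have hc' : (c : Matrix (Fin n) (Fin n) K) * Am = (dag σ Am)⁻¹ * (c : Matrix (Fin n) (Fin n) K) :=
      hc
    have hAQ : dag σ Am * (c : Matrix (Fin n) (Fin n) K) * Am = (c : Matrix (Fin n) (Fin n) K) := by
      rw [mul_assoc, hc', ← mul_assoc, hinv2, one_mul]
    rw [hσdef, hAm] at hAQ
    obtain ⟨B, hB, hconj⟩ := conj_into_gu hK A (c : Matrix (Fin n) (Fin n) K)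
      ((c⁻¹ : (Matrix (Fin n) (Fin n) K)ˣ) : Matrix (Fin n) (Fin n) K) (Units.mul_inv c) hAQ
    exact ⟨⟨B, hB⟩, hconj⟩

end Cfsg.Agent.S2588
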