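import Cfsg.Statements.S2589
import Mathlib
import Cfsg.Agent.S2389

set_option autoImplicit false
open Cfsg

namespace Cfsg.Agent.S2589


/-- Two semisimple elements of the finite symplectic group Sp_2m(F) (elements of order prime to the characteristic) are conjugate in Sp_2m(F) if and only if they are conjugate in GL_2m(F). -/
theorem result {F : Type*} [Field F] [Fintype F] {p : ℕ} [Fact p.Prime] [CharP F p] {m : ℕ} (A B : Matrix.symplecticGroup (Fin m) F) (hA : (orderOf A).Coprime p) : IsConj A B ↔ IsConj (A : Matrix (Fin m ⊕ Fin m) (Fin m ⊕ Fin m) F) (B : Matrix (Fin m ⊕ Fin m) (Fin m ⊕ Fin m) F) := by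
  constructor
  · intro h
    exact (Submonoid.subtype (Matrix.symplecticGroup (Fin m) F)).map_isConj h
  · intro h
    obtain ⟨c, hc⟩ := h
    have hchar : (A : Matrix (Fin m ⊕ Fin m) (Fin m ⊕ Fin m) F).charpoly =
        (B : Matrix (Fin m ⊕ Fin m) (Fin m ⊕ Fin m) F).charpoly := by
      have e : (B : Matrix (Fin m ⊕ Fin m) (Fin m ⊕ Fin m) F) =
          (c : Matrix (Fin m ⊕ Fin m) (Fin m ⊕ Fin m) F) * A *
            ((c⁻¹ : (Matrix (Fin m ⊕ Fin m) (Fin m ⊕ Fin m) F)ˣ) :
              Matrix (Fin m ⊕ Fin m) (Fin m ⊕ Fin m) F) := by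
        rw [hc.eq, mul_assoc, Units.mul_inv, mul_one]
      rw [e, Matrix.coe_units_inv, Matrix.charpoly_units_conj]
    have hord : orderOf B = orderOf A := by
      rw [← orderOf_injective (Submonoid.subtype (Matrix.symplecticGroup (Fin m) F))
          Subtype.coe_injective B,
        ← orderOf_injective (Submonoid.subtype (Matrix.symplecticGroup (Fin m) F))
          Subtype.coe_injective A]
      apply orderOf_eq_orderOf_iff.mpr
      intro k
      have hk : (c : Matrix (Fin m ⊕ Fin m) (Fin m ⊕ Fin m) F) *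
          (A : Matrix (Fin m ⊕ Fin m) (Fin m ⊕ Fin m) F) ^ k =
          (B : Matrix (Fin m ⊕ Fin m) (Fin m ⊕ Fin m) F) ^ k * c := (hc.pow_right k).eq
      constructor
      · intro hB1
        have hB1' : (B : Matrix (Fin m ⊕ Fin m) (Fin m ⊕ Fin m) F) ^ k = 1 := hB1
        rw [hB1', one_mul] at hk
        have h2 : (c : Matrix (Fin m ⊕ Fin m) (Fin m ⊕ Fin m) F) *
            (A : Matrix (Fin m ⊕ Fin m) (Fin m ⊕ Fin m) F) ^ k = c * 1 := by rw [hk, mul_one]
        exact c.mul_right_inj.mp h2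
      · intro hA1
        have hA1' : (A : Matrix (Fin m ⊕ Fin m) (Fin m ⊕ Fin m) F) ^ k = 1 := hA1
        rw [hA1', mul_one] at hk
        have h2 : (B : Matrix (Fin m ⊕ Fin m) (Fin m ⊕ Fin m) F) ^ k * c = 1 * c := by
          rw [← hk, one_mul]
        exact c.mul_left_inj.mp h2
    exact Cfsg.Agent.S2389.result p m A B hA (hord ▸ hA) hchar

end Cfsg.Agent.S2589
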