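import Cfsg.Statements.S2592
import Mathlib
import Cfsg.Agent.Helper14.RegUniSp

set_option autoImplicit false
open Cfsg

namespace Cfsg.Agent.S2592

/-- Over a finite field with q elements, q odd, the centraliser in Sp_2m(F) (m ≥ 1) of a regular unipotent element (u − 1 nilpotent of rank 2m − 1) has order 2 q^m. -/
theorem result {F : Type*} [Field F] [Fintype F] {q : ℕ} (hF : Fintype.card F = q) (hq : Odd q) {m : ℕ} (hm : 1 ≤ m) (u : Matrix.symplecticGroup (Fin m) F) (hnil : ((u : Matrix (Fin m ⊕ Fin m) (Fin m ⊕ Fin m) F) - 1) ^ (2 * m) = 0) (hreg : ((u : Matrix (Fin m ⊕ Fin m) (Fin m ⊕ Fin m) F) - 1).rank = 2 * m - 1) : Nat.card ↥(Subgroup.centralizer ({u} : Set ↥(Matrix.symplecticGroup (Fin m) F))) = 2 * q ^ m := by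

  have h2 : (2 : F) ≠ 0 := by
    intro h
    haveI : Fact (Nat.Prime 2) := ⟨Nat.prime_two⟩
    have h1 : addOrderOf (1 : F) = 2 := addOrderOf_eq_prime (by
      rw [nsmul_eq_mul, Nat.cast_ofNat, mul_one]; exact h) one_ne_zero
    have h3 : addOrderOf (1 : F) ∣ Fintype.card F := addOrderOf_dvd_card
    rw [h1, hF] at h3
    exact (Nat.not_even_iff_odd.mpr hq) (even_iff_two_dvd.mpr h3)
  rw [← hF]
  exact Cfsg.Agent.Helper14.RegUniSp.card_centralizer h2 hm u hnil hreg

end Cfsg.Agent.S2592
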