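import Cfsg.Statements.S2594
import Mathlib
import Cfsg.Agent.S0245

set_option autoImplicit false
open Cfsg

namespace Cfsg.Agent.S2594

open Matrix

section
variable {F : Type*} [Field F] {m : ℕ}

theorem trans_sp (u w : Fin m ⊕ Fin m → F) (hu : u ≠ 0) (hw : w ≠ 0) :
    ∃ M : Matrix.symplecticGroup (Fin m) F,
      (M : Matrix (Fin m ⊕ Fin m) (Fin m ⊕ Fin m) F) *ᵥ u = w := by
  have hx : LinearIndependent F (fun _ : Fin 1 => u) := linearIndependent_unique_iff.2 hu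
  have hy : LinearIndependent F (fun _ : Fin 1 => w) := linearIndependent_unique_iff.2 hw
  obtain ⟨g, hgT, -, hg2⟩ := S0766.witt_gen (S0766.sB m F) (S0766.sB_nondeg m F)
    (S0766.sB_alt m F) (S0766.Tset m F) (S0766.id_mem m F) (S0766.comp_mem m F)
    (S0766.transv_mem m F) (fun _ : Fin 1 => u) (fun _ : Fin 1 => w) hx hy
    (fun i j => by
      show S0766.sB m F w w = S0766.sB m F u u
      rw [(S0766.sB_alt m F).self_eq_zero, (S0766.sB_alt m F).self_eq_zero])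
  obtain ⟨M, -, hgM⟩ := hgT
  refine ⟨M, ?_⟩
  rw [← hgM]
  exact hg2 0

theorem sp_inv (g : Matrix.symplecticGroup (Fin m) F) (x y : Fin m ⊕ Fin m → F) :
    S0766.sB m F ((g : Matrix (Fin m ⊕ Fin m) (Fin m ⊕ Fin m) F) *ᵥ x)
      ((g : Matrix (Fin m ⊕ Fin m) (Fin m ⊕ Fin m) F) *ᵥ y) = S0766.sB m F x y := by
  rw [S0766.sB_apply, S0766.sB_apply]
  exact S2585.symp_inv _ (SymplecticGroup.mem_iff'.mp g.2) x y

theorem exists_dual (w : Fin m ⊕ Fin m → F) (hw : w ≠ 0) : ∃ x, S0766.sB m F x w = 1 := by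
  have h1 : ∃ y, S0766.sB m F w y ≠ 0 := by
    by_contra hno
    push Not at hno
    exact hw ((S0766.sB_nondeg m F).1 w hno)
  obtain ⟨y, hy⟩ := h1
  have hy' : S0766.sB m F y w ≠ 0 := by
    rw [← (S0766.sB_alt m F).neg_eq w y]
    exact neg_ne_zero.2 hy
  refine ⟨(S0766.sB m F y w)⁻¹ • y, ?_⟩
  rw [map_smul, LinearMap.smul_apply, smul_eq_mul, inv_mul_cancel₀ hy']

theorem transv_form [Fintype F] [CharP F 2] (t : Matrix.symplecticGroup (Fin m) F)
    (ht : ((t : Matrix (Fin m ⊕ Fin m) (Fin m ⊕ Fin m) F) - 1).rank = 1) :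
    ∃ w : Fin m ⊕ Fin m → F, w ≠ 0 ∧
      ∀ x, (t : Matrix (Fin m ⊕ Fin m) (Fin m ⊕ Fin m) F) *ᵥ x
        = x + (S0766.sB m F x w) • w := by
  have h1 : Module.finrank F (LinearMap.range
      ((t : Matrix (Fin m ⊕ Fin m) (Fin m ⊕ Fin m) F) - 1).mulVecLin) = 1 := ht
  obtain ⟨⟨a, ha⟩, ha0, hspan⟩ := finrank_eq_one_iff'.1 h1
  have ha0' : a ≠ 0 := fun h => ha0 (Subtype.ext h)
  have hφ : ∀ x, ∃ c : F,
      c • a = ((t : Matrix (Fin m ⊕ Fin m) (Fin m ⊕ Fin m) F) - 1) *ᵥ x := by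
    intro x
    obtain ⟨c, hc⟩ := hspan
      ⟨((t : Matrix (Fin m ⊕ Fin m) (Fin m ⊕ Fin m) F) - 1) *ᵥ x, ⟨x, rfl⟩⟩
    exact ⟨c, congrArg Subtype.val hc⟩
  choose φ hφ using hφ
  have htx : ∀ x, (t : Matrix (Fin m ⊕ Fin m) (Fin m ⊕ Fin m) F) *ᵥ x = x + φ x • a := by
    intro x
    rw [hφ x, Matrix.sub_mulVec, Matrix.one_mulVec]
    abel
  obtain ⟨x₀, hx₀⟩ := ha
  have hx₀' : ((t : Matrix (Fin m ⊕ Fin m) (Fin m ⊕ Fin m) F) - 1) *ᵥ x₀ = a := hx₀
  have hφ1 : φ x₀ = 1 := by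
    have h := hφ x₀
    rw [hx₀'] at h
    by_contra hne
    have h3 : (φ x₀ - 1) • a = 0 := by rw [sub_smul, one_smul, h, sub_self]
    rcases smul_eq_zero.1 h3 with h0 | h0
    · exact hne (sub_eq_zero.1 h0)
    · exact ha0' h0
  have hkey : ∀ x y, φ y * S0766.sB m F x a + φ x * S0766.sB m F a y = 0 := by
    intro x y
    have h := sp_inv t x y
    rw [htx x, htx y] at h
    have e : S0766.sB m F (x + φ x • a) (y + φ y • a)
        = S0766.sB m F x y + φ y * S0766.sB m F x a + φ x * S0766.sB m F a y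
          + φ x * φ y * S0766.sB m F a a := by
      simp only [map_add, map_smul, LinearMap.add_apply, LinearMap.smul_apply, smul_eq_mul]
      ring
    rw [e, (S0766.sB_alt m F).self_eq_zero] at h
    linear_combination h
  have hc : ∀ x, S0766.sB m F x a = φ x * S0766.sB m F x₀ a := by
    intro x
    have h := hkey x x₀
    rw [hφ1, one_mul, ← (S0766.sB_alt m F).neg_eq x₀ a] at h
    linear_combination h
  have hc0 : S0766.sB m F x₀ a ≠ 0 := by
    intro h0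
    apply ha0'
    apply (S0766.sB_nondeg m F).1 a
    intro y
    rw [← (S0766.sB_alt m F).neg_eq y a, hc y, h0, mul_zero, neg_zero]
  obtain ⟨d, hd⟩ := FiniteField.isSquare_of_char_two (ringChar.eq F 2) (S0766.sB m F x₀ a)⁻¹
  have hd0 : d ≠ 0 := by
    intro h
    rw [h, mul_zero] at hd
    exact inv_ne_zero hc0 hd
  refine ⟨d • a, smul_ne_zero hd0 ha0', fun x => ?_⟩
  have h5 : d * (φ x * S0766.sB m F x₀ a) * d = φ x := by
    calc d * (φ x * S0766.sB m F x₀ a) * d = φ x * ((d * d) * S0766.sB m F x₀ a) := by ring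
      _ = φ x := by rw [← hd, inv_mul_cancel₀ hc0, mul_one]
  rw [htx x, map_smul, smul_eq_mul, smul_smul, hc x, h5]

theorem main [Fintype F] [CharP F 2] {q : ℕ} (hF : Fintype.card F = q) (k : ℕ)
    (t : Matrix.symplecticGroup (Fin (k + 1)) F)
    (ht : ((t : Matrix (Fin (k + 1) ⊕ Fin (k + 1)) (Fin (k + 1) ⊕ Fin (k + 1)) F) - 1).rank = 1) :
    Nat.card ↥(Subgroup.centralizer ({t} : Set ↥(Matrix.symplecticGroup (Fin (k + 1)) F)))
      = q ^ (2 * k + 1) * (q ^ (k ^ 2) * ∏ i ∈ Finset.range k, (q ^ (2 * (i + 1)) - 1)) := by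
  classical
  obtain ⟨w, hw, htw⟩ := transv_form t ht
  letI act : MulAction (Matrix.symplecticGroup (Fin (k + 1)) F)
      (Fin (k + 1) ⊕ Fin (k + 1) → F) :=
    { smul := fun g v => (g : Matrix (Fin (k + 1) ⊕ Fin (k + 1)) (Fin (k + 1) ⊕ Fin (k + 1)) F) *ᵥ v
      one_smul := fun v => Matrix.one_mulVec v
      mul_smul := fun g h v => (Matrix.mulVec_mulVec v
        (g : Matrix (Fin (k + 1) ⊕ Fin (k + 1)) (Fin (k + 1) ⊕ Fin (k + 1)) F)
        (h : Matrix (Fin (k + 1) ⊕ Fin (k + 1)) (Fin (k + 1) ⊕ Fin (k + 1)) F)).symm }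
  have hsmul : ∀ (g : Matrix.symplecticGroup (Fin (k + 1)) F)
      (v : Fin (k + 1) ⊕ Fin (k + 1) → F),
      g • v = (g : Matrix (Fin (k + 1) ⊕ Fin (k + 1)) (Fin (k + 1) ⊕ Fin (k + 1)) F) *ᵥ v :=
    fun _ _ => rfl
  have h2 : (2 : F) = 0 := CharTwo.two_eq_zero
  have hCS : Subgroup.centralizer ({t} : Set ↥(Matrix.symplecticGroup (Fin (k + 1)) F))
      = MulAction.stabilizer (Matrix.symplecticGroup (Fin (k + 1)) F) w := by
    ext g
    rw [Subgroup.mem_centralizer_iff, MulAction.mem_stabilizer_iff, hsmul]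
    constructor
    · intro h
      have hcomm : (t : Matrix (Fin (k + 1) ⊕ Fin (k + 1)) (Fin (k + 1) ⊕ Fin (k + 1)) F)
          * (g : Matrix (Fin (k + 1) ⊕ Fin (k + 1)) (Fin (k + 1) ⊕ Fin (k + 1)) F)
          = (g : Matrix (Fin (k + 1) ⊕ Fin (k + 1)) (Fin (k + 1) ⊕ Fin (k + 1)) F)
          * (t : Matrix (Fin (k + 1) ⊕ Fin (k + 1)) (Fin (k + 1) ⊕ Fin (k + 1)) F) :=
        congrArg Subtype.val (h t (Set.mem_singleton t))
      obtain ⟨x, hx⟩ := exists_dual w hw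
      have h3 : ((t : Matrix (Fin (k + 1) ⊕ Fin (k + 1)) (Fin (k + 1) ⊕ Fin (k + 1)) F)
          * (g : Matrix (Fin (k + 1) ⊕ Fin (k + 1)) (Fin (k + 1) ⊕ Fin (k + 1)) F)) *ᵥ x
          = ((g : Matrix (Fin (k + 1) ⊕ Fin (k + 1)) (Fin (k + 1) ⊕ Fin (k + 1)) F)
          * (t : Matrix (Fin (k + 1) ⊕ Fin (k + 1)) (Fin (k + 1) ⊕ Fin (k + 1)) F)) *ᵥ x := by
        rw [hcomm]
      rw [← Matrix.mulVec_mulVec, ← Matrix.mulVec_mulVec, htw, htw, Matrix.mulVec_add,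
        Matrix.mulVec_smul, hx, one_smul] at h3
      have h4 : (g : Matrix (Fin (k + 1) ⊕ Fin (k + 1)) (Fin (k + 1) ⊕ Fin (k + 1)) F) *ᵥ w
          = S0766.sB (k + 1) F
            ((g : Matrix (Fin (k + 1) ⊕ Fin (k + 1)) (Fin (k + 1) ⊕ Fin (k + 1)) F) *ᵥ x) w • w :=
        (add_left_cancel h3).symm
      have h5 := sp_inv g x w
      rw [h4, map_smul, smul_eq_mul, hx] at h5
      have h7 : (S0766.sB (k + 1) F
            ((g : Matrix (Fin (k + 1) ⊕ Fin (k + 1)) (Fin (k + 1) ⊕ Fin (k + 1)) F) *ᵥ x) w - 1)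
          * (S0766.sB (k + 1) F
            ((g : Matrix (Fin (k + 1) ⊕ Fin (k + 1)) (Fin (k + 1) ⊕ Fin (k + 1)) F) *ᵥ x) w - 1)
          = 0 := by
        linear_combination h5 + (-(S0766.sB (k + 1) F
            ((g : Matrix (Fin (k + 1) ⊕ Fin (k + 1)) (Fin (k + 1) ⊕ Fin (k + 1)) F) *ᵥ x) w - 1)) * h2
      have h6 := sub_eq_zero.1 (mul_self_eq_zero.1 h7)
      rw [h4, h6, one_smul]
    · intro hgw t' ht'
      rw [Set.mem_singleton_iff] at ht'
      rw [ht']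
      apply Subtype.ext
      show (t : Matrix (Fin (k + 1) ⊕ Fin (k + 1)) (Fin (k + 1) ⊕ Fin (k + 1)) F)
          * (g : Matrix (Fin (k + 1) ⊕ Fin (k + 1)) (Fin (k + 1) ⊕ Fin (k + 1)) F)
          = (g : Matrix (Fin (k + 1) ⊕ Fin (k + 1)) (Fin (k + 1) ⊕ Fin (k + 1)) F)
          * (t : Matrix (Fin (k + 1) ⊕ Fin (k + 1)) (Fin (k + 1) ⊕ Fin (k + 1)) F)
      apply Matrix.mulVec_injective
      funext x
      rw [← Matrix.mulVec_mulVec, ← Matrix.mulVec_mulVec, htw, htw, Matrix.mulVec_add,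
        Matrix.mulVec_smul, hgw]
      have h5 := sp_inv g x w
      rw [hgw] at h5
      rw [h5]
  have horb : MulAction.orbit (Matrix.symplecticGroup (Fin (k + 1)) F) w = {u | u ≠ 0} := by
    ext u
    constructor
    · rintro ⟨g, rfl⟩
      show g • w ≠ 0
      intro h0
      apply hw
      have h1 : g⁻¹ • (g • w) = w := inv_smul_smul g w
      rw [h0] at h1
      rw [← h1, hsmul, Matrix.mulVec_zero]
    · intro hu
      obtain ⟨M, hM⟩ := trans_sp w u hw hu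
      exact ⟨M, hM⟩
  have hV : Nat.card (Fin (k + 1) ⊕ Fin (k + 1) → F) = q ^ (2 * (k + 1)) := by
    rw [Nat.card_fun, Nat.card_sum, Nat.card_fin, Nat.card_eq_fintype_card, hF, two_mul]
  have hncard : ({u | u ≠ 0} : Set (Fin (k + 1) ⊕ Fin (k + 1) → F)).ncard
      = q ^ (2 * (k + 1)) - 1 := by
    have h := Set.ncard_compl ({0} : Set (Fin (k + 1) ⊕ Fin (k + 1) → F))
    rw [Set.ncard_singleton, hV] at h
    exact h
  have hidx := MulAction.index_stabilizer (G := Matrix.symplecticGroup (Fin (k + 1)) F) (x := w)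
  have hmul := Subgroup.card_mul_index
    (MulAction.stabilizer (Matrix.symplecticGroup (Fin (k + 1)) F) w)
  rw [hidx, horb, hncard, Cfsg.Agent.S0245.result hF (k + 1), Finset.prod_range_succ] at hmul
  rw [hCS]
  have hq1 : 1 < q := by
    rw [← hF]
    exact Fintype.one_lt_card
  have hpos : 0 < q ^ (2 * (k + 1)) - 1 := Nat.sub_pos_of_lt (Nat.one_lt_pow (by omega) hq1)
  apply Nat.eq_of_mul_eq_mul_right hpos
  rw [hmul]
  ring

end

/-- Over a finite field with q elements, q even, an element t of Sp_2m(F) with rank(t − 1) = 1 (a symplectic transvection) has centraliser in Sp_2m(F) of order q^(2m−1) · |Sp_(2m−2)(q)| = q^(2m−1) · q^((m−1)²) · Π_(i=1)^(m−1) (q^(2i) − 1). -/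
theorem result {F : Type*} [Field F] [Fintype F] [CharP F 2] {q : ℕ} (hF : Fintype.card F = q) {m : ℕ} (hm : 1 ≤ m) (t : Matrix.symplecticGroup (Fin m) F) (ht : ((t : Matrix (Fin m ⊕ Fin m) (Fin m ⊕ Fin m) F) - 1).rank = 1) : Nat.card ↥(Subgroup.centralizer ({t} : Set ↥(Matrix.symplecticGroup (Fin m) F))) = q ^ (2 * m - 1) * (q ^ ((m - 1) ^ 2) * ∏ i : Fin (m - 1), (q ^ (2 * ((i : ℕ) + 1)) - 1)) := by
  obtain ⟨k, rfl⟩ : ∃ k, m = k + 1 := ⟨m - 1, by omega⟩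
  rw [main hF k t ht, Nat.add_sub_cancel,
    Fin.prod_univ_eq_prod_range (fun i => q ^ (2 * (i + 1)) - 1) k]
  have e1 : 2 * (k + 1) - 1 = 2 * k + 1 := by omega
  rw [e1]

end Cfsg.Agent.S2594
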