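import Cfsg.Statements.S2599
import Mathlib

set_option autoImplicit false
open Cfsg

namespace Cfsg.Agent.S2599

open Matrix

/-- An irreducible invariant subspace of a semisimple isometry is non-degenerate or totally singular: let Q be a quadratic form on F^n (F finite of characteristic p) with non-degenerate polar form f, x an isometry of Q of order prime to p, and U a non-zero x-invariant subspace containing no x-invariant subspace other than 0 and U. Then U meets its f-orthogonal trivially, or Q vanishes on U, or p = 2, U is a line spanned by a non-singular vector and x fixes U pointwise. -/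
theorem result {F : Type*} [Field F] [Fintype F] {p : ℕ} [Fact p.Prime] [CharP F p] {n : ℕ} (Q : QuadraticForm F (Fin n → F)) (hQ : (QuadraticMap.polarBilin Q).Nondegenerate) (x : ↥(Cfsg.isometryGroup F ⇑Q)) (hx : (orderOf x).Coprime p) (U : Submodule F (Fin n → F)) (hU0 : U ≠ ⊥) (hUx : ∀ u ∈ U, ((x : Matrix.GeneralLinearGroup (Fin n) F) : Matrix (Fin n) (Fin n) F).mulVec u ∈ U) (hirr : ∀ W : Submodule F (Fin n → F), W ≤ U → (∀ w ∈ W, ((x : Matrix.GeneralLinearGroup (Fin n) F) : Matrix (Fin n) (Fin n) F).mulVec w ∈ W) → W = ⊥ ∨ W = U) : U ⊓ LinearMap.BilinForm.orthogonal (QuadraticMap.polarBilin Q) U = ⊥ ∨ (∀ u ∈ U, Q u = 0) ∨ (p = 2 ∧ Module.finrank F U = 1 ∧ (∃ u ∈ U, Q u ≠ 0) ∧ ∀ u ∈ U, ((x : Matrix.GeneralLinearGroup (Fin n) F) : Matrix (Fin n) (Fin n) F).mulVec u = u) := by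
  classical
  set A : Matrix (Fin n) (Fin n) F := ((x : Matrix.GeneralLinearGroup (Fin n) F) : Matrix (Fin n) (Fin n) F) with hA
  set A' : Matrix (Fin n) (Fin n) F := (((x : Matrix.GeneralLinearGroup (Fin n) F)⁻¹ : Matrix.GeneralLinearGroup (Fin n) F) : Matrix (Fin n) (Fin n) F) with hA'
  have hAA' : A * A' = 1 := Units.mul_inv _
  have hA'A : A' * A = 1 := Units.inv_mul _
  have hAQ : ∀ u, Q (A *ᵥ u) = Q u := fun u => x.2 u u
  set B : LinearMap.BilinForm F (Fin n → F) := QuadraticMap.polarBilin Q with hB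
  have hBapp : ∀ u v, B u v = Q (u + v) - Q u - Q v := fun u v => rfl
  have hAB : ∀ u v, B (A *ᵥ u) (A *ᵥ v) = B u v := by
    intro u v
    rw [hBapp, hBapp, ← Matrix.mulVec_add, hAQ, hAQ, hAQ]
  -- `A` maps `U` onto `U`
  let e : (Fin n → F) ≃ₗ[F] (Fin n → F) :=
    LinearEquiv.ofLinearMap (Matrix.mulVecLin A) (Matrix.mulVecLin A')
      (by rw [← Matrix.mulVecLin_mul, hAA', Matrix.mulVecLin_one])
      (by rw [← Matrix.mulVecLin_mul, hA'A, Matrix.mulVecLin_one])
  have hUsurj : ∀ w ∈ U, ∃ w' ∈ U, A *ᵥ w' = w := by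
    have hmap : U.map (e : (Fin n → F) →ₗ[F] (Fin n → F)) = U := by
      apply Submodule.eq_of_le_of_finrank_le
      · rintro _ ⟨v, hv, rfl⟩
        exact hUx v hv
      · exact le_of_eq (LinearEquiv.finrank_map_eq e U).symm
    intro w hw
    rw [← hmap] at hw
    obtain ⟨w', hw', rfl⟩ := hw
    exact ⟨w', hw', rfl⟩
  -- the radical of `U`
  have hWinv : ∀ w ∈ U ⊓ B.orthogonal U, A *ᵥ w ∈ U ⊓ B.orthogonal U := by
    rintro w ⟨hw1, hw2⟩
    refine ⟨hUx w hw1, ?_⟩
    have hw2' : w ∈ B.orthogonal U := hw2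
    show A *ᵥ w ∈ B.orthogonal U
    rw [LinearMap.BilinForm.mem_orthogonal_iff]
    intro u hu
    obtain ⟨u', hu', rfl⟩ := hUsurj u hu
    show B (A *ᵥ u') (A *ᵥ w) = 0
    rw [hAB]
    exact (LinearMap.BilinForm.mem_orthogonal_iff.mp hw2') u' hu'
  rcases hirr _ inf_le_left hWinv with h1 | h1
  · exact Or.inl h1
  right
  -- now `U` is totally isotropic
  have hiso : ∀ u ∈ U, ∀ v ∈ U, B u v = 0 := by
    intro u hu v hv
    have hv' : v ∈ U ⊓ B.orthogonal U := by rw [h1]; exact hv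
    exact (LinearMap.BilinForm.mem_orthogonal_iff.mp hv'.2) u hu
  have hadd : ∀ u ∈ U, ∀ v ∈ U, Q (u + v) = Q u + Q v := by
    intro u hu v hv
    have := hiso u hu v hv
    rw [hBapp] at this
    linear_combination this
  -- the singular vectors of `U`
  let K : Submodule F (Fin n → F) :=
    { carrier := {u | u ∈ U ∧ Q u = 0}
      add_mem' := by
        rintro a b ⟨ha, ha0⟩ ⟨hb, hb0⟩
        exact ⟨U.add_mem ha hb, by rw [hadd a ha b hb, ha0, hb0, add_zero]⟩
      zero_mem' := ⟨U.zero_mem, map_zero Q⟩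
      smul_mem' := by
        rintro c a ⟨ha, ha0⟩
        exact ⟨U.smul_mem c ha, by rw [QuadraticMap.map_smul, ha0, smul_zero]⟩ }
  have hKmem : ∀ u, u ∈ K ↔ u ∈ U ∧ Q u = 0 := fun u => Iff.rfl
  have hKU : K ≤ U := fun u hu => hu.1
  have hKinv : ∀ w ∈ K, A *ᵥ w ∈ K := by
    rintro w ⟨hw1, hw2⟩
    exact ⟨hUx w hw1, by rw [hAQ, hw2]⟩
  rcases hirr K hKU hKinv with h2 | h2
  swap
  · left
    intro u hu
    have : u ∈ K := by rw [h2]; exact hu
    exact this.2
  right
  -- every nonzero vector of `U` is nonsingular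
  have hns : ∀ u ∈ U, Q u = 0 → u = 0 := by
    intro u hu h0
    have : u ∈ K := ⟨hu, h0⟩
    rw [h2] at this
    exact (Submodule.mem_bot F).mp this
  obtain ⟨u₀, hu₀, hu₀ne⟩ := (Submodule.ne_bot_iff U).mp hU0
  have hQu₀ : Q u₀ ≠ 0 := fun h => hu₀ne (hns u₀ hu₀ h)
  -- characteristic two
  have h2F : (2 : F) = 0 := by
    have h := hiso u₀ hu₀ u₀ hu₀
    rw [hBapp] at h
    have h' : Q (u₀ + u₀) = 4 * Q u₀ := by
      have : u₀ + u₀ = (2 : F) • u₀ := by rw [two_smul]
      rw [this, QuadraticMap.map_smul, smul_eq_mul]; ring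
    rw [h'] at h
    have h'' : (2 : F) * Q u₀ = 0 := by linear_combination h
    exact (mul_eq_zero.mp h'').resolve_right hQu₀
  have hp2 : p = 2 := by
    have : ((2 : ℕ) : F) = 0 := by simpa using h2F
    have hdvd := (CharP.cast_eq_zero_iff F p 2).mp this
    exact (Nat.prime_dvd_prime_iff_eq (Fact.out) Nat.prime_two).mp hdvd
  have hchar : ringChar F = 2 := by
    rw [← hp2]; exact ringChar.eq F p
  have hneg : ∀ a : F, -a = a := by
    intro a
    have : a + a = 0 := by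
      have : a + a = 2 * a := by ring
      rw [this, h2F, zero_mul]
    exact neg_eq_of_add_eq_zero_left this
  have hsub : ∀ u ∈ U, ∀ v ∈ U, Q (u - v) = Q u + Q v := by
    intro u hu v hv
    have hv' : -v ∈ U := U.neg_mem hv
    rw [sub_eq_add_neg, hadd u hu (-v) hv', QuadraticMap.map_neg]
  refine ⟨hp2, ?_, ⟨u₀, hu₀, hQu₀⟩, ?_⟩
  · rw [finrank_eq_one_iff']
    refine ⟨⟨u₀, hu₀⟩, fun h => hu₀ne (congrArg Subtype.val h), ?_⟩
    rintro ⟨v, hv⟩
    obtain ⟨c, hc⟩ := FiniteField.isSquare_of_char_two hchar (Q v / Q u₀)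
    refine ⟨c, Subtype.ext ?_⟩
    show c • u₀ = v
    have hcu : c • u₀ ∈ U := U.smul_mem c hu₀
    have h0 : Q (v - c • u₀) = 0 := by
      rw [hsub v hv _ hcu, QuadraticMap.map_smul, smul_eq_mul, ← hc, div_mul_cancel₀ _ hQu₀]
      have : Q v + Q v = 2 * Q v := by ring
      rw [this, h2F, zero_mul]
    have := hns _ (U.sub_mem hv hcu) h0
    exact (sub_eq_zero.mp this).symm
  · intro v hv
    have hAv : A *ᵥ v ∈ U := hUx v hv
    have h0 : Q (A *ᵥ v - v) = 0 := by
      rw [hsub _ hAv v hv, hAQ]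
      have : Q v + Q v = 2 * Q v := by ring
      rw [this, h2F, zero_mul]
    exact sub_eq_zero.mp (hns _ (U.sub_mem hAv hv) h0)

end Cfsg.Agent.S2599
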