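import Mathlib
import Cfsg.Statements.S2609
import Cfsg.Agent.Helper4.Spinor3

set_option autoImplicit false
open Cfsg

namespace Cfsg.Agent.S2609

open Cfsg.Agent.Helper4.OrthPlane Cfsg.Agent.Helper4.CartanD Cfsg.Agent.Helper4.Dickson
  Cfsg.Agent.Helper4.Spinor

/-- Spinor norm criterion for Ω over a finite field of odd order: let Q be a quadratic form on F^n, n ≥ 2, with non-degenerate polar form, and let g be an isometry written as a product of reflections in non-singular vectors v_1, …, v_k. Then g lies in Ω (the commutator subgroup of the orthogonal group) if and only if k is even and Q(v_1)⋯Q(v_k) is a square; in particular, for g of determinant one, whether that product is a square does not depend on the chosen factorisation (it is the spinor norm of g). -/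
theorem result {F : Type*} [Field F] [Fintype F] (h2 : (2 : F) ≠ 0) {n : ℕ} (hn : 2 ≤ n) (Q : QuadraticForm F (Fin n → F)) (hQ : (QuadraticMap.polarBilin Q).Nondegenerate) (g : ↥(Cfsg.isometryGroup F ⇑Q)) (vs : List (Fin n → F)) (hvs : ∀ v ∈ vs, Q v ≠ 0) (hg : ((g : Matrix.GeneralLinearGroup (Fin n) F) : Matrix (Fin n) (Fin n) F) = (vs.map (fun v => Cfsg.reflectionMatrix ⇑Q v)).prod) : g ∈ Cfsg.Omega F ⇑Q ↔ (Even vs.length ∧ IsSquare (vs.map (fun v => Q v)).prod) := by
  have hQ' := of_form Q hQ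
  have hn' : 2 ≤ Fintype.card (Fin n) := by rw [Fintype.card_fin]; exact hn
  obtain ⟨φ, θ, hφ, hθ, hmem⟩ := exists_invariants (⇑Q) hQ' h2 hn'
  have key : ∀ (vs : List (Fin n → F)), (∀ v ∈ vs, Q v ≠ 0) →
      ∀ g : ↥(Cfsg.isometryGroup F ⇑Q),
      ((g : Matrix.GeneralLinearGroup (Fin n) F) : Matrix (Fin n) (Fin n) F)
        = (vs.map (fun v => Cfsg.reflectionMatrix ⇑Q v)).prod →
      φ g = Multiplicative.ofAdd ((vs.length : ℕ) : ZMod 2) ∧
        θ g = chi ((vs.map (fun v => Q v)).prod) := by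
    intro vs
    induction vs with
    | nil =>
      intro _ g hg
      have hg1 : g = 1 := by
        apply Subtype.ext
        apply Units.ext
        rw [hg]
        rfl
      rw [hg1, map_one, map_one]
      refine ⟨by simp, ?_⟩
      rw [List.map_nil, List.prod_nil, chi_one]
    | cons v vs ih =>
      intro hvs g hg
      have hv : Q v ≠ 0 := hvs v List.mem_cons_self
      have hvs' : ∀ w ∈ vs, Q w ≠ 0 := fun w hw => hvs w (List.mem_cons_of_mem _ hw)
      obtain ⟨g', hg'⟩ : ∃ g', g' = rO (⇑Q) hQ' v hv * g := ⟨_, rfl⟩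
      have hgg : g = rO (⇑Q) hQ' v hv * g' := by rw [hg', ← mul_assoc, rO_sq, one_mul]
      have hmat : ((g' : Matrix.GeneralLinearGroup (Fin n) F) : Matrix (Fin n) (Fin n) F)
          = (vs.map (fun v => Cfsg.reflectionMatrix ⇑Q v)).prod := by
        rw [hg']
        show R (⇑Q) hQ' v * ((g : Matrix.GeneralLinearGroup (Fin n) F) : Matrix (Fin n) (Fin n) F)
          = _
        rw [hg]
        simp only [List.map_cons, List.prod_cons]
        rw [← R_eq (⇑Q) hQ' v, ← Matrix.mul_assoc, R_sq (⇑Q) hQ' v hv, Matrix.one_mul]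
      obtain ⟨i1, i2⟩ := ih hvs' g' hmat
      rw [hgg, map_mul, map_mul, hφ v hv, hθ v hv, i1, i2]
      refine ⟨?_, ?_⟩
      · rw [← ofAdd_add, List.length_cons]
        congr 1
        push_cast
        ring
      · simp only [List.map_cons, List.prod_cons]
        rw [chi_mul]
  obtain ⟨k1, k2⟩ := key vs hvs g hg
  have hne : (vs.map (fun v => Q v)).prod ≠ 0 := by
    apply List.prod_ne_zero
    intro h0
    obtain ⟨v, hv, hv0⟩ := List.mem_map.mp h0
    exact hvs v hv hv0
  rw [show (g ∈ Cfsg.Omega F ⇑Q) ↔ φ g = 1 ∧ θ g = 1 from hmem g, k1, k2]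
  constructor
  · rintro ⟨a, b⟩
    refine ⟨?_, (chi_one_iff _ hne).mp b⟩
    have e4 : ((vs.length : ℕ) : ZMod 2) = 0 := congrArg Multiplicative.toAdd a
    exact (ZMod.natCast_eq_zero_iff_even).mp e4
  · rintro ⟨a, b⟩
    refine ⟨?_, (chi_one_iff _ hne).mpr b⟩
    rw [(ZMod.natCast_eq_zero_iff_even).mpr a]
    rfl

end Cfsg.Agent.S2609
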