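import Mathlib
import Cfsg.Statements.S2613
import Cfsg.Agent.Helper4.Spinor4

set_option autoImplicit false
open Cfsg

namespace Cfsg.Agent.S2613

open Cfsg.Agent.Helper4.OrthPlane Cfsg.Agent.Helper4.CartanD Cfsg.Agent.Helper4.Dickson
  Cfsg.Agent.Helper4.Spinor

/-- For the hyperbolic form Σ x_j y_j on F^(2m), F finite with q elements, q odd, and 1 ≤ i ≤ m: the involution negating the first i hyperbolic pairs (x_j, y_j ↦ −x_j, −y_j for j < i) and fixing the rest lies in Ω⁺_2m(q) (commutator subgroup of the orthogonal group) if and only if q^i ≡ 1 (mod 4); its (−1)-eigenspace is a hyperbolic 2i-space. -/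
theorem result {F : Type*} [Field F] [Fintype F] {q : ℕ} (hF : Fintype.card F = q) (hq : Odd q) {m : ℕ} (i : ℕ) (hi : 1 ≤ i) (him : i ≤ m) : (∃ g : ↥(Cfsg.isometryGroup F (Cfsg.quadFormPlus m F)), g ∈ Cfsg.Omega F (Cfsg.quadFormPlus m F) ∧ ((g : Matrix.GeneralLinearGroup (Fin m ⊕ Fin m) F) : Matrix (Fin m ⊕ Fin m) (Fin m ⊕ Fin m) F) = Matrix.diagonal (fun k : Fin m ⊕ Fin m => if (Sum.elim (fun j : Fin m => (j : ℕ)) (fun j : Fin m => (j : ℕ)) k) < i then (-1 : F) else 1)) ↔ q ^ i % 4 = 1 := by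
  have hq' : Odd (Fintype.card F) := by rw [hF]; exact hq
  have h2 : (2 : F) ≠ 0 := two_ne_zero_of_odd hq'
  have hn : 2 ≤ Fintype.card (Fin m ⊕ Fin m) := by
    rw [Fintype.card_sum, Fintype.card_fin]
    omega
  have key := neg_pairs_iff (Cfsg.quadFormPlus m F) (plus_nd F m) h2 hn
    (Sum.elim (fun j : Fin m => (j : ℕ)) (fun j : Fin m => (j : ℕ))) i
    (fun j : Fin i => Sum.inl (Fin.castLE him j)) (fun j : Fin i => Sum.inr (Fin.castLE him j))
    (fun j => Sum.inl_ne_inr)
    (fun j u => plus_polar_inl F m _ u) (fun j u => plus_polar_inr F m _ u)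
    (fun j => plus_Q_inl F m _) (fun j => plus_Q_inr F m _)
    (by
      intro c j
      rcases c with c | c <;> simp [Fin.ext_iff])
  rw [chi_neg_one_pow hq' i, hF] at key
  exact key

end Cfsg.Agent.S2613
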