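import Mathlib
import Cfsg.Statements.S2614
import Cfsg.Agent.Helper4.Spinor4

set_option autoImplicit false
open Cfsg

namespace Cfsg.Agent.S2614

open Cfsg.Agent.Helper4.OrthPlane Cfsg.Agent.Helper4.CartanD Cfsg.Agent.Helper4.Dickson
  Cfsg.Agent.Helper4.Spinor

/-- For the form x_0² + Σ x_j y_j on F^(2m+1), F finite with q elements, q odd, and 1 ≤ i ≤ m: the involution of determinant one negating the first i hyperbolic pairs (and fixing x_0 and the other pairs) lies in Ω_(2m+1)(q) (commutator subgroup of the orthogonal group) if and only if q^i ≡ 1 (mod 4); its (−1)-eigenspace is a hyperbolic 2i-space. -/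
theorem result {F : Type*} [Field F] [Fintype F] {q : ℕ} (hF : Fintype.card F = q) (hq : Odd q) {m : ℕ} (i : ℕ) (hi : 1 ≤ i) (him : i ≤ m) : (∃ g : ↥(Cfsg.isometryGroup F (Cfsg.quadFormOdd m F)), g ∈ Cfsg.Omega F (Cfsg.quadFormOdd m F) ∧ ((g : Matrix.GeneralLinearGroup (Unit ⊕ (Fin m ⊕ Fin m)) F) : Matrix (Unit ⊕ (Fin m ⊕ Fin m)) (Unit ⊕ (Fin m ⊕ Fin m)) F) = Matrix.diagonal (fun k : Unit ⊕ (Fin m ⊕ Fin m) => if (Sum.elim (fun _ : Unit => i) (Sum.elim (fun j : Fin m => (j : ℕ)) (fun j : Fin m => (j : ℕ))) k) < i then (-1 : F) else 1)) ↔ q ^ i % 4 = 1 := by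
  have hq' : Odd (Fintype.card F) := by rw [hF]; exact hq
  have h2 : (2 : F) ≠ 0 := two_ne_zero_of_odd hq'
  have hn : 2 ≤ Fintype.card (Unit ⊕ (Fin m ⊕ Fin m)) := by
    rw [Fintype.card_sum, Fintype.card_sum, Fintype.card_fin, Fintype.card_unit]
    omega
  have key := neg_pairs_iff (Cfsg.quadFormOdd m F) (odd_nd F m h2) h2 hn
    (Sum.elim (fun _ : Unit => i) (Sum.elim (fun j : Fin m => (j : ℕ)) (fun j : Fin m => (j : ℕ)))) i
    (fun j : Fin i => Sum.inr (Sum.inl (Fin.castLE him j)))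
    (fun j : Fin i => Sum.inr (Sum.inr (Fin.castLE him j)))
    (fun j h => Sum.inl_ne_inr (Sum.inr_injective h))
    (fun j u => odd_polar_inl F m _ u) (fun j u => odd_polar_inr F m _ u)
    (fun j => odd_Q_inl F m _) (fun j => odd_Q_inr F m _)
    (by
      intro c j
      have hj := j.isLt
      rcases c with c | c | c
      · simp
        omega
      · simp [Fin.ext_iff]
      · simp [Fin.ext_iff])
  rw [chi_neg_one_pow hq' i, hF] at key
  exact key

end Cfsg.Agent.S2614
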