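import Mathlib
import Cfsg.Statements.S2615
import Cfsg.Agent.Helper4.Spinor4

set_option autoImplicit false
open Cfsg

namespace Cfsg.Agent.S2615

open Cfsg.Agent.Helper4.OrthPlane Cfsg.Agent.Helper4.CartanD Cfsg.Agent.Helper4.Dickson
  Cfsg.Agent.Helper4.Spinor

/-- For an elliptic form Σ_(j<m−1) x_j y_j + (z₁² + a z₁z₂ + b z₂²) (anisotropic binary part) on F^(2m), F finite with q elements, q odd, and 1 ≤ i ≤ m − 1: the involution negating the first i hyperbolic pairs and fixing the rest lies in Ω⁻_2m(q) (commutator subgroup of the orthogonal group) if and only if q^i ≡ 1 (mod 4). -/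
theorem result {F : Type*} [Field F] [Fintype F] {q : ℕ} (hF : Fintype.card F = q) (hq : Odd q) {m : ℕ} (a b : F) (hab : ∀ z₁ z₂ : F, z₁ ^ 2 + a * z₁ * z₂ + b * z₂ ^ 2 = 0 → z₁ = 0 ∧ z₂ = 0) (i : ℕ) (hi : 1 ≤ i) (him : i + 1 ≤ m) : (∃ g : ↥(Cfsg.isometryGroup F (Cfsg.quadFormMinus (m - 1) F a b)), g ∈ Cfsg.Omega F (Cfsg.quadFormMinus (m - 1) F a b) ∧ ((g : Matrix.GeneralLinearGroup ((Fin (m - 1) ⊕ Fin (m - 1)) ⊕ Fin 2) F) : Matrix ((Fin (m - 1) ⊕ Fin (m - 1)) ⊕ Fin 2) ((Fin (m - 1) ⊕ Fin (m - 1)) ⊕ Fin 2) F) = Matrix.diagonal (fun k : (Fin (m - 1) ⊕ Fin (m - 1)) ⊕ Fin 2 => if (Sum.elim (Sum.elim (fun j : Fin (m - 1) => (j : ℕ)) (fun j : Fin (m - 1) => (j : ℕ))) (fun _ : Fin 2 => i) k) < i then (-1 : F) else 1)) ↔ q ^ i % 4 = 1 := by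
  have hq' : Odd (Fintype.card F) := by rw [hF]; exact hq
  have h2 : (2 : F) ≠ 0 := two_ne_zero_of_odd hq'
  have hn : 2 ≤ Fintype.card ((Fin (m - 1) ⊕ Fin (m - 1)) ⊕ Fin 2) := by
    rw [Fintype.card_sum, Fintype.card_sum, Fintype.card_fin, Fintype.card_fin]
    omega
  have him' : i ≤ m - 1 := by omega
  have key := neg_pairs_iff (Cfsg.quadFormMinus (m - 1) F a b) (minus_nd F (m - 1) a b h2 hab) h2 hn
    (Sum.elim (Sum.elim (fun j : Fin (m - 1) => (j : ℕ)) (fun j : Fin (m - 1) => (j : ℕ)))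
      (fun _ : Fin 2 => i)) i
    (fun j : Fin i => Sum.inl (Sum.inl (Fin.castLE him' j)))
    (fun j : Fin i => Sum.inl (Sum.inr (Fin.castLE him' j)))
    (fun j h => Sum.inl_ne_inr (Sum.inl_injective h))
    (fun j u => minus_polar_inl F (m - 1) a b _ u) (fun j u => minus_polar_inr F (m - 1) a b _ u)
    (fun j => minus_Q_inl F (m - 1) a b _) (fun j => minus_Q_inr F (m - 1) a b _)
    (by
      intro c j
      have hj := j.isLt
      rcases c with (c | c) | c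
      · simp [Fin.ext_iff]
      · simp [Fin.ext_iff]
      · simp
        omega)
  rw [chi_neg_one_pow hq' i, hF] at key
  exact key

end Cfsg.Agent.S2615
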