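import Cfsg.Statements.S2619
import Mathlib

set_option autoImplicit false
open Cfsg

namespace Cfsg.Agent.S2619

/-- Over a finite field of characteristic two, given an alternating bilinear form B on a finite-dimensional space, a basis (v_i) and scalars (λ_i), there is exactly one quadratic form whose polar form is B and whose value at each v_i is λ_i. -/
theorem result {F V ι : Type*} [Field F] [Finite F] [CharP F 2] [AddCommGroup V] [Module F V] [Fintype ι] (b : Module.Basis ι F V) (B : LinearMap.BilinForm F V) (hB : B.IsAlt) (c : ι → F) : ∃! Q : QuadraticForm F V, QuadraticMap.polarBilin Q = B ∧ ∀ i, Q (b i) = c i := by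
  classical
  have h2 : (2 : F) = 0 := by
    have := CharP.cast_eq_zero F 2
    simpa using this
  have hneg : ∀ a : F, -a = a := by
    intro a
    have : a + a = 0 := by
      have : a + a = 2 * a := by ring
      rw [this, h2, zero_mul]
    exact neg_eq_of_add_eq_zero_left this
  let e : ι ≃ Fin (Fintype.card ι) := Fintype.equivFin ι
  let M : Matrix ι ι F := fun i j => if e i < e j then B (b i) (b j) else if i = j then c i else 0
  let T : LinearMap.BilinForm F V := Matrix.toBilin b M
  have hT : ∀ i j, T (b i) (b j) = M i j := by
    intro i j
    have := congrFun (congrFun (LinearMap.BilinForm.toMatrix_toBilin b M) i) j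
    rwa [LinearMap.BilinForm.toMatrix_apply] at this
  have hQ1 : QuadraticMap.polarBilin (LinearMap.BilinMap.toQuadraticMap T) = B := by
    rw [LinearMap.BilinMap.polarBilin_toQuadraticMap]
    apply LinearMap.BilinForm.ext_basis b
    intro i j
    rw [LinearMap.add_apply, LinearMap.add_apply, LinearMap.flip_apply, hT, hT]
    show (if e i < e j then B (b i) (b j) else if i = j then c i else 0)
      + (if e j < e i then B (b j) (b i) else if j = i then c j else 0) = B (b i) (b j)
    rcases lt_trichotomy (e i) (e j) with hlt | heq | hgt
    · have hne : j ≠ i := fun h => by rw [h] at hlt; exact lt_irrefl _ hlt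
      rw [if_pos hlt, if_neg (not_lt.mpr hlt.le), if_neg hne, add_zero]
    · have hij : i = j := e.injective heq
      subst hij
      rw [if_neg (lt_irrefl _), if_pos rfl, hB.self_eq_zero]
      have : c i + c i = 2 * c i := by ring
      rw [this, h2, zero_mul]
    · have hne : i ≠ j := fun h => by rw [h] at hgt; exact lt_irrefl _ hgt
      rw [if_neg (not_lt.mpr hgt.le), if_neg hne, if_pos hgt, zero_add]
      rw [← hB.neg_eq, hneg]
  have hQ2 : ∀ i, LinearMap.BilinMap.toQuadraticMap T (b i) = c i := by
    intro i
    rw [LinearMap.BilinMap.toQuadraticMap_apply, hT]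
    show (if e i < e i then B (b i) (b i) else if i = i then c i else 0) = c i
    rw [if_neg (lt_irrefl _), if_pos rfl]
  refine ⟨LinearMap.BilinMap.toQuadraticMap T, ⟨hQ1, hQ2⟩, ?_⟩
  rintro Q' ⟨hQ'1, hQ'2⟩
  ext x
  let D : V →+ F :=
    { toFun := fun x => Q' x - LinearMap.BilinMap.toQuadraticMap T x
      map_zero' := by simp
      map_add' := fun x y => by
        have h1 : QuadraticMap.polar Q' x y = QuadraticMap.polar (LinearMap.BilinMap.toQuadraticMap T) x y := by
          have := congrArg (fun S : LinearMap.BilinForm F V => S x y) (hQ'1.trans hQ1.symm)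
          simpa using this
        unfold QuadraticMap.polar at h1
        show Q' (x + y) - (LinearMap.BilinMap.toQuadraticMap T) (x + y) = _
        linear_combination h1 }
  have hD : D x = 0 := by
    rw [← b.sum_repr x, map_sum]
    apply Finset.sum_eq_zero
    intro i _
    show Q' (b.repr x i • b i) - LinearMap.BilinMap.toQuadraticMap T (b.repr x i • b i) = 0
    rw [QuadraticMap.map_smul, QuadraticMap.map_smul, hQ'2, hQ2, sub_self]
  exact sub_eq_zero.mp hD

end Cfsg.Agent.S2619
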