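import Cfsg.Statements.S2626
import Mathlib

set_option autoImplicit false
open Cfsg

namespace Cfsg.Agent.S2626

open Matrix

theorem map_mem_commutator {G H : Type*} [Group G] [Group H] (f : G →* H) {x : G}
    (hx : x ∈ commutator G) : f x ∈ commutator H := by
  have : (commutator G).map f ≤ commutator H := by
    rw [commutator_def, Subgroup.map_commutator, commutator_def]
    exact Subgroup.commutator_mono le_top le_top
  exact this (Subgroup.mem_map_of_mem f hx)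

/-- block-diagonal embedding of matrices as a monoid hom. -/
def blockHom (k l : ℕ) (F : Type*) [Field F] :
    Matrix (Fin k) (Fin k) F × Matrix (Fin l) (Fin l) F →* Matrix (Fin k ⊕ Fin l) (Fin k ⊕ Fin l) F where
  toFun p := Matrix.fromBlocks p.1 0 0 p.2
  map_one' := Matrix.fromBlocks_one
  map_mul' p q := by simp [Matrix.fromBlocks_multiply]

/-- block-diagonal embedding of general linear groups. -/
def glBlock (k l : ℕ) (F : Type*) [Field F] :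
    GL (Fin k) F × GL (Fin l) F →* GL (Fin k ⊕ Fin l) F :=
  (Units.map (blockHom k l F)).comp (MulEquiv.prodUnits.symm.toMonoidHom)

theorem glBlock_val (k l : ℕ) (F : Type*) [Field F] (a : GL (Fin k) F) (b : GL (Fin l) F) :
    ((glBlock k l F (a, b) : GL (Fin k ⊕ Fin l) F) : Matrix (Fin k ⊕ Fin l) (Fin k ⊕ Fin l) F)
      = Matrix.fromBlocks (a : Matrix (Fin k) (Fin k) F) 0 0 (b : Matrix (Fin l) (Fin l) F) := rfl

/-- Ω of an orthogonal direct sum contains the product of the Ω's: for quadratic forms Q₁ on F^k and Q₂ on F^l with non-degenerate polar forms (F finite) and Q = Q₁ ⊕ Q₂ on F^(k+l), if g₁ lies in Ω(Q₁) and g₂ in Ω(Q₂) (commutator subgroups of the orthogonal groups) then the block-diagonal isometry diag(g₁, g₂) lies in Ω(Q). -/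
theorem result {F : Type*} [Field F] [Fintype F] {k l : ℕ} (Q₁ : QuadraticForm F (Fin k → F)) (Q₂ : QuadraticForm F (Fin l → F)) (h₁ : (QuadraticMap.polarBilin Q₁).Nondegenerate) (h₂ : (QuadraticMap.polarBilin Q₂).Nondegenerate) (g₁ : ↥(Cfsg.isometryGroup F ⇑Q₁)) (g₂ : ↥(Cfsg.isometryGroup F ⇑Q₂)) (hg₁ : g₁ ∈ Cfsg.Omega F ⇑Q₁) (hg₂ : g₂ ∈ Cfsg.Omega F ⇑Q₂) : ∃ g : ↥(Cfsg.isometryGroup F (fun v : Fin k ⊕ Fin l → F => Q₁ (v ∘ Sum.inl) + Q₂ (v ∘ Sum.inr))), g ∈ Cfsg.Omega F (fun v : Fin k ⊕ Fin l → F => Q₁ (v ∘ Sum.inl) + Q₂ (v ∘ Sum.inr)) ∧ ((g : Matrix.GeneralLinearGroup (Fin k ⊕ Fin l) F) : Matrix (Fin k ⊕ Fin l) (Fin k ⊕ Fin l) F) = Matrix.fromBlocks ((g₁ : Matrix.GeneralLinearGroup (Fin k) F) : Matrix (Fin k) (Fin k) F) 0 0 ((g₂ : Matrix.GeneralLinearGroup (Fin l) F) : Matrix (Fin l) (Fin l) F) := by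
  classical
  set Q : (Fin k ⊕ Fin l → F) → F := fun v => Q₁ (v ∘ Sum.inl) + Q₂ (v ∘ Sum.inr) with hQ
  have hmem : ∀ p : ↥(Cfsg.isometryGroup F ⇑Q₁) × ↥(Cfsg.isometryGroup F ⇑Q₂),
      ((glBlock k l F).comp (MonoidHom.prodMap (Cfsg.isometryGroup F ⇑Q₁).subtype
        (Cfsg.isometryGroup F ⇑Q₂).subtype)) p ∈ Cfsg.isometryGroup F Q := by
    rintro ⟨a, b⟩ u v
    show Q ((Matrix.fromBlocks (a.1 : Matrix (Fin k) (Fin k) F) 0 0 (b.1 : Matrix (Fin l) (Fin l) F)) *ᵥ u) = Q u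
    have ha : ∀ w, Q₁ ((a.1 : Matrix (Fin k) (Fin k) F) *ᵥ w) = Q₁ w := fun w => a.2 w w
    have hb : ∀ w, Q₂ ((b.1 : Matrix (Fin l) (Fin l) F) *ᵥ w) = Q₂ w := fun w => b.2 w w
    rw [Matrix.fromBlocks_mulVec]
    simp only [hQ, Sum.elim_comp_inl, Sum.elim_comp_inr, Matrix.zero_mulVec, add_zero, zero_add, ha, hb]
  let Φ : ↥(Cfsg.isometryGroup F ⇑Q₁) × ↥(Cfsg.isometryGroup F ⇑Q₂) →* ↥(Cfsg.isometryGroup F Q) :=
    MonoidHom.codRestrict ((glBlock k l F).comp (MonoidHom.prodMap (Cfsg.isometryGroup F ⇑Q₁).subtype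
        (Cfsg.isometryGroup F ⇑Q₂).subtype)) (Cfsg.isometryGroup F Q) hmem
  refine ⟨Φ (g₁, g₂), ?_, rfl⟩
  have hprod : (g₁, g₂) ∈ commutator (↥(Cfsg.isometryGroup F ⇑Q₁) × ↥(Cfsg.isometryGroup F ⇑Q₂)) := by
    have e : (g₁, g₂) = MonoidHom.inl _ _ g₁ * MonoidHom.inr _ _ g₂ := by simp
    rw [e]
    exact Subgroup.mul_mem _ (map_mem_commutator _ hg₁) (map_mem_commutator _ hg₂)
  exact map_mem_commutator Φ hprod

end Cfsg.Agent.S2626
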