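import Mathlib
import Cfsg.Statements.S2628
import Cfsg.Agent.Helper4.Dickson

set_option autoImplicit false
open Cfsg

namespace Cfsg.Agent.S2628

/-- The orthogonal sum of a form with itself. -/
def QQ {F : Type*} [Field F] {k : ℕ} (Q : QuadraticForm F (Fin k → F)) :
    (Fin k ⊕ Fin k → F) → F :=
  fun v => Q (v ∘ Sum.inl) + Q (v ∘ Sum.inr)

theorem QQ_polar {F : Type*} [Field F] {k : ℕ} (Q : QuadraticForm F (Fin k → F))
    (x y : Fin k ⊕ Fin k → F) :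
    QuadraticMap.polar (QQ Q) x y = QuadraticMap.polar (⇑Q) (x ∘ Sum.inl) (y ∘ Sum.inl)
      + QuadraticMap.polar (⇑Q) (x ∘ Sum.inr) (y ∘ Sum.inr) := by
  have e1 : (x + y) ∘ Sum.inl = x ∘ Sum.inl + y ∘ Sum.inl := rfl
  have e2 : (x + y) ∘ Sum.inr = x ∘ Sum.inr + y ∘ Sum.inr := rfl
  simp only [QuadraticMap.polar, QQ]
  rw [e1, e2]
  ring

theorem QQ_nondeg {F : Type*} [Field F] {k : ℕ} (Q : QuadraticForm F (Fin k → F))
    (hQ' : Cfsg.Geo.IsNondegenerateQuadraticForm (⇑Q)) :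
    Cfsg.Geo.IsNondegenerateQuadraticForm (QQ Q) := by
  have hb := hQ'.polar_bilinear
  refine ⟨fun c v => ?_, ⟨?_, ?_, ?_, ?_⟩, ?_⟩
  · have e1 : (c • v) ∘ Sum.inl = c • (v ∘ Sum.inl) := rfl
    have e2 : (c • v) ∘ Sum.inr = c • (v ∘ Sum.inr) := rfl
    show Q ((c • v) ∘ Sum.inl) + Q ((c • v) ∘ Sum.inr)
      = c ^ 2 * (Q (v ∘ Sum.inl) + Q (v ∘ Sum.inr))
    rw [e1, e2, hQ'.smul, hQ'.smul]
    ring
  · intro x y v
    have e1 : (x + y) ∘ Sum.inl = x ∘ Sum.inl + y ∘ Sum.inl := rfl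
    have e2 : (x + y) ∘ Sum.inr = x ∘ Sum.inr + y ∘ Sum.inr := rfl
    rw [QQ_polar, QQ_polar, QQ_polar, e1, e2, hb.add_left, hb.add_left]
    ring
  · intro c x v
    have e1 : (c • x) ∘ Sum.inl = c • (x ∘ Sum.inl) := rfl
    have e2 : (c • x) ∘ Sum.inr = c • (x ∘ Sum.inr) := rfl
    rw [QQ_polar, QQ_polar, e1, e2, hb.smul_left, hb.smul_left]
    ring
  · intro v x y
    have e1 : (x + y) ∘ Sum.inl = x ∘ Sum.inl + y ∘ Sum.inl := rfl
    have e2 : (x + y) ∘ Sum.inr = x ∘ Sum.inr + y ∘ Sum.inr := rfl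
    rw [QQ_polar, QQ_polar, QQ_polar, e1, e2, hb.add_right, hb.add_right]
    ring
  · intro c v x
    have e1 : (c • x) ∘ Sum.inl = c • (x ∘ Sum.inl) := rfl
    have e2 : (c • x) ∘ Sum.inr = c • (x ∘ Sum.inr) := rfl
    rw [QQ_polar, QQ_polar, e1, e2, hb.smul_right, hb.smul_right]
    ring
  · intro v hv
    have hor : v ∘ Sum.inl ≠ 0 ∨ v ∘ Sum.inr ≠ 0 := by
      by_contra hcon
      push_neg at hcon
      apply hv
      funext i
      rcases i with i | i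
      · exact congrFun hcon.1 i
      · exact congrFun hcon.2 i
    rcases hor with hl | hr
    · obtain ⟨⟨x₁, hx₁⟩, ⟨x₂, hx₂⟩⟩ := hQ'.nondegenerate _ hl
      constructor
      · refine ⟨Sum.elim x₁ 0, ?_⟩
        rw [QQ_polar, Sum.elim_comp_inl, Sum.elim_comp_inr, QuadraticMap.polar_zero_left,
          add_zero]
        exact hx₁
      · refine ⟨Sum.elim x₂ 0, ?_⟩
        rw [QQ_polar, Sum.elim_comp_inl, Sum.elim_comp_inr, QuadraticMap.polar_zero_right,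
          add_zero]
        exact hx₂
    · obtain ⟨⟨x₁, hx₁⟩, ⟨x₂, hx₂⟩⟩ := hQ'.nondegenerate _ hr
      constructor
      · refine ⟨Sum.elim 0 x₁, ?_⟩
        rw [QQ_polar, Sum.elim_comp_inl, Sum.elim_comp_inr, QuadraticMap.polar_zero_left,
          zero_add]
        exact hx₁
      · refine ⟨Sum.elim 0 x₂, ?_⟩
        rw [QQ_polar, Sum.elim_comp_inl, Sum.elim_comp_inr, QuadraticMap.polar_zero_right,
          zero_add]
        exact hx₂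

/-- For an isometry g of a quadratic form Q on F^k with non-degenerate polar form (F finite; excluding k = 2 over the field of two elements), the diagonal element g ⊕ g of the orthogonal group of Q ⊥ Q lies in Ω (the commutator subgroup). -/
theorem result {F : Type*} [Field F] [Fintype F] {k : ℕ} (h : Fintype.card F ≠ 2 ∨ k ≠ 2) (Q : QuadraticForm F (Fin k → F)) (hQ : (QuadraticMap.polarBilin Q).Nondegenerate) (g : ↥(Cfsg.isometryGroup F ⇑Q)) : ∃ x : ↥(Cfsg.isometryGroup F (fun v : Fin k ⊕ Fin k → F => Q (v ∘ Sum.inl) + Q (v ∘ Sum.inr))), x ∈ Cfsg.Omega F (fun v : Fin k ⊕ Fin k → F => Q (v ∘ Sum.inl) + Q (v ∘ Sum.inr)) ∧ ((x : Matrix.GeneralLinearGroup (Fin k ⊕ Fin k) F) : Matrix (Fin k ⊕ Fin k) (Fin k ⊕ Fin k) F) = Matrix.fromBlocks ((g : Matrix.GeneralLinearGroup (Fin k) F) : Matrix (Fin k) (Fin k) F) 0 0 ((g : Matrix.GeneralLinearGroup (Fin k) F) : Matrix (Fin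 k) (Fin k) F) := by
  have hQ' := Cfsg.Agent.Helper4.Dickson.of_form Q hQ
  have hQ₂ := QQ_nondeg Q hQ'
  have h₂ : Fintype.card F ≠ 2 ∨ Fintype.card (Fin k ⊕ Fin k) ≠ 4 := by
    rw [Fintype.card_sum, Fintype.card_fin]
    rcases h with h1 | h1
    · left; exact h1
    · right; omega
  obtain ⟨G, hGdef⟩ : ∃ G : Matrix (Fin k) (Fin k) F,
      G = ((g : Matrix.GeneralLinearGroup (Fin k) F) : Matrix (Fin k) (Fin k) F) := ⟨_, rfl⟩
  obtain ⟨G', hG'def⟩ : ∃ G' : Matrix (Fin k) (Fin k) F,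
      G' = (((g : Matrix.GeneralLinearGroup (Fin k) F)⁻¹ : Matrix.GeneralLinearGroup (Fin k) F)
        : Matrix (Fin k) (Fin k) F) := ⟨_, rfl⟩
  have hGG' : G * G' = 1 := by
    rw [hGdef, hG'def, ← Units.val_mul, mul_inv_cancel, Units.val_one]
  have hG'G : G' * G = 1 := by
    rw [hGdef, hG'def, ← Units.val_mul, inv_mul_cancel, Units.val_one]
  have hG : ∀ u, Q (Matrix.mulVec G u) = Q u := by
    intro u
    rw [hGdef]
    exact g.2 u u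
  rw [← hGdef]
  show ∃ x : ↥(Cfsg.isometryGroup F (QQ Q)), x ∈ commutator ↥(Cfsg.isometryGroup F (QQ Q)) ∧
    ((x : Matrix.GeneralLinearGroup (Fin k ⊕ Fin k) F) : Matrix (Fin k ⊕ Fin k) (Fin k ⊕ Fin k) F)
      = Matrix.fromBlocks G 0 0 G
  obtain ⟨hh, hhdef⟩ : ∃ hh : GL (Fin k ⊕ Fin k) F,
      (hh : Matrix (Fin k ⊕ Fin k) (Fin k ⊕ Fin k) F) = Matrix.fromBlocks G 0 0 1 :=
    ⟨⟨Matrix.fromBlocks G 0 0 1, Matrix.fromBlocks G' 0 0 1,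
      by rw [Matrix.fromBlocks_multiply]; simp [hGG', Matrix.fromBlocks_one],
      by rw [Matrix.fromBlocks_multiply]; simp [hG'G, Matrix.fromBlocks_one]⟩, rfl⟩
  obtain ⟨ss, ssdef⟩ : ∃ ss : GL (Fin k ⊕ Fin k) F,
      (ss : Matrix (Fin k ⊕ Fin k) (Fin k ⊕ Fin k) F) = Matrix.fromBlocks 0 1 1 0 ∧
      ((ss⁻¹ : GL (Fin k ⊕ Fin k) F) : Matrix (Fin k ⊕ Fin k) (Fin k ⊕ Fin k) F)
        = Matrix.fromBlocks 0 1 1 0 :=
    ⟨⟨Matrix.fromBlocks 0 1 1 0, Matrix.fromBlocks 0 1 1 0,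
      by rw [Matrix.fromBlocks_multiply]; simp [Matrix.fromBlocks_one],
      by rw [Matrix.fromBlocks_multiply]; simp [Matrix.fromBlocks_one]⟩, rfl, rfl⟩
  have hhI : hh ∈ Cfsg.isometryGroup F (QQ Q) := by
    show ∀ u w : Fin k ⊕ Fin k → F,
      QQ Q (Matrix.mulVec (hh : Matrix (Fin k ⊕ Fin k) (Fin k ⊕ Fin k) F) u) = QQ Q u
    intro u _
    rw [hhdef, Matrix.fromBlocks_mulVec]
    show Q (Matrix.mulVec G (u ∘ Sum.inl) + Matrix.mulVec 0 (u ∘ Sum.inr))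
      + Q (Matrix.mulVec 0 (u ∘ Sum.inl) + Matrix.mulVec 1 (u ∘ Sum.inr))
      = Q (u ∘ Sum.inl) + Q (u ∘ Sum.inr)
    rw [Matrix.zero_mulVec, Matrix.zero_mulVec, Matrix.one_mulVec, add_zero, zero_add, hG]
  have ssI : ss ∈ Cfsg.isometryGroup F (QQ Q) := by
    show ∀ u w : Fin k ⊕ Fin k → F,
      QQ Q (Matrix.mulVec (ss : Matrix (Fin k ⊕ Fin k) (Fin k ⊕ Fin k) F) u) = QQ Q u
    intro u _
    rw [ssdef.1, Matrix.fromBlocks_mulVec]
    show Q (Matrix.mulVec 0 (u ∘ Sum.inl) + Matrix.mulVec 1 (u ∘ Sum.inr))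
      + Q (Matrix.mulVec 1 (u ∘ Sum.inl) + Matrix.mulVec 0 (u ∘ Sum.inr))
      = Q (u ∘ Sum.inl) + Q (u ∘ Sum.inr)
    rw [Matrix.zero_mulVec, Matrix.zero_mulVec, Matrix.one_mulVec, Matrix.one_mulVec, add_zero,
      zero_add, add_comm]
  obtain ⟨h', hh'⟩ : ∃ h' : ↥(Cfsg.isometryGroup F (QQ Q)),
      (h' : GL (Fin k ⊕ Fin k) F) = hh := ⟨⟨hh, hhI⟩, rfl⟩
  obtain ⟨σ', hσ'⟩ : ∃ σ' : ↥(Cfsg.isometryGroup F (QQ Q)),
      (σ' : GL (Fin k ⊕ Fin k) F) = ss := ⟨⟨ss, ssI⟩, rfl⟩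
  have hsq := Cfsg.Agent.Helper4.Dickson.sq_mem (QQ Q) hQ₂ h₂ h'
  have hc : h'⁻¹ * σ' * h'⁻¹⁻¹ * σ'⁻¹ ∈ commutator ↥(Cfsg.isometryGroup F (QQ Q)) := by
    rw [commutator_def]
    exact Subgroup.commutator_mem_commutator (Subgroup.mem_top _) (Subgroup.mem_top _)
  refine ⟨h' * σ' * h' * σ'⁻¹, ?_, ?_⟩
  · have e : h' * σ' * h' * σ'⁻¹ = h' * h' * (h'⁻¹ * σ' * h'⁻¹⁻¹ * σ'⁻¹) := by
      group
    rw [e]
    exact mul_mem hsq hc
  · show ((h' : GL (Fin k ⊕ Fin k) F) : Matrix (Fin k ⊕ Fin k) (Fin k ⊕ Fin k) F)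
        * ((σ' : GL (Fin k ⊕ Fin k) F) : Matrix (Fin k ⊕ Fin k) (Fin k ⊕ Fin k) F)
        * ((h' : GL (Fin k ⊕ Fin k) F) : Matrix (Fin k ⊕ Fin k) (Fin k ⊕ Fin k) F)
        * (((σ' : GL (Fin k ⊕ Fin k) F)⁻¹ : GL (Fin k ⊕ Fin k) F)
            : Matrix (Fin k ⊕ Fin k) (Fin k ⊕ Fin k) F)
      = Matrix.fromBlocks G 0 0 G
    rw [hh', hσ', hhdef, ssdef.1, ssdef.2, Matrix.fromBlocks_multiply, Matrix.fromBlocks_multiply,
      Matrix.fromBlocks_multiply]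
    simp

end Cfsg.Agent.S2628
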