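import Mathlib
import Cfsg.Statements.S2634
import Cfsg.Agent.Helper4.Dickson

set_option autoImplicit false
open Cfsg

namespace Cfsg.Agent.S2634

/-- Over a finite field of characteristic two, Ω (the commutator subgroup of the orthogonal group of a quadratic form Q on F^n with non-degenerate polar form; excluding dimension 4 over the field of two elements) acts transitively on the non-singular 1-spaces: for u, v with Q(u) ≠ 0 and Q(v) ≠ 0 some element of Ω carries the line through u to the line through v. -/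
theorem result {F : Type*} [Field F] [Fintype F] [CharP F 2] {n : ℕ} (h : Fintype.card F ≠ 2 ∨ n ≠ 4) (Q : QuadraticForm F (Fin n → F)) (hQ : (QuadraticMap.polarBilin Q).Nondegenerate) (u v : Fin n → F) (hu : Q u ≠ 0) (hv : Q v ≠ 0) : ∃ g : ↥(Cfsg.isometryGroup F ⇑Q), g ∈ Cfsg.Omega F ⇑Q ∧ (F ∙ ((g : Matrix.GeneralLinearGroup (Fin n) F) : Matrix (Fin n) (Fin n) F).mulVec u) = F ∙ v := by
  have hQ' := Cfsg.Agent.Helper4.Dickson.of_form Q hQ
  have h' : Fintype.card F ≠ 2 ∨ Fintype.card (Fin n) ≠ 4 := by rw [Fintype.card_fin]; exact h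
  have hch : (2 : F) = 0 := CharTwo.two_eq_zero
  have hsq : ∀ a : F, ∃ s, s * s = a := by
    intro a
    obtain ⟨r, hr⟩ := FiniteField.isSquare_of_char_two (ringChar.eq F 2) a
    exact ⟨r, hr.symm⟩
  obtain ⟨s, hs⟩ := hsq (Q u * (Q v)⁻¹)
  have hs0 : s ≠ 0 := by
    rintro rfl
    rw [mul_zero] at hs
    exact mul_ne_zero hu (inv_ne_zero hv) hs.symm
  have hsv : Q u = Q (s • v) := by
    rw [hQ'.smul, pow_two, hs, mul_assoc, inv_mul_cancel₀ hv, mul_one]
  obtain ⟨g, hg, hgu⟩ := Cfsg.Agent.Helper4.Dickson.omega_map (⇑Q) hQ' h' hch hsq u (s • v) hu hsv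
  refine ⟨g, hg, ?_⟩
  show (F ∙ (Matrix.mulVec ((g : Matrix.GeneralLinearGroup (Fin n) F) : Matrix (Fin n) (Fin n) F) u)) = F ∙ v
  rw [hgu]
  exact Submodule.span_singleton_smul_eq (IsUnit.mk0 s hs0) v

end Cfsg.Agent.S2634
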