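import Mathlib
import Cfsg.Statements.S2635
import Cfsg.Agent.Helper4.Dickson

set_option autoImplicit false
open Cfsg

namespace Cfsg.Agent.S2635

/-- Over a finite field of characteristic two, for a quadratic form Q on F^n with non-degenerate polar form, n ≥ 2, other than dimension 4 over the field of two elements, Ω (the commutator subgroup of the orthogonal group) is exactly the subgroup generated by the products of two reflections (orthogonal transvections) x ↦ x − Q(v)⁻¹ f(x, v) v, Q(v) ≠ 0: the products of an even number of reflections. -/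
theorem result {F : Type*} [Field F] [Fintype F] [CharP F 2] {n : ℕ} (hn : 2 ≤ n) (h : Fintype.card F ≠ 2 ∨ n ≠ 4) (Q : QuadraticForm F (Fin n → F)) (hQ : (QuadraticMap.polarBilin Q).Nondegenerate) : Cfsg.Omega F ⇑Q = Subgroup.closure {g : ↥(Cfsg.isometryGroup F ⇑Q) | ∃ u v : Fin n → F, Q u ≠ 0 ∧ Q v ≠ 0 ∧ ((g : Matrix.GeneralLinearGroup (Fin n) F) : Matrix (Fin n) (Fin n) F) = Cfsg.reflectionMatrix ⇑Q u * Cfsg.reflectionMatrix ⇑Q v} := by
  have hQ' := Cfsg.Agent.Helper4.Dickson.of_form Q hQ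
  have h' : Fintype.card F ≠ 2 ∨ Fintype.card (Fin n) ≠ 4 := by rw [Fintype.card_fin]; exact h
  have hch : (2 : F) = 0 := CharTwo.two_eq_zero
  have hsq : ∀ a : F, ∃ s, s * s = a := by
    intro a
    obtain ⟨r, hr⟩ := FiniteField.isSquare_of_char_two (ringChar.eq F 2) a
    exact ⟨r, hr.symm⟩
  have hx : (fun _ : Fin n => (1 : F)) ≠ 0 := by
    intro h0
    have h5 := congrFun h0 ⟨0, by omega⟩
    simp at h5
  obtain ⟨v₀, hv₀⟩ := Cfsg.Agent.Helper4.CartanD.exists_ns (⇑Q) hQ' _ hx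
  have hnot := Cfsg.Agent.Helper4.Dickson.refl_not_mem (⇑Q) hQ' h' v₀ hv₀
  have hE := Cfsg.Agent.Helper4.Dickson.E_le (⇑Q) hQ' h' hch hsq
  have hset : {g : ↥(Cfsg.isometryGroup F ⇑Q) | ∃ u v : Fin n → F, Q u ≠ 0 ∧ Q v ≠ 0 ∧ ((g : Matrix.GeneralLinearGroup (Fin n) F) : Matrix (Fin n) (Fin n) F) = Cfsg.reflectionMatrix ⇑Q u * Cfsg.reflectionMatrix ⇑Q v} = Cfsg.Agent.Helper4.Dickson.pairSet (⇑Q) hQ' := by
    ext g
    constructor
    · rintro ⟨u, v, hu, hv, hg⟩
      refine ⟨u, v, hu, hv, ?_⟩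
      apply Subtype.ext
      apply Units.ext
      rw [hg, ← Cfsg.Agent.Helper4.CartanD.R_eq (⇑Q) hQ' u, ← Cfsg.Agent.Helper4.CartanD.R_eq (⇑Q) hQ' v]
      rfl
    · rintro ⟨u, v, hu, hv, rfl⟩
      refine ⟨u, v, hu, hv, ?_⟩
      rw [← Cfsg.Agent.Helper4.CartanD.R_eq (⇑Q) hQ' u, ← Cfsg.Agent.Helper4.CartanD.R_eq (⇑Q) hQ' v]
      rfl
  rw [hset]
  apply le_antisymm
  · intro b hb
    rcases Cfsg.Agent.Helper4.Dickson.E_or (⇑Q) hQ' h' v₀ hv₀ b with h1 | h1
    · exact h1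
    · exfalso
      apply hnot
      have h3 := mul_mem (inv_mem hb) (hE h1)
      rwa [inv_mul_cancel_left] at h3
  · exact hE

end Cfsg.Agent.S2635
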