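import Cfsg.Statements.S2636
import Mathlib

set_option autoImplicit false
open Cfsg

namespace Cfsg.Agent.S2636

open Matrix

/-- partial norms: `nrm σ c i = c * σ c * ... * σ^(i-1) c`. -/
def nrm {F : Type*} [Field F] (σ : F ≃+* F) (c : F) : ℕ → F
  | 0 => 1
  | (i + 1) => c * σ (nrm σ c i)

theorem h90 {F : Type*} [Field F] (σ : F ≃+* F) (r : ℕ) (hr : 0 < r) (hσ : orderOf σ = r) (c : F)
    (hc : nrm σ c r = 1) : ∃ μ : F, μ ≠ 0 ∧ c * σ μ = μ := by
  classical
  have hpow : σ ^ r = 1 := by rw [← hσ]; exact pow_orderOf_eq_one σ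
  by_contra hcon
  push_neg at hcon
  have hT : ∀ x : F, ∑ i ∈ Finset.range r, nrm σ c i * (σ ^ i) x = 0 := by
    intro x
    by_contra h0
    apply hcon _ h0
    rw [map_sum, Finset.mul_sum]
    have h1 : ∀ i ∈ Finset.range r, c * σ (nrm σ c i * (σ ^ i) x)
        = nrm σ c (i + 1) * (σ ^ (i + 1)) x := by
      intro i _
      rw [map_mul, ← mul_assoc, pow_succ']
      rfl
    rw [Finset.sum_congr rfl h1]
    have h2 := Finset.sum_range_succ' (fun i => nrm σ c i * (σ ^ i) x) r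
    have h3 := Finset.sum_range_succ (fun i => nrm σ c i * (σ ^ i) x) r
    have h4 : nrm σ c r * (σ ^ r) x = nrm σ c 0 * (σ ^ 0) x := by
      rw [hc, hpow, pow_zero]; rfl
    beta_reduce at h2 h3
    rw [h3, h4] at h2
    exact (add_right_cancel h2).symm
  have hli := linearIndependent_monoidHom F F
  have hinj : Function.Injective
      (fun i : Fin r => (RingEquiv.toRingHom (σ ^ (i : ℕ))).toMonoidHom) := by
    intro i j hij
    have h1 : σ ^ (i : ℕ) = σ ^ (j : ℕ) := by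
      ext x
      exact congrArg (fun f : F →* F => f x) hij
    apply Fin.ext
    exact pow_injOn_Iio_orderOf (x := σ) (by rw [Set.mem_Iio, hσ]; exact i.2)
      (by rw [Set.mem_Iio, hσ]; exact j.2) h1
  have hli2 := hli.comp _ hinj
  rw [Fintype.linearIndependent_iff] at hli2
  have h0 := hli2 (fun i => nrm σ c (i : ℕ)) (by
    funext x
    rw [Finset.sum_apply]
    simp only [Function.comp_apply, Pi.smul_apply, smul_eq_mul]
    have := Fin.sum_univ_eq_sum_range (fun i => nrm σ c i * (σ ^ i) x) r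
    rw [Pi.zero_apply, ← hT x, ← this]
    rfl) ⟨0, hr⟩
  exact one_ne_zero h0

/-- Centraliser of a field automorphism in PGL_n: let F be the field with q = q₀^r elements, σ a field automorphism of F of prime order r (so its fixed field has q₀ elements) and n ≥ 1. The invertible matrices g whose entrywise image under σ is a scalar multiple of g — those whose coset modulo scalars is fixed by σ — number (q − 1)/(q₀ − 1) · |GL_n(q₀)|; equivalently the centraliser in PGL_n(q) of the induced automorphism has the order of PGL_n(q₀). -/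
theorem result {F : Type*} [Field F] [Fintype F] {q₀ r n : ℕ} (hr : r.Prime) (hn : 1 ≤ n) (hF : Fintype.card F = q₀ ^ r) (σ : F ≃+* F) (hσ : orderOf σ = r) : Nat.card {g : GL (Fin n) F // ∃ c : F, c ≠ 0 ∧ (g : Matrix (Fin n) (Fin n) F).map σ = c • (g : Matrix (Fin n) (Fin n) F)} = (q₀ ^ r - 1) / (q₀ - 1) * ∏ i : Fin n, (q₀ ^ n - q₀ ^ (i : ℕ)) := by
  classical
  obtain ⟨G, hG⟩ : ∃ G : Subgroup (F ≃+* F), G = Subgroup.zpowers σ := ⟨_, rfl⟩
  haveI : Finite (F ≃+* F) := Finite.of_injective (fun e : F ≃+* F => (e : F → F))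
    (fun a b h => RingEquiv.ext (congrFun h))
  haveI : Fintype ↥G := Fintype.ofFinite _
  have hGcard : Fintype.card ↥G = r := by
    rw [← Nat.card_eq_fintype_card, hG, Nat.card_zpowers, hσ]
  obtain ⟨F₀, hF₀⟩ : ∃ F₀ : Subfield F, F₀ = FixedPoints.subfield (↥G) F := ⟨_, rfl⟩
  have hmem : ∀ x : F, x ∈ F₀ ↔ σ x = x := by
    intro x
    rw [hF₀]
    constructor
    · intro h
      exact h ⟨σ, by rw [hG]; exact Subgroup.mem_zpowers σ⟩
    · intro h
      rintro ⟨τ, hτ⟩
      rw [hG] at hτ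
      have hle : Subgroup.zpowers σ ≤ MulAction.stabilizer (F ≃+* F) x := by
        rw [Subgroup.zpowers_le]; exact h
      exact hle hτ
  have hfin : Module.finrank ↥F₀ F = r := by
    rw [hF₀, FixedPoints.finrank_eq_card, hGcard]
  haveI : Fintype ↥F₀ := Fintype.ofFinite _
  have hcard0 : Fintype.card ↥F₀ = q₀ := by
    have h1 : Fintype.card F = Fintype.card ↥F₀ ^ Module.finrank ↥F₀ F :=
      Module.card_eq_pow_finrank
    rw [hfin, hF] at h1
    exact (Nat.pow_left_injective hr.ne_zero h1).symm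
  have hq2 : 2 ≤ q₀ := by
    have h1 : 1 < Fintype.card F := Fintype.one_lt_card
    rw [hF] at h1
    by_contra hcon
    have h2 : q₀ ≤ 1 := by omega
    have h3 : q₀ ^ r ≤ 1 ^ r := Nat.pow_le_pow_left h2 r
    rw [one_pow] at h3
    omega
  have hpow : σ ^ r = 1 := by rw [← hσ]; exact pow_orderOf_eq_one σ
  obtain ⟨z, hz⟩ : ∃ z : Fˣ →* GL (Fin n) F, ∀ μ : Fˣ,
      ((z μ : GL (Fin n) F) : Matrix (Fin n) (Fin n) F)
        = (μ : F) • (1 : Matrix (Fin n) (Fin n) F) := by
    refine ⟨Units.map (algebraMap F (Matrix (Fin n) (Fin n) F)).toMonoidHom, fun μ => ?_⟩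
    rw [Units.coe_map]
    exact Algebra.algebraMap_eq_smul_one _
  obtain ⟨m, hm⟩ : ∃ m : GL (Fin n) ↥F₀ →* GL (Fin n) F, ∀ (h : GL (Fin n) ↥F₀) (i j : Fin n),
      ((m h : GL (Fin n) F) : Matrix (Fin n) (Fin n) F) i j
        = ((h : Matrix (Fin n) (Fin n) ↥F₀) i j : F) :=
    ⟨Matrix.GeneralLinearGroup.map (algebraMap ↥F₀ F),
      fun h i j => Matrix.GeneralLinearGroup.map_apply _ _ _ _⟩
  have hcomm : ∀ (μ : Fˣ) (h : GL (Fin n) ↥F₀), Commute (z μ) (m h) := by
    intro μ h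
    apply Units.ext
    rw [Units.val_mul, Units.val_mul, hz, smul_mul_assoc, one_mul, mul_smul_comm, mul_one]
  obtain ⟨Φ, hΦ⟩ : ∃ Φ : Fˣ × GL (Fin n) ↥F₀ →* GL (Fin n) F,
      ∀ (μ : Fˣ) (h : GL (Fin n) ↥F₀) (i j : Fin n),
      ((Φ (μ, h) : GL (Fin n) F) : Matrix (Fin n) (Fin n) F) i j
        = (μ : F) * ((h : Matrix (Fin n) (Fin n) ↥F₀) i j : F) := by
    refine ⟨MonoidHom.noncommCoprod z m hcomm, fun μ h i j => ?_⟩
    rw [MonoidHom.noncommCoprod_apply, Units.val_mul, hz, smul_mul_assoc, one_mul,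
      Matrix.smul_apply, hm, smul_eq_mul]
  have hrange : ∀ g : GL (Fin n) F, g ∈ Φ.range ↔ ∃ c : F, c ≠ 0 ∧
      (g : Matrix (Fin n) (Fin n) F).map σ = c • (g : Matrix (Fin n) (Fin n) F) := by
    intro g
    constructor
    · rintro ⟨⟨μ, h⟩, rfl⟩
      refine ⟨σ μ * (μ : F)⁻¹,
        mul_ne_zero ((map_ne_zero σ).mpr μ.ne_zero) (inv_ne_zero μ.ne_zero), ?_⟩
      ext i j
      rw [Matrix.map_apply, Matrix.smul_apply, hΦ, map_mul, smul_eq_mul]
      have h1 : σ ((h : Matrix (Fin n) (Fin n) ↥F₀) i j : F)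
          = ((h : Matrix (Fin n) (Fin n) ↥F₀) i j : F) := (hmem _).mp (SetLike.coe_mem _)
      rw [h1, mul_assoc, ← mul_assoc (μ : F)⁻¹, inv_mul_cancel₀ μ.ne_zero, one_mul]
    · rintro ⟨c, hc, hg⟩
      have hent : ∀ i j, σ ((g : Matrix (Fin n) (Fin n) F) i j)
          = c * (g : Matrix (Fin n) (Fin n) F) i j := by
        intro i j
        have := congrFun (congrFun hg i) j
        rw [Matrix.map_apply, Matrix.smul_apply, smul_eq_mul] at this
        exact this
      have hiter : ∀ k i j, (σ ^ k) ((g : Matrix (Fin n) (Fin n) F) i j)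
          = nrm σ c k * (g : Matrix (Fin n) (Fin n) F) i j := by
        intro k
        induction k with
        | zero =>
          intro i j
          rw [pow_zero]
          show (g : Matrix (Fin n) (Fin n) F) i j = 1 * _
          rw [one_mul]
        | succ k ih =>
          intro i j
          rw [pow_succ']
          show σ ((σ ^ k) _) = (c * σ (nrm σ c k)) * _
          rw [ih, map_mul, hent]
          ring
      have hdet : (g : Matrix (Fin n) (Fin n) F).det ≠ 0 := by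
        have h1 : IsUnit (g : Matrix (Fin n) (Fin n) F) := g.isUnit
        rw [Matrix.isUnit_iff_isUnit_det] at h1
        exact h1.ne_zero
      obtain ⟨i₀, j₀, hij⟩ : ∃ i j, (g : Matrix (Fin n) (Fin n) F) i j ≠ 0 := by
        by_contra hcon
        push_neg at hcon
        have h0 : (g : Matrix (Fin n) (Fin n) F) = 0 := by ext i j; exact hcon i j
        rw [h0] at hdet
        haveI : Nonempty (Fin n) := ⟨⟨0, hn⟩⟩
        exact hdet Matrix.det_zero
      have hN : nrm σ c r = 1 := by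
        have h1 := hiter r i₀ j₀
        rw [hpow] at h1
        have h2 : 1 * (g : Matrix (Fin n) (Fin n) F) i₀ j₀
            = nrm σ c r * (g : Matrix (Fin n) (Fin n) F) i₀ j₀ := by
          rw [one_mul]; exact h1
        exact (mul_right_cancel₀ hij h2).symm
      obtain ⟨μ, hμ0, hμ⟩ := h90 σ r hr.pos hσ c hN
      have hfix : ∀ i j, μ * (g : Matrix (Fin n) (Fin n) F) i j ∈ F₀ := by
        intro i j
        rw [hmem, map_mul, hent, ← mul_assoc, mul_comm (σ μ) c, hμ]
      obtain ⟨h₀, hh₀⟩ : ∃ h₀ : Matrix (Fin n) (Fin n) ↥F₀,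
          h₀ = fun i j => ⟨μ * (g : Matrix (Fin n) (Fin n) F) i j, hfix i j⟩ := ⟨_, rfl⟩
      have hmap : h₀.map (algebraMap ↥F₀ F) = μ • (g : Matrix (Fin n) (Fin n) F) := by
        ext i j
        rw [hh₀]
        rfl
      have hdet0 : h₀.det ≠ 0 := by
        intro h0
        have h1 : (algebraMap ↥F₀ F) h₀.det = (h₀.map (algebraMap ↥F₀ F)).det := by
          rw [RingHom.map_det, RingHom.mapMatrix_apply]
        rw [h0, map_zero, hmap, Matrix.det_smul] at h1
        exact mul_ne_zero (pow_ne_zero _ hμ0) hdet h1.symm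
      refine ⟨(Units.mk0 μ⁻¹ (inv_ne_zero hμ0),
        Matrix.GeneralLinearGroup.mkOfDetNeZero h₀ hdet0), ?_⟩
      apply Units.ext
      ext i j
      rw [hΦ]
      show μ⁻¹ * ((h₀ i j : ↥F₀) : F) = _
      rw [hh₀]
      show μ⁻¹ * (μ * _) = _
      rw [← mul_assoc, inv_mul_cancel₀ hμ0, one_mul]
  -- the kernel
  obtain ⟨i₀⟩ : Nonempty (Fin n) := ⟨⟨0, hn⟩⟩
  obtain ⟨zz, hzz⟩ : ∃ zz : (↥F₀)ˣ →* GL (Fin n) ↥F₀, ∀ l : (↥F₀)ˣ,
      ((zz l : GL (Fin n) ↥F₀) : Matrix (Fin n) (Fin n) ↥F₀)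
        = (l : ↥F₀) • (1 : Matrix (Fin n) (Fin n) ↥F₀) := by
    refine ⟨Units.map (algebraMap ↥F₀ (Matrix (Fin n) (Fin n) ↥F₀)).toMonoidHom, fun μ => ?_⟩
    rw [Units.coe_map]
    exact Algebra.algebraMap_eq_smul_one _
  obtain ⟨uu, huu⟩ : ∃ uu : (↥F₀)ˣ →* Fˣ, ∀ l : (↥F₀)ˣ, ((uu l : Fˣ) : F) = ((l : ↥F₀) : F) :=
    ⟨Units.map (algebraMap ↥F₀ F).toMonoidHom, fun l => rfl⟩
  obtain ⟨gk, hgk⟩ : ∃ gk : (↥F₀)ˣ → Fˣ × GL (Fin n) ↥F₀, gk = fun l => ((uu l)⁻¹, zz l) :=
    ⟨_, rfl⟩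
  have hgk_inj : Function.Injective gk := by
    intro l l' h
    rw [hgk] at h
    have h1 : (uu l)⁻¹ = (uu l')⁻¹ := congrArg Prod.fst h
    have h2 : uu l = uu l' := inv_injective h1
    have h3 : ((l : ↥F₀) : F) = ((l' : ↥F₀) : F) := by rw [← huu, ← huu, h2]
    exact Units.ext (Subtype.ext h3)
  have hkerset : (Φ.ker : Set (Fˣ × GL (Fin n) ↥F₀)) = Set.range gk := by
    ext x
    obtain ⟨μ, h⟩ := x
    rw [SetLike.mem_coe, MonoidHom.mem_ker]
    constructor
    · intro hx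
      have hx' : ∀ i j, (μ : F) * ((h : Matrix (Fin n) (Fin n) ↥F₀) i j : F)
          = (1 : Matrix (Fin n) (Fin n) F) i j := by
        intro i j
        rw [← hΦ, hx]
        rfl
      have h00 := hx' i₀ i₀
      rw [Matrix.one_apply_eq] at h00
      have hl0 : (h : Matrix (Fin n) (Fin n) ↥F₀) i₀ i₀ ≠ 0 := by
        intro h0
        rw [h0] at h00
        simp at h00
      refine ⟨Units.mk0 _ hl0, ?_⟩
      rw [hgk]
      refine Prod.ext ?_ ?_
      · apply Units.ext
        show ((uu (Units.mk0 _ hl0))⁻¹ : Fˣ).val = (μ : F)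
        rw [Units.val_inv_eq_inv_val, huu]
        show (((h : Matrix (Fin n) (Fin n) ↥F₀) i₀ i₀ : ↥F₀) : F)⁻¹ = (μ : F)
        exact (eq_inv_of_mul_eq_one_left h00).symm
      · apply Units.ext
        show ((zz (Units.mk0 _ hl0) : GL (Fin n) ↥F₀) : Matrix (Fin n) (Fin n) ↥F₀) = h
        rw [hzz]
        ext i j
        rw [Matrix.smul_apply, Matrix.one_apply]
        have hij := hx' i j
        rw [Matrix.one_apply] at hij
        show (((h : Matrix (Fin n) (Fin n) ↥F₀) i₀ i₀ : ↥F₀) * (if i = j then 1 else 0) : ↥F₀).val = _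
        by_cases hij' : i = j
        · rw [if_pos hij'] at hij ⊢
          rw [mul_one]
          have h5 : (μ : F) * ((h : Matrix (Fin n) (Fin n) ↥F₀) i₀ i₀ : F)
              = (μ : F) * ((h : Matrix (Fin n) (Fin n) ↥F₀) i j : F) := by rw [h00, hij]
          exact mul_left_cancel₀ μ.ne_zero h5
        · rw [if_neg hij'] at hij ⊢
          rw [mul_zero]
          have h5 : ((h : Matrix (Fin n) (Fin n) ↥F₀) i j : F) = 0 := by
            rcases mul_eq_zero.mp hij with h6 | h6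
            · exact absurd h6 μ.ne_zero
            · exact h6
          rw [h5]
          rfl
    · rintro ⟨l, hl⟩
      rw [hgk] at hl
      have h1 : (uu l)⁻¹ = μ := congrArg Prod.fst hl
      have h2 : zz l = h := congrArg Prod.snd hl
      apply Units.ext
      ext i j
      rw [hΦ, ← h1, ← h2, hzz, Units.val_inv_eq_inv_val, huu, Matrix.smul_apply, Matrix.one_apply]
      show _ = (1 : Matrix (Fin n) (Fin n) F) i j
      rw [Matrix.one_apply]
      have hl0 : ((l : ↥F₀) : F) ≠ 0 := by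
        intro h0
        exact l.ne_zero (Subtype.ext h0)
      by_cases hij' : i = j
      · rw [if_pos hij', if_pos hij']
        show ((l : ↥F₀) : F)⁻¹ * (((l : ↥F₀) : F) * 1) = 1
        rw [mul_one, inv_mul_cancel₀ hl0]
      · rw [if_neg hij', if_neg hij']
        show ((l : ↥F₀) : F)⁻¹ * (((l : ↥F₀) : F) * 0) = 0
        rw [mul_zero, mul_zero]
  have hker : Nat.card ↥Φ.ker = q₀ - 1 := by
    have h1 : Nat.card ↥Φ.ker = Nat.card ↥(Set.range gk) := by
      rw [← hkerset]; rfl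
    rw [h1, Nat.card_range_of_injective hgk_inj, Nat.card_units, Nat.card_eq_fintype_card, hcard0]
  have hT : Nat.card (Fˣ × GL (Fin n) ↥F₀)
      = (q₀ ^ r - 1) * ∏ i : Fin n, (q₀ ^ n - q₀ ^ (i : ℕ)) := by
    rw [Nat.card_prod, Nat.card_units, Nat.card_eq_fintype_card, hF, Matrix.card_GL_field, hcard0]
  have hS : Nat.card {g : GL (Fin n) F // ∃ c : F, c ≠ 0 ∧
      (g : Matrix (Fin n) (Fin n) F).map σ = c • (g : Matrix (Fin n) (Fin n) F)}
      = Nat.card ↥Φ.range :=
    Nat.card_congr (Equiv.subtypeEquivRight (fun g => (hrange g).symm))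
  have hmul := Subgroup.card_mul_index Φ.ker
  rw [Subgroup.index_ker, hker, hT, ← hS] at hmul
  rw [hS] at hmul ⊢
  obtain ⟨e, he⟩ : q₀ - 1 ∣ q₀ ^ r - 1 := Nat.sub_one_dvd_pow_sub_one q₀ r
  have hpos : 0 < q₀ - 1 := by omega
  rw [he, Nat.mul_div_cancel_left e hpos]
  rw [he, mul_assoc] at hmul
  exact Nat.eq_of_mul_eq_mul_left hpos hmul

end Cfsg.Agent.S2636
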