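import Cfsg.Statements.S2639
import Cfsg.Agent.Helper2.SpEmbed

set_option autoImplicit false
open Cfsg

namespace Cfsg.Agent.S2639

/-- The unitary group embeds in the symplectic group of twice the dimension over the subfield: for a field K with q² elements and a field F with q elements (isomorphic to the subfield of K of order q), there is an injective homomorphism GU_m(q) → Sp_2m(F). -/
theorem result {K F : Type*} [Field K] [Fintype K] [Field F] [Fintype F] {q : ℕ} (hK : Fintype.card K = q ^ 2) (hF : Fintype.card F = q) (m : ℕ) : ∃ φ : ↥(Cfsg.GU m K q) →* ↥(Matrix.symplecticGroup (Fin m) F), Function.Injective φ := by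
  classical
  have hq : 1 < q := Helper2.SpEmbed.one_lt_q hF
  obtain ⟨f⟩ := Helper2.SpEmbed.exists_ringHom hK hF
  letI : Algebra F K := f.toAlgebra
  haveI : Module.Finite F K := Module.Finite.of_finite
  have hfr : Module.finrank F K = 2 := Helper2.SpEmbed.finrank_two hK hF
  have hpowK : ∀ x : K, (x ^ q) ^ q = x := by
    intro x
    rw [← pow_mul, ← sq, ← hK]
    exact FiniteField.pow_card x
  have hpowF : ∀ c : F, c ^ q = c := by
    intro c
    rw [← hF]
    exact FiniteField.pow_card c
  have hadd : ∀ x y : K, (x + y) ^ q = x ^ q + y ^ q := by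
    obtain ⟨p, hp⟩ := CharP.exists K
    obtain ⟨n, hpr, hn⟩ := FiniteField.card K p
    haveI : Fact p.Prime := ⟨hpr⟩
    have h1 : q ∣ p ^ (n : ℕ) := by
      rw [← hn, hK]
      exact dvd_pow_self q two_ne_zero
    obtain ⟨k, -, hk⟩ := (Nat.dvd_prime_pow hpr).1 h1
    intro x y
    rw [hk]
    exact add_pow_char_pow x y p k
  let frob : K →+ K :=
    { toFun := fun x => x ^ q
      map_zero' := zero_pow (by omega)
      map_add' := hadd }
  have hfix : ∀ u : Fin m → K, (∑ i, u i * u i ^ q) ^ q = ∑ i, u i * u i ^ q := by
    intro u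
    have h1 := map_sum frob (fun i => u i * u i ^ q) Finset.univ
    show frob (∑ i, u i * u i ^ q) = _
    rw [h1]
    apply Finset.sum_congr rfl
    intro i _
    show (u i * u i ^ q) ^ q = u i * u i ^ q
    rw [mul_pow, hpowK, mul_comm]
  let E : Submodule F K :=
    { carrier := {x | x ^ q = x}
      add_mem' := fun {x y} hx hy => by
        show (x + y) ^ q = x + y
        rw [hadd, show x ^ q = x from hx, show y ^ q = y from hy]
      zero_mem' := zero_pow (by omega)
      smul_mem' := fun c x hx => by
        show (c • x) ^ q = c • x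
        rw [Algebra.smul_def c x, mul_pow, ← map_pow, hpowF, show x ^ q = x from hx] }
  obtain ⟨x₀, hx₀⟩ := Helper2.SpEmbed.exists_not_fixed hq hK
  have hx₀E : x₀ ∉ E := hx₀
  obtain ⟨lam, hlam, hmap⟩ := Submodule.exists_dual_map_eq_bot_of_notMem hx₀E inferInstance
  have hE : ∀ x : K, x ^ q = x → lam x = 0 := by
    intro x hx
    have h1 : lam x ∈ E.map lam := Submodule.mem_map_of_mem (show x ∈ E from hx)
    rw [hmap] at h1
    exact (Submodule.mem_bot F).1 h1
  let B : LinearMap.BilinForm F (Fin m → K) :=
    LinearMap.mk₂ F (fun u v => lam (∑ i, u i * v i ^ q))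
      (fun u u' v => by
        show lam (∑ i, (u + u') i * v i ^ q) = lam (∑ i, u i * v i ^ q) + lam (∑ i, u' i * v i ^ q)
        rw [← map_add, ← Finset.sum_add_distrib]
        congr 1
        apply Finset.sum_congr rfl
        intro i _
        rw [Pi.add_apply, add_mul])
      (fun c u v => by
        show lam (∑ i, (c • u) i * v i ^ q) = c • lam (∑ i, u i * v i ^ q)
        rw [← map_smul, Finset.smul_sum]
        congr 1
        apply Finset.sum_congr rfl
        intro i _
        rw [Pi.smul_apply, smul_mul_assoc])
      (fun u v v' => by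
        show lam (∑ i, u i * (v + v') i ^ q) = lam (∑ i, u i * v i ^ q) + lam (∑ i, u i * v' i ^ q)
        rw [← map_add, ← Finset.sum_add_distrib]
        congr 1
        apply Finset.sum_congr rfl
        intro i _
        rw [Pi.add_apply, hadd, mul_add])
      (fun c u v => by
        show lam (∑ i, u i * (c • v) i ^ q) = c • lam (∑ i, u i * v i ^ q)
        rw [← map_smul, Finset.smul_sum]
        congr 1
        apply Finset.sum_congr rfl
        intro i _
        have e : (c • v i) ^ q = c • v i ^ q := by
          rw [Algebra.smul_def c (v i), mul_pow, ← map_pow, hpowF, ← Algebra.smul_def]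
        rw [Pi.smul_apply, e, mul_smul_comm])
  have hBapp : ∀ u v, B u v = lam (∑ i, u i * v i ^ q) := fun u v => rfl
  have hAlt : B.IsAlt := fun u => by
    rw [hBapp]
    exact hE _ (hfix u)
  have hnd : ∀ x : Fin m → K, x ≠ 0 → ∃ w, B x w ≠ 0 := by
    intro x hx
    obtain ⟨i, hi⟩ := Function.ne_iff.1 hx
    have hi' : x i ≠ 0 := hi
    refine ⟨Pi.single i ((x₀ / x i) ^ q), ?_⟩
    have e : ∑ j, x j * (Pi.single i ((x₀ / x i) ^ q) : Fin m → K) j ^ q = x₀ := by
      rw [Finset.sum_eq_single i (fun j _ hj => by
        rw [Pi.single_eq_of_ne hj, zero_pow (by omega), mul_zero])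
        (fun h => absurd (Finset.mem_univ i) h), Pi.single_eq_same, hpowK]
      field_simp
    rw [hBapp, e]
    exact hlam
  have hdim : Module.finrank F (Fin m → K) = m + m := by
    rw [Module.finrank_pi_fintype, Finset.sum_const, Finset.card_univ, hfr, Fintype.card_fin,
      smul_eq_mul]
    ring
  let ρ : ↥(Cfsg.GU m K q) →* Module.End F (Fin m → K) :=
    { toFun := fun g =>
        (Matrix.toLin' (((g : Matrix.GeneralLinearGroup (Fin m) K)) :
          Matrix (Fin m) (Fin m) K)).restrictScalars F
      map_one' := by
        apply LinearMap.ext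
        intro x
        show Matrix.toLin' ((((1 : ↥(Cfsg.GU m K q)) : Matrix.GeneralLinearGroup (Fin m) K)) :
          Matrix (Fin m) (Fin m) K) x = x
        rw [Matrix.toLin'_apply]
        exact Matrix.one_mulVec x
      map_mul' := fun g h => by
        apply LinearMap.ext
        intro x
        show Matrix.toLin' ((((g * h : ↥(Cfsg.GU m K q)) : Matrix.GeneralLinearGroup (Fin m) K)) :
            Matrix (Fin m) (Fin m) K) x
          = Matrix.toLin' (((g : Matrix.GeneralLinearGroup (Fin m) K)) : Matrix (Fin m) (Fin m) K)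
              (Matrix.toLin' (((h : Matrix.GeneralLinearGroup (Fin m) K)) :
                Matrix (Fin m) (Fin m) K) x)
        rw [Matrix.toLin'_apply, Matrix.toLin'_apply, Matrix.toLin'_apply, Matrix.mulVec_mulVec]
        rfl }
  have hρ : Function.Injective ρ := by
    intro g h hgh
    apply Subtype.ext
    apply Units.ext
    apply Matrix.toLin'.injective
    apply LinearMap.ext
    intro x
    exact congrArg (fun t : Module.End F (Fin m → K) => t x) hgh
  have hiso : ∀ g u v, B (ρ g u) (ρ g v) = B u v := by
    intro g u v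
    have h : Cfsg.hermForm m K q
        (Matrix.mulVec (((g : Matrix.GeneralLinearGroup (Fin m) K)) : Matrix (Fin m) (Fin m) K) u)
        (Matrix.mulVec (((g : Matrix.GeneralLinearGroup (Fin m) K)) : Matrix (Fin m) (Fin m) K) v)
        = Cfsg.hermForm m K q u v := g.2 u v
    show lam (Cfsg.hermForm m K q
        (Matrix.mulVec (((g : Matrix.GeneralLinearGroup (Fin m) K)) : Matrix (Fin m) (Fin m) K) u)
        (Matrix.mulVec (((g : Matrix.GeneralLinearGroup (Fin m) K)) : Matrix (Fin m) (Fin m) K) v))
        = lam (Cfsg.hermForm m K q u v)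
    rw [h]
  exact Helper2.SpEmbed.embed B hAlt hnd m hdim ρ hρ hiso

end Cfsg.Agent.S2639
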