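import Cfsg.Statements.S2640
import Cfsg.Agent.Helper2.OrthEmbed

set_option autoImplicit false
open Cfsg

namespace Cfsg.Agent.S2640

/-- For m even, the unitary group GU_m(q) (over the field with q² elements) embeds in the orthogonal group O⁺_2m(q) of the hyperbolic form Σ x_i y_i over the field with q elements (there is an injective homomorphism). -/
theorem result {K F : Type*} [Field K] [Fintype K] [Field F] [Fintype F] {q : ℕ} (hK : Fintype.card K = q ^ 2) (hF : Fintype.card F = q) (m : ℕ) (hm : Even m) : ∃ φ : ↥(Cfsg.GU m K q) →* ↥(Cfsg.isometryGroup F (Cfsg.quadFormPlus m F)), Function.Injective φ := by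
  classical
  obtain ⟨k, rfl⟩ := hm
  obtain ⟨f⟩ := Helper2.SpEmbed.exists_ringHom hK hF
  letI : Algebra F K := f.toAlgebra
  haveI : Module.Finite F K := Module.Finite.of_finite
  have hfr : Module.finrank F K = 2 := Helper2.SpEmbed.finrank_two hK hF
  obtain ⟨lam, hlam⟩ := Helper2.OrthEmbed.exists_lam (K := K) (F := F)
  have hn : Module.finrank F (Fin k → K) = k + k := by
    rw [Module.finrank_pi_fintype, Finset.sum_const, Finset.card_univ, hfr, Fintype.card_fin,
      smul_eq_mul]
    ring
  obtain ⟨L, hLinj, hLQ⟩ := Helper2.OrthEmbed.exists_hyp hK hF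
    (finSumFinEquiv : Fin k ⊕ Fin k ≃ Fin (k + k)) (k + k) hn lam hlam
  have hdim : Module.finrank F (Fin (k + k) → K)
      = Fintype.card (Fin (k + k) ⊕ Fin (k + k)) := by
    rw [Module.finrank_pi_fintype, Finset.sum_const, Finset.card_univ, hfr, Fintype.card_fin,
      smul_eq_mul, Fintype.card_sum, Fintype.card_fin]
    ring
  obtain ⟨ρ, hρ, hρapp⟩ := Helper2.OrthEmbed.gu_rep (K := K) (F := F) (q := q) (k + k)
  have hiso : ∀ (g : ↥(Cfsg.GU (k + k) K q)) (x : Fin (k + k) → K),
      lam (∑ i, (ρ g x) i * (ρ g x) i ^ q) = lam (∑ i, x i * x i ^ q) := by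
    intro g x
    rw [hρapp]
    exact congrArg lam (g.2 x x)
  exact Helper2.OrthEmbed.orth_embed' L hLinj hdim (Cfsg.quadFormPlus (k + k) F)
    (fun v => lam (∑ i, v i * v i ^ q)) hLQ ρ hρ hiso

end Cfsg.Agent.S2640
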