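import Cfsg.Statements.S2641
import Cfsg.Agent.Helper2.OrthEmbed

set_option autoImplicit false
open Cfsg

namespace Cfsg.Agent.S2641

/-- For m odd, the unitary group GU_m(q) (over the field with q² elements) embeds in the orthogonal group O⁻_2m(q) of an elliptic form (Σ_(i<m−1) x_i y_i plus an anisotropic binary form) over the field with q elements (there is an injective homomorphism). -/
theorem result {K F : Type*} [Field K] [Fintype K] [Field F] [Fintype F] {q : ℕ} (hK : Fintype.card K = q ^ 2) (hF : Fintype.card F = q) (m : ℕ) (hm : Odd m) (a b : F) (hab : ∀ z₁ z₂ : F, z₁ ^ 2 + a * z₁ * z₂ + b * z₂ ^ 2 = 0 → z₁ = 0 ∧ z₂ = 0) : ∃ φ : ↥(Cfsg.GU m K q) →* ↥(Cfsg.isometryGroup F (Cfsg.quadFormMinus (m - 1) F a b)), Function.Injective φ := by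
  classical
  obtain ⟨k, rfl⟩ := hm
  obtain ⟨f⟩ := Helper2.SpEmbed.exists_ringHom hK hF
  letI : Algebra F K := f.toAlgebra
  haveI : Module.Finite F K := Module.Finite.of_finite
  have hfr : Module.finrank F K = 2 := Helper2.SpEmbed.finrank_two hK hF
  obtain ⟨lam, hlam⟩ := Helper2.OrthEmbed.exists_lam (K := K) (F := F)
  have hn : Module.finrank F (Fin k → K) = 2 * k + 1 - 1 := by
    rw [Module.finrank_pi_fintype, Finset.sum_const, Finset.card_univ, hfr, Fintype.card_fin,
      smul_eq_mul]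
    omega
  let t : (Fin k ⊕ Fin k) ⊕ Fin 1 ≃ Fin (2 * k + 1) :=
    ((Equiv.sumCongr finSumFinEquiv (Equiv.refl (Fin 1))).trans finSumFinEquiv).trans
      (finCongr (by omega))
  obtain ⟨L, hLinj, hLQ⟩ := Helper2.OrthEmbed.exists_minus hK hF t (2 * k + 1 - 1) hn lam hlam
    a b hab
  have hdim : Module.finrank F (Fin (2 * k + 1) → K)
      = Fintype.card ((Fin (2 * k + 1 - 1) ⊕ Fin (2 * k + 1 - 1)) ⊕ Fin 2) := by
    rw [Module.finrank_pi_fintype, Finset.sum_const, Finset.card_univ, hfr, Fintype.card_fin,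
      smul_eq_mul, Fintype.card_sum, Fintype.card_sum, Fintype.card_fin, Fintype.card_fin]
    omega
  obtain ⟨ρ, hρ, hρapp⟩ := Helper2.OrthEmbed.gu_rep (K := K) (F := F) (q := q) (2 * k + 1)
  have hiso : ∀ (g : ↥(Cfsg.GU (2 * k + 1) K q)) (x : Fin (2 * k + 1) → K),
      lam (∑ i, (ρ g x) i * (ρ g x) i ^ q) = lam (∑ i, x i * x i ^ q) := by
    intro g x
    rw [hρapp]
    exact congrArg lam (g.2 x x)
  exact Helper2.OrthEmbed.orth_embed' L hLinj hdim (Cfsg.quadFormMinus (2 * k + 1 - 1) F a b)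
    (fun v => lam (∑ i, v i * v i ^ q)) hLQ ρ hρ hiso

end Cfsg.Agent.S2641
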