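import Cfsg.Statements.S2642
import Mathlib
import Cfsg.Agent.Helper14.JordU
import Cfsg.Agent.Helper8.GUConj3
import Cfsg.Agent.S2570

set_option autoImplicit false
open Cfsg

namespace Cfsg.Agent.S2642

/-- Number of conjugacy classes of elements of order p in the general unitary group GU_n(q), q a power of p: every unipotent Jordan type occurs and the classes correspond to the partitions of n with all parts at most p other than the all-ones partition, exactly as in GL_n; so there are (number of partitions of n with parts ≤ p) − 1 classes. -/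
theorem result {K : Type*} [Field K] [Fintype K] {p q n : ℕ} [Fact p.Prime] [CharP K p] (hK : Fintype.card K = q ^ 2) : Nat.card {C : ConjClasses ↥(Cfsg.GU n K q) // ∃ g : ↥(Cfsg.GU n K q), ConjClasses.mk g = C ∧ orderOf g = p} = (Finset.univ.filter (fun μ : Nat.Partition n => ∀ a ∈ μ.parts, a ≤ p)).card - 1 := by
  classical
  refine Eq.trans ?_ (Cfsg.Agent.S2570.result (F := K) (p := p) n)
  have hpne1 : p ≠ 1 := (Fact.out : p.Prime).ne_one
  have hwd : ∀ C : {C : ConjClasses ↥(Cfsg.GU n K q) //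
      ∃ g : ↥(Cfsg.GU n K q), ConjClasses.mk g = C ∧ orderOf g = p},
      ∃ g : GL (Fin n) K, ConjClasses.mk g = ConjClasses.map (Cfsg.GU n K q).subtype C.1 ∧
        orderOf g = p := by
    rintro ⟨C, g, rfl, hg⟩
    exact ⟨(g : GL (Fin n) K), rfl, by rw [Subgroup.orderOf_coe]; exact hg⟩
  apply Nat.card_eq_of_bijective
    (fun C => ⟨ConjClasses.map (Cfsg.GU n K q).subtype C.1, hwd C⟩)
  constructor
  · rintro ⟨C₁, g₁, rfl, hg₁⟩ ⟨C₂, g₂, rfl, hg₂⟩ h
    have h' : ConjClasses.mk (g₁ : GL (Fin n) K) = ConjClasses.mk (g₂ : GL (Fin n) K) :=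
      congrArg Subtype.val h
    rw [ConjClasses.mk_eq_mk_iff_isConj, isConj_iff] at h'
    obtain ⟨P, hP⟩ := h'
    obtain ⟨U, hU, hUc⟩ := Cfsg.Agent.Helper8.GUC.conj_gu hK (g₁ : GL (Fin n) K)
      (g₂ : GL (Fin n) K) g₁.2 g₂.2 P hP
    apply Subtype.ext
    show ConjClasses.mk g₁ = ConjClasses.mk g₂
    rw [ConjClasses.mk_eq_mk_iff_isConj, isConj_iff]
    refine ⟨⟨U, hU⟩, ?_⟩
    apply Subtype.ext
    exact hUc
  · rintro ⟨C, g, rfl, hg⟩
    have hn : 1 ≤ n := by
      by_contra h0
      have hn0 : n = 0 := by omega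
      subst hn0
      have h1 : g = 1 := Units.ext (Subsingleton.elim _ _)
      rw [h1, orderOf_one] at hg
      exact hpne1 hg.symm
    obtain ⟨μ, -, ι, _, m, v, hJD, hm⟩ := Cfsg.Agent.S2570.exists_type hn g hg
    have hpos : ∀ i, 1 ≤ m i := by
      intro i
      apply μ.parts_pos
      rw [← hm]
      exact Multiset.mem_map_of_mem m (Finset.mem_univ_val i)
    obtain ⟨h, hmem, hconj⟩ := Cfsg.Agent.Helper14.JordU.exists_gu_conj hK hn g m v hJD hpos
    have hord : orderOf h = p := by
      obtain ⟨x, hx⟩ := isConj_iff.mp hconj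
      have h1 : orderOf (x * g * x⁻¹) = orderOf g := (MulAut.conj x).orderOf_eq g
      rw [hx, hg] at h1
      exact h1
    refine ⟨⟨ConjClasses.mk ⟨h, hmem⟩, ⟨h, hmem⟩, rfl, ?_⟩, ?_⟩
    · rw [← Subgroup.orderOf_coe]
      exact hord
    · apply Subtype.ext
      show ConjClasses.mk h = ConjClasses.mk g
      rw [ConjClasses.mk_eq_mk_iff_isConj]
      exact hconj.symm

end Cfsg.Agent.S2642
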