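import Cfsg.Statements.S2645
import Mathlib
import Cfsg.Agent.Helper14.PrimeOrdSp

set_option autoImplicit false
open Cfsg

namespace Cfsg.Agent.S2645
open Polynomial

/-- Number of conjugacy classes of elements of odd prime order r, r different from the characteristic, in the symplectic group Sp_2m(q): let i be the multiplicative order of q modulo r and t = (r − 1)/i. If i is odd the eigenvalue orbits pair off (Λ ≠ Λ⁻¹) and the classes correspond to the non-zero (t/2)-tuples (a_j) with 2i Σ a_j ≤ 2m, giving C(⌊m/i⌋ + t/2, t/2) − 1 classes; if i is even (Λ = Λ⁻¹) they correspond to the non-zero t-tuples with i Σ a_j ≤ 2m, giving C(⌊2m/i⌋ + t, t) − 1 classes. -/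
theorem result {F : Type*} [Field F] [Fintype F] {p q : ℕ} [Fact p.Prime] [CharP F p] (hF : Fintype.card F = q) (m r i t : ℕ) (hr : r.Prime) (hr2 : r ≠ 2) (hrp : r ≠ p) (hi : i = orderOf (q : ZMod r)) (ht : t * i = r - 1) : Nat.card {C : ConjClasses ↥(Matrix.symplecticGroup (Fin m) F) // ∃ g : Matrix.symplecticGroup (Fin m) F, ConjClasses.mk g = C ∧ orderOf g = r} = if Odd i then Nat.choose (m / i + t / 2) (t / 2) - 1 else Nat.choose (2 * m / i + t) t - 1 := by

  letI : DecidableEq F := Classical.decEq F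
  haveI : Fact r.Prime := ⟨hr⟩
  obtain ⟨f, -, hq⟩ := FiniteField.card F p
  have hpr : p.Coprime r := (Nat.coprime_primes Fact.out hr).mpr (Ne.symm hrp)
  have hrF : (r : F) ≠ 0 := by
    intro h0
    rw [CharP.cast_eq_zero_iff F p] at h0
    exact hrp ((Nat.prime_dvd_prime_iff_eq Fact.out hr).mp h0).symm
  have hord : orderOf (ZMod.unitOfCoprime (p ^ (f : ℕ)) (hpr.pow_left f)) = i := by
    rw [hi, ← hF, hq, ← orderOf_units, ZMod.coe_unitOfCoprime]
  have hipos : 0 < i := by rw [← hord]; exact orderOf_pos _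
  have hcard := Polynomial.normalizedFactors_cyclotomic_card hq hpr
  rw [hord, Nat.totient_prime hr, ← ht, Nat.mul_div_cancel t hipos] at hcard
  obtain ⟨Φ, hΦ⟩ : ∃ Φ : Finset F[X],
      Φ = (UniqueFactorizationMonoid.normalizedFactors (cyclotomic r F)).toFinset := ⟨_, rfl⟩
  rw [← hΦ] at hcard
  have hcyc : cyclotomic r F * (X - 1) = X ^ r - 1 := Polynomial.cyclotomic_prime_mul_X_sub_one F r
  have hX1irr : Irreducible (X - 1 : F[X]) := Cfsg.Agent.Helper14.PrimeOrdSp.X_sub_one_irr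
  have hX1mon : (X - 1 : F[X]).Monic := Cfsg.Agent.Helper14.PrimeOrdSp.X_sub_one_monic
  have hΦirr : ∀ φ ∈ Φ, Irreducible φ := by
    intro φ hφ
    rw [hΦ, Multiset.mem_toFinset] at hφ
    exact UniqueFactorizationMonoid.irreducible_of_normalized_factor φ hφ
  have hΦmon : ∀ φ ∈ Φ, φ.Monic := by
    intro φ hφ
    have hirrφ := hΦirr φ hφ
    rw [hΦ, Multiset.mem_toFinset] at hφ
    rw [← UniqueFactorizationMonoid.normalize_normalized_factor φ hφ]
    exact Polynomial.monic_normalize hirrφ.ne_zero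
  have hΦdvd : ∀ φ ∈ Φ, φ ∣ cyclotomic r F := by
    intro φ hφ
    rw [hΦ, Multiset.mem_toFinset] at hφ
    exact UniqueFactorizationMonoid.dvd_of_mem_normalizedFactors hφ
  have hΦdvd' : ∀ φ ∈ Φ, φ ∣ X ^ r - 1 := fun φ hφ => (hΦdvd φ hφ).trans (Dvd.intro _ hcyc)
  have hΦdeg : ∀ φ ∈ Φ, φ.natDegree = i := by
    intro φ hφ
    rw [hΦ, Multiset.mem_toFinset] at hφ
    rw [Polynomial.natDegree_of_mem_normalizedFactors_cyclotomic hq hpr hφ, hord]
  have hΦ1 : X - 1 ∉ Φ := by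
    intro h
    have h1 := Polynomial.eval_dvd (x := (1 : F)) (hΦdvd _ h)
    rw [Polynomial.eval_one_cyclotomic_prime] at h1
    simp at h1
    exact hrF h1
  have hmem : ∀ ψ : F[X], Irreducible ψ → ψ.Monic → ψ ∣ X ^ r - 1 →
      ψ ∈ insert (X - 1) Φ := by
    intro ψ hψ hψm hψd
    rw [← hcyc] at hψd
    rcases hψ.prime.dvd_or_dvd hψd with h | h
    · apply Finset.mem_insert_of_mem
      rw [hΦ, Multiset.mem_toFinset,
        UniqueFactorizationMonoid.mem_normalizedFactors_iff' (cyclotomic_ne_zero r F)]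
      exact ⟨hψ, hψm.normalize_eq_self, h⟩
    · rw [Finset.mem_insert]
      left
      exact Polynomial.eq_of_monic_of_associated hψm hX1mon (hψ.associated_of_dvd hX1irr h)
  have he1 : ∀ φ ∈ Φ, eval 1 φ ≠ 0 :=
    Cfsg.Agent.Helper14.PrimeOrdSp.eval_one_ne Φ hΦ1 hΦirr hΦmon
  by_cases hodd : Odd i
  · rw [if_pos hodd, ← hcard]
    exact Cfsg.Agent.Helper14.PrimeOrdSp.card_odd p m hr hrp Φ hΦ1 hΦirr hΦmon hΦdeg hipos
      hΦdvd' hmem (fun φ hφ => Cfsg.Agent.Helper14.PrimeOrdSp.star_ne_of_odd hr hr2 hodd φ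
        (hΦdeg φ hφ) (hΦdvd' φ hφ) (he1 φ hφ))
  · rw [if_neg hodd, ← hcard]
    have hie : Even i := Nat.not_odd_iff_even.mp hodd
    have hrk := Cfsg.Agent.Helper14.PrimeOrdSp.dvd_pow_half_add_one hr hi hipos hie
    rw [← hF] at hrk
    exact Cfsg.Agent.Helper14.PrimeOrdSp.card_even p m hr hrp Φ hΦ1 hΦirr hΦmon hΦdeg hipos
      hΦdvd' hmem hie (fun φ hφ => Cfsg.Agent.Helper14.PrimeOrdSp.reverse_eq_of_dvd hr.ne_zero
        hrk φ (hΦirr φ hφ) (hΦmon φ hφ) (hΦdvd' φ hφ) (he1 φ hφ))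

end Cfsg.Agent.S2645
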