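-- Statement S2665: Lang–Steinberg for GL_n over an algebraically closed field.
import Cfsg.Statements.S2665
import Mathlib

set_option autoImplicit false
open scoped MatrixGroups
open Cfsg

namespace Cfsg.Agent.S2665

open Polynomial Matrix

noncomputable def Bpoly {K : Type*} [Field K] (q : ℕ) (c : ℕ → K) : ℕ → K[X]
  | 0 => C (c 0)
  | (i+1) => X ^ (q-1) * (Bpoly q c i) ^ q + C (c (i+1))

theorem Bpoly_ne_zero {K : Type*} [Field K] (q : ℕ) (hq : 2 ≤ q) (c : ℕ → K) :
    ∀ m : ℕ, (∃ j, j ≤ m ∧ c j ≠ 0) → Bpoly q c m ≠ 0 := by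
  intro m
  induction m with
  | zero =>
    rintro ⟨j, hj, hc⟩
    have : j = 0 := by omega
    subst this
    show C (c 0) ≠ 0
    exact C_ne_zero.mpr hc
  | succ m ih =>
    rintro ⟨j, hj, hc⟩
    show X ^ (q-1) * (Bpoly q c m) ^ q + C (c (m+1)) ≠ 0
    by_cases hB : Bpoly q c m = 0
    · have hjm : j = m + 1 := by
        by_contra hne
        exact ih ⟨j, by omega, hc⟩ hB
      subst hjm
      rw [hB, zero_pow (by omega), mul_zero, zero_add]
      exact C_ne_zero.mpr hc
    · intro h0
      have h1 : (X ^ (q-1) * (Bpoly q c m) ^ q + C (c (m+1))).natDegree = 0 := by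
        rw [h0]; exact natDegree_zero
      rw [natDegree_add_C, natDegree_mul (pow_ne_zero _ X_ne_zero) (pow_ne_zero _ hB),
        natDegree_X_pow] at h1
      omega

section abstract

variable {K : Type*} [Field K] [IsAlgClosed K] {V : Type*} [AddCommGroup V] [Module K V]

theorem exists_root (q : ℕ) (hq : 2 ≤ q) (B : K[X]) (hB : B ≠ 0) :
    ∃ t : K, t ^ (q-1) * (B.eval t) ^ q = 1 := by
  have hdeg : (X ^ (q-1) * B ^ q : K[X]).natDegree = (q - 1) + q * B.natDegree := by
    rw [natDegree_mul (pow_ne_zero _ X_ne_zero) (pow_ne_zero _ hB), natDegree_X_pow, natDegree_pow]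
  have hP : (X ^ (q-1) * B ^ q - C 1 : K[X]).degree ≠ 0 := by
    intro h
    have h1 : (X ^ (q-1) * B ^ q - C 1 : K[X]).natDegree = 0 :=
      natDegree_eq_zero_iff_degree_le_zero.mpr h.le
    rw [natDegree_sub_C, hdeg] at h1
    omega
  obtain ⟨t, ht⟩ := IsAlgClosed.exists_root _ hP
  refine ⟨t, ?_⟩
  have := ht
  simp only [IsRoot.def, eval_sub, eval_mul, eval_pow, eval_X, eval_C] at this
  exact sub_eq_zero.mp this

theorem exists_alpha (q : ℕ) (hq : 2 ≤ q) (c : ℕ → K) (m : ℕ) (hc : ∃ j, j ≤ m ∧ c j ≠ 0) :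
    ∃ (t : K) (α : ℕ → K), t ≠ 0 ∧ α 0 = t * c 0 ∧
      (∀ i, α (i+1) = α i ^ q + t * c (i+1)) ∧ α m ^ q = t := by
  have hBne := Bpoly_ne_zero q hq c m hc
  obtain ⟨t, ht⟩ := exists_root q hq (Bpoly q c m) hBne
  have ht0 : t ≠ 0 := by
    rintro rfl
    rw [zero_pow (by omega), zero_mul] at ht
    exact zero_ne_one ht
  have htq : t ^ q = t * t ^ (q-1) := by
    rw [← pow_succ']; congr 1; omega
  refine ⟨t, fun i => t * (Bpoly q c i).eval t, ht0, ?_, ?_, ?_⟩
  · show t * (C (c 0)).eval t = t * c 0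
    rw [eval_C]
  · intro i
    show t * (X ^ (q-1) * (Bpoly q c i) ^ q + C (c (i+1))).eval t
      = (t * (Bpoly q c i).eval t) ^ q + t * c (i+1)
    rw [eval_add, eval_mul, eval_pow, eval_pow, eval_X, eval_C, mul_pow, htq]
    ring
  · show (t * (Bpoly q c m).eval t) ^ q = t
    rw [mul_pow, htq, mul_assoc, ht, mul_one]

theorem exists_AS (q : ℕ) (hq : 2 ≤ q) (d : K) : ∃ a : K, a ^ q = a - d := by
  have hP : (X ^ q - (X - C d) : K[X]).degree ≠ 0 := by
    intro h
    have h1 : (X ^ q - (X - C d) : K[X]).natDegree = 0 :=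
      natDegree_eq_zero_iff_degree_le_zero.mpr h.le
    rw [natDegree_sub_eq_left_of_natDegree_lt (by rw [natDegree_X_sub_C, natDegree_X_pow]; omega),
      natDegree_X_pow] at h1
    omega
  obtain ⟨a, ha⟩ := IsAlgClosed.exists_root _ hP
  refine ⟨a, ?_⟩
  have := ha
  simp only [IsRoot.def, eval_sub, eval_pow, eval_X, eval_C] at this
  exact sub_eq_zero.mp this

theorem T_sum (T : V → V) (hadd : ∀ u v, T (u + v) = T u + T v) {ι : Type*} (s : Finset ι)
    (f : ι → V) : T (∑ i ∈ s, f i) = ∑ i ∈ s, T (f i) :=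
  map_sum (AddMonoidHom.mk' T hadd) f s

theorem mem_of_T_mem (q : ℕ) (hq : 2 ≤ q) (T : V → V) (hadd : ∀ u v, T (u + v) = T u + T v)
    (hsmul : ∀ (c : K) (v : V), T (c • v) = c ^ q • T v) (hinj : Function.Injective T)
    (v : V) (hv : T v ∈ Submodule.span K {v | T v = v}) :
    v ∈ Submodule.span K {v | T v = v} := by
  rw [Submodule.mem_span_set'] at hv
  obtain ⟨k, f, w, hfw⟩ := hv
  have hroot : ∀ i : Fin k, ∃ a : K, a ^ q = f i := fun i =>
    IsAlgClosed.exists_pow_nat_eq (f i) (by omega)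
  choose a ha using hroot
  have hwi : ∀ i, T (w i : V) = w i := fun i => (w i).2
  have hT : T (∑ i, a i • (w i : V)) = T v := by
    rw [T_sum T hadd, ← hfw]
    apply Finset.sum_congr rfl
    intro i _
    rw [hsmul, ha, hwi]
  rw [← hinj hT]
  apply Submodule.sum_mem
  intro i _
  exact Submodule.smul_mem _ _ (Submodule.subset_span (w i).2)

theorem mem_of_sub_mem (q : ℕ) (hq : 2 ≤ q) (T : V → V) (hadd : ∀ u v, T (u + v) = T u + T v)
    (hsmul : ∀ (c : K) (v : V), T (c • v) = c ^ q • T v)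
    (v : V) (hv : T v - v ∈ Submodule.span K {v | T v = v}) :
    v ∈ Submodule.span K {v | T v = v} := by
  rw [Submodule.mem_span_set'] at hv
  obtain ⟨k, f, w, hfw⟩ := hv
  choose a ha using fun i : Fin k => exists_AS q hq (f i)
  have hwi : ∀ i, T (w i : V) = w i := fun i => (w i).2
  have hmem : ∑ i, a i • (w i : V) ∈ Submodule.span K {v | T v = v} := by
    apply Submodule.sum_mem
    intro i _
    exact Submodule.smul_mem _ _ (Submodule.subset_span (w i).2)
  have hT : T (v + ∑ i, a i • (w i : V)) = v + ∑ i, a i • (w i : V) := by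
    rw [hadd, T_sum T hadd]
    have h1 : T v = v + ∑ i, f i • (w i : V) := by rw [hfw]; abel
    rw [h1, add_assoc, ← Finset.sum_add_distrib]
    congr 1
    apply Finset.sum_congr rfl
    intro i _
    rw [hsmul, hwi, ha, ← add_smul]
    congr 1
    ring
  have h2 : v + ∑ i, a i • (w i : V) ∈ Submodule.span K {v | T v = v} :=
    Submodule.subset_span hT
  have h3 : v = (v + ∑ i, a i • (w i : V)) - ∑ i, a i • (w i : V) := by abel
  rw [h3]
  exact Submodule.sub_mem _ h2 hmem

noncomputable def chain (S : Submodule K V) (x : ℕ → V) (r : ℕ) : Submodule K V :=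
  S ⊔ Submodule.span K (Set.range (fun i : Fin r => x i))

theorem le_chain (S : Submodule K V) (x : ℕ → V) (r : ℕ) : S ≤ chain S x r := le_sup_left

theorem mem_chain_of_lt (S : Submodule K V) (x : ℕ → V) {i r : ℕ} (h : i < r) :
    x i ∈ chain S x r :=
  (le_sup_right : _ ≤ chain S x r) (Submodule.subset_span ⟨⟨i, h⟩, rfl⟩)

theorem chain_le_succ (S : Submodule K V) (x : ℕ → V) (r : ℕ) :
    chain S x r ≤ chain S x (r+1) := by
  apply sup_le_sup_left
  apply Submodule.span_mono
  rintro _ ⟨i, rfl⟩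
  exact ⟨Fin.castSucc i, rfl⟩

theorem chain_zero (S : Submodule K V) (x : ℕ → V) : chain S x 0 = S := by
  unfold chain
  have : Set.range (fun i : Fin 0 => x i) = ∅ := Set.range_eq_empty _
  rw [this, Submodule.span_empty, sup_bot_eq]

theorem mem_chain (S : Submodule K V) (x : ℕ → V) (r : ℕ) (y : V) (hy : y ∈ chain S x r) :
    ∃ s ∈ S, ∃ c : ℕ → K, y = s + ∑ i ∈ Finset.range r, c i • x i := by
  unfold chain at hy
  rw [Submodule.mem_sup] at hy
  obtain ⟨s, hs, z, hz, rfl⟩ := hy
  rw [Submodule.mem_span_range_iff_exists_fun] at hz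
  obtain ⟨c, rfl⟩ := hz
  refine ⟨s, hs, fun i => if h : i < r then c ⟨i, h⟩ else 0, ?_⟩
  congr 1
  rw [← Fin.sum_univ_eq_sum_range (fun i => (if h : i < r then c ⟨i, h⟩ else 0) • x i) r]
  apply Finset.sum_congr rfl
  intro i _
  simp

theorem exists_mem_chain [FiniteDimensional K V] (S : Submodule K V) (x : ℕ → V) :
    ∃ r, x r ∈ chain S x r := by
  by_contra hne
  push Not at hne
  have hlt : ∀ r, chain S x r < chain S x (r+1) := fun r =>
    lt_of_le_of_ne (chain_le_succ S x r)
      (fun h => hne r (by rw [h]; exact mem_chain_of_lt S x (Nat.lt_succ_self r)))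
  have hrank : ∀ r, r ≤ Module.finrank K (chain S x r) := by
    intro r
    induction r with
    | zero => exact Nat.zero_le _
    | succ r ih =>
      have := Submodule.finrank_lt_finrank_of_lt (hlt r)
      omega
  have h1 := hrank (Module.finrank K V + 1)
  have h2 := Submodule.finrank_le (chain S x (Module.finrank K V + 1))
  omega

theorem exists_almost_fixed [FiniteDimensional K V] (q : ℕ) (hq : 2 ≤ q) (T : V → V)
    (hadd : ∀ u v, T (u + v) = T u + T v)
    (hsmul : ∀ (c : K) (v : V), T (c • v) = c ^ q • T v) (hinj : Function.Injective T)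
    (x : ℕ → V) (hxs : ∀ i, x (i+1) = T (x i))
    (hx0 : x 0 ∉ Submodule.span K {v | T v = v}) :
    ∃ w, w ∉ Submodule.span K {v | T v = v} ∧ T w - w ∈ Submodule.span K {v | T v = v} := by
  classical
  have hex := exists_mem_chain (Submodule.span K {v | T v = v}) x
  have hfind := Nat.find_spec hex
  have hmin := fun k (hk : k < Nat.find hex) => Nat.find_min hex hk
  have hr0 : Nat.find hex ≠ 0 := by
    intro h0
    rw [h0, chain_zero] at hfind
    exact hx0 hfind
  obtain ⟨m, hm⟩ := Nat.exists_eq_succ_of_ne_zero hr0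
  rw [hm] at hfind
  have hxm : x m ∉ chain (Submodule.span K {v | T v = v}) x m := hmin m (by omega)
  obtain ⟨s, hs, c, hc⟩ := mem_chain _ x (m+1) (x (m+1)) hfind
  have hcj : ∃ j, j ≤ m ∧ c j ≠ 0 := by
    by_contra hno
    push Not at hno
    have hsum : ∑ i ∈ Finset.range (m+1), c i • x i = 0 := by
      apply Finset.sum_eq_zero
      intro i hi
      rw [hno i (by have := Finset.mem_range.mp hi; omega), zero_smul]
    rw [hsum, add_zero, hxs] at hc
    have : x m ∈ Submodule.span K {v | T v = v} :=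
      mem_of_T_mem q hq T hadd hsmul hinj (x m) (by rw [hc]; exact hs)
    exact hxm (le_chain _ x m this)
  obtain ⟨t, α, ht0, hα0, hαs, hαm⟩ := exists_alpha q hq c m hcj
  have hαm0 : α m ≠ 0 := by
    intro h0
    rw [h0, zero_pow (by omega)] at hαm
    exact ht0 hαm.symm
  obtain ⟨w, hwdef⟩ : ∃ w : V, w = ∑ i ∈ Finset.range (m+1), α i • x i := ⟨_, rfl⟩
  have hTw : T w = ∑ i ∈ Finset.range m, (α i) ^ q • x (i+1) +
      t • (s + ∑ i ∈ Finset.range (m+1), c i • x i) := by
    have h1 : T w = ∑ i ∈ Finset.range (m+1), (α i) ^ q • x (i+1) := by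
      rw [hwdef, T_sum T hadd]
      apply Finset.sum_congr rfl
      intro i _
      rw [hsmul, hxs]
    rw [h1, Finset.sum_range_succ, hαm, ← hc]
  have hw2 : w = ∑ i ∈ Finset.range m, ((α i) ^ q + t * c (i+1)) • x (i+1)
      + (t * c 0) • x 0 := by
    rw [hwdef, Finset.sum_range_succ', hα0]
    congr 1
    apply Finset.sum_congr rfl
    intro i _
    rw [hαs]
  have key : T w - w = t • s := by
    rw [hTw, hw2, smul_add, Finset.smul_sum, Finset.sum_range_succ' (fun i => t • c i • x i)]
    simp only [add_smul, Finset.sum_add_distrib, mul_smul]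
    abel
  refine ⟨w, ?_, ?_⟩
  · intro hwS
    apply hxm
    have h1 : α m • x m = w - ∑ i ∈ Finset.range m, α i • x i := by
      rw [hwdef, Finset.sum_range_succ]; abel
    have h2 : α m • x m ∈ chain (Submodule.span K {v | T v = v}) x m := by
      rw [h1]
      apply Submodule.sub_mem _ (le_chain _ x m hwS)
      apply Submodule.sum_mem
      intro i hi
      exact Submodule.smul_mem _ _ (mem_chain_of_lt _ x (Finset.mem_range.mp hi))
    have h3 : x m = (α m)⁻¹ • (α m • x m) := by
      rw [smul_smul, inv_mul_cancel₀ hαm0, one_smul]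
    rw [h3]
    exact Submodule.smul_mem _ _ h2
  · rw [key]
    exact Submodule.smul_mem _ _ hs

theorem span_fixed_eq_top [FiniteDimensional K V] (q : ℕ) (hq : 2 ≤ q) (T : V → V)
    (hadd : ∀ u v, T (u + v) = T u + T v)
    (hsmul : ∀ (c : K) (v : V), T (c • v) = c ^ q • T v) (hinj : Function.Injective T) :
    Submodule.span K {v | T v = v} = ⊤ := by
  by_contra hS
  obtain ⟨v₀, hv₀⟩ : ∃ v₀, v₀ ∉ Submodule.span K {v | T v = v} := by
    by_contra h
    push Not at h
    exact hS (Submodule.eq_top_iff'.mpr h)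
  obtain ⟨w, hw1, hw2⟩ := exists_almost_fixed q hq T hadd hsmul hinj (fun i => T^[i] v₀)
    (fun i => Function.iterate_succ_apply' T i v₀) hv₀
  exact hw1 (mem_of_sub_mem q hq T hadd hsmul w hw2)

end abstract

/-- The Lang–Steinberg Theorem for the general linear group. Let `K` be an algebraically closed field of prime characteristic `p`, let `q = p^f` with `f ≥ 1`, and let `σ` be the endomorphism of GL_n(K) raising every matrix entry to the `q`-th power. Then every element `g` of GL_n(K) can be written `g = x · σ(x)⁻¹` for some `x` in GL_n(K): the map `x ↦ x σ(x)⁻¹` is surjective. -/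
theorem result {K : Type*} [Field K] [IsAlgClosed K] (p : ℕ) [Fact p.Prime] [CharP K p]
    (f : ℕ) (hf : 1 ≤ f) (n : ℕ) (g : GL (Fin n) K) :
    ∃ x : GL (Fin n) K, g = x * (Matrix.GeneralLinearGroup.map (iterateFrobenius K p f) x)⁻¹ := by
  classical
  have hp : p.Prime := Fact.out
  have hq : 2 ≤ p ^ f := by
    calc 2 ≤ p := hp.two_le
      _ = p ^ 1 := (pow_one p).symm
      _ ≤ p ^ f := Nat.pow_le_pow_right hp.pos hf
  have hφ : ∀ a : K, iterateFrobenius K p f a = a ^ p ^ f := fun a => iterateFrobenius_def p f a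
  obtain ⟨T, hT⟩ : ∃ T : (Fin n → K) → (Fin n → K), ∀ v, T v =
      (g : Matrix (Fin n) (Fin n) K) *ᵥ (fun i => iterateFrobenius K p f (v i)) := ⟨_, fun _ => rfl⟩
  have hadd : ∀ u v, T (u + v) = T u + T v := by
    intro u v
    rw [hT, hT, hT, ← Matrix.mulVec_add]
    congr 1
    funext i
    simp
  have hsmul : ∀ (c : K) (v : Fin n → K), T (c • v) = c ^ (p ^ f) • T v := by
    intro c v
    rw [hT, hT, ← Matrix.mulVec_smul]
    congr 1
    funext i
    simp [hφ, mul_pow]
  have hinj : Function.Injective T := by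
    intro u v huv
    rw [hT, hT] at huv
    have h1 := (Matrix.mulVec_injective_iff_isUnit.mpr (Units.isUnit g)) huv
    funext i
    exact (iterateFrobenius K p f).injective (congrFun h1 i)
  have htop := span_fixed_eq_top (p ^ f) hq T hadd hsmul hinj
  obtain ⟨b, hb, hspan, hli⟩ := exists_linearIndependent K {v : Fin n → K | T v = v}
  rw [htop] at hspan
  let B : Module.Basis b K (Fin n → K) := Module.Basis.mk hli (by rw [Subtype.range_coe, hspan])
  haveI : Fintype b := FiniteDimensional.fintypeBasisIndex B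
  have hcard : Fintype.card b = n := by
    rw [← Module.finrank_eq_card_basis B, Module.finrank_fin_fun]
  let e : b ≃ Fin n := Fintype.equivFinOfCardEq hcard
  let bb : Module.Basis (Fin n) K (Fin n → K) := B.reindex e
  have hfix : ∀ j, T (bb j) = bb j := by
    intro j
    have h1 : bb j = (e.symm j : Fin n → K) := by
      rw [Module.Basis.reindex_apply, Module.Basis.mk_apply]
    rw [h1]
    exact hb (e.symm j).2
  have hPQ : (Pi.basisFun K (Fin n)).toMatrix bb * bb.toMatrix (Pi.basisFun K (Fin n)) = 1 :=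
    Module.Basis.toMatrix_mul_toMatrix_flip _ _
  have hQP : bb.toMatrix (Pi.basisFun K (Fin n)) * (Pi.basisFun K (Fin n)).toMatrix bb = 1 :=
    Module.Basis.toMatrix_mul_toMatrix_flip _ _
  have hPij : ∀ i j, (Pi.basisFun K (Fin n)).toMatrix bb i j = bb j i := by
    intro i j
    rw [Module.Basis.toMatrix_apply, Pi.basisFun_repr]
  refine ⟨⟨(Pi.basisFun K (Fin n)).toMatrix bb, bb.toMatrix (Pi.basisFun K (Fin n)), hPQ, hQP⟩, ?_⟩
  rw [eq_mul_inv_iff_mul_eq]
  apply Units.ext
  ext i j
  rw [Units.val_mul, Matrix.mul_apply]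
  have h1 := congrFun (hfix j) i
  rw [hT] at h1
  show _ = (Pi.basisFun K (Fin n)).toMatrix bb i j
  rw [hPij, ← h1]
  apply Finset.sum_congr rfl
  intro k _
  rw [Matrix.GeneralLinearGroup.map_apply]
  show _ * iterateFrobenius K p f ((Pi.basisFun K (Fin n)).toMatrix bb k j) = _
  rw [hPij]

end Cfsg.Agent.S2665
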