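import Cfsg.Statements.S2666
import Mathlib

set_option autoImplicit false
open Cfsg

namespace Cfsg.Agent.S2666

theorem fix_pow {X : Type*} [Group X] (σ : MulAut X) (x : X) (hx : σ x = x) (n : ℕ) :
    (σ ^ n) x = x := by
  induction n with
  | zero => simp
  | succ n ih => rw [pow_succ, MulAut.mul_apply, hx, ih]

theorem norm_eq {X : Type*} [Group X] (σ : MulAut X) (a : X) (d : ℕ) :
    ((List.range d).map (fun i => (σ ^ i) (a * (σ a)⁻¹))).prod = a * ((σ ^ d) a)⁻¹ := by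
  induction d with
  | zero => simp
  | succ d ih =>
    rw [List.range_succ, List.map_append, List.prod_append, ih]
    simp only [List.map_cons, List.map_nil, List.prod_cons, List.prod_nil, mul_one, map_mul, map_inv]
    have : (σ ^ d) (σ a) = (σ ^ (d + 1)) a := by
      rw [pow_succ, MulAut.mul_apply]
    rw [this]
    group

/-- the element `x = σᵉ(a)⁻¹ a` is fixed by `σ` when `a σ(a)⁻¹` is fixed by `σᵉ`. -/
theorem x_fixed {X : Type*} [Group X] (σ : MulAut X) (e : ℕ) (a : X)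
    (hg : (σ ^ e) (a * (σ a)⁻¹) = a * (σ a)⁻¹) :
    σ (((σ ^ e) a)⁻¹ * a) = ((σ ^ e) a)⁻¹ * a := by
  simp only [map_mul, map_inv] at hg ⊢
  have hc : σ ((σ ^ e) a) = (σ ^ e) (σ a) := by
    rw [← MulAut.mul_apply, ← MulAut.mul_apply, ← pow_succ', pow_succ]
  rw [hc]
  calc ((σ ^ e) (σ a))⁻¹ * σ a = ((σ ^ e) a)⁻¹ * ((σ ^ e) a * ((σ ^ e) (σ a))⁻¹) * σ a := by group
    _ = ((σ ^ e) a)⁻¹ * (a * (σ a)⁻¹) * σ a := by rw [hg]
    _ = ((σ ^ e) a)⁻¹ * a := by group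

/-- Shintani descent, in an abstract form. Let `σ` be an automorphism of a group `X` such that the maps `a ↦ a·σ(a)⁻¹` and `a ↦ a·σᵉ(a)⁻¹` are surjective on `X` (the Lang–Steinberg property, which holds when `X` is a connected algebraic group and `σ` a Steinberg endomorphism), where `e ≥ 1`. Write `G` for the subgroup of fixed points of `σᵉ` and `H` for the subgroup of fixed points of `σ`. The `G`-conjugacy classes in the coset `G σ` of the semidirect product of `G` by `σ` correspond to the orbits of `G` on itself under twisted conjugation `g ↦ k g σ(k)⁻¹`, and the `e`-th power of `g σ` has `G`-part the norm `g σ(g) ⋯ σ^(e-1)(g)`. For `g` in `G` and any `a` with `g = a σ(a)⁻¹`, put `x = σᵉ(a)⁻¹ a`. Then: (1) `x` lies in `H`, and `a⁻¹ · (g σ(g) ⋯ σ^(e-1)(g)) · a = x`; (2) for `g, g'` in `G` with such elements `a, b` and `x, x'`, the elements `g, g'` are twisted-conjugate under `G` if and only if `x, x'` are conjugate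 in `H`; (3) every element of `H` arises as such an `x`. So `g ↦ x` induces a well-defined bijection from the twisted `G`-classes of `G` onto the conjugacy classes of `H` (the Shintani map). -/
theorem result {X : Type*} [Group X] (σ : MulAut X) (e : ℕ) (he : 1 ≤ e)
    (hL : ∀ g : X, ∃ a : X, g = a * (σ a)⁻¹) (hLe : ∀ g : X, ∃ a : X, g = a * ((σ ^ e) a)⁻¹) :
    (∀ g ∈ (MulEquiv.toMonoidHom (σ ^ e)).eqLocus (MonoidHom.id X), ∀ a : X, g = a * (σ a)⁻¹ →
        ((σ ^ e) a)⁻¹ * a ∈ (MulEquiv.toMonoidHom σ).eqLocus (MonoidHom.id X) ∧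
          a⁻¹ * ((List.range e).map (fun i => (σ ^ i) g)).prod * a = ((σ ^ e) a)⁻¹ * a) ∧
    (∀ g ∈ (MulEquiv.toMonoidHom (σ ^ e)).eqLocus (MonoidHom.id X), ∀ g' ∈ (MulEquiv.toMonoidHom (σ ^ e)).eqLocus (MonoidHom.id X), ∀ a b : X,
        g = a * (σ a)⁻¹ → g' = b * (σ b)⁻¹ →
          ((∃ k ∈ (MulEquiv.toMonoidHom (σ ^ e)).eqLocus (MonoidHom.id X), g' = k * g * (σ k)⁻¹) ↔
            (∃ h ∈ (MulEquiv.toMonoidHom σ).eqLocus (MonoidHom.id X), ((σ ^ e) b)⁻¹ * b = h * (((σ ^ e) a)⁻¹ * a) * h⁻¹))) ∧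
    (∀ x ∈ (MulEquiv.toMonoidHom σ).eqLocus (MonoidHom.id X), ∃ g ∈ (MulEquiv.toMonoidHom (σ ^ e)).eqLocus (MonoidHom.id X), ∃ a : X,
        g = a * (σ a)⁻¹ ∧ ((σ ^ e) a)⁻¹ * a = x) := by
  have mem1 : ∀ y : X, y ∈ (MulEquiv.toMonoidHom (σ ^ e)).eqLocus (MonoidHom.id X) ↔ (σ ^ e) y = y := by
    intro y; rfl
  have mem2 : ∀ y : X, y ∈ (MulEquiv.toMonoidHom σ).eqLocus (MonoidHom.id X) ↔ σ y = y := by
    intro y; rfl
  simp only [mem1, mem2]
  refine ⟨?_, ?_, ?_⟩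
  · intro g hg a ha
    subst ha
    refine ⟨x_fixed σ e a hg, ?_⟩
    rw [norm_eq σ a e]
    group
  · intro g hg g' hg' a b ha hb
    subst ha
    subst hb
    constructor
    · rintro ⟨k, hk, hkg⟩
      refine ⟨b⁻¹ * k * a, ?_, ?_⟩
      · have h1 : σ (b⁻¹ * k * a) = b⁻¹ * k * a := by
          simp only [map_mul, map_inv]
          calc (σ b)⁻¹ * σ k * σ a = b⁻¹ * (b * (σ b)⁻¹) * σ k * σ a := by group
            _ = b⁻¹ * (k * (a * (σ a)⁻¹) * (σ k)⁻¹) * σ k * σ a := by rw [hkg]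
            _ = b⁻¹ * k * a := by group
        exact h1
      · have h1 : σ (b⁻¹ * k * a) = b⁻¹ * k * a := by
          simp only [map_mul, map_inv]
          calc (σ b)⁻¹ * σ k * σ a = b⁻¹ * (b * (σ b)⁻¹) * σ k * σ a := by group
            _ = b⁻¹ * (k * (a * (σ a)⁻¹) * (σ k)⁻¹) * σ k * σ a := by rw [hkg]
            _ = b⁻¹ * k * a := by group
        have h2 : (σ ^ e) (b⁻¹ * k * a) = b⁻¹ * k * a := fix_pow σ _ h1 e
        simp only [map_mul, map_inv, hk] at h2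
        -- h2 : ((σ^e) b)⁻¹ * k * (σ^e) a = b⁻¹ * k * a
        calc ((σ ^ e) b)⁻¹ * b = (((σ ^ e) b)⁻¹ * k * (σ ^ e) a) * ((σ ^ e) a)⁻¹ * k⁻¹ * b := by group
          _ = (b⁻¹ * k * a) * ((σ ^ e) a)⁻¹ * k⁻¹ * b := by rw [h2]
          _ = b⁻¹ * k * a * (((σ ^ e) a)⁻¹ * a) * (b⁻¹ * k * a)⁻¹ := by group
    · rintro ⟨h, hh, hx⟩
      have hhe : (σ ^ e) h = h := fix_pow σ h hh e
      refine ⟨b * h * a⁻¹, ?_, ?_⟩
      · -- (σ^e) (b h a⁻¹) = b h a⁻¹
        simp only [map_mul, map_inv, hhe]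
        have h3 : (σ ^ e) b = b * h * a⁻¹ * (σ ^ e) a * h⁻¹ := by
          calc (σ ^ e) b = b * (((σ ^ e) b)⁻¹ * b)⁻¹ := by group
            _ = b * (h * (((σ ^ e) a)⁻¹ * a) * h⁻¹)⁻¹ := by rw [hx]
            _ = b * h * a⁻¹ * (σ ^ e) a * h⁻¹ := by group
        rw [h3]; group
      · simp only [map_mul, map_inv, hh]
        group
  · intro x hx
    obtain ⟨c, hc⟩ := hLe x⁻¹
    have hxe : (σ ^ e) x = x := fix_pow σ x hx e
    have hce : (σ ^ e) c = x * c := by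
      calc (σ ^ e) c = (c * ((σ ^ e) c)⁻¹)⁻¹ * c := by group
        _ = (x⁻¹)⁻¹ * c := by rw [← hc]
        _ = x * c := by group
    refine ⟨c⁻¹ * (σ c⁻¹)⁻¹, ?_, c⁻¹, rfl, ?_⟩
    · have hcomm : (σ ^ e) (σ c) = σ ((σ ^ e) c) := by
        rw [← MulAut.mul_apply, ← MulAut.mul_apply, ← pow_succ, pow_succ']
      simp only [map_mul, map_inv, inv_inv]
      rw [hcomm, hce, map_mul, hx]
      group
    · simp only [map_inv, inv_inv]
      rw [hce]; group

end Cfsg.Agent.S2666
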