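import Cfsg.Statements.S2667
import Mathlib

set_option autoImplicit false
open Cfsg

namespace Cfsg.Agent.S2667

theorem fix_pow {X : Type*} [Group X] (σ : MulAut X) (x : X) (hx : σ x = x) (n : ℕ) :
    (σ ^ n) x = x := by
  induction n with
  | zero => simp
  | succ n ih => rw [pow_succ, MulAut.mul_apply, hx, ih]

/-- Shintani descent, in an abstract form. Let `σ` be an automorphism of a group `X` and `e ≥ 1` (no surjectivity of the Lang maps is needed for this part; in the classical setting `X` is a connected algebraic group and `σ` a Steinberg endomorphism). Write `G` for the subgroup of fixed points of `σᵉ` and `H` for the subgroup of fixed points of `σ`. The `G`-conjugacy classes in the coset `G σ` of the semidirect product of `G` by `σ` correspond to the orbits of `G` on itself under twisted conjugation `g ↦ k g σ(k)⁻¹`, and the `e`-th power of `g σ` has `G`-part the norm `g σ(g) ⋯ σ^(e-1)(g)`. For `g` in `G` and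 any `a` with `g = a σ(a)⁻¹`, put `x = σᵉ(a)⁻¹ a`. Then conjugation by `a⁻¹` carries the twisted centralizer `{k ∈ G : k g σ(k)⁻¹ = g}` (the centralizer of `g σ` in `G`) exactly onto the centralizer of `x` in `H`: an element `k` of `X` lies in `G` and satisfies `k g σ(k)⁻¹ = g` if and only if `a⁻¹ k a` lies in `H` and commutes with `x`. In particular the two centralizers are conjugate in `X` and have the same order. -/
theorem result {X : Type*} [Group X] (σ : MulAut X) (e : ℕ) (he : 1 ≤ e)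
    (g : X) (hg : g ∈ (MulEquiv.toMonoidHom (σ ^ e)).eqLocus (MonoidHom.id X)) (a : X) (ha : g = a * (σ a)⁻¹) (k : X) :
    (k ∈ (MulEquiv.toMonoidHom (σ ^ e)).eqLocus (MonoidHom.id X) ∧ k * g * (σ k)⁻¹ = g) ↔
      (a⁻¹ * k * a ∈ (MulEquiv.toMonoidHom σ).eqLocus (MonoidHom.id X) ∧
        (a⁻¹ * k * a) * (((σ ^ e) a)⁻¹ * a) = (((σ ^ e) a)⁻¹ * a) * (a⁻¹ * k * a)) := by
  have mem1 : ∀ y : X, y ∈ (MulEquiv.toMonoidHom (σ ^ e)).eqLocus (MonoidHom.id X) ↔ (σ ^ e) y = y := by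
    intro y; rfl
  have mem2 : ∀ y : X, y ∈ (MulEquiv.toMonoidHom σ).eqLocus (MonoidHom.id X) ↔ σ y = y := by
    intro y; rfl
  rw [mem1, mem2]
  subst ha
  constructor
  · rintro ⟨hk, hkg⟩
    have h1 : σ (a⁻¹ * k * a) = a⁻¹ * k * a := by
      simp only [map_mul, map_inv]
      -- from hkg : k * (a * (σ a)⁻¹) * (σ k)⁻¹ = a * (σ a)⁻¹
      have : a⁻¹ * k * a = (σ a)⁻¹ * σ k * σ a := by
        have h := congrArg (fun y => a⁻¹ * y * (σ k * σ a)) hkg
        simp only [mul_assoc] at h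
        simpa [mul_assoc] using h
      exact this.symm
    refine ⟨h1, ?_⟩
    have h2 : (σ ^ e) (a⁻¹ * k * a) = a⁻¹ * k * a := fix_pow σ _ h1 e
    simp only [map_mul, map_inv, hk] at h2
    -- h2 : ((σ^e) a)⁻¹ * k * (σ^e) a = a⁻¹ * k * a
    have h3 : a⁻¹ * k * a * ((σ ^ e) a)⁻¹ = ((σ ^ e) a)⁻¹ * k := by
      rw [← h2]; group
    calc a⁻¹ * k * a * (((σ ^ e) a)⁻¹ * a) = (a⁻¹ * k * a * ((σ ^ e) a)⁻¹) * a := by group
      _ = ((σ ^ e) a)⁻¹ * k * a := by rw [h3]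
      _ = ((σ ^ e) a)⁻¹ * a * (a⁻¹ * k * a) := by group
  · rintro ⟨h1, hc⟩
    have h2 : (σ ^ e) (a⁻¹ * k * a) = a⁻¹ * k * a := fix_pow σ _ h1 e
    simp only [map_mul, map_inv] at h2
    have h1' : (σ a)⁻¹ * σ k * σ a = a⁻¹ * k * a := by
      simpa only [map_mul, map_inv] using h1
    constructor
    · -- (σ^e) k = k
      have h3 : a⁻¹ * k * a * ((σ ^ e) a)⁻¹ = ((σ ^ e) a)⁻¹ * k := by
        have h := congrArg (fun y => y * a⁻¹) hc
        calc a⁻¹ * k * a * ((σ ^ e) a)⁻¹ = a⁻¹ * k * a * (((σ ^ e) a)⁻¹ * a) * a⁻¹ := by group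
          _ = ((σ ^ e) a)⁻¹ * a * (a⁻¹ * k * a) * a⁻¹ := h
          _ = ((σ ^ e) a)⁻¹ * k := by group
      calc (σ ^ e) k = (σ ^ e) a * (((σ ^ e) a)⁻¹ * (σ ^ e) k * (σ ^ e) a) * ((σ ^ e) a)⁻¹ := by group
        _ = (σ ^ e) a * (a⁻¹ * k * a) * ((σ ^ e) a)⁻¹ := by rw [h2]
        _ = (σ ^ e) a * (a⁻¹ * k * a * ((σ ^ e) a)⁻¹) := by group
        _ = (σ ^ e) a * (((σ ^ e) a)⁻¹ * k) := by rw [h3]
        _ = k := by group
    · calc k * (a * (σ a)⁻¹) * (σ k)⁻¹ = a * (a⁻¹ * k * a) * (σ a)⁻¹ * (σ k)⁻¹ := by group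
        _ = a * ((σ a)⁻¹ * σ k * σ a) * (σ a)⁻¹ * (σ k)⁻¹ := by rw [h1']
        _ = a * (σ a)⁻¹ := by group

end Cfsg.Agent.S2667
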