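import Cfsg.Statements.S2668
import Mathlib

set_option autoImplicit false
open Cfsg

namespace Cfsg.Agent.S2668

theorem fix_pow {X : Type*} [Group X] (σ : MulAut X) (x : X) (hx : σ x = x) (n : ℕ) :
    (σ ^ n) x = x := by
  induction n with
  | zero => simp
  | succ n ih => rw [pow_succ, MulAut.mul_apply, hx, ih]

theorem norm_eq {X : Type*} [Group X] (σ : MulAut X) (a : X) (d : ℕ) :
    ((List.range d).map (fun i => (σ ^ i) (a * (σ a)⁻¹))).prod = a * ((σ ^ d) a)⁻¹ := by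
  induction d with
  | zero => simp
  | succ d ih =>
    rw [List.range_succ, List.map_append, List.prod_append, ih]
    simp only [List.map_cons, List.map_nil, List.prod_cons, List.prod_nil, mul_one, map_mul, map_inv]
    have : (σ ^ d) (σ a) = (σ ^ (d + 1)) a := by
      rw [pow_succ, MulAut.mul_apply]
    rw [this]
    group

/-- the element `x = σᵉ(a)⁻¹ a` is fixed by `σ` when `a σ(a)⁻¹` is fixed by `σᵉ`. -/
theorem x_fixed {X : Type*} [Group X] (σ : MulAut X) (e : ℕ) (a : X)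
    (hg : (σ ^ e) (a * (σ a)⁻¹) = a * (σ a)⁻¹) :
    σ (((σ ^ e) a)⁻¹ * a) = ((σ ^ e) a)⁻¹ * a := by
  simp only [map_mul, map_inv] at hg ⊢
  have hc : σ ((σ ^ e) a) = (σ ^ e) (σ a) := by
    rw [← MulAut.mul_apply, ← MulAut.mul_apply, ← pow_succ', pow_succ]
  rw [hc]
  -- hg : (σ^e) a * ((σ^e) (σ a))⁻¹ = a * (σ a)⁻¹
  calc ((σ ^ e) (σ a))⁻¹ * σ a = ((σ ^ e) a)⁻¹ * ((σ ^ e) a * ((σ ^ e) (σ a))⁻¹) * σ a := by group
    _ = ((σ ^ e) a)⁻¹ * (a * (σ a)⁻¹) * σ a := by rw [hg]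
    _ = ((σ ^ e) a)⁻¹ * a := by group

theorem pow_pow_apply {X : Type*} [Group X] (τ : MulAut X) (a x : X) (hx : τ x = x)
    (hax : τ a = a * x⁻¹) (d : ℕ) : (τ ^ d) a = a * (x ^ d)⁻¹ := by
  induction d with
  | zero => simp
  | succ d ih =>
    rw [pow_succ', MulAut.mul_apply, ih, map_mul, map_inv, map_pow, hx, hax, pow_succ']
    group

/-- Shintani descent and powers (abstract form). Let `σ` be an automorphism of a group `X`, `e ≥ 1` and `d ≥ 1`, let `g` be fixed by `σᵉ` and let `a` satisfy `g = a σ(a)⁻¹`, so that the Shintani map of `(X, σ, e)` sends the class of `g σ` to the class of `x = σᵉ(a)⁻¹ a`. Put `h = g σ(g) ⋯ σ^(d-1)(g)`, the part in `X` of the `d`-th power `(g σ)^d = h σ^d`. Then `h = a σ^d(a)⁻¹` (so `a` also serves for `h` with respect to `σ^d`), `h` is fixed by `(σ^d)ᵉ`, and `(σ^d)ᵉ(a)⁻¹ a = x^d`: the Shintani map of `(X, σ^d, e)` sends the class of `(g σ)^d` to the class of `x^d`. (When `d` divides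 `e`, the Shintani map of `(X, σ^d, e/d)` sends it to the class of `x` itself, since `(σ^d)^(e/d) = σᵉ`.) -/
theorem result {X : Type*} [Group X] (σ : MulAut X) (e d : ℕ) (he : 1 ≤ e) (hd : 1 ≤ d)
    (g : X) (hg : g ∈ (MulEquiv.toMonoidHom (σ ^ e)).eqLocus (MonoidHom.id X)) (a : X) (ha : g = a * (σ a)⁻¹) :
    ((List.range d).map (fun i => (σ ^ i) g)).prod = a * ((σ ^ d) a)⁻¹ ∧
      ((List.range d).map (fun i => (σ ^ i) g)).prod ∈ (MulEquiv.toMonoidHom ((σ ^ d) ^ e)).eqLocus (MonoidHom.id X) ∧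
      (((σ ^ d) ^ e) a)⁻¹ * a = (((σ ^ e) a)⁻¹ * a) ^ d := by
  have hg' : (σ ^ e) g = g := hg
  subst ha
  have hx := x_fixed σ e a hg'
  set x := ((σ ^ e) a)⁻¹ * a with hxdef
  have hax : (σ ^ e) a = a * x⁻¹ := by rw [hxdef]; group
  have hxe : (σ ^ e) x = x := fix_pow σ x hx e
  have hxd : (σ ^ d) x = x := fix_pow σ x hx d
  have hpow : ((σ ^ d) ^ e) a = a * (x ^ d)⁻¹ := by
    rw [← pow_mul, mul_comm, pow_mul]
    exact pow_pow_apply (σ ^ e) a x hxe hax d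
  have hnorm := norm_eq σ a d
  refine ⟨hnorm, ?_, ?_⟩
  · have key : ((σ ^ d) ^ e) (a * ((σ ^ d) a)⁻¹) = a * ((σ ^ d) a)⁻¹ := by
      rw [map_mul, map_inv, hpow]
      have hc : ((σ ^ d) ^ e) ((σ ^ d) a) = (σ ^ d) (((σ ^ d) ^ e) a) := by
        rw [← MulAut.mul_apply, ← MulAut.mul_apply, ← pow_succ, pow_succ']
      rw [hc, hpow, map_mul, map_inv, map_pow, hxd]
      group
    rw [hnorm]
    exact key
  · rw [hpow]; group

end Cfsg.Agent.S2668
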