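import Cfsg.Statements.S2669
import Mathlib
-- import your own Cfsg.Agent.* helpers here

set_option autoImplicit false
open Cfsg

namespace Cfsg.Agent.S2669

theorem card_torsor {X : Type*} [Group X] (A : Set X) (K : Subgroup X) (T : Set (X × X))
    (h₀ : X → X)
    (h1 : ∀ k ∈ A, ∀ y ∈ K, (k, h₀ k * y) ∈ T)
    (h2 : ∀ p ∈ T, p.1 ∈ A ∧ (h₀ p.1)⁻¹ * p.2 ∈ K) :
    Nat.card T = Nat.card A * Nat.card K := by
  rw [← Nat.card_prod]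
  refine Nat.card_congr ?_
  exact { toFun := fun t => (⟨t.1.1, (h2 t.1 t.2).1⟩, ⟨(h₀ t.1.1)⁻¹ * t.1.2, (h2 t.1 t.2).2⟩)
          invFun := fun p => ⟨(p.1.1, h₀ p.1.1 * p.2.1), h1 _ p.1.2 _ p.2.2⟩
          left_inv := fun t => by apply Subtype.ext; apply Prod.ext <;> simp
          right_inv := fun p => by apply Prod.ext <;> apply Subtype.ext <;> simp }

theorem main {X : Type*} [Group X] (σ τ : MulAut X) (Y : Subgroup X)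
    (hτY : ∀ y ∈ Y, τ y ∈ Y) (hσY : ∀ y ∈ Y, σ y ∈ Y) (hτσ : ∀ h, σ h = h → τ h = h)
    (hYL : ∀ y ∈ Y, ∃ a ∈ Y, y = a * (σ a)⁻¹) (hYLe : ∀ y ∈ Y, ∃ a ∈ Y, y = a * (τ a)⁻¹)
    (g a : X) (ha : g = a * (σ a)⁻¹) :
    Nat.card {k : X | τ k = k ∧ k⁻¹ * g * σ k ∈ Y}
        * Nat.card ↥(Y ⊓ (MulEquiv.toMonoidHom σ).eqLocus (MonoidHom.id X))
      = Nat.card {h : X | σ h = h ∧ h⁻¹ * ((τ a)⁻¹ * a) * h ∈ Y}
        * Nat.card ↥(Y ⊓ (MulEquiv.toMonoidHom τ).eqLocus (MonoidHom.id X)) := by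
  classical
  have L1 : ∀ k, τ k = k → k⁻¹ * g * σ k ∈ Y → ∃ h, σ h = h ∧ h⁻¹ * a⁻¹ * k ∈ Y := by
    intro k _ hk
    obtain ⟨b, hb, hyb⟩ := hYL _ hk
    refine ⟨a⁻¹ * k * b, ?_, ?_⟩
    · have e1 : (σ a)⁻¹ = a⁻¹ * g := by rw [ha]; group
      have e2 : σ k = g⁻¹ * k * (b * (σ b)⁻¹) := by rw [← hyb]; group
      simp only [map_mul, map_inv]
      rw [e1, e2]; group
    · have : (a⁻¹ * k * b)⁻¹ * a⁻¹ * k = b⁻¹ := by group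
      rw [this]; exact Y.inv_mem hb
  have L2 : ∀ h, σ h = h → h⁻¹ * ((τ a)⁻¹ * a) * h ∈ Y → ∃ k, τ k = k ∧ h⁻¹ * a⁻¹ * k ∈ Y := by
    intro h hh hy
    obtain ⟨c, hc, hyc⟩ := hYLe _ (Y.inv_mem hy)
    refine ⟨a * h * c, ?_, ?_⟩
    · have e1 : τ a = a * h * (c * (τ c)⁻¹) * h⁻¹ := by rw [← hyc]; group
      simp only [map_mul]
      rw [hτσ h hh, e1]; group
    · have : h⁻¹ * a⁻¹ * (a * h * c) = c := by group
      rw [this]; exact hc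
  have L3a' : ∀ h c, σ h = h → c ∈ Y → (a * h * c)⁻¹ * g * σ (a * h * c) ∈ Y := by
    intro h c hh hc
    have : (a * h * c)⁻¹ * g * σ (a * h * c) = c⁻¹ * σ c := by
      simp only [map_mul]
      rw [hh, ha]; group
    rw [this]; exact Y.mul_mem (Y.inv_mem hc) (hσY _ hc)
  have L3a : ∀ k h, σ h = h → h⁻¹ * a⁻¹ * k ∈ Y → k⁻¹ * g * σ k ∈ Y := by
    intro k h hh hc
    have hk : a * h * (h⁻¹ * a⁻¹ * k) = k := by group
    have := L3a' h _ hh hc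
    rwa [hk] at this
  have L3b' : ∀ h c, σ h = h → c ∈ Y → τ (a * h * c) = a * h * c →
      h⁻¹ * ((τ a)⁻¹ * a) * h ∈ Y := by
    intro h c hh hc hk
    simp only [map_mul] at hk
    rw [hτσ h hh] at hk
    have e : h⁻¹ * ((τ a)⁻¹ * a) * h = τ c * c⁻¹ := by
      calc h⁻¹ * ((τ a)⁻¹ * a) * h = h⁻¹ * (τ a)⁻¹ * (a * h * c) * c⁻¹ := by group
        _ = h⁻¹ * (τ a)⁻¹ * (τ a * h * τ c) * c⁻¹ := by rw [hk]
        _ = τ c * c⁻¹ := by group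
    rw [e]; exact Y.mul_mem (hτY _ hc) (Y.inv_mem hc)
  have L3b : ∀ k h, τ k = k → σ h = h → h⁻¹ * a⁻¹ * k ∈ Y →
      h⁻¹ * ((τ a)⁻¹ * a) * h ∈ Y := by
    intro k h hk hh hc
    have hk' : a * h * (h⁻¹ * a⁻¹ * k) = k := by group
    exact L3b' h _ hh hc (by rw [hk']; exact hk)
  choose! h₀ hh₀ hh₀' using L1
  choose! k₀ hk₀ hk₀' using L2
  have c1 : Nat.card {p : X × X | τ p.1 = p.1 ∧ σ p.2 = p.2 ∧ p.2⁻¹ * a⁻¹ * p.1 ∈ Y}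
      = Nat.card {k : X | τ k = k ∧ k⁻¹ * g * σ k ∈ Y}
        * Nat.card ↥(Y ⊓ (MulEquiv.toMonoidHom σ).eqLocus (MonoidHom.id X)) := by
    apply card_torsor _ _ _ h₀
    · intro k hk y hy
      obtain ⟨hk1, hk2⟩ := hk
      obtain ⟨hy1, hy2⟩ := Subgroup.mem_inf.mp hy
      have hy2' : σ y = y := hy2
      refine ⟨hk1, ?_, ?_⟩
      · show σ (h₀ k * y) = h₀ k * y
        rw [map_mul, hh₀ k hk1 hk2, hy2']
      · show (h₀ k * y)⁻¹ * a⁻¹ * k ∈ Y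
        have : (h₀ k * y)⁻¹ * a⁻¹ * k = y⁻¹ * ((h₀ k)⁻¹ * a⁻¹ * k) := by group
        rw [this]; exact Y.mul_mem (Y.inv_mem hy1) (hh₀' k hk1 hk2)
    · intro p hp
      obtain ⟨hk, hh, hc⟩ := hp
      have hk2 := L3a p.1 p.2 hh hc
      refine ⟨⟨hk, hk2⟩, Subgroup.mem_inf.mpr ⟨?_, ?_⟩⟩
      · have : (h₀ p.1)⁻¹ * p.2 = ((h₀ p.1)⁻¹ * a⁻¹ * p.1) * (p.2⁻¹ * a⁻¹ * p.1)⁻¹ := by group
        rw [this]; exact Y.mul_mem (hh₀' p.1 hk hk2) (Y.inv_mem hc)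
      · show σ ((h₀ p.1)⁻¹ * p.2) = (h₀ p.1)⁻¹ * p.2
        rw [map_mul, map_inv, hh₀ p.1 hk hk2, hh]
  have c2 : Nat.card {p : X × X | τ p.2 = p.2 ∧ σ p.1 = p.1 ∧ p.1⁻¹ * a⁻¹ * p.2 ∈ Y}
      = Nat.card {h : X | σ h = h ∧ h⁻¹ * ((τ a)⁻¹ * a) * h ∈ Y}
        * Nat.card ↥(Y ⊓ (MulEquiv.toMonoidHom τ).eqLocus (MonoidHom.id X)) := by
    apply card_torsor _ _ _ k₀
    · intro h hh y hy
      obtain ⟨hh1, hh2⟩ := hh
      obtain ⟨hy1, hy2⟩ := Subgroup.mem_inf.mp hy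
      have hy2' : τ y = y := hy2
      refine ⟨?_, hh1, ?_⟩
      · show τ (k₀ h * y) = k₀ h * y
        rw [map_mul, hk₀ h hh1 hh2, hy2']
      · show h⁻¹ * a⁻¹ * (k₀ h * y) ∈ Y
        have : h⁻¹ * a⁻¹ * (k₀ h * y) = (h⁻¹ * a⁻¹ * k₀ h) * y := by group
        rw [this]; exact Y.mul_mem (hk₀' h hh1 hh2) hy1
    · intro p hp
      obtain ⟨hk, hh, hc⟩ := hp
      have hh2 := L3b p.2 p.1 hk hh hc
      refine ⟨⟨hh, hh2⟩, Subgroup.mem_inf.mpr ⟨?_, ?_⟩⟩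
      · have : (k₀ p.1)⁻¹ * p.2 = (p.1⁻¹ * a⁻¹ * k₀ p.1)⁻¹ * (p.1⁻¹ * a⁻¹ * p.2) := by group
        rw [this]; exact Y.mul_mem (Y.inv_mem (hk₀' p.1 hh hh2)) hc
      · show τ ((k₀ p.1)⁻¹ * p.2) = (k₀ p.1)⁻¹ * p.2
        rw [map_mul, map_inv, hk₀ p.1 hh hh2, hk]
  have c3 : Nat.card {p : X × X | τ p.1 = p.1 ∧ σ p.2 = p.2 ∧ p.2⁻¹ * a⁻¹ * p.1 ∈ Y}
      = Nat.card {p : X × X | τ p.2 = p.2 ∧ σ p.1 = p.1 ∧ p.1⁻¹ * a⁻¹ * p.2 ∈ Y} :=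
    Nat.card_congr ((Equiv.prodComm X X).subtypeEquiv (fun p => Iff.rfl))
  rw [← c1, ← c2, c3]

/-- Shintani descent preserves numbers of fixed points on coset spaces (abstract form). Let `σ` be an automorphism of a group `X` and `e ≥ 1`; write `G` for the fixed points of `σᵉ` and `H` for the fixed points of `σ`, and assume `G` is finite. Let `Y` be a `σ`-stable subgroup of `X` on which the maps `a ↦ a σ(a)⁻¹` and `a ↦ a σᵉ(a)⁻¹` are surjective (as for a closed connected `σ`-stable subgroup of an algebraic group). Let `g ∈ G`, let `a ∈ X` satisfy `g = a σ(a)⁻¹` and put `x = σᵉ(a)⁻¹ a` (the Shintani image, an element of `H`). The element `g σ` of the semidirect product acts on the cosets of `Y ∩ G` in `G` by `k (Y ∩ G) ↦ g σ(k) (Y ∩ G)`, fixing that coset exactly when `k⁻¹ g σ(k) ∈ Y`; and `x` fixes the coset `h (Y ∩ H)` of `H` exactly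 when `h⁻¹ x h ∈ Y`. Then the two numbers of fixed cosets agree; in cross-multiplied form, `#{k ∈ G : k⁻¹ g σ(k) ∈ Y} · |Y ∩ H| = #{h ∈ H : h⁻¹ x h ∈ Y} · |Y ∩ G|`. -/
theorem result {X : Type*} [Group X] (σ : MulAut X) (e : ℕ) (he : 1 ≤ e)
    [Finite ↥((MulEquiv.toMonoidHom (σ ^ e)).eqLocus (MonoidHom.id X))]
    (Y : Subgroup X) (hY : ∀ y : X, y ∈ Y ↔ σ y ∈ Y)
    (hYL : ∀ y ∈ Y, ∃ a ∈ Y, y = a * (σ a)⁻¹) (hYLe : ∀ y ∈ Y, ∃ a ∈ Y, y = a * ((σ ^ e) a)⁻¹)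
    (g : X) (hg : g ∈ (MulEquiv.toMonoidHom (σ ^ e)).eqLocus (MonoidHom.id X)) (a : X) (ha : g = a * (σ a)⁻¹) :
    Nat.card {k : ↥((MulEquiv.toMonoidHom (σ ^ e)).eqLocus (MonoidHom.id X)) // (k : X)⁻¹ * g * σ k ∈ Y} *
        Nat.card ↥(Y ⊓ (MulEquiv.toMonoidHom σ).eqLocus (MonoidHom.id X)) =
      Nat.card {h : ↥((MulEquiv.toMonoidHom σ).eqLocus (MonoidHom.id X)) // (h : X)⁻¹ * (((σ ^ e) a)⁻¹ * a) * h ∈ Y} *
        Nat.card ↥(Y ⊓ (MulEquiv.toMonoidHom (σ ^ e)).eqLocus (MonoidHom.id X)) := by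
  have hτY : ∀ n : ℕ, ∀ y ∈ Y, (σ ^ n) y ∈ Y := by
    intro n
    induction n with
    | zero => intro y hy; simpa using hy
    | succ n ih => intro y hy; rw [pow_succ', MulAut.mul_apply]; exact (hY _).mp (ih y hy)
  have hτσ : ∀ n : ℕ, ∀ h, σ h = h → (σ ^ n) h = h := by
    intro n h hh
    induction n with
    | zero => simp
    | succ n ih => rw [pow_succ', MulAut.mul_apply, ih, hh]
  have key := main σ (σ ^ e) Y (hτY e) (fun y hy => (hY y).mp hy) (hτσ e) hYL hYLe g a ha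
  have cA : Nat.card {k : ↥((MulEquiv.toMonoidHom (σ ^ e)).eqLocus (MonoidHom.id X)) //
        (k : X)⁻¹ * g * σ k ∈ Y}
      = Nat.card {k : X | (σ ^ e) k = k ∧ k⁻¹ * g * σ k ∈ Y} :=
    Nat.card_congr (Equiv.subtypeSubtypeEquivSubtypeInter
      (fun x : X => x ∈ (MulEquiv.toMonoidHom (σ ^ e)).eqLocus (MonoidHom.id X))
      (fun x => x⁻¹ * g * σ x ∈ Y))
  have cB : Nat.card {h : ↥((MulEquiv.toMonoidHom σ).eqLocus (MonoidHom.id X)) //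
        (h : X)⁻¹ * (((σ ^ e) a)⁻¹ * a) * h ∈ Y}
      = Nat.card {h : X | σ h = h ∧ h⁻¹ * (((σ ^ e) a)⁻¹ * a) * h ∈ Y} :=
    Nat.card_congr (Equiv.subtypeSubtypeEquivSubtypeInter
      (fun x : X => x ∈ (MulEquiv.toMonoidHom σ).eqLocus (MonoidHom.id X))
      (fun x => x⁻¹ * (((σ ^ e) a)⁻¹ * a) * x ∈ Y))
  rw [cA, cB]
  exact key

end Cfsg.Agent.S2669
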