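import Cfsg.Statements.S2671
import Mathlib
import Cfsg.Agent.Helper14.PrimeOrdU2

set_option autoImplicit false
open Cfsg

namespace Cfsg.Agent.S2671
open Polynomial

/-- Number of conjugacy classes of elements of odd prime order r in the general unitary group GU_n(q), for r not dividing q(q + 1): let i be the multiplicative order of q modulo r, b = i if i is odd and b = i/2 if i is even, and s = (r − 1)/b. If i ≢ 2 (mod 4) the eigenvalue orbits pair off into dual pairs of totally isotropic blocks and there are C(⌊n/(2b)⌋ + s/2, s/2) − 1 classes; if i ≡ 2 (mod 4) each orbit gives a non-degenerate block of dimension i/2 and there are C(⌊2n/i⌋ + s, s) − 1 classes. -/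
theorem result {K : Type*} [Field K] [Fintype K] {p q n r i b s : ℕ} [Fact p.Prime] [CharP K p] (hK : Fintype.card K = q ^ 2) (hr : r.Prime) (hr2 : r ≠ 2) (hrp : r ≠ p) (hi : i = orderOf (q : ZMod r)) (hi2 : i ≠ 2) (hb : b = if Odd i then i else i / 2) (hs : s * b = r - 1) : Nat.card {C : ConjClasses ↥(Cfsg.GU n K q) // ∃ g : ↥(Cfsg.GU n K q), ConjClasses.mk g = C ∧ orderOf g = r} = if i % 4 = 2 then Nat.choose (2 * n / i + s) s - 1 else Nat.choose (n / (2 * b) + s / 2) (s / 2) - 1 := by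
  classical
  haveI : Fact r.Prime := ⟨hr⟩
  have hq' : Cfsg.Agent.Helper8.SULag.QF K q := Cfsg.Agent.Helper8.SULag.qf_of_card hK
  obtain ⟨f, -, hqK⟩ := FiniteField.card K p
  have hpr : p.Coprime r := (Nat.coprime_primes Fact.out hr).mpr (Ne.symm hrp)
  have hrF : (r : K) ≠ 0 := by
    intro h0
    rw [CharP.cast_eq_zero_iff K p] at h0
    exact hrp ((Nat.prime_dvd_prime_iff_eq Fact.out hr).mp h0).symm
  obtain ⟨e, -, hqp⟩ : ∃ e ≤ (f : ℕ), q = p ^ e := by
    apply (Nat.dvd_prime_pow Fact.out).mp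
    rw [← hqK, hK]
    exact Dvd.intro q (by ring)
  have hbord : orderOf ((q : ZMod r) ^ 2) = b := by
    rw [orderOf_pow' _ two_ne_zero, ← hi, hb]
    by_cases hodd : Odd i
    · rw [if_pos hodd, Nat.Coprime.gcd_eq_one (Nat.coprime_two_right.mpr hodd), Nat.div_one]
    · rw [if_neg hodd, Nat.gcd_eq_right (even_iff_two_dvd.mp (Nat.not_odd_iff_even.mp hodd))]
  have hord : orderOf (ZMod.unitOfCoprime (p ^ (f : ℕ)) (hpr.pow_left f)) = b := by
    rw [← orderOf_units, ZMod.coe_unitOfCoprime, ← hqK, hK, ← hbord]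
    push_cast
    rfl
  have hbpos : 0 < b := by rw [← hord]; exact orderOf_pos _
  have hcard := Polynomial.normalizedFactors_cyclotomic_card hqK hpr
  rw [hord, Nat.totient_prime hr, ← hs, Nat.mul_div_cancel s hbpos] at hcard
  obtain ⟨Φ, hΦ⟩ : ∃ Φ : Finset K[X],
      Φ = (UniqueFactorizationMonoid.normalizedFactors (cyclotomic r K)).toFinset := ⟨_, rfl⟩
  rw [← hΦ] at hcard
  have hcyc : cyclotomic r K * (X - 1) = X ^ r - 1 := Polynomial.cyclotomic_prime_mul_X_sub_one K r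
  have hX1irr : Irreducible (X - 1 : K[X]) := Cfsg.Agent.Helper14.PrimeOrdSp.X_sub_one_irr
  have hX1mon : (X - 1 : K[X]).Monic := Cfsg.Agent.Helper14.PrimeOrdSp.X_sub_one_monic
  have hΦirr : ∀ φ ∈ Φ, Irreducible φ := by
    intro φ hφ
    rw [hΦ, Multiset.mem_toFinset] at hφ
    exact UniqueFactorizationMonoid.irreducible_of_normalized_factor φ hφ
  have hΦmon : ∀ φ ∈ Φ, φ.Monic := by
    intro φ hφ
    have hirrφ := hΦirr φ hφ
    rw [hΦ, Multiset.mem_toFinset] at hφ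
    rw [← UniqueFactorizationMonoid.normalize_normalized_factor φ hφ]
    exact Polynomial.monic_normalize hirrφ.ne_zero
  have hΦdvd : ∀ φ ∈ Φ, φ ∣ cyclotomic r K := by
    intro φ hφ
    rw [hΦ, Multiset.mem_toFinset] at hφ
    exact UniqueFactorizationMonoid.dvd_of_mem_normalizedFactors hφ
  have hΦdvd' : ∀ φ ∈ Φ, φ ∣ X ^ r - 1 := fun φ hφ => (hΦdvd φ hφ).trans (Dvd.intro _ hcyc)
  have hΦdeg : ∀ φ ∈ Φ, φ.natDegree = b := by
    intro φ hφ
    rw [hΦ, Multiset.mem_toFinset] at hφ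
    rw [Polynomial.natDegree_of_mem_normalizedFactors_cyclotomic hqK hpr hφ, hord]
  have hΦ1 : X - 1 ∉ Φ := by
    intro h
    have h1 := Polynomial.eval_dvd (x := (1 : K)) (hΦdvd _ h)
    rw [Polynomial.eval_one_cyclotomic_prime] at h1
    simp at h1
    exact hrF h1
  have hmem : ∀ ψ : K[X], Irreducible ψ → ψ.Monic → ψ ∣ X ^ r - 1 →
      ψ ∈ insert (X - 1) Φ := by
    intro ψ hψ hψm hψd
    rw [← hcyc] at hψd
    rcases hψ.prime.dvd_or_dvd hψd with h | h
    · apply Finset.mem_insert_of_mem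
      rw [hΦ, Multiset.mem_toFinset,
        UniqueFactorizationMonoid.mem_normalizedFactors_iff' (cyclotomic_ne_zero r K)]
      exact ⟨hψ, hψm.normalize_eq_self, h⟩
    · rw [Finset.mem_insert]
      left
      exact Polynomial.eq_of_monic_of_associated hψm hX1mon (hψ.associated_of_dvd hX1irr h)
  have he1 : ∀ φ ∈ Φ, eval 1 φ ≠ 0 :=
    Cfsg.Agent.Helper14.PrimeOrdSp.eval_one_ne Φ hΦ1 hΦirr hΦmon
  by_cases h4 : i % 4 = 2
  · rw [if_pos h4, ← hcard]
    have hie : Even i := ⟨i / 2, by omega⟩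
    have hbi : b = i / 2 := by rw [hb, if_neg (Nat.not_odd_iff_even.mpr hie)]
    have h2n : 2 * n / i = n / b := by
      have h5 : i = 2 * b := by omega
      rw [h5, Nat.mul_div_mul_left _ _ (by norm_num : 0 < 2)]
    rw [h2n]
    have hipos : 0 < i := by omega
    have hrk := Cfsg.Agent.Helper14.PrimeOrdSp.dvd_pow_half_add_one hr hi hipos hie
    have hia : i / 2 = 2 * (i / 4) + 1 := by omega
    rw [hia] at hrk
    exact Cfsg.Agent.Helper14.PrimeOrdU.card_self p hK hq' hr hrp Φ hΦ1 hΦirr hΦmon hΦdeg hbpos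
      hΦdvd' hmem (fun φ hφ => Cfsg.Agent.Helper14.PrimeOrdU.sstar_eq_of_dvd p hK hq' hqp
        hr.ne_zero hrk φ (hΦirr φ hφ) (hΦmon φ hφ) (hΦdvd' φ hφ))
  · rw [if_neg h4, ← hcard]
    exact Cfsg.Agent.Helper14.PrimeOrdU.card_pair p hK hq' hr hrp Φ hΦ1 hΦirr hΦmon hΦdeg hbpos
      hΦdvd' hmem (fun φ hφ hs' => by
        obtain ⟨a, ha⟩ := Cfsg.Agent.Helper14.PrimeOrdU.exists_odd_of_sstar_eq p hK hq' hqp hr hrp
          φ (hΦirr φ hφ) (hΦmon φ hφ) (hΦdvd' φ hφ) (he1 φ hφ) (hΦdeg φ hφ) hbord hs'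
        exact h4 (Cfsg.Agent.Helper14.PrimeOrdU.mod4_of_dvd hr hr2 hi ha))

end Cfsg.Agent.S2671
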