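import Cfsg.Statements.S2672
import Mathlib
import Cfsg.Agent.S2670
import Cfsg.Agent.S0783
import Cfsg.Agent.Helper8.GUConj3

set_option autoImplicit false
open Cfsg

namespace Cfsg.Agent.S2672

open scoped Matrix

section pu
variable {K : Type*} [Field K]

/-- The projective unitary group. -/
abbrev PU (n : ℕ) (K : Type*) [Field K] (q : ℕ) : Type _ :=
  ↥(Cfsg.GU n K q) ⧸ Subgroup.center ↥(Cfsg.GU n K q)

/-- The projection to `PU`. -/
abbrev pu {n : ℕ} {K : Type*} [Field K] {q : ℕ} (g : ↥(Cfsg.GU n K q)) : PU n K q :=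
  QuotientGroup.mk g

/-- The matrix of an element of `GU`. -/
abbrev mt {n : ℕ} {q : ℕ} (g : ↥(Cfsg.GU n K q)) : Matrix (Fin n) (Fin n) K :=
  ((g : Matrix.GeneralLinearGroup (Fin n) K) : Matrix (Fin n) (Fin n) K)

theorem mt_mul {n q : ℕ} (g h : ↥(Cfsg.GU n K q)) : mt (g * h) = mt g * mt h := rfl

theorem mt_pow {n q : ℕ} (g : ↥(Cfsg.GU n K q)) (k : ℕ) : mt (g ^ k) = mt g ^ k := by
  show (((g ^ k : ↥(Cfsg.GU n K q)) : Matrix.GeneralLinearGroup (Fin n) K) :
    Matrix (Fin n) (Fin n) K) = _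
  rw [Subgroup.coe_pow, Units.val_pow_eq_pow_val]

theorem mem_center_iff_u {n q : ℕ} (hn : 0 < n) (hq : 1 ≤ q) (ξ : K) (hξ1 : ξ ^ (q + 1) = 1)
    (hξ : ξ ≠ 1) (g : ↥(Cfsg.GU n K q)) :
    g ∈ Subgroup.center ↥(Cfsg.GU n K q) ↔ ∃ c : K, c ^ (q + 1) = 1 ∧ mt g = c • 1 := by
  have hξ0 : ξ ≠ 0 := by
    rintro rfl
    rw [zero_pow (Nat.succ_ne_zero q)] at hξ1
    exact zero_ne_one hξ1
  constructor
  · intro hg
    obtain ⟨c, hc1, hc⟩ := S0783.center_scalar hq (Units.mk0 ξ hξ0)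
      (by apply Units.ext; rw [Units.val_pow_eq_pow_val, Units.val_mk0, hξ1, Units.val_one])
      (by
        intro h
        apply hξ
        have h' := congrArg Units.val h
        rw [Units.val_mk0, Units.val_one] at h'
        exact h') g hg ⟨0, hn⟩
    refine ⟨(c : K), ?_, ?_⟩
    · rw [← Units.val_pow_eq_pow_val, hc1, Units.val_one]
    · show ((g : Matrix.GeneralLinearGroup (Fin n) K) : Matrix (Fin n) (Fin n) K) = _
      rw [hc, S0783.diagU_val, Matrix.smul_one_eq_diagonal]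
  · rintro ⟨c, hc1, hc⟩
    rw [Subgroup.mem_center_iff]
    intro w
    apply Subtype.ext
    apply Units.ext
    show mt w * mt g = mt g * mt w
    rw [hc, Matrix.mul_smul, Matrix.smul_mul, Matrix.mul_one, Matrix.one_mul]

theorem norm_of_scalar {n q : ℕ} (hn : 0 < n) (hq : 1 ≤ q) (g : ↥(Cfsg.GU n K q)) (c : K)
    (hc : mt g = c • 1) : c ^ (q + 1) = 1 := by
  have h := S0783.gram hq (mt g) ((S0783.mem_GU_iff _).1 g.2) ⟨0, hn⟩ ⟨0, hn⟩
  have hsum : ∑ i, (c • (1 : Matrix (Fin n) (Fin n) K)) i ⟨0, hn⟩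
      * (c • (1 : Matrix (Fin n) (Fin n) K)) i ⟨0, hn⟩ ^ q = c * c ^ q := by
    rw [Finset.sum_eq_single (⟨0, hn⟩ : Fin n)]
    · rw [Matrix.smul_apply, Matrix.one_apply_eq, smul_eq_mul, mul_one]
    · intro i _ hi
      rw [Matrix.smul_apply, Matrix.one_apply_ne hi, smul_zero, zero_mul]
    · intro h'
      exact absurd (Finset.mem_univ _) h'
  rw [if_pos rfl, hc, hsum] at h
  rw [pow_succ']
  exact h

theorem order_r_iff_u {n q r : ℕ} [Fact r.Prime] (hn : 0 < n) (hq : 1 ≤ q) (ξ : K)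
    (hξ1 : ξ ^ (q + 1) = 1) (hξ : ξ ≠ 1) (g : ↥(Cfsg.GU n K q)) :
    orderOf (pu g) = r ↔
      (∃ z : K, z ^ (q + 1) = 1 ∧ mt g ^ r = z • 1) ∧ ¬ ∃ c : K, mt g = c • 1 := by
  rw [orderOf_eq_prime_iff]
  have h1 : (pu g) ^ r = pu (g ^ r) := (QuotientGroup.mk_pow _ g r).symm
  rw [h1, QuotientGroup.eq_one_iff, mem_center_iff_u hn hq ξ hξ1 hξ, mt_pow, ne_eq,
    QuotientGroup.eq_one_iff, mem_center_iff_u hn hq ξ hξ1 hξ]
  constructor
  · rintro ⟨h, h'⟩
    exact ⟨h, fun ⟨c, hc⟩ => h' ⟨c, norm_of_scalar hn hq g c hc, hc⟩⟩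
  · rintro ⟨h, h'⟩
    exact ⟨h, fun ⟨c, _, hc⟩ => h' ⟨c, hc⟩⟩

theorem exists_diag_u {n q : ℕ} (d : Fin n → K) (hd : ∀ i, d i ^ (q + 1) = 1) :
    ∃ g : ↥(Cfsg.GU n K q), mt g = Matrix.diagonal d := by
  have hd0 : ∀ i, d i ≠ 0 := by
    intro i h0
    have := hd i
    rw [h0, zero_pow (Nat.succ_ne_zero q)] at this
    exact zero_ne_one this
  refine ⟨⟨S0783.diagU (fun i => Units.mk0 (d i) (hd0 i)),
    S0783.diagU_mem _ (fun i => ?_)⟩, ?_⟩
  · apply Units.ext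
    rw [Units.val_pow_eq_pow_val, Units.val_mk0, hd i, Units.val_one]
  · rfl

theorem conj_of_u {n q : ℕ} (hn : 0 < n) (hq : 1 ≤ q) (ξ : K) (hξ1 : ξ ^ (q + 1) = 1)
    (hξ : ξ ≠ 1) (g h y : ↥(Cfsg.GU n K q)) (c : K) (hc1 : c ^ (q + 1) = 1)
    (hy : mt y * mt g = c • (mt h * mt y)) : IsConj (pu g) (pu h) := by
  obtain ⟨s, hs⟩ : ∃ s : ↥(Cfsg.GU n K q), mt s = c • 1 := by
    rw [Matrix.smul_one_eq_diagonal]
    exact exists_diag_u _ (fun _ => hc1)
  have hsc : s ∈ Subgroup.center ↥(Cfsg.GU n K q) :=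
    (mem_center_iff_u hn hq ξ hξ1 hξ s).2 ⟨c, hc1, hs⟩
  have he : y * g = s * (h * y) := by
    apply Subtype.ext
    apply Units.ext
    show mt y * mt g = mt s * (mt h * mt y)
    rw [hy, hs, Matrix.smul_mul, Matrix.one_mul]
  rw [isConj_iff]
  refine ⟨pu y, ?_⟩
  have h3 : pu s = 1 := (QuotientGroup.eq_one_iff s).2 hsc
  have h1 : pu y * pu g = pu h * pu y := by
    calc pu y * pu g = pu (y * g) := rfl
      _ = pu (s * (h * y)) := by rw [he]
      _ = pu s * (pu h * pu y) := rfl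
      _ = pu h * pu y := by rw [h3, one_mul]
  rw [h1, mul_inv_cancel_right]

theorem of_conj_u {n q : ℕ} (hn : 0 < n) (hq : 1 ≤ q) (ξ : K) (hξ1 : ξ ^ (q + 1) = 1)
    (hξ : ξ ≠ 1) (g h : ↥(Cfsg.GU n K q)) (hc : IsConj (pu g) (pu h)) :
    ∃ (y : ↥(Cfsg.GU n K q)) (c : K),
      c ^ (q + 1) = 1 ∧ c • (mt y * mt g) = mt h * mt y := by
  rw [isConj_iff] at hc
  obtain ⟨y', hy⟩ := hc
  obtain ⟨y, rfl⟩ := QuotientGroup.mk_surjective y'
  have h1 : (QuotientGroup.mk (y * g * y⁻¹) : PU n K q) = QuotientGroup.mk h := hy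
  have hz : (y * g * y⁻¹)⁻¹ * h ∈ Subgroup.center ↥(Cfsg.GU n K q) := QuotientGroup.eq.1 h1
  obtain ⟨c, hc1, hc⟩ := (mem_center_iff_u hn hq ξ hξ1 hξ _).1 hz
  have hcomm := Subgroup.mem_center_iff.1 hz y
  refine ⟨y, c, hc1, ?_⟩
  have e : h * y = y * g * ((y * g * y⁻¹)⁻¹ * h) := by
    calc h * y = (y * g * y⁻¹) * (((y * g * y⁻¹)⁻¹ * h) * y) := by group
      _ = (y * g * y⁻¹) * (y * ((y * g * y⁻¹)⁻¹ * h)) := by rw [hcomm]
      _ = y * g * ((y * g * y⁻¹)⁻¹ * h) := by group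
  have e' : mt h * mt y = mt y * mt g * mt ((y * g * y⁻¹)⁻¹ * h) := congrArg mt e
  rw [e', hc, Matrix.mul_smul, Matrix.mul_one]

theorem conj_u [Fintype K] {n q : ℕ} (hK : Fintype.card K = q ^ 2) (g h : ↥(Cfsg.GU n K q))
    (x : Matrix.GeneralLinearGroup (Fin n) K)
    (hx : (x : Matrix (Fin n) (Fin n) K) * mt g = mt h * (x : Matrix (Fin n) (Fin n) K)) :
    ∃ y : ↥(Cfsg.GU n K q), mt y * mt g = mt h * mt y := by
  have hP : x * (g : Matrix.GeneralLinearGroup (Fin n) K) * x⁻¹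
      = (h : Matrix.GeneralLinearGroup (Fin n) K) := by
    rw [mul_inv_eq_iff_eq_mul]
    apply Units.ext
    exact hx
  obtain ⟨U, hU, hUc⟩ := Cfsg.Agent.Helper8.GUC.conj_gu hK _ _ g.2 h.2 x hP
  refine ⟨⟨U, hU⟩, ?_⟩
  have h1 : U * (g : Matrix.GeneralLinearGroup (Fin n) K)
      = (h : Matrix.GeneralLinearGroup (Fin n) K) * U := mul_inv_eq_iff_eq_mul.1 hUc
  exact congrArg Units.val h1

theorem exists_shift_u {n q r : ℕ} [Fact r.Prime] (hrn : r ∣ n) (z : K)
    (hz : z ^ (q + 1) = 1) : ∃ g : ↥(Cfsg.GU n K q), mt g ^ r = z • 1 := by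
  obtain ⟨m, hm⟩ := hrn
  have hcard : Fintype.card (Fin m × ZMod r) = Fintype.card (Fin n) := by
    rw [Fintype.card_prod, Fintype.card_fin, ZMod.card, Fintype.card_fin, hm, mul_comm]
  obtain ⟨ε⟩ : Nonempty (Fin m × ZMod r ≃ Fin n) := ⟨Fintype.equivOfCardEq hcard⟩
  obtain ⟨c, hcq, hcT⟩ : ∃ c : Fin m × ZMod r → K, (∀ x, c x ^ (q + 1) = 1) ∧
      ∀ (w : Fin m × ZMod r → K) (x : Fin m × ZMod r),
        (S2670.shiftMap K m r z) w x = c x * w (x.1, x.2 - 1) :=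
    ⟨fun x => if x.2 = 0 then z else 1, fun x => by
      show (if x.2 = 0 then z else 1) ^ (q + 1) = 1
      split_ifs
      · exact hz
      · exact one_pow _, fun w x => rfl⟩
  obtain ⟨T, hT⟩ : ∃ T : Module.End K (Fin m × ZMod r → K), T = S2670.shiftMap K m r z :=
    ⟨_, rfl⟩
  obtain ⟨B, hB⟩ : ∃ B : Matrix (Fin n) (Fin n) K,
      B = Matrix.reindexAlgEquiv K K ε (LinearMap.toMatrixAlgEquiv' T) := ⟨_, rfl⟩
  have hBr : B ^ r = z • 1 := by
    rw [hB, hT, ← map_pow, ← map_pow, S2670.shiftMap_pow_r, map_smul, map_smul, map_one,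
      map_one]
  have hmv : ∀ (u : Fin n → K) (i : Fin n),
      (B *ᵥ u) i = c (ε.symm i) * u (ε ((ε.symm i).1, (ε.symm i).2 - 1)) := by
    intro u i
    have h1 : B *ᵥ u = (LinearMap.toMatrixAlgEquiv' T *ᵥ (u ∘ ε)) ∘ ε.symm := by
      rw [hB, Matrix.reindexAlgEquiv_apply, Matrix.reindex_apply,
        Matrix.submatrix_mulVec_equiv]
      rfl
    rw [h1, Function.comp_apply, ← Matrix.toLinAlgEquiv'_apply,
      Matrix.toLinAlgEquiv'_toMatrixAlgEquiv', hT]
    exact hcT _ _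
  have hBmem : ∀ u v : Fin n → K,
      Cfsg.hermForm n K q (B *ᵥ u) (B *ᵥ v) = Cfsg.hermForm n K q u v := by
    intro u v
    obtain ⟨τ, hτ⟩ : ∃ τ : Equiv.Perm (Fin n),
        ∀ i, τ i = ε ((ε.symm i).1, (ε.symm i).2 - 1) :=
      ⟨ε.symm.trans (((Equiv.refl (Fin m)).prodCongr (Equiv.subRight (1 : ZMod r))).trans ε),
        fun i => rfl⟩
    have h1 : ∑ i, u i * v i ^ q = ∑ i, u (τ i) * v (τ i) ^ q :=
      (Equiv.sum_comp τ (fun i => u i * v i ^ q)).symm
    unfold Cfsg.hermForm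
    rw [h1]
    refine Finset.sum_congr rfl fun i _ => ?_
    rw [hmv, hmv, ← hτ, mul_pow]
    calc c (ε.symm i) * u (τ i) * (c (ε.symm i) ^ q * v (τ i) ^ q)
        = c (ε.symm i) ^ (q + 1) * (u (τ i) * v (τ i) ^ q) := by ring
      _ = u (τ i) * v (τ i) ^ q := by rw [hcq, one_mul]
  have hz0 : z ≠ 0 := by
    rintro rfl
    rw [zero_pow (Nat.succ_ne_zero q)] at hz
    exact zero_ne_one hz
  obtain ⟨x, hx⟩ := S2670.exists_unit (Fact.out : r.Prime).pos B z hz0 hBr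
  refine ⟨⟨x, ?_⟩, ?_⟩
  · rw [S0783.mem_GU_iff, hx]
    exact hBmem
  · show (x : Matrix (Fin n) (Fin n) K) ^ r = _
    rw [hx]
    exact hBr

end pu


/-- Number of conjugacy classes of elements of odd prime order r in PGU_n(q) = GU_n(q)/scalars (n ≥ 3) when r divides q + 1: as in the linear case with q − 1 replaced by q + 1, the classes correspond to the rotation orbits on r-tuples of eigenvalue multiplicities summing to n with every entry < n, plus r − 1 further classes when r divides n; in all (C(n+r−1, r−1) − r − [r ∣ n])/r + r·[r ∣ n]. -/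
theorem result {K : Type*} [Field K] [Fintype K] {q n r : ℕ} (hK : Fintype.card K = q ^ 2) (hn : 3 ≤ n) (hr : r.Prime) (hr2 : r ≠ 2) (hrq : r ∣ q + 1) : Nat.card {C : ConjClasses (↥(Cfsg.GU n K q) ⧸ Subgroup.center ↥(Cfsg.GU n K q)) // ∃ g : ↥(Cfsg.GU n K q) ⧸ Subgroup.center ↥(Cfsg.GU n K q), ConjClasses.mk g = C ∧ orderOf g = r} = (Nat.choose (n + r - 1) (r - 1) - r - (if r ∣ n then 1 else 0)) / r + r * (if r ∣ n then 1 else 0) := by
  classical
  have hfact : Fact r.Prime := ⟨hr⟩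
  have hn0 : 0 < n := by omega
  have hr3 : 3 ≤ r := by
    have := hr.two_le
    omega
  obtain ⟨N, hN⟩ := hrq
  have hN0 : 0 < N := by
    rcases Nat.eq_zero_or_pos N with h | h
    · rw [h, mul_zero] at hN; omega
    · exact h
  have hq2 : 2 ≤ q := by
    have : r * 1 ≤ r * N := Nat.mul_le_mul_left r hN0
    omega
  have hq1 : 1 ≤ q := by omega
  obtain ⟨γ, hγ0, hγord, hγgen⟩ := S2670.exists_gen K
  rw [hK] at hγord
  have hsq : q ^ 2 - 1 = (q + 1) * (q - 1) := S0783.sq_sub_one hq1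
  rw [hsq] at hγord
  obtain ⟨δ, hδdef⟩ : ∃ δ : K, δ = γ ^ (q - 1) := ⟨_, rfl⟩
  have hδ0 : δ ≠ 0 := by rw [hδdef]; exact pow_ne_zero _ hγ0
  have hδord : orderOf δ = r * N := by
    rw [hδdef, orderOf_pow' γ (by omega : q - 1 ≠ 0), hγord,
      Nat.gcd_eq_right (Dvd.intro_left (q + 1) rfl),
      Nat.mul_div_cancel _ (by omega : 0 < q - 1), hN]
  have hδq : δ ^ (q + 1) = 1 := by
    rw [hN, ← hδord]; exact pow_orderOf_eq_one δ
  have hδpq : ∀ u : ℕ, (δ ^ u) ^ (q + 1) = 1 := by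
    intro u
    rw [← pow_mul, mul_comm, pow_mul, hδq, one_pow]
  have hδgen : ∀ c : K, c ^ (q + 1) = 1 → ∃ s : ℕ, δ ^ s = c := by
    intro c hc
    have hc0 : c ≠ 0 := by
      rintro rfl
      rw [zero_pow (Nat.succ_ne_zero q)] at hc
      exact zero_ne_one hc
    obtain ⟨s, hs⟩ := hγgen c hc0
    have h1 : γ ^ (s * (q + 1)) = 1 := by rw [pow_mul, hs, hc]
    have h2 := orderOf_dvd_of_pow_eq_one h1
    rw [hγord, mul_comm s] at h2
    have h3 : (q - 1) ∣ s := Nat.dvd_of_mul_dvd_mul_left (by omega : 0 < q + 1) h2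
    obtain ⟨u, hu⟩ := h3
    exact ⟨u, by rw [hδdef, ← pow_mul, ← hu, hs]⟩
  obtain ⟨ζ, hζdef⟩ : ∃ ζ : K, ζ = δ ^ N := ⟨_, rfl⟩
  have hζr : ζ ^ r = 1 := by
    rw [hζdef, ← pow_mul, mul_comm, ← hδord]; exact pow_orderOf_eq_one δ
  have hζ1 : ζ ≠ 1 := by
    rw [hζdef]
    apply pow_ne_one_of_lt_orderOf hN0.ne'
    rw [hδord]
    calc N < 2 * N := by omega
      _ ≤ r * N := Nat.mul_le_mul_right N hr.two_le
  have hζ : orderOf ζ = r := orderOf_eq_prime hζr hζ1
  have hζq : ζ ^ (q + 1) = 1 := by rw [hζdef]; exact hδpq N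
  have hzpq : ∀ j : ZMod r, S2670.zp ζ j ^ (q + 1) = 1 := by
    intro j
    show (ζ ^ j.val) ^ (q + 1) = 1
    rw [← pow_mul, mul_comm, pow_mul, hζq, one_pow]
  have hrK : (r : K) ≠ 0 := by
    intro h0
    have h1 : ((q ^ 2 : ℕ) : K) = 0 := by rw [← hK]; exact Nat.cast_card_eq_zero K
    have h2 : (q : K) = 0 := by
      rw [Nat.cast_pow] at h1
      exact (pow_eq_zero_iff two_ne_zero).1 h1
    have h3 : ((q + 1 : ℕ) : K) = ((r * N : ℕ) : K) := by rw [hN]
    rw [Nat.cast_add, Nat.cast_one, h2, zero_add, Nat.cast_mul, h0, zero_mul] at h3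
    exact one_ne_zero h3
  have hR1 : ∀ s : ℕ, (∃ b : K, b ^ r = δ ^ s) → r ∣ s := by
    rintro s ⟨b, hb⟩
    have hb0 : b ≠ 0 := by
      rintro rfl
      rw [zero_pow hr.ne_zero] at hb
      exact pow_ne_zero s hδ0 hb.symm
    have hbq : b ^ (r * (N * (q - 1))) = 1 := by
      have h := FiniteField.pow_card_sub_one_eq_one b hb0
      rw [hK, hsq, hN, mul_assoc] at h
      exact h
    have h1 : δ ^ (s * (N * (q - 1))) = 1 := by
      rw [pow_mul, ← hb, ← pow_mul]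
      exact hbq
    have h2 := orderOf_dvd_of_pow_eq_one h1
    rw [hδord] at h2
    have h3 : r * N ∣ (s * (q - 1)) * N := by
      rw [mul_assoc, mul_comm (q - 1) N]; exact h2
    have h4 : r ∣ s * (q - 1) := Nat.dvd_of_mul_dvd_mul_right hN0 h3
    rcases (Nat.Prime.dvd_mul hr).1 h4 with h5 | h5
    · exact h5
    · exfalso
      have h6 : r ∣ (q - 1) + 2 := by
        have e : q - 1 + 2 = q + 1 := by omega
        rw [e]
        exact ⟨N, hN⟩
      have h7 : r ∣ 2 := (Nat.dvd_add_right h5).1 h6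
      have := Nat.le_of_dvd (by norm_num) h7
      omega
  have hR4 : ∀ t : ℕ, t + 1 < r → ∀ b : K, b ^ r ≠ δ ^ (t + 1) := by
    intro t ht b hb
    have h1 := Nat.le_of_dvd (Nat.succ_pos t) (hR1 (t + 1) ⟨b, hb⟩)
    omega
  have hR3 : ∀ t t' : ℕ, t + 1 < r → t' + 1 < r → ∀ c : K, c ^ (q + 1) = 1 →
      c ^ r * δ ^ (t + 1) = δ ^ (t' + 1) → t = t' := by
    intro t t' ht ht' c hcq hc
    have hcN : c ^ (r * N) = 1 := by rw [← hN]; exact hcq
    have h1 : δ ^ ((t + 1) * N) = δ ^ ((t' + 1) * N) := by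
      rw [pow_mul δ (t' + 1) N, ← hc, mul_pow, ← pow_mul c r N, hcN, one_mul, ← pow_mul]
    have h2 := S2670.pow_inj_lt δ hδord hδ0 ((t + 1) * N) ((t' + 1) * N)
      ((Nat.mul_lt_mul_right hN0).2 ht) ((Nat.mul_lt_mul_right hN0).2 ht') h1
    have h3 := Nat.eq_of_mul_eq_mul_right hN0 h2
    omega
  -- representatives
  obtain ⟨gB, hgB⟩ : ∃ gB : ℕ → ↥(Cfsg.GU n K q),
      r ∣ n → ∀ t, mt (gB t) ^ r = δ ^ (t + 1) • 1 := by
    by_cases hd : r ∣ n
    · have hex : ∀ t : ℕ, ∃ g : ↥(Cfsg.GU n K q), mt g ^ r = δ ^ (t + 1) • 1 := fun t =>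
        exists_shift_u hd (δ ^ (t + 1)) (hδpq _)
      choose g hg using hex
      exact ⟨g, fun _ t => hg t⟩
    · exact ⟨fun _ => 1, fun h => absurd h hd⟩
  have hlabex : ∀ a : S2670.XT r n, ∃ lab : Fin n → ZMod r,
      ∀ j, Nat.card {i : Fin n // lab i = j} = a.1 j := fun a => S2670.exists_lab a.1 a.2.1
  choose lab hlab using hlabex
  obtain ⟨Dm, hDm⟩ : ∃ Dm : S2670.XT r n → Matrix (Fin n) (Fin n) K,
      ∀ a, Dm a = Matrix.diagonal (fun i => S2670.zp ζ (lab a i)) := ⟨_, fun _ => rfl⟩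
  have hDpow : ∀ a, Dm a ^ r = 1 := fun a => by rw [hDm]; exact S2670.diag_pow ζ hζr (lab a)
  have hDrank : ∀ (a : S2670.XT r n) (j : ZMod r),
      (Dm a - S2670.zp ζ j • 1).rank = n - a.1 j := by
    intro a j
    rw [hDm, S2670.rank_diag ζ hζ, hlab]
  have hexA : ∀ a : S2670.XT r n, ∃ x : ↥(Cfsg.GU n K q), mt x = Dm a := by
    intro a
    rw [hDm]
    exact exists_diag_u _ (fun i => hzpq _)
  choose gA hgA using hexA
  obtain ⟨m, hmdef⟩ : ∃ m : ℕ, m = if r ∣ n then r - 1 else 0 := ⟨_, rfl⟩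
  have hm1 : r ∣ n → m = r - 1 := fun hd => by rw [hmdef, if_pos hd]
  have hm0 : ¬ r ∣ n → m = 0 := fun hd => by rw [hmdef, if_neg hd]
  have hmt : ∀ t : Fin m, r ∣ n ∧ (t : ℕ) + 1 < r := by
    intro t
    have ht := t.2
    by_cases hd : r ∣ n
    · have := hm1 hd
      exact ⟨hd, by omega⟩
    · have := hm0 hd
      omega
  have hord := fun g : ↥(Cfsg.GU n K q) => order_r_iff_u (r := r) hn0 hq1 ζ hζq hζ1 g
  have hordA : ∀ a : S2670.XT r n, orderOf (pu (gA a)) = r := by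
    intro a
    rw [hord, hgA]
    refine ⟨⟨1, one_pow _, by rw [one_smul]; exact hDpow a⟩, ?_⟩
    rintro ⟨c, hc⟩
    have hcr : c ^ r = 1 := by
      apply S2577.smul_one_inj hn0
      have h1 := hDpow a
      rw [hc, smul_pow, one_pow] at h1
      rw [h1, one_smul]
    obtain ⟨j, hj⟩ := S2670.zp_surj ζ hζ c hcr
    have h1 := hDrank a j
    rw [hc, hj, sub_self, Matrix.rank_zero] at h1
    have := a.2.2 j
    omega
  have hordB : ∀ t : Fin m, orderOf (pu (gB t)) = r := by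
    intro t
    obtain ⟨hd, htr⟩ := hmt t
    rw [hord]
    refine ⟨⟨δ ^ ((t : ℕ) + 1), hδpq _, hgB hd t⟩, ?_⟩
    rintro ⟨c, hc⟩
    apply hR4 t htr c
    apply S2577.smul_one_inj hn0
    have h1 := hgB hd t
    rw [hc, smul_pow, one_pow] at h1
    exact h1
  -- conjugacy among diagonal representatives
  have hP1 : ∀ a b : S2670.XT r n, IsConj (pu (gA a)) (pu (gA b)) ↔
      ∃ k : Multiplicative (ZMod r), k • b = a := by
    intro a b
    constructor
    · intro hconj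
      obtain ⟨x, c, hcq, hxc⟩ := of_conj_u hn0 hq1 ζ hζq hζ1 _ _ hconj
      rw [hgA a, hgA b] at hxc
      have hc := S2670.scal_rel_r hn0 r (x : Matrix.GeneralLinearGroup (Fin n) K)
        (Dm a) (Dm b) 1 1 c (by rw [one_smul]; exact hDpow a)
        (by rw [one_smul]; exact hDpow b) hxc
      rw [mul_one] at hc
      obtain ⟨k, hk⟩ := S2670.zp_surj ζ hζ c hc
      have hc0 : c ≠ 0 := by
        rintro rfl
        rw [zero_pow hr.ne_zero] at hc
        exact zero_ne_one hc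
      refine ⟨Multiplicative.ofAdd k, ?_⟩
      apply Subtype.ext
      funext j
      show b.1 (j + k) = a.1 j
      have hcz : c * S2670.zp ζ j = S2670.zp ζ (j + k) := by
        rw [S2670.zp_add ζ hζr, hk, mul_comm]
      have h3 : mt x * (c • (Dm a - S2670.zp ζ j • 1))
          = (Dm b - S2670.zp ζ (j + k) • 1) * mt x := by
        rw [Matrix.mul_smul, Matrix.mul_sub, smul_sub, hxc, Matrix.sub_mul, Matrix.mul_smul,
          Matrix.mul_one, Matrix.smul_mul, Matrix.one_mul, smul_smul, hcz]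
      have h4 := S2577.rank_eq_of_conj (x : Matrix.GeneralLinearGroup (Fin n) K) _ _ h3
      rw [S2670.rank_smul' c hc0, hDrank, hDrank] at h4
      have := a.2.2 j
      have := b.2.2 (j + k)
      omega
    · rintro ⟨g, hg⟩
      have hab : ∀ j, a.1 j = b.1 (j + Multiplicative.toAdd g) := fun j =>
        (congrFun (congrArg Subtype.val hg) j).symm
      obtain ⟨k, hk⟩ : ∃ k : ZMod r, k = Multiplicative.toAdd g := ⟨_, rfl⟩
      rw [← hk] at hab
      have hzk0 : S2670.zp ζ k ≠ 0 := S2670.zp_ne_zero ζ hr.pos hζr k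
      obtain ⟨sA, hsA⟩ : ∃ sA : ↥(Cfsg.GU n K q), mt sA = S2670.zp ζ k • Dm a := by
        rw [hDm, ← Matrix.diagonal_smul]
        exact exists_diag_u _ (fun i => by
          show (S2670.zp ζ k * S2670.zp ζ (lab a i)) ^ (q + 1) = 1
          rw [mul_pow, hzpq, hzpq, one_mul])
      have hHpow : (S2670.zp ζ k • Dm a) ^ r = 1 := by
        rw [smul_pow, hDpow, S2670.zp_pow ζ hζr, one_smul]
      have hm : ∀ j : ZMod r,
          (S2670.zp ζ k • Dm a - S2670.zp ζ j • 1).rank = (Dm b - S2670.zp ζ j • 1).rank := by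
        intro j
        have h1 : S2670.zp ζ k • Dm a - S2670.zp ζ j • 1
            = S2670.zp ζ k • (Dm a - S2670.zp ζ (j - k) • 1) := by
          rw [smul_sub, smul_smul, ← S2670.zp_add ζ hζr, add_sub_cancel]
        rw [h1, S2670.rank_smul' _ hzk0, hDrank, hDrank, hab (j - k), sub_add_cancel]
      obtain ⟨x, hx⟩ := S2670.conj_mult ζ hζ hrK _ _ hHpow (hDpow b) hm
      obtain ⟨y, hy⟩ := conj_u hK sA (gA b) x (by rw [hsA, hgA b]; exact hx)
      apply conj_of_u hn0 hq1 ζ hζq hζ1 (gA a) (gA b) y (S2670.zp ζ k)⁻¹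
        (by rw [inv_pow, hzpq, inv_one])
      rw [hsA] at hy
      rw [hgA a, ← hy, Matrix.mul_smul, smul_smul, inv_mul_cancel₀ hzk0, one_smul]
  have hP2 : ∀ (a : S2670.XT r n) (t : Fin m), ¬ IsConj (pu (gA a)) (pu (gB t)) := by
    intro a t hconj
    obtain ⟨hd, htr⟩ := hmt t
    obtain ⟨x, c, hcq, hxc⟩ := of_conj_u hn0 hq1 ζ hζq hζ1 _ _ hconj
    rw [hgA a] at hxc
    have hc := S2670.scal_rel_r hn0 r (x : Matrix.GeneralLinearGroup (Fin n) K)
      (Dm a) (mt (gB t)) 1 (δ ^ ((t : ℕ) + 1)) c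
      (by rw [one_smul]; exact hDpow a) (hgB hd t) hxc
    rw [mul_one] at hc
    exact hR4 t htr c hc
  have hP3 : ∀ t t' : Fin m, IsConj (pu (gB t)) (pu (gB t')) → t = t' := by
    intro t t' hconj
    obtain ⟨hd, htr⟩ := hmt t
    obtain ⟨-, htr'⟩ := hmt t'
    obtain ⟨x, c, hcq, hxc⟩ := of_conj_u hn0 hq1 ζ hζq hζ1 _ _ hconj
    have hc := S2670.scal_rel_r hn0 r (x : Matrix.GeneralLinearGroup (Fin n) K)
      (mt (gB t)) (mt (gB t')) (δ ^ ((t : ℕ) + 1)) (δ ^ ((t' : ℕ) + 1)) c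
      (hgB hd t) (hgB hd t') hxc
    exact Fin.ext (hR3 t t' htr htr' c hcq hc)
  have hP4 : ∀ g : ↥(Cfsg.GU n K q), orderOf (pu g) = r →
      (∃ a : S2670.XT r n, IsConj (pu (gA a)) (pu g)) ∨
        (∃ t : Fin m, IsConj (pu (gB t)) (pu g)) := by
    intro g hg
    rw [hord] at hg
    obtain ⟨⟨z, hzq, hz⟩, hns⟩ := hg
    have hz0 : z ≠ 0 := by
      rintro rfl
      rw [zero_pow (Nat.succ_ne_zero q)] at hzq
      exact zero_ne_one hzq
    obtain ⟨s, hs⟩ := hδgen z hzq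
    by_cases hzr : ∃ w : K, w ^ r = z
    · left
      have hrs : r ∣ s := hR1 s (by
        obtain ⟨w, hw⟩ := hzr
        exact ⟨w, by rw [hw, hs]⟩)
      obtain ⟨u, hu⟩ := hrs
      obtain ⟨w, hwdef⟩ : ∃ w : K, w = δ ^ u := ⟨_, rfl⟩
      have hw : w ^ r = z := by rw [hwdef, ← pow_mul, mul_comm, ← hu, hs]
      have hwq : w ^ (q + 1) = 1 := by rw [hwdef]; exact hδpq u
      have hw0 : w ≠ 0 := by rw [hwdef]; exact pow_ne_zero _ hδ0
      obtain ⟨sw, hsw⟩ : ∃ sw : ↥(Cfsg.GU n K q),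
          mt sw = w⁻¹ • (1 : Matrix (Fin n) (Fin n) K) := by
        rw [Matrix.smul_one_eq_diagonal]
        exact exists_diag_u _ (fun i => by rw [inv_pow, hwq, inv_one])
      obtain ⟨h, hh⟩ : ∃ h : Matrix (Fin n) (Fin n) K, h = w⁻¹ • mt g := ⟨_, rfl⟩
      have hswg : mt (sw * g) = h := by
        rw [mt_mul, hsw, hh, Matrix.smul_mul, Matrix.one_mul]
      have hhr : h ^ r = 1 := by
        rw [hh, smul_pow, hz, smul_smul, inv_pow, hw, inv_mul_cancel₀ hz0, one_smul]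
      have hsum := S2670.sum_mult ζ hζ hrK h hhr
      have hlt : ∀ j : ZMod r, n - (h - S2670.zp ζ j • 1).rank < n := by
        intro j
        by_contra hcon
        have hfr : Module.finrank K
            (LinearMap.ker (Matrix.toLin' (h - S2670.zp ζ j • 1))) = n := by
          rw [S2577.finrank_ker_eq]; omega
        have h0 := S2577.eq_zero_of_finrank _ hfr
        have h1 : h - S2670.zp ζ j • 1 = 0 := Matrix.toLin'.injective (by rw [h0, map_zero])
        apply hns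
        refine ⟨w * S2670.zp ζ j, ?_⟩
        have h2 : mt g = w • h := by
          rw [hh, smul_smul, mul_inv_cancel₀ hw0, one_smul]
        rw [h2, sub_eq_zero.1 h1, smul_smul]
      obtain ⟨aX, haX⟩ : ∃ aX : S2670.XT r n,
          ∀ j, aX.1 j = n - (h - S2670.zp ζ j • 1).rank :=
        ⟨⟨fun j => n - (h - S2670.zp ζ j • 1).rank, hsum, hlt⟩, fun _ => rfl⟩
      refine ⟨aX, ?_⟩
      have hm : ∀ j : ZMod r,
          (Dm aX - S2670.zp ζ j • 1).rank = (h - S2670.zp ζ j • 1).rank := by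
        intro j
        rw [hDrank, haX]
        have := Matrix.rank_le_width (h - S2670.zp ζ j • 1)
        omega
      obtain ⟨x, hx⟩ := S2670.conj_mult ζ hζ hrK _ _ (hDpow aX) hhr hm
      obtain ⟨y, hy⟩ := conj_u hK (gA aX) (sw * g) x (by rw [hgA aX, hswg]; exact hx)
      apply conj_of_u hn0 hq1 ζ hζq hζ1 (gA aX) g y w⁻¹ (by rw [inv_pow, hwq, inv_one])
      rw [hswg] at hy
      rw [hy, hh, Matrix.smul_mul]
    · right
      push Not at hzr
      have hd : r ∣ n := by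
        have hT : (Matrix.toLin' (mt g)) ^ r = z • 1 := by
          have h1 : Matrix.toLin' ((mt g) ^ r)
              = Matrix.toLin' (z • (1 : Matrix (Fin n) (Fin n) K)) := by rw [hz]
          rw [Matrix.toLin'_pow, map_smul, Matrix.toLin'_one] at h1
          exact h1
        obtain ⟨ι, hι, e, B, -⟩ := S2670.chain_basis hr _ z hT hzr
        have h1 := Module.finrank_eq_card_basis B
        rw [Module.finrank_fin_fun, Fintype.card_prod, Fintype.card_fin] at h1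
        exact ⟨_, h1⟩
      have hrs : ¬ r ∣ s := by
        rintro ⟨u, hu⟩
        apply hzr (δ ^ u)
        rw [← pow_mul, mul_comm, ← hu, hs]
      have hmod : 0 < s % r := Nat.pos_of_ne_zero (fun h => hrs (Nat.dvd_of_mod_eq_zero h))
      have hmodlt : s % r < r := Nat.mod_lt _ hr.pos
      obtain ⟨t, ht⟩ : ∃ t, t + 1 = s % r := ⟨s % r - 1, by omega⟩
      have htm : t < m := by
        have := hm1 hd
        omega
      obtain ⟨c, hc⟩ : ∃ c : K, c = (δ ^ (s / r))⁻¹ := ⟨_, rfl⟩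
      have hcq : c ^ (q + 1) = 1 := by
        rw [hc, inv_pow, hδpq, inv_one]
      have hcz : c ^ r * z = δ ^ (t + 1) := by
        have h1 : z = (δ ^ (s / r)) ^ r * δ ^ (s % r) := by
          rw [← hs, ← pow_mul, ← pow_add, Nat.div_add_mod']
        rw [hc, inv_pow, h1, ht, inv_mul_cancel_left₀ (pow_ne_zero _ (pow_ne_zero _ hδ0))]
      obtain ⟨sc, hsc⟩ : ∃ sc : ↥(Cfsg.GU n K q),
          mt sc = c • (1 : Matrix (Fin n) (Fin n) K) := by
        rw [Matrix.smul_one_eq_diagonal]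
        exact exists_diag_u _ (fun i => hcq)
      have hscg : mt (sc * g) = c • mt g := by
        rw [mt_mul, hsc, Matrix.smul_mul, Matrix.one_mul]
      have hcg : (c • mt g) ^ r = δ ^ (t + 1) • 1 := by
        rw [smul_pow, hz, smul_smul, hcz]
      obtain ⟨x, hx⟩ := S2670.conj_rth hr (mt (gB t)) (c • mt g) (δ ^ (t + 1))
        (hR4 t (by omega)) (hgB hd t) hcg
      obtain ⟨y, hy⟩ := conj_u hK (gB t) (sc * g) x (by rw [hscg]; exact hx)
      refine ⟨⟨t, htm⟩, ?_⟩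
      apply conj_of_u hn0 hq1 ζ hζq hζ1 (gB t) g y c hcq
      rw [hscg] at hy
      rw [hy, Matrix.smul_mul]
  -- the class maps
  have hexfA : ∀ a : S2670.XT r n, ∃ c : {C : ConjClasses (PU n K q) //
      ∃ g : PU n K q, ConjClasses.mk g = C ∧ orderOf g = r},
      c.1 = ConjClasses.mk (pu (gA a)) := fun a => ⟨⟨_, ⟨_, rfl, hordA a⟩⟩, rfl⟩
  choose fA hfA using hexfA
  have hexfB : ∀ t : Fin m, ∃ c : {C : ConjClasses (PU n K q) //
      ∃ g : PU n K q, ConjClasses.mk g = C ∧ orderOf g = r},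
      c.1 = ConjClasses.mk (pu (gB t)) := fun t => ⟨⟨_, ⟨_, rfl, hordB t⟩⟩, rfl⟩
  choose fB hfB using hexfB
  have hfAwd : ∀ a b : S2670.XT r n,
      (MulAction.orbitRel (Multiplicative (ZMod r)) (S2670.XT r n)) a b → fA a = fA b := by
    intro a b hab
    have h1 := (MulAction.orbitRel_apply.trans MulAction.mem_orbit_iff).1 hab
    exact Subtype.ext ((hfA a).trans
      ((ConjClasses.mk_eq_mk_iff_isConj.2 ((hP1 a b).2 h1)).trans (hfA b).symm))
  have hbij : Function.Bijective (Sum.elim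
      (Quotient.lift (s := MulAction.orbitRel (Multiplicative (ZMod r)) (S2670.XT r n))
        fA hfAwd) fB) := by
    constructor
    · rintro (x | t) (y | t') hxy
      · obtain ⟨a, rfl⟩ := Quotient.exists_rep x
        obtain ⟨b, rfl⟩ := Quotient.exists_rep y
        have h1 : fA a = fA b := hxy
        have h2 : ConjClasses.mk (pu (gA a)) = ConjClasses.mk (pu (gA b)) :=
          (hfA a).symm.trans ((congrArg Subtype.val h1).trans (hfA b))
        have h3 := (hP1 a b).1 (ConjClasses.mk_eq_mk_iff_isConj.1 h2)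
        exact congrArg Sum.inl (Quotient.sound
          ((MulAction.orbitRel_apply.trans MulAction.mem_orbit_iff).2 h3))
      · exfalso
        obtain ⟨a, rfl⟩ := Quotient.exists_rep x
        have h1 : fA a = fB t' := hxy
        have h2 : ConjClasses.mk (pu (gA a)) = ConjClasses.mk (pu (gB t')) :=
          (hfA a).symm.trans ((congrArg Subtype.val h1).trans (hfB t'))
        exact hP2 a t' (ConjClasses.mk_eq_mk_iff_isConj.1 h2)
      · exfalso
        obtain ⟨b, rfl⟩ := Quotient.exists_rep y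
        have h1 : fB t = fA b := hxy
        have h2 : ConjClasses.mk (pu (gA b)) = ConjClasses.mk (pu (gB t)) :=
          (hfA b).symm.trans ((congrArg Subtype.val h1.symm).trans (hfB t))
        exact hP2 b t (ConjClasses.mk_eq_mk_iff_isConj.1 h2)
      · have h1 : fB t = fB t' := hxy
        have h2 : ConjClasses.mk (pu (gB t)) = ConjClasses.mk (pu (gB t')) :=
          (hfB t).symm.trans ((congrArg Subtype.val h1).trans (hfB t'))
        exact congrArg Sum.inr (hP3 t t' (ConjClasses.mk_eq_mk_iff_isConj.1 h2))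
    · rintro ⟨C, g', rfl, hg'⟩
      obtain ⟨g, rfl⟩ := QuotientGroup.mk_surjective g'
      rcases hP4 g hg' with ⟨a, ha⟩ | ⟨t, ht⟩
      · exact ⟨Sum.inl (Quotient.mk _ a),
          Subtype.ext ((hfA a).trans (ConjClasses.mk_eq_mk_iff_isConj.2 ha))⟩
      · exact ⟨Sum.inr t, Subtype.ext ((hfB t).trans (ConjClasses.mk_eq_mk_iff_isConj.2 ht))⟩
  have key : Nat.card {C : ConjClasses (PU n K q) //
      ∃ g : PU n K q, ConjClasses.mk g = C ∧ orderOf g = r}
      = Nat.card (Quotient (MulAction.orbitRel (Multiplicative (ZMod r)) (S2670.XT r n)))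
        + m := by
    rw [← Nat.card_congr (Equiv.ofBijective _ hbij), Nat.card_sum, Nat.card_fin]
  have hOC := S2670.orbit_count r n (by omega)
  have hXT := S2670.card_XT r n (by omega)
  refine key.trans ?_
  obtain ⟨Qn, hQn⟩ : ∃ Qn : ℕ,
      Qn = Nat.card (Quotient (MulAction.orbitRel (Multiplicative (ZMod r))
        (S2670.XT r n))) := ⟨_, rfl⟩
  obtain ⟨Xn, hXn⟩ : ∃ Xn : ℕ, Xn = Nat.card (S2670.XT r n) := ⟨_, rfl⟩
  obtain ⟨C, hC⟩ : ∃ C : ℕ, C = (n + r - 1).choose (r - 1) := ⟨_, rfl⟩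
  rw [← hQn, ← hXn] at hOC
  rw [← hXn, ← hC] at hXT
  rw [← hQn, ← hC]
  by_cases hd : r ∣ n
  · rw [if_pos hd] at hOC
    rw [if_pos hd]
    have hQ1 : 1 ≤ Qn := by
      rcases Nat.eq_zero_or_pos Qn with h | h
      · rw [h, zero_mul] at hOC; omega
      · exact h
    obtain ⟨Q', hQ'⟩ : ∃ Q', Qn = Q' + 1 := ⟨Qn - 1, by omega⟩
    have h1 : Qn * r = Q' * r + r := by rw [hQ']; ring
    have h2 : C - r - 1 = Q' * r := by omega
    rw [h2, Nat.mul_div_cancel _ hr.pos, hm1 hd]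
    omega
  · rw [if_neg hd] at hOC
    rw [if_neg hd]
    have h2 : C - r - 0 = Qn * r := by omega
    rw [h2, Nat.mul_div_cancel _ hr.pos, hm0 hd]
    omega

end Cfsg.Agent.S2672
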