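import Cfsg.Statements.S2677
import Mathlib
import Cfsg.Agent.S0837
import Cfsg.Agent.Helper6.GU2
import Cfsg.Agent.S2636

set_option autoImplicit false
open Cfsg

namespace Cfsg.Agent.S2677

open Matrix

theorem pow_odd_frob {K : Type*} [Field K] (x : K) (q₀ : ℕ) (hx : x ^ (q₀ ^ 2) = x) :
    ∀ j : ℕ, x ^ (q₀ ^ (2 * j + 1)) = x ^ q₀ := by
  intro j
  induction j with
  | zero => simp
  | succ j ih =>
    have e : q₀ ^ (2 * (j + 1) + 1) = q₀ ^ 2 * q₀ ^ (2 * j + 1) := by ring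
    rw [e, pow_mul, hx, ih]

/-- Centraliser of a field automorphism of odd prime order in PGU_n(q): let q = q₀^r with r an odd prime, K the field with q² elements and σ a field automorphism of K of order r (fixed field of order q₀²). The elements g of GU_n(q) whose entrywise image under σ is a scalar multiple of g — those whose coset modulo the q + 1 unitary scalars is fixed by σ — number (q + 1)/(q₀ + 1) · |GU_n(q₀)|; equivalently the centraliser in PGU_n(q) of the induced automorphism has the order of PGU_n(q₀). -/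
theorem result {K : Type*} [Field K] [Fintype K] {q₀ q r n : ℕ} (hr : r.Prime) (hr2 : r ≠ 2) (hn : 1 ≤ n) (hq : q = q₀ ^ r) (hK : Fintype.card K = q ^ 2) (σ : K ≃+* K) (hσ : orderOf σ = r) : (Nat.card {g : ↥(Cfsg.GU n K q) // ∃ c : K, c ≠ 0 ∧ ((g : GL (Fin n) K) : Matrix (Fin n) (Fin n) K).map σ = c • ((g : GL (Fin n) K) : Matrix (Fin n) (Fin n) K)} : ℤ) = ((q + 1) / (q₀ + 1) : ℕ) * ((q₀ : ℤ) ^ (n * (n - 1) / 2) * ∏ i : Fin n, ((q₀ : ℤ) ^ ((i : ℕ) + 1) - (-1) ^ ((i : ℕ) + 1))) := by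
  classical
  obtain ⟨j, hj⟩ : ∃ j, r = 2 * j + 1 := by
    rcases hr.eq_two_or_odd with h | h
    · exact absurd h hr2
    · exact ⟨r / 2, by omega⟩
  obtain ⟨G, hG⟩ : ∃ G : Subgroup (K ≃+* K), G = Subgroup.zpowers σ := ⟨_, rfl⟩
  haveI : Finite (K ≃+* K) := Finite.of_injective (fun e : K ≃+* K => (e : K → K))
    (fun a b h => RingEquiv.ext (congrFun h))
  haveI : Fintype ↥G := Fintype.ofFinite _
  have hGcard : Fintype.card ↥G = r := by
    rw [← Nat.card_eq_fintype_card, hG, Nat.card_zpowers, hσ]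
  obtain ⟨K₀, hK₀def⟩ : ∃ K₀ : Subfield K, K₀ = FixedPoints.subfield (↥G) K := ⟨_, rfl⟩
  have hmem : ∀ x : K, x ∈ K₀ ↔ σ x = x := by
    intro x
    rw [hK₀def]
    constructor
    · intro h
      exact h ⟨σ, by rw [hG]; exact Subgroup.mem_zpowers σ⟩
    · intro h
      rintro ⟨τ, hτ⟩
      rw [hG] at hτ
      have hle : Subgroup.zpowers σ ≤ MulAction.stabilizer (K ≃+* K) x := by
        rw [Subgroup.zpowers_le]; exact h
      exact hle hτ
  have hfin : Module.finrank ↥K₀ K = r := by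
    rw [hK₀def, FixedPoints.finrank_eq_card, hGcard]
  haveI : Fintype ↥K₀ := Fintype.ofFinite _
  have hK₀ : Fintype.card ↥K₀ = q₀ ^ 2 := by
    have h1 : Fintype.card K = Fintype.card ↥K₀ ^ Module.finrank ↥K₀ K :=
      Module.card_eq_pow_finrank
    rw [hfin, hK, hq] at h1
    have h2 : (q₀ ^ 2) ^ r = Fintype.card ↥K₀ ^ r := by rw [← h1]; ring
    exact (Nat.pow_left_injective hr.ne_zero h2).symm
  have hq₀2 : 2 ≤ q₀ := Cfsg.Agent.Helper6.GU2.two_le_q hK₀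
  have hq2 : 2 ≤ q := Cfsg.Agent.Helper6.GU2.two_le_q hK
  have hpow : σ ^ r = 1 := by rw [← hσ]; exact pow_orderOf_eq_one σ
  -- the two Frobenius maps
  obtain ⟨φ, hφ⟩ : ∃ φ : K →+* K, φ = Cfsg.Agent.S0284.frob hK := ⟨_, rfl⟩
  obtain ⟨φ₀, hφ₀⟩ : ∃ φ₀ : ↥K₀ →+* ↥K₀, φ₀ = Cfsg.Agent.S0284.frob hK₀ := ⟨_, rfl⟩
  have hφa : ∀ x : K, φ x = x ^ q := fun x => by rw [hφ]; rfl
  have hφ₀a : ∀ x : ↥K₀, φ₀ x = x ^ q₀ := fun x => by rw [hφ₀]; rfl
  have hφinv : ∀ x : K, φ (φ x) = x := fun x => by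
    rw [hφ]; exact Cfsg.Agent.S0284.frob_invol hK x
  have hcompat : ∀ x : ↥K₀, ((φ₀ x : ↥K₀) : K) = φ (x : K) := by
    intro x
    rw [hφ₀a, hφa]
    have hx : (x : K) ^ (q₀ ^ 2) = (x : K) := by
      have h1 : x ^ Fintype.card ↥K₀ = x := FiniteField.pow_card x
      rw [hK₀] at h1
      have h2 := congrArg (fun y : ↥K₀ => (y : K)) h1
      simpa using h2
    have h3 := pow_odd_frob (x : K) q₀ hx j
    rw [← hj, ← hq] at h3
    rw [h3]
    simp
  have hGram : ∀ (h : Matrix (Fin n) (Fin n) ↥K₀) (a b : Fin n),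
      (((hᵀ * h.map φ₀) a b : ↥K₀) : K) = ∑ k, (h k a : K) * φ (h k b : K) := by
    intro h a b
    rw [Matrix.mul_apply]
    rw [show ((∑ k, hᵀ a k * (h.map φ₀) k b : ↥K₀) : K)
      = ∑ k, ((hᵀ a k * (h.map φ₀) k b : ↥K₀) : K) from by simp]
    apply Finset.sum_congr rfl
    intro k _
    rw [Matrix.transpose_apply, Matrix.map_apply]
    rw [show ((h k a * φ₀ (h k b) : ↥K₀) : K) = (h k a : K) * ((φ₀ (h k b) : ↥K₀) : K) from rfl,
      hcompat]
  have hGU : ∀ g : GL (Fin n) K, g ∈ Cfsg.GU n K q ↔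
      ∀ a b, ∑ k, (g : Matrix (Fin n) (Fin n) K) k a * φ ((g : Matrix (Fin n) (Fin n) K) k b)
        = (1 : Matrix (Fin n) (Fin n) K) a b := by
    intro g
    rw [Cfsg.Agent.S0837.mem_GU_iff hK n g, ← hφ]
    constructor
    · intro h a b
      rw [← h, Matrix.mul_apply]
      rfl
    · intro h
      ext a b
      rw [← h a b, Matrix.mul_apply]
      rfl
  have hGU₀ : ∀ g : GL (Fin n) ↥K₀, g ∈ Cfsg.GU n ↥K₀ q₀ ↔
      (g : Matrix (Fin n) (Fin n) ↥K₀)ᵀ * (g : Matrix (Fin n) (Fin n) ↥K₀).map φ₀ = 1 := by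
    intro g
    rw [Cfsg.Agent.S0837.mem_GU_iff hK₀ n g, ← hφ₀]
  have hone : ∀ a b : Fin n, (((1 : Matrix (Fin n) (Fin n) ↥K₀) a b : ↥K₀) : K)
      = (1 : Matrix (Fin n) (Fin n) K) a b := by
    intro a b
    by_cases hab : a = b
    · rw [hab, Matrix.one_apply_eq, Matrix.one_apply_eq]; rfl
    · rw [Matrix.one_apply_ne hab, Matrix.one_apply_ne hab]; rfl
  -- the homomorphism
  obtain ⟨z, hz⟩ : ∃ z : Kˣ →* GL (Fin n) K, ∀ μ : Kˣ,
      ((z μ : GL (Fin n) K) : Matrix (Fin n) (Fin n) K)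
        = (μ : K) • (1 : Matrix (Fin n) (Fin n) K) := by
    refine ⟨Units.map (algebraMap K (Matrix (Fin n) (Fin n) K)).toMonoidHom, fun μ => ?_⟩
    rw [Units.coe_map]
    exact Algebra.algebraMap_eq_smul_one _
  obtain ⟨m, hm⟩ : ∃ m : GL (Fin n) ↥K₀ →* GL (Fin n) K, ∀ (h : GL (Fin n) ↥K₀) (i j : Fin n),
      ((m h : GL (Fin n) K) : Matrix (Fin n) (Fin n) K) i j
        = ((h : Matrix (Fin n) (Fin n) ↥K₀) i j : K) :=
    ⟨Matrix.GeneralLinearGroup.map (algebraMap ↥K₀ K),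
      fun h i j => Matrix.GeneralLinearGroup.map_apply _ _ _ _⟩
  have hcomm : ∀ (μ : Kˣ) (h : GL (Fin n) ↥K₀), Commute (z μ) (m h) := by
    intro μ h
    apply Units.ext
    rw [Units.val_mul, Units.val_mul, hz, smul_mul_assoc, one_mul, mul_smul_comm, mul_one]
  obtain ⟨Φ, hΦ⟩ : ∃ Φ : Kˣ × GL (Fin n) ↥K₀ →* GL (Fin n) K,
      ∀ (μ : Kˣ) (h : GL (Fin n) ↥K₀) (i j : Fin n),
      ((Φ (μ, h) : GL (Fin n) K) : Matrix (Fin n) (Fin n) K) i j
        = (μ : K) * ((h : Matrix (Fin n) (Fin n) ↥K₀) i j : K) := by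
    refine ⟨MonoidHom.noncommCoprod z m hcomm, fun μ h i j => ?_⟩
    rw [MonoidHom.noncommCoprod_apply, Units.val_mul, hz, smul_mul_assoc, one_mul,
      Matrix.smul_apply, hm, smul_eq_mul]
  obtain ⟨Z, hZ⟩ : ∃ Z : Subgroup Kˣ, Z = (powMonoidHom (q + 1) : Kˣ →* Kˣ).ker := ⟨_, rfl⟩
  have hZmem : ∀ t : Kˣ, t ∈ Z ↔ (t : K) * φ (t : K) = 1 := by
    intro t
    rw [hZ, MonoidHom.mem_ker, powMonoidHom_apply, hφa, ← pow_succ', Units.ext_iff,
      Units.val_pow_eq_pow_val, Units.val_one]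
  obtain ⟨T, hT⟩ : ∃ T : Subgroup (Kˣ × GL (Fin n) ↥K₀), T = Z.prod (Cfsg.GU n ↥K₀ q₀) :=
    ⟨_, rfl⟩
  have hTmem : ∀ x : Kˣ × GL (Fin n) ↥K₀, x ∈ T ↔ x.1 ∈ Z ∧ x.2 ∈ Cfsg.GU n ↥K₀ q₀ := by
    intro x
    rw [hT, Subgroup.mem_prod]
  obtain ⟨Ψ, hΨ⟩ : ∃ Ψ : ↥T →* GL (Fin n) K, Ψ = Φ.comp T.subtype := ⟨_, rfl⟩
  have hrange : ∀ g : GL (Fin n) K, g ∈ Ψ.range ↔ (g ∈ Cfsg.GU n K q ∧ ∃ c : K, c ≠ 0 ∧
      (g : Matrix (Fin n) (Fin n) K).map σ = c • (g : Matrix (Fin n) (Fin n) K)) := by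
    intro g
    constructor
    · rintro ⟨⟨⟨μ, h⟩, hx⟩, rfl⟩
      rw [hTmem] at hx
      obtain ⟨hμZ, hhU⟩ := hx
      rw [hZmem] at hμZ
      rw [hGU₀] at hhU
      rw [hΨ]
      have hΨx : (Φ.comp T.subtype) ⟨(μ, h), hx⟩ = Φ (μ, h) := rfl
      rw [hΨx]
      refine ⟨?_, ?_⟩
      · rw [hGU]
        intro a b
        have h1 : ∀ k, (Φ (μ, h) : Matrix (Fin n) (Fin n) K) k a
            * φ ((Φ (μ, h) : Matrix (Fin n) (Fin n) K) k b)
            = ((h : Matrix (Fin n) (Fin n) ↥K₀) k a : K)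
              * φ ((h : Matrix (Fin n) (Fin n) ↥K₀) k b : K) := by
          intro k
          rw [hΦ, hΦ, map_mul]
          calc (μ : K) * ((h : Matrix (Fin n) (Fin n) ↥K₀) k a : K)
                * (φ (μ : K) * φ ((h : Matrix (Fin n) (Fin n) ↥K₀) k b : K))
              = ((μ : K) * φ (μ : K)) * (((h : Matrix (Fin n) (Fin n) ↥K₀) k a : K)
                * φ ((h : Matrix (Fin n) (Fin n) ↥K₀) k b : K)) := by ring
            _ = _ := by rw [hμZ, one_mul]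
        rw [Finset.sum_congr rfl (fun k _ => h1 k), ← hGram, hhU, hone]
      · refine ⟨σ μ * (μ : K)⁻¹,
          mul_ne_zero ((map_ne_zero σ).mpr μ.ne_zero) (inv_ne_zero μ.ne_zero), ?_⟩
        ext i j
        rw [Matrix.map_apply, Matrix.smul_apply, hΦ, map_mul, smul_eq_mul]
        have h1 : σ ((h : Matrix (Fin n) (Fin n) ↥K₀) i j : K)
            = ((h : Matrix (Fin n) (Fin n) ↥K₀) i j : K) := (hmem _).mp (SetLike.coe_mem _)
        rw [h1, mul_assoc, ← mul_assoc (μ : K)⁻¹, inv_mul_cancel₀ μ.ne_zero, one_mul]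
    · rintro ⟨hgU, c, hc, hg⟩
      have hgU' := (hGU g).mp hgU
      have hent : ∀ i j, σ ((g : Matrix (Fin n) (Fin n) K) i j)
          = c * (g : Matrix (Fin n) (Fin n) K) i j := by
        intro i j
        have := congrFun (congrFun hg i) j
        rw [Matrix.map_apply, Matrix.smul_apply, smul_eq_mul] at this
        exact this
      have hiter : ∀ k i j, (σ ^ k) ((g : Matrix (Fin n) (Fin n) K) i j)
          = Cfsg.Agent.S2636.nrm σ c k * (g : Matrix (Fin n) (Fin n) K) i j := by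
        intro k
        induction k with
        | zero =>
          intro i j
          rw [pow_zero]
          show (g : Matrix (Fin n) (Fin n) K) i j = 1 * _
          rw [one_mul]
        | succ k ih =>
          intro i j
          rw [pow_succ']
          show σ ((σ ^ k) _) = (c * σ (Cfsg.Agent.S2636.nrm σ c k)) * _
          rw [ih, map_mul, hent]
          ring
      have hdet : (g : Matrix (Fin n) (Fin n) K).det ≠ 0 := by
        have h1 : IsUnit (g : Matrix (Fin n) (Fin n) K) := g.isUnit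
        rw [Matrix.isUnit_iff_isUnit_det] at h1
        exact h1.ne_zero
      obtain ⟨i₀, j₀, hij⟩ : ∃ i j, (g : Matrix (Fin n) (Fin n) K) i j ≠ 0 := by
        by_contra hcon
        push_neg at hcon
        have h0 : (g : Matrix (Fin n) (Fin n) K) = 0 := by ext i j; exact hcon i j
        rw [h0] at hdet
        haveI : Nonempty (Fin n) := ⟨⟨0, hn⟩⟩
        exact hdet Matrix.det_zero
      have hN : Cfsg.Agent.S2636.nrm σ c r = 1 := by
        have h1 := hiter r i₀ j₀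
        rw [hpow] at h1
        have h2 : 1 * (g : Matrix (Fin n) (Fin n) K) i₀ j₀
            = Cfsg.Agent.S2636.nrm σ c r * (g : Matrix (Fin n) (Fin n) K) i₀ j₀ := by
          rw [one_mul]; exact h1
        exact (mul_right_cancel₀ hij h2).symm
      obtain ⟨μ, hμ0, hμ⟩ := Cfsg.Agent.S2636.h90 σ r hr.pos hσ c hN
      have hfix : ∀ i j, μ * (g : Matrix (Fin n) (Fin n) K) i j ∈ K₀ := by
        intro i j
        rw [hmem, map_mul, hent, ← mul_assoc, mul_comm (σ μ) c, hμ]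
      obtain ⟨h₀, hh₀⟩ : ∃ h₀ : Matrix (Fin n) (Fin n) ↥K₀,
          h₀ = fun i j => ⟨μ * (g : Matrix (Fin n) (Fin n) K) i j, hfix i j⟩ := ⟨_, rfl⟩
      have hh₀c : ∀ i j, ((h₀ i j : ↥K₀) : K) = μ * (g : Matrix (Fin n) (Fin n) K) i j := by
        intro i j; rw [hh₀]
      have hφμ0 : φ μ ≠ 0 := (map_ne_zero φ).mpr hμ0
      have hGram₀ : ∀ a b, (((h₀ᵀ * h₀.map φ₀) a b : ↥K₀) : K)
          = (μ * φ μ) * (1 : Matrix (Fin n) (Fin n) K) a b := by
        intro a b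
        rw [hGram, ← hgU' a b, Finset.mul_sum]
        apply Finset.sum_congr rfl
        intro k _
        rw [hh₀c, hh₀c, map_mul]
        ring
      obtain ⟨i₁⟩ : Nonempty (Fin n) := ⟨⟨0, hn⟩⟩
      obtain ⟨lam, hlam⟩ : ∃ lam : ↥K₀, lam = (h₀ᵀ * h₀.map φ₀) i₁ i₁ := ⟨_, rfl⟩
      have hlamc : (lam : K) = μ * φ μ := by
        rw [hlam, hGram₀, Matrix.one_apply_eq, mul_one]
      have hlam0 : lam ≠ 0 := by
        intro h0
        rw [h0] at hlamc
        exact mul_ne_zero hμ0 hφμ0 hlamc.symm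
      have hlamfix : φ₀ lam = lam := by
        apply Subtype.ext
        rw [hcompat, hlamc, map_mul, hφinv, mul_comm]
      obtain ⟨ν, hν⟩ := Cfsg.Agent.Helper6.GU2.exists_norm hK₀ (σ := φ₀) hφ₀a hlam0 hlamfix
      have hνc : (ν : K) * φ (ν : K) = μ * φ μ := by
        rw [← hcompat, ← hlamc, ← hν]; rfl
      have hν0 : (ν : K) ≠ 0 := by
        intro h0
        rw [h0, zero_mul] at hνc
        exact mul_ne_zero hμ0 hφμ0 hνc.symm
      have hν0' : ν ≠ 0 := by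
        intro h0; apply hν0; rw [h0]; rfl
      have hφν0 : φ (ν : K) ≠ 0 := (map_ne_zero φ).mpr hν0
      obtain ⟨g₂, hg₂⟩ : ∃ g₂ : Matrix (Fin n) (Fin n) ↥K₀, g₂ = fun i j => ν⁻¹ * h₀ i j :=
        ⟨_, rfl⟩
      have hg₂c : ∀ i j, ((g₂ i j : ↥K₀) : K)
          = ((ν : K)⁻¹ * μ) * (g : Matrix (Fin n) (Fin n) K) i j := by
        intro i j
        rw [hg₂]
        show ((ν⁻¹ * h₀ i j : ↥K₀) : K) = _
        rw [show ((ν⁻¹ * h₀ i j : ↥K₀) : K) = ((ν⁻¹ : ↥K₀) : K) * ((h₀ i j : ↥K₀) : K) from rfl,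
          hh₀c, mul_assoc]
        rfl
      have ht1 : ((ν : K)⁻¹ * μ) * φ ((ν : K)⁻¹ * μ) = 1 := by
        rw [map_mul, map_inv₀]
        have : (ν : K)⁻¹ * μ * ((φ (ν : K))⁻¹ * φ μ)
            = ((ν : K) * φ (ν : K))⁻¹ * (μ * φ μ) := by
          rw [mul_inv]; ring
        rw [this, hνc, inv_mul_cancel₀ (mul_ne_zero hμ0 hφμ0)]
      have hg₂U : g₂ᵀ * g₂.map φ₀ = 1 := by
        ext a b
        rw [hGram, hone, ← hgU' a b]
        rw [← one_mul (∑ k, (g : Matrix (Fin n) (Fin n) K) k a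
          * φ ((g : Matrix (Fin n) (Fin n) K) k b)), ← ht1, Finset.mul_sum]
        apply Finset.sum_congr rfl
        intro k _
        rw [hg₂c, hg₂c, map_mul (f := φ) ((ν : K)⁻¹ * μ)]
        ring
      have hdet₂ : g₂.det ≠ 0 := by
        intro h0
        have h1 := congrArg Matrix.det hg₂U
        rw [Matrix.det_mul, Matrix.det_transpose, h0, zero_mul, Matrix.det_one] at h1
        exact zero_ne_one h1
      have ht0 : (ν : K)⁻¹ * μ ≠ 0 := mul_ne_zero (inv_ne_zero hν0) hμ0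
      have hxT : ((Units.mk0 ((ν : K)⁻¹ * μ)⁻¹ (inv_ne_zero ht0) : Kˣ),
          Matrix.GeneralLinearGroup.mkOfDetNeZero g₂ hdet₂) ∈ T := by
        rw [hTmem]
        refine ⟨?_, ?_⟩
        · rw [hZmem]
          show ((ν : K)⁻¹ * μ)⁻¹ * φ (((ν : K)⁻¹ * μ)⁻¹) = 1
          rw [map_inv₀, ← mul_inv, ht1, inv_one]
        · rw [hGU₀]
          exact hg₂U
      refine ⟨⟨_, hxT⟩, ?_⟩
      rw [hΨ]
      show Φ ((Units.mk0 ((ν : K)⁻¹ * μ)⁻¹ (inv_ne_zero ht0) : Kˣ),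
          Matrix.GeneralLinearGroup.mkOfDetNeZero g₂ hdet₂) = g
      apply Units.ext
      ext i j
      rw [hΦ]
      show ((ν : K)⁻¹ * μ)⁻¹ * ((g₂ i j : ↥K₀) : K) = _
      rw [hg₂c, ← mul_assoc, inv_mul_cancel₀ ht0, one_mul]
  -- the kernel
  obtain ⟨i₀⟩ : Nonempty (Fin n) := ⟨⟨0, hn⟩⟩
  obtain ⟨zz, hzz⟩ : ∃ zz : (↥K₀)ˣ →* GL (Fin n) ↥K₀, ∀ l : (↥K₀)ˣ,
      ((zz l : GL (Fin n) ↥K₀) : Matrix (Fin n) (Fin n) ↥K₀)
        = (l : ↥K₀) • (1 : Matrix (Fin n) (Fin n) ↥K₀) := by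
    refine ⟨Units.map (algebraMap ↥K₀ (Matrix (Fin n) (Fin n) ↥K₀)).toMonoidHom, fun μ => ?_⟩
    rw [Units.coe_map]
    exact Algebra.algebraMap_eq_smul_one _
  obtain ⟨uu, huu⟩ : ∃ uu : (↥K₀)ˣ →* Kˣ, ∀ l : (↥K₀)ˣ, ((uu l : Kˣ) : K) = ((l : ↥K₀) : K) :=
    ⟨Units.map (algebraMap ↥K₀ K).toMonoidHom, fun l => rfl⟩
  obtain ⟨Z₀, hZ₀⟩ : ∃ Z₀ : Subgroup (↥K₀)ˣ,
      Z₀ = (powMonoidHom (q₀ + 1) : (↥K₀)ˣ →* (↥K₀)ˣ).ker := ⟨_, rfl⟩
  have hZ₀mem : ∀ l : (↥K₀)ˣ, l ∈ Z₀ ↔ (l : ↥K₀) * φ₀ (l : ↥K₀) = 1 := by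
    intro l
    rw [hZ₀, MonoidHom.mem_ker, powMonoidHom_apply, hφ₀a, ← pow_succ', Units.ext_iff,
      Units.val_pow_eq_pow_val, Units.val_one]
  have hZ₀c : ∀ l : (↥K₀)ˣ, l ∈ Z₀ ↔ ((l : ↥K₀) : K) * φ ((l : ↥K₀) : K) = 1 := by
    intro l
    rw [hZ₀mem, ← hcompat]
    constructor
    · intro h
      have := congrArg (fun y : ↥K₀ => (y : K)) h
      exact this
    · intro h
      exact Subtype.ext h
  obtain ⟨gk, hgk⟩ : ∃ gk : ↥Z₀ → Kˣ × GL (Fin n) ↥K₀,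
      gk = fun l => ((uu l.1)⁻¹, zz l.1) := ⟨_, rfl⟩
  have hgk_inj : Function.Injective gk := by
    intro l l' h
    rw [hgk] at h
    have h1 : (uu l.1)⁻¹ = (uu l'.1)⁻¹ := congrArg Prod.fst h
    have h2 : uu l.1 = uu l'.1 := inv_injective h1
    have h3 : ((l.1 : ↥K₀) : K) = ((l'.1 : ↥K₀) : K) := by rw [← huu, ← huu, h2]
    exact Subtype.ext (Units.ext (Subtype.ext h3))
  have hkerset : ((Ψ.ker.map T.subtype : Subgroup (Kˣ × GL (Fin n) ↥K₀)) :
      Set (Kˣ × GL (Fin n) ↥K₀)) = Set.range gk := by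
    ext x
    obtain ⟨μ, h⟩ := x
    rw [SetLike.mem_coe]
    constructor
    · rintro ⟨⟨y, hyT⟩, hyker, hyx⟩
      have hyx' : y = (μ, h) := hyx
      subst hyx'
      rw [SetLike.mem_coe, MonoidHom.mem_ker, hΨ] at hyker
      have hx : Φ (μ, h) = 1 := hyker
      rw [hTmem] at hyT
      obtain ⟨hμZ, -⟩ := hyT
      rw [hZmem] at hμZ
      have hx' : ∀ i j, (μ : K) * ((h : Matrix (Fin n) (Fin n) ↥K₀) i j : K)
          = (1 : Matrix (Fin n) (Fin n) K) i j := by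
        intro i j
        rw [← hΦ, hx]
        rfl
      have h00 := hx' i₀ i₀
      rw [Matrix.one_apply_eq] at h00
      have hl0 : (h : Matrix (Fin n) (Fin n) ↥K₀) i₀ i₀ ≠ 0 := by
        intro h0
        rw [h0] at h00
        simp at h00
      have hμinv : (((h : Matrix (Fin n) (Fin n) ↥K₀) i₀ i₀ : ↥K₀) : K)⁻¹ = (μ : K) :=
        (eq_inv_of_mul_eq_one_left h00).symm
      have hlZ : Units.mk0 _ hl0 ∈ Z₀ := by
        rw [hZ₀c]
        show (((h : Matrix (Fin n) (Fin n) ↥K₀) i₀ i₀ : ↥K₀) : K)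
          * φ (((h : Matrix (Fin n) (Fin n) ↥K₀) i₀ i₀ : ↥K₀) : K) = 1
        have h5 : (((h : Matrix (Fin n) (Fin n) ↥K₀) i₀ i₀ : ↥K₀) : K) = (μ : K)⁻¹ := by
          rw [← hμinv, inv_inv]
        rw [h5, map_inv₀, ← mul_inv, hμZ, inv_one]
      refine ⟨⟨Units.mk0 _ hl0, hlZ⟩, ?_⟩
      rw [hgk]
      refine Prod.ext ?_ ?_
      · apply Units.ext
        show ((uu (Units.mk0 _ hl0))⁻¹ : Kˣ).val = (μ : K)
        rw [Units.val_inv_eq_inv_val, huu]
        exact hμinv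
      · apply Units.ext
        show ((zz (Units.mk0 _ hl0) : GL (Fin n) ↥K₀) : Matrix (Fin n) (Fin n) ↥K₀) = h
        rw [hzz]
        ext i j
        rw [Matrix.smul_apply, Matrix.one_apply]
        have hij := hx' i j
        rw [Matrix.one_apply] at hij
        show (((h : Matrix (Fin n) (Fin n) ↥K₀) i₀ i₀ : ↥K₀) * (if i = j then 1 else 0) : ↥K₀).val
          = _
        by_cases hij' : i = j
        · rw [if_pos hij'] at hij ⊢
          rw [mul_one]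
          have h5 : (μ : K) * ((h : Matrix (Fin n) (Fin n) ↥K₀) i₀ i₀ : K)
              = (μ : K) * ((h : Matrix (Fin n) (Fin n) ↥K₀) i j : K) := by rw [h00, hij]
          exact mul_left_cancel₀ μ.ne_zero h5
        · rw [if_neg hij'] at hij ⊢
          rw [mul_zero]
          have h5 : ((h : Matrix (Fin n) (Fin n) ↥K₀) i j : K) = 0 := by
            rcases mul_eq_zero.mp hij with h6 | h6
            · exact absurd h6 μ.ne_zero
            · exact h6
          rw [h5]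
          rfl
    · rintro ⟨l, hl⟩
      rw [hgk] at hl
      have h1 : (uu l.1)⁻¹ = μ := congrArg Prod.fst hl
      have h2 : zz l.1 = h := congrArg Prod.snd hl
      have hlZ := (hZ₀c l.1).mp l.2
      have hlZ' := (hZ₀mem l.1).mp l.2
      have hl0 : ((l.1 : ↥K₀) : K) ≠ 0 := by
        intro h0
        exact l.1.ne_zero (Subtype.ext h0)
      have hxT : (μ, h) ∈ T := by
        rw [hTmem]
        refine ⟨?_, ?_⟩
        · rw [hZmem]
          show (μ : K) * φ (μ : K) = 1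
          rw [← h1, Units.val_inv_eq_inv_val, huu, map_inv₀, ← mul_inv, hlZ, inv_one]
        · show h ∈ Cfsg.GU n ↥K₀ q₀
          rw [hGU₀, ← h2, hzz]
          have hmap : ((l.1 : ↥K₀) • (1 : Matrix (Fin n) (Fin n) ↥K₀)).map φ₀
              = φ₀ (l.1 : ↥K₀) • (1 : Matrix (Fin n) (Fin n) ↥K₀) := by
            ext a b
            rw [Matrix.map_apply, Matrix.smul_apply, Matrix.smul_apply, Matrix.one_apply]
            by_cases hab : a = b
            · rw [if_pos hab, smul_eq_mul, smul_eq_mul, mul_one, mul_one]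
            · rw [if_neg hab, smul_eq_mul, smul_eq_mul, mul_zero, mul_zero, map_zero]
          rw [hmap, Matrix.transpose_smul, Matrix.transpose_one, Matrix.smul_mul, Matrix.one_mul,
            smul_smul, hlZ', one_smul]
      refine ⟨⟨(μ, h), hxT⟩, ?_, rfl⟩
      rw [SetLike.mem_coe, MonoidHom.mem_ker, hΨ]
      show Φ (μ, h) = 1
      apply Units.ext
      ext i j
      rw [hΦ, ← h1, ← h2, hzz, Units.val_inv_eq_inv_val, huu, Matrix.smul_apply, Matrix.one_apply]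
      show _ = (1 : Matrix (Fin n) (Fin n) K) i j
      rw [Matrix.one_apply]
      by_cases hij' : i = j
      · rw [if_pos hij', if_pos hij']
        show ((l.1 : ↥K₀) : K)⁻¹ * (((l.1 : ↥K₀) : K) * 1) = 1
        rw [mul_one, inv_mul_cancel₀ hl0]
      · rw [if_neg hij', if_neg hij']
        show ((l.1 : ↥K₀) : K)⁻¹ * (((l.1 : ↥K₀) : K) * 0) = 0
        rw [mul_zero, mul_zero]
  have hcardZ₀ : Nat.card ↥Z₀ = q₀ + 1 := by
    rw [hZ₀, IsCyclic.card_powMonoidHom_ker, Nat.card_units, Nat.card_eq_fintype_card, hK₀]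
    have e : q₀ ^ 2 - 1 = (q₀ + 1) * (q₀ - 1) := by
      obtain ⟨a, rfl⟩ : ∃ a, q₀ = a + 1 := ⟨q₀ - 1, by omega⟩
      simp only [Nat.add_sub_cancel]
      apply Nat.sub_eq_of_eq_add
      ring
    rw [e]
    exact Nat.gcd_mul_right_left (q₀ - 1) (q₀ + 1)
  have hcardZ : Nat.card ↥Z = q + 1 := by
    rw [hZ, IsCyclic.card_powMonoidHom_ker, Nat.card_units, Nat.card_eq_fintype_card, hK]
    have e : q ^ 2 - 1 = (q + 1) * (q - 1) := by
      obtain ⟨a, rfl⟩ : ∃ a, q = a + 1 := ⟨q - 1, by omega⟩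
      simp only [Nat.add_sub_cancel]
      apply Nat.sub_eq_of_eq_add
      ring
    rw [e]
    exact Nat.gcd_mul_right_left (q - 1) (q + 1)
  have hker : Nat.card ↥Ψ.ker = q₀ + 1 := by
    have h1 : Nat.card ↥(Ψ.ker.map T.subtype) = Nat.card ↥(Set.range gk) := by
      rw [← hkerset]; rfl
    rw [← Subgroup.card_map_of_injective (Subgroup.subtype_injective T), h1,
      Nat.card_range_of_injective hgk_inj, hcardZ₀]
  have hTcard : Nat.card ↥T = (q + 1) * Nat.card ↥(Cfsg.GU n ↥K₀ q₀) := by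
    rw [hT, Nat.card_congr (Subgroup.prodEquiv Z (Cfsg.GU n ↥K₀ q₀)).toEquiv, Nat.card_prod,
      hcardZ]
  have hS : Nat.card {g : ↥(Cfsg.GU n K q) // ∃ c : K, c ≠ 0 ∧
      ((g : GL (Fin n) K) : Matrix (Fin n) (Fin n) K).map σ
        = c • ((g : GL (Fin n) K) : Matrix (Fin n) (Fin n) K)}
      = Nat.card ↥Ψ.range := by
    refine Nat.card_congr ((Equiv.subtypeSubtypeEquivSubtypeInter (fun g : GL (Fin n) K =>
      g ∈ Cfsg.GU n K q) (fun g : GL (Fin n) K => ∃ c : K, c ≠ 0 ∧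
      (g : Matrix (Fin n) (Fin n) K).map σ = c • (g : Matrix (Fin n) (Fin n) K))).trans
      (Equiv.subtypeEquivRight (fun g => (hrange g).symm)))
  have hmul := Subgroup.card_mul_index Ψ.ker
  rw [Subgroup.index_ker, hker, hTcard, ← hS, Cfsg.Agent.S0277.result hK₀ n] at hmul
  rw [hS] at hmul ⊢
  obtain ⟨e, he⟩ : q₀ + 1 ∣ q + 1 := by
    have h1 : Odd r := ⟨j, hj⟩
    have h2 := Odd.nat_add_dvd_pow_add_pow q₀ 1 h1
    rwa [one_pow, ← hq] at h2
  have hpos : 0 < q₀ + 1 := by omega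
  rw [he, Nat.mul_div_cancel_left e hpos]
  rw [he, mul_assoc] at hmul
  have hnat := Nat.eq_of_mul_eq_mul_left hpos hmul
  rw [hnat]
  rw [Nat.cast_mul, Nat.cast_mul, Nat.cast_pow, Nat.cast_prod]
  congr 1
  congr 1
  rw [← Fin.prod_univ_eq_prod_range (fun i => ((if Even i then q₀ ^ (i + 1) + 1
    else q₀ ^ (i + 1) - 1 : ℕ) : ℤ)) n]
  apply Finset.prod_congr rfl
  intro i _
  by_cases hi : Even (i : ℕ)
  · rw [if_pos hi]
    have hodd : Odd ((i : ℕ) + 1) := hi.add_one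
    rw [hodd.neg_one_pow]
    push_cast
    ring
  · rw [if_neg hi]
    have hev : Even ((i : ℕ) + 1) := by
      rw [Nat.even_add_one]; exact hi
    rw [hev.neg_one_pow]
    have h1 : 1 ≤ q₀ ^ ((i : ℕ) + 1) := Nat.one_le_pow _ _ (by omega)
    rw [Nat.cast_sub h1]
    push_cast
    ring

end Cfsg.Agent.S2677
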