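import Cfsg.Statements.S2678
import Cfsg.Agent.Helper2.SpEmbed

set_option autoImplicit false
open Cfsg

namespace Cfsg.Agent.S2678

/-- Field-extension embedding of symplectic groups: for a field K with q² elements and a field F with q elements there is an injective homomorphism Sp_2a(K) → Sp_4a(F). -/
theorem result {K F : Type*} [Field K] [Fintype K] [Field F] [Fintype F] {q : ℕ} (hK : Fintype.card K = q ^ 2) (hF : Fintype.card F = q) (a : ℕ) : ∃ φ : ↥(Matrix.symplecticGroup (Fin a) K) →* ↥(Matrix.symplecticGroup (Fin (2 * a)) F), Function.Injective φ := by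
  classical
  obtain ⟨f⟩ := Helper2.SpEmbed.exists_ringHom hK hF
  letI : Algebra F K := f.toAlgebra
  haveI : Module.Finite F K := Module.Finite.of_finite
  have hfr : Module.finrank F K = 2 := Helper2.SpEmbed.finrank_two hK hF
  obtain ⟨lam, hlam, -⟩ := Submodule.exists_dual_map_eq_bot_of_notMem
    (R := F) (M := K) (p := ⊥) (x := (1 : K)) (by
      rw [Submodule.mem_bot]; exact one_ne_zero) inferInstance
  let B : LinearMap.BilinForm F (Fin a ⊕ Fin a → K) :=
    LinearMap.mk₂ F (fun u v => lam (S0766.sB a K u v))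
      (fun u u' v => by rw [map_add, LinearMap.add_apply, map_add])
      (fun c u v => by
        rw [← algebraMap_smul K c u, map_smul, LinearMap.smul_apply, smul_eq_mul,
          ← Algebra.smul_def, map_smul])
      (fun u v v' => by rw [map_add, map_add])
      (fun c u v => by
        rw [← algebraMap_smul K c v, map_smul, smul_eq_mul, ← Algebra.smul_def, map_smul])
  have hBapp : ∀ u v, B u v = lam (S0766.sB a K u v) := fun u v => rfl
  have hAlt : B.IsAlt := fun u => by rw [hBapp, S0766.sB_alt a K u, map_zero]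
  have hnd : ∀ x : Fin a ⊕ Fin a → K, x ≠ 0 → ∃ w, B x w ≠ 0 := by
    intro x hx
    have h1 : ∃ w, S0766.sB a K x w ≠ 0 := by
      by_contra hcon
      apply hx
      apply (S0766.sB_nondeg a K).1 x
      intro y
      by_contra hne
      exact hcon ⟨y, hne⟩
    obtain ⟨w, hw⟩ := h1
    refine ⟨(S0766.sB a K x w)⁻¹ • w, ?_⟩
    rw [hBapp, map_smul, smul_eq_mul, inv_mul_cancel₀ hw]
    exact hlam
  have hdim : Module.finrank F (Fin a ⊕ Fin a → K) = 2 * a + 2 * a := by
    rw [Module.finrank_pi_fintype, Finset.sum_const, Finset.card_univ, hfr, Fintype.card_sum,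
      Fintype.card_fin, smul_eq_mul]
    ring
  let ρ : ↥(Matrix.symplecticGroup (Fin a) K) →* Module.End F (Fin a ⊕ Fin a → K) :=
    { toFun := fun g =>
        (Matrix.toLin' (g : Matrix (Fin a ⊕ Fin a) (Fin a ⊕ Fin a) K)).restrictScalars F
      map_one' := by
        apply LinearMap.ext
        intro x
        show Matrix.toLin' ((1 : ↥(Matrix.symplecticGroup (Fin a) K)) :
          Matrix (Fin a ⊕ Fin a) (Fin a ⊕ Fin a) K) x = x
        rw [Matrix.toLin'_apply]
        exact Matrix.one_mulVec x
      map_mul' := fun g h => by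
        apply LinearMap.ext
        intro x
        show Matrix.toLin' ((g * h : ↥(Matrix.symplecticGroup (Fin a) K)) :
            Matrix (Fin a ⊕ Fin a) (Fin a ⊕ Fin a) K) x
          = Matrix.toLin' (g : Matrix (Fin a ⊕ Fin a) (Fin a ⊕ Fin a) K)
              (Matrix.toLin' (h : Matrix (Fin a ⊕ Fin a) (Fin a ⊕ Fin a) K) x)
        rw [Matrix.toLin'_apply, Matrix.toLin'_apply, Matrix.toLin'_apply, Matrix.mulVec_mulVec]
        rfl }
  have hρ : Function.Injective ρ := by
    intro g h hgh
    apply Subtype.ext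
    apply Matrix.toLin'.injective
    apply LinearMap.ext
    intro x
    exact congrArg (fun t : Module.End F (Fin a ⊕ Fin a → K) => t x) hgh
  have hiso : ∀ g u v, B (ρ g u) (ρ g v) = B u v := by
    intro g u v
    show lam (S0766.sB a K (Matrix.mulVec (g : Matrix (Fin a ⊕ Fin a) (Fin a ⊕ Fin a) K) u)
      (Matrix.mulVec (g : Matrix (Fin a ⊕ Fin a) (Fin a ⊕ Fin a) K) v)) = lam (S0766.sB a K u v)
    rw [Helper2.SpEmbed.sB_symp a _ g.2]
  exact Helper2.SpEmbed.embed B hAlt hnd (2 * a) hdim ρ hρ hiso

end Cfsg.Agent.S2678
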