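import Cfsg.Statements.S2738
-- import your own Cfsg.Agent.* helpers here

set_option autoImplicit false
open Cfsg

namespace Cfsg.Agent.S2738

open Matrix

theorem comm_central_left {G : Type*} [Group G] (z x y : G) (hz : ∀ g, g * z = z * g) :
    (z * x) * y * (z * x)⁻¹ * y⁻¹ = x * y * x⁻¹ * y⁻¹ := by
  have h1 : (z * x) * y * (z * x)⁻¹ * y⁻¹ = z * (x * y * x⁻¹) * z⁻¹ * y⁻¹ := by group
  rw [h1, ← hz (x * y * x⁻¹)]; group

theorem comm_central_right {G : Type*} [Group G] (z x y : G) (hz : ∀ g, g * z = z * g) :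
    x * (z * y) * x⁻¹ * (z * y)⁻¹ = x * y * x⁻¹ * y⁻¹ := by
  have h1 : x * (z * y) * x⁻¹ * (z * y)⁻¹ = (x * z) * y * x⁻¹ * y⁻¹ * z⁻¹ := by group
  rw [h1, hz x]
  have h2 : z * x * y * x⁻¹ * y⁻¹ * z⁻¹ = z * (x * y * x⁻¹ * y⁻¹) * z⁻¹ := by group
  rw [h2, ← hz]; group

theorem exists_omega (F : Type*) [Field F] [Fintype F] (hF : Fintype.card F = 4) :
    ∃ t : F, t ≠ 0 ∧ t ≠ 1 ∧ t ^ 3 = 1 := by
  classical
  have h3 : ∀ a : F, a ≠ 0 → a ^ 3 = 1 := by
    intro a ha
    have := FiniteField.pow_card_sub_one_eq_one a ha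
    rwa [hF] at this
  have h2 : 2 < Fintype.card F := by rw [hF]; norm_num
  obtain ⟨a, b, c, hab, hac, hbc⟩ := Fintype.two_lt_card_iff.mp h2
  by_cases ha0 : a = 0
  · by_cases hb1 : b = 1
    · refine ⟨c, ?_, ?_, ?_⟩
      · intro h; exact hac (ha0.trans h.symm)
      · intro h; exact hbc (hb1.trans h.symm)
      · apply h3; intro h; exact hac (ha0.trans h.symm)
    · refine ⟨b, ?_, hb1, ?_⟩
      · intro h; exact hab (ha0.trans h.symm)
      · apply h3; intro h; exact hab (ha0.trans h.symm)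
  · by_cases ha1 : a = 1
    · by_cases hb0 : b = 0
      · refine ⟨c, ?_, ?_, ?_⟩
        · intro h; exact hbc (hb0.trans h.symm)
        · intro h; exact hac (ha1.trans h.symm)
        · apply h3; intro h; exact hbc (hb0.trans h.symm)
      · refine ⟨b, hb0, ?_, h3 b hb0⟩
        intro h; exact hab (ha1.trans h.symm)
    · exact ⟨a, ha0, ha1, h3 a ha0⟩

theorem card_center (F : Type*) [Field F] [Fintype F] (hF : Fintype.card F = 4) :
    Nat.card ↥(Subgroup.center (Matrix.SpecialLinearGroup (Fin 3) F)) = 3 := by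
  classical
  rw [Nat.card_congr (Matrix.SpecialLinearGroup.center_equiv_rootsOfUnity (n := Fin 3) (R := F)).toEquiv]
  have htop : rootsOfUnity (max (Fintype.card (Fin 3)) 1) F = ⊤ := by
    rw [eq_top_iff]
    intro u _
    rw [mem_rootsOfUnity]
    have h := FiniteField.pow_card_sub_one_eq_one (u : F) u.ne_zero
    rw [hF] at h
    apply Units.ext
    simpa using h
  rw [htop, Nat.card_congr Subgroup.topEquiv.toEquiv, Nat.card_units, Nat.card_eq_fintype_card, hF]

/-- The special linear group SL(3, 4) has centre of order 3 and does not split over it: no subgroup is a complement to the centre (so SL(3, 4) is a non-split central extension of PSL(3, 4) by a group of order 3). -/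
theorem result (F : Type*) [Field F] [Fintype F] (hF : Fintype.card F = 4) : Nat.card ↥(Subgroup.center (Matrix.SpecialLinearGroup (Fin 3) F)) = 3 ∧ ¬ ∃ K : Subgroup (Matrix.SpecialLinearGroup (Fin 3) F), Subgroup.IsComplement' (Subgroup.center (Matrix.SpecialLinearGroup (Fin 3) F)) K := by
  classical
  refine ⟨card_center F hF, ?_⟩
  rintro ⟨K, hK⟩
  obtain ⟨t, ht0, ht1, ht3⟩ := exists_omega F hF
  -- the matrices
  let A : Matrix (Fin 3) (Fin 3) F := !![1, 0, 0; 0, t, 0; 0, 0, t ^ 2]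
  let B : Matrix (Fin 3) (Fin 3) F := !![0, 1, 0; 0, 0, 1; 1, 0, 0]
  let S : Matrix (Fin 3) (Fin 3) F := !![t ^ 2, 0, 0; 0, t ^ 2, 0; 0, 0, t ^ 2]
  have hA : A.det = 1 := by
    simp only [A, Matrix.det_fin_three, Matrix.of_apply, Matrix.cons_val', Matrix.cons_val_zero, Matrix.cons_val_one, Matrix.cons_val]
    linear_combination ht3
  have hB : B.det = 1 := by
    simp only [B, Matrix.det_fin_three, Matrix.of_apply, Matrix.cons_val', Matrix.cons_val_zero, Matrix.cons_val_one, Matrix.cons_val]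
    ring
  have hS : S.det = 1 := by
    simp only [S, Matrix.det_fin_three, Matrix.of_apply, Matrix.cons_val', Matrix.cons_val_zero, Matrix.cons_val_one, Matrix.cons_val]
    linear_combination (t ^ 3 + 1) * ht3
  let a : Matrix.SpecialLinearGroup (Fin 3) F := ⟨A, hA⟩
  let b : Matrix.SpecialLinearGroup (Fin 3) F := ⟨B, hB⟩
  let s : Matrix.SpecialLinearGroup (Fin 3) F := ⟨S, hS⟩
  have hrel : a * b = s * (b * a) := by
    apply Subtype.ext
    show A * B = S * (B * A)
    have h4 : t ^ 4 = t := by linear_combination t * ht3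
    ext i j
    fin_cases i <;> fin_cases j <;>
      simp [A, B, S, Matrix.mul_apply, Fin.sum_univ_three]
    · linear_combination -ht3
    · linear_combination -t * ht3
  have hs_center : s ∈ Subgroup.center (Matrix.SpecialLinearGroup (Fin 3) F) := by
    rw [Matrix.SpecialLinearGroup.mem_center_iff]
    refine ⟨t ^ 2, ?_, ?_⟩
    · simp only [Fintype.card_fin]
      linear_combination (t ^ 3 + 1) * ht3
    · show _ = S
      ext i j
      fin_cases i <;> fin_cases j <;> simp [S, Matrix.scalar_apply, Matrix.diagonal]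
  have hs_ne : s ≠ 1 := by
    intro h
    have h00 : S 0 0 = 1 := by
      have := congrArg (fun x : Matrix.SpecialLinearGroup (Fin 3) F => (x : Matrix (Fin 3) (Fin 3) F) 0 0) h
      simpa using this
    have h2 : t ^ 2 = 1 := by simpa [S] using h00
    apply ht1
    have : t * t ^ 2 = 1 := by linear_combination ht3
    rw [h2, mul_one] at this
    exact this
  -- s is a commutator, so lies in K
  have hcomm : ∀ g₁ g₂ : Matrix.SpecialLinearGroup (Fin 3) F, g₁ * g₂ * g₁⁻¹ * g₂⁻¹ ∈ K := by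
    intro g₁ g₂
    obtain ⟨⟨z₁, k₁⟩, h₁, -⟩ := (Subgroup.isComplement'_def.mp hK).existsUnique g₁
    obtain ⟨⟨z₂, k₂⟩, h₂, -⟩ := (Subgroup.isComplement'_def.mp hK).existsUnique g₂
    simp only at h₁ h₂
    have hz₁ := Subgroup.mem_center_iff.mp z₁.2
    have hz₂ := Subgroup.mem_center_iff.mp z₂.2
    have : g₁ * g₂ * g₁⁻¹ * g₂⁻¹ = (k₁ : Matrix.SpecialLinearGroup (Fin 3) F) * k₂ * (k₁ : Matrix.SpecialLinearGroup (Fin 3) F)⁻¹ * (k₂ : Matrix.SpecialLinearGroup (Fin 3) F)⁻¹ := by
      rw [← h₁, ← h₂, comm_central_left _ _ _ hz₁, comm_central_right _ _ _ hz₂]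
    rw [this]
    exact K.mul_mem (K.mul_mem (K.mul_mem k₁.2 k₂.2) (K.inv_mem k₁.2)) (K.inv_mem k₂.2)
  have hsK : s ∈ K := by
    have h := hcomm a b
    have : a * b * a⁻¹ * b⁻¹ = s := by
      rw [hrel]; group
    rwa [this] at h
  have hbot : s ∈ (⊥ : Subgroup (Matrix.SpecialLinearGroup (Fin 3) F)) := by
    have := hK.disjoint
    rw [disjoint_iff] at this
    rw [← this]
    exact ⟨hs_center, hsK⟩
  exact hs_ne (Subgroup.mem_bot.mp hbot)

end Cfsg.Agent.S2738
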