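import Mathlib
import Cfsg.Agent.Helper4.F4
import Cfsg.Statements.S2739

set_option autoImplicit false
open scoped Pointwise
open Cfsg

namespace Cfsg.Agent.S2739

open Cfsg.Agent.Helper4

variable {F : Type*} [Field F]

/-- Characteristic polynomial data of a `3 × 3` matrix of determinant one in characteristic 2. -/
theorem cp3 (h2 : (2 : F) = 0) (A : Matrix (Fin 3) (Fin 3) F) (hdet : A.det = 1) :
    ∃ t s : F, A ^ 3 = t • A ^ 2 + s • A + 1 ∧
      ∀ lam : F, (Matrix.scalar (Fin 3) lam - A).det = lam ^ 3 + t * lam ^ 2 + s * lam + 1 := by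
  have hmon := Matrix.charpoly_monic A
  have hdeg : A.charpoly.natDegree = 3 := by
    rw [Matrix.charpoly_natDegree_eq_dim]; rfl
  have hsum := hmon.as_sum
  rw [hdeg] at hsum
  have hc0 : A.charpoly.coeff 0 = 1 := by
    have h := Matrix.det_eq_sign_charpoly_coeff A
    rw [hdet] at h
    have hneg : (-1 : F) = 1 := by linear_combination (-1 : F) * h2
    rw [hneg, one_pow, one_mul] at h
    exact h.symm
  refine ⟨A.charpoly.coeff 2, A.charpoly.coeff 1, ?_, ?_⟩
  · have hch := Matrix.aeval_self_charpoly A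
    rw [hsum] at hch
    simp only [Finset.sum_range_succ, Finset.sum_range_zero, zero_add, map_add, map_mul, map_pow,
      Polynomial.aeval_X, Polynomial.aeval_C, pow_zero, pow_one, mul_one, hc0, map_one,
      Algebra.algebraMap_eq_smul_one, smul_mul_assoc, one_mul] at hch
    have key : ∀ M : Matrix (Fin 3) (Fin 3) F, M + M = 0 := fun M => by
      rw [← two_smul F M, h2, zero_smul]
    have hS : A ^ 3 + (A.charpoly.coeff 2 • A ^ 2 + A.charpoly.coeff 1 • A + 1) = 0 := by
      rw [← hch]; abel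
    calc A ^ 3 = A ^ 3 + ((A.charpoly.coeff 2 • A ^ 2 + A.charpoly.coeff 1 • A + 1)
          + (A.charpoly.coeff 2 • A ^ 2 + A.charpoly.coeff 1 • A + 1)) := by rw [key, add_zero]
      _ = (A ^ 3 + (A.charpoly.coeff 2 • A ^ 2 + A.charpoly.coeff 1 • A + 1))
          + (A.charpoly.coeff 2 • A ^ 2 + A.charpoly.coeff 1 • A + 1) := by abel
      _ = _ := by rw [hS, zero_add]
  · intro lam
    have hev := Matrix.eval_charpoly A lam
    rw [hsum] at hev
    simp only [Finset.sum_range_succ, Finset.sum_range_zero, zero_add, Polynomial.eval_add,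
      Polynomial.eval_mul, Polynomial.eval_pow, Polynomial.eval_X, Polynomial.eval_C, pow_zero,
      pow_one, mul_one, hc0] at hev
    rw [← hev]
    ring

theorem scalar_central (a : Matrix.SpecialLinearGroup (Fin 3) F) (k : F)
    (h : (a : Matrix (Fin 3) (Fin 3) F) = k • 1) :
    a ∈ Subgroup.center (Matrix.SpecialLinearGroup (Fin 3) F) := by
  rw [Matrix.SpecialLinearGroup.mem_center_iff]
  refine ⟨k, ?_, ?_⟩
  · have hd := a.det_coe
    rw [h, Matrix.det_smul, Matrix.det_one, mul_one] at hd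
    exact hd
  · rw [h, Matrix.scalar_apply, Matrix.smul_one_eq_diagonal]

theorem omega_cube (ω : F) (hω : ω ^ 2 + ω + 1 = 0) : ω ^ 3 = 1 := by
  linear_combination (ω - 1) * hω

def dM (ω : F) : Matrix (Fin 3) (Fin 3) F := Matrix.diagonal ![1, ω, ω ^ 2]

theorem det_dM (ω : F) (hω : ω ^ 2 + ω + 1 = 0) : (dM ω).det = 1 := by
  rw [dM, Matrix.det_diagonal, Fin.prod_univ_three]
  show 1 * ω * ω ^ 2 = 1
  linear_combination (ω - 1) * hω

def dS (ω : F) (hω : ω ^ 2 + ω + 1 = 0) : Matrix.SpecialLinearGroup (Fin 3) F :=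
  ⟨dM ω, det_dM ω hω⟩

/-- An element of `SL₃(4)` that is not scalar but whose cube is scalar is conjugate to
`diag(1, ω, ω²)`. -/
theorem cube_conj [Fintype F] (hF : Fintype.card F = 4) (ω : F) (hω : ω ^ 2 + ω + 1 = 0)
    (a : Matrix.SpecialLinearGroup (Fin 3) F) (c : F) (hc3 : c ^ 3 = 1)
    (hAc : (a : Matrix (Fin 3) (Fin 3) F) ^ 3 = c • 1)
    (hns : ∀ k : F, (a : Matrix (Fin 3) (Fin 3) F) ≠ k • 1) :
    ∃ p : Matrix.SpecialLinearGroup (Fin 3) F, a * p = p * dS ω hω := by
  have h2 : (2 : F) = 0 := two_eq_zero_of_card hF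
  obtain ⟨A, hA⟩ : ∃ A : Matrix (Fin 3) (Fin 3) F, A = (a : Matrix (Fin 3) (Fin 3) F) :=
    ⟨_, rfl⟩
  rw [← hA] at hAc hns
  have hdet : A.det = 1 := by rw [hA]; exact a.det_coe
  obtain ⟨t, s, hCH, hev⟩ := cp3 h2 A hdet
  have hδ : ∀ i : Fin 3, (1 : Matrix (Fin 3) (Fin 3) F) i i = 1 := fun i => Matrix.one_apply_eq i
  have hCHe : ∀ i j, (A ^ 3) i j
      = t * (A ^ 2) i j + s * A i j + (1 : Matrix (Fin 3) (Fin 3) F) i j := by
    intro i j
    have h := congrFun (congrFun hCH i) j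
    rw [Matrix.add_apply, Matrix.add_apply, Matrix.smul_apply, Matrix.smul_apply, smul_eq_mul,
      smul_eq_mul] at h
    exact h
  have hAce : ∀ i j, (A ^ 3) i j = c * (1 : Matrix (Fin 3) (Fin 3) F) i j := by
    intro i j
    have h := congrFun (congrFun hAc i) j
    rw [Matrix.smul_apply, smul_eq_mul] at h
    exact h
  have hc1 : c = 1 := by
    by_contra hc1
    have E1 : ∀ i j, t * (A ^ 2) i j + s * A i j + (1 : Matrix (Fin 3) (Fin 3) F) i j
        = c * (1 : Matrix (Fin 3) (Fin 3) F) i j := fun i j => (hCHe i j).symm.trans (hAce i j)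
    by_cases ht : t = 0
    · by_cases hs : s = 0
      · have h := E1 0 0
        rw [ht, hs, zero_mul, zero_mul, zero_add, zero_add, hδ, mul_one] at h
        exact hc1 h.symm
      · apply hns (s⁻¹ * (c - 1))
        ext i j
        have h := E1 i j
        rw [ht, zero_mul, zero_add] at h
        have h' : s * A i j = (c - 1) * (1 : Matrix (Fin 3) (Fin 3) F) i j := by
          linear_combination h
        rw [Matrix.smul_apply, smul_eq_mul, mul_assoc, ← h', ← mul_assoc, inv_mul_cancel₀ hs,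
          one_mul]
    · obtain ⟨α, hα⟩ : ∃ α : F, α = -(t⁻¹ * s) := ⟨_, rfl⟩
      obtain ⟨β, hβ⟩ : ∃ β : F, β = t⁻¹ * (c - 1) := ⟨_, rfl⟩
      have hinv : t * t⁻¹ = 1 := mul_inv_cancel₀ ht
      have hP : ∀ i j, (A ^ 2) i j = α * A i j + β * (1 : Matrix (Fin 3) (Fin 3) F) i j := by
        intro i j
        have h := E1 i j
        apply mul_left_cancel₀ ht
        rw [hα, hβ]
        linear_combination h + (s * A i j - (c - 1) * (1 : Matrix (Fin 3) (Fin 3) F) i j) * hinv
      have hPmat : A ^ 2 = α • A + β • (1 : Matrix (Fin 3) (Fin 3) F) := by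
        ext i j
        rw [Matrix.add_apply, Matrix.smul_apply, Matrix.smul_apply, smul_eq_mul, smul_eq_mul]
        exact hP i j
      have h3 : A ^ 3 = α • A ^ 2 + β • A := by
        calc A ^ 3 = A ^ 2 * A := pow_succ A 2
          _ = (α • A + β • (1 : Matrix (Fin 3) (Fin 3) F)) * A := by rw [← hPmat]
          _ = α • (A * A) + β • A := by
            rw [add_mul, smul_mul_assoc, smul_mul_assoc, one_mul]
          _ = α • A ^ 2 + β • A := by rw [pow_two]
      have h3e : ∀ i j, (A ^ 3) i j = α * (A ^ 2) i j + β * A i j := by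
        intro i j
        have h := congrFun (congrFun h3 i) j
        rw [Matrix.add_apply, Matrix.smul_apply, Matrix.smul_apply, smul_eq_mul, smul_eq_mul] at h
        exact h
      have hQ : ∀ i j, (α ^ 2 + β) * A i j
          = (c - α * β) * (1 : Matrix (Fin 3) (Fin 3) F) i j := by
        intro i j
        linear_combination (-1 : F) * h3e i j + hAce i j - α * hP i j
      by_cases hq : α ^ 2 + β = 0
      · have h := hQ 0 0
        rw [hq, zero_mul, hδ, mul_one] at h
        have hcα : c = -(α ^ 3) := by linear_combination (-1 : F) * h + α * hq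
        by_cases hα0 : α = 0
        · rw [hcα, hα0] at hc3
          simp at hc3
        · apply hc1
          rw [hcα, cube_eq_one_of_card hF α hα0]
          linear_combination (-1 : F) * h2
      · apply hns ((α ^ 2 + β)⁻¹ * (c - α * β))
        ext i j
        rw [Matrix.smul_apply, smul_eq_mul, mul_assoc, ← hQ i j, ← mul_assoc, inv_mul_cancel₀ hq,
          one_mul]
  subst hc1
  rw [one_smul] at hAc
  have h0 : t • A ^ 2 + s • A = 0 := by
    have h := hCH
    rw [hAc] at h
    have h' : (0 : Matrix (Fin 3) (Fin 3) F) + 1 = (t • A ^ 2 + s • A) + 1 := by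
      rw [zero_add]; exact h
    exact (add_right_cancel h').symm
  have h1 : (t • A + s • (1 : Matrix (Fin 3) (Fin 3) F)) * A = 0 := by
    rw [add_mul, smul_mul_assoc, smul_mul_assoc, one_mul, ← pow_two]; exact h0
  have h2' : t • A + s • (1 : Matrix (Fin 3) (Fin 3) F) = 0 := by
    calc t • A + s • (1 : Matrix (Fin 3) (Fin 3) F)
        = (t • A + s • (1 : Matrix (Fin 3) (Fin 3) F)) * A ^ 3 := by rw [hAc, mul_one]
      _ = (t • A + s • (1 : Matrix (Fin 3) (Fin 3) F)) * A * A ^ 2 := by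
        rw [mul_assoc]; congr 1; exact pow_succ' A 2
      _ = 0 := by rw [h1, zero_mul]
  have h2e : ∀ i j, t * A i j + s * (1 : Matrix (Fin 3) (Fin 3) F) i j = 0 := by
    intro i j
    have h := congrFun (congrFun h2' i) j
    rw [Matrix.add_apply, Matrix.smul_apply, Matrix.smul_apply, smul_eq_mul, smul_eq_mul] at h
    exact h
  have ht : t = 0 := by
    by_contra ht
    apply hns (-(t⁻¹ * s))
    ext i j
    rw [Matrix.smul_apply, smul_eq_mul]
    apply mul_left_cancel₀ ht
    linear_combination h2e i j +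
      (s * (1 : Matrix (Fin 3) (Fin 3) F) i j) * (mul_inv_cancel₀ ht)
  have hs : s = 0 := by
    have h := h2e 0 0
    rw [ht, zero_mul, zero_add, hδ, mul_one] at h
    exact h
  have heig : ∀ lam : F, lam ^ 3 = 1 → ∃ v : Fin 3 → F, v ≠ 0 ∧ A.mulVec v = lam • v := by
    intro lam hlam
    have hd : (Matrix.scalar (Fin 3) lam - A).det = 0 := by
      rw [hev, ht, hs, hlam]
      linear_combination h2
    obtain ⟨v, hv0, hv⟩ := Matrix.exists_mulVec_eq_zero_iff.2 hd
    refine ⟨v, hv0, ?_⟩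
    rw [Matrix.sub_mulVec] at hv
    have h' := sub_eq_zero.1 hv
    rw [← h']
    ext i
    rw [Matrix.scalar_apply, Matrix.mulVec_diagonal, Pi.smul_apply, smul_eq_mul]
  have hω3 : ω ^ 3 = 1 := omega_cube ω hω
  obtain ⟨v₁, hv₁0, hv₁⟩ := heig 1 (one_pow 3)
  obtain ⟨v₂, hv₂0, hv₂⟩ := heig ω hω3
  obtain ⟨v₃, hv₃0, hv₃⟩ := heig (ω ^ 2) (by linear_combination (ω ^ 3 + 1) * hω3)
  have hω1 : ω ≠ 1 := by
    intro h
    have : (1 : F) = 0 := by linear_combination hω - (ω + 2) * h - h2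
    exact one_ne_zero this
  have hω21 : ω ^ 2 ≠ 1 := by
    intro h
    have : (1 : F) = 0 := by linear_combination ω * hω - (1 + ω) * h - ω * h2
    exact one_ne_zero this
  have hωω2 : ω ≠ ω ^ 2 := by
    intro h
    have h0 : ω * (ω - 1) = 0 := by linear_combination (-1 : F) * h
    rcases mul_eq_zero.1 h0 with h' | h'
    · rw [h'] at hω
      simp at hω
    · exact hω1 (sub_eq_zero.1 h')
  have hcol : ∀ j : Fin 3,
      A.mulVec (![v₁, v₂, v₃] j) = (![1, ω, ω ^ 2] j) • (![v₁, v₂, v₃] j) := by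
    intro j
    fin_cases j
    · exact hv₁
    · exact hv₂
    · exact hv₃
  have hne : ∀ j : Fin 3, (![v₁, v₂, v₃] j) ≠ 0 := by
    intro j
    fin_cases j
    · exact hv₁0
    · exact hv₂0
    · exact hv₃0
  have hinj : Function.Injective (![1, ω, ω ^ 2] : Fin 3 → F) := by
    intro i j hij
    fin_cases i <;> fin_cases j <;> first
      | rfl
      | exact absurd hij.symm hω1
      | exact absurd hij hω1
      | exact absurd hij.symm hω21
      | exact absurd hij hω21
      | exact absurd hij hωω2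
      | exact absurd hij.symm hωω2
  have hli : LinearIndependent F (![v₁, v₂, v₃] : Fin 3 → Fin 3 → F) :=
    Module.End.eigenvectors_linearIndependent' (Matrix.toLin' A) ![1, ω, ω ^ 2] hinj
      ![v₁, v₂, v₃]
      (fun j => Module.End.hasEigenvector_iff.2
        ⟨Module.End.mem_eigenspace_iff.2 (by rw [Matrix.toLin'_apply]; exact hcol j), hne j⟩)
  obtain ⟨P, hPdef⟩ : ∃ P : Matrix (Fin 3) (Fin 3) F,
      P = Matrix.of (fun i j => ![v₁, v₂, v₃] j i) := ⟨_, rfl⟩
  have hPunit : IsUnit P := by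
    rw [← Matrix.linearIndependent_cols_iff_isUnit]
    have hc : P.col = ![v₁, v₂, v₃] := by rw [hPdef]; rfl
    rw [hc]; exact hli
  have hPdet : P.det ≠ 0 := ((Matrix.isUnit_iff_isUnit_det P).1 hPunit).ne_zero
  have hAP : A * P = P * Matrix.diagonal ![1, ω, ω ^ 2] := by
    ext i j
    rw [Matrix.mul_diagonal, hPdef]
    show (A.mulVec (![v₁, v₂, v₃] j)) i = ![v₁, v₂, v₃] j i * ![1, ω, ω ^ 2] j
    rw [hcol j, Pi.smul_apply, smul_eq_mul, mul_comm]
  obtain ⟨Δ, hΔ⟩ : ∃ Δ : Matrix (Fin 3) (Fin 3) F,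
      Δ = Matrix.diagonal ![(P.det)⁻¹, 1, 1] := ⟨_, rfl⟩
  have hdetP' : (P * Δ).det = 1 := by
    rw [Matrix.det_mul, hΔ, Matrix.det_diagonal, Fin.prod_univ_three]
    show P.det * ((P.det)⁻¹ * 1 * 1) = 1
    rw [mul_one, mul_one, mul_inv_cancel₀ hPdet]
  have hcomm : Matrix.diagonal ![1, ω, ω ^ 2] * Δ = Δ * Matrix.diagonal ![1, ω, ω ^ 2] := by
    rw [hΔ, Matrix.diagonal_mul_diagonal, Matrix.diagonal_mul_diagonal]
    congr 1
    ext i
    exact mul_comm _ _
  refine ⟨⟨P * Δ, hdetP'⟩, Subtype.ext ?_⟩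
  show (a : Matrix (Fin 3) (Fin 3) F) * (P * Δ) = P * Δ * dM ω
  rw [← hA, ← mul_assoc, hAP, mul_assoc, dM, hcomm, mul_assoc]

/-- PSL_3(4) has a single conjugacy class of subgroups of order 3. -/
theorem result (F : Type*) [Field F] [Fintype F] (hF : Fintype.card F = 4) (X Y : Subgroup (Matrix.ProjectiveSpecialLinearGroup (Fin 3) F)) (hX : Nat.card ↥X = 3) (hY : Nat.card ↥Y = 3) : ∃ g : Matrix.ProjectiveSpecialLinearGroup (Fin 3) F, MulAut.conj g • X = Y := by
  obtain ⟨ω, hω⟩ : ∃ ω : F, ω ^ 2 + ω + 1 = 0 := by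
    refine ⟨(toF4 hF).symm F4.w, ?_⟩
    have h : F4.w ^ 2 + F4.w + 1 = 0 := by decide
    have h' := congrArg (toF4 hF).symm h
    simpa using h'
  have key : ∀ z : Matrix.ProjectiveSpecialLinearGroup (Fin 3) F, orderOf z = 3 →
      IsConj z ((dS ω hω : Matrix.SpecialLinearGroup (Fin 3) F) :
        Matrix.ProjectiveSpecialLinearGroup (Fin 3) F) := by
    intro z hz
    obtain ⟨a, rfl⟩ := QuotientGroup.mk_surjective z
    have hz3 : (a : Matrix.ProjectiveSpecialLinearGroup (Fin 3) F) ^ 3 = 1 := by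
      have h := pow_orderOf_eq_one (a : Matrix.ProjectiveSpecialLinearGroup (Fin 3) F)
      rw [hz] at h
      exact h
    have hz1 : (a : Matrix.ProjectiveSpecialLinearGroup (Fin 3) F) ≠ 1 := by
      intro h
      rw [h, orderOf_one] at hz
      norm_num at hz
    have ha3 : a ^ 3 ∈ Subgroup.center (Matrix.SpecialLinearGroup (Fin 3) F) :=
      (QuotientGroup.eq_one_iff _).1 (by rw [QuotientGroup.mk_pow]; exact hz3)
    obtain ⟨c, hc3, hc⟩ := Matrix.SpecialLinearGroup.mem_center_iff.1 ha3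
    have hc3' : c ^ 3 = 1 := by simpa using hc3
    have hAc : (a : Matrix (Fin 3) (Fin 3) F) ^ 3 = c • 1 := by
      rw [← Matrix.SpecialLinearGroup.coe_pow, ← hc, Matrix.scalar_apply,
        Matrix.smul_one_eq_diagonal]
    have hns : ∀ k : F, (a : Matrix (Fin 3) (Fin 3) F) ≠ k • 1 := by
      intro k hk
      exact hz1 ((QuotientGroup.eq_one_iff _).2 (scalar_central a k hk))
    obtain ⟨p, hp⟩ := cube_conj hF ω hω a c hc3' hAc hns
    rw [isConj_iff]
    refine ⟨((p⁻¹ : Matrix.SpecialLinearGroup (Fin 3) F) :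
      Matrix.ProjectiveSpecialLinearGroup (Fin 3) F), ?_⟩
    rw [← QuotientGroup.mk_inv, inv_inv, ← QuotientGroup.mk_mul, ← QuotientGroup.mk_mul,
      mul_assoc, hp, inv_mul_cancel_left]
  have hsub : ∀ (X : Subgroup (Matrix.ProjectiveSpecialLinearGroup (Fin 3) F)),
      Nat.card ↥X = 3 → ∃ x, orderOf x = 3 ∧ Subgroup.zpowers x = X := by
    intro X hX
    haveI : Finite ↥X := Nat.finite_of_card_ne_zero (by rw [hX]; norm_num)
    have hXbot : X ≠ ⊥ := by
      intro h
      rw [h, Subgroup.card_bot] at hX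
      norm_num at hX
    obtain ⟨x, hxX, hx1⟩ : ∃ x ∈ X, x ≠ 1 := by
      by_contra hcon
      push_neg at hcon
      exact hXbot ((Subgroup.eq_bot_iff_forall X).2 hcon)
    have hdvd : orderOf x ∣ 3 := by
      have h := orderOf_dvd_natCard (⟨x, hxX⟩ : ↥X)
      rw [Subgroup.orderOf_mk, hX] at h
      exact h
    have hox : orderOf x = 3 := by
      rcases (Nat.dvd_prime Nat.prime_three).1 hdvd with h | h
      · exact absurd (orderOf_eq_one_iff.1 h) hx1
      · exact h
    refine ⟨x, hox, ?_⟩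
    exact Subgroup.eq_of_le_of_card_ge (Subgroup.zpowers_le.2 hxX)
      (by rw [hX, Nat.card_zpowers, hox])
  obtain ⟨x, hx, rfl⟩ := hsub X hX
  obtain ⟨y, hy, rfl⟩ := hsub Y hY
  obtain ⟨g, hg⟩ := isConj_iff.1 ((key x hx).trans (key y hy).symm)
  refine ⟨g, ?_⟩
  have e : (Subgroup.zpowers x).map (MulAut.conj g).toMonoidHom =
      Subgroup.zpowers (g * x * g⁻¹) := by
    rw [MonoidHom.map_zpowers]; rfl
  rw [← hg]
  exact e

end Cfsg.Agent.S2739
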