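-- Statement S2760: characteristic 2 is inherited by (sub)normal subgroups.
import Cfsg.Statements.S2760
import Cfsg.Agent.Helper14.Basic
import Cfsg.Agent.Helper14.Coprime

set_option autoImplicit false
open Cfsg

namespace Cfsg.Agent.S2760

open Cfsg.Agent.Helper14

theorem centralizer_normal {L : Type*} [Group L] (V : Subgroup L) (hV : V.Normal) :
    (Subgroup.centralizer (V : Set L)).Normal := by
  constructor
  intro c hc h
  rw [Subgroup.mem_centralizer_iff] at hc ⊢
  intro d hd
  have hd' : h⁻¹ * d * h ∈ V := by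
    have := hV.conj_mem d hd h⁻¹
    rwa [inv_inv] at this
  have := hc _ hd'
  calc d * (h * c * h⁻¹) = h * (h⁻¹ * d * h * c) * h⁻¹ := by group
    _ = h * (c * (h⁻¹ * d * h)) * h⁻¹ := by rw [this]
    _ = h * c * h⁻¹ * d := by group

theorem char_inherit {G : Type*} [Group G] [Finite G] {p : ℕ} [Fact p.Prime]
    (hchar : Subgroup.centralizer (pCore p G : Set G) ≤ pCore p G) (H N : Subgroup G)
    (hN : N.Normal) (hNH : N ≤ H)
    (hodd : ∀ x ∈ H, ∀ m : ℕ, m.Coprime p → x ^ m = 1 → x ∈ N) :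
    Subgroup.centralizer (pCore p ↥H : Set ↥H) ≤ pCore p ↥H := by
  have hQn : (pCore p G).Normal := pCore_normal p G
  have hQp : IsPGroup p (pCore p G) := pCore_isPGroup p G
  have hQHn : (pCore p ↥H).Normal := pCore_normal p ↥H
  have hD : (N ⊓ pCore p G).subgroupOf H ≤ pCore p ↥H := by
    have hDn : (N ⊓ pCore p G).Normal := inferInstance
    apply le_pCore
    · infer_instance
    · exact (hQp.to_le inf_le_right).comap_of_injective H.subtype Subtype.coe_injective
  have hCn : (Subgroup.centralizer (pCore p ↥H : Set ↥H)).Normal :=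
    centralizer_normal _ hQHn
  have hCp : IsPGroup p (Subgroup.centralizer (pCore p ↥H : Set ↥H)) := by
    apply isPGroup_of_coprime_trivial
    intro x hx m hm hxm
    have hxmG : (x : G) ^ m = 1 := by
      have := congrArg Subtype.val hxm
      simpa using this
    have hxN : (x : G) ∈ N := hodd _ x.2 m hm hxmG
    have hcent : (x : G) ∈ Subgroup.centralizer (pCore p G : Set G) := by
      rw [Subgroup.mem_centralizer_iff]
      intro r hr
      have hw1 : r * (x : G) * r⁻¹ * (x : G)⁻¹ ∈ pCore p G := by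
        have h1 : (x : G) * r⁻¹ * (x : G)⁻¹ ∈ pCore p G := hQn.conj_mem _ (inv_mem hr) _
        have : r * (x : G) * r⁻¹ * (x : G)⁻¹ = r * ((x : G) * r⁻¹ * (x : G)⁻¹) := by group
        rw [this]
        exact mul_mem hr h1
      have hw2 : r * (x : G) * r⁻¹ * (x : G)⁻¹ ∈ N :=
        N.mul_mem (hN.conj_mem _ hxN r) (N.inv_mem hxN)
      have hwH : r * (x : G) * r⁻¹ * (x : G)⁻¹ ∈ H := hNH hw2
      have hwD : (⟨_, hwH⟩ : ↥H) ∈ pCore p ↥H :=
        hD (Subgroup.mem_subgroupOf.mpr ⟨hw2, hw1⟩)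
      have hcomm := (Subgroup.mem_centralizer_iff.mp hx) _ hwD
      have hcommG : (r * (x : G) * r⁻¹ * (x : G)⁻¹) * (x : G) =
          (x : G) * (r * (x : G) * r⁻¹ * (x : G)⁻¹) := congrArg Subtype.val hcomm
      exact commute_of_coprime_of_comm_central (pCore p G) hQp (x : G) m hm hxmG r hr hw1 hcommG
    have hxQ : (x : G) ∈ pCore p G := hchar hcent
    obtain ⟨k, hk⟩ := hQp ⟨_, hxQ⟩
    have hk' : (x : G) ^ p ^ k = 1 := by
      have := congrArg Subtype.val hk
      simpa using this
    have := eq_one_of_pow_coprime (x : G) m k hm hxmG hk'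
    exact Subtype.ext this
  exact le_pCore hCn hCp

/-- Let G be a finite group with C_G(O₂(G)) ≤ O₂(G) and H a subgroup of G such that H is normal in G, or the subgroup O²(H) generated by the elements of H of odd order is normal in G. Then C_H(O₂(H)) ≤ O₂(H). -/
theorem result {G : Type*} [Group G] [Finite G] (hchar : Subgroup.centralizer (Cfsg.pCore 2 G : Set G) ≤ Cfsg.pCore 2 G) (H : Subgroup G) (hH : H.Normal ∨ ((Cfsg.pResidual 2 ↥H).map H.subtype).Normal) : Subgroup.centralizer (Cfsg.pCore 2 ↥H : Set ↥H) ≤ Cfsg.pCore 2 ↥H := by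
  rcases hH with h | h
  · exact char_inherit hchar H H h le_rfl (fun x hx _ _ _ => hx)
  · refine char_inherit hchar H _ h (Subgroup.map_subtype_le _) ?_
    intro x hx m hm hxm
    refine ⟨⟨x, hx⟩, ?_, rfl⟩
    apply Subgroup.subset_closure
    show Nat.Coprime (orderOf (⟨x, hx⟩ : ↥H)) 2
    have h1 : (⟨x, hx⟩ : ↥H) ^ m = 1 := Subtype.ext hxm
    exact Nat.Coprime.coprime_dvd_left (orderOf_dvd_of_pow_eq_one h1) hm

end Cfsg.Agent.S2760
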