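import Cfsg.Statements.S2761
import Cfsg.Agent.Helper10.QdMat
import Cfsg.Agent.Helper2.SLCard

set_option autoImplicit false
open Cfsg

namespace Cfsg.Agent.S2761

open Cfsg.Agent.Helper10

def act (M : Matrix (Fin 3) (Fin 3) (ZMod 2)) (v : Fin 2 → ZMod 2) : Fin 2 → ZMod 2 :=
  ![M 0 0 * v 0 + M 0 1 * v 1 + M 0 2, M 1 0 * v 0 + M 1 1 * v 1 + M 1 2]

theorem act_one (v : Fin 2 → ZMod 2) : act 1 v = v := by
  ext i
  fin_cases i <;> simp [act]

theorem act_mul (M N : Matrix (Fin 3) (Fin 3) (ZMod 2)) (h0 : N 2 0 = 0) (h1 : N 2 1 = 0)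
    (h2 : N 2 2 = 1) (v : Fin 2 → ZMod 2) : act (M * N) v = act M (act N v) := by
  ext i
  fin_cases i <;> simp [act, Matrix.mul_apply, Fin.sum_univ_three, h0, h1, h2] <;> ring

def actEnd : ↥(Cfsg.qd 2) →* Function.End (Fin 2 → ZMod 2) where
  toFun M := act (M.1 : Matrix (Fin 3) (Fin 3) (ZMod 2))
  map_one' := by
    funext v
    exact act_one v
  map_mul' := by
    intro M N
    funext v
    have hN := (mem_qd_iff N.1).mp N.2
    exact act_mul _ _ hN.1 hN.2.1 hN.2.2 v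

theorem rho_inj : Function.Injective (actEnd.toHomPerm) := by
  rw [injective_iff_map_eq_one]
  intro M hM
  have h : ∀ v : Fin 2 → ZMod 2, act (M.1 : Matrix (Fin 3) (Fin 3) (ZMod 2)) v = v := by
    intro v
    have h1 := congrArg (fun σ : Equiv.Perm (Fin 2 → ZMod 2) => σ v) hM
    exact h1
  obtain ⟨h0, h1, h2⟩ := (mem_qd_iff M.1).mp M.2
  have a00 : (M.1 : Matrix (Fin 3) (Fin 3) (ZMod 2)) 0 2 = 0 := by
    simpa [act] using congrFun (h ![0, 0]) 0
  have a01 : (M.1 : Matrix (Fin 3) (Fin 3) (ZMod 2)) 1 2 = 0 := by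
    simpa [act] using congrFun (h ![0, 0]) 1
  have b00 : (M.1 : Matrix (Fin 3) (Fin 3) (ZMod 2)) 0 0 = 1 := by
    simpa [act, a00] using congrFun (h ![1, 0]) 0
  have b01 : (M.1 : Matrix (Fin 3) (Fin 3) (ZMod 2)) 1 0 = 0 := by
    simpa [act, a01] using congrFun (h ![1, 0]) 1
  have c00 : (M.1 : Matrix (Fin 3) (Fin 3) (ZMod 2)) 0 1 = 0 := by
    simpa [act, a00] using congrFun (h ![0, 1]) 0
  have c01 : (M.1 : Matrix (Fin 3) (Fin 3) (ZMod 2)) 1 1 = 1 := by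
    simpa [act, a01] using congrFun (h ![0, 1]) 1
  apply Subtype.ext
  apply Subtype.ext
  ext i j
  fin_cases i <;> fin_cases j <;> simp [a00, a01, b00, b01, c00, c01, h0, h1, h2]

theorem card_SL2 : Nat.card (Matrix.SpecialLinearGroup (Fin 2) (ZMod 2)) = 6 := by
  have h1 := Cfsg.Agent.Helper2.SLCard.card_SL_mul (ZMod 2) 2 (by norm_num)
  rw [ZMod.card, Matrix.card_GL_field (n := 2) (𝔽 := ZMod 2), ZMod.card, Fin.prod_univ_two] at h1
  have h2 : (2 ^ 2 - 2 ^ ((0 : Fin 2) : ℕ)) * (2 ^ 2 - 2 ^ ((1 : Fin 2) : ℕ)) = 6 := rfl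
  have h3 : Nat.card (Matrix.SpecialLinearGroup (Fin 2) (ZMod 2)) * (2 - 1) = 6 := h1.trans h2
  omega

theorem card_qd2 : Nat.card ↥(Cfsg.qd 2) = 6 * 2 ^ 2 := by
  have hbij : Function.Bijective
      (fun x : Matrix.SpecialLinearGroup (Fin 2) (ZMod 2) × (Fin 2 → ZMod 2) =>
        (⟨affSL x.1 x.2, affSL_mem_qd x.1 x.2⟩ : ↥(Cfsg.qd 2))) := by
    constructor
    · rintro ⟨A, t⟩ ⟨B, s⟩ h
      have h' : affSL A t = affSL B s := congrArg Subtype.val h
      obtain ⟨h1, h2⟩ := affSL_injective h'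
      rw [h1, h2]
    · rintro ⟨M, hM⟩
      obtain ⟨A, t, rfl⟩ := exists_affSL_of_mem_qd hM
      exact ⟨⟨A, t⟩, rfl⟩
  rw [← Nat.card_congr (Equiv.ofBijective _ hbij), Nat.card_prod, card_SL2, Nat.card_fun,
    Nat.card_zmod, Nat.card_fin]

/-- The group Qd(2), the natural semidirect product of an elementary abelian group of order 4 by SL₂(2) (realised as the affine subgroup of SL₃(2)), is isomorphic to the symmetric group of degree 4. -/
theorem result : Nonempty (↥(Cfsg.qd 2) ≃* Equiv.Perm (Fin 4)) := by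
  have hPcard : Nat.card (Equiv.Perm (Fin 2 → ZMod 2)) = (2 ^ 2).factorial := by
    rw [Nat.card_perm, Nat.card_fun, Nat.card_zmod, Nat.card_fin]
  have hnum : (2 ^ 2).factorial ≤ 6 * 2 ^ 2 := by decide
  have hle : Nat.card (Equiv.Perm (Fin 2 → ZMod 2)) ≤ Nat.card ↥(Cfsg.qd 2) := by
    rw [hPcard, card_qd2]; exact hnum
  have hbij : Function.Bijective actEnd.toHomPerm := rho_inj.bijective_of_nat_card_le hle
  have hnum2 : 2 ^ 2 = 4 := by decide
  have hX : Nat.card (Fin 2 → ZMod 2) = 4 := by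
    rw [Nat.card_fun, Nat.card_zmod, Nat.card_fin]; exact hnum2
  exact ⟨(MulEquiv.ofBijective _ hbij).trans (Equiv.permCongrHom (Finite.equivFinOfCardEq hX))⟩

end Cfsg.Agent.S2761
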