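import Mathlib
import Cfsg.Statements.S2762
import Cfsg.Agent.Helper19.NatSL2

set_option autoImplicit false

open Cfsg

namespace Cfsg.Agent.S2762

open Cfsg.Agent.Helper19.NatSL2

section aux

variable {F : Type*} [Field F]

theorem mul3 (M N : Matrix.SpecialLinearGroup (Fin 3) F) (i j : Fin 3) :
    (M * N).1 i j = M.1 i 0 * N.1 0 j + M.1 i 1 * N.1 1 j + M.1 i 2 * N.1 2 j := by
  rw [Matrix.SpecialLinearGroup.coe_mul, Matrix.mul_apply, Fin.sum_univ_three]

theorem one3 (i j : Fin 3) :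
    (1 : Matrix.SpecialLinearGroup (Fin 3) F).1 i j = if i = j then 1 else 0 := by
  rw [Matrix.SpecialLinearGroup.coe_one, Matrix.one_apply]

theorem det_block (M : Matrix.SpecialLinearGroup (Fin 3) F) (h0 : M.1 2 0 = 0) (h1 : M.1 2 1 = 0)
    (h2 : M.1 2 2 = 1) : M.1 0 0 * M.1 1 1 - M.1 0 1 * M.1 1 0 = 1 := by
  have := M.det_coe
  rw [Matrix.det_fin_three, h0, h1, h2] at this
  linear_combination this

theorem inv_row (M : Matrix.SpecialLinearGroup (Fin 3) F) (h0 : M.1 2 0 = 0) (h1 : M.1 2 1 = 0)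
    (h2 : M.1 2 2 = 1) : (M⁻¹).1 2 0 = 0 ∧ (M⁻¹).1 2 1 = 0 ∧ (M⁻¹).1 2 2 = 1 := by
  have hD := det_block M h0 h1 h2
  have e0 : (M⁻¹).1 2 0 * M.1 0 0 + (M⁻¹).1 2 1 * M.1 1 0 + (M⁻¹).1 2 2 * M.1 2 0 = 0 := by
    rw [← mul3, inv_mul_cancel, one3, if_neg (by decide)]
  have e1 : (M⁻¹).1 2 0 * M.1 0 1 + (M⁻¹).1 2 1 * M.1 1 1 + (M⁻¹).1 2 2 * M.1 2 1 = 0 := by
    rw [← mul3, inv_mul_cancel, one3, if_neg (by decide)]
  have e2 : (M⁻¹).1 2 0 * M.1 0 2 + (M⁻¹).1 2 1 * M.1 1 2 + (M⁻¹).1 2 2 * M.1 2 2 = 1 := by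
    rw [← mul3, inv_mul_cancel, one3, if_pos rfl]
  rw [h0] at e0
  rw [h1] at e1
  rw [h2] at e2
  have ha : (M⁻¹).1 2 0 = 0 := by
    linear_combination M.1 1 1 * e0 - M.1 1 0 * e1 - (M⁻¹).1 2 0 * hD
  have hb : (M⁻¹).1 2 1 = 0 := by
    linear_combination (-(M.1 0 1)) * e0 + M.1 0 0 * e1 - (M⁻¹).1 2 1 * hD
  refine ⟨ha, hb, ?_⟩
  rw [ha, hb] at e2
  linear_combination e2

theorem inv_col (M : Matrix.SpecialLinearGroup (Fin 3) F) (h0 : M.1 2 0 = 0) (h1 : M.1 2 1 = 0)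
    (h2 : M.1 2 2 = 1) (h02 : M.1 0 2 = 0) (h12 : M.1 1 2 = 0) :
    (M⁻¹).1 0 2 = 0 ∧ (M⁻¹).1 1 2 = 0 := by
  have hD := det_block M h0 h1 h2
  have f0 : M.1 0 0 * (M⁻¹).1 0 2 + M.1 0 1 * (M⁻¹).1 1 2 + M.1 0 2 * (M⁻¹).1 2 2 = 0 := by
    rw [← mul3, mul_inv_cancel, one3, if_neg (by decide)]
  have f1 : M.1 1 0 * (M⁻¹).1 0 2 + M.1 1 1 * (M⁻¹).1 1 2 + M.1 1 2 * (M⁻¹).1 2 2 = 0 := by
    rw [← mul3, mul_inv_cancel, one3, if_neg (by decide)]
  rw [h02] at f0
  rw [h12] at f1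
  refine ⟨?_, ?_⟩
  · linear_combination M.1 1 1 * f0 - M.1 0 1 * f1 - (M⁻¹).1 0 2 * hD
  · linear_combination (-(M.1 1 0)) * f0 + M.1 0 0 * f1 - (M⁻¹).1 1 2 * hD

theorem mem_qd (M : Matrix.SpecialLinearGroup (Fin 3) F) :
    M ∈ Cfsg.qdOver F ↔ M.1 2 0 = 0 ∧ M.1 2 1 = 0 ∧ M.1 2 2 = 1 := by
  constructor
  · intro h
    unfold Cfsg.qdOver at h
    induction h using Subgroup.closure_induction with
    | mem x hx => exact hx
    | one =>
      exact ⟨by rw [one3, if_neg (by decide)], by rw [one3, if_neg (by decide)],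
        by rw [one3, if_pos rfl]⟩
    | mul x y _ _ hx hy =>
      obtain ⟨x0, x1, x2⟩ := hx
      obtain ⟨y0, y1, y2⟩ := hy
      refine ⟨?_, ?_, ?_⟩
      · rw [mul3, x0, x1, x2, y0]; ring
      · rw [mul3, x0, x1, x2, y1]; ring
      · rw [mul3, x0, x1, x2, y2]; ring
    | inv x _ hx => exact inv_row x hx.1 hx.2.1 hx.2.2
  · intro h
    exact Subgroup.subset_closure h

theorem mem_qd' (M : ↥(Cfsg.qdOver F)) : M.1.1 2 0 = 0 ∧ M.1.1 2 1 = 0 ∧ M.1.1 2 2 = 1 :=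
  (mem_qd M.1).mp M.2

theorem sl3_ext (M N : Matrix.SpecialLinearGroup (Fin 3) F)
    (h00 : M.1 0 0 = N.1 0 0) (h01 : M.1 0 1 = N.1 0 1) (h02 : M.1 0 2 = N.1 0 2)
    (h10 : M.1 1 0 = N.1 1 0) (h11 : M.1 1 1 = N.1 1 1) (h12 : M.1 1 2 = N.1 1 2)
    (h20 : M.1 2 0 = N.1 2 0) (h21 : M.1 2 1 = N.1 2 1) (h22 : M.1 2 2 = N.1 2 2) : M = N := by
  apply Subtype.ext
  ext i j
  fin_cases i <;> fin_cases j
  · exact h00
  · exact h01
  · exact h02
  · exact h10
  · exact h11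
  · exact h12
  · exact h20
  · exact h21
  · exact h22

/-- translations -/
def tr (x y : F) : Matrix.SpecialLinearGroup (Fin 3) F :=
  ⟨!![1, 0, x; 0, 1, y; 0, 0, 1], by rw [Matrix.det_fin_three]; simp⟩

/-- block-diagonal elements -/
def blk (a b c d : F) (h : a * d - b * c = 1) : Matrix.SpecialLinearGroup (Fin 3) F :=
  ⟨!![a, b, 0; c, d, 0; 0, 0, 1], by rw [Matrix.det_fin_three]; simp; linear_combination h⟩

theorem tr_mem (x y : F) : tr x y ∈ Cfsg.qdOver F := (mem_qd _).mpr ⟨rfl, rfl, rfl⟩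

theorem blk_mem (a b c d : F) (h : a * d - b * c = 1) : blk a b c d h ∈ Cfsg.qdOver F :=
  (mem_qd _).mpr ⟨rfl, rfl, rfl⟩

/-- the projection onto the upper-left block -/
def proj : ↥(Cfsg.qdOver F) →* Matrix.SpecialLinearGroup (Fin 2) F where
  toFun M := mk2 (M.1.1 0 0) (M.1.1 0 1) (M.1.1 1 0) (M.1.1 1 1)
    (det_block M.1 (mem_qd' M).1 (mem_qd' M).2.1 (mem_qd' M).2.2)
  map_one' := by
    rw [mk2_one]
    apply mk2_congr
    · show (1 : Matrix.SpecialLinearGroup (Fin 3) F).1 0 0 = 1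
      rw [one3, if_pos rfl]
    · show (1 : Matrix.SpecialLinearGroup (Fin 3) F).1 0 1 = 0
      rw [one3, if_neg (by decide)]
    · show (1 : Matrix.SpecialLinearGroup (Fin 3) F).1 1 0 = 0
      rw [one3, if_neg (by decide)]
    · show (1 : Matrix.SpecialLinearGroup (Fin 3) F).1 1 1 = 1
      rw [one3, if_pos rfl]
  map_mul' M N := by
    obtain ⟨n0, n1, n2⟩ := mem_qd' N
    rw [mk2_mul]
    apply mk2_congr
    · show (M.1 * N.1).1 0 0 = _
      rw [mul3, n0]; ring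
    · show (M.1 * N.1).1 0 1 = _
      rw [mul3, n1]; ring
    · show (M.1 * N.1).1 1 0 = _
      rw [mul3, n0]; ring
    · show (M.1 * N.1).1 1 1 = _
      rw [mul3, n1]; ring

theorem proj_apply (M : ↥(Cfsg.qdOver F)) :
    proj M = mk2 (M.1.1 0 0) (M.1.1 0 1) (M.1.1 1 0) (M.1.1 1 1)
      (det_block M.1 (mem_qd' M).1 (mem_qd' M).2.1 (mem_qd' M).2.2) := rfl

theorem mem_ker (M : ↥(Cfsg.qdOver F)) :
    M ∈ (proj (F := F)).ker ↔
      M.1.1 0 0 = 1 ∧ M.1.1 0 1 = 0 ∧ M.1.1 1 0 = 0 ∧ M.1.1 1 1 = 1 := by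
  rw [MonoidHom.mem_ker, proj_apply]
  constructor
  · intro h
    exact mk2_inj (h.trans mk2_one)
  · rintro ⟨h0, h1, h2, h3⟩
    rw [mk2_one]
    exact mk2_congr h0 h1 h2 h3

theorem proj_surj : Function.Surjective (proj (F := F)) := by
  intro A
  obtain ⟨a, b, c, d, h, rfl⟩ := mk2_eta A
  refine ⟨⟨blk a b c d h, blk_mem a b c d h⟩, ?_⟩
  rw [proj_apply]
  exact mk2_congr rfl rfl rfl rfl

/-- the complement -/
def Ksub : Subgroup ↥(Cfsg.qdOver F) where
  carrier := {M | M.1.1 0 2 = 0 ∧ M.1.1 1 2 = 0}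
  one_mem' := by
    refine ⟨?_, ?_⟩
    · show (1 : Matrix.SpecialLinearGroup (Fin 3) F).1 0 2 = 0
      rw [one3, if_neg (by decide)]
    · show (1 : Matrix.SpecialLinearGroup (Fin 3) F).1 1 2 = 0
      rw [one3, if_neg (by decide)]
  mul_mem' := by
    rintro M N ⟨m0, m1⟩ ⟨n0, n1⟩
    refine ⟨?_, ?_⟩
    · show (M.1 * N.1).1 0 2 = 0
      rw [mul3, n0, n1, m0]; ring
    · show (M.1 * N.1).1 1 2 = 0
      rw [mul3, n0, n1, m1]; ring
  inv_mem' := by
    rintro M ⟨m0, m1⟩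
    obtain ⟨q0, q1, q2⟩ := mem_qd' M
    exact inv_col M.1 q0 q1 q2 m0 m1

theorem mem_Ksub (M : ↥(Cfsg.qdOver F)) : M ∈ Ksub (F := F) ↔ M.1.1 0 2 = 0 ∧ M.1.1 1 2 = 0 :=
  Iff.rfl

theorem eq_one_of (M : ↥(Cfsg.qdOver F)) (hW : M ∈ (proj (F := F)).ker) (hK : M ∈ Ksub (F := F)) :
    M = 1 := by
  obtain ⟨w0, w1, w2, w3⟩ := (mem_ker M).mp hW
  obtain ⟨k0, k1⟩ := hK
  obtain ⟨q0, q1, q2⟩ := mem_qd' M
  apply Subtype.ext
  show M.1 = 1
  apply sl3_ext
  · rw [w0, one3, if_pos rfl]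
  · rw [w1, one3, if_neg (by decide)]
  · rw [k0, one3, if_neg (by decide)]
  · rw [w2, one3, if_neg (by decide)]
  · rw [w3, one3, if_pos rfl]
  · rw [k1, one3, if_neg (by decide)]
  · rw [q0, one3, if_neg (by decide)]
  · rw [q1, one3, if_neg (by decide)]
  · rw [q2, one3, if_pos rfl]

/-- the coordinate isomorphism on the translation group -/
def psi : Additive ↥(proj (F := F)).ker ≃+ (Fin 2 → F) where
  toFun M := ![(Additive.toMul M).1.1.1 0 2, (Additive.toMul M).1.1.1 1 2]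
  invFun v := Additive.ofMul ⟨⟨tr (v 0) (v 1), tr_mem _ _⟩, (mem_ker _).mpr ⟨rfl, rfl, rfl, rfl⟩⟩
  left_inv := by
    intro M
    obtain ⟨m, rfl⟩ : ∃ m : ↥(proj (F := F)).ker, Additive.ofMul m = M := ⟨Additive.toMul M, rfl⟩
    obtain ⟨w0, w1, w2, w3⟩ := (mem_ker m.1).mp m.2
    obtain ⟨q0, q1, q2⟩ := mem_qd' m.1
    show Additive.ofMul _ = Additive.ofMul m
    congr 1
    apply Subtype.ext
    apply Subtype.ext
    show tr (m.1.1.1 0 2) (m.1.1.1 1 2) = m.1.1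
    apply sl3_ext
    · exact w0.symm
    · exact w1.symm
    · rfl
    · exact w2.symm
    · exact w3.symm
    · rfl
    · exact q0.symm
    · exact q1.symm
    · exact q2.symm
  right_inv := by
    intro v
    funext i
    fin_cases i
    · rfl
    · rfl
  map_add' := by
    intro M N
    obtain ⟨m, rfl⟩ : ∃ m : ↥(proj (F := F)).ker, Additive.ofMul m = M := ⟨Additive.toMul M, rfl⟩
    obtain ⟨n, rfl⟩ : ∃ n : ↥(proj (F := F)).ker, Additive.ofMul n = N := ⟨Additive.toMul N, rfl⟩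
    obtain ⟨w0, w1, w2, w3⟩ := (mem_ker m.1).mp m.2
    obtain ⟨q0, q1, q2⟩ := mem_qd' n.1
    funext i
    fin_cases i
    · show (m.1.1 * n.1.1).1 0 2 = m.1.1.1 0 2 + n.1.1.1 0 2
      rw [mul3, w0, w1, q2]; ring
    · show (m.1.1 * n.1.1).1 1 2 = m.1.1.1 1 2 + n.1.1.1 1 2
      rw [mul3, w2, w3, q2]; ring

theorem psi_apply (m : ↥(proj (F := F)).ker) :
    psi (Additive.ofMul m) = ![m.1.1.1 0 2, m.1.1.1 1 2] := rfl

theorem exists_from_e (w : Fin 2 → F) (hw : w ≠ 0) :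
    ∃ g : Matrix.SpecialLinearGroup (Fin 2) F, act g ![1, 0] = w := by
  obtain ⟨b, d, hbd⟩ := exists_sl_col w hw
  refine ⟨mk2 (w 0) b (w 1) d hbd, ?_⟩
  funext i
  fin_cases i
  · show act _ _ 0 = w 0
    rw [act_apply0]
    show w 0 * 1 + b * 0 = w 0
    ring
  · show act _ _ 1 = w 1
    rw [act_apply1]
    show w 1 * 1 + d * 0 = w 1
    ring

theorem exists_map (w v : Fin 2 → F) (hw : w ≠ 0) (hv : v ≠ 0) :
    ∃ t : Matrix.SpecialLinearGroup (Fin 2) F, act t w = v := by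
  obtain ⟨gw, hgw⟩ := exists_from_e w hw
  obtain ⟨gv, hgv⟩ := exists_from_e v hv
  refine ⟨gv * gw⁻¹, ?_⟩
  have h1 : act gw⁻¹ w = ![1, 0] := by
    calc act gw⁻¹ w = act gw⁻¹ (act gw ![1, 0]) := by rw [hgw]
      _ = ![1, 0] := by rw [← act_mul, inv_mul_cancel, act_one]
  rw [act_mul, h1, hgv]

theorem normal_p_trivial [Fintype F] {p : ℕ} [Fact p.Prime] [CharP F p]
    (N : Subgroup (Matrix.SpecialLinearGroup (Fin 2) F)) (hN : N.Normal) (hp : IsPGroup p ↥N) :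
    N = ⊥ := by
  obtain ⟨n, -, hn⟩ := FiniteField.card F p
  obtain ⟨w, hw0, hwfix⟩ := exists_fixed_vec (n : ℕ) hn n.pos N hp
  have hall : ∀ v : Fin 2 → F, v ≠ 0 → ∀ g ∈ N, act g v = v := by
    intro v hv g hg
    obtain ⟨t, ht⟩ := exists_map w v hw0 hv
    have hmem : t⁻¹ * g * t ∈ N := by
      have := hN.conj_mem g hg t⁻¹
      rw [inv_inv] at this
      exact this
    have h3 := hwfix _ hmem
    calc act g v = act g (act t w) := by rw [ht]
      _ = act t (act (t⁻¹ * g * t) w) := by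
          rw [← act_mul, ← act_mul]
          congr 1
          group
      _ = v := by rw [h3, ht]
  rw [eq_bot_iff]
  intro g hg
  rw [Subgroup.mem_bot]
  have e1 := hall ![1, 0] (fun h => one_ne_zero (congrFun h 0)) g hg
  have e2 := hall ![0, 1] (fun h => one_ne_zero (congrFun h 1)) g hg
  have a00 : g.1 0 0 * 1 + g.1 0 1 * 0 = 1 := by
    have := congrFun e1 0
    rw [act_apply0] at this
    exact this
  have a10 : g.1 1 0 * 1 + g.1 1 1 * 0 = 0 := by
    have := congrFun e1 1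
    rw [act_apply1] at this
    exact this
  have a01 : g.1 0 0 * 0 + g.1 0 1 * 1 = 0 := by
    have := congrFun e2 0
    rw [act_apply0] at this
    exact this
  have a11 : g.1 1 0 * 0 + g.1 1 1 * 1 = 1 := by
    have := congrFun e2 1
    rw [act_apply1] at this
    exact this
  rw [mk2_one]
  apply sl_ext
  · show g.1 0 0 = 1
    linear_combination a00
  · show g.1 0 1 = 0
    linear_combination a01
  · show g.1 1 0 = 0
    linear_combination a10
  · show g.1 1 1 = 1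
    linear_combination a11

end aux


/-- Structure of Qd over a finite field F of characteristic p (the affine subgroup of SL₃(F)): its largest normal p-subgroup is the group of translations (matrices with upper-left block the identity), the block-diagonal matrices form a complement isomorphic to SL₂(F), and the translation subgroup is a natural SL₂(F)-module for that complement. -/
theorem result {F : Type*} [Field F] [Fintype F] {p : ℕ} [Fact p.Prime] [CharP F p] : (∀ M : ↥(Cfsg.qdOver F), M ∈ Cfsg.pCore p ↥(Cfsg.qdOver F) ↔ ((M : Matrix.SpecialLinearGroup (Fin 3) F) : Matrix (Fin 3) (Fin 3) F) 0 0 = 1 ∧ ((M : Matrix.SpecialLinearGroup (Fin 3) F) : Matrix (Fin 3) (Fin 3) F) 0 1 = 0 ∧ ((M : Matrix.SpecialLinearGroup (Fin 3) F) : Matrix (Fin 3) (Fin 3) F) 1 0 = 0 ∧ ((M : Matrix.SpecialLinearGroup (Fin 3) F) : Matrix (Fin 3) (Fin 3) F) 1 1 = 1) ∧ ∃ K : Subgroup ↥(Cfsg.qdOver F), (∀ M : ↥(Cfsg.qdOver F), M ∈ K ↔ ((M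 : Matrix.SpecialLinearGroup (Fin 3) F) : Matrix (Fin 3) (Fin 3) F) 0 2 = 0 ∧ ((M : Matrix.SpecialLinearGroup (Fin 3) F) : Matrix (Fin 3) (Fin 3) F) 1 2 = 0) ∧ K ⊓ Cfsg.pCore p ↥(Cfsg.qdOver F) = ⊥ ∧ K ⊔ Cfsg.pCore p ↥(Cfsg.qdOver F) = ⊤ ∧ Nonempty (↥K ≃* Matrix.SpecialLinearGroup (Fin 2) F) ∧ Cfsg.IsNaturalSL2Module F (Cfsg.pCore p ↥(Cfsg.qdOver F)) K := by
  classical
  have hWn : (proj (F := F)).ker.Normal := MonoidHom.normal_ker _
  have hWp : IsPGroup p ↥(proj (F := F)).ker := by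
    intro m
    refine ⟨1, ?_⟩
    rw [pow_one]
    have h1 : psi (Additive.ofMul (m ^ p)) = 0 := by
      rw [ofMul_pow, map_nsmul]
      funext i
      rw [Pi.smul_apply, nsmul_eq_mul, CharP.cast_eq_zero F p, zero_mul]
      rfl
    have h2 : psi (Additive.ofMul (m ^ p)) = psi (Additive.ofMul (1 : ↥(proj (F := F)).ker)) := by
      rw [h1]
      exact (map_zero psi).symm
    exact Additive.ofMul.injective (psi.injective h2)
  have hcore : Cfsg.pCore p ↥(Cfsg.qdOver F) = (proj (F := F)).ker := by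
    apply le_antisymm
    · apply sSup_le
      rintro N ⟨hNn, hNp⟩
      intro x hx
      rw [MonoidHom.mem_ker]
      have h1 : (N.map proj) = ⊥ :=
        normal_p_trivial _ (hNn.map proj proj_surj) (hNp.map proj)
      have h2 : proj x ∈ N.map proj := Subgroup.mem_map_of_mem proj hx
      rw [h1, Subgroup.mem_bot] at h2
      exact h2
    · exact le_sSup ⟨hWn, hWp⟩
  have hKinj : Function.Injective ((proj (F := F)).comp (Ksub (F := F)).subtype) := by
    rw [injective_iff_map_eq_one]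
    intro a ha
    apply Subtype.ext
    exact eq_one_of a.1 (MonoidHom.mem_ker.mpr ha) a.2
  have hKsurj : Function.Surjective ((proj (F := F)).comp (Ksub (F := F)).subtype) := by
    intro A
    obtain ⟨a, b, c, d, h, rfl⟩ := mk2_eta A
    refine ⟨⟨⟨blk a b c d h, blk_mem a b c d h⟩, ⟨rfl, rfl⟩⟩, ?_⟩
    show proj _ = _
    rw [proj_apply]
    exact mk2_congr rfl rfl rfl rfl
  rw [hcore]
  refine ⟨fun M => mem_ker M, Ksub, fun M => Iff.rfl, ?_, ?_,
    ⟨MulEquiv.ofBijective _ ⟨hKinj, hKsurj⟩⟩, ?_⟩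
  · rw [eq_bot_iff]
    rintro x ⟨hxK, hxW⟩
    rw [Subgroup.mem_bot]
    exact eq_one_of x hxW hxK
  · rw [eq_top_iff]
    intro M _
    obtain ⟨k, hk⟩ := hKsurj (proj M)
    have hk' : proj k.1 = proj M := hk
    have hw : k.1⁻¹ * M ∈ (proj (F := F)).ker := by
      rw [MonoidHom.mem_ker, map_mul, map_inv, hk', inv_mul_cancel]
    have e : M = k.1 * (k.1⁻¹ * M) := by group
    rw [e]
    exact Subgroup.mul_mem_sup k.2 hw
  · refine ⟨?_, (proj (F := F)).comp (Ksub (F := F)).subtype, psi, hKsurj, ?_, ?_⟩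
    · intro k _
      rw [Subgroup.mem_normalizer_iff]
      intro h
      constructor
      · intro hh
        exact hWn.conj_mem h hh k
      · intro hh
        have := hWn.conj_mem _ hh k⁻¹
        have e : k⁻¹ * (k * h * k⁻¹) * k⁻¹⁻¹ = h := by group
        rw [e] at this
        exact this
    · ext l
      rw [MonoidHom.mem_ker, Subgroup.mem_subgroupOf]
      constructor
      · intro hl
        have : l = 1 := hKinj (hl.trans (map_one _).symm)
        rw [this]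
        exact Subgroup.one_mem _
      · intro hl
        rw [Subgroup.mem_centralizer_iff] at hl
        obtain ⟨k0, k1⟩ := l.2
        obtain ⟨q0, q1, q2⟩ := mem_qd' l.1
        have hcomp : ∀ x y : F, l.1.1.1 0 0 * x + l.1.1.1 0 1 * y = x ∧
            l.1.1.1 1 0 * x + l.1.1.1 1 1 * y = y := by
          intro x y
          have hv : (⟨tr x y, tr_mem x y⟩ : ↥(Cfsg.qdOver F)) ∈ (proj (F := F)).ker :=
            (mem_ker _).mpr ⟨rfl, rfl, rfl, rfl⟩
          have hc := hl _ hv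
          have hc' : tr x y * l.1.1 = l.1.1 * tr x y := congrArg Subtype.val hc
          have c0 := congrArg (fun M : Matrix.SpecialLinearGroup (Fin 3) F => M.1 0 2) hc'
          have c1 := congrArg (fun M : Matrix.SpecialLinearGroup (Fin 3) F => M.1 1 2) hc'
          simp only [mul3] at c0 c1
          rw [k0, k1, q2] at c0 c1
          have t00 : (tr x y).1 0 0 = 1 := rfl
          have t01 : (tr x y).1 0 1 = 0 := rfl
          have t02 : (tr x y).1 0 2 = x := rfl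
          have t10 : (tr x y).1 1 0 = 0 := rfl
          have t11 : (tr x y).1 1 1 = 1 := rfl
          have t12 : (tr x y).1 1 2 = y := rfl
          have t22 : (tr x y).1 2 2 = 1 := rfl
          rw [t00, t01, t02, t12, t22] at c0
          rw [t10, t11, t02, t12, t22] at c1
          exact ⟨by linear_combination -c0, by linear_combination -c1⟩
        obtain ⟨h00, h10⟩ := hcomp 1 0
        obtain ⟨h01, h11⟩ := hcomp 0 1
        show proj l.1 = 1
        rw [← MonoidHom.mem_ker, mem_ker]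
        exact ⟨by linear_combination h00, by linear_combination h01, by linear_combination h10,
          by linear_combination h11⟩
    · intro l v
      refine ⟨⟨l.1 * v.1 * l.1⁻¹, hWn.conj_mem v.1 v.2 l.1⟩, rfl, ?_⟩
      obtain ⟨k0, k1⟩ := l.2
      have hli : l.1⁻¹ ∈ Ksub (F := F) := (Ksub (F := F)).inv_mem l.2
      obtain ⟨i0, i1⟩ := hli
      obtain ⟨-, -, i22⟩ := mem_qd' l.1⁻¹
      obtain ⟨-, -, v22⟩ := mem_qd' v.1
      have i0' : (l.1.1⁻¹).1 0 2 = 0 := i0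
      have i1' : (l.1.1⁻¹).1 1 2 = 0 := i1
      have i22' : (l.1.1⁻¹).1 2 2 = 1 := i22
      rw [psi_apply, psi_apply]
      funext i
      fin_cases i
      · show (l.1.1 * v.1.1 * l.1.1⁻¹).1 0 2 = act (proj l.1) ![v.1.1.1 0 2, v.1.1.1 1 2] 0
        rw [act_apply0]
        show _ = l.1.1.1 0 0 * v.1.1.1 0 2 + l.1.1.1 0 1 * v.1.1.1 1 2
        rw [mul3 (l.1.1 * v.1.1) l.1.1⁻¹, i0', i1', i22', mul3 l.1.1 v.1.1 0 2, k0]
        ring
      · show (l.1.1 * v.1.1 * l.1.1⁻¹).1 1 2 = act (proj l.1) ![v.1.1.1 0 2, v.1.1.1 1 2] 1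
        rw [act_apply1]
        show _ = l.1.1.1 1 0 * v.1.1.1 0 2 + l.1.1.1 1 1 * v.1.1.1 1 2
        rw [mul3 (l.1.1 * v.1.1) l.1.1⁻¹, i0', i1', i22', mul3 l.1.1 v.1.1 1 2, k1]
        ring

end Cfsg.Agent.S2762
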