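import Cfsg.Statements.S2763
import Cfsg.Agent.Helper10.QdStruct2

set_option autoImplicit false
open Cfsg
open Cfsg.Agent.Helper10

namespace Cfsg.Agent.S2763

/-- `SL₃(p)`. -/
abbrev SL3 (p : ℕ) := Matrix.SpecialLinearGroup (Fin 3) (ZMod p)

/-! ### General group lemmas -/

/-- A characteristic subgroup of `H` is stable under conjugation by the normalizer of `H`. -/
theorem char_conj {G : Type*} [Group G] (H : Subgroup G) (T : Subgroup ↥H) (hTc : T.Characteristic)
    (n : G) (hn : n ∈ Subgroup.normalizer (H : Set G)) (x : G) (hx : x ∈ T.map H.subtype) :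
    n * x * n⁻¹ ∈ T.map H.subtype := by
  obtain ⟨t, ht, rfl⟩ := hx
  have hn' := Subgroup.mem_normalizer_iff.mp hn
  have hn'' := Subgroup.mem_normalizer_iff''.mp hn
  let α : ↥H ≃* ↥H :=
    { toFun := fun y => ⟨n * (y : G) * n⁻¹, (hn' y).mp y.2⟩
      invFun := fun y => ⟨n⁻¹ * (y : G) * n, (hn'' y).mp y.2⟩
      left_inv := fun y => Subtype.ext (by
        show n⁻¹ * (n * (y : G) * n⁻¹) * n = (y : G)
        group)
      right_inv := fun y => Subtype.ext (by
        show n * (n⁻¹ * (y : G) * n) * n⁻¹ = (y : G)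
        group)
      map_mul' := fun y z => Subtype.ext (by
        show n * ((y : G) * (z : G)) * n⁻¹ = n * (y : G) * n⁻¹ * (n * (z : G) * n⁻¹)
        group) }
  have h1 : α t ∈ T := by
    have h2 := Subgroup.characteristic_iff_map_eq.mp hTc α
    have h3 : α.toMonoidHom t ∈ T.map α.toMonoidHom := Subgroup.mem_map_of_mem _ ht
    rw [h2] at h3
    exact h3
  exact Subgroup.mem_map.mpr ⟨α t, h1, rfl⟩

theorem normalizer_le_of_char {G : Type*} [Group G] (H : Subgroup G) (T : Subgroup ↥H)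
    (hTc : T.Characteristic) :
    Subgroup.normalizer (H : Set G) ≤
      Subgroup.normalizer ((T.map H.subtype : Subgroup G) : Set G) := by
  intro n hn
  rw [Subgroup.mem_normalizer_iff]
  intro x
  constructor
  · exact char_conj H T hTc n hn x
  · intro hx
    have h1 := char_conj H T hTc n⁻¹ (Subgroup.inv_mem _ hn) _ hx
    have h2 : n⁻¹ * (n * x * n⁻¹) * n⁻¹⁻¹ = x := by group
    rwa [h2] at h1

theorem mem_normalizer_of_conj_mem {G : Type*} [Group G] [Finite G] (S : Subgroup G) (g : G)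
    (h : ∀ s ∈ S, g * s * g⁻¹ ∈ S) : g ∈ Subgroup.normalizer (S : Set G) := by
  rw [Subgroup.mem_normalizer_iff]
  intro x
  refine ⟨h x, fun hx => ?_⟩
  have hinj : Function.Injective (fun s : ↥S => (⟨g * (s : G) * g⁻¹, h s s.2⟩ : ↥S)) := by
    intro a b hab
    have h1 : g * (a : G) * g⁻¹ = g * (b : G) * g⁻¹ := congrArg Subtype.val hab
    exact Subtype.ext (mul_left_cancel (mul_right_cancel h1))
  obtain ⟨s, hs⟩ := (Finite.injective_iff_surjective.mp hinj) ⟨g * x * g⁻¹, hx⟩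
  have h2 : g * (s : G) * g⁻¹ = g * x * g⁻¹ := congrArg Subtype.val hs
  have h3 : (s : G) = x := mul_left_cancel (mul_right_cancel h2)
  rw [← h3]
  exact s.2

/-! ### Matrix lemmas -/

section mat

variable {p : ℕ}

theorem vec2_ext {u v : Fin 2 → ZMod p} (h0 : u 0 = v 0) (h1 : u 1 = v 1) : u = v := by
  ext i
  fin_cases i
  · exact h0
  · exact h1

theorem aff_congr {x y : ZMod p} (hxy : x = y) {u v : Fin 2 → ZMod p} (huv : u = v) :
    affSL (uMat x) u = affSL (uMat y) v := by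
  rw [hxy, huv]

theorem mulVec_c0 (A : Matrix (Fin 2) (Fin 2) (ZMod p)) (c : ZMod p) :
    A.mulVec ![c, 0] = ![A 0 0 * c, A 1 0 * c] := by
  ext i
  fin_cases i <;> simp [Matrix.mulVec, dotProduct, Fin.sum_univ_two]

/-- The unitriangular group centralizes the translations `(c, 0)`. -/
theorem comm_z (a : ZMod p) (t : Fin 2 → ZMod p) (c : ZMod p) :
    affSL (uMat a) t * affSL 1 ![c, 0] = affSL 1 ![c, 0] * affSL (uMat a) t := by
  rw [affSL_mul, affSL_mul, uMat_mulVec, mul_one, one_mul, Matrix.SpecialLinearGroup.coe_one,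
    Matrix.one_mulVec]
  refine congrArg (affSL (uMat a)) (vec2_ext ?_ ?_)
  · show c + a * 0 + t 0 = t 0 + c
    ring
  · show (0 : ZMod p) + t 1 = t 1 + 0
    ring

/-- The centralizer of a nontrivial translation `(c, 0)` is the unitriangular group. -/
theorem mem_tS_of_comm [Fact p.Prime] (A : Matrix.SpecialLinearGroup (Fin 2) (ZMod p))
    (s : Fin 2 → ZMod p) (c : ZMod p) (hc : c ≠ 0)
    (h : affSL A s * affSL 1 ![c, 0] = affSL 1 ![c, 0] * affSL A s) : affSL A s ∈ tS p := by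
  rw [affSL_mul, affSL_mul] at h
  have h1 := (affSL_injective h).2
  rw [Matrix.SpecialLinearGroup.coe_one, Matrix.one_mulVec, mulVec_c0] at h1
  have h4 : (A : Matrix (Fin 2) (Fin 2) (ZMod p)) 0 0 * c + s 0 = s 0 + c := congrFun h1 0
  have h5 : (A : Matrix (Fin 2) (Fin 2) (ZMod p)) 1 0 * c + s 1 = s 1 + 0 := congrFun h1 1
  have h4' : (A : Matrix (Fin 2) (Fin 2) (ZMod p)) 0 0 * c = 1 * c := by
    rw [one_mul]
    exact add_right_cancel (h4.trans (add_comm _ _))
  have h5' : (A : Matrix (Fin 2) (Fin 2) (ZMod p)) 1 0 * c = 0 :=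
    add_right_cancel (h5.trans (add_comm _ _))
  have h00 : (A : Matrix (Fin 2) (Fin 2) (ZMod p)) 0 0 = 1 := mul_right_cancel₀ hc h4'
  have h10 : (A : Matrix (Fin 2) (Fin 2) (ZMod p)) 1 0 = 0 :=
    (mul_eq_zero.mp h5').resolve_right hc
  have hdet : (A : Matrix (Fin 2) (Fin 2) (ZMod p)).det = 1 := A.2
  rw [Matrix.det_fin_two, h00, h10] at hdet
  have h11 : (A : Matrix (Fin 2) (Fin 2) (ZMod p)) 1 1 = 1 := by linear_combination hdet
  have hA : A = uMat ((A : Matrix (Fin 2) (Fin 2) (ZMod p)) 0 1) := by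
    apply Subtype.ext
    ext i j
    fin_cases i <;> fin_cases j <;> simp [uMat, h00, h10, h11]
  exact ⟨_, s, congrArg (fun B => affSL B s) hA⟩

theorem aff_01 (a : ZMod p) (t : Fin 2 → ZMod p) :
    ((affSL (uMat a) t : SL3 p) : Matrix (Fin 3) (Fin 3) (ZMod p)) 0 1 = a := by
  simp [affSL, affMat, uMat]

theorem aff_02 (a : ZMod p) (t : Fin 2 → ZMod p) :
    ((affSL (uMat a) t : SL3 p) : Matrix (Fin 3) (Fin 3) (ZMod p)) 0 2 = t 0 := by
  simp [affSL, affMat]

theorem aff_12 (a : ZMod p) (t : Fin 2 → ZMod p) :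
    ((affSL (uMat a) t : SL3 p) : Matrix (Fin 3) (Fin 3) (ZMod p)) 1 2 = t 1 := by
  simp [affSL, affMat]

/-- The map inducing an automorphism of the unitriangular group that moves the translations. -/
def phiM (M : SL3 p) : SL3 p :=
  affSL (uMat (-(M : Matrix (Fin 3) (Fin 3) (ZMod p)) 1 2))
    ![(M : Matrix (Fin 3) (Fin 3) (ZMod p)) 0 1 * (M : Matrix (Fin 3) (Fin 3) (ZMod p)) 1 2
      - (M : Matrix (Fin 3) (Fin 3) (ZMod p)) 0 2, -(M : Matrix (Fin 3) (Fin 3) (ZMod p)) 0 1]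

theorem phiM_aff (a : ZMod p) (t : Fin 2 → ZMod p) :
    phiM (affSL (uMat a) t) = affSL (uMat (-(t 1))) ![a * t 1 - t 0, -a] := by
  unfold phiM
  rw [aff_01, aff_02, aff_12]

theorem phiM_mem_qd (M : SL3 p) : phiM M ∈ Cfsg.qd p := affSL_mem_qd _ _

theorem phiM_mem_tS (M : SL3 p) : phiM M ∈ tS p := ⟨_, _, rfl⟩

theorem phiM_mul (a b : ZMod p) (t s : Fin 2 → ZMod p) :
    phiM (affSL (uMat a) t * affSL (uMat b) s)
      = phiM (affSL (uMat a) t) * phiM (affSL (uMat b) s) := by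
  rw [affSL_mul, uMat_mul, phiM_aff, phiM_aff, phiM_aff, affSL_mul, uMat_mul, uMat_mulVec,
    uMat_mulVec]
  apply aff_congr
  · show -(s 1 + t 1) = -(t 1) + -(s 1)
    ring
  · apply vec2_ext
    · show (a + b) * (s 1 + t 1) - (s 0 + a * s 1 + t 0)
        = (b * s 1 - s 0 + -(t 1) * -b) + (a * t 1 - t 0)
      ring
    · show -(a + b) = -b + -a
      ring

theorem phiM_phiM (a : ZMod p) (t : Fin 2 → ZMod p) :
    phiM (phiM (affSL (uMat a) t)) = affSL (uMat a) t := by
  rw [phiM_aff, phiM_aff]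
  apply aff_congr
  · show - -a = a
    ring
  · apply vec2_ext
    · show -(t 1) * -a - (a * t 1 - t 0) = t 0
      ring
    · show - -(t 1) = t 1
      ring

end mat

/-! ### The group `Qd(p)` through an embedding -/

section qd

variable {X : Type*} [Group X] [Finite X] {p : ℕ} [Fact p.Prime]
  (f : X →* SL3 p)

theorem card_qdV (hinj : Function.Injective f) (hrange : ∀ M, M ∈ Cfsg.qd p ↔ ∃ x, f x = M) :
    Nat.card ((vS p).comap f) = p ^ 2 := by
  have hb : Function.Bijective (fun x : ↥((vS p).comap f) => transPart (f (x : X))) := by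
    constructor
    · intro x y h
      obtain ⟨t, ht⟩ : f (x : X) ∈ vS p := x.2
      obtain ⟨s, hs⟩ : f (y : X) ∈ vS p := y.2
      have h' : transPart (f (x : X)) = transPart (f (y : X)) := h
      rw [ht, hs, transPart_affSL, transPart_affSL] at h'
      apply Subtype.ext
      apply hinj
      rw [ht, hs, h']
    · intro t
      obtain ⟨x, hx⟩ := (hrange (affSL 1 t)).1 (affSL_mem_qd _ _)
      refine ⟨⟨x, ⟨t, hx⟩⟩, ?_⟩
      show transPart (f x) = t
      rw [hx, transPart_affSL]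
  rw [Nat.card_eq_of_bijective _ hb, Nat.card_fun, Nat.card_zmod, Nat.card_fin]

/-- An automorphism of the unitriangular group realizing `phiM`. -/
theorem exists_phi (hinj : Function.Injective f) (hrange : ∀ M, M ∈ Cfsg.qd p ↔ ∃ x, f x = M) :
    ∃ φ : ↥((tS p).comap f) ≃* ↥((tS p).comap f),
      ∀ x : ↥((tS p).comap f), f ((φ x : ↥((tS p).comap f)) : X) = phiM (f (x : X)) := by
  have hex : ∀ x : X, ∃ y : X, f y = phiM (f x) := fun x => (hrange _).1 (phiM_mem_qd _)
  choose ψ hψ using hex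
  have hmem : ∀ x : X, ψ x ∈ (tS p).comap f := by
    intro x
    show f (ψ x) ∈ tS p
    rw [hψ]
    exact phiM_mem_tS _
  have hinv : ∀ x : ↥((tS p).comap f), ψ (ψ (x : X)) = (x : X) := by
    intro x
    apply hinj
    obtain ⟨a, t, hx⟩ : f (x : X) ∈ tS p := x.2
    rw [hψ, hψ, hx, phiM_phiM]
  refine ⟨{ toFun := fun x => ⟨ψ (x : X), hmem _⟩
            invFun := fun x => ⟨ψ (x : X), hmem _⟩
            left_inv := fun x => Subtype.ext (hinv x)
            right_inv := fun x => Subtype.ext (hinv x)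
            map_mul' := fun x y => Subtype.ext (hinj ?_) }, fun x => hψ _⟩
  obtain ⟨a, t, hx⟩ : f (x : X) ∈ tS p := x.2
  obtain ⟨b, s, hy⟩ : f (y : X) ∈ tS p := y.2
  show f (ψ ((x : X) * (y : X))) = f (ψ (x : X) * ψ (y : X))
  rw [hψ, map_mul, map_mul, hψ, hψ, hx, hy, phiM_mul]

/-- The translation subgroup is not characteristic in the unitriangular group. -/
theorem not_V (hinj : Function.Injective f) (hrange : ∀ M, M ∈ Cfsg.qd p ↔ ∃ x, f x = M)
    (T : Subgroup ↥((tS p).comap f)) (hTc : T.Characteristic) :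
    T.map ((tS p).comap f).subtype ≠ (vS p).comap f := by
  intro hEq
  obtain ⟨φ, hφ⟩ := exists_phi f hinj hrange
  obtain ⟨x₀, hx₀⟩ := (hrange (affSL (uMat 0) ![0, 1])).1 (affSL_mem_qd _ _)
  have hx₀H : x₀ ∈ (tS p).comap f := by
    show f x₀ ∈ tS p
    exact ⟨0, _, hx₀⟩
  have hx₀V : x₀ ∈ (vS p).comap f := by
    show f x₀ ∈ vS p
    exact ⟨![0, 1], by rw [hx₀, uMat_zero]⟩
  have hx₀T : (⟨x₀, hx₀H⟩ : ↥((tS p).comap f)) ∈ T := by
    rw [← hEq] at hx₀V
    obtain ⟨y, hy, hyx⟩ := hx₀V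
    have hyeq : y = ⟨x₀, hx₀H⟩ := Subtype.ext hyx
    rw [← hyeq]
    exact hy
  have h1 : φ ⟨x₀, hx₀H⟩ ∈ T := by
    have h2 := Subgroup.characteristic_iff_map_eq.mp hTc φ
    have h3 : φ.toMonoidHom ⟨x₀, hx₀H⟩ ∈ T.map φ.toMonoidHom := Subgroup.mem_map_of_mem _ hx₀T
    rw [h2] at h3
    exact h3
  have h4 : ((φ ⟨x₀, hx₀H⟩ : ↥((tS p).comap f)) : X) ∈ (vS p).comap f := by
    rw [← hEq]
    exact Subgroup.mem_map_of_mem ((tS p).comap f).subtype h1
  obtain ⟨t', ht'⟩ : f ((φ ⟨x₀, hx₀H⟩ : ↥((tS p).comap f)) : X) ∈ vS p := h4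
  rw [hφ] at ht'
  have h6 : phiM (f x₀) = affSL 1 t' := ht'
  rw [hx₀, phiM_aff, ← uMat_zero] at h6
  have h7 := uMat_injective (affSL_injective h6).1
  have h8 : -(1 : ZMod p) = 0 := h7
  exact one_ne_zero (neg_eq_zero.mp h8)

theorem core_aux (hinj : Function.Injective f) (hrange : ∀ M, M ∈ Cfsg.qd p ↔ ∃ x, f x = M)
    (T' : Subgroup X) (hT'H : T' ≤ (tS p).comap f)
    (hconj : ∀ n ∈ (tS p).comap f, ∀ x ∈ T', n * x * n⁻¹ ∈ T')
    (hne : T' ≠ (vS p).comap f) (z : X) (hz : z ∈ T') (hz1 : z ≠ 1)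
    (g : X) (hgT : ∀ x ∈ T', g * x * g⁻¹ ∈ T') :
    ∀ s ∈ (tS p).comap f, g * s * g⁻¹ ∈ (tS p).comap f := by
  have hp : p.Prime := Fact.out
  have hmemqd : ∀ x, f x ∈ Cfsg.qd p := fun x => (hrange _).2 ⟨x, rfl⟩
  by_cases hTV : T' ≤ (vS p).comap f
  · -- `T'` consists of translations
    have hform : ∀ x ∈ T', ∃ c, f x = affSL 1 ![c, 0] := by
      intro x hx
      obtain ⟨t, ht⟩ : f x ∈ vS p := hTV hx
      by_cases ht1 : t 1 = 0
      · refine ⟨t 0, ?_⟩
        rw [ht]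
        exact congrArg (affSL 1) (vec2_ext rfl ht1)
      · exfalso
        apply hne
        apply le_antisymm hTV
        obtain ⟨u, hu⟩ := (hrange (affSL (uMat 1) 0)).1 (affSL_mem_qd _ _)
        have huH : u ∈ (tS p).comap f := by
          show f u ∈ tS p
          exact ⟨1, 0, hu⟩
        obtain ⟨y, hy_def⟩ : ∃ y, y = x⁻¹ * (u * x * u⁻¹) := ⟨_, rfl⟩
        have hy : y ∈ T' := by
          rw [hy_def]
          exact T'.mul_mem (T'.inv_mem hx) (hconj u huH x hx)
        have hfy : f y = affSL 1 ![t 1, 0] := by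
          rw [hy_def]
          simp only [map_mul, map_inv]
          rw [hu, ht, affSL_conj, affSL_one_inv, affSL_one_mul, uMat_mulVec]
          refine congrArg (affSL 1) (vec2_ext ?_ ?_)
          · show t 0 + 1 * t 1 + -(t 0) = t 1
            ring
          · show t 1 + -(t 1) = 0
            ring
        intro v hv
        obtain ⟨s, hs⟩ : f v ∈ vS p := hv
        obtain ⟨α, hα⟩ : ∃ α : ZMod p, α = s 1 * (t 1)⁻¹ := ⟨_, rfl⟩
        obtain ⟨β, hβ⟩ : ∃ β : ZMod p, β = (s 0 - α * t 0) * (t 1)⁻¹ := ⟨_, rfl⟩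
        have hαt : α * t 1 = s 1 := by
          rw [hα, mul_assoc, inv_mul_cancel₀ ht1, mul_one]
        have hβt : β * t 1 = s 0 - α * t 0 := by
          rw [hβ, mul_assoc, inv_mul_cancel₀ ht1, mul_one]
        have hm : ((α.val : ℕ) : ZMod p) = α := ZMod.natCast_zmod_val α
        have hn : ((β.val : ℕ) : ZMod p) = β := ZMod.natCast_zmod_val β
        have hv2 : v = x ^ α.val * y ^ β.val := by
          apply hinj
          rw [map_mul, map_pow, map_pow, hfy, ht, hs, affSL_one_pow, affSL_one_pow,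
            affSL_one_mul]
          refine congrArg (affSL 1) (vec2_ext ?_ ?_)
          · show s 0 = β.val • t 1 + α.val • t 0
            rw [nsmul_eq_mul, nsmul_eq_mul, hn, hm, hβt, sub_add_cancel]
          · show s 1 = β.val • (0 : ZMod p) + α.val • t 1
            rw [nsmul_eq_mul, nsmul_eq_mul, hn, hm, hαt, mul_zero, zero_add]
        rw [hv2]
        exact T'.mul_mem (T'.pow_mem hx _) (T'.pow_mem hy _)
    intro s hs
    obtain ⟨a, t, hs'⟩ : f s ∈ tS p := hs
    obtain ⟨c₀, hc₀⟩ := hform z hz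
    obtain ⟨z', hz'_def⟩ : ∃ z', z' = g * z * g⁻¹ := ⟨_, rfl⟩
    obtain ⟨w, hw_def⟩ : ∃ w, w = g * s * g⁻¹ := ⟨_, rfl⟩
    have hz'T : z' ∈ T' := by
      rw [hz'_def]
      exact hgT z hz
    obtain ⟨c, hc⟩ := hform z' hz'T
    have hz'1 : z' ≠ 1 := by
      rw [hz'_def]
      intro h
      exact hz1 (conj_eq_one_iff.mp h)
    have hc0 : c ≠ 0 := by
      intro h0
      apply hz'1
      apply hinj
      rw [hc, h0, map_one, ← affSL_one]
      exact congrArg (affSL 1) (vec2_ext rfl rfl)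
    have hsz : s * z = z * s := by
      apply hinj
      rw [map_mul, map_mul, hc₀, hs']
      exact comm_z a t c₀
    have hwz : w * z' = z' * w := by
      rw [hw_def, hz'_def]
      have e1 : g * s * g⁻¹ * (g * z * g⁻¹) = g * (s * z) * g⁻¹ := by group
      have e2 : g * z * g⁻¹ * (g * s * g⁻¹) = g * (z * s) * g⁻¹ := by group
      rw [e1, e2, hsz]
    obtain ⟨A, s', hw⟩ := exists_affSL_of_mem_qd (hmemqd w)
    have h3 := congrArg f hwz
    rw [map_mul, map_mul, hc, hw] at h3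
    show f (g * s * g⁻¹) ∈ tS p
    rw [← hw_def, hw]
    exact mem_tS_of_comm A s' c hc0 h3
  · -- `T'` is not inside the translations: counting
    obtain ⟨K, hK⟩ : ∃ K : Subgroup X,
        K = (tS p).comap f ⊓ ((tS p).comap f).comap (MulAut.conj g).toMonoidHom := ⟨_, rfl⟩
    have hKmem : ∀ s, s ∈ K ↔ s ∈ (tS p).comap f ∧ g * s * g⁻¹ ∈ (tS p).comap f := by
      intro s
      rw [hK]
      exact Iff.rfl
    have hVn : ((vS p).comap f).Normal := qdV_normal f hrange
    have hVH : (vS p).comap f ≤ (tS p).comap f := Subgroup.comap_mono vS_le_tS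
    have hVK : (vS p).comap f ≤ K :=
      fun v hv => (hKmem v).2 ⟨hVH hv, hVH (hVn.conj_mem v hv g)⟩
    have hTK : T' ≤ K := fun t ht => (hKmem t).2 ⟨hT'H ht, hT'H (hgT t ht)⟩
    have hKH : K ≤ (tS p).comap f := fun s hs => ((hKmem s).1 hs).1
    have hKcard : Nat.card K = p ^ 3 := by
      have h1 : Nat.card K ∣ p ^ 3 := by
        rw [← card_qdT f hinj hrange]
        exact Subgroup.card_dvd_of_le hKH
      obtain ⟨k, hk, hKk⟩ := (Nat.dvd_prime_pow hp).mp h1
      have h2 : p ^ 2 ∣ p ^ k := by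
        rw [← hKk, ← card_qdV f hinj hrange]
        exact Subgroup.card_dvd_of_le hVK
      have h3 : 2 ≤ k := (Nat.pow_dvd_pow_iff_le_right hp.one_lt).mp h2
      have h4 : k ≠ 2 := by
        intro hk2
        rw [hk2] at hKk
        apply hTV
        have h5 : (vS p).comap f = K :=
          Subgroup.eq_of_le_of_card_ge hVK (le_of_eq (by rw [hKk, card_qdV f hinj hrange]))
        rw [h5]
        exact hTK
      have h6 : k = 3 := by omega
      rw [hKk, h6]
    have hKeq : K = (tS p).comap f :=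
      Subgroup.eq_of_le_of_card_ge hKH (le_of_eq (by rw [hKcard, card_qdT f hinj hrange]))
    intro s hs
    rw [← hKeq] at hs
    exact ((hKmem s).1 hs).2

theorem core (hinj : Function.Injective f) (hrange : ∀ M, M ∈ Cfsg.qd p ↔ ∃ x, f x = M)
    (H : Subgroup X) (hH : H = (tS p).comap f) (T : Subgroup ↥H) (hT : T ≠ ⊥)
    (hTc : T.Characteristic) :
    Subgroup.normalizer ((T.map H.subtype : Subgroup X) : Set X)
      = Subgroup.normalizer (H : Set X) := by
  subst hH
  apply le_antisymm _ (normalizer_le_of_char _ T hTc)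
  intro g hg
  apply mem_normalizer_of_conj_mem
  obtain ⟨z₀, hz₀T, hz₀1⟩ : ∃ z₀ ∈ T, z₀ ≠ 1 := by
    by_contra hcon
    apply hT
    rw [Subgroup.eq_bot_iff_forall]
    intro x hx
    by_contra hx1
    exact hcon ⟨x, hx, hx1⟩
  refine core_aux f hinj hrange (T.map ((tS p).comap f).subtype) ?_ ?_ (not_V f hinj hrange T hTc)
    (z₀ : X) (Subgroup.mem_map_of_mem ((tS p).comap f).subtype hz₀T) ?_ g ?_
  · rintro _ ⟨t, -, rfl⟩
    exact t.2
  · intro n hn x hx
    exact char_conj _ T hTc n (Subgroup.le_normalizer hn) x hx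
  · intro h
    exact hz₀1 (Subtype.ext h)
  · intro x hx
    exact (Subgroup.mem_normalizer_iff.mp hg x).mp hx

theorem normalizer_ne_top (hrange : ∀ M, M ∈ Cfsg.qd p ↔ ∃ x, f x = M) :
    Subgroup.normalizer (((tS p).comap f : Subgroup X) : Set X) ≠ ⊤ := by
  intro htop
  obtain ⟨g, hg⟩ := (hrange (affSL (lMat p) 0)).1 (affSL_mem_qd _ _)
  obtain ⟨u, hu⟩ := (hrange (affSL (uMat 1) ![0, 0])).1 (affSL_mem_qd _ _)
  have hgN : g ∈ Subgroup.normalizer (((tS p).comap f : Subgroup X) : Set X) := by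
    rw [htop]
    exact Subgroup.mem_top g
  have huH : u ∈ (tS p).comap f := by
    show f u ∈ tS p
    exact ⟨1, _, hu⟩
  have h1 := (Subgroup.mem_normalizer_iff.mp hgN u).mp huH
  have h2 : f (g * u * g⁻¹) ∈ tS p := h1
  rw [map_mul, map_mul, map_inv, hg, hu] at h2
  exact lMat_conj_not_mem h2

end qd

/-- In the group Qd(p) (p prime; the natural semidirect product of an elementary abelian group of order p² by SL₂(p)), the normalizer of every nontrivial characteristic subgroup of a Sylow p-subgroup S equals the normalizer of S, which is a proper subgroup; in particular no such characteristic subgroup is normal. -/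
theorem result {p : ℕ} [Fact p.Prime] (S : Sylow p ↥(Cfsg.qd p)) (T : Subgroup ↥(S : Subgroup ↥(Cfsg.qd p))) (hT : T ≠ ⊥) (hTc : T.Characteristic) : Subgroup.normalizer ((T.map (S : Subgroup ↥(Cfsg.qd p)).subtype : Subgroup ↥(Cfsg.qd p)) : Set ↥(Cfsg.qd p)) = Subgroup.normalizer ((S : Subgroup ↥(Cfsg.qd p)) : Set ↥(Cfsg.qd p)) ∧ Subgroup.normalizer ((S : Subgroup ↥(Cfsg.qd p)) : Set ↥(Cfsg.qd p)) ≠ ⊤ := by
  have hinj0 : Function.Injective (Cfsg.qd p).subtype := Subgroup.subtype_injective _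
  have hrange0 : ∀ M, M ∈ Cfsg.qd p ↔ ∃ x, (Cfsg.qd p).subtype x = M := by
    intro M
    constructor
    · intro hM
      exact ⟨⟨M, hM⟩, rfl⟩
    · rintro ⟨x, rfl⟩
      exact x.2
  obtain ⟨S₁, hS₁⟩ := exists_sylow_eq_qdT (Cfsg.qd p).subtype hinj0 hrange0
  obtain ⟨g, hg⟩ := MulAction.exists_smul_eq ↥(Cfsg.qd p) S₁ S
  obtain ⟨f, hf⟩ : ∃ f : ↥(Cfsg.qd p) →* SL3 p,
      f = (Cfsg.qd p).subtype.comp (MulAut.conj g⁻¹).toMonoidHom := ⟨_, rfl⟩
  have hinj : Function.Injective f := by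
    rw [hf]
    exact hinj0.comp (MulAut.conj g⁻¹).injective
  have hrange : ∀ M, M ∈ Cfsg.qd p ↔ ∃ x, f x = M := by
    intro M
    constructor
    · intro hM
      refine ⟨MulAut.conj g ⟨M, hM⟩, ?_⟩
      have e1 : (MulAut.conj g⁻¹) (MulAut.conj g ⟨M, hM⟩) = (⟨M, hM⟩ : ↥(Cfsg.qd p)) := by
        rw [MulAut.conj_apply, MulAut.conj_apply]
        group
      rw [hf]
      show (((MulAut.conj g⁻¹) (MulAut.conj g ⟨M, hM⟩) : ↥(Cfsg.qd p)) : SL3 p) = M
      rw [e1]
    · rintro ⟨x, rfl⟩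
      rw [hf]
      exact (MulAut.conj g⁻¹ x).2
  have hSeq : (S : Subgroup ↥(Cfsg.qd p)) = (tS p).comap f := by
    ext x
    rw [← hg, Sylow.coe_subgroup_smul, Subgroup.mem_pointwise_smul_iff_inv_smul_mem, hS₁, hf,
      ← map_inv]
    exact Iff.rfl
  refine ⟨core f hinj hrange _ hSeq T hT hTc, ?_⟩
  rw [hSeq]
  exact normalizer_ne_top f hrange

end Cfsg.Agent.S2763
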