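import Mathlib
import Cfsg.Statements.S2779
import Cfsg.Agent.Helper19.NatSL2

set_option autoImplicit false

open Cfsg

namespace Cfsg.Agent.S2779


/-- Let L act on the elementary abelian p-group V (inside a finite group, by conjugation, faithfully) as SL₂(F) on its natural module, F a field with p^n elements, and let S be a Sylow p-subgroup of L. Then [V, S, S] = 1; |V| = p^(2n) and |C_V(S)| = p^n; and for every nonidentity s ∈ S and every v ∈ V outside C_V(S): C_V(s) = C_V(S) = [V, S] = [V, s] = the subgroup generated by the commutators [v, t], t ∈ S. -/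
theorem result {G : Type*} [Group G] [Finite G] {p : ℕ} [Fact p.Prime] {F : Type*} [Field F] [Fintype F] (n : ℕ) (hF : Fintype.card F = p ^ n) (V L : Subgroup G) (hnat : Cfsg.IsNaturalSL2Module F V L) (hf : L ⊓ Subgroup.centralizer (V : Set G) = ⊥) (S : Sylow p ↥L) (T : Subgroup G) (hT : T = ((S : Subgroup ↥L).map L.subtype)) : ⁅⁅V, T⁆, T⁆ = ⊥ ∧ Nat.card V = p ^ (2 * n) ∧ Nat.card ↥(V ⊓ Subgroup.centralizer ((T : Subgroup G) : Set G)) = p ^ n ∧ ∀ s ∈ T, s ≠ 1 → (V ⊓ Subgroup.centralizer ({s} : Set G)) = (V ⊓ Subgroup.centralizer ((T : Subgroup G) : Set G)) ∧ ⁅V, T⁆ = (V ⊓ Subgroup.centralizer ((T : Subgroup G) : Set G)) ∧ ⁅V, Subgroup.zpowers s⁆ = (V ⊓ Subgroup.centralizer ((T : Subgroup G) : Set G)) ∧ ∀ v ∈ V, v ∉ Subgroup.centralizer (T : Set G) → Subgroup.closure {x : G | ∃ t ∈ T, x = v * t * v⁻¹ * t⁻¹} = (V ⊓ Subgroup.centralizer ((T : Subgroup G) : Set G)) := by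
  obtain ⟨X, Y, A, B, C, D, hc, hcard, hn, hTp⟩ :=
    Cfsg.Agent.Helper19.NatSL2.exists_coord n hF V L hnat hf S T hT
  have hle : ⁅V, T⁆ ≤ V ⊓ Subgroup.centralizer (T : Set G) := by
    rw [Subgroup.commutator_le]
    intro v hv t ht
    rw [commutatorElement_def, Cfsg.Agent.Helper19.NatSL2.mem_cent_iff hc]
    obtain ⟨h1, _, h3⟩ := Cfsg.Agent.Helper19.NatSL2.comm_formula hc v hv t ht
    exact ⟨h1, h3⟩
  have hge : V ⊓ Subgroup.centralizer (T : Set G) ≤ ⁅V, T⁆ := by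
    intro x hx
    rw [Cfsg.Agent.Helper19.NatSL2.mem_cent_iff hc] at hx
    obtain ⟨v, hv, hvX, hvY⟩ := hc.surj 0 1
    obtain ⟨t, ht, htB⟩ := Cfsg.Agent.Helper19.NatSL2.exists_T hc (- X x)
    obtain ⟨h1, h2, h3⟩ := Cfsg.Agent.Helper19.NatSL2.comm_formula hc v hv t ht
    have e : v * t * v⁻¹ * t⁻¹ = x :=
      hc.inj _ h1 _ hx.1 (by rw [h2, htB, hvY]; ring) (by rw [h3, hx.2])
    rw [← e, ← commutatorElement_def]
    exact Subgroup.commutator_mem_commutator hv ht
  refine ⟨?_, ?_, ?_, ?_⟩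
  · rw [eq_bot_iff, Subgroup.commutator_le]
    intro x hx t ht
    have hxc : x ∈ Subgroup.centralizer (T : Set G) := (hle hx).2
    rw [Subgroup.mem_centralizer_iff] at hxc
    have := hxc t ht
    rw [Subgroup.mem_bot, commutatorElement_def]
    calc x * t * x⁻¹ * t⁻¹ = (t * x) * x⁻¹ * t⁻¹ := by rw [this]
      _ = 1 := by group
  · rw [hcard, hF, ← pow_mul, mul_comm]
  · rw [Cfsg.Agent.Helper19.NatSL2.card_cent hc, hF]
  · intro s hs hs1
    have hB := Cfsg.Agent.Helper19.NatSL2.B_ne_zero hc s hs hs1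
    refine ⟨?_, le_antisymm hle hge, ?_, ?_⟩
    · ext x
      rw [Cfsg.Agent.Helper19.NatSL2.mem_cent_single_iff hc s hs hs1,
        Cfsg.Agent.Helper19.NatSL2.mem_cent_iff hc]
    · apply le_antisymm
      · exact (Subgroup.commutator_mono le_rfl ((Subgroup.zpowers_le).mpr hs)).trans hle
      · intro x hx
        rw [Cfsg.Agent.Helper19.NatSL2.mem_cent_iff hc] at hx
        obtain ⟨v, hv, hvX, hvY⟩ := hc.surj 0 (- X x / B s)
        obtain ⟨h1, h2, h3⟩ := Cfsg.Agent.Helper19.NatSL2.comm_formula hc v hv s hs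
        have e : v * s * v⁻¹ * s⁻¹ = x :=
          hc.inj _ h1 _ hx.1 (by rw [h2, hvY]; field_simp) (by rw [h3, hx.2])
        rw [← e, ← commutatorElement_def]
        exact Subgroup.commutator_mem_commutator hv (Subgroup.mem_zpowers s)
    · intro v hv hvC
      have hvY : Y v ≠ 0 := fun h =>
        hvC ((Cfsg.Agent.Helper19.NatSL2.mem_cent_iff hc v).mpr ⟨hv, h⟩).2
      apply le_antisymm
      · rw [Subgroup.closure_le]
        rintro x ⟨t, ht, rfl⟩
        obtain ⟨h1, _, h3⟩ := Cfsg.Agent.Helper19.NatSL2.comm_formula hc v hv t ht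
        exact (Cfsg.Agent.Helper19.NatSL2.mem_cent_iff hc _).mpr ⟨h1, h3⟩
      · intro x hx
        rw [Cfsg.Agent.Helper19.NatSL2.mem_cent_iff hc] at hx
        obtain ⟨t, ht, htB⟩ := Cfsg.Agent.Helper19.NatSL2.exists_T hc (- X x / Y v)
        obtain ⟨h1, h2, h3⟩ := Cfsg.Agent.Helper19.NatSL2.comm_formula hc v hv t ht
        have e : v * t * v⁻¹ * t⁻¹ = x :=
          hc.inj _ h1 _ hx.1 (by rw [h2, htB]; field_simp) (by rw [h3, hx.2])
        exact Subgroup.subset_closure ⟨t, ht, e.symm⟩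

end Cfsg.Agent.S2779
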