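import Mathlib
import Cfsg.Statements.S2780
import Cfsg.Agent.Helper19.NatSL2

set_option autoImplicit false

open Cfsg

namespace Cfsg.Agent.S2780


/-- Let L act on the elementary abelian p-group V (inside a finite group, faithfully) as SL₂(F) on its natural module, F a field with p^n elements, S a Sylow p-subgroup of L. Then: for every g ∈ L not normalizing S, V is the internal direct product of C_V(S) and C_V(gSg⁻¹); every nonidentity element of L of order prime to p acts on V without nonidentity fixed points; and C_V(S) and V/C_V(S) are irreducible for N_L(S): the only N_L(S)-invariant subgroups of C_V(S) are 1 and C_V(S), and the only N_L(S)-invariant subgroups between C_V(S) and V are those two. -/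
theorem result {G : Type*} [Group G] [Finite G] {p : ℕ} [Fact p.Prime] {F : Type*} [Field F] [Fintype F] (n : ℕ) (hF : Fintype.card F = p ^ n) (V L : Subgroup G) (hnat : Cfsg.IsNaturalSL2Module F V L) (hf : L ⊓ Subgroup.centralizer (V : Set G) = ⊥) (S : Sylow p ↥L) (T : Subgroup G) (hT : T = ((S : Subgroup ↥L).map L.subtype)) : (∀ g ∈ L, g ∉ Subgroup.normalizer (T : Set G) → Cfsg.IsInternalDirectProduct (V ⊓ Subgroup.centralizer ((T : Subgroup G) : Set G)) (V ⊓ Subgroup.centralizer ((T.map (MulAut.conj g).toMonoidHom : Subgroup G) : Set G)) V) ∧ (∀ x ∈ L, x ≠ 1 → (orderOf x).Coprime p → (V ⊓ Subgroup.centralizer ({x} : Set G)) = ⊥) ∧ (∀ U : Subgroup G, U ≤ (V ⊓ Subgroup.centralizer ((T : Subgroup G) : Set G)) → L ⊓ Subgroup.normalizer (T : Set G) ≤ Subgroup.normalizer (U : Set G) → U = ⊥ ∨ U = (V ⊓ Subgroup.centralizer ((T : Subgroup G) : Set G))) ∧ (∀ U : Subgroup G, (V ⊓ Subgroup.centralizer ((T : Subgroup G) : Set G)) ≤ U → U ≤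 V → L ⊓ Subgroup.normalizer (T : Set G) ≤ Subgroup.normalizer (U : Set G) → U = (V ⊓ Subgroup.centralizer ((T : Subgroup G) : Set G)) ∨ U = V) := by
  obtain ⟨X, Y, A, B, C, D, hc, hcard, hn, hTp⟩ :=
    Cfsg.Agent.Helper19.NatSL2.exists_coord n hF V L hnat hf S T hT
  have hdiag : ∀ lam : F, lam ≠ 0 → ∃ h ∈ L ⊓ Subgroup.normalizer (T : Set G),
      A h = lam ∧ B h = 0 ∧ C h = 0 ∧ D h = lam⁻¹ := by
    intro lam hlam
    obtain ⟨h, hhL, hA, hB, hC, hD⟩ :=
      hc.lsurj lam 0 0 lam⁻¹ (by rw [mul_inv_cancel₀ hlam]; ring)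
    exact ⟨h, ⟨hhL, Cfsg.Agent.Helper19.NatSL2.mem_normalizer_of_C hc h hhL hC⟩, hA, hB, hC, hD⟩
  refine ⟨?_, ?_, ?_, ?_⟩
  · intro g hg hgN
    have hCg : C g ≠ 0 := fun h =>
      hgN (Cfsg.Agent.Helper19.NatSL2.mem_normalizer_of_C hc g hg h)
    refine ⟨inf_le_left, inf_le_left, ?_, ?_, ?_⟩
    · intro a ha b hb
      exact Cfsg.Agent.Helper19.NatSL2.coord_comm hc a ha.1 b hb.1
    · rw [eq_bot_iff]
      rintro x ⟨hx1, hx2⟩
      rw [Subgroup.mem_bot]
      have h1 := (Cfsg.Agent.Helper19.NatSL2.mem_cent_iff hc x).mp hx1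
      have h2 := (Cfsg.Agent.Helper19.NatSL2.mem_cent_conj_iff hc g hg x h1.1).mp hx2.2
      rw [h1.2, mul_zero] at h2
      have hX : X x = 0 := (mul_eq_zero.mp h2.symm).resolve_left hCg
      exact Cfsg.Agent.Helper19.NatSL2.coord_eq_one hc x h1.1 hX h1.2
    · apply le_antisymm (sup_le inf_le_left inf_le_left)
      intro x hx
      obtain ⟨b, hbV, hbX, hbY⟩ := hc.surj (A g * Y x / C g) (Y x)
      obtain ⟨a, haV, haX, haY⟩ := hc.surj (X x - A g * Y x / C g) 0
      have e : a * b = x := hc.inj _ (V.mul_mem haV hbV) _ hx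
        (by rw [(hc.add a haV b hbV).1, haX, hbX]; ring)
        (by rw [(hc.add a haV b hbV).2, haY, hbY]; ring)
      rw [← e]
      refine Subgroup.mul_mem_sup
        ((Cfsg.Agent.Helper19.NatSL2.mem_cent_iff hc a).mpr ⟨haV, haY⟩) ⟨hbV, ?_⟩
      show b ∈ Subgroup.centralizer ((T.map (MulAut.conj g).toMonoidHom : Subgroup G) : Set G)
      rw [Cfsg.Agent.Helper19.NatSL2.mem_cent_conj_iff hc g hg b hbV, hbX, hbY]
      field_simp
  · intro x hxL hx1 hcop
    rw [eq_bot_iff]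
    rintro v ⟨hvV, hvC'⟩
    have hvC : v ∈ Subgroup.centralizer ({x} : Set G) := hvC'
    rw [Subgroup.mem_bot]
    by_contra hv1
    apply hx1
    have hcomm := (Subgroup.mem_centralizer_iff.mp hvC) x (Set.mem_singleton x)
    have e : x * v * x⁻¹ = v := by rw [hcomm]; group
    obtain ⟨_, eX, eY⟩ := hc.act x hxL v hvV
    rw [e] at eX eY
    obtain ⟨b, d, hbd⟩ : ∃ b d : F, X v * d - b * Y v = 1 := by
      by_cases h0 : X v = 0
      · have h1 : Y v ≠ 0 := fun h1 =>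
          hv1 (Cfsg.Agent.Helper19.NatSL2.coord_eq_one hc v hvV h0 h1)
        exact ⟨-(Y v)⁻¹, 0, by rw [mul_zero, zero_sub, neg_mul, neg_neg, inv_mul_cancel₀ h1]⟩
      · exact ⟨0, (X v)⁻¹, by rw [mul_inv_cancel₀ h0, zero_mul, sub_zero]⟩
    obtain ⟨g, hgL, gA, gB, gC, gD⟩ := hc.lsurj (X v) b (Y v) d hbd
    obtain ⟨iA, iB, iC, iD⟩ := Cfsg.Agent.Helper19.NatSL2.entries_inv hc g hgL
    have hgi : g⁻¹ ∈ L := L.inv_mem hgL
    have hy : g⁻¹ * x * g ∈ L := L.mul_mem (L.mul_mem hgi hxL) hgL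
    obtain ⟨m1, m2, m3, m4⟩ := hc.mul g⁻¹ hgi x hxL
    obtain ⟨n1, n2, n3, n4⟩ := hc.mul (g⁻¹ * x) (L.mul_mem hgi hxL) g hgL
    have hyA : A (g⁻¹ * x * g) = 1 := by
      rw [n1, m1, m2, iA, iB, gA, gB, gC, gD]
      linear_combination (-d) * eX + b * eY + hbd
    have hyC : C (g⁻¹ * x * g) = 0 := by
      rw [n3, m3, m4, iC, iD, gA, gC]
      linear_combination (Y v) * eX - (X v) * eY
    have hyD : D (g⁻¹ * x * g) = 1 := by
      have := hc.det _ hy
      rw [hyA, hyC] at this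
      linear_combination this
    have hyT : g⁻¹ * x * g ∈ T := (hc.syl _ hy).mpr ⟨hyA, hyC, hyD⟩
    obtain ⟨k, hk⟩ := hTp ⟨_, hyT⟩
    have hk' : (g⁻¹ * x * g) ^ p ^ k = 1 := congrArg Subtype.val hk
    have hxe : x = g * (g⁻¹ * x * g) * g⁻¹ := by group
    have hxk : x ^ p ^ k = 1 := by
      rw [hxe, conj_pow, hk', mul_one, mul_inv_cancel]
    have hdvd : orderOf x ∣ p ^ k := orderOf_dvd_of_pow_eq_one hxk
    have h1 : orderOf x = 1 := Nat.Coprime.eq_one_of_dvd (hcop.pow_right k) hdvd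
    exact orderOf_eq_one_iff.mp h1
  · intro U hU hN
    by_cases hbot : U = ⊥
    · exact Or.inl hbot
    · right
      rw [Subgroup.eq_bot_iff_forall] at hbot
      push Not at hbot
      obtain ⟨x, hxU, hx1⟩ := hbot
      have hx := (Cfsg.Agent.Helper19.NatSL2.mem_cent_iff hc x).mp (hU hxU)
      have hX : X x ≠ 0 := fun h =>
        hx1 (Cfsg.Agent.Helper19.NatSL2.coord_eq_one hc x hx.1 h hx.2)
      apply le_antisymm hU
      intro y hy
      rw [Cfsg.Agent.Helper19.NatSL2.mem_cent_iff hc] at hy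
      by_cases hy0 : X y = 0
      · rw [Cfsg.Agent.Helper19.NatSL2.coord_eq_one hc y hy.1 hy0 hy.2]
        exact U.one_mem
      · obtain ⟨h, hhN, hA, hB, hC, hD⟩ := hdiag (X y / X x) (div_ne_zero hy0 hX)
        have hmemU : h * x * h⁻¹ ∈ U := (Subgroup.mem_normalizer_iff.mp (hN hhN) x).mp hxU
        obtain ⟨hm, eX, eY⟩ := hc.act h hhN.1 x hx.1
        have e : h * x * h⁻¹ = y := hc.inj _ hm _ hy.1
          (by rw [eX, hA, hB, hx.2, div_mul_cancel₀ _ hX]; ring)
          (by rw [eY, hC, hD, hx.2, hy.2]; ring)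
        rw [← e]
        exact hmemU
  · intro U hU1 hU2 hN
    by_cases hle : U ≤ V ⊓ Subgroup.centralizer (T : Set G)
    · exact Or.inl (le_antisymm hle hU1)
    · right
      rw [SetLike.not_le_iff_exists] at hle
      obtain ⟨x, hxU, hxn⟩ := hle
      have hxV := hU2 hxU
      have hxY : Y x ≠ 0 := fun h =>
        hxn ((Cfsg.Agent.Helper19.NatSL2.mem_cent_iff hc x).mpr ⟨hxV, h⟩)
      apply le_antisymm hU2
      intro y hy
      by_cases hy0 : Y y = 0
      · exact hU1 ((Cfsg.Agent.Helper19.NatSL2.mem_cent_iff hc y).mpr ⟨hy, hy0⟩)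
      · obtain ⟨h, hhN, hA, hB, hC, hD⟩ := hdiag (Y x / Y y) (div_ne_zero hxY hy0)
        have hmemU : h * x * h⁻¹ ∈ U := (Subgroup.mem_normalizer_iff.mp (hN hhN) x).mp hxU
        obtain ⟨hm, eX, eY⟩ := hc.act h hhN.1 x hxV
        obtain ⟨z, hzV, hzX, hzY⟩ := hc.surj (X y - Y x / Y y * X x) 0
        have hzU : z ∈ U := hU1 ((Cfsg.Agent.Helper19.NatSL2.mem_cent_iff hc z).mpr ⟨hzV, hzY⟩)
        have e : z * (h * x * h⁻¹) = y := hc.inj _ (V.mul_mem hzV hm) _ hy
          (by rw [(hc.add z hzV _ hm).1, hzX, eX, hA, hB]; ring)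
          (by rw [(hc.add z hzV _ hm).2, hzY, eY, hC, hD, inv_div, div_mul_cancel₀ _ hxY]; ring)
        rw [← e]
        exact U.mul_mem hzU hmemU

end Cfsg.Agent.S2780
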