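import Cfsg.Statements.S2781
import Cfsg.Agent.Helper5.Grp
import Cfsg.Agent.Helper6.PResidual

set_option autoImplicit false
open Cfsg

namespace Cfsg.Agent.S2781

open scoped commutatorElement

open scoped IsMulCommutative in
theorem avg {G : Type*} [Group G] [Finite G] (V R : Subgroup G) (S : Subgroup ↥R)
    [IsMulCommutative ↥V] (hRV : R ≤ Subgroup.normalizer (V : Set G))
    (v : G) (hv : v ∈ V) (hvT : ∀ t ∈ S, ((t : ↥R) : G) * v = v * ((t : ↥R) : G)) :
    v ^ S.index ∈ ⁅V, R⁆ ⊔ (V ⊓ Subgroup.centralizer (R : Set G)) := by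
  classical
  haveI : Fintype (↥R ⧸ S) := Fintype.ofFinite _
  have hconj : ∀ r ∈ R, ∀ x ∈ V, r * x * r⁻¹ ∈ V := fun r hr x hx =>
    ((Subgroup.mem_normalizer_iff.1 (hRV hr)) x).1 hx
  obtain ⟨C, hC⟩ : ∃ C : ↥R ⧸ S → ↥V,
      ∀ q, ((C q : ↥V) : G) = ((q.out : ↥R) : G) * v * ((q.out : ↥R) : G)⁻¹ :=
    ⟨fun q => ⟨((q.out : ↥R) : G) * v * ((q.out : ↥R) : G)⁻¹, hconj _ q.out.2 v hv⟩,
      fun q => rfl⟩
  have hperm : ∀ (r : ↥R) (q : ↥R ⧸ S),
      (r : G) * ((C q : ↥V) : G) * (r : G)⁻¹ = ((C (r • q) : ↥V) : G) := by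
    intro r q
    have h1 : (((r • q).out : ↥R) : ↥R ⧸ S) = ((r * q.out : ↥R) : ↥R ⧸ S) := by
      rw [QuotientGroup.out_eq']
      conv_lhs => rw [← QuotientGroup.out_eq' q]
      rfl
    have h2 : ((r • q).out)⁻¹ * (r * q.out) ∈ S := QuotientGroup.eq.1 h1
    have h3 := hvT _ h2
    simp only [Subgroup.coe_mul, Subgroup.coe_inv] at h3
    rw [hC, hC]
    generalize (((r • q).out : ↥R) : G) = b at h3 ⊢
    generalize ((q.out : ↥R) : G) = ρ at h3 ⊢
    generalize (r : G) = r0 at h3 ⊢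
    calc r0 * (ρ * v * ρ⁻¹) * r0⁻¹ = b * ((b⁻¹ * (r0 * ρ)) * v) * (r0 * ρ)⁻¹ := by group
      _ = b * (v * (b⁻¹ * (r0 * ρ))) * (r0 * ρ)⁻¹ := by rw [h3]
      _ = b * v * b⁻¹ := by group
  have hfix : ∀ r : ↥R,
      (r : G) * ((∏ q, C q : ↥V) : G) * (r : G)⁻¹ = ((∏ q, C q : ↥V) : G) := by
    intro r
    let φ : ↥V →* ↥V :=
      { toFun := fun x => ⟨(r : G) * (x : G) * (r : G)⁻¹, hconj _ r.2 _ x.2⟩
        map_one' := by
          apply Subtype.ext
          show (r : G) * 1 * (r : G)⁻¹ = 1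
          group
        map_mul' := by
          intro x y
          apply Subtype.ext
          show (r : G) * ((x : G) * (y : G)) * (r : G)⁻¹
            = ((r : G) * (x : G) * (r : G)⁻¹) * ((r : G) * (y : G) * (r : G)⁻¹)
          group }
    have h1 : φ (∏ q, C q) = ∏ q, φ (C q) := map_prod φ C Finset.univ
    have h2 : ∀ q, φ (C q) = C (r • q) := fun q => Subtype.ext (hperm r q)
    have h3 : ∏ q, C (r • q) = ∏ q, C q :=
      Fintype.prod_equiv (MulAction.toPerm r) _ _ (fun q => rfl)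
    have h4 : φ (∏ q, C q) = ∏ q, C q := by
      rw [h1, Finset.prod_congr rfl (fun q _ => h2 q)]
      exact h3
    exact congrArg Subtype.val h4
  have hτC : ((∏ q, C q : ↥V) : G) ∈ V ⊓ Subgroup.centralizer (R : Set G) := by
    refine Subgroup.mem_inf.2 ⟨(∏ q, C q : ↥V).2, ?_⟩
    rw [Subgroup.mem_centralizer_iff]
    intro r hr
    exact mul_inv_eq_iff_eq_mul.1 (hfix ⟨r, hr⟩)
  obtain ⟨v', hv'⟩ : ∃ v' : ↥V, (v' : G) = v := ⟨⟨v, hv⟩, rfl⟩
  have hD : ∀ q, ((v'⁻¹ * C q : ↥V) : G) ∈ ⁅V, R⁆ := by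
    intro q
    have h1 : ⁅v⁻¹, ((q.out : ↥R) : G)⁆ ∈ ⁅V, R⁆ :=
      Subgroup.commutator_mem_commutator (V.inv_mem hv) q.out.2
    have h2 : ((v'⁻¹ * C q : ↥V) : G) = ⁅v⁻¹, ((q.out : ↥R) : G)⁆ := by
      rw [Subgroup.coe_mul, Subgroup.coe_inv, hC, hv', commutatorElement_def]
      group
    rw [h2]
    exact h1
  have hprod : (∏ q, C q : ↥V) = v' ^ Fintype.card (↥R ⧸ S) * ∏ q, (v'⁻¹ * C q) := by
    calc (∏ q, C q : ↥V) = ∏ q, (v' * (v'⁻¹ * C q)) :=
          Finset.prod_congr rfl (fun q _ => (mul_inv_cancel_left v' (C q)).symm)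
      _ = (∏ _q : ↥R ⧸ S, v') * ∏ q, (v'⁻¹ * C q) := Finset.prod_mul_distrib
      _ = v' ^ Fintype.card (↥R ⧸ S) * ∏ q, (v'⁻¹ * C q) := by
          rw [Finset.prod_const, Finset.card_univ]
  have hDmem : ((∏ q, (v'⁻¹ * C q) : ↥V) : G) ∈ ⁅V, R⁆ := by
    have : (∏ q, (v'⁻¹ * C q) : ↥V) ∈ (⁅V, R⁆).subgroupOf V :=
      Subgroup.prod_mem _ (fun q _ => Subgroup.mem_subgroupOf.2 (hD q))
    exact Subgroup.mem_subgroupOf.1 this
  have hm : S.index = Fintype.card (↥R ⧸ S) := by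
    show Nat.card (↥R ⧸ S) = _
    exact Nat.card_eq_fintype_card
  have hval : v ^ S.index
      = ((∏ q, C q : ↥V) : G) * ((∏ q, (v'⁻¹ * C q) : ↥V) : G)⁻¹ := by
    have h1 := congrArg Subtype.val hprod
    rw [Subgroup.coe_mul, Subgroup.coe_pow, hv'] at h1
    rw [hm, h1]
    group
  rw [hval, sup_comm]
  exact Subgroup.mul_mem_sup hτC (Subgroup.inv_mem _ hDmem)


/-- Let H act faithfully by conjugation on the elementary abelian p-subgroup V of a finite group, let O^p(H) be the subgroup of H generated by its elements of order prime to p, and T a Sylow p-subgroup of O^p(H). If V is generated by the H-conjugates of C_V(T) (V is the smallest H-invariant subgroup containing C_V(T)), then V = [V, O^p(H)]·C_V(O^p(H)). -/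
theorem result {G : Type*} [Group G] [Finite G] {p : ℕ} [Fact p.Prime] (V H : Subgroup G) (hV : Cfsg.IsElementaryAbelian p V) (hHV : H ≤ Subgroup.normalizer (V : Set G)) (hf : H ⊓ Subgroup.centralizer (V : Set G) = ⊥) (R : Subgroup G) (hR : R = (Cfsg.pResidual p ↥H).map H.subtype) (S : Sylow p ↥R) (T : Subgroup G) (hT : T = ((S : Subgroup ↥R).map R.subtype)) (hgen : ∀ W : Subgroup G, H ≤ Subgroup.normalizer (W : Set G) → (V ⊓ Subgroup.centralizer ((T : Subgroup G) : Set G)) ≤ W → V ≤ W) : ⁅V, R⁆ ⊔ (V ⊓ Subgroup.centralizer ((R : Subgroup G) : Set G)) = V := by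

  classical
  haveI := hV.1
  have hRH : R ≤ H := by
    rw [hR]
    exact Subgroup.map_subtype_le _
  have hRV : R ≤ Subgroup.normalizer (V : Set G) := hRH.trans hHV
  have hTR : ∀ t ∈ (S : Subgroup ↥R), ((t : ↥R) : G) ∈ T := by
    intro t ht
    rw [hT]
    exact Subgroup.mem_map_of_mem _ ht
  have hHR : ∀ h ∈ H, ∀ r ∈ R, h * r * h⁻¹ ∈ R := by
    intro h hh r hr
    rw [hR] at hr ⊢
    obtain ⟨r', hr', rfl⟩ := hr
    have hn : (Cfsg.pResidual p ↥H).Normal := Helper6.pResidual_normal p ↥H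
    refine ⟨⟨h, hh⟩ * r' * ⟨h, hh⟩⁻¹, hn.conj_mem r' hr' ⟨h, hh⟩, ?_⟩
    simp
  obtain ⟨W, hW⟩ : ∃ W : Subgroup G,
      W = ⁅V, R⁆ ⊔ (V ⊓ Subgroup.centralizer (R : Set G)) := ⟨_, rfl⟩
  rw [← hW]
  have hWV : W ≤ V := by
    rw [hW]
    apply sup_le
    · rw [Subgroup.commutator_le]
      intro a ha b hb
      have h1 : b * a⁻¹ * b⁻¹ ∈ V :=
        ((Subgroup.mem_normalizer_iff.1 (hRV hb)) a⁻¹).1 (V.inv_mem ha)
      have h2 : ⁅a, b⁆ = a * (b * a⁻¹ * b⁻¹) := by
        rw [commutatorElement_def]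
        group
      rw [h2]
      exact V.mul_mem ha h1
    · exact inf_le_left
  have hHW : H ≤ Subgroup.normalizer (W : Set G) := by
    intro h hh
    have hmapW : W.map (MulAut.conj h).toMonoidHom ≤ W := by
      rw [hW, Subgroup.map_sup]
      apply sup_le_sup
      · rw [Subgroup.map_commutator]
        apply Subgroup.commutator_mono
        · rintro _ ⟨x, hx, rfl⟩
          simpa [MulAut.conj_apply] using ((Subgroup.mem_normalizer_iff.1 (hHV hh)) x).1 hx
        · rintro _ ⟨x, hx, rfl⟩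
          simpa [MulAut.conj_apply] using hHR h hh x hx
      · rintro _ ⟨x, hx, rfl⟩
        refine Subgroup.mem_inf.2 ⟨?_, ?_⟩
        · simpa [MulAut.conj_apply] using ((Subgroup.mem_normalizer_iff.1 (hHV hh)) x).1 hx.1
        · rw [Subgroup.mem_centralizer_iff]
          intro r hr
          have h1 := hHR h⁻¹ (H.inv_mem hh) r hr
          have h2 := (Subgroup.mem_centralizer_iff.1 hx.2) _ h1
          show r * (h * x * h⁻¹) = (h * x * h⁻¹) * r
          have h3 : r * (h * x * h⁻¹) = h * ((h⁻¹ * r * h⁻¹⁻¹) * x) * h⁻¹ := by group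
          rw [h3, h2]
          group
    apply Helper5.mem_normalizer_of_conj_mem
    intro x hx
    simpa [MulAut.conj_apply] using hmapW (Subgroup.mem_map_of_mem _ hx)
  have hCT : V ⊓ Subgroup.centralizer ((T : Subgroup G) : Set G) ≤ W := by
    intro v hv
    have hvV := hv.1
    have hvT : ∀ t ∈ (S : Subgroup ↥R), ((t : ↥R) : G) * v = v * ((t : ↥R) : G) := by
      intro t ht
      exact (Subgroup.mem_centralizer_iff.1 hv.2) _ (hTR t ht)
    have h1 := avg V R (S : Subgroup ↥R) hRV v hvV hvT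
    rw [← hW] at h1
    have hcop : (S : Subgroup ↥R).index.Coprime (orderOf v) := by
      have h2 : orderOf v ∣ p := orderOf_dvd_of_pow_eq_one (hV.2 v hvV)
      have h3 : ¬ p ∣ (S : Subgroup ↥R).index := S.not_dvd_index
      exact Nat.Coprime.coprime_dvd_right h2
        ((Nat.Prime.coprime_iff_not_dvd Fact.out).2 h3).symm
    obtain ⟨a, ha⟩ := exists_pow_eq_self_of_coprime hcop
    rw [← ha]
    exact W.pow_mem h1 a
  exact le_antisymm hWV (hgen W hHW hCT)

end Cfsg.Agent.S2781
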