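import Cfsg.Statements.S2791
import Cfsg.Agent.Helper25.GroupFusion2
import Cfsg.Agent.Helper26.FusNormal2

set_option autoImplicit false
open Cfsg

namespace Cfsg.Agent.S2791

/-- Let S be a Sylow p-subgroup of the finite group G and A an abelian subgroup of S that is strongly closed in S with respect to G. Then A controls strong fusion in G: for some Sylow p-subgroup T containing A, whenever a subset of T is conjugated into T by an element of G, the same elementwise conjugation is induced by an element of N_G(A). -/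
theorem result {G : Type*} [Group G] [Finite G] {p : ℕ} [Fact p.Prime] (S : Sylow p G) (A : Subgroup G) (hA : IsMulCommutative ↥A) (hsc : Cfsg.IsStronglyClosed A (S : Subgroup G)) : Cfsg.ControlsStrongFusion p A := by
  obtain ⟨hAS, hsc2⟩ := hsc
  have hsc' : (groupFusionSystem (S : Subgroup G)).StronglyClosed A := by
    refine And.intro hAS ?_
    intro R hR φ hφ x
    obtain ⟨-, hφS, g, hg⟩ := Cfsg.Agent.Helper25.mem_groupFusionSystem_hom.mp hφ
    have h1 := hφS x
    rw [hg x] at h1 ⊢
    exact hsc2 (x : G) (hR x.2) g h1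
  have hF := Cfsg.Agent.Helper25.groupFusionSystem_isSaturated p S
  obtain ⟨C, hC⟩ : ∃ C : Fin (1 + 1) → Subgroup G, C = fun i => if i = 0 then ⊥ else A :=
    ⟨_, rfl⟩
  have hC0 : C 0 = ⊥ := by rw [hC]; exact if_pos rfl
  have hCn : C (Fin.last 1) = A := by rw [hC]; exact if_neg (by decide)
  have hmono : Monotone C := by
    intro i j hij
    rw [hC]
    by_cases hi : i = 0
    · show (if i = 0 then ⊥ else A) ≤ (if j = 0 then ⊥ else A)
      rw [if_pos hi]; exact bot_le
    · have hj : j ≠ 0 := by
        intro hj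
        apply hi
        rw [hj] at hij
        exact le_antisymm hij (Fin.zero_le _)
      show (if i = 0 then ⊥ else A) ≤ (if j = 0 then ⊥ else A)
      rw [if_neg hi, if_neg hj]
  have hAA : ⁅A, A⁆ = ⊥ := by
    rw [Subgroup.commutator_eq_bot_iff_le_centralizer]
    intro a ha
    rw [Subgroup.mem_centralizer_iff]
    intro b hb
    have := hA.is_comm.comm (⟨b, hb⟩ : ↥A) ⟨a, ha⟩
    exact congrArg Subtype.val this
  have hcomm : ∀ i : Fin 1, ⁅C i.succ, A⁆ ≤ C i.castSucc := by
    intro i
    have hi : i = 0 := Subsingleton.elim _ _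
    subst hi
    rw [hC]
    show ⁅(if (0 : Fin 1).succ = 0 then ⊥ else A), A⁆ ≤
      (if (0 : Fin 1).castSucc = 0 then ⊥ else A)
    rw [if_neg (by decide), if_pos (by decide), hAA]
  have hwc : ∀ i : Fin 1, (groupFusionSystem (S : Subgroup G)).WeaklyClosed (C i.castSucc) := by
    intro i
    have hi : i = 0 := Subsingleton.elim _ _
    subst hi
    have e : C (0 : Fin 1).castSucc = ⊥ := by simpa using hC0
    rw [e]
    exact Cfsg.Agent.Helper26.weaklyClosed_of_stronglyClosed _
      (Cfsg.Agent.Helper26.stronglyClosed_bot _)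
  have hnorm : (groupFusionSystem (S : Subgroup G)).IsNormal A :=
    Cfsg.Agent.Helper26.normal_of_chain S.isPGroup' _ hF hsc' 1 C hC0 hCn hmono hcomm hwc
  refine ⟨S, hAS, ?_⟩
  intro B hB
  refine And.intro hB ?_
  intro g hg
  have hRS : Subgroup.closure B ≤ (S : Subgroup G) := (Subgroup.closure_le _).mpr hB
  have hφS : ∀ x : ↥(Subgroup.closure B), g * (x : G) * g⁻¹ ∈ (S : Subgroup G) := by
    intro x
    have hle : Subgroup.closure B ≤ (S : Subgroup G).comap (MulAut.conj g).toMonoidHom := by
      rw [Subgroup.closure_le]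
      intro b hb
      exact hg ⟨b, hb, rfl⟩
    exact hle x.2
  have hφ : conjHom (Subgroup.closure B) g ∈
      (groupFusionSystem (S : Subgroup G)).Hom (Subgroup.closure B) :=
    Cfsg.Agent.Helper25.mem_groupFusionSystem_hom.mpr ⟨hRS, hφS, g, fun x => rfl⟩
  obtain ⟨ψ, hψ, hψa, hψQ⟩ := hnorm.2 _ _ hφ
  obtain ⟨-, -, k, hk⟩ := Cfsg.Agent.Helper25.mem_groupFusionSystem_hom.mp hψ
  refine ⟨k, ?_, ?_⟩
  · have hkA : ∀ a ∈ A, k * a * k⁻¹ ∈ A := by
      intro a ha
      have hmem : ψ ⟨a, Subgroup.mem_sup_right ha⟩ ∈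
          (A.subgroupOf (Subgroup.closure B ⊔ A)).map ψ :=
        Subgroup.mem_map_of_mem ψ (Subgroup.mem_subgroupOf.mpr ha)
      rw [hψQ, hk] at hmem
      exact hmem
    have hle : A.map (MulAut.conj k).toMonoidHom ≤ A := by
      rintro _ ⟨a, ha, rfl⟩
      exact hkA a ha
    have hcard : Nat.card (A.map (MulAut.conj k).toMonoidHom) = Nat.card A :=
      Subgroup.card_map_of_injective (MulAut.conj k).injective
    have heq : A.map (MulAut.conj k).toMonoidHom = A :=
      Subgroup.eq_of_le_of_card_ge hle hcard.ge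
    exact Subgroup.mem_normalizer_iff_map_conj_eq.mpr heq
  · intro a ha
    have h1 := hψa ⟨a, Subgroup.subset_closure ha⟩
    rw [hk] at h1
    exact h1.symm

end Cfsg.Agent.S2791
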