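import Cfsg.Statements.S2941
import Cfsg.Statements.S2941
import Cfsg.Agent.Helper16.Conj

set_option autoImplicit false
open Cfsg

namespace Cfsg.Agent.S2941

open scoped commutatorElement

theorem pow_mul_mem {G : Type*} [Group G] (K : Subgroup G) (k j : G) (hk : k ∈ K)
    (hj : ∀ n : ℕ, ∀ x ∈ K, j ^ n * x * (j ^ n)⁻¹ ∈ K) (n : ℕ) :
    (k * j) ^ n * (j ^ n)⁻¹ ∈ K := by
  induction n with
  | zero => simp
  | succ n ih =>
    have h1 : (k * j) ^ (n + 1) * (j ^ (n + 1))⁻¹ =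
        ((k * j) ^ n * (j ^ n)⁻¹) * (j ^ n * k * (j ^ n)⁻¹) := by
      rw [pow_succ, pow_succ]
      simp [mul_assoc]
    rw [h1]; exact K.mul_mem ih (hj n k hk)

theorem mem_of_pow_mem_of_coprime {G : Type*} [Group G] (K : Subgroup G) (j : G) (n m : ℕ)
    (hc : Nat.Coprime n m) (h1 : j ^ n ∈ K) (h2 : j ^ m = 1) : j ∈ K := by
  have hb := Nat.gcd_eq_gcd_ab n m
  rw [Nat.Coprime.gcd_eq_one hc] at hb
  have h3 : j = (j ^ n) ^ (Nat.gcdA n m) * (j ^ m) ^ (Nat.gcdB n m) := by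
    rw [← zpow_natCast, ← zpow_natCast, ← zpow_mul, ← zpow_mul, ← zpow_add, ← hb]
    simp
  rw [h3, h2, one_zpow, mul_one]
  exact K.zpow_mem h1 _


/-- Let G be a finite group of characteristic 2 type in which every 2-local subgroup is solvable and the centralizer of Ω₁(Z(S)) lies in N_G(S) for every Sylow 2-subgroup S, and let T be a nontrivial 2-subgroup and K a J(T)-component (J the Thompson subgroup generated by the elementary abelian 2-subgroups of largest order). If a subgroup Q is normalized by ⟨K, J(T)⟩ and normalizes J(T), then Q normalizes K. -/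
theorem result {G : Type*} [Group G] [Finite G] (hL : Cfsg.IsCharacteristicTwoType G) (hN : ∀ N : Subgroup G, Cfsg.IsTwoLocal N → Group.IsSolvable ↥N)
    (hZ : ∀ S : Sylow 2 G, Subgroup.centralizer (Cfsg.omegaCenterOf (S : Subgroup G) : Set G) ≤ Subgroup.normalizer ((S : Subgroup G) : Set G)) (T : Subgroup G) (hT : IsPGroup 2 ↥T) (hT1 : T ≠ ⊥) (K : Subgroup G) (hK : Cfsg.IsJComponent T K)
    (Q : Subgroup G) (hQ1 : K ⊔ Cfsg.thompsonSubgroupOf 2 T ≤ Subgroup.normalizer (Q : Set G)) (hQ2 : Q ≤ Subgroup.normalizer (Cfsg.thompsonSubgroupOf 2 T : Set G)) :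
    Q ≤ Subgroup.normalizer (K : Set G) := by

  obtain ⟨hgen, hcomm, -⟩ := hK
  have hJle : Cfsg.thompsonSubgroupOf 2 T ≤ T := by
    rintro _ ⟨y, -, rfl⟩; exact y.2
  have hJ2 : IsPGroup 2 ↥(Cfsg.thompsonSubgroupOf 2 T) := hT.to_le hJle
  have hJN : Cfsg.thompsonSubgroupOf 2 T ≤ Subgroup.normalizer (K : Set G) := by
    intro j hj
    apply Cfsg.Agent.Helper16.mem_normalizer_of_conj_mem
    intro k hk
    have h1 : ⁅k⁻¹, j⁆ ∈ ⁅K, Cfsg.thompsonSubgroupOf 2 T⁆ :=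
      Subgroup.commutator_mem_commutator (K.inv_mem hk) hj
    rw [hcomm] at h1
    have h2 : j * k * j⁻¹ = k * ⁅k⁻¹, j⁆ := by rw [commutatorElement_def]; group
    rw [h2]; exact K.mul_mem hk h1
  have hodd : ∀ g ∈ K ⊔ Cfsg.thompsonSubgroupOf 2 T, Odd (orderOf g) → g ∈ K := by
    intro g hg hgo
    have hmem : g ∈ ((K ⊔ Cfsg.thompsonSubgroupOf 2 T : Subgroup G) : Set G) := hg
    rw [Subgroup.coe_mul_of_right_le_normalizer_left K _ hJN] at hmem
    obtain ⟨k, hk, j, hj, rfl⟩ := Set.mem_mul.mp hmem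
    have hk' : k ∈ K := hk
    have hj' : j ∈ Cfsg.thompsonSubgroupOf 2 T := hj
    have h1 := pow_mul_mem K k j hk' (fun n x hx =>
      (Subgroup.mem_normalizer_iff.mp (hJN (pow_mem hj' n)) x).mp hx) (orderOf (k * j))
    rw [pow_orderOf_eq_one, one_mul] at h1
    have h2 : j ^ orderOf (k * j) ∈ K := by simpa using K.inv_mem h1
    obtain ⟨a, ha⟩ := hJ2 ⟨j, hj'⟩
    have ha' : j ^ 2 ^ a = 1 := by
      have := congrArg Subtype.val ha
      simpa using this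
    have hc : Nat.Coprime (orderOf (k * j)) (2 ^ a) :=
      Nat.Coprime.pow_right _ (Nat.coprime_two_right.mpr hgo)
    exact K.mul_mem hk' (mem_of_pow_mem_of_coprime K j _ _ hc h2 ha')
  intro q hq
  apply Cfsg.Agent.Helper16.mem_normalizer_of_conj_mem
  have hconjX : ∀ x ∈ K, q * x * q⁻¹ ∈ K ⊔ Cfsg.thompsonSubgroupOf 2 T := by
    intro x hx
    have hx' : x ∈ ⁅K, Cfsg.thompsonSubgroupOf 2 T⁆ := by rw [hcomm]; exact hx
    rw [Subgroup.commutator_def] at hx'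
    have hle : Subgroup.closure {g | ∃ g₁ ∈ K, ∃ g₂ ∈ Cfsg.thompsonSubgroupOf 2 T, ⁅g₁, g₂⁆ = g} ≤
        (K ⊔ Cfsg.thompsonSubgroupOf 2 T).comap (MulAut.conj q).toMonoidHom := by
      rw [Subgroup.closure_le]
      rintro _ ⟨k, hk, j, hj, rfl⟩
      show q * ⁅k, j⁆ * q⁻¹ ∈ K ⊔ Cfsg.thompsonSubgroupOf 2 T
      have hj' : q * j * q⁻¹ ∈ Cfsg.thompsonSubgroupOf 2 T :=
        (Subgroup.mem_normalizer_iff.mp (hQ2 hq) j).mp hj
      have hq'' : k⁻¹ * q * k⁻¹⁻¹ ∈ Q :=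
        (Subgroup.mem_normalizer_iff.mp (hQ1 (Subgroup.mem_sup_left (K.inv_mem hk))) q).mp hq
      have hq' : k⁻¹ * q * k⁻¹⁻¹ * q⁻¹ ∈ Q := Q.mul_mem hq'' (Q.inv_mem hq)
      have hj'' : (k⁻¹ * q * k⁻¹⁻¹ * q⁻¹) * (q * j * q⁻¹) * (k⁻¹ * q * k⁻¹⁻¹ * q⁻¹)⁻¹ ∈
          Cfsg.thompsonSubgroupOf 2 T :=
        (Subgroup.mem_normalizer_iff.mp (hQ2 hq') _).mp hj'
      have he : q * ⁅k, j⁆ * q⁻¹ = k * ((k⁻¹ * q * k⁻¹⁻¹ * q⁻¹) * (q * j * q⁻¹) *
          (k⁻¹ * q * k⁻¹⁻¹ * q⁻¹)⁻¹) * k⁻¹ * (q * j * q⁻¹)⁻¹ := by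
        rw [commutatorElement_def]; group
      rw [he]
      exact Subgroup.mul_mem _ (Subgroup.mul_mem _ (Subgroup.mul_mem _ (Subgroup.mem_sup_left hk)
        (Subgroup.mem_sup_right hj'')) (Subgroup.mem_sup_left (K.inv_mem hk)))
        (Subgroup.mem_sup_right (Subgroup.inv_mem _ hj'))
    exact hle hx'
  intro x hx
  have hx' : x ∈ Subgroup.closure {g : G | g ∈ K ∧ Odd (orderOf g)} := by rw [hgen]; exact hx
  have hle : Subgroup.closure {g : G | g ∈ K ∧ Odd (orderOf g)} ≤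
      K.comap (MulAut.conj q).toMonoidHom := by
    rw [Subgroup.closure_le]
    rintro g ⟨hgK, hgo⟩
    show q * g * q⁻¹ ∈ K
    apply hodd _ (hconjX g hgK)
    have h1 : orderOf (q * g * q⁻¹) = orderOf g :=
      orderOf_injective (MulAut.conj q).toMonoidHom (MulAut.conj q).injective g
    rw [h1]; exact hgo
  exact hle hx'

end Cfsg.Agent.S2941
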