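import Cfsg.Statements.S2947
import Cfsg.Statements.S2947
import Cfsg.Agent.Helper19.PGroup
import Cfsg.Agent.Helper16.Conj
import Cfsg.Agent.Helper15.SE

set_option autoImplicit false
open Cfsg

namespace Cfsg.Agent.S2947

open Cfsg.Agent.Helper15

/-- a 2-subgroup meeting `M` nontrivially lies in `M`, when normalizers of nontrivial 2-subgroups of `M`
lie in `M` -/
theorem le_of_inf_ne_bot {G : Type*} [Group G] [Finite G] (M : Subgroup G)
    (hloc : ∀ T : Subgroup G, IsPGroup 2 ↥T → T ≠ ⊥ → T ≤ M → Subgroup.normalizer (T : Set G) ≤ M)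
    (D : Subgroup G) (hD : IsPGroup 2 ↥D) (hne : D ⊓ M ≠ ⊥) : D ≤ M := by
  by_contra hDM
  have hlt : D ⊓ M < D := lt_of_le_of_ne inf_le_left (fun h => hDM (by rw [← h]; exact inf_le_right))
  obtain ⟨x, hxD, hxN, hxn⟩ := Cfsg.Agent.Helper19.exists_mem_normalizer_not_mem hD hlt
  exact hxn (Subgroup.mem_inf.mpr ⟨hxD, hloc (D ⊓ M) (hD.to_le inf_le_left) hne inf_le_right hxN⟩)

theorem two_dvd_card {G : Type*} [Group G] [Finite G] (T : Subgroup G) (hT : IsPGroup 2 ↥T)
    (hT1 : T ≠ ⊥) : 2 ∣ Nat.card T := by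
  obtain ⟨n, hn⟩ := IsPGroup.iff_card.mp hT
  have hn0 : n ≠ 0 := by
    rintro rfl
    rw [pow_zero] at hn
    exact hT1 (Subgroup.eq_bot_of_card_eq T hn)
  rw [hn]; exact dvd_pow_self 2 hn0

theorem forward {G : Type*} [Group G] [Finite G] (M : Subgroup G) (hSE : Cfsg.IsStronglyEmbedded M) :
    Cfsg.straddlingTwoSubgroups M = ∅ := by
  obtain ⟨-, -, hodd⟩ := hSE
  have hloc : ∀ T : Subgroup G, IsPGroup 2 ↥T → T ≠ ⊥ → T ≤ M →
      Subgroup.normalizer (T : Set G) ≤ M := by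
    intro T hT hT1 hTM g hg
    by_contra hgM
    have h1 := hodd g hgM
    have hle : T ≤ M ⊓ M.map (MulAut.conj g).toMonoidHom := by
      intro t ht
      refine Subgroup.mem_inf.mpr ⟨hTM ht, ?_⟩
      have h2 : g⁻¹ * t * g ∈ T := by
        have := (Subgroup.mem_normalizer_iff.mp (Subgroup.inv_mem _ hg) t).mp ht
        simpa using this
      exact ⟨g⁻¹ * t * g, hTM h2, by simp [MulAut.conj_apply, mul_assoc]⟩
    have hdvd : Nat.card T ∣ Nat.card ↥(M ⊓ M.map (MulAut.conj g).toMonoidHom) :=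
      Subgroup.card_dvd_of_le hle
    exact (Nat.not_even_iff_odd.mpr h1) (even_iff_two_dvd.mpr ((two_dvd_card T hT hT1).trans hdvd))
  ext T
  simp only [Set.mem_empty_iff_false, iff_false]
  rintro ⟨hT, hT1, hTM, L, ⟨R, hR, hR1, rfl⟩, hTL, hLM⟩
  apply hLM
  have hD : IsPGroup 2 ↥(T ⊔ R) := IsPGroup.to_sup_of_normal_right' hT hR hTL
  have hDM : T ⊔ R ≤ M := le_of_inf_ne_bot M hloc (T ⊔ R) hD (by
    intro h
    apply hT1
    rw [eq_bot_iff, ← h]
    exact le_inf le_sup_left hTM)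
  exact hloc R hR hR1 (le_sup_right.trans hDM)

theorem backward {G : Type*} [Group G] [Finite G] (hO : Cfsg.pCore 2 G = ⊥) (M : Subgroup G)
    (hM : Cfsg.IsTwoLocal M) (hstr : Cfsg.straddlingTwoSubgroups M = ∅) :
    Cfsg.IsStronglyEmbedded M := by
  have hloc : ∀ T : Subgroup G, IsPGroup 2 ↥T → T ≠ ⊥ → T ≤ M →
      Subgroup.normalizer (T : Set G) ≤ M := by
    intro T hT hT1 hTM
    by_contra hn
    have hmem : T ∈ Cfsg.straddlingTwoSubgroups M :=
      ⟨hT, hT1, hTM, _, ⟨T, hT, hT1, rfl⟩, Subgroup.le_normalizer, hn⟩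
    rw [hstr] at hmem
    exact hmem
  obtain ⟨R, hR, hR1, hMR⟩ := hM
  refine ⟨?_, ?_, ?_⟩
  · intro htop
    rw [hMR] at htop
    have hRn : R.Normal := Subgroup.normalizer_eq_top_iff.mp htop
    have hle : R ≤ Cfsg.pCore 2 G := le_sSup ⟨hRn, hR⟩
    rw [hO] at hle
    exact hR1 (le_bot_iff.mp hle)
  · have hRM : R ≤ M := by rw [hMR]; exact Subgroup.le_normalizer
    exact even_iff_two_dvd.mpr ((two_dvd_card R hR hR1).trans (Subgroup.card_dvd_of_le hRM))
  · intro g hg
    by_contra hodd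
    rw [Nat.not_odd_iff_even, even_iff_two_dvd] at hodd
    obtain ⟨t, ht⟩ := exists_prime_orderOf_dvd_card' 2 hodd
    have htM : (t : G) ∈ M := (Subgroup.mem_inf.mp t.2).1
    obtain ⟨m, hmM, hmt⟩ := (Subgroup.mem_inf.mp t.2).2
    have hmt' : g * m * g⁻¹ = (t : G) := hmt
    have ht1 : (t : G) ≠ 1 := by
      intro h
      have h1 : t = 1 := Subtype.ext h
      rw [h1, orderOf_one] at ht
      omega
    have hm1 : m ≠ 1 := by
      rintro rfl
      apply ht1
      rw [← hmt']; group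
    have hZ : IsPGroup 2 ↥(Subgroup.zpowers (t : G)) := by
      apply IsPGroup.of_card (n := 1)
      rw [Nat.card_zpowers, Subgroup.orderOf_coe, ht, pow_one]
    obtain ⟨P, hP⟩ := hZ.exists_le_sylow
    have htP : (t : G) ∈ (P : Subgroup G) := hP (Subgroup.mem_zpowers _)
    have hPM : (P : Subgroup G) ≤ M := le_of_inf_ne_bot M hloc P P.isPGroup' (by
      intro h
      apply ht1
      have : (t : G) ∈ (P : Subgroup G) ⊓ M := Subgroup.mem_inf.mpr ⟨htP, htM⟩
      rw [h] at this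
      exact Subgroup.mem_bot.mp this)
    have hmD : m ∈ ((g⁻¹ • P : Sylow 2 G) : Subgroup G) := by
      rw [mem_smul_sylow]
      have : g⁻¹⁻¹ * m * g⁻¹ = g * m * g⁻¹ := by group
      rw [this, hmt']; exact htP
    have hDM : ((g⁻¹ • P : Sylow 2 G) : Subgroup G) ≤ M :=
      le_of_inf_ne_bot M hloc _ (g⁻¹ • P : Sylow 2 G).isPGroup' (by
        intro h
        apply hm1
        have : m ∈ ((g⁻¹ • P : Sylow 2 G) : Subgroup G) ⊓ M := Subgroup.mem_inf.mpr ⟨hmD, hmM⟩
        rw [h] at this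
        exact Subgroup.mem_bot.mp this)
    obtain ⟨m', hm'⟩ := MulAction.exists_smul_eq ↥M (P.subtype hPM) ((g⁻¹ • P : Sylow 2 G).subtype hDM)
    have hconj : ∀ x ∈ (P : Subgroup G), (g * (m' : G)) * x * (g * (m' : G))⁻¹ ∈ (P : Subgroup G) := by
      intro x hx
      have h1 : m' * ⟨x, hPM hx⟩ * m'⁻¹ ∈ ((m' • P.subtype hPM : Sylow 2 ↥M) : Subgroup ↥M) := by
        rw [mem_smul_sylow]
        have h0 : m'⁻¹ * (m' * ⟨x, hPM hx⟩ * m'⁻¹) * m' = ⟨x, hPM hx⟩ := by group
        rw [h0]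
        exact hx
      rw [hm'] at h1
      have h2 : ((m' * ⟨x, hPM hx⟩ * m'⁻¹ : ↥M) : G) ∈ ((g⁻¹ • P : Sylow 2 G) : Subgroup G) := h1
      rw [mem_smul_sylow] at h2
      have h3 : g * (m' : G) * x * (g * (m' : G))⁻¹ =
          g⁻¹⁻¹ * ((m' * ⟨x, hPM hx⟩ * m'⁻¹ : ↥M) : G) * g⁻¹ := by
        simp [mul_assoc]
      rw [h3]; exact h2
    have hgm : g * (m' : G) ∈ Subgroup.normalizer ((P : Subgroup G) : Set G) :=
      Cfsg.Agent.Helper16.mem_normalizer_of_conj_mem hconj
    have hPne : (P : Subgroup G) ≠ ⊥ := by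
      intro h
      rw [h] at htP
      exact ht1 (Subgroup.mem_bot.mp htP)
    have hgmM : g * (m' : G) ∈ M := hloc P P.isPGroup' hPne hPM hgm
    apply hg
    have h4 : g = g * (m' : G) * (m' : G)⁻¹ := by group
    rw [h4]; exact M.mul_mem hgmM (M.inv_mem m'.2)


/-- Let G be a finite group of characteristic 2 type in which every 2-local subgroup is solvable and the centralizer of Ω₁(Z(S)) lies in N_G(S) for every Sylow 2-subgroup S; suppose O₂(G) = 1, fix a Sylow 2-subgroup S and a 2-local subgroup M containing N_G(J(S)) (J the Thompson subgroup generated by the elementary abelian 2-subgroups of largest order). Then M is strongly embedded in G (a proper subgroup of even order whose intersection with each conjugate by an element outside M has odd order) if and only if no nontrivial 2-subgroup of M lies in a 2-local subgroup of G not contained in M. -/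
theorem result {G : Type*} [Group G] [Finite G] (hL : Cfsg.IsCharacteristicTwoType G) (hN : ∀ N : Subgroup G, Cfsg.IsTwoLocal N → Group.IsSolvable ↥N)
    (hZ : ∀ S : Sylow 2 G, Subgroup.centralizer (Cfsg.omegaCenterOf (S : Subgroup G) : Set G) ≤ Subgroup.normalizer ((S : Subgroup G) : Set G)) (hO : Cfsg.pCore 2 G = ⊥) (S : Sylow 2 G) (M : Subgroup G) (hM : Cfsg.IsTwoLocal M)
    (hMJ : Subgroup.normalizer (Cfsg.thompsonSubgroupOf 2 (S : Subgroup G) : Set G) ≤ M) :
    Cfsg.IsStronglyEmbedded M ↔ Cfsg.straddlingTwoSubgroups M = ∅ := by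

  exact ⟨forward M, backward hO M hM⟩

end Cfsg.Agent.S2947
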