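import Mathlib
import Cfsg.Statements.S3116
-- import your own Cfsg.Agent.* helpers here

set_option autoImplicit false
open Cfsg

namespace Cfsg.Agent.S3116

theorem core {X : Type*} [Group X] [Finite X] (x y : X) (n : ℕ) (hn : 1 ≤ n)
    (hx : orderOf x = 2 ^ n) (hidx : (Subgroup.zpowers x).index = 2)
    (hy : y ∉ Subgroup.zpowers x)
    (hchar : ∀ φ : X ≃* X, φ x ∈ Subgroup.zpowers x) : IsPGroup 2 (MulAut X) := by
  intro φ
  obtain ⟨k, hk⟩ : ∃ k : ℕ, φ x = x ^ k := by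
    obtain ⟨i, hi⟩ := Subgroup.mem_zpowers_iff.mp (hchar φ)
    refine ⟨(i % (orderOf x : ℤ)).toNat, ?_⟩
    rw [← hi, ← zpow_natCast,
      Int.toNat_of_nonneg (Int.emod_nonneg _ (by rw [hx]; positivity)), zpow_mod_orderOf]
  have hord : orderOf (x ^ k) = orderOf x := by rw [← hk]; exact MulEquiv.orderOf_eq φ x
  have hcop : Nat.Coprime k (2 ^ n) := by
    rw [orderOf_pow, hx] at hord
    have h1 : 2 ^ n / (2 ^ n).gcd k * (2 ^ n).gcd k = 2 ^ n :=
      Nat.div_mul_cancel (Nat.gcd_dvd_left _ _)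
    rw [hord] at h1
    have h2 : (2 ^ n).gcd k = 1 := by
      have hpos : 0 < 2 ^ n := by positivity
      exact Nat.eq_of_mul_eq_mul_left hpos (by rw [h1, mul_one])
    exact Nat.coprime_comm.mp h2
  have hφpow : ∀ j : ℕ, (φ ^ j) x = x ^ (k ^ j) := by
    intro j
    induction j with
    | zero => simp
    | succ j ih =>
      rw [pow_succ', MulAut.mul_apply, ih, map_pow, hk, ← pow_mul, ← pow_succ']
  have ht : Nat.totient (2 ^ n) = 2 ^ (n - 1) := by
    rw [Nat.totient_prime_pow Nat.prime_two (by omega)]; norm_num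
  have hmod : k ^ 2 ^ (n - 1) ≡ 1 [MOD 2 ^ n] := by
    have := Nat.ModEq.pow_totient hcop
    rwa [ht] at this
  have hψx : (φ ^ 2 ^ (n - 1)) x = x := by
    rw [hφpow]
    have : x ^ k ^ 2 ^ (n - 1) = x ^ 1 := by
      rw [pow_eq_pow_iff_modEq, hx]; exact hmod
    rw [this, pow_one]
  have hψC : ∀ c ∈ Subgroup.zpowers x, (φ ^ 2 ^ (n - 1)) c = c := by
    intro c hc
    obtain ⟨i, rfl⟩ := Subgroup.mem_zpowers_iff.mp hc
    rw [map_zpow, hψx]
  have hψy : (φ ^ 2 ^ (n - 1)) y ∉ Subgroup.zpowers x := by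
    intro h
    have h1 := hψC _ h
    have e : (φ ^ 2 ^ (n - 1)) y = y := (φ ^ 2 ^ (n - 1)).injective h1
    rw [e] at h; exact hy h
  have hcC : y⁻¹ * (φ ^ 2 ^ (n - 1)) y ∈ Subgroup.zpowers x := by
    rw [Subgroup.mul_mem_iff_of_index_two hidx, Subgroup.inv_mem_iff]
    exact ⟨fun h => absurd h hy, fun h => absurd h hψy⟩
  have hψc := hψC _ hcC
  have hψpow : ∀ j : ℕ, ((φ ^ 2 ^ (n - 1)) ^ j) y = y * (y⁻¹ * (φ ^ 2 ^ (n - 1)) y) ^ j := by
    intro j
    induction j with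
    | zero => simp
    | succ j ih =>
      rw [pow_succ', MulAut.mul_apply, ih, map_mul, map_pow, hψc]
      have e : y * (y⁻¹ * (φ ^ 2 ^ (n - 1)) y) = (φ ^ 2 ^ (n - 1)) y := by group
      rw [pow_succ', ← mul_assoc y, e]
  have hψpowx : ∀ j : ℕ, ((φ ^ 2 ^ (n - 1)) ^ j) x = x := by
    intro j
    induction j with
    | zero => simp
    | succ j ih => rw [pow_succ', MulAut.mul_apply, ih, hψx]
  have hc2 : (y⁻¹ * (φ ^ 2 ^ (n - 1)) y) ^ 2 ^ n = 1 := by
    obtain ⟨i, hi⟩ := Subgroup.mem_zpowers_iff.mp hcC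
    rw [← hi, ← zpow_natCast, ← zpow_mul, mul_comm, zpow_mul, zpow_natCast, ← hx,
      pow_orderOf_eq_one, one_zpow]
  refine ⟨n - 1 + n, ?_⟩
  rw [pow_add, pow_mul]
  ext g
  rw [MulAut.one_apply]
  by_cases hg : g ∈ Subgroup.zpowers x
  · obtain ⟨i, rfl⟩ := Subgroup.mem_zpowers_iff.mp hg
    rw [map_zpow, hψpowx]
  · have hyg : y⁻¹ * g ∈ Subgroup.zpowers x := by
      rw [Subgroup.mul_mem_iff_of_index_two hidx, Subgroup.inv_mem_iff]
      exact ⟨fun h => absurd h hy, fun h => absurd h hg⟩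
    obtain ⟨i, hi⟩ := Subgroup.mem_zpowers_iff.mp hyg
    have hg' : g = y * x ^ i := by rw [hi]; group
    rw [hg', map_mul, map_zpow, hψpowx, hψpow, hc2, mul_one]

theorem dihedral_case {X : Type*} [Group X] [Finite X] (h2 : IsPGroup 2 X) (m : ℕ) (hm : 4 ≤ m)
    (e : X ≃* DihedralGroup m) : IsPGroup 2 (MulAut X) := by
  have hprime : Fact (Nat.Prime 2) := ⟨Nat.prime_two⟩
  obtain ⟨t, ht⟩ := IsPGroup.iff_card.mp h2
  have hcard : Nat.card X = 2 * m := by rw [Nat.card_congr e.toEquiv, DihedralGroup.nat_card]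
  have hmdvd : m ∣ 2 ^ t := by rw [← ht, hcard]; exact dvd_mul_left m 2
  obtain ⟨n, -, rfl⟩ := (Nat.dvd_prime_pow Nat.prime_two).mp hmdvd
  have hne : NeZero (2 ^ n) := ⟨by positivity⟩
  have hn : 1 ≤ n := by
    by_contra h
    have h0 : n = 0 := by omega
    subst h0
    norm_num at hm
  have hx : orderOf (e.symm (DihedralGroup.r 1)) = 2 ^ n := by
    rw [MulEquiv.orderOf_eq, DihedralGroup.orderOf_r_one]
  have hidx : (Subgroup.zpowers (e.symm (DihedralGroup.r 1))).index = 2 := by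
    have h1 := Subgroup.card_mul_index (Subgroup.zpowers (e.symm (DihedralGroup.r 1)))
    rw [Nat.card_zpowers, hx, hcard] at h1
    have hpos : 0 < 2 ^ n := by positivity
    exact Nat.eq_of_mul_eq_mul_left hpos (by rw [h1, mul_comm])
  have hy : e.symm (DihedralGroup.sr 0) ∉ Subgroup.zpowers (e.symm (DihedralGroup.r 1)) := by
    intro h
    obtain ⟨i, hi⟩ := Subgroup.mem_zpowers_iff.mp h
    have h3 : e (e.symm (DihedralGroup.r 1) ^ i) = e (e.symm (DihedralGroup.sr 0)) := by rw [hi]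
    rw [map_zpow, MulEquiv.apply_symm_apply, MulEquiv.apply_symm_apply,
      DihedralGroup.r_one_zpow] at h3
    cases h3
  apply core _ _ n hn hx hidx hy
  intro φ
  have hord : orderOf (e (φ (e.symm (DihedralGroup.r 1)))) = 2 ^ n := by
    rw [MulEquiv.orderOf_eq, MulEquiv.orderOf_eq, hx]
  rcases hcase : e (φ (e.symm (DihedralGroup.r 1))) with i | i
  · have : φ (e.symm (DihedralGroup.r 1)) = e.symm (DihedralGroup.r 1) ^ i.val := by
      apply e.injective
      rw [hcase, map_pow, MulEquiv.apply_symm_apply, DihedralGroup.r_one_pow,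
        ZMod.natCast_zmod_val]
    rw [this]; exact Subgroup.pow_mem _ (Subgroup.mem_zpowers _) _
  · exfalso
    rw [hcase, DihedralGroup.orderOf_sr] at hord
    rw [← hord] at hm
    norm_num at hm

theorem qd_case {X : Type*} [Group X] [Finite X] (h : Cfsg.IsQuasiDihedral X) :
    IsPGroup 2 (MulAut X) := by
  obtain ⟨n, hn, hcard, x, y, hx, hy, hrel⟩ := h
  have hpos : 0 < 2 ^ n := by positivity
  have hidx : (Subgroup.zpowers x).index = 2 := by
    have h1 := Subgroup.card_mul_index (Subgroup.zpowers x)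
    rw [Nat.card_zpowers, hx, hcard, pow_succ] at h1
    exact Nat.eq_of_mul_eq_mul_left hpos h1
  have hs : 2 ^ (n - 1) - 1 + 1 = 2 ^ (n - 1) := Nat.sub_add_cancel Nat.one_le_two_pow
  have hnn : 2 ^ (n - 1) * 2 = 2 ^ n := by
    rw [← pow_succ]; congr 1; omega
  have h4 : 4 ≤ 2 ^ (n - 1) := by
    calc 4 = 2 ^ 2 := by norm_num
      _ ≤ 2 ^ (n - 1) := Nat.pow_le_pow_right (by norm_num) (by omega)
  have hyC : y ∉ Subgroup.zpowers x := by
    intro h
    obtain ⟨i, hi⟩ := Subgroup.mem_zpowers_iff.mp h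
    have hcomm : y * x * y⁻¹ = x := by
      rw [← hi, ← zpow_add_one, ← zpow_neg, ← zpow_add]; simp
    rw [hcomm] at hrel
    have h1 : x ^ 1 = x ^ (2 ^ (n - 1) - 1) := by rw [pow_one]; exact hrel
    rw [pow_eq_pow_iff_modEq, hx] at h1
    have := Nat.ModEq.eq_of_lt_of_lt h1 (by omega) (by omega)
    omega
  apply core x y n (by omega) hx hidx hyC
  intro φ
  by_contra hφ
  have hyg : y⁻¹ * φ x ∈ Subgroup.zpowers x := by
    rw [Subgroup.mul_mem_iff_of_index_two hidx, Subgroup.inv_mem_iff]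
    exact ⟨fun h => absurd h hyC, fun h => absurd h hφ⟩
  obtain ⟨i, hi⟩ := Subgroup.mem_zpowers_iff.mp hyg
  have hg : φ x = y * x ^ i := by rw [hi]; group
  have hyy : y * y = 1 := by rw [← pow_two, ← hy, pow_orderOf_eq_one]
  have hyinv : y⁻¹ = y := inv_eq_of_mul_eq_one_right hyy
  have hconj : y * x ^ i * y⁻¹ = x ^ (((2 ^ (n - 1) - 1 : ℕ) : ℤ) * i) := by
    have : y * x ^ i * y⁻¹ = (y * x * y⁻¹) ^ i := conj_zpow.symm
    rw [this, hrel, ← zpow_natCast, ← zpow_mul]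
  have hsq : (y * x ^ i) * (y * x ^ i) = x ^ (((2 ^ (n - 1) : ℕ) : ℤ) * i) := by
    have e1 : (y * x ^ i) * (y * x ^ i) = (y * x ^ i * y⁻¹) * x ^ i := by
      rw [hyinv]; simp only [mul_assoc]
    rw [e1, hconj, ← zpow_add]
    congr 1
    rw [← hs]; push_cast; ring
  have h4' : (φ x) ^ 4 = 1 := by
    rw [hg]
    have e2 : (y * x ^ i) ^ 4 = ((y * x ^ i) * (y * x ^ i)) * ((y * x ^ i) * (y * x ^ i)) := by
      rw [show (4 : ℕ) = 2 + 2 from rfl, pow_add, pow_two]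
    rw [e2, hsq, ← zpow_add]
    have e3 : ((2 ^ (n - 1) : ℕ) : ℤ) * i + ((2 ^ (n - 1) : ℕ) : ℤ) * i = ((2 ^ n : ℕ) : ℤ) * i := by
      rw [← hnn]; push_cast; ring
    rw [e3, zpow_mul, zpow_natCast, ← hx, pow_orderOf_eq_one, one_zpow]
  have hord : orderOf (φ x) = 2 ^ n := by rw [MulEquiv.orderOf_eq, hx]
  have h5 := orderOf_dvd_of_pow_eq_one h4'
  rw [hord] at h5
  have := Nat.le_of_dvd (by norm_num) h5
  omega

/-- The automorphism group of a dihedral 2-group of order at least 8, or of a quasi-dihedral (semidihedral) 2-group of order at least 16, is a 2-group. -/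
theorem result {X : Type*} [Group X] [Finite X] (h2 : IsPGroup 2 X)
    (h : (∃ n : ℕ, 4 ≤ n ∧ Nonempty (X ≃* DihedralGroup n)) ∨ Cfsg.IsQuasiDihedral X) : IsPGroup 2 (MulAut X) := by
  rcases h with ⟨n, hn, ⟨e⟩⟩ | h
  · exact dihedral_case h2 n hn e
  · exact qd_case h

end Cfsg.Agent.S3116
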