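import Cfsg.Statements.S3356
-- import your own Cfsg.Agent.* helpers here
import Mathlib

set_option autoImplicit false
open Cfsg

namespace Cfsg.Agent.S3356

/-- if all orbits inside an invariant set have the same size `k`, then `k` divides its size -/
theorem orb_dvd {H X : Type*} [Group H] [MulAction H X] [Finite X] (k : ℕ) :
    ∀ (n : ℕ) (Y : Set X), Y.ncard = n → (∀ h : H, ∀ y ∈ Y, h • y ∈ Y) →
      (∀ y ∈ Y, (MulAction.orbit H y).ncard = k) → k ∣ n := by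
  intro n
  induction n using Nat.strong_induction_on with
  | _ n ih =>
    intro Y hn hinv hk
    rcases Set.eq_empty_or_nonempty Y with he | ⟨y₀, hy₀⟩
    · rw [he, Set.ncard_empty] at hn
      rw [← hn]; exact dvd_zero k
    · have hsub : MulAction.orbit H y₀ ⊆ Y := by
        rintro _ ⟨h, rfl⟩
        exact hinv h y₀ hy₀
      have hcard : (Y \ MulAction.orbit H y₀).ncard = n - k := by
        rw [Set.ncard_sdiff hsub, hn, hk y₀ hy₀]
      have hkpos : 0 < k := by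
        rw [← hk y₀ hy₀]
        exact (Set.ncard_pos).2 ⟨y₀, MulAction.mem_orbit_self y₀⟩
      have hkn : k ≤ n := by
        rw [← hk y₀ hy₀, ← hn]
        exact Set.ncard_le_ncard hsub
      have h1 : k ∣ n - k := by
        refine ih (n - k) (by omega) (Y \ MulAction.orbit H y₀) hcard ?_ ?_
        · intro h y hy
          refine ⟨hinv h y hy.1, fun hmem => hy.2 ?_⟩
          have h2 := MulAction.mem_orbit_of_mem_orbit h⁻¹ hmem
          rwa [inv_smul_smul] at h2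
        · intro y hy
          exact hk y hy.1
      obtain ⟨t, ht⟩ := h1
      exact ⟨t + 1, by rw [mul_add, mul_one, ← ht]; omega⟩

/-- block lemma: a block of coprime size all of whose points have stabilisers of the same order
has a common point stabiliser -/
theorem blockU {H X : Type*} [Group H] [Finite H] [MulAction H X] [Finite X] (c m : ℕ)
    (hcm : c * m = Nat.card H) (Y : Set X) (hne : Y.Nonempty)
    (h1 : ∀ y ∈ Y, Nat.card (MulAction.stabilizer H y) = c)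
    (h2 : ∀ h : H, (∃ y ∈ Y, h • y ∈ Y) → ∀ y ∈ Y, h • y ∈ Y)
    (h3 : Nat.Coprime Y.ncard m) :
    ∀ y ∈ Y, ∀ y' ∈ Y, MulAction.stabilizer H y = MulAction.stabilizer H y' := by
  classical
  obtain ⟨B, hBmem⟩ : ∃ B : Subgroup H, ∀ h : H, h ∈ B ↔ ∀ y ∈ Y, h • y ∈ Y :=
    ⟨{ carrier := {h | ∀ y ∈ Y, h • y ∈ Y}
       one_mem' := fun y hy => by rw [one_smul]; exact hy
       mul_mem' := fun {a b} ha hb y hy => by rw [mul_smul]; exact ha _ (hb y hy)
       inv_mem' := fun {a} ha => by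
         obtain ⟨y₀, hy₀⟩ := hne
         exact h2 a⁻¹ ⟨a • y₀, ha y₀ hy₀, by rw [inv_smul_smul]; exact hy₀⟩ }, fun h => Iff.rfl⟩
  have hstabB : ∀ y ∈ Y, MulAction.stabilizer H y ≤ B := by
    intro y hy h hh
    rw [MulAction.mem_stabilizer_iff] at hh
    exact (hBmem h).2 (h2 h ⟨y, hy, by rw [hh]; exact hy⟩)
  have hcpos : 0 < c := by
    obtain ⟨y₀, hy₀⟩ := hne
    rw [← h1 y₀ hy₀]; exact Nat.card_pos
  have horb : ∀ y ∈ Y, c * (MulAction.orbit ↥B y).ncard = Nat.card ↥B := by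
    intro y hy
    have e1 := Subgroup.card_mul_index (MulAction.stabilizer ↥B y)
    rw [MulAction.index_stabilizer] at e1
    have e2 : Nat.card (MulAction.stabilizer ↥B y) = c := by
      rw [← h1 y hy]
      have e3 : MulAction.stabilizer ↥B y = (MulAction.stabilizer H y).subgroupOf B := by
        ext b
        constructor
        · intro hb
          exact Subgroup.mem_subgroupOf.2
            (MulAction.mem_stabilizer_iff.2 (MulAction.mem_stabilizer_iff.1 hb))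
        · intro hb
          exact MulAction.mem_stabilizer_iff.2
            (MulAction.mem_stabilizer_iff.1 (Subgroup.mem_subgroupOf.1 hb))
      rw [e3]
      exact Nat.card_congr (Subgroup.subgroupOfEquivOfLe (hstabB y hy)).toEquiv
    rw [e2] at e1
    exact e1
  obtain ⟨y₀, hy₀⟩ := hne
  obtain ⟨k, hk⟩ : ∃ k, k = (MulAction.orbit ↥B y₀).ncard := ⟨_, rfl⟩
  have hk0 : c * k = Nat.card ↥B := by rw [hk]; exact horb y₀ hy₀
  have hk' : ∀ y ∈ Y, (MulAction.orbit ↥B y).ncard = k := by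
    intro y hy
    have e1 := horb y hy
    rw [← hk0] at e1
    exact Nat.eq_of_mul_eq_mul_left hcpos e1
  have hkY : k ∣ Y.ncard :=
    orb_dvd (H := ↥B) k Y.ncard Y rfl (fun b y hy => (hBmem b.1).1 b.2 y hy) hk'
  have hkm : k ∣ m := by
    have e3 : Nat.card ↥B ∣ Nat.card H := Subgroup.card_subgroup_dvd_card B
    rw [← hk0, ← hcm] at e3
    exact (Nat.mul_dvd_mul_iff_left hcpos).1 e3
  have hk1 : k = 1 := Nat.Coprime.eq_one_of_dvd (Nat.Coprime.coprime_dvd_left hkY h3) hkm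
  have hBc : Nat.card ↥B = c := by
    rw [← hk0, hk1, mul_one]
  have hall : ∀ y ∈ Y, MulAction.stabilizer H y = B := by
    intro y hy
    exact Subgroup.eq_of_le_of_card_ge (hstabB y hy) (by rw [hBc, h1 y hy])
  intro y hy y' hy'
  rw [hall y hy, hall y' hy']

/-- the size of a conjugacy class under a subgroup divides its order -/
theorem class_dvd {G : Type*} [Group G] [Finite G] (N : Subgroup G) (x : G) (hx : x ∈ N) :
    ({g : G | ∃ n ∈ N, g = n * x * n⁻¹} : Set G).ncard ∣ Nat.card ↥N := by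
  have hS : {g : G | ∃ n ∈ N, g = n * x * n⁻¹} =
      Subtype.val '' (MulAction.orbit (ConjAct ↥N) (⟨x, hx⟩ : ↥N)) := by
    ext g
    constructor
    · rintro ⟨n, hn, rfl⟩
      refine ⟨⟨n * x * n⁻¹, N.mul_mem (N.mul_mem hn hx) (N.inv_mem hn)⟩, ?_, rfl⟩
      rw [ConjAct.mem_orbit_conjAct, isConj_comm, isConj_iff]
      exact ⟨⟨n, hn⟩, rfl⟩
    · rintro ⟨y, hy, rfl⟩
      rw [ConjAct.mem_orbit_conjAct, isConj_comm, isConj_iff] at hy
      obtain ⟨c, hc⟩ := hy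
      have h2 := congrArg Subtype.val hc
      exact ⟨c.1, c.2, h2.symm⟩
  rw [hS, Set.ncard_image_of_injective _ Subtype.val_injective, ← MulAction.index_stabilizer]
  exact Subgroup.index_dvd_card _

/-- Isaacs–Passman: a half-transitive, non-semiregular group of automorphisms forces the
regular normal subgroup to be elementary abelian and minimal normal -/
theorem core {G Ω : Type*} [Group G] [Finite G] [MulAction G Ω] [FaithfulSMul G Ω] [Finite Ω]
    (N : Subgroup G) [hN : N.Normal] (α : Ω) (A : Subgroup G)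
    (hA : ∀ a : G, a ∈ A ↔ a • α = α)
    (hreg : ∀ ω : Ω, ∃ n ∈ N, n • α = ω)
    (hfree : ∀ n ∈ N, n • α = α → n = 1)
    (c m : ℕ) (hc : 1 < c)
    (hcm : c * m = Nat.card ↥A)
    (hst : ∀ ω : Ω, ω ≠ α → Nat.card (MulAction.stabilizer ↥A ω) = c)
    (horb : ∀ ω : Ω, ω ≠ α → (MulAction.orbit ↥A ω).ncard = m) :
    (∃ p : ℕ, p.Prime ∧ IsMulCommutative N ∧ ∀ x ∈ N, x ^ p = 1) ∧
    (∀ M : Subgroup G, M.Normal → M ≠ ⊥ → N ≤ M) := by
  classical
  have R1 : ∀ n ∈ N, ∀ n' ∈ N, n • α = n' • α → n = n' := by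
    intro n hn n' hn' h
    have h1 : (n'⁻¹ * n) • α = α := by rw [mul_smul, h, inv_smul_smul]
    have h2 := hfree _ (N.mul_mem (N.inv_mem hn') hn) h1
    exact (inv_mul_eq_one.1 h2).symm
  have hAinv : ∀ a ∈ A, a⁻¹ • α = α := by
    intro a ha
    have h1 := (hA a).1 ha
    rw [inv_smul_eq_iff]; exact h1.symm
  have R2 : ∀ a ∈ A, ∀ x : G, a • x • α = (a * x * a⁻¹) • α := by
    intro a ha x
    rw [mul_smul, mul_smul, hAinv a ha]
  have R3 : ∀ a ∈ A, ∀ x ∈ N, (a • x • α = x • α ↔ a * x = x * a) := by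
    intro a ha x hx
    constructor
    · intro h
      rw [R2 a ha x] at h
      have h1 := R1 _ (hN.conj_mem x hx a) x hx h
      exact mul_inv_eq_iff_eq_mul.1 h1
    · intro h
      rw [← mul_smul, h, mul_smul, (hA a).1 ha]
  have hstab : ∀ (a : ↥A) (ω : Ω), a ∈ MulAction.stabilizer ↥A ω ↔ (a : G) • ω = ω :=
    fun a ω => MulAction.mem_stabilizer_iff
  have C1 : ∀ x ∈ N, x ≠ 1 → ∀ y ∈ N, y ≠ 1 → (∀ a ∈ A, a * x = x * a → a * y = y * a) →
      ∀ a ∈ A, a * y = y * a → a * x = x * a := by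
    intro x hx hx1 y hy hy1 hsub a ha hay
    have hxα : x • α ≠ α := fun h => hx1 (hfree x hx h)
    have hyα : y • α ≠ α := fun h => hy1 (hfree y hy h)
    have hle : MulAction.stabilizer ↥A (x • α) ≤ MulAction.stabilizer ↥A (y • α) := by
      intro b hb
      rw [hstab] at hb ⊢
      exact (R3 b.1 b.2 y hy).2 (hsub b.1 b.2 ((R3 b.1 b.2 x hx).1 hb))
    have heq := Subgroup.eq_of_le_of_card_ge hle (by rw [hst _ hxα, hst _ hyα])
    have h1 : (⟨a, ha⟩ : ↥A) ∈ MulAction.stabilizer ↥A (y • α) := by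
      rw [hstab]; exact (R3 a ha y hy).2 hay
    rw [← heq, hstab] at h1
    exact (R3 a ha x hx).1 h1
  have C2 : ∀ a ∈ A, (∀ n ∈ N, a * n = n * a) → a = 1 := by
    intro a ha h
    refine FaithfulSMul.eq_of_smul_eq_smul (α := Ω) (fun ω => ?_)
    obtain ⟨n, hn, rfl⟩ := hreg ω
    rw [one_smul]
    exact (R3 a ha n hn).2 (h n hn)
  have C3 : ∀ x ∈ N, x ≠ 1 → ∃ a ∈ A, a ≠ 1 ∧ a * x = x * a := by
    intro x hx hx1
    have hxα : x • α ≠ α := fun h => hx1 (hfree x hx h)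
    have h1 : MulAction.stabilizer ↥A (x • α) ≠ ⊥ := by
      rw [← Subgroup.one_lt_card_iff_ne_bot, hst _ hxα]; exact hc
    by_contra hno
    push_neg at hno
    apply h1
    rw [Subgroup.eq_bot_iff_forall]
    intro b hb
    rw [hstab] at hb
    by_contra hb1
    exact hno b.1 b.2 (fun h => hb1 (Subtype.ext h)) ((R3 b.1 b.2 x hx).1 hb)
  have hNcard : Nat.card Ω = Nat.card ↥N := by
    have hbij : Function.Bijective (fun n : ↥N => (n : G) • α) := by
      constructor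
      · intro n n' h
        exact Subtype.ext (R1 n.1 n.2 n'.1 n'.2 h)
      · intro ω
        obtain ⟨n, hn, h⟩ := hreg ω
        exact ⟨⟨n, hn⟩, h⟩
    exact (Nat.card_congr (Equiv.ofBijective _ hbij)).symm
  have hmdvd : m ∣ Nat.card Ω - 1 := by
    have h1 : ({α}ᶜ : Set Ω).ncard = Nat.card Ω - 1 := by
      rw [Set.ncard_compl, Set.ncard_singleton]
    rw [← h1]
    refine orb_dvd (H := ↥A) m _ ({α}ᶜ : Set Ω) rfl ?_ ?_
    · intro a y hy hay
      apply hy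
      have h2 : (a : G) • y = α := hay
      have h3 : y = (a : G)⁻¹ • α := by rw [← h2, inv_smul_smul]
      show y = α
      rw [h3]; exact hAinv a.1 a.2
    · intro y hy
      exact horb y hy
  have hcop : Nat.Coprime (Nat.card ↥N) m := by
    rw [← hNcard]
    have hpos : 0 < Nat.card Ω := Nat.card_pos_iff.2 ⟨⟨α⟩, inferInstance⟩
    have h1 : Nat.gcd (Nat.card Ω) m ∣ 1 := by
      have h2 := Nat.dvd_sub (Nat.gcd_dvd_left (Nat.card Ω) m)
        ((Nat.gcd_dvd_right (Nat.card Ω) m).trans hmdvd)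
      have h3 : Nat.card Ω - (Nat.card Ω - 1) = 1 := by omega
      rwa [h3] at h2
    exact Nat.dvd_one.1 h1
  have UN : ∀ S : Set G, S ⊆ (N : Set G) → (1 : G) ∉ S → S.Nonempty → Nat.Coprime S.ncard m →
      (∀ a ∈ A, (∃ s ∈ S, a * s * a⁻¹ ∈ S) → ∀ s ∈ S, a * s * a⁻¹ ∈ S) →
      ∀ s ∈ S, ∀ s' ∈ S, ∀ a ∈ A, a * s = s * a → a * s' = s' * a := by
    intro S hSN h1S hSne hScop hblock s hs s' hs' a ha has
    have hinj : Set.InjOn (fun g : G => g • α) S := by
      intro g hg g' hg' h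
      exact R1 g (hSN hg) g' (hSN hg') h
    have key : MulAction.stabilizer ↥A (s • α) = MulAction.stabilizer ↥A (s' • α) := by
      refine blockU (H := ↥A) (X := Ω) c m hcm ((fun g : G => g • α) '' S) (hSne.image _)
        ?_ ?_ ?_ (s • α) ⟨s, hs, rfl⟩ (s' • α) ⟨s', hs', rfl⟩
      · rintro _ ⟨g, hg, rfl⟩
        exact hst _ (fun h => h1S ((hfree g (hSN hg) h) ▸ hg))
      · rintro b ⟨_, ⟨g, hg, rfl⟩, ⟨g', hg', h⟩⟩ _ ⟨g₂, hg₂, rfl⟩
        have h2 : (b : G) * g * (b : G)⁻¹ = g' := by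
          refine R1 _ (hN.conj_mem g (hSN hg) b) g' (hSN hg') ?_
          rw [← R2 b.1 b.2 g]; exact h.symm
        have h3 := hblock b.1 b.2 ⟨g, hg, by rw [h2]; exact hg'⟩ g₂ hg₂
        exact ⟨_, h3, (R2 b.1 b.2 g₂).symm⟩
      · rw [hinj.ncard_image]; exact hScop
    have h1 : (⟨a, ha⟩ : ↥A) ∈ MulAction.stabilizer ↥A (s • α) := by
      rw [hstab]; exact (R3 a ha s (hSN hs)).2 has
    rw [key, hstab] at h1
    exact (R3 a ha s' (hSN hs')).1 h1
  -- invariant subgroups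
  have Si : ∀ M : Subgroup G, M ≤ N → (∀ a ∈ A, ∀ y ∈ M, a * y * a⁻¹ ∈ M) → M ≠ ⊥ → N ≤ M := by
    intro M hMN hMinv hM1
    by_contra hnot
    obtain ⟨x₀, hx₀N, hx₀M⟩ := SetLike.not_le_iff_exists.1 hnot
    obtain ⟨y₁, hy₁M, hy₁⟩ : ∃ y ∈ M, y ≠ 1 := by
      by_contra hno
      push_neg at hno
      exact hM1 ((Subgroup.eq_bot_iff_forall M).2 hno)
    have hMcop : Nat.Coprime (Nat.card ↥M) m :=
      Nat.Coprime.coprime_dvd_left (Subgroup.card_dvd_of_le hMN) hcop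
    have star : ∀ x ∈ N, x ∉ M → ∀ a ∈ A, a * x = x * a → ∀ y ∈ M, a * y = y * a := by
      intro x hxN hxM a ha hax y hy
      have hS : a * (x * y) = (x * y) * a := by
        refine UN ((fun y => x * y) '' (M : Set G)) ?_ ?_ ?_ ?_ ?_ x ⟨1, M.one_mem, mul_one x⟩
          (x * y) ⟨y, hy, rfl⟩ a ha hax
        · rintro _ ⟨y', hy', rfl⟩
          exact N.mul_mem hxN (hMN hy')
        · rintro ⟨y', hy', h⟩
          have h' : x * y' = 1 := h
          exact hxM (by rw [eq_inv_of_mul_eq_one_left h']; exact M.inv_mem hy')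
        · exact ⟨_, ⟨1, M.one_mem, rfl⟩⟩
        · rw [Set.ncard_image_of_injective _ (mul_right_injective x), ← Nat.card_coe_set_eq]
          exact hMcop
        · rintro a' ha' ⟨_, ⟨y₃, hy₃, rfl⟩, ⟨y', hy', h⟩⟩ _ ⟨y₂, hy₂, rfl⟩
          have h' : x * y' = a' * (x * y₃) * a'⁻¹ := h
          refine ⟨y' * (a' * y₃ * a'⁻¹)⁻¹ * (a' * y₂ * a'⁻¹),
            M.mul_mem (M.mul_mem hy' (M.inv_mem (hMinv a' ha' y₃ hy₃))) (hMinv a' ha' y₂ hy₂), ?_⟩
          show x * (y' * (a' * y₃ * a'⁻¹)⁻¹ * (a' * y₂ * a'⁻¹)) = a' * (x * y₂) * a'⁻¹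
          calc x * (y' * (a' * y₃ * a'⁻¹)⁻¹ * (a' * y₂ * a'⁻¹))
              = (x * y') * (a' * y₃ * a'⁻¹)⁻¹ * (a' * y₂ * a'⁻¹) := by group
            _ = (a' * (x * y₃) * a'⁻¹) * (a' * y₃ * a'⁻¹)⁻¹ * (a' * y₂ * a'⁻¹) := by rw [h']
            _ = a' * (x * y₂) * a'⁻¹ := by group
      have h4 : x * (a * y) = x * (y * a) := by
        calc x * (a * y) = (x * a) * y := (mul_assoc x a y).symm
          _ = (a * x) * y := by rw [hax]
          _ = a * (x * y) := mul_assoc a x y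
          _ = (x * y) * a := hS
          _ = x * (y * a) := mul_assoc x y a
      exact mul_left_cancel h4
    obtain ⟨a₁, ha₁, ha₁1, ha₁y⟩ := C3 y₁ (hMN hy₁M) hy₁
    apply ha₁1
    refine C2 a₁ ha₁ (fun n hn => ?_)
    have hout : ∀ x ∈ N, x ∉ M → a₁ * x = x * a₁ := by
      intro x hxN hxM
      have hx1 : x ≠ 1 := fun h => hxM (h ▸ M.one_mem)
      exact C1 x hxN hx1 y₁ (hMN hy₁M) hy₁
        (fun a ha hax => star x hxN hxM a ha hax y₁ hy₁M) a₁ ha₁ ha₁y
    by_cases hnM : n ∈ M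
    · exact star x₀ hx₀N hx₀M a₁ ha₁ (hout x₀ hx₀N hx₀M) n hnM
    · exact hout n hn hnM
  -- centralisers are constant on `N`-classes
  have Z : ∀ x ∈ N, x ≠ 1 → ∀ n ∈ N, ∀ a ∈ A, a * x = x * a →
      a * (n * x * n⁻¹) = (n * x * n⁻¹) * a := by
    intro x hx hx1 n hn a ha hax
    refine UN {g | ∃ n ∈ N, g = n * x * n⁻¹} ?_ ?_ ?_ ?_ ?_ x ⟨1, N.one_mem, by simp⟩
      (n * x * n⁻¹) ⟨n, hn, rfl⟩ a ha hax
    · rintro _ ⟨n', hn', rfl⟩
      exact hN.conj_mem x hx n'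
    · rintro ⟨n', hn', h⟩
      apply hx1
      have h2 : n' * x * n'⁻¹ = 1 := h.symm
      exact conj_eq_one_iff.1 h2
    · exact ⟨x, 1, N.one_mem, by simp⟩
    · exact Nat.Coprime.coprime_dvd_left (class_dvd N x hx) hcop
    · rintro a' ha' ⟨_, ⟨n₁, hn₁, rfl⟩, ⟨n₂, hn₂, h⟩⟩ _ ⟨n₃, hn₃, rfl⟩
      have h' : n₂ * x * n₂⁻¹ = a' * (n₁ * x * n₁⁻¹) * a'⁻¹ := h.symm
      refine ⟨(a' * n₃ * a'⁻¹) * (a' * n₁ * a'⁻¹)⁻¹ * n₂,
        N.mul_mem (N.mul_mem (hN.conj_mem n₃ hn₃ a') (N.inv_mem (hN.conj_mem n₁ hn₁ a'))) hn₂, ?_⟩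
      calc a' * (n₃ * x * n₃⁻¹) * a'⁻¹
          = (a' * n₃ * a'⁻¹) * (a' * n₁ * a'⁻¹)⁻¹ * (a' * (n₁ * x * n₁⁻¹) * a'⁻¹) *
              ((a' * n₃ * a'⁻¹) * (a' * n₁ * a'⁻¹)⁻¹)⁻¹ := by group
        _ = (a' * n₃ * a'⁻¹) * (a' * n₁ * a'⁻¹)⁻¹ * (n₂ * x * n₂⁻¹) *
              ((a' * n₃ * a'⁻¹) * (a' * n₁ * a'⁻¹)⁻¹)⁻¹ := by rw [h']
        _ = ((a' * n₃ * a'⁻¹) * (a' * n₁ * a'⁻¹)⁻¹ * n₂) * x *
              ((a' * n₃ * a'⁻¹) * (a' * n₁ * a'⁻¹)⁻¹ * n₂)⁻¹ := by group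
  -- non-commuting elements have the same centraliser in `A`
  have NC : ∀ x ∈ N, ∀ y ∈ N, x * y ≠ y * x → ∀ a ∈ A, (a * x = x * a ↔ a * y = y * a) := by
    intro x hx y hy hxy
    have hx1 : x ≠ 1 := by rintro rfl; exact hxy (by rw [one_mul, mul_one])
    have hy1 : y ≠ 1 := by rintro rfl; exact hxy (by rw [one_mul, mul_one])
    have hxi1 : x⁻¹ ≠ 1 := fun h => hx1 (inv_eq_one.1 h)
    obtain ⟨w, hw⟩ : ∃ w : G, w = x * (y * x⁻¹ * y⁻¹) := ⟨_, rfl⟩
    have hw' : w = (x * y * x⁻¹) * y⁻¹ := by rw [hw]; group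
    have hwN : w ∈ N := by
      rw [hw]; exact N.mul_mem hx (hN.conj_mem _ (N.inv_mem hx) y)
    have hw1 : w ≠ 1 := by
      intro h
      apply hxy
      rw [hw'] at h
      have h2 := mul_inv_eq_one.1 h
      exact mul_inv_eq_iff_eq_mul.1 h2
    have hxw : ∀ a ∈ A, a * x = x * a → a * w = w * a := by
      intro a ha hax
      have hax' : a * x⁻¹ = x⁻¹ * a := (Commute.inv_right (show Commute a x from hax)).eq
      have h1 := Z x⁻¹ (N.inv_mem hx) hxi1 y hy a ha hax'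
      rw [hw]
      calc a * (x * (y * x⁻¹ * y⁻¹)) = (a * x) * (y * x⁻¹ * y⁻¹) := (mul_assoc _ _ _).symm
        _ = (x * a) * (y * x⁻¹ * y⁻¹) := by rw [hax]
        _ = x * (a * (y * x⁻¹ * y⁻¹)) := mul_assoc _ _ _
        _ = x * ((y * x⁻¹ * y⁻¹) * a) := by rw [h1]
        _ = x * (y * x⁻¹ * y⁻¹) * a := (mul_assoc _ _ _).symm
    have hyw : ∀ a ∈ A, a * y = y * a → a * w = w * a := by
      intro a ha hay
      have hay' : a * y⁻¹ = y⁻¹ * a := (Commute.inv_right (show Commute a y from hay)).eq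
      have h1 := Z y hy hy1 x hx a ha hay
      rw [hw']
      calc a * ((x * y * x⁻¹) * y⁻¹) = (a * (x * y * x⁻¹)) * y⁻¹ := (mul_assoc _ _ _).symm
        _ = ((x * y * x⁻¹) * a) * y⁻¹ := by rw [h1]
        _ = (x * y * x⁻¹) * (a * y⁻¹) := mul_assoc _ _ _
        _ = (x * y * x⁻¹) * (y⁻¹ * a) := by rw [hay']
        _ = (x * y * x⁻¹) * y⁻¹ * a := (mul_assoc _ _ _).symm
    have hwx := C1 x hx hx1 w hwN hw1 hxw
    have hwy := C1 y hy hy1 w hwN hw1 hyw
    intro a ha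
    exact ⟨fun h => hwy a ha (hxw a ha h), fun h => hwx a ha (hyw a ha h)⟩
  have AB : ∀ x ∈ N, ∀ y ∈ N, x * y = y * x := by
    intro x hx y hy
    by_contra hxy
    have hx1 : x ≠ 1 := by rintro rfl; exact hxy (by rw [one_mul, mul_one])
    obtain ⟨a₁, ha₁, ha₁1, ha₁x⟩ := C3 x hx hx1
    have ha₁y : a₁ * y = y * a₁ := (NC x hx y hy hxy a₁ ha₁).1 ha₁x
    obtain ⟨z, hz, hzc⟩ : ∃ z ∈ N, a₁ * z ≠ z * a₁ := by
      by_contra hno
      push_neg at hno
      exact ha₁1 (C2 a₁ ha₁ hno)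
    have hxz : x * z = z * x := by
      by_contra h
      exact hzc ((NC x hx z hz h a₁ ha₁).1 ha₁x)
    have hxyz : x * (y * z) = (y * z) * x := by
      by_contra h
      have h1 := (NC x hx (y * z) (N.mul_mem hy hz) h a₁ ha₁).1 ha₁x
      apply hzc
      have h2 : y * (a₁ * z) = y * (z * a₁) := by
        calc y * (a₁ * z) = (y * a₁) * z := (mul_assoc _ _ _).symm
          _ = (a₁ * y) * z := by rw [ha₁y]
          _ = a₁ * (y * z) := mul_assoc _ _ _
          _ = (y * z) * a₁ := h1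
          _ = y * (z * a₁) := mul_assoc _ _ _
      exact mul_left_cancel h2
    apply hxy
    have h3 : (x * y) * z = (y * x) * z := by
      calc (x * y) * z = x * (y * z) := mul_assoc _ _ _
        _ = (y * z) * x := hxyz
        _ = y * (z * x) := mul_assoc _ _ _
        _ = y * (x * z) := by rw [hxz]
        _ = (y * x) * z := (mul_assoc _ _ _).symm
    exact mul_right_cancel h3
  -- `N` is nontrivial
  have hNne : ∃ x ∈ N, x ≠ 1 := by
    by_contra hno
    push_neg at hno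
    have h1 : ∀ a ∈ A, a = 1 :=
      fun a ha => C2 a ha (fun n hn => by rw [hno n hn, mul_one, one_mul])
    have hAbot : A = ⊥ := (Subgroup.eq_bot_iff_forall A).2 h1
    have h2 : Nat.card ↥A = 1 := by rw [hAbot]; exact Subgroup.card_bot
    rw [h2] at hcm
    have h3 : c ∣ 1 := ⟨m, hcm.symm⟩
    have h4 := Nat.le_of_dvd one_pos h3
    omega
  obtain ⟨x₁, hx₁N, hx₁⟩ := hNne
  have hNcard1 : Nat.card ↥N ≠ 1 := by
    intro h
    have h2 := Subgroup.eq_bot_of_card_eq N h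
    rw [h2, Subgroup.mem_bot] at hx₁N
    exact hx₁ hx₁N
  obtain ⟨p, hp, hpN⟩ : ∃ p : ℕ, p.Prime ∧ p ∣ Nat.card ↥N :=
    ⟨_, Nat.minFac_prime hNcard1, Nat.minFac_dvd _⟩
  haveI : Fact p.Prime := ⟨hp⟩
  obtain ⟨u, hu⟩ := exists_prime_orderOf_dvd_card' (G := ↥N) p hpN
  obtain ⟨M, hMmem⟩ : ∃ M : Subgroup G, ∀ g : G, g ∈ M ↔ g ∈ N ∧ g ^ p = 1 :=
    ⟨{ carrier := {g | g ∈ N ∧ g ^ p = 1}
       one_mem' := ⟨N.one_mem, one_pow p⟩
       mul_mem' := fun {a b} ha hb => ⟨N.mul_mem ha.1 hb.1, by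
         have hcomm : Commute a b := AB a ha.1 b hb.1
         rw [hcomm.mul_pow, ha.2, hb.2, one_mul]⟩
       inv_mem' := fun {a} ha => ⟨N.inv_mem ha.1, by rw [inv_pow, ha.2, inv_one]⟩ },
      fun g => Iff.rfl⟩
  have hMN : M ≤ N := fun g hg => ((hMmem g).1 hg).1
  have hMinv : ∀ a ∈ A, ∀ y ∈ M, a * y * a⁻¹ ∈ M := by
    intro a ha y hy
    obtain ⟨hy1, hy2⟩ := (hMmem y).1 hy
    exact (hMmem _).2 ⟨hN.conj_mem y hy1 a, by rw [conj_pow, hy2, mul_one, mul_inv_cancel]⟩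
  have hM1 : M ≠ ⊥ := by
    intro h
    have hu1 : (u : G) ∈ M := by
      refine (hMmem _).2 ⟨u.2, ?_⟩
      have h2 : u ^ p = 1 := by rw [← hu]; exact pow_orderOf_eq_one u
      have h3 := congrArg Subtype.val h2
      exact h3
    rw [h, Subgroup.mem_bot] at hu1
    have hu2 : u = 1 := Subtype.ext hu1
    rw [hu2, orderOf_one] at hu
    exact hp.one_lt.ne hu
  have hNM := Si M hMN hMinv hM1
  refine ⟨⟨p, hp, ⟨⟨fun a b => Subtype.ext (AB a.1 a.2 b.1 b.2)⟩⟩,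
    fun x hx => ((hMmem x).1 (hNM hx)).2⟩, ?_⟩
  intro M' hMn hM'1
  by_cases hI : M' ⊓ N = ⊥
  · exfalso
    obtain ⟨z, hzM, hz1⟩ : ∃ z ∈ M', z ≠ 1 := by
      by_contra hno
      push_neg at hno
      exact hM'1 ((Subgroup.eq_bot_iff_forall M').2 hno)
    have hzc : ∀ n ∈ N, z * n = n * z := by
      intro n hn
      have h1 : z * n * z⁻¹ * n⁻¹ ∈ M' ⊓ N := by
        refine Subgroup.mem_inf.2 ⟨?_, ?_⟩
        · have e : z * n * z⁻¹ * n⁻¹ = z * (n * z⁻¹ * n⁻¹) := by group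
          rw [e]; exact M'.mul_mem hzM (hMn.conj_mem _ (M'.inv_mem hzM) n)
        · exact N.mul_mem (hN.conj_mem n hn z) (N.inv_mem hn)
      rw [hI, Subgroup.mem_bot] at h1
      have h2 := mul_inv_eq_one.1 h1
      exact mul_inv_eq_iff_eq_mul.1 h2
    obtain ⟨n₀, hn₀, hn₀z⟩ := hreg (z • α)
    have ha : n₀⁻¹ * z ∈ A := by
      rw [hA, mul_smul, ← hn₀z, inv_smul_smul]
    have hac : ∀ n ∈ N, (n₀⁻¹ * z) * n = n * (n₀⁻¹ * z) := by
      intro n hn
      have h1 : n₀⁻¹ * n = n * n₀⁻¹ := AB _ (N.inv_mem hn₀) n hn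
      calc (n₀⁻¹ * z) * n = n₀⁻¹ * (z * n) := mul_assoc _ _ _
        _ = n₀⁻¹ * (n * z) := by rw [hzc n hn]
        _ = (n₀⁻¹ * n) * z := (mul_assoc _ _ _).symm
        _ = (n * n₀⁻¹) * z := by rw [h1]
        _ = n * (n₀⁻¹ * z) := mul_assoc _ _ _
    have h1 := C2 _ ha hac
    have h2 : z = n₀ := (inv_mul_eq_one.1 h1).symm
    have h3 : z ∈ M' ⊓ N := Subgroup.mem_inf.2 ⟨hzM, h2 ▸ hn₀⟩
    rw [hI, Subgroup.mem_bot] at h3
    exact hz1 h3
  · have hinvMN : ∀ a ∈ A, ∀ y ∈ M' ⊓ N, a * y * a⁻¹ ∈ M' ⊓ N := by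
      intro a _ y hy
      obtain ⟨hy1, hy2⟩ := Subgroup.mem_inf.1 hy
      exact Subgroup.mem_inf.2 ⟨hMn.conj_mem y hy1 a, hN.conj_mem y hy2 a⟩
    exact (Si (M' ⊓ N) inf_le_right hinvMN hI).trans inf_le_left

/-- Let G be a finite 3/2-transitive permutation group: G acts faithfully and transitively on a finite set, the point stabilizers are non-trivial, and for each point a all orbits of G_a on the remaining points have the same size. Suppose G has a regular normal subgroup N and G is not a Frobenius group (some two-point stabilizer is non-trivial). Then N is an elementary abelian p-group for some prime p, and every non-trivial normal subgroup of G contains N (so N is the unique minimal normal subgroup). -/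
theorem result {G Ω : Type*} [Group G] [Finite G]
    [MulAction G Ω] [FaithfulSMul G Ω] [Finite Ω] (htrans : MulAction.IsPretransitive G Ω)
    (hne : ∀ a : Ω, MulAction.stabilizer G a ≠ ⊥)
    (hhalf : ∀ a b c : Ω, b ≠ a → c ≠ a →
      Nat.card (MulAction.orbit (MulAction.stabilizer G a) b) = Nat.card (MulAction.orbit (MulAction.stabilizer G a) c))
    (N : Subgroup G) [hN : N.Normal] (hNt : MulAction.IsPretransitive N Ω) (hNr : ∀ a : Ω, MulAction.stabilizer N a = ⊥)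
    (hnotF : ∃ a b : Ω, a ≠ b ∧ MulAction.stabilizer G a ⊓ MulAction.stabilizer G b ≠ ⊥) :
    (∃ p : ℕ, p.Prime ∧ IsMulCommutative N ∧ ∀ x ∈ N, x ^ p = 1) ∧
    (∀ M : Subgroup G, M.Normal → M ≠ ⊥ → N ≤ M) := by
  classical
  obtain ⟨α, β₀, hαβ, hne2⟩ := hnotF
  haveI := hNt
  have hβα : β₀ ≠ α := fun h => hαβ h.symm
  have hcm : Nat.card (MulAction.stabilizer ↥(MulAction.stabilizer G α) β₀) *
      (MulAction.orbit ↥(MulAction.stabilizer G α) β₀).ncard =
      Nat.card ↥(MulAction.stabilizer G α) := by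
    have e1 := Subgroup.card_mul_index (MulAction.stabilizer ↥(MulAction.stabilizer G α) β₀)
    rw [MulAction.index_stabilizer] at e1
    exact e1
  have hmpos : 0 < (MulAction.orbit ↥(MulAction.stabilizer G α) β₀).ncard :=
    (Set.ncard_pos).2 ⟨β₀, MulAction.mem_orbit_self β₀⟩
  have horb : ∀ ω : Ω, ω ≠ α → (MulAction.orbit ↥(MulAction.stabilizer G α) ω).ncard =
      (MulAction.orbit ↥(MulAction.stabilizer G α) β₀).ncard := by
    intro ω hω
    rw [← Nat.card_coe_set_eq, ← Nat.card_coe_set_eq]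
    exact hhalf α ω β₀ hω hβα
  refine core N α (MulAction.stabilizer G α) (fun a => MulAction.mem_stabilizer_iff) ?_ ?_ _ _ ?_
    hcm ?_ horb
  · intro ω
    obtain ⟨n, hn⟩ := MulAction.exists_smul_eq ↥N α ω
    exact ⟨n.1, n.2, hn⟩
  · intro n hn h
    have h1 : (⟨n, hn⟩ : ↥N) ∈ MulAction.stabilizer ↥N α := MulAction.mem_stabilizer_iff.2 h
    rw [hNr α, Subgroup.mem_bot] at h1
    have h2 := congrArg Subtype.val h1
    exact h2
  · rw [Subgroup.one_lt_card_iff_ne_bot]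
    intro h
    apply hne2
    rw [Subgroup.eq_bot_iff_forall]
    intro g hg
    obtain ⟨hg1, hg2⟩ := Subgroup.mem_inf.1 hg
    have h1 : (⟨g, hg1⟩ : ↥(MulAction.stabilizer G α)) ∈
        MulAction.stabilizer ↥(MulAction.stabilizer G α) β₀ :=
      MulAction.mem_stabilizer_iff.2 (MulAction.mem_stabilizer_iff.1 hg2)
    rw [h, Subgroup.mem_bot] at h1
    have h2 := congrArg Subtype.val h1
    exact h2
  · intro ω hω
    have e1 := Subgroup.card_mul_index (MulAction.stabilizer ↥(MulAction.stabilizer G α) ω)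
    rw [MulAction.index_stabilizer, horb ω hω, ← hcm] at e1
    exact Nat.eq_of_mul_eq_mul_right hmpos e1

end Cfsg.Agent.S3356
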