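import Mathlib
import Cfsg.Statements.S3362

set_option autoImplicit false
open Cfsg

namespace Cfsg.Agent.S3362

abbrev Γ := Equiv.Perm (Fin 12)

def gs : Γ := Equiv.swap (3 : Fin 12) 5 * Equiv.swap (3 : Fin 12) 4 * Equiv.swap (6 : Fin 12) 8 * Equiv.swap (6 : Fin 12) 7 * Equiv.swap (9 : Fin 12) 11 * Equiv.swap (9 : Fin 12) 10
def gt : Γ := Equiv.swap (3 : Fin 12) 9 * Equiv.swap (3 : Fin 12) 6 * Equiv.swap (4 : Fin 12) 10 * Equiv.swap (4 : Fin 12) 7 * Equiv.swap (5 : Fin 12) 11 * Equiv.swap (5 : Fin 12) 8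
def gu : Γ := Equiv.swap (4 : Fin 12) 9 * Equiv.swap (4 : Fin 12) 5 * Equiv.swap (4 : Fin 12) 6 * Equiv.swap (7 : Fin 12) 10 * Equiv.swap (7 : Fin 12) 11 * Equiv.swap (7 : Fin 12) 8
def gv : Γ := Equiv.swap (4 : Fin 12) 11 * Equiv.swap (4 : Fin 12) 5 * Equiv.swap (4 : Fin 12) 7 * Equiv.swap (6 : Fin 12) 8 * Equiv.swap (6 : Fin 12) 9 * Equiv.swap (6 : Fin 12) 10
def gw : Γ := Equiv.swap (4 : Fin 12) 8 * Equiv.swap (4 : Fin 12) 5 * Equiv.swap (4 : Fin 12) 10 * Equiv.swap (6 : Fin 12) 7 * Equiv.swap (6 : Fin 12) 9 * Equiv.swap (6 : Fin 12) 11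
def gx1 : Γ := Equiv.swap (0 : Fin 12) 3 * Equiv.swap (6 : Fin 12) 7 * Equiv.swap (8 : Fin 12) 10 * Equiv.swap (9 : Fin 12) 11
def gx2 : Γ := Equiv.swap (0 : Fin 12) 1 * Equiv.swap (6 : Fin 12) 9 * Equiv.swap (7 : Fin 12) 10 * Equiv.swap (8 : Fin 12) 11
def gx3 : Γ := Equiv.swap (1 : Fin 12) 2 * Equiv.swap (6 : Fin 12) 11 * Equiv.swap (7 : Fin 12) 9 * Equiv.swap (8 : Fin 12) 10

def gen : Fin 8 → Γ := ![gu, gv, gw, gs, gt, gx1, gx2, gx3]

def ev (w : List (Fin 8)) : Γ := (w.map gen).prod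

/-- the generating set consisting of the first `k` generators -/
def gset (k : ℕ) : Set Γ := {g | ∃ i : Fin 8, i.val < k ∧ g = gen i}

def grp (k : ℕ) : Subgroup Γ := Subgroup.closure (gset k)

def sift : List (Fin 12 × List Γ) → Γ → Bool
  | [], g => decide (g = 1)
  | (b, T) :: L, g => T.any fun t => decide (t b = g b) && sift L (t⁻¹ * g)

def prodSet : List (Fin 12 × List Γ) → Set Γ
  | [] => {1}
  | (_, T) :: L => {g | ∃ t ∈ T, ∃ h ∈ prodSet L, g = t * h}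

theorem sift_sound : ∀ (L : List (Fin 12 × List Γ)) (g : Γ), sift L g = true → g ∈ prodSet L
  | [], g, h => by
      simp only [sift, decide_eq_true_eq] at h
      simp [prodSet, h]
  | (b, T) :: L, g, h => by
      simp only [sift, List.any_eq_true, Bool.and_eq_true, decide_eq_true_eq] at h
      obtain ⟨t, ht, -, h2⟩ := h
      exact ⟨t, ht, t⁻¹ * g, sift_sound L _ h2, by group⟩

theorem grp_mono {k l : ℕ} (h : k ≤ l) : grp k ≤ grp l := by
  apply Subgroup.closure_mono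
  rintro g ⟨i, hi, rfl⟩
  exact ⟨i, lt_of_lt_of_le hi h, rfl⟩

theorem ev_mem (k : ℕ) (w : List (Fin 8)) (hw : ∀ i ∈ w, i.val < k) : ev w ∈ grp k := by
  unfold ev
  apply Subgroup.list_prod_mem
  intro x hx
  rw [List.mem_map] at hx
  obtain ⟨i, hi, rfl⟩ := hx
  exact Subgroup.subset_closure ⟨i, hw i hi, rfl⟩

theorem level_step (k : ℕ) (b : Fin 12) (T : List Γ) (L : List (Fin 12 × List Γ)) (K : Subgroup Γ)
    (hK : (K : Set Γ) = prodSet L)
    (hT : ∀ t ∈ T, t ∈ grp k)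
    (hKle : K ≤ grp k)
    (h1 : (1 : Γ) ∈ T)
    (hchk : ∀ i : Fin 8, i.val < k → ∀ t ∈ T,
      sift ((b, T) :: L) (gen i * t) = true ∧ sift ((b, T) :: L) ((gen i)⁻¹ * t) = true) :
    ((grp k : Subgroup Γ) : Set Γ) = prodSet ((b, T) :: L) := by
  have key : ∀ x : Γ, (∀ t ∈ T, x * t ∈ prodSet ((b, T) :: L)) →
      ∀ a ∈ prodSet ((b, T) :: L), x * a ∈ prodSet ((b, T) :: L) := by
    rintro x hx a ⟨t, ht, h, hh, rfl⟩
    obtain ⟨t', ht', h', hh', e⟩ := hx t ht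
    refine ⟨t', ht', h' * h, ?_, by rw [← mul_assoc, e, mul_assoc]⟩
    rw [← hK] at hh hh' ⊢
    exact K.mul_mem hh' hh
  apply Set.Subset.antisymm
  · intro g hg
    have hP : (∀ a ∈ prodSet ((b, T) :: L), g * a ∈ prodSet ((b, T) :: L)) ∧
        (∀ a ∈ prodSet ((b, T) :: L), g⁻¹ * a ∈ prodSet ((b, T) :: L)) := by
      refine Subgroup.closure_induction (p := fun x _ =>
        (∀ a ∈ prodSet ((b, T) :: L), x * a ∈ prodSet ((b, T) :: L)) ∧
        (∀ a ∈ prodSet ((b, T) :: L), x⁻¹ * a ∈ prodSet ((b, T) :: L))) ?_ ?_ ?_ ?_ hg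
      · rintro x ⟨i, hi, rfl⟩
        exact ⟨key _ fun t ht => sift_sound _ _ (hchk i hi t ht).1,
          key _ fun t ht => sift_sound _ _ (hchk i hi t ht).2⟩
      · simp
      · rintro x y - - ⟨hx1, hx2⟩ ⟨hy1, hy2⟩
        refine ⟨fun a ha => ?_, fun a ha => ?_⟩
        · rw [mul_assoc]; exact hx1 _ (hy1 a ha)
        · rw [mul_inv_rev, mul_assoc]; exact hy2 _ (hx2 a ha)
      · rintro x - ⟨hx1, hx2⟩
        refine ⟨hx2, ?_⟩
        rw [inv_inv]; exact hx1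
    have h1' : (1 : Γ) ∈ prodSet ((b, T) :: L) :=
      ⟨1, h1, 1, by rw [← hK]; exact K.one_mem, by simp⟩
    simpa using hP.1 1 h1'
  · rintro g ⟨t, ht, h, hh, rfl⟩
    rw [← hK] at hh
    exact (grp k).mul_mem (hT t ht) (hKle hh)

theorem level_card (H K : Subgroup Γ) (b : Fin 12) (T : List Γ) (L : List (Fin 12 × List Γ))
    (hH : (H : Set Γ) = prodSet ((b, T) :: L)) (hK : (K : Set Γ) = prodSet L)
    (hfix : ∀ h ∈ K, h b = b) (hnd : (T.map (fun t => t b)).Nodup) (h1 : (1 : Γ) ∈ T) :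
    Nat.card H = T.length * Nat.card K ∧ (∀ g ∈ H, g b = b → g ∈ K) := by
  have hinj : ∀ t ∈ T, ∀ t' ∈ T, t b = t' b → t = t' := fun t ht t' ht' e =>
    List.inj_on_of_nodup_map hnd ht ht' e
  constructor
  · have hTnd : T.Nodup := List.Nodup.of_map _ hnd
    have e1 : Nat.card {t // t ∈ T} = T.length := by
      rw [Nat.card_eq_fintype_card, Fintype.card_of_subtype T.toFinset (by simp),
        List.toFinset_card_of_nodup hTnd]
    rw [← e1, ← Nat.card_prod]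
    symm
    refine Nat.card_congr (Equiv.ofBijective
      (fun p : {t // t ∈ T} × K => (⟨p.1.1 * p.2.1, by
        rw [← SetLike.mem_coe, hH]
        exact ⟨p.1.1, p.1.2, p.2.1, by rw [← hK]; exact p.2.2, rfl⟩⟩ : H)) ⟨?_, ?_⟩)
    · rintro ⟨⟨t, ht⟩, ⟨h, hh⟩⟩ ⟨⟨t', ht'⟩, ⟨h', hh'⟩⟩ e
      simp only [Subtype.mk.injEq] at e
      have e2 : t b = t' b := by
        have := congrArg (fun g : Γ => g b) e
        simpa [Equiv.Perm.mul_apply, hfix h hh, hfix h' hh'] using this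
      have e3 : t = t' := hinj t ht t' ht' e2
      subst e3
      have e4 : h = h' := mul_left_cancel e
      subst e4
      rfl
    · rintro ⟨g, hg⟩
      rw [← SetLike.mem_coe, hH] at hg
      obtain ⟨t, ht, h, hh, rfl⟩ := hg
      rw [← hK] at hh
      exact ⟨⟨⟨t, ht⟩, ⟨h, hh⟩⟩, rfl⟩
  · intro g hg hgb
    rw [← SetLike.mem_coe, hH] at hg
    obtain ⟨t, ht, h, hh, rfl⟩ := hg
    rw [← hK] at hh
    have e2 : t b = (1 : Γ) b := by
      rw [Equiv.Perm.mul_apply, hfix h hh] at hgb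
      simpa using hgb
    have e3 : t = 1 := hinj t ht 1 h1 e2
    subst e3
    simpa using hh

theorem fix_of_gens (k : ℕ) (b : Fin 12) (h : ∀ i : Fin 8, i.val < k → gen i b = b) :
    ∀ g ∈ grp k, g b = b := by
  intro g hg
  have : grp k ≤ MulAction.stabilizer Γ b := by
    unfold grp
    rw [Subgroup.closure_le]
    rintro x ⟨i, hi, rfl⟩
    exact h i hi
  exact this hg

def W0 : List (List (Fin 8)) := [[], [7], [6,7], [5,6,7], [3,5,6,7], [4,5,6,7], [1,3,5,6,7], [2,3,5,6,7], [3,3,5,6,7], [2,4,5,6,7], [4,4,5,6,7], [0,1,3,5,6,7]]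
def W1 : List (List (Fin 8)) := [[], [6], [5,6], [3,5,6], [4,5,6], [1,3,5,6], [2,3,5,6], [3,3,5,6], [2,4,5,6], [4,4,5,6], [0,1,3,5,6]]
def W2 : List (List (Fin 8)) := [[], [5], [3,5], [4,5], [1,3,5], [2,3,5], [3,3,5], [2,4,5], [4,4,5], [0,1,3,5]]
def W3 : List (List (Fin 8)) := [[], [3], [4], [1,3], [2,3], [3,3], [2,4], [4,4], [0,1,3]]
def W4 : List (List (Fin 8)) := [[], [0], [1], [2], [0,0], [2,0], [0,1], [1,2]]

def T0 : List Γ := W0.map ev
def T1 : List Γ := W1.map ev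
def T2 : List Γ := W2.map ev
def T3 : List Γ := W3.map ev
def T4 : List Γ := W4.map ev

def L5 : List (Fin 12 × List Γ) := []
def L4 : List (Fin 12 × List Γ) := (4, T4) :: L5
def L3 : List (Fin 12 × List Γ) := (3, T3) :: L4
def L2 : List (Fin 12 × List Γ) := (0, T2) :: L3
def L1 : List (Fin 12 × List Γ) := (1, T1) :: L2
def L0 : List (Fin 12 × List Γ) := (2, T0) :: L1

theorem T_mem (k : ℕ) (W : List (List (Fin 8))) (hW : ∀ w ∈ W, ∀ i ∈ w, i.val < k) :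
    ∀ t ∈ W.map ev, t ∈ grp k := by
  intro t ht
  rw [List.mem_map] at ht
  obtain ⟨w, hw, rfl⟩ := ht
  exact ev_mem k w (hW w hw)

theorem one_mem_T (W : List (List (Fin 8))) (h : [] ∈ W) : (1 : Γ) ∈ W.map ev :=
  List.mem_map.mpr ⟨[], h, rfl⟩

theorem grp0 : ((grp 0 : Subgroup Γ) : Set Γ) = prodSet L5 := by
  have : grp 0 = ⊥ := by
    unfold grp
    rw [Subgroup.closure_eq_bot_iff]
    rintro g ⟨i, hi, rfl⟩
    exact absurd hi (Nat.not_lt_zero _)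
  rw [this]
  simp [prodSet, L5]

def chk (k : ℕ) (T : List Γ) (L : List (Fin 12 × List Γ)) : Bool :=
  (List.finRange 8).all fun i => (!decide (i.val < k)) ||
    T.all fun t => sift L (gen i * t) && sift L ((gen i)⁻¹ * t)

theorem chk_sound (k : ℕ) (T : List Γ) (L : List (Fin 12 × List Γ)) (h : chk k T L = true) :
    ∀ i : Fin 8, i.val < k → ∀ t ∈ T,
      sift L (gen i * t) = true ∧ sift L ((gen i)⁻¹ * t) = true := by
  intro i hi t ht
  unfold chk at h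
  rw [List.all_eq_true] at h
  have h2 := h i (List.mem_finRange i)
  simp only [Bool.or_eq_true, Bool.not_eq_true', decide_eq_false_iff_not, List.all_eq_true,
    Bool.and_eq_true] at h2
  rcases h2 with h2 | h2
  · exact absurd hi h2
  · exact h2 t ht

set_option maxHeartbeats 0 in
theorem chk4 : chk 3 T4 L4 = true := by decide +kernel

set_option maxHeartbeats 0 in
theorem chk3 : chk 5 T3 L3 = true := by decide +kernel

set_option maxHeartbeats 0 in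
theorem chk2 : chk 6 T2 L2 = true := by decide +kernel

set_option maxHeartbeats 0 in
theorem chk1 : chk 7 T1 L1 = true := by decide +kernel

set_option maxHeartbeats 0 in
theorem chk0 : chk 8 T0 L0 = true := by decide +kernel

theorem grp3 : ((grp 3 : Subgroup Γ) : Set Γ) = prodSet L4 :=
  level_step 3 4 T4 L5 (grp 0) grp0 (T_mem 3 W4 (by decide)) (grp_mono (by norm_num))
    (one_mem_T W4 (by decide)) (chk_sound _ _ _ chk4)

theorem grp5 : ((grp 5 : Subgroup Γ) : Set Γ) = prodSet L3 :=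
  level_step 5 3 T3 L4 (grp 3) grp3 (T_mem 5 W3 (by decide)) (grp_mono (by norm_num))
    (one_mem_T W3 (by decide)) (chk_sound _ _ _ chk3)

theorem grp6 : ((grp 6 : Subgroup Γ) : Set Γ) = prodSet L2 :=
  level_step 6 0 T2 L3 (grp 5) grp5 (T_mem 6 W2 (by decide)) (grp_mono (by norm_num))
    (one_mem_T W2 (by decide)) (chk_sound _ _ _ chk2)

theorem grp7 : ((grp 7 : Subgroup Γ) : Set Γ) = prodSet L1 :=
  level_step 7 1 T1 L2 (grp 6) grp6 (T_mem 7 W1 (by decide)) (grp_mono (by norm_num))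
    (one_mem_T W1 (by decide)) (chk_sound _ _ _ chk1)

theorem grp8 : ((grp 8 : Subgroup Γ) : Set Γ) = prodSet L0 :=
  level_step 8 2 T0 L1 (grp 7) grp7 (T_mem 8 W0 (by decide)) (grp_mono (by norm_num))
    (one_mem_T W0 (by decide)) (chk_sound _ _ _ chk0)

theorem nd4 : (T4.map (fun t => t 4)).Nodup := by decide +kernel
theorem nd3 : (T3.map (fun t => t 3)).Nodup := by decide +kernel
theorem nd2 : (T2.map (fun t => t 0)).Nodup := by decide +kernel
theorem nd1 : (T1.map (fun t => t 1)).Nodup := by decide +kernel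
theorem nd0 : (T0.map (fun t => t 2)).Nodup := by decide +kernel

theorem fix4 : ∀ i : Fin 8, i.val < 0 → gen i 4 = 4 := by decide +kernel
theorem fix3 : ∀ i : Fin 8, i.val < 3 → gen i 3 = 3 := by decide +kernel
theorem fix2 : ∀ i : Fin 8, i.val < 5 → gen i 0 = 0 := by decide +kernel
theorem fix1 : ∀ i : Fin 8, i.val < 6 → gen i 1 = 1 := by decide +kernel
theorem fix0 : ∀ i : Fin 8, i.val < 7 → gen i 2 = 2 := by decide +kernel

theorem lc4 : Nat.card (grp 3) = T4.length * Nat.card (grp 0) ∧ (∀ g ∈ grp 3, g 4 = 4 → g ∈ grp 0) :=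
  level_card (grp 3) (grp 0) 4 T4 L5 grp3 grp0 (fix_of_gens 0 4 fix4) nd4 (one_mem_T W4 (by decide))
theorem lc3 : Nat.card (grp 5) = T3.length * Nat.card (grp 3) ∧ (∀ g ∈ grp 5, g 3 = 3 → g ∈ grp 3) :=
  level_card (grp 5) (grp 3) 3 T3 L4 grp5 grp3 (fix_of_gens 3 3 fix3) nd3 (one_mem_T W3 (by decide))
theorem lc2 : Nat.card (grp 6) = T2.length * Nat.card (grp 5) ∧ (∀ g ∈ grp 6, g 0 = 0 → g ∈ grp 5) :=
  level_card (grp 6) (grp 5) 0 T2 L3 grp6 grp5 (fix_of_gens 5 0 fix2) nd2 (one_mem_T W2 (by decide))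
theorem lc1 : Nat.card (grp 7) = T1.length * Nat.card (grp 6) ∧ (∀ g ∈ grp 7, g 1 = 1 → g ∈ grp 6) :=
  level_card (grp 7) (grp 6) 1 T1 L2 grp7 grp6 (fix_of_gens 6 1 fix1) nd1 (one_mem_T W1 (by decide))
theorem lc0 : Nat.card (grp 8) = T0.length * Nat.card (grp 7) ∧ (∀ g ∈ grp 8, g 2 = 2 → g ∈ grp 7) :=
  level_card (grp 8) (grp 7) 2 T0 L1 grp8 grp7 (fix_of_gens 7 2 fix0) nd0 (one_mem_T W0 (by decide))

theorem grp0_bot : grp 0 = ⊥ := by
  unfold grp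
  rw [Subgroup.closure_eq_bot_iff]
  rintro g ⟨i, hi, rfl⟩
  exact absurd hi (Nat.not_lt_zero _)

theorem card7 : Nat.card (grp 7) = 7920 := by
  rw [lc1.1, lc2.1, lc3.1, lc4.1, grp0_bot]
  simp [T1, T2, T3, T4, W1, W2, W3, W4]

theorem card8 : Nat.card (grp 8) = 95040 := by
  rw [lc0.1, card7]
  simp [T0, W0]

theorem triv_stab (g : Γ) (hg : g ∈ grp 8) (h2 : g 2 = 2) (h1 : g 1 = 1) (h0 : g 0 = 0)
    (h3 : g 3 = 3) (h4 : g 4 = 4) : g = 1 := by
  have := lc4.2 g (lc3.2 g (lc2.2 g (lc1.2 g (lc0.2 g hg h2) h1) h0) h3) h4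
  rw [grp0_bot] at this
  simpa using this

theorem gset8 : gset 8 = {gs, gt, gu, gv, gw, gx1, gx2, gx3} := by
  ext g
  constructor
  · rintro ⟨i, -, rfl⟩
    fin_cases i <;> simp [gen]
  · rintro (rfl | rfl | rfl | rfl | rfl | rfl | rfl | rfl)
    · exact ⟨3, by decide, rfl⟩
    · exact ⟨4, by decide, rfl⟩
    · exact ⟨0, by decide, rfl⟩
    · exact ⟨1, by decide, rfl⟩
    · exact ⟨2, by decide, rfl⟩
    · exact ⟨5, by decide, rfl⟩
    · exact ⟨6, by decide, rfl⟩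
    · exact ⟨7, by decide, rfl⟩

theorem gset7 : gset 7 = {gs, gt, gu, gv, gw, gx1, gx2} := by
  ext g
  constructor
  · rintro ⟨i, hi, rfl⟩
    fin_cases i <;> first | (exact absurd hi (by decide)) | simp [gen]
  · rintro (rfl | rfl | rfl | rfl | rfl | rfl | rfl)
    · exact ⟨3, by decide, rfl⟩
    · exact ⟨4, by decide, rfl⟩
    · exact ⟨0, by decide, rfl⟩
    · exact ⟨1, by decide, rfl⟩
    · exact ⟨2, by decide, rfl⟩
    · exact ⟨5, by decide, rfl⟩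
    · exact ⟨6, by decide, rfl⟩

def y0fun : Fin 5 → Fin 12 := ![2, 1, 0, 3, 4]

theorem y0inj : Function.Injective y0fun := by decide

def y0 : Fin 5 ↪ Fin 12 := ⟨y0fun, y0inj⟩

theorem stab_y0 : MulAction.stabilizer (grp 8) y0 = ⊥ := by
  rw [eq_bot_iff]
  rintro ⟨g, hg⟩ hgs
  rw [MulAction.mem_stabilizer_iff] at hgs
  have hpt : ∀ i : Fin 5, g (y0 i) = y0 i := by
    intro i
    have := congrArg (fun f : Fin 5 ↪ Fin 12 => f i) hgs
    simpa using this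
  have e := triv_stab g hg (hpt 0) (hpt 1) (hpt 2) (hpt 3) (hpt 4)
  rw [Subgroup.mem_bot]
  exact Subtype.ext e

theorem orbit_y0 : MulAction.orbit (grp 8) y0 = Set.univ := by
  have h1 := MulAction.index_stabilizer (grp 8) y0
  rw [stab_y0, Subgroup.index_bot, card8] at h1
  have h2 : Nat.card (Fin 5 ↪ Fin 12) = 95040 := by
    rw [Nat.card_eq_fintype_card, Fintype.card_embedding_eq]
    simp [Nat.descFactorial]
  rw [Set.eq_univ_iff_ncard, h2]
  exact h1.symm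

theorem main :
    MulAction.IsMultiplyPretransitive (grp 8) (Fin 12) 5 ∧
    (∀ y : Fin 5 ↪ Fin 12, MulAction.stabilizer (grp 8) y = ⊥) ∧
    Nat.card (grp 8) = 95040 ∧ Nat.card (grp 7) = 7920 ∧
    grp 7 = grp 8 ⊓ MulAction.stabilizer (Equiv.Perm (Fin 12)) (2 : Fin 12) := by
  refine ⟨?_, ?_, card8, card7, ?_⟩
  · exact (MulAction.isPretransitive_iff_orbit_eq_univ y0).mpr orbit_y0
  · intro y
    have hy : y ∈ MulAction.orbit (grp 8) y0 := by rw [orbit_y0]; trivial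
    rw [MulAction.mem_orbit_iff] at hy
    obtain ⟨g, rfl⟩ := hy
    rw [show MulAction.stabilizer (grp 8) (g • y0) =
      (MulAction.stabilizer (grp 8) y0).map (MulAut.conj g).toMonoidHom from
      MulAction.stabilizer_smul_eq_stabilizer_map_conj g y0, stab_y0, Subgroup.map_bot]
  · apply le_antisymm
    · intro g hg
      exact ⟨grp_mono (by norm_num) hg, fix_of_gens 7 2 fix0 g hg⟩
    · rintro g ⟨hg, hg2⟩
      exact lc0.2 g hg hg2

theorem result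
    (s t u v w x₁ x₂ x₃ : Equiv.Perm (Fin 12))
    (hs : s = Equiv.swap (3 : Fin 12) 5 * Equiv.swap (3 : Fin 12) 4 * Equiv.swap (6 : Fin 12) 8 * Equiv.swap (6 : Fin 12) 7 * Equiv.swap (9 : Fin 12) 11 * Equiv.swap (9 : Fin 12) 10) (ht : t = Equiv.swap (3 : Fin 12) 9 * Equiv.swap (3 : Fin 12) 6 * Equiv.swap (4 : Fin 12) 10 * Equiv.swap (4 : Fin 12) 7 * Equiv.swap (5 : Fin 12) 11 * Equiv.swap (5 : Fin 12) 8)
    (hu : u = Equiv.swap (4 : Fin 12) 9 * Equiv.swap (4 : Fin 12) 5 * Equiv.swap (4 : Fin 12) 6 * Equiv.swap (7 : Fin 12) 10 * Equiv.swap (7 : Fin 12) 11 * Equiv.swap (7 : Fin 12) 8) (hv : v = Equiv.swap (4 : Fin 12) 11 * Equiv.swap (4 : Fin 12) 5 * Equiv.swap (4 : Fin 12) 7 * Equiv.swap (6 : Fin 12) 8 * Equiv.swap (6 : Fin 12) 9 * Equiv.swap (6 : Fin 12) 10) (hw : w = Equiv.swap (4 : Fin 12) 8 * Equiv.swap (4 : Fin 12) 5 * Equiv.swap (4 : Fin 12) 10 * Equiv.swap (6 : Fin 12) 7 * Equiv.swap (6 :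 Fin 12) 9 * Equiv.swap (6 : Fin 12) 11)
    (hx₁ : x₁ = Equiv.swap (0 : Fin 12) 3 * Equiv.swap (6 : Fin 12) 7 * Equiv.swap (8 : Fin 12) 10 * Equiv.swap (9 : Fin 12) 11) (hx₂ : x₂ = Equiv.swap (0 : Fin 12) 1 * Equiv.swap (6 : Fin 12) 9 * Equiv.swap (7 : Fin 12) 10 * Equiv.swap (8 : Fin 12) 11)
    (hx₃ : x₃ = Equiv.swap (1 : Fin 12) 2 * Equiv.swap (6 : Fin 12) 11 * Equiv.swap (7 : Fin 12) 9 * Equiv.swap (8 : Fin 12) 10)
    (M₁₂ M₁₁ : Subgroup (Equiv.Perm (Fin 12))) (hM₁₂ : M₁₂ = Subgroup.closure {s, t, u, v, w, x₁, x₂, x₃})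
    (hM₁₁ : M₁₁ = Subgroup.closure {s, t, u, v, w, x₁, x₂}) :
    MulAction.IsMultiplyPretransitive M₁₂ (Fin 12) 5 ∧ (∀ y : Fin 5 ↪ Fin 12, MulAction.stabilizer M₁₂ y = ⊥) ∧
    Nat.card M₁₂ = 95040 ∧ Nat.card M₁₁ = 7920 ∧
    M₁₁ = M₁₂ ⊓ MulAction.stabilizer (Equiv.Perm (Fin 12)) (2 : Fin 12) := by
  have e8 : M₁₂ = grp 8 := by
    rw [hM₁₂, hs, ht, hu, hv, hw, hx₁, hx₂, hx₃]
    unfold grp
    rw [gset8]
    rfl
  have e7 : M₁₁ = grp 7 := by
    rw [hM₁₁, hs, ht, hu, hv, hw, hx₁, hx₂]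
    unfold grp
    rw [gset7]
    rfl
  rw [e8, e7]
  exact main

end Cfsg.Agent.S3362
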