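import Mathlib
import Cfsg.Statements.S3375

set_option autoImplicit false
open Cfsg

namespace Cfsg.Agent.S3375

variable {H : Type*} [Group H]

theorem gamma_gamma (γ : MulAut H) (hγ : orderOf γ = 2) (h : H) : γ (γ h) = h := by
  have h2 : γ ^ 2 = 1 := by rw [← hγ]; exact pow_orderOf_eq_one γ
  have : (γ ^ 2) h = h := by rw [h2]; rfl
  simpa [sq, MulAut.mul_apply] using this

/-- the subgroup of fixed points of an automorphism -/
def fixedSubgroup (γ : MulAut H) : Subgroup H where
  carrier := {h | γ h = h}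
  mul_mem' := by
    intro a b ha hb
    simp only [Set.mem_setOf_eq] at ha hb ⊢
    rw [map_mul, ha, hb]
  one_mem' := by simp
  inv_mem' := by
    intro a ha
    simp only [Set.mem_setOf_eq] at ha ⊢
    rw [map_inv, ha]

theorem part1 [Finite H] (γ : MulAut H) (hγ : orderOf γ = 2) (hfix : ∀ h : H, γ h = h → h = 1) :
    (∀ a b : H, a * b = b * a) ∧ ∀ h : H, γ h = h⁻¹ := by
  have hinj : Function.Injective (fun h : H => h⁻¹ * γ h) := by
    intro h k hk
    simp only at hk
    have h1 : γ (k * h⁻¹) = k * h⁻¹ := by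
      rw [map_mul, map_inv]
      have : γ k = k * (h⁻¹ * γ h) := by rw [hk]; group
      rw [this]; group
    have h2 := hfix _ h1
    exact (mul_inv_eq_one.mp h2).symm
  have hsurj : Function.Surjective (fun h : H => h⁻¹ * γ h) := Finite.injective_iff_surjective.mp hinj
  have hinv : ∀ h : H, γ h = h⁻¹ := by
    intro g
    obtain ⟨h, rfl⟩ := hsurj g
    simp only [map_mul, map_inv, gamma_gamma γ hγ, mul_inv_rev, inv_inv]
  refine ⟨?_, hinv⟩
  intro a b
  have h1 : γ (b⁻¹ * a⁻¹) = (b⁻¹ * a⁻¹)⁻¹ := hinv _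
  rw [map_mul, hinv, hinv] at h1
  simpa using h1.symm

/-- an invariant subgroup of index two -/
theorem exists_invariant [Finite H] (γ : MulAut H) (hγ : orderOf γ = 2) (M : Subgroup H) (hM : M.index = 2) :
    ∃ A : Subgroup H, A.index = 2 ∧ ∀ a ∈ A, γ a ∈ A := by
  by_cases hinv : ∀ h : H, h ∈ M ↔ γ h ∈ M
  · exact ⟨M, hM, fun a ha => (hinv a).mp ha⟩
  · let A : Subgroup H :=
      { carrier := {h | h ∈ M ↔ γ h ∈ M}
        mul_mem' := by
          intro a b ha hb
          simp only [Set.mem_setOf_eq] at ha hb ⊢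
          rw [map_mul, Subgroup.mul_mem_iff_of_index_two hM, Subgroup.mul_mem_iff_of_index_two hM, ha, hb]
        one_mem' := by simp
        inv_mem' := by
          intro a ha
          simp only [Set.mem_setOf_eq] at ha ⊢
          rw [map_inv, inv_mem_iff, inv_mem_iff]
          exact ha }
    have hA : ∀ h : H, h ∈ A ↔ (h ∈ M ↔ γ h ∈ M) := fun h => Iff.rfl
    refine ⟨A, ?_, ?_⟩
    · rw [Subgroup.index_eq_two_iff]
      push_neg at hinv
      obtain ⟨a, ha⟩ := hinv
      have haA : a ∉ A := by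
        rw [hA]
        tauto
      refine ⟨a, fun b => ?_⟩
      by_cases hb : b ∈ A
      · refine Or.inr ⟨hb, ?_⟩
        intro hba
        apply haA
        have := A.mul_mem (A.inv_mem hb) hba
        simpa using this
      · refine Or.inl ⟨?_, hb⟩
        rw [hA] at haA hb ⊢
        rw [map_mul, Subgroup.mul_mem_iff_of_index_two hM, Subgroup.mul_mem_iff_of_index_two hM]
        tauto
    · intro a ha
      rw [hA] at ha ⊢
      rw [gamma_gamma γ hγ]
      exact ha.symm

theorem part2 [Finite H] (γ : MulAut H) (hγ : orderOf γ = 2)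
    (hcard : Nat.card {h : H // γ h = h} = 2) (M : Subgroup H) (hM : M.index = 2) :
    ∃ A : Subgroup H, A.index = 2 ∧ IsMulCommutative A ∧ (∀ a ∈ A, γ a ∈ A) ∧ ∀ a ∈ A, γ a = a⁻¹ := by
  obtain ⟨A, hA2, hAinv⟩ := exists_invariant γ hγ M hM
  have hAiff : ∀ h : H, γ h ∈ A ↔ h ∈ A := by
    intro h
    constructor
    · intro hh
      have := hAinv _ hh
      rwa [gamma_gamma γ hγ] at this
    · exact hAinv h
  set C : Subgroup H := fixedSubgroup γ with hC
  have hCcard : Nat.card C = 2 := hcard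
  -- the map h ↦ γ h * h⁻¹ on H ⧸ C
  have hmemA : ∀ h : H, γ h * h⁻¹ ∈ A := by
    intro h
    rw [Subgroup.mul_mem_iff_of_index_two hA2, inv_mem_iff, hAiff]
  let f : H ⧸ C → A := Quotient.lift (fun h : H => (⟨γ h * h⁻¹, hmemA h⟩ : A)) (by
    intro a b hab
    have hab' : a⁻¹ * b ∈ C := QuotientGroup.leftRel_apply.mp hab
    have h1 : γ (a⁻¹ * b) = a⁻¹ * b := hab'
    rw [map_mul, map_inv] at h1
    apply Subtype.ext
    simp only
    have : γ b = γ a * (a⁻¹ * b) := by rw [← h1]; group
    rw [this]; group)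
  have hf : ∀ h : H, f (QuotientGroup.mk h) = ⟨γ h * h⁻¹, hmemA h⟩ := fun h => rfl
  have hfinj : Function.Injective f := by
    intro x y hxy
    induction x using QuotientGroup.induction_on with
    | H a =>
      induction y using QuotientGroup.induction_on with
      | H b =>
        rw [hf, hf] at hxy
        have h1 : γ a * a⁻¹ = γ b * b⁻¹ := congrArg Subtype.val hxy
        apply QuotientGroup.eq.mpr
        show γ (a⁻¹ * b) = a⁻¹ * b
        rw [map_mul, map_inv]
        have : γ a = γ b * b⁻¹ * a := by rw [← h1]; group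
        rw [this]; group
  have hcardeq : Nat.card A ≤ Nat.card (H ⧸ C) := by
    have h1 : Nat.card A * 2 = Nat.card H := by rw [← hA2]; exact A.card_mul_index
    have h2 : Nat.card C * C.index = Nat.card H := C.card_mul_index
    rw [hCcard] at h2
    have h3 : Nat.card (H ⧸ C) = C.index := rfl
    rw [h3]
    omega
  have hfsurj : Function.Surjective f := (hfinj.bijective_of_nat_card_le hcardeq).2
  have hinv : ∀ a ∈ A, γ a = a⁻¹ := by
    intro a ha
    obtain ⟨x, hx⟩ := hfsurj ⟨a, ha⟩
    induction x using QuotientGroup.induction_on with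
    | H h =>
      rw [hf] at hx
      have h1 : γ h * h⁻¹ = a := congrArg Subtype.val hx
      rw [← h1]
      simp only [map_mul, map_inv, gamma_gamma γ hγ, mul_inv_rev, inv_inv]
  refine ⟨A, hA2, ⟨⟨?_⟩⟩, hAinv, hinv⟩
  rintro ⟨a, ha⟩ ⟨b, hb⟩
  apply Subtype.ext
  show a * b = b * a
  have h1 : γ (b⁻¹ * a⁻¹) = (b⁻¹ * a⁻¹)⁻¹ := hinv _ (A.mul_mem (A.inv_mem hb) (A.inv_mem ha))
  rw [map_mul, hinv _ (A.inv_mem hb), hinv _ (A.inv_mem ha)] at h1
  simpa using h1.symm

/-- Let γ be an automorphism of order 2 of a finite group H. (i) If γ fixes only the identity, then H is abelian and γ inverts every element. (ii) If γ has exactly two fixed points and H has a subgroup of index 2, then H has a γ-invariant abelian subgroup of index 2 on which γ acts by inversion. -/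
theorem result {H : Type*} [Group H] [Finite H] (γ : MulAut H) (hγ : orderOf γ = 2) :
    ((∀ h : H, γ h = h → h = 1) → (∀ a b : H, a * b = b * a) ∧ ∀ h : H, γ h = h⁻¹) ∧
    ((Nat.card {h : H // γ h = h} = 2 ∧ ∃ M : Subgroup H, M.index = 2) →
      ∃ A : Subgroup H, A.index = 2 ∧ IsMulCommutative A ∧ (∀ a ∈ A, γ a ∈ A) ∧ ∀ a ∈ A, γ a = a⁻¹) := by
  refine ⟨part1 γ hγ, ?_⟩
  rintro ⟨hcard, M, hM⟩
  exact part2 γ hγ hcard M hM

end Cfsg.Agent.S3375
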