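import Cfsg.Statements.S3381
import Mathlib

set_option autoImplicit false
open Cfsg

namespace Cfsg.Agent.S3381

section aux

variable {q : ℕ} [Fact q.Prime] {V : Type*} [AddCommGroup V] [Module (ZMod q) V]
  {G : Type*} [Group G] (ρ : G →* (V ≃ₗ[ZMod q] V))

theorem act_mul (g h : G) (v : V) : ρ (g * h) v = ρ g (ρ h v) := by
  rw [map_mul]; rfl

theorem act_one (v : V) : ρ 1 v = v := by
  rw [map_one]; rfl

theorem stab_two (hstab : ∀ v : V, v ≠ 0 → Nat.card {g : G // ρ g v = v} = 2) (v : V)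
    (hv : v ≠ 0) :
    ∃ t : G, t ≠ 1 ∧ ρ t v = v ∧ t * t = 1 ∧ ∀ g, ρ g v = v → g = 1 ∨ g = t := by
  have h := hstab v hv
  have h1 : ρ 1 v = v := act_one ρ v
  obtain ⟨y, hy1, hyu⟩ := (Nat.card_eq_two_iff' (⟨1, h1⟩ : {g : G // ρ g v = v})).mp h
  have hall : ∀ g, ρ g v = v → g = 1 ∨ g = y.1 := by
    intro g hg
    by_cases hg1 : g = 1
    · left; exact hg1
    · right
      have h2 : (⟨g, hg⟩ : {g : G // ρ g v = v}) = y :=
        hyu _ (by intro h'; exact hg1 (congrArg Subtype.val h'))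
      exact congrArg Subtype.val h2
  have hy1' : y.1 ≠ 1 := by intro h'; exact hy1 (Subtype.ext h')
  refine ⟨y.1, hy1', y.2, ?_, hall⟩
  have h2 : ρ (y.1 * y.1) v = v := by rw [act_mul, y.2, y.2]
  rcases hall _ h2 with h3 | h3
  · exact h3
  · exfalso; apply hy1'
    exact mul_left_cancel (a := y.1) (h3.trans (mul_one _).symm)

theorem two_eq (hq2 : q = 2) (v : V) : v + v = 0 := by
  have h2 : (2 : ZMod q) = 0 := by
    have h3 : ((2 : ℕ) : ZMod q) = 0 := by rw [ZMod.natCast_eq_zero_iff, hq2]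
    exact_mod_cast h3
  rw [← two_smul (ZMod q) v, h2, zero_smul]

theorem two_ne (hq2 : q ≠ 2) (v : V) (h : v + v = 0) : v = 0 := by
  have h2 : (2 : ZMod q) ≠ 0 := by
    intro h0
    have h3 : ((2 : ℕ) : ZMod q) = 0 := by exact_mod_cast h0
    rw [ZMod.natCast_eq_zero_iff] at h3
    have h4 := Nat.le_of_dvd (by norm_num) h3
    have hq := (Fact.out : q.Prime).two_le
    omega
  have h4 : (2 : ZMod q) • v = 0 := by rw [two_smul]; exact h
  rcases smul_eq_zero.mp h4 with h5 | h5
  · exact absurd h5 h2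
  · exact h5

theorem central_fpf (hρ : Function.Injective ρ)
    (hstab : ∀ v : V, v ≠ 0 → Nat.card {g : G // ρ g v = v} = 2)
    (c : G) (hc1 : c ≠ 1) (hcc : c * c = 1) (hcz : ∀ g : G, g * c = c * g)
    (v₀ : V) (hv₀ : v₀ ≠ 0) : ρ c v₀ ≠ v₀ := by
  intro hfix
  have hW : ∀ w : V, w ≠ 0 → ρ c w = w → ∀ g, ρ g w = w → g = 1 ∨ g = c := by
    intro w hw hcw g hg
    obtain ⟨t, ht1, htw, htt, hall⟩ := stab_two ρ hstab w hw
    rcases hall c hcw with h | h
    · exact absurd h hc1
    · rw [h]; exact hall g hg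
  have hinv : ∀ (g : G) (w : V), ρ c w = w → ρ c (ρ g w) = ρ g w := by
    intro g w hw
    rw [← act_mul, ← hcz g, act_mul, hw]
  obtain ⟨v, hv⟩ : ∃ v, ρ c v ≠ v := by
    by_contra hcon
    push_neg at hcon
    apply hc1
    apply hρ
    rw [map_one]
    ext v
    exact hcon v
  have hv0 : v ≠ 0 := by
    intro h; apply hv; rw [h, map_zero]
  obtain ⟨t, ht1, htv, htt, hall⟩ := stab_two ρ hstab v hv0
  have htc : t ≠ c := by intro h; apply hv; rw [← h]; exact htv
  have h1 : v₀ + ρ t v₀ = 0 := by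
    by_contra hne
    have hfix1 : ρ c (v₀ + ρ t v₀) = v₀ + ρ t v₀ := by
      rw [map_add, hfix, hinv t v₀ hfix]
    have hfix2 : ρ t (v₀ + ρ t v₀) = v₀ + ρ t v₀ := by
      rw [map_add, ← act_mul, htt, act_one, add_comm]
    rcases hW _ hne hfix1 t hfix2 with h | h
    · exact ht1 h
    · exact htc h
  by_cases hq2 : q = 2
  · have h2 := two_eq hq2 v₀
    have h3 : ρ t v₀ = v₀ := add_left_cancel (h1.trans h2.symm)
    rcases hW v₀ hv₀ hfix t h3 with h | h
    · exact ht1 h
    · exact htc h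
  · obtain ⟨v', hv'def⟩ : ∃ v', v' = v - ρ c v := ⟨_, rfl⟩
    have hv'0 : v' ≠ 0 := by
      intro h; apply hv; rw [hv'def, sub_eq_zero] at h; exact h.symm
    have hcv' : ρ c v' = -v' := by
      rw [hv'def, map_sub, ← act_mul, hcc, act_one]; abel
    have hy0 : v₀ + v' ≠ 0 := by
      intro h
      have h' := congrArg (ρ c) h
      rw [map_add, hfix, hcv', map_zero] at h'
      have h'' : v' + v' = 0 := by
        have e : (v₀ + v') - (v₀ + -v') = 0 := by rw [h, h', sub_zero]
        rw [← e]; abel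
      exact hv'0 (two_ne hq2 v' h'')
    obtain ⟨s, hs1, hsy, hss, halls⟩ := stab_two ρ hstab (v₀ + v') hy0
    have ha : ρ c (ρ s v₀ - v₀) = ρ s v₀ - v₀ := by rw [map_sub, hinv s v₀ hfix, hfix]
    have hb : ρ c (ρ s v' - v') = -(ρ s v' - v') := by
      rw [map_sub, ← act_mul, ← hcz s, act_mul, hcv', map_neg]; abel
    have hab : (ρ s v₀ - v₀) + (ρ s v' - v') = 0 := by
      have h5 := hsy
      rw [map_add, ← sub_eq_zero] at h5
      rw [← h5]; abel
    have ha0 : ρ s v₀ - v₀ = 0 := by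
      apply two_ne hq2
      have e : ρ s v₀ - v₀ = -(ρ s v' - v') := eq_neg_of_add_eq_zero_left hab
      have e2 : ρ c (ρ s v₀ - v₀) = -(ρ s v₀ - v₀) := by
        rw [e, map_neg, hb]
      rw [ha] at e2
      calc (ρ s v₀ - v₀) + (ρ s v₀ - v₀) = (ρ s v₀ - v₀) + -(ρ s v₀ - v₀) :=
            congrArg (fun w => (ρ s v₀ - v₀) + w) e2
        _ = 0 := add_neg_cancel _
    have hsv₀ : ρ s v₀ = v₀ := sub_eq_zero.mp ha0
    rcases hW v₀ hv₀ hfix s hsv₀ with h | h
    · exact hs1 h
    · rw [h] at hsy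
      rw [map_add, hfix, hcv'] at hsy
      have h5 : v' + v' = 0 := by
        have h6 : -v' = v' := add_left_cancel hsy
        calc v' + v' = v' + -v' := congrArg (fun w => v' + w) h6.symm
          _ = 0 := add_neg_cancel _
      exact hv'0 (two_ne hq2 v' h5)

theorem prod_le [Finite V] (g h : G) (hgh : ∀ d : V, ρ g d = d → ρ h d = d → d = 0) :
    Nat.card {v : V // ρ g v = v} * Nat.card {v : V // ρ h v = v} ≤ Nat.card V := by
  rw [← Nat.card_prod]
  apply Nat.card_le_card_of_injective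
    (fun p : {v : V // ρ g v = v} × {v : V // ρ h v = v} => (p.1.1 + p.2.1))
  rintro ⟨⟨x, hx⟩, ⟨y, hy⟩⟩ ⟨⟨x', hx'⟩, ⟨y', hy'⟩⟩ hxy
  have hxy' : x + y = x' + y' := hxy
  have e : x - x' = y' - y := by
    rw [sub_eq_sub_iff_add_eq_add, hxy', add_comm]
  have hd : x - x' = 0 := by
    apply hgh
    · rw [map_sub, hx, hx']
    · rw [e, map_sub, hy', hy]
  have hx2 : x = x' := sub_eq_zero.mp hd
  have hy2 : y = y' := by
    rw [hd] at e
    exact (sub_eq_zero.mp e.symm).symm
  subst hx2; subst hy2; rfl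

theorem prod_eq [Finite V] (hq2 : q ≠ 2) (t s : G) (htt : t * t = 1)
    (hs : ∀ v, ρ s v = - ρ t v) :
    Nat.card {v : V // ρ t v = v} * Nat.card {v : V // ρ s v = v} = Nat.card V := by
  apply le_antisymm
  · apply prod_le
    intro d h1 h2
    rw [hs, h1] at h2
    apply two_ne hq2
    calc d + d = d + -d := congrArg (fun w => d + w) h2.symm
      _ = 0 := add_neg_cancel _
  · rw [← Nat.card_prod]
    have h1 : ∀ v : V, ρ t (v + ρ t v) = v + ρ t v := by
      intro v
      rw [map_add, ← act_mul, htt, act_one, add_comm]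
    have h2 : ∀ v : V, ρ s (v - ρ t v) = v - ρ t v := by
      intro v
      rw [hs, map_sub, ← act_mul, htt, act_one]; abel
    apply Nat.card_le_card_of_injective
      (fun v : V => ((⟨v + ρ t v, h1 v⟩ : {v : V // ρ t v = v}),
        (⟨v - ρ t v, h2 v⟩ : {v : V // ρ s v = v})))
    intro v w hvw
    have e1 : v + ρ t v = w + ρ t w := congrArg (fun p => (p.1 : V)) hvw
    have e2 : v - ρ t v = w - ρ t w := congrArg (fun p => (p.2 : V)) hvw
    have e3 : (v - w) + (v - w) = 0 := by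
      have e4 : (v + ρ t v) + (v - ρ t v) = (w + ρ t w) + (w - ρ t w) := by rw [e1, e2]
      have e5 : (v - w) + (v - w) = ((v + ρ t v) + (v - ρ t v)) - ((w + ρ t w) + (w - ρ t w)) := by
        abel
      rw [e5, e4, sub_self]
    exact sub_eq_zero.mp (two_ne hq2 _ e3)

end aux

/-- Let G be a finite group acting faithfully and linearly on a non-trivial finite vector space V over the field with q elements (q prime) so that every non-zero vector has a stabilizer of order 2, and suppose G has a central involution. Then V has q^(2r) elements for some r and G contains exactly q^r + 1 non-central involutions. -/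
theorem result
    (q : ℕ) [Fact q.Prime] {V : Type*} [AddCommGroup V] [Module (ZMod q) V] [Finite V] [Nontrivial V]
    {G : Type*} [Group G] [Finite G] (ρ : G →* (V ≃ₗ[ZMod q] V)) (hρ : Function.Injective ρ)
    (hstab : ∀ v : V, v ≠ 0 → Nat.card {g : G // ρ g v = v} = 2)
    (z : G) (hz : orderOf z = 2) (hzc : z ∈ Subgroup.center G) :
    ∃ r : ℕ, Nat.card V = q ^ (2 * r) ∧
      Nat.card {g : G // orderOf g = 2 ∧ g ∉ Subgroup.center G} = q ^ r + 1 := by
  classical
  have hq := (Fact.out : q.Prime)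
  have hz1 : z ≠ 1 := by
    intro h; rw [h, orderOf_one] at hz; norm_num at hz
  have hzz : z * z = 1 := by
    have h := pow_orderOf_eq_one z
    rw [hz, pow_two] at h; exact h
  have hzc' : ∀ g : G, g * z = z * g := fun g => Subgroup.mem_center_iff.mp hzc g
  have hzneg : ∀ v : V, ρ z v = -v := by
    intro v
    by_contra hne
    have h0 : v + ρ z v ≠ 0 := by
      intro h; apply hne; exact eq_neg_of_add_eq_zero_right h
    apply central_fpf ρ hρ hstab z hz1 hzz hzc' (v + ρ z v) h0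
    rw [map_add, ← act_mul, hzz, act_one, add_comm]
  have hq2 : q ≠ 2 := by
    intro h2
    apply hz1
    apply hρ
    rw [map_one]
    ext v
    show ρ z v = v
    rw [hzneg]
    exact neg_eq_of_add_eq_zero_left (two_eq h2 v)
  have hst : ∀ v : V, v ≠ 0 → ∃ t : G, t ≠ 1 ∧ ρ t v = v ∧ t * t = 1 ∧
      ∀ g, ρ g v = v → g = 1 ∨ g = t := fun v hv => stab_two ρ hstab v hv
  choose! τ hτ1 hτv hττ hτall using hst
  have hτc : ∀ v : V, v ≠ 0 → τ v ∉ Subgroup.center G := by
    intro v hv hc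
    exact central_fpf ρ hρ hstab (τ v) (hτ1 v hv) (hττ v hv)
      (fun g => Subgroup.mem_center_iff.mp hc g) v hv (hτv v hv)
  have hτo : ∀ v : V, v ≠ 0 → orderOf (τ v) = 2 := by
    intro v hv
    exact orderOf_eq_prime (by rw [pow_two]; exact hττ v hv) (hτ1 v hv)
  have hτu : ∀ (t : G) (v : V), v ≠ 0 → t ≠ 1 → ρ t v = v → t = τ v := by
    intro t v hv ht1 htv
    rcases hτall v hv t htv with h | h
    · exact absurd h ht1
    · exact h
  have hdisj : ∀ g h : G, g ≠ 1 → h ≠ 1 → g ≠ h → ∀ d : V, ρ g d = d → ρ h d = d → d = 0 := by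
    intro g h hg1 hh1 hgh d hgd hhd
    by_contra hd
    exact hgh ((hτu g d hd hg1 hgd).trans (hτu h d hd hh1 hhd).symm)
  have hmulz : ∀ (t : G) (v : V), ρ (t * z) v = - ρ t v := by
    intro t v
    rw [act_mul, hzneg, map_neg]
  have hnegne : ∀ v : V, v ≠ 0 → -v ≠ v := by
    intro v hv h
    apply hv
    apply two_ne hq2
    calc v + v = v + -v := congrArg (fun w => v + w) h.symm
      _ = 0 := add_neg_cancel _
  have hVpos : 0 < Nat.card V := Nat.card_pos
  have hprod : ∀ t : G, t * t = 1 →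
      Nat.card {v : V // ρ t v = v} * Nat.card {v : V // ρ (t * z) v = v} = Nat.card V :=
    fun t htt => prod_eq ρ hq2 t (t * z) htt (hmulz t)
  -- the base involution
  obtain ⟨v₀, hv₀⟩ := exists_ne (0 : V)
  obtain ⟨t₀, ht₀def⟩ : ∃ t₀, t₀ = τ v₀ := ⟨_, rfl⟩
  have ht₀1 : t₀ ≠ 1 := ht₀def ▸ hτ1 v₀ hv₀
  have ht₀v : ρ t₀ v₀ = v₀ := ht₀def ▸ hτv v₀ hv₀
  have ht₀t : t₀ * t₀ = 1 := ht₀def ▸ hττ v₀ hv₀
  have hfixz : ∀ (t : G) (v : V), v ≠ 0 → ρ t v = v → t * z ≠ 1 := by
    intro t v hv htv h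
    have h1 := hmulz t v
    rw [h, act_one, htv] at h1
    exact hnegne v hv h1.symm
  have ht₀z1 : t₀ * z ≠ 1 := hfixz t₀ v₀ hv₀ ht₀v
  obtain ⟨y₀, hy₀, hy₀t⟩ : ∃ y₀ : V, y₀ ≠ 0 ∧ ρ t₀ y₀ = -y₀ := by
    by_contra hcon
    push_neg at hcon
    apply ht₀1
    apply hρ
    rw [map_one]
    ext v
    show ρ t₀ v = v
    have h1 : ρ t₀ (v - ρ t₀ v) = -(v - ρ t₀ v) := by
      rw [map_sub, ← act_mul, ht₀t, act_one]; abel
    by_contra hne
    have h2 : v - ρ t₀ v ≠ 0 := by
      intro h; apply hne; exact (sub_eq_zero.mp h).symm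
    exact hcon _ h2 h1
  have hx0 : v₀ + y₀ ≠ 0 := by
    intro h
    have h' := congrArg (ρ t₀) h
    rw [map_add, ht₀v, hy₀t, map_zero] at h'
    have h'' : y₀ + y₀ = 0 := by
      have e : (v₀ + y₀) - (v₀ + -y₀) = 0 := by rw [h, h', sub_zero]
      rw [← e]; abel
    exact hy₀ (two_ne hq2 y₀ h'')
  obtain ⟨s, hsdef⟩ : ∃ s, s = τ (v₀ + y₀) := ⟨_, rfl⟩
  have hs1 : s ≠ 1 := hsdef ▸ hτ1 _ hx0
  have hsv : ρ s (v₀ + y₀) = v₀ + y₀ := hsdef ▸ hτv _ hx0
  have hst : s * s = 1 := hsdef ▸ hττ _ hx0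
  have hst₀ : s ≠ t₀ := by
    intro h
    rw [h, map_add, ht₀v, hy₀t] at hsv
    have h6 : -y₀ = y₀ := add_left_cancel hsv
    exact hnegne y₀ hy₀ h6
  have hst₀z : s ≠ t₀ * z := by
    intro h
    rw [h, hmulz, map_add, ht₀v, hy₀t] at hsv
    have h6 : -v₀ = v₀ := by
      have e : -(v₀ + -y₀) = -v₀ + y₀ := by abel
      rw [e] at hsv
      exact add_right_cancel hsv
    exact hnegne v₀ hv₀ h6
  have hsz1 : s * z ≠ 1 := hfixz s _ hx0 hsv
  have hszt₀ : s * z ≠ t₀ := by
    intro h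
    apply hst₀z
    rw [← h, mul_assoc, hzz, mul_one]
  have hszt₀z : s * z ≠ t₀ * z := fun h => hst₀ (mul_right_cancel h)
  obtain ⟨A, hA⟩ : ∃ A, A = Nat.card {v : V // ρ t₀ v = v} := ⟨_, rfl⟩
  obtain ⟨B, hB⟩ : ∃ B, B = Nat.card {v : V // ρ (t₀ * z) v = v} := ⟨_, rfl⟩
  obtain ⟨C, hC⟩ : ∃ C, C = Nat.card {v : V // ρ s v = v} := ⟨_, rfl⟩
  obtain ⟨D, hD⟩ : ∃ D, D = Nat.card {v : V // ρ (s * z) v = v} := ⟨_, rfl⟩
  have hAB : A * B = Nat.card V := by rw [hA, hB]; exact hprod t₀ ht₀t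
  have hCD : C * D = Nat.card V := by rw [hC, hD]; exact hprod s hst
  have hCA : C * A ≤ Nat.card V := by
    rw [hC, hA]; exact prod_le ρ s t₀ (hdisj s t₀ hs1 ht₀1 hst₀)
  have hCB : C * B ≤ Nat.card V := by
    rw [hC, hB]; exact prod_le ρ s (t₀ * z) (hdisj s (t₀ * z) hs1 ht₀z1 hst₀z)
  have hDA : D * A ≤ Nat.card V := by
    rw [hD, hA]; exact prod_le ρ (s * z) t₀ (hdisj (s * z) t₀ hsz1 ht₀1 hszt₀)
  have hDB : D * B ≤ Nat.card V := by
    rw [hD, hB]; exact prod_le ρ (s * z) (t₀ * z) (hdisj (s * z) (t₀ * z) hsz1 ht₀z1 hszt₀z)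
  have hApos : 0 < A := by
    rcases Nat.eq_zero_or_pos A with h | h
    · rw [h, zero_mul] at hAB; omega
    · exact h
  have hBpos : 0 < B := by
    rcases Nat.eq_zero_or_pos B with h | h
    · rw [h, mul_zero] at hAB; omega
    · exact h
  have hC_le_B : C ≤ B := by
    have h : C * A ≤ B * A := by rw [mul_comm B A, hAB]; exact hCA
    exact Nat.le_of_mul_le_mul_right h hApos
  have hC_le_A : C ≤ A := by
    have h : C * B ≤ A * B := by rw [hAB]; exact hCB
    exact Nat.le_of_mul_le_mul_right h hBpos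
  have hD_le_B : D ≤ B := by
    have h : D * A ≤ B * A := by rw [mul_comm B A, hAB]; exact hDA
    exact Nat.le_of_mul_le_mul_right h hApos
  have hD_le_A : D ≤ A := by
    have h : D * B ≤ A * B := by rw [hAB]; exact hDB
    exact Nat.le_of_mul_le_mul_right h hBpos
  have hABeq : A = B := by
    rcases lt_trichotomy A B with h | h | h
    · exfalso
      have h1 : C * D ≤ A * A := Nat.mul_le_mul hC_le_A hD_le_A
      have h2 : A * A < A * B := Nat.mul_lt_mul_of_pos_left h hApos
      omega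
    · exact h
    · exfalso
      have h1 : C * D ≤ B * B := Nat.mul_le_mul hC_le_B hD_le_B
      have h2 : B * B < A * B := Nat.mul_lt_mul_of_pos_right h hBpos
      omega
  have hAA : A * A = Nat.card V := by rw [← hAB, ← hABeq]
  -- all noncentral involutions have the same fixed-space size
  have hall : ∀ t : G, orderOf t = 2 → t ∉ Subgroup.center G →
      Nat.card {v : V // ρ t v = v} = A := by
    intro t hto htc
    have ht1 : t ≠ 1 := by
      intro h; rw [h, orderOf_one] at hto; norm_num at hto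
    have htt : t * t = 1 := by
      have h := pow_orderOf_eq_one t
      rw [hto, pow_two] at h; exact h
    have htz1 : t * z ≠ 1 := by
      intro h
      apply htc
      have e : t = z := by
        calc t = t * (z * z) := by rw [hzz, mul_one]
          _ = (t * z) * z := by rw [mul_assoc]
          _ = z := by rw [h, one_mul]
      rw [e]; exact hzc
    by_cases h1 : t = t₀
    · rw [h1, ← hA]
    · by_cases h2 : t = t₀ * z
      · rw [h2, ← hB, ← hABeq]
      · have hP := hprod t htt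
        have hle1 : Nat.card {v : V // ρ t v = v} * A ≤ A * A := by
          rw [hAA, hA]; exact prod_le ρ t t₀ (hdisj t t₀ ht1 ht₀1 h1)
        have hle2 : Nat.card {v : V // ρ (t * z) v = v} * A ≤ A * A := by
          rw [hAA]
          have h3 : t * z ≠ t₀ * z := fun h => h1 (mul_right_cancel h)
          have h4 := prod_le ρ (t * z) (t₀ * z) (hdisj (t * z) (t₀ * z) htz1 ht₀z1 h3)
          rw [← hB, ← hABeq] at h4
          exact h4
        have hl1 := Nat.le_of_mul_le_mul_right hle1 hApos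
        have hl2 := Nat.le_of_mul_le_mul_right hle2 hApos
        rcases Nat.lt_or_ge (Nat.card {v : V // ρ t v = v}) A with h | h
        · exfalso
          have h5 : Nat.card {v : V // ρ t v = v} * Nat.card {v : V // ρ (t * z) v = v}
              ≤ Nat.card {v : V // ρ t v = v} * A := Nat.mul_le_mul_left _ hl2
          have h6 : Nat.card {v : V // ρ t v = v} * A < A * A :=
            Nat.mul_lt_mul_of_pos_right h hApos
          omega
        · exact le_antisymm hl1 h
  -- the size of V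
  have hfinV : Fintype V := Fintype.ofFinite V
  have hcardV : Nat.card V = q ^ Module.finrank (ZMod q) V := by
    rw [Nat.card_eq_fintype_card, Module.card_eq_pow_finrank (K := ZMod q) (V := V), ZMod.card]
  have hAdvd : A ∣ q ^ Module.finrank (ZMod q) V := by
    rw [← hcardV, ← hAA]; exact Dvd.intro _ rfl
  obtain ⟨r, hrle, hAr⟩ := (Nat.dvd_prime_pow hq).mp hAdvd
  have hVr : Nat.card V = q ^ (2 * r) := by
    rw [← hAA, hAr, ← pow_add, two_mul]
  refine ⟨r, hVr, ?_⟩
  -- counting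
  have hfinG : Fintype G := Fintype.ofFinite G
  have hA2 : 2 ≤ A := by
    by_contra hlt
    have hA1 : A = 1 := by omega
    rw [hA1] at hAA
    have h2 : 1 < Nat.card V := Finite.one_lt_card
    omega
  obtain ⟨S, hS⟩ : ∃ S : Finset V, S = Finset.univ.filter (fun v : V => v ≠ 0) := ⟨_, rfl⟩
  obtain ⟨I, hI⟩ : ∃ I : Finset G,
      I = Finset.univ.filter (fun g : G => orderOf g = 2 ∧ g ∉ Subgroup.center G) := ⟨_, rfl⟩
  have hScard : S.card = Nat.card V - 1 := by
    rw [hS, Finset.filter_ne' Finset.univ (0 : V), Finset.card_erase_of_mem (Finset.mem_univ _),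
      Finset.card_univ, Nat.card_eq_fintype_card]
  have hmaps : (S : Set V).MapsTo τ I := by
    intro v hv
    have hv0 : v ≠ 0 := by
      rw [hS] at hv
      exact (Finset.mem_filter.mp hv).2
    rw [hI]
    exact Finset.mem_coe.mpr (Finset.mem_filter.mpr ⟨Finset.mem_univ _, hτo v hv0, hτc v hv0⟩)
  have hsum := Finset.card_eq_sum_card_fiberwise hmaps
  have hfib : ∀ b ∈ I, (S.filter (fun a => τ a = b)).card = A - 1 := by
    intro b hb
    rw [hI] at hb
    obtain ⟨-, hbo, hbc⟩ := Finset.mem_filter.mp hb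
    have hb1 : b ≠ 1 := by
      intro h; rw [h, orderOf_one] at hbo; norm_num at hbo
    have hset : S.filter (fun a => τ a = b) =
        (Finset.univ.filter (fun v : V => ρ b v = v)).erase 0 := by
      ext v
      rw [hS]
      simp only [Finset.mem_filter, Finset.mem_univ, true_and, Finset.mem_erase]
      constructor
      · rintro ⟨hv0, hv⟩
        exact ⟨hv0, hv ▸ hτv v hv0⟩
      · rintro ⟨hv0, hv⟩
        exact ⟨hv0, (hτu b v hv0 hb1 hv).symm⟩
    rw [hset, Finset.card_erase_of_mem (by simp), ← hall b hbo hbc, Nat.card_eq_fintype_card,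
      Fintype.card_subtype]
  rw [Finset.sum_congr rfl hfib, Finset.sum_const, smul_eq_mul, hScard] at hsum
  have hIcard : Nat.card {g : G // orderOf g = 2 ∧ g ∉ Subgroup.center G} = I.card := by
    rw [Nat.card_eq_fintype_card, Fintype.card_subtype, hI]
  rw [hIcard, ← hAr]
  -- hsum : Nat.card V - 1 = I.card * (A - 1)
  rw [← hAA] at hsum
  obtain ⟨a, rfl⟩ : ∃ a, A = a + 2 := ⟨A - 2, by omega⟩
  have h7 : (a + 2) * (a + 2) - 1 = (a + 3) * (a + 1) := by
    have : (a + 2) * (a + 2) = (a + 3) * (a + 1) + 1 := by ring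
    omega
  rw [h7] at hsum
  have h8 : a + 2 - 1 = a + 1 := by omega
  rw [h8] at hsum
  have h9 := Nat.eq_of_mul_eq_mul_right (by omega : 0 < a + 1) hsum
  omega

end Cfsg.Agent.S3381
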