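import Mathlib
import Cfsg.Statements.S3383

set_option autoImplicit false
open Cfsg

namespace Cfsg.Agent.S3383

open scoped Pointwise

variable {L : Type*} [Group L]

theorem mem_conj_smul (H : Subgroup L) (g x : L) : x ∈ MulAut.conj g • H ↔ g⁻¹ * x * g ∈ H := by
  rw [Subgroup.mem_pointwise_smul_iff_inv_smul_mem, ← map_inv, MulAut.smul_def, MulAut.conj_apply, inv_inv]

theorem mem_K_iff (H K : Subgroup L) (hK : (K : Set L) = Cfsg.frobeniusKernel H) (x : L) :
    x ∈ K ↔ (x = 1 ∨ ∀ g : L, g⁻¹ * x * g ∉ H) := by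
  have : x ∈ K ↔ x ∈ Cfsg.frobeniusKernel H := by rw [← hK]; rfl
  rw [this]
  unfold Cfsg.frobeniusKernel
  simp only [Set.mem_setOf_eq, mem_conj_smul]

theorem K_normal (H K : Subgroup L) (hK : (K : Set L) = Cfsg.frobeniusKernel H) : K.Normal := by
  refine ⟨fun k hk y => ?_⟩
  rw [mem_K_iff H K hK] at hk ⊢
  rcases hk with rfl | hk
  · left; simp
  · right
    intro g hg
    apply hk (y⁻¹ * g)
    have : (y⁻¹ * g)⁻¹ * k * (y⁻¹ * g) = g⁻¹ * (y * k * y⁻¹) * g := by group
    rw [this]; exact hg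

theorem K_inf_H (H K : Subgroup L) (hK : (K : Set L) = Cfsg.frobeniusKernel H) (x : L)
    (hxK : x ∈ K) (hxH : x ∈ H) : x = 1 := by
  rw [mem_K_iff H K hK] at hxK
  rcases hxK with h | h
  · exact h
  · exfalso
    apply h 1
    simpa using hxH

theorem comparable [Finite L] (H : Subgroup L) (hH : Cfsg.IsFrobeniusComplement H)
    (K : Subgroup L) (hK : (K : Set L) = Cfsg.frobeniusKernel H) (N : Subgroup L) (hN : N.Normal) :
    K ≤ N ∨ N ≤ K := by
  have hKn : K.Normal := K_normal H K hK
  by_cases hNK : N ≤ K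
  · exact Or.inr hNK
  · left
    obtain ⟨n, hnN, hnK⟩ := SetLike.not_le_iff_exists.mp hNK
    rw [mem_K_iff H K hK] at hnK
    push Not at hnK
    obtain ⟨hn1, g, hg⟩ := hnK
    set h := g⁻¹ * n * g with hh
    have hhN : h ∈ N := by
      have := hN.conj_mem n hnN g⁻¹
      simpa [hh] using this
    have hh1 : h ≠ 1 := by
      intro h1
      apply hn1
      have : n = g * h * g⁻¹ := by rw [hh]; group
      rw [this, h1]; group
    -- the map k ↦ k * h * k⁻¹ * h⁻¹ on K
    have hmem : ∀ k : K, (k : L) * h * (k : L)⁻¹ * h⁻¹ ∈ K := by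
      intro k
      have h1 : h * (k : L)⁻¹ * h⁻¹ ∈ K := hKn.conj_mem _ (K.inv_mem k.2) h
      have := K.mul_mem k.2 h1
      have e : (k : L) * (h * (k : L)⁻¹ * h⁻¹) = (k : L) * h * (k : L)⁻¹ * h⁻¹ := by group
      rwa [e] at this
    let φ : K → K := fun k => ⟨(k : L) * h * (k : L)⁻¹ * h⁻¹, hmem k⟩
    have hinj : Function.Injective φ := by
      intro k k' hkk
      have h1 : (k : L) * h * (k : L)⁻¹ * h⁻¹ = (k' : L) * h * (k' : L)⁻¹ * h⁻¹ := congrArg Subtype.val hkk
      have h2 : (k : L) * h * (k : L)⁻¹ = (k' : L) * h * (k' : L)⁻¹ := mul_right_cancel h1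
      set c : L := (k' : L)⁻¹ * (k : L) with hc
      have hcK : c ∈ K := K.mul_mem (K.inv_mem k'.2) k.2
      have h3 : c⁻¹ * h * c = h := by
        have : h = (k : L)⁻¹ * ((k : L) * h * (k : L)⁻¹) * (k : L) := by group
        rw [hc]
        have e : ((k' : L)⁻¹ * (k : L))⁻¹ * h * ((k' : L)⁻¹ * (k : L)) =
            (k : L)⁻¹ * ((k' : L) * h * (k' : L)⁻¹) * (k : L) := by group
        rw [e, ← h2]; group
      have hcH : c ∈ H := by
        by_contra hcH
        have hbot := hH.2.2 c hcH
        have hmem' : h ∈ H ⊓ MulAut.conj c • H :=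
          Subgroup.mem_inf.mpr ⟨hg, by rw [mem_conj_smul, h3]; exact hg⟩
        rw [hbot, Subgroup.mem_bot] at hmem'
        exact hh1 hmem'
      have hc1 : c = 1 := K_inf_H H K hK c hcK hcH
      apply Subtype.ext
      have : (k : L) = (k' : L) * c := by rw [hc]; group
      rw [this, hc1, mul_one]
    have hsurj : Function.Surjective φ := Finite.injective_iff_surjective.mp hinj
    intro x hx
    obtain ⟨k, hk⟩ := hsurj ⟨x, hx⟩
    have hx' : (k : L) * h * (k : L)⁻¹ * h⁻¹ = x := congrArg Subtype.val hk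
    rw [← hx']
    exact N.mul_mem (hN.conj_mem h hhN k) (N.inv_mem hhN)

/-- Let H be a Frobenius complement in a finite group L and K the Frobenius kernel (as a subgroup). Then K is characteristic in L, and every normal subgroup of L either contains K or is contained in K. -/
theorem result {L : Type*} [Group L] [Finite L]
    (H : Subgroup L) (hH : Cfsg.IsFrobeniusComplement H)
    (K : Subgroup L) (hK : (K : Set L) = Cfsg.frobeniusKernel H) :
    K.Characteristic ∧ ∀ N : Subgroup L, N.Normal → K ≤ N ∨ N ≤ K := by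
  refine ⟨?_, fun N hN => comparable H hH K hK N hN⟩
  have hKn : K.Normal := K_normal H K hK
  rw [Subgroup.characteristic_iff_comap_le]
  intro ϕ
  have hNn : (K.comap ϕ.toMonoidHom).Normal := hKn.comap _
  have hcard : Nat.card (K.comap ϕ.toMonoidHom) = Nat.card K := by
    rw [Subgroup.comap_equiv_eq_map_symm']
    exact Subgroup.card_map_of_injective ϕ.symm.injective
  rcases comparable H hH K hK _ hNn with h | h
  · exact (Subgroup.eq_of_le_of_card_ge h hcard.le).ge
  · exact h

end Cfsg.Agent.S3383
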