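import Cfsg.Statements.S3704
import Mathlib
-- import your own Cfsg.Agent.* helpers here

set_option autoImplicit false
open Cfsg

namespace Cfsg.Agent.S3704

open Classical in
/-- incidence matrix between points and cosets for an `H`-invariant set `O` -/
noncomputable def orbMat {G Ω : Type*} [Group G] [MulAction G Ω] (H : Subgroup G) (O : Set Ω) :
    Matrix Ω (G ⧸ H) ℚ :=
  fun ω x => if (x.out : G)⁻¹ • ω ∈ O then 1 else 0

theorem orbMat_cases {G Ω : Type*} [Group G] [MulAction G Ω] (H : Subgroup G) (O : Set Ω)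
    (ω : Ω) (x : G ⧸ H) : orbMat H O ω x = 0 ∨ orbMat H O ω x = 1 := by
  classical
  by_cases h : (x.out : G)⁻¹ • ω ∈ O
  · right; exact if_pos h
  · left; exact if_neg h

open Classical in
theorem orbMat_mk {G Ω : Type*} [Group G] [MulAction G Ω] (H : Subgroup G) (O : Set Ω)
    (hO : ∀ h ∈ H, ∀ a, h • a ∈ O ↔ a ∈ O) (ω : Ω) (g : G) :
    orbMat H O ω (QuotientGroup.mk g) = if g⁻¹ • ω ∈ O then 1 else 0 := by
  classical
  obtain ⟨h, hh⟩ := QuotientGroup.mk_out_eq_mul H g
  have key : ((QuotientGroup.mk g : G ⧸ H).out : G)⁻¹ • ω ∈ O ↔ g⁻¹ • ω ∈ O := by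
    rw [hh, mul_inv_rev, mul_smul]
    exact hO _ (H.inv_mem h.2) _
  by_cases hc : g⁻¹ • ω ∈ O
  · rw [if_pos hc]; exact if_pos (key.2 hc)
  · rw [if_neg hc]; exact if_neg (fun h' => hc (key.1 h'))

theorem orbMat_smul {G Ω : Type*} [Group G] [MulAction G Ω] (H : Subgroup G) (O : Set Ω)
    (hO : ∀ h ∈ H, ∀ a, h • a ∈ O ↔ a ∈ O) (k : G) (ω : Ω) (y : G ⧸ H) :
    orbMat H O (k • ω) (k • y) = orbMat H O ω y := by
  refine QuotientGroup.induction_on y (fun g => ?_)
  rw [MulAction.Quotient.smul_mk, smul_eq_mul, orbMat_mk H O hO, orbMat_mk H O hO, mul_inv_rev,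
    mul_smul, inv_smul_smul]

theorem prod_inv {G Ω : Type*} [Group G] [MulAction G Ω] (H : Subgroup G) [Fintype (G ⧸ H)]
    (O O' : Set Ω) (hO : ∀ h ∈ H, ∀ a, h • a ∈ O ↔ a ∈ O)
    (hO' : ∀ h ∈ H, ∀ a, h • a ∈ O' ↔ a ∈ O') (k : G) (a b : Ω) :
    ∑ x, orbMat H O (k • a) x * orbMat H O' (k • b) x
      = ∑ x, orbMat H O a x * orbMat H O' b x := by
  calc ∑ x, orbMat H O (k • a) x * orbMat H O' (k • b) x
      = ∑ y : G ⧸ H, orbMat H O (k • a) (k • y) * orbMat H O' (k • b) (k • y) :=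
        (Equiv.sum_comp (MulAction.toPerm k : Equiv.Perm (G ⧸ H))
          (fun x => orbMat H O (k • a) x * orbMat H O' (k • b) x)).symm
    _ = ∑ y, orbMat H O a y * orbMat H O' b y := by
        apply Finset.sum_congr rfl
        intro y _
        rw [orbMat_smul H O hO, orbMat_smul H O' hO']

theorem two_trans_const {G Ω : Type*} [Group G] [MulAction G Ω] [DecidableEq Ω]
    (h2 : MulAction.IsMultiplyPretransitive G Ω 2) (f : Ω → Ω → ℚ)
    (hf : ∀ (k : G) (a b : Ω), f (k • a) (k • b) = f a b) (a b : Ω) (hab : a ≠ b) :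
    ∀ ω ω', f ω ω' = if ω = ω' then f a a else f a b := by
  rw [MulAction.is_two_pretransitive_iff] at h2
  intro ω ω'
  by_cases h : ω = ω'
  · subst h
    rw [if_pos rfl]
    by_cases h' : a = ω
    · subst h'; rfl
    · obtain ⟨g, hg, _⟩ := h2 h' (Ne.symm h')
      rw [← hg, hf]
  · rw [if_neg h]
    obtain ⟨g, hg, hg'⟩ := h2 hab h
    rw [← hg, ← hg', hf]

theorem lin_dep {Ω X : Type*} [Fintype Ω] [Fintype X] [DecidableEq Ω] [DecidableEq X]
    (hcard : Fintype.card Ω = Fintype.card X)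
    (M : Fin 3 → Matrix Ω X ℚ) (p q : Fin 3 → ℚ)
    (hMM : ∀ i ω ω', ∑ x, M i ω x * M 0 ω' x = if ω = ω' then p i else q i)
    (hpq : q 0 < p 0) (hq : 0 ≤ q 0) :
    ∃ c : Fin 3 → ℚ, c ≠ 0 ∧ ∀ ω x, ∑ i, c i * M i ω x = 0 := by
  have hDinj : Function.Injective (M 0 * (M 0).transpose).mulVec := by
    intro v w hvw
    obtain ⟨S, hS⟩ : ∃ S : ℚ, S = ∑ ω', (v ω' - w ω') := ⟨_, rfl⟩
    have hrow : ∀ ω, (p 0 - q 0) * (v ω - w ω) + q 0 * S = 0 := by
      intro ω
      have h : ∑ ω', (∑ x, M 0 ω x * M 0 ω' x) * v ω' = ∑ ω', (∑ x, M 0 ω x * M 0 ω' x) * w ω' := by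
        have h := congrFun hvw ω
        simpa only [Matrix.mulVec, dotProduct, Matrix.mul_apply, Matrix.transpose_apply] using h
      simp only [hMM] at h
      have e : ∀ u : Ω → ℚ, ∑ ω', (if ω = ω' then p 0 else q 0) * u ω'
          = (p 0 - q 0) * u ω + q 0 * ∑ ω', u ω' := by
        intro u
        have : ∀ ω', (if ω = ω' then p 0 else q 0) * u ω'
            = (if ω = ω' then (p 0 - q 0) * u ω' else 0) + q 0 * u ω' := by
          intro ω'
          by_cases hh : ω = ω'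
          · rw [if_pos hh, if_pos hh]; ring
          · rw [if_neg hh, if_neg hh]; ring
        rw [Finset.sum_congr rfl (fun ω' _ => this ω'), Finset.sum_add_distrib, Finset.sum_ite_eq,
          if_pos (Finset.mem_univ _), Finset.mul_sum]
      rw [e v, e w] at h
      rw [hS, Finset.sum_sub_distrib]
      linarith
    have hsum : S = 0 := by
      have e1 : ∑ ω : Ω, (p 0 - q 0) * (v ω - w ω) = (p 0 - q 0) * S := by
        rw [hS, Finset.mul_sum]
      have e2 : ∑ _ω : Ω, q 0 * S = (Fintype.card Ω : ℚ) * (q 0 * S) := by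
        rw [Finset.sum_const, Finset.card_univ, nsmul_eq_mul]
      have e3 : ∑ ω : Ω, ((p 0 - q 0) * (v ω - w ω) + q 0 * S) = 0 :=
        Finset.sum_eq_zero (fun ω _ => hrow ω)
      rw [Finset.sum_add_distrib, e1, e2] at e3
      have hpos : 0 < (p 0 - q 0) + (Fintype.card Ω : ℚ) * q 0 := by
        have : 0 ≤ (Fintype.card Ω : ℚ) * q 0 := mul_nonneg (Nat.cast_nonneg _) hq
        linarith
      have h' : ((p 0 - q 0) + (Fintype.card Ω : ℚ) * q 0) * S = 0 := by
        rw [← e3]; ring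
      rcases mul_eq_zero.1 h' with h0 | h0
      · exact absurd h0 (ne_of_gt hpos)
      · exact h0
    funext ω
    have h := hrow ω
    rw [hsum, mul_zero, add_zero] at h
    rcases mul_eq_zero.1 h with h0 | h0
    · exfalso; linarith
    · exact sub_eq_zero.1 h0
  have hunit : IsUnit (M 0 * (M 0).transpose) := Matrix.mulVec_injective_iff_isUnit.1 hDinj
  obtain ⟨D', hD'⟩ := hunit.exists_right_inv
  have hR : M 0 * ((M 0).transpose * D') = 1 := by rw [← Matrix.mul_assoc]; exact hD'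
  have hL : ((M 0).transpose * D') * M 0 = 1 :=
    (Matrix.mul_eq_one_comm_of_equiv (Fintype.equivOfCardEq hcard)).1 hR
  have hinj : ∀ u : X → ℚ, (M 0).mulVec u = 0 → u = 0 := by
    intro u hu
    have : (((M 0).transpose * D') * M 0).mulVec u = u := by rw [hL, Matrix.one_mulVec]
    rw [← this, ← Matrix.mulVec_mulVec, hu, Matrix.mulVec_zero]
  obtain ⟨c, hc0, hcp, hcq⟩ :
      ∃ c : Fin 3 → ℚ, c ≠ 0 ∧ ∑ i, c i * p i = 0 ∧ ∑ i, c i * q i = 0 := by
    by_cases hd : p 0 * q 1 - p 1 * q 0 = 0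
    · refine ⟨![-p 1, p 0, 0], ?_, ?_, ?_⟩
      · intro h
        have h1 : (![-p 1, p 0, 0] : Fin 3 → ℚ) 1 = 0 := by rw [h]; rfl
        have h1' : p 0 = 0 := h1
        linarith
      · rw [Fin.sum_univ_three]
        show -p 1 * p 0 + p 0 * p 1 + 0 * p 2 = 0
        ring
      · rw [Fin.sum_univ_three]
        show -p 1 * q 0 + p 0 * q 1 + 0 * q 2 = 0
        linarith
    · refine ⟨![p 1 * q 2 - p 2 * q 1, p 2 * q 0 - p 0 * q 2, p 0 * q 1 - p 1 * q 0], ?_, ?_, ?_⟩
      · intro h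
        have h2 : (![p 1 * q 2 - p 2 * q 1, p 2 * q 0 - p 0 * q 2, p 0 * q 1 - p 1 * q 0]
            : Fin 3 → ℚ) 2 = 0 := by rw [h]; rfl
        exact hd h2
      · rw [Fin.sum_univ_three]
        show (p 1 * q 2 - p 2 * q 1) * p 0 + (p 2 * q 0 - p 0 * q 2) * p 1
          + (p 0 * q 1 - p 1 * q 0) * p 2 = 0
        ring
      · rw [Fin.sum_univ_three]
        show (p 1 * q 2 - p 2 * q 1) * q 0 + (p 2 * q 0 - p 0 * q 2) * q 1
          + (p 0 * q 1 - p 1 * q 0) * q 2 = 0
        ring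
  refine ⟨c, hc0, ?_⟩
  intro ω x
  have hu : (M 0).mulVec (fun x => ∑ i, c i * M i ω x) = 0 := by
    funext ω'
    show ∑ x, M 0 ω' x * (∑ i, c i * M i ω x) = 0
    calc ∑ x, M 0 ω' x * (∑ i, c i * M i ω x)
        = ∑ x, ∑ i, c i * (M i ω x * M 0 ω' x) := by
          apply Finset.sum_congr rfl; intro x _
          rw [Finset.mul_sum]; apply Finset.sum_congr rfl; intro i _; ring
      _ = ∑ i, c i * ∑ x, M i ω x * M 0 ω' x := by
          rw [Finset.sum_comm]; apply Finset.sum_congr rfl; intro i _; rw [Finset.mul_sum]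
      _ = ∑ i, c i * (if ω = ω' then p i else q i) := by
          apply Finset.sum_congr rfl; intro i _; rw [hMM]
      _ = 0 := by
          by_cases h : ω = ω'
          · simp only [if_pos h]; exact hcp
          · simp only [if_neg h]; exact hcq
  exact congrFun (hinj _ hu) x

theorem three_orbits_false {G Ω : Type*} [Group G] [Finite G] [MulAction G Ω] [Finite Ω]
    (h2 : MulAction.IsMultiplyPretransitive G Ω 2) (H : Subgroup G) (hidx : H.index = Nat.card Ω)
    (ω : Fin 3 → Ω) (hω : ∀ i j, i ≠ j → ω i ∉ MulAction.orbit H (ω j)) : False := by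
  classical
  have : Fintype Ω := Fintype.ofFinite Ω
  have : Fintype (G ⧸ H) := Fintype.ofFinite _
  have hcard : Fintype.card Ω = Fintype.card (G ⧸ H) := by
    rw [← Nat.card_eq_fintype_card, ← Nat.card_eq_fintype_card, ← hidx]; rfl
  have hO : ∀ i, ∀ h ∈ H, ∀ a,
      h • a ∈ MulAction.orbit H (ω i) ↔ a ∈ MulAction.orbit H (ω i) := by
    intro i h hh a
    rw [MulAction.mem_orbit_iff, MulAction.mem_orbit_iff]
    constructor
    · rintro ⟨k, hk⟩
      refine ⟨(⟨h, hh⟩ : H)⁻¹ * k, ?_⟩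
      rw [mul_smul, hk]
      exact inv_smul_smul h a
    · rintro ⟨k, hk⟩
      refine ⟨(⟨h, hh⟩ : H) * k, ?_⟩
      rw [mul_smul, hk]
      rfl
  obtain ⟨M, hM⟩ : ∃ M : Fin 3 → Matrix Ω (G ⧸ H) ℚ,
      ∀ i, M i = orbMat H (MulAction.orbit H (ω i)) := ⟨_, fun _ => rfl⟩
  have h1 : ∀ i j, M i (ω j) (QuotientGroup.mk (1 : G)) = if i = j then 1 else 0 := by
    intro i j
    rw [hM, orbMat_mk H _ (hO i), inv_one, one_smul]
    by_cases hij : i = j
    · subst hij; rw [if_pos (MulAction.mem_orbit_self _), if_pos rfl]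
    · rw [if_neg (hω j i (Ne.symm hij)), if_neg hij]
  have hcases : ∀ i a x, M i a x = 0 ∨ M i a x = 1 := by
    intro i a x; rw [hM]; exact orbMat_cases _ _ _ _
  have hnn : ∀ i a x, 0 ≤ M i a x := by
    intro i a x
    rcases hcases i a x with h | h <;> rw [h] <;> norm_num
  have h01 : ω 0 ≠ ω 1 := by
    intro h
    apply hω 0 1 (by decide)
    rw [h]; exact MulAction.mem_orbit_self _
  have hf : ∀ i (k : G) (a b : Ω),
      ∑ x, M i (k • a) x * M 0 (k • b) x = ∑ x, M i a x * M 0 b x := by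
    intro i k a b
    rw [hM i, hM 0]
    exact prod_inv H _ _ (hO i) (hO 0) k a b
  have hconst : ∀ i a b, ∑ x, M i a x * M 0 b x
      = if a = b then ∑ x, M i (ω 0) x * M 0 (ω 0) x else ∑ x, M i (ω 0) x * M 0 (ω 1) x :=
    fun i => two_trans_const h2 (fun a b => ∑ x, M i a x * M 0 b x) (hf i) (ω 0) (ω 1) h01
  have e00 : M 0 (ω 0) (QuotientGroup.mk (1 : G)) = 1 := by rw [h1, if_pos rfl]
  have e01 : M 0 (ω 1) (QuotientGroup.mk (1 : G)) = 0 := by rw [h1, if_neg (by decide)]
  obtain ⟨c, hc0, hc⟩ := lin_dep hcard M (fun i => ∑ x, M i (ω 0) x * M 0 (ω 0) x)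
    (fun i => ∑ x, M i (ω 0) x * M 0 (ω 1) x) hconst
    (by
      show ∑ x, M 0 (ω 0) x * M 0 (ω 1) x < ∑ x, M 0 (ω 0) x * M 0 (ω 0) x
      apply Finset.sum_lt_sum
      · intro x _
        rcases hcases 0 (ω 0) x with h | h <;> rcases hcases 0 (ω 1) x with h' | h' <;>
          rw [h, h'] <;> norm_num
      · refine ⟨QuotientGroup.mk 1, Finset.mem_univ _, ?_⟩
        rw [e00, e01]; norm_num)
    (by
      show 0 ≤ ∑ x, M 0 (ω 0) x * M 0 (ω 1) x
      exact Finset.sum_nonneg (fun x _ => mul_nonneg (hnn _ _ _) (hnn _ _ _)))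
  apply hc0
  funext j
  have h := hc (ω j) (QuotientGroup.mk (1 : G))
  simp only [h1] at h
  rw [Finset.sum_eq_single j] at h
  · simpa using h
  · intro b _ hb; rw [if_neg hb, mul_zero]
  · intro h'; exact absurd (Finset.mem_univ j) h'

/-- Let G be a finite group acting faithfully and 2-transitively on a finite set Ω of size n, and let H be a subgroup of index n in G which is not transitive on Ω and fixes no point of Ω. Then H has exactly two orbits on Ω. -/
theorem result {G Ω : Type*} [Group G] [Finite G] [MulAction G Ω] [FaithfulSMul G Ω] [Finite Ω] (h2 : MulAction.IsMultiplyPretransitive G Ω 2) (H : Subgroup G) (hidx : H.index = Nat.card Ω) (hnt : ¬ MulAction.IsPretransitive H Ω) (hfix : ∀ a : Ω, ∃ h : H, h • a ≠ a) : Nat.card (MulAction.orbitRel.Quotient H Ω) = 2 := by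
  classical
  have hle : ¬ 2 < Nat.card (MulAction.orbitRel.Quotient H Ω) := by
    intro h3
    have : Fintype (MulAction.orbitRel.Quotient H Ω) := Fintype.ofFinite _
    have h3' : Fintype.card (Fin 3) ≤ Fintype.card (MulAction.orbitRel.Quotient H Ω) := by
      rw [Fintype.card_fin, ← Nat.card_eq_fintype_card]; exact h3
    obtain ⟨f⟩ := Function.Embedding.nonempty_of_card_le h3'
    refine three_orbits_false h2 H hidx (fun i => (f i).out) ?_
    intro i j hij hmem
    apply hij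
    apply f.injective
    have : (Quotient.mk'' ((f i).out) : MulAction.orbitRel.Quotient H Ω)
        = Quotient.mk'' ((f j).out) := Quotient.sound' hmem
    rwa [Quotient.out_eq', Quotient.out_eq'] at this
  have hge : 1 < Nat.card (MulAction.orbitRel.Quotient H Ω) := by
    rw [Finite.one_lt_card_iff_nontrivial, ← not_subsingleton_iff_nontrivial]
    intro hs
    exact hnt ((MulAction.pretransitive_iff_subsingleton_quotient _ _).2 hs)
  omega

end Cfsg.Agent.S3704
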