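import Cfsg.Statements.S3707
import Mathlib
-- import your own Cfsg.Agent.* helpers here

set_option autoImplicit false
open Cfsg

namespace Cfsg.Agent.S3707

section core
open Classical

variable (G : Type*) {Ω : Type*} [Group G] [Fintype G] [MulAction G Ω] [Fintype Ω] (Γ : Set Ω)

/-- group elements whose translate of `Γ` contains `ω` -/
noncomputable def Rset (ω : Ω) : Finset G := Finset.univ.filter (fun g => g⁻¹ • ω ∈ Γ)

/-- group elements whose translate of `Γ` contains `ω` and `ω'` -/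
noncomputable def Lset (ω ω' : Ω) : Finset G :=
  Finset.univ.filter (fun g => g⁻¹ • ω ∈ Γ ∧ g⁻¹ • ω' ∈ Γ)

/-- the translate `g Γ` as a finset -/
noncomputable def Tset (g : G) : Finset Ω := Finset.univ.filter (fun ω => g⁻¹ • ω ∈ Γ)

/-- the size of `Γ` -/
noncomputable def mΓ : ℕ := (Finset.univ.filter (fun ω : Ω => ω ∈ Γ)).card

theorem mem_Rset (ω : Ω) (g : G) : g ∈ Rset G Γ ω ↔ g⁻¹ • ω ∈ Γ := by simp [Rset]

theorem mem_Lset (ω ω' : Ω) (g : G) : g ∈ Lset G Γ ω ω' ↔ g⁻¹ • ω ∈ Γ ∧ g⁻¹ • ω' ∈ Γ := by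
  simp [Lset]

theorem mem_Tset (g : G) (ω : Ω) : ω ∈ Tset G Γ g ↔ g⁻¹ • ω ∈ Γ := by simp [Tset]

theorem card_Tset (g : G) : (Tset G Γ g).card = mΓ Γ := by
  apply Finset.card_equiv (MulAction.toPerm g⁻¹)
  intro ω
  simp [mem_Tset]

theorem card_Rset_smul (k : G) (ω : Ω) : (Rset G Γ (k • ω)).card = (Rset G Γ ω).card := by
  symm
  apply Finset.card_equiv (Equiv.mulLeft k)
  intro g
  simp [mem_Rset, mul_smul]

theorem card_Lset_smul (k : G) (ω ω' : Ω) :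
    (Lset G Γ (k • ω) (k • ω')).card = (Lset G Γ ω ω').card := by
  symm
  apply Finset.card_equiv (Equiv.mulLeft k)
  intro g
  simp [mem_Lset, mul_smul]

theorem card_Rset_eq (h2 : ∀ a b c d : Ω, a ≠ b → c ≠ d → ∃ g : G, g • a = c ∧ g • b = d)
    (ω ω' : Ω) : (Rset G Γ ω).card = (Rset G Γ ω').card := by
  by_cases h : ω = ω'
  · rw [h]
  · obtain ⟨g, hg, _⟩ := h2 ω ω' ω' ω h (Ne.symm h)
    rw [← hg, card_Rset_smul]

theorem card_Lset_eq (h2 : ∀ a b c d : Ω, a ≠ b → c ≠ d → ∃ g : G, g • a = c ∧ g • b = d)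
    (a b c d : Ω) (hab : a ≠ b) (hcd : c ≠ d) : (Lset G Γ a b).card = (Lset G Γ c d).card := by
  obtain ⟨g, hg, hg'⟩ := h2 a b c d hab hcd
  rw [← hg, ← hg', card_Lset_smul]

theorem dbl_count {α β : Type*} (s : Finset α) (t : Finset β) (r : α → β → Prop) :
    ∑ a ∈ s, (t.filter (fun b => r a b)).card = ∑ b ∈ t, (s.filter (fun a => r a b)).card := by
  simp only [Finset.card_filter]
  exact Finset.sum_comm

theorem count_eq (h2 : ∀ a b c d : Ω, a ≠ b → c ≠ d → ∃ g : G, g • a = c ∧ g • b = d)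
    (ω₁ ω₂ : Ω) (h12 : ω₁ ≠ ω₂) (ω : Ω) :
    (Rset G Γ ω).card * mΓ Γ
      = (Rset G Γ ω).card + (Fintype.card Ω - 1) * (Lset G Γ ω₁ ω₂).card := by
  have h : ∑ g ∈ Rset G Γ ω, (Tset G Γ g).card
      = ∑ ω' : Ω, ((Rset G Γ ω).filter (fun g => g⁻¹ • ω' ∈ Γ)).card :=
    dbl_count (Rset G Γ ω) (Finset.univ : Finset Ω) (fun g ω' => g⁻¹ • ω' ∈ Γ)
  have hL : ∑ g ∈ Rset G Γ ω, (Tset G Γ g).card = (Rset G Γ ω).card * mΓ Γ := by
    rw [Finset.sum_congr rfl (fun g _ => card_Tset G Γ g), Finset.sum_const, smul_eq_mul]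
  have hR : ∑ ω' : Ω, ((Rset G Γ ω).filter (fun g => g⁻¹ • ω' ∈ Γ)).card
      = (Rset G Γ ω).card + (Fintype.card Ω - 1) * (Lset G Γ ω₁ ω₂).card := by
    rw [← Finset.add_sum_erase Finset.univ _ (Finset.mem_univ ω)]
    have e1 : (Rset G Γ ω).filter (fun g => g⁻¹ • ω ∈ Γ) = Rset G Γ ω := by
      ext g
      simp [mem_Rset]
    have e2 : ∀ ω' ∈ (Finset.univ : Finset Ω).erase ω,
        ((Rset G Γ ω).filter (fun g => g⁻¹ • ω' ∈ Γ)).card = (Lset G Γ ω₁ ω₂).card := by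
      intro ω' hω'
      have hne : ω' ≠ ω := Finset.ne_of_mem_erase hω'
      rw [← card_Lset_eq G Γ h2 ω ω' ω₁ ω₂ (Ne.symm hne) h12]
      congr 1
      ext g
      simp [mem_Rset, mem_Lset]
    rw [e1, Finset.sum_congr rfl e2, Finset.sum_const, smul_eq_mul,
      Finset.card_erase_of_mem (Finset.mem_univ ω), Finset.card_univ]
  rw [← hL, ← hR]; exact h

theorem core (h2 : ∀ a b c d : Ω, a ≠ b → c ≠ d → ∃ g : G, g • a = c ∧ g • b = d)
    (hm1 : 1 < mΓ Γ) (hn : 2 * mΓ Γ ≤ Fintype.card Ω)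
    (htr : ∀ x ∈ Γ, ∀ y ∈ Γ, ∃ g : G, (∀ z ∉ Γ, g • z = z) ∧ g • x = y)
    (α : Ω) (B : Set Ω) (hαB : α ∉ B)
    (hB : ∀ h : G, h • α = α → (∃ x ∈ B, h • x ∈ B) → ∀ x ∈ B, h • x ∈ B)
    (x₀ y₀ : Ω) (hx₀ : x₀ ∈ B) (hy₀ : y₀ ∈ B) (hxy : x₀ ≠ y₀) : ∀ x, x ≠ α → x ∈ B := by
  obtain ⟨r, hr⟩ : ∃ r, r = (Rset G Γ x₀).card := ⟨_, rfl⟩
  obtain ⟨lam, hlam⟩ : ∃ l, l = (Lset G Γ x₀ y₀).card := ⟨_, rfl⟩
  obtain ⟨m, hm⟩ : ∃ m, m = mΓ Γ := ⟨_, rfl⟩
  have hR : ∀ ω, (Rset G Γ ω).card = r := fun ω => by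
    rw [hr]; exact card_Rset_eq G Γ h2 ω x₀
  have hL : ∀ a b, a ≠ b → (Lset G Γ a b).card = lam := fun a b hab => by
    rw [hlam]; exact card_Lset_eq G Γ h2 a b x₀ y₀ hab hxy
  have hx₀α : x₀ ≠ α := fun h => hαB (h ▸ hx₀)
  have hlam1 : 1 ≤ lam := by
    have h2pts : ∃ u v, u ∈ Γ ∧ v ∈ Γ ∧ u ≠ v := by
      rw [mΓ, Finset.one_lt_card] at hm1
      obtain ⟨u, hu, v, hv, huv⟩ := hm1
      exact ⟨u, v, (Finset.mem_filter.1 hu).2, (Finset.mem_filter.1 hv).2, huv⟩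
    obtain ⟨u, v, hu, hv, huv⟩ := h2pts
    rw [← hL u v huv]
    apply Finset.card_pos.2
    exact ⟨1, by simp [mem_Lset, hu, hv]⟩
  have hcount : r * m = r + (Fintype.card Ω - 1) * lam := by
    have := count_eq G Γ h2 x₀ y₀ hxy x₀
    rw [← hr, ← hlam, ← hm] at this
    exact this
  rw [← hm] at hm1 hn
  obtain ⟨k, hk⟩ : ∃ k, m = k + 1 := ⟨m - 1, by omega⟩
  obtain ⟨n', hn'⟩ : ∃ n', Fintype.card Ω = n' + 1 := ⟨Fintype.card Ω - 1, by omega⟩
  have hrk : r * k = n' * lam := by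
    rw [hk, hn', Nat.add_sub_cancel] at hcount
    linarith
  have hr2 : 2 * lam < r := by
    by_contra hle
    push Not at hle
    have h1 : r * k ≤ 2 * lam * k := Nat.mul_le_mul_right k hle
    have h2' : (2 * k + 1) * lam ≤ n' * lam := Nat.mul_le_mul_right lam (by omega)
    nlinarith
  have hsep : ∀ ω ω' : Ω, ω ≠ ω' → ω ≠ α →
      ∃ g : G, g⁻¹ • ω ∈ Γ ∧ g⁻¹ • ω' ∉ Γ ∧ g⁻¹ • α ∉ Γ := by
    intro ω ω' hne hα
    by_contra hcon
    push Not at hcon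
    have hsub : Rset G Γ ω ⊆ Lset G Γ ω ω' ∪ Lset G Γ ω α := by
      intro g hg
      rw [mem_Rset] at hg
      rw [Finset.mem_union, mem_Lset, mem_Lset]
      by_cases h' : g⁻¹ • ω' ∈ Γ
      · exact Or.inl ⟨hg, h'⟩
      · exact Or.inr ⟨hg, hcon g hg h'⟩
    have h3 := Finset.card_le_card hsub
    have h4 := Finset.card_union_le (Lset G Γ ω ω') (Lset G Γ ω α)
    rw [hR] at h3
    rw [hL ω ω' hne, hL ω α hα] at h4
    omega
  have hkey : ∀ g : G, g⁻¹ • α ∉ Γ → ∀ γ, g⁻¹ • γ ∈ Γ → γ ∈ B →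
      ∀ β, β ∈ B → g⁻¹ • β ∉ Γ → ∀ t, g⁻¹ • t ∈ Γ → t ∈ B := by
    intro g hgα γ hγ hγB β hβB hβ t ht
    obtain ⟨h₀, hfix, hmap⟩ := htr _ hγ _ ht
    have hα' : (g * h₀ * g⁻¹) • α = α := by
      rw [mul_smul, mul_smul, hfix _ hgα, smul_inv_smul]
    have hβ' : (g * h₀ * g⁻¹) • β = β := by
      rw [mul_smul, mul_smul, hfix _ hβ, smul_inv_smul]
    have hγ' : (g * h₀ * g⁻¹) • γ = t := by
      rw [mul_smul, mul_smul, hmap, smul_inv_smul]
    have := hB _ hα' ⟨β, hβB, by rw [hβ']; exact hβB⟩ γ hγB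
    rwa [hγ'] at this
  obtain ⟨g₀, hg₀x, hg₀y, hg₀α⟩ := hsep x₀ y₀ hxy hx₀α
  have hT₀ : ∀ t, g₀⁻¹ • t ∈ Γ → t ∈ B := hkey g₀ hg₀α x₀ hg₀x hx₀ y₀ hy₀ hg₀y
  obtain ⟨Bf, hBf⟩ : ∃ Bf : Finset Ω, Bf = Finset.univ.filter (fun ω : Ω => ω ∈ B) := ⟨_, rfl⟩
  have hBfmem : ∀ ω, ω ∈ Bf ↔ ω ∈ B := by intro ω; rw [hBf]; simp
  have hmb : m ≤ Bf.card := by
    rw [hm, ← card_Tset G Γ g₀]
    apply Finset.card_le_card
    intro t ht
    rw [mem_Tset] at ht
    exact (hBfmem t).2 (hT₀ t ht)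
  have hin : ∀ g : G, g⁻¹ • α ∉ Γ → ∀ γ, g⁻¹ • γ ∈ Γ → γ ∈ B →
      ∀ t, g⁻¹ • t ∈ Γ → t ∈ B := by
    intro g hgα γ hγ hγB
    by_cases hsub : ∀ β, β ∈ B → g⁻¹ • β ∈ Γ
    · have hsub' : Bf ⊆ Tset G Γ g := by
        intro β hβ
        rw [mem_Tset]; exact hsub β ((hBfmem β).1 hβ)
      have heq := Finset.eq_of_subset_of_card_le hsub' (by rw [card_Tset, ← hm]; exact hmb)
      intro t ht
      have h5 : t ∈ Tset G Γ g := (mem_Tset G Γ g t).2 ht
      rw [← heq] at h5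
      exact (hBfmem t).1 h5
    · push Not at hsub
      obtain ⟨β, hβB, hβ⟩ := hsub
      exact hkey g hgα γ hγ hγB β hβB hβ
  obtain ⟨A, hA⟩ : ∃ A : Finset G, A = (Rset G Γ x₀).filter (fun g => g⁻¹ • α ∉ Γ) := ⟨_, rfl⟩
  have hAmem : ∀ g, g ∈ A ↔ g⁻¹ • x₀ ∈ Γ ∧ g⁻¹ • α ∉ Γ := by
    intro g; rw [hA, Finset.mem_filter, mem_Rset]
  have hAcard : A.card + lam = r := by
    have h6 := Finset.card_filter_add_card_filter_not (s := Rset G Γ x₀) (fun g => g⁻¹ • α ∈ Γ)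
    rw [hR] at h6
    have e : (Rset G Γ x₀).filter (fun g => g⁻¹ • α ∈ Γ) = Lset G Γ x₀ α := by
      ext g; simp [mem_Rset, mem_Lset]
    rw [e, hL x₀ α hx₀α, ← hA] at h6
    omega
  have hdc : ∑ g ∈ A, (Tset G Γ g).card
      = ∑ ω' : Ω, (A.filter (fun g => g⁻¹ • ω' ∈ Γ)).card :=
    dbl_count A Finset.univ (fun g ω' => g⁻¹ • ω' ∈ Γ)
  have hlhs : ∑ g ∈ A, (Tset G Γ g).card = A.card * m := by
    rw [Finset.sum_congr rfl (fun g _ => card_Tset G Γ g), Finset.sum_const, smul_eq_mul, hm]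
  have hrhs : ∑ ω' : Ω, (A.filter (fun g => g⁻¹ • ω' ∈ Γ)).card
      ≤ A.card + (Bf.card - 1) * lam := by
    have hz : ∀ ω' ∈ (Finset.univ : Finset Ω), ω' ∉ Bf →
        (A.filter (fun g => g⁻¹ • ω' ∈ Γ)).card = 0 := by
      intro ω' _ hω'
      rw [Finset.card_eq_zero, Finset.filter_eq_empty_iff]
      intro g hg hmem
      apply hω'
      rw [hBfmem]
      obtain ⟨h1, h2⟩ := (hAmem g).1 hg
      exact hin g h2 x₀ h1 hx₀ ω' hmem
    rw [← Finset.sum_subset (Finset.subset_univ Bf) hz]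
    rw [← Finset.add_sum_erase Bf _ ((hBfmem x₀).2 hx₀)]
    apply add_le_add
    · exact Finset.card_filter_le _ _
    · have hle : ∀ ω' ∈ Bf.erase x₀, (A.filter (fun g => g⁻¹ • ω' ∈ Γ)).card ≤ lam := by
        intro ω' hω'
        have hne : ω' ≠ x₀ := Finset.ne_of_mem_erase hω'
        rw [← hL x₀ ω' (Ne.symm hne)]
        apply Finset.card_le_card
        intro g hg
        rw [Finset.mem_filter, hAmem] at hg
        rw [mem_Lset]
        exact ⟨hg.1.1, hg.2⟩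
      have h3 := Finset.sum_le_card_nsmul _ _ _ hle
      rw [smul_eq_mul, Finset.card_erase_of_mem ((hBfmem x₀).2 hx₀)] at h3
      exact h3
  have hineq : A.card * m ≤ A.card + (Bf.card - 1) * lam := by
    rw [← hlhs, hdc]; exact hrhs
  have hb : n' - k + 1 ≤ Bf.card := by
    have hb1 : 1 ≤ Bf.card := Finset.card_pos.2 ⟨x₀, (hBfmem x₀).2 hx₀⟩
    obtain ⟨b', hb'⟩ : ∃ b', Bf.card = b' + 1 := ⟨Bf.card - 1, by omega⟩
    rw [hb', hk, Nat.add_sub_cancel] at hineq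
    have h5 : A.card * k ≤ b' * lam := by linarith
    have h6 : n' * lam ≤ (b' + k) * lam := by
      have h7 : r * k = A.card * k + lam * k := by rw [← hAcard]; ring
      linarith
    have h8 : n' ≤ b' + k := Nat.le_of_mul_le_mul_right h6 (by omega)
    omega
  intro x hxα
  by_contra hxB
  obtain ⟨g, hgα, hgx⟩ := h2 α x₀ α x (Ne.symm hx₀α) (Ne.symm hxα)
  have hdisj : ∀ y ∈ B, g • y ∉ B := by
    intro y hy hgy
    have h9 := hB g hgα ⟨y, hy, hgy⟩ x₀ hx₀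
    rw [hgx] at h9
    exact hxB h9
  have hcard : Bf.card + Bf.card + 1 ≤ Fintype.card Ω := by
    have hd : Disjoint Bf (Bf.image (fun y => g • y)) := by
      rw [Finset.disjoint_left]
      intro y hy hy'
      rw [Finset.mem_image] at hy'
      obtain ⟨z, hz, rfl⟩ := hy'
      exact hdisj z ((hBfmem z).1 hz) ((hBfmem _).1 hy)
    have hsub : Bf ∪ Bf.image (fun y => g • y) ⊆ Finset.univ.erase α := by
      intro y hy
      rw [Finset.mem_erase]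
      refine ⟨?_, Finset.mem_univ _⟩
      rw [Finset.mem_union] at hy
      rcases hy with hy | hy
      · intro h; rw [h] at hy; exact hαB ((hBfmem α).1 hy)
      · rw [Finset.mem_image] at hy
        obtain ⟨z, hz, rfl⟩ := hy
        intro h
        have hzα : z = α := MulAction.injective g (h.trans hgα.symm)
        rw [hzα] at hz; exact hαB ((hBfmem α).1 hz)
    have h8 := Finset.card_le_card hsub
    rw [Finset.card_union_of_disjoint hd,
      Finset.card_image_of_injective _ (MulAction.injective g),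
      Finset.card_erase_of_mem (Finset.mem_univ α), Finset.card_univ] at h8
    omega
  omega

theorem mΓ_eq : mΓ Γ = Γ.ncard := by
  rw [mΓ, ← Set.ncard_coe_finset]
  congr 1
  ext x
  simp

end core

/-- Let G be a finite primitive permutation group on Ω of degree n and Γ ⊂ Ω a subset with 1 < #Γ ≤ n/2 such that the pointwise stabilizer of Ω ∖ Γ is transitive on Γ. Then G is 3-transitive on Ω. -/
theorem result {G Ω : Type*} [Group G] [Finite G] [MulAction G Ω] [FaithfulSMul G Ω] [Finite Ω] (hprim : MulAction.IsPreprimitive G Ω) (Γ : Set Ω) (h1 : 1 < Γ.ncard) (h2 : 2 * Γ.ncard ≤ Nat.card Ω) (htr : ∀ x ∈ Γ, ∀ y ∈ Γ, ∃ g : G, (∀ z ∉ Γ, g • z = z) ∧ g • x = y) : MulAction.IsMultiplyPretransitive G Ω 3 := by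
  classical
  have instΩ : Fintype Ω := Fintype.ofFinite Ω
  have instG : Fintype G := Fintype.ofFinite G
  have hcardΩ : Nat.card Ω = Fintype.card Ω := Nat.card_eq_fintype_card
  have hcompl : Γ.ncard + Γᶜ.ncard = Nat.card Ω := Set.ncard_add_ncard_compl Γ
  -- Step 1: G is 2-transitive
  have h2t : MulAction.IsMultiplyPretransitive G Ω 2 := by
    obtain ⟨k, hk⟩ : ∃ k, Γᶜ.ncard = k + 1 := ⟨Γᶜ.ncard - 1, by omega⟩
    refine MulAction.IsPreprimitive.is_two_pretransitive hprim hk (by omega) ?_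
    constructor
    rintro ⟨x, hx⟩ ⟨y, hy⟩
    have hx' : x ∈ Γ := by
      by_contra h; exact hx h
    have hy' : y ∈ Γ := by
      by_contra h; exact hy h
    obtain ⟨g, hg, hgxy⟩ := htr x hx' y hy'
    refine ⟨⟨g, ?_⟩, ?_⟩
    · rw [mem_fixingSubgroup_iff]
      intro z hz
      exact hg z hz
    · exact Subtype.ext hgxy
  have h2e : ∀ a b c d : Ω, a ≠ b → c ≠ d → ∃ g : G, g • a = c ∧ g • b = d :=
    fun a b c d hab hcd => MulAction.is_two_pretransitive_iff.1 h2t hab hcd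
  have htrans : MulAction.IsPretransitive G Ω := MulAction.isPretransitive_of_is_two_pretransitive
  -- points
  obtain ⟨u, v, hu, hv, huv⟩ := (Set.one_lt_ncard_iff).1 h1
  obtain ⟨β₁, β₂, hβ₁, hβ₂, hβ⟩ := (Set.one_lt_ncard_iff (s := Γᶜ)).1 (by omega)
  obtain ⟨α, hα⟩ : ∃ α : Ω, α = u := ⟨_, rfl⟩
  obtain ⟨g₁, hg₁⟩ := htrans.exists_smul_eq β₁ α
  have hg₁α : g₁⁻¹ • α ∉ Γ := by
    rw [← hg₁, inv_smul_smul]; exact hβ₁
  rw [show (3 : ℕ) = Nat.succ 2 from rfl, SubMulAction.ofStabilizer.isMultiplyPretransitive (a := α)]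
  -- Step 2: the stabilizer is primitive on the complement of the point
  have hm1 : 1 < mΓ Γ := by rw [mΓ_eq]; exact h1
  have hn : 2 * mΓ Γ ≤ Fintype.card Ω := by rw [mΓ_eq, ← hcardΩ]; exact h2
  have hprimα : MulAction.IsPreprimitive (MulAction.stabilizer G α)
      (SubMulAction.ofStabilizer G α) := by
    have htα : MulAction.IsPretransitive (MulAction.stabilizer G α)
        (SubMulAction.ofStabilizer G α) := by
      rw [← MulAction.is_one_pretransitive_iff,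
        ← SubMulAction.ofStabilizer.isMultiplyPretransitive]
      exact h2t
    refine { toIsPretransitive := htα, isTrivialBlock_of_isBlock := ?_ }
    intro B hB
    by_cases hs : B.Subsingleton
    · exact Or.inl hs
    right
    rw [Set.not_subsingleton_iff] at hs
    obtain ⟨x, hx, y, hy, hxy⟩ := hs
    have hB' : MulAction.IsBlock (MulAction.stabilizer G α) (Subtype.val '' B : Set Ω) :=
      MulAction.isBlock_subtypeVal.2 hB
    have hcore := core G Γ h2e hm1 hn htr α (Subtype.val '' B)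
      (by
        rintro ⟨w, _, hw⟩
        exact w.2 hw)
      (by
        intro h hhα ⟨a, ha, hha⟩ b hb
        have h3 := hB'.smul_eq_of_mem (g := (⟨h, hhα⟩ : MulAction.stabilizer G α)) ha hha
        rw [← h3]
        exact Set.smul_mem_smul_set (a := (⟨h, hhα⟩ : MulAction.stabilizer G α)) hb)
      x y ⟨x, hx, rfl⟩ ⟨y, hy, rfl⟩ (fun h => hxy (Subtype.ext h))
    apply Set.eq_univ_of_forall
    intro z
    obtain ⟨z', hz', hzz⟩ := hcore z.1 z.2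
    exact (Subtype.ext hzz : z' = z) ▸ hz'
  -- Step 3: Jordan's theorem for the stabilizer
  obtain ⟨s', hs'⟩ : ∃ s' : Set (SubMulAction.ofStabilizer G α),
      s' = {z : SubMulAction.ofStabilizer G α | g₁⁻¹ • (z : Ω) ∉ Γ} := ⟨_, rfl⟩
  have hfinα : Finite (SubMulAction.ofStabilizer G α) := inferInstance
  have hcs : s'.ncard + s'ᶜ.ncard = Nat.card (SubMulAction.ofStabilizer G α) :=
    Set.ncard_add_ncard_compl s'
  have hne : ∀ w : Ω, g₁⁻¹ • w ∈ Γ → w ≠ α := by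
    intro w hw h
    rw [h] at hw
    exact hg₁α hw
  have hc2 : 1 < s'ᶜ.ncard := by
    rw [Set.one_lt_ncard_iff]
    refine ⟨⟨g₁ • u, hne _ (by rw [inv_smul_smul]; exact hu)⟩,
      ⟨g₁ • v, hne _ (by rw [inv_smul_smul]; exact hv)⟩, ?_, ?_, ?_⟩
    · rw [hs']
      show ¬ (g₁⁻¹ • g₁ • u ∉ Γ)
      rw [inv_smul_smul]; exact fun h => h hu
    · rw [hs']
      show ¬ (g₁⁻¹ • g₁ • v ∉ Γ)
      rw [inv_smul_smul]; exact fun h => h hv
    · intro h
      have h3 : g₁ • u = g₁ • v := congrArg Subtype.val h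
      exact huv (MulAction.injective g₁ h3)
  have hs1 : 0 < s'.ncard := by
    rw [Set.ncard_pos]
    have hz : g₁ • β₂ ≠ α := by
      intro h
      rw [← hg₁] at h
      exact hβ (MulAction.injective g₁ h).symm
    refine ⟨⟨g₁ • β₂, hz⟩, ?_⟩
    rw [hs']
    show g₁⁻¹ • g₁ • β₂ ∉ Γ
    rw [inv_smul_smul]; exact hβ₂
  obtain ⟨k', hk'⟩ : ∃ k', s'.ncard = k' + 1 := ⟨s'.ncard - 1, by omega⟩
  refine MulAction.IsPreprimitive.is_two_pretransitive hprimα hk' (by omega) ?_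
  constructor
  rintro ⟨⟨x, hx⟩, hx'⟩ ⟨⟨y, hy⟩, hy'⟩
  have hxΓ : g₁⁻¹ • x ∈ Γ := by
    by_contra h
    apply hx'
    rw [hs']
    exact h
  have hyΓ : g₁⁻¹ • y ∈ Γ := by
    by_contra h
    apply hy'
    rw [hs']
    exact h
  obtain ⟨h₀, hfix, hmap⟩ := htr _ hxΓ _ hyΓ
  have hstab : (g₁ * h₀ * g₁⁻¹) • α = α := by
    rw [mul_smul, mul_smul, hfix _ hg₁α, smul_inv_smul]
  have hxy : (g₁ * h₀ * g₁⁻¹) • x = y := by
    rw [mul_smul, mul_smul, hmap, smul_inv_smul]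
  refine ⟨⟨⟨g₁ * h₀ * g₁⁻¹, hstab⟩, ?_⟩, ?_⟩
  · rw [mem_fixingSubgroup_iff]
    intro z hz
    rw [hs'] at hz
    have hz' : g₁⁻¹ • (z : Ω) ∉ Γ := hz
    apply Subtype.ext
    show (g₁ * h₀ * g₁⁻¹) • (z : Ω) = z
    rw [mul_smul, mul_smul, hfix _ hz', smul_inv_smul]
  · exact Subtype.ext (Subtype.ext hxy)

end Cfsg.Agent.S3707
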