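import Mathlib
import Cfsg.Statements.S3733

set_option autoImplicit false
open Cfsg

namespace Cfsg.Agent.S3733

open scoped IsMulCommutative

variable {G : Type*} [Group G]

/-- conjugation by an element normalizing `V`, as an endomorphism of `V` -/
def cj (V : Subgroup G) (a : G) (ha : a ∈ Subgroup.normalizer (V : Set G)) : V →* V where
  toFun v := ⟨a * v * a⁻¹, (Subgroup.mem_normalizer_iff.mp ha v).mp v.2⟩
  map_one' := by ext; simp
  map_mul' x y := by ext; simp [mul_assoc]

theorem cj_coe (V : Subgroup G) (a : G) (ha : a ∈ Subgroup.normalizer (V : Set G)) (v : V) :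
    ((cj V a ha v : V) : G) = a * v * a⁻¹ := rfl

theorem cj_mul (V : Subgroup G) (a b : G) (ha : a ∈ Subgroup.normalizer (V : Set G))
    (hb : b ∈ Subgroup.normalizer (V : Set G)) (v : V) :
    cj V a ha (cj V b hb v) = cj V (a * b) (Subgroup.mul_mem _ ha hb) v := by
  ext; simp [cj_coe, mul_assoc]

/-- Let A and V be subgroups of a finite group with V abelian and nontrivial and A normalizing V. Suppose a nonempty finite family of proper subgroups of A partitions A: every non-identity element of A lies in exactly one member. If the number of members minus one is coprime to the order of V, then some member B of the family has a non-identity fixed point on V, that is V ∩ C(B) ≠ 1. -/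
theorem result {G : Type*} [Group G] [Finite G] (A V : Subgroup G) (hVab : IsMulCommutative V) (hV : V ≠ ⊥) (hAV : A ≤ Subgroup.normalizer (V : Set G)) (𝒜 : Finset (Subgroup G)) (hne : 𝒜.Nonempty) (hprop : ∀ B ∈ 𝒜, B < A) (hpart : ∀ a ∈ A, a ≠ 1 → ∃! B, B ∈ 𝒜 ∧ a ∈ B) (hk : (𝒜.card - 1).Coprime (Nat.card V)) : ∃ B ∈ 𝒜, V ⊓ Subgroup.centralizer (B : Set G) ≠ ⊥ := by
  classical
  by_contra hcon
  simp only [not_exists, not_and, not_not] at hcon
  letI : Fintype G := Fintype.ofFinite G
  obtain ⟨v, hvV, hv1⟩ : ∃ v ∈ V, v ≠ 1 := by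
    by_contra h
    simp only [not_exists, not_and, not_not] at h
    exact hV ((Subgroup.eq_bot_iff_forall V).mpr h)
  let v' : V := ⟨v, hvV⟩
  let f : G → V := fun g => if h : g ∈ A then cj V g (hAV h) v' else 1
  let F : Subgroup G → G → V := fun B g => if g ∈ B then f g else 1
  let N : Subgroup G → V := fun B => ∏ g, F B g
  have hinv : ∀ B : Subgroup G, ∀ hBA : B ≤ A, ∀ b (hb : b ∈ B),
      cj V b (hAV (hBA hb)) (N B) = N B := by
    intro B hBA b hb
    show cj V b _ (∏ g, F B g) = ∏ g, F B g
    rw [map_prod, ← Equiv.prod_comp (Equiv.mulLeft b) (fun g => F B g)]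
    apply Finset.prod_congr rfl
    intro g _
    show cj V b _ (F B g) = F B (b * g)
    by_cases hg : g ∈ B
    · have hbg : b * g ∈ B := B.mul_mem hb hg
      simp only [F, hg, hbg, if_true, f, dif_pos (hBA hg), dif_pos (hBA hbg)]
      exact cj_mul V b g _ _ v'
    · have hbg : b * g ∉ B := fun h => hg ((Subgroup.mul_mem_cancel_left B hb).mp h)
      simp only [F, hg, hbg, if_false, map_one]
  have hNmem : ∀ B : Subgroup G, B ≤ A →
      ((N B : V) : G) ∈ V ⊓ Subgroup.centralizer (B : Set G) := by
    intro B hBA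
    rw [Subgroup.mem_inf]
    refine ⟨(N B).2, ?_⟩
    rw [Subgroup.mem_centralizer_iff]
    intro b hb
    have := congrArg (Subtype.val) (hinv B hBA b hb)
    rw [cj_coe] at this
    exact mul_inv_eq_iff_eq_mul.mp this
  have hN1 : ∀ B ∈ 𝒜, N B = 1 := by
    intro B hB
    have := hNmem B (hprop B hB).le
    rw [hcon B hB, Subgroup.mem_bot] at this
    exact Subtype.ext this
  have hNA : N A = 1 := by
    obtain ⟨B₀, hB₀⟩ := hne
    have h1 := hNmem A le_rfl
    rw [Subgroup.mem_inf] at h1
    have h2 : ((N A : V) : G) ∈ V ⊓ Subgroup.centralizer (B₀ : Set G) :=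
      Subgroup.mem_inf.mpr ⟨h1.1, Subgroup.centralizer_le (hprop B₀ hB₀).le h1.2⟩
    rw [hcon B₀ hB₀, Subgroup.mem_bot] at h2
    exact Subtype.ext h2
  have hf1 : f 1 = v' := by
    simp only [f, dif_pos A.one_mem]
    ext
    simp [cj_coe]
  have hkpos : 0 < 𝒜.card := Finset.card_pos.mpr hne
  have hcount : ∏ B ∈ 𝒜, N B = v' ^ (𝒜.card - 1) * N A := by
    show ∏ B ∈ 𝒜, ∏ g, F B g = v' ^ (𝒜.card - 1) * ∏ g, F A g
    rw [Finset.prod_comm]
    rw [← Finset.mul_prod_erase Finset.univ (fun g => ∏ B ∈ 𝒜, F B g) (Finset.mem_univ 1)]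
    rw [← Finset.mul_prod_erase Finset.univ (fun g => F A g) (Finset.mem_univ 1)]
    have e1 : ∏ B ∈ 𝒜, F B 1 = v' ^ 𝒜.card := by
      rw [← Finset.prod_const]
      apply Finset.prod_congr rfl
      intro B _
      simp only [F, B.one_mem, if_true, hf1]
    have e2 : F A 1 = v' := by
      simp only [F, A.one_mem, if_true, hf1]
    have e3 : ∏ g ∈ Finset.univ.erase (1 : G), ∏ B ∈ 𝒜, F B g =
        ∏ g ∈ Finset.univ.erase (1 : G), F A g := by
      apply Finset.prod_congr rfl
      intro g hg
      have hg1 : g ≠ 1 := Finset.ne_of_mem_erase hg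
      by_cases hgA : g ∈ A
      · obtain ⟨B₁, ⟨hB₁, hgB₁⟩, huniq⟩ := hpart g hgA hg1
        rw [Finset.prod_eq_single B₁]
        · simp only [F, hgB₁, hgA, if_true]
        · intro B hB hne'
          have : g ∉ B := fun h => hne' (huniq B ⟨hB, h⟩)
          simp only [F, this, if_false]
        · intro h; exact absurd hB₁ h
      · have h1 : F A g = 1 := by simp only [F, hgA, if_false]
        rw [h1]
        apply Finset.prod_eq_one
        intro B hB
        have : g ∉ B := fun h => hgA ((hprop B hB).le h)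
        simp only [F, this, if_false]
    rw [e1, e2, e3, ← mul_assoc, ← pow_succ, Nat.sub_add_cancel hkpos]
  have hpow : v' ^ (𝒜.card - 1) = 1 := by
    rw [Finset.prod_eq_one (fun B hB => hN1 B hB), hNA, mul_one] at hcount
    exact hcount.symm
  have hord1 : orderOf v' ∣ 𝒜.card - 1 := orderOf_dvd_of_pow_eq_one hpow
  have hord2 : orderOf v' ∣ Nat.card V := orderOf_dvd_natCard v'
  have hord : orderOf v' = 1 := Nat.eq_one_of_dvd_coprimes hk hord1 hord2
  exact hv1 (congrArg Subtype.val (orderOf_eq_one_iff.mp hord))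

end Cfsg.Agent.S3733
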