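import Mathlib
import Cfsg.Statements.S3734
import Cfsg.Agent.Helper9.CoprimeGen
import Cfsg.Agent.S0026

set_option autoImplicit false
open Cfsg
open scoped commutatorElement

namespace Cfsg.Agent.S3734

variable {X : Type*} [Group X]

theorem card_lt' [Finite X] {V W : Subgroup X} (h : V < W) : Nat.card V < Nat.card W := by
  by_contra hcon
  exact h.ne (Subgroup.eq_of_le_of_card_ge h.le (not_lt.1 hcon))

theorem norm_inf_cent [Finite X] (A K : Subgroup X) (hAc : ∀ x ∈ A, ∀ y ∈ A, x * y = y * x)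
    (hAK : A ≤ Subgroup.normalizer (K : Set X)) (S : Set X) (hS : S ⊆ A) :
    A ≤ Subgroup.normalizer ((K ⊓ Subgroup.centralizer S : Subgroup X) : Set X) := by
  intro b hb
  apply Cfsg.Agent.Helper9.mem_normalizer_of_conj_le
  intro q hq
  obtain ⟨hqK, hqc⟩ := Subgroup.mem_inf.1 hq
  refine Subgroup.mem_inf.2 ⟨(Subgroup.mem_normalizer_iff.1 (hAK hb) q).1 hqK, ?_⟩
  rw [Subgroup.mem_centralizer_iff]
  intro s hs
  have h1 := Subgroup.mem_centralizer_iff.1 hqc s hs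
  have h2 := hAc b hb s (hS hs)
  have h3 : s * b⁻¹ = b⁻¹ * s := hAc s (hS hs) b⁻¹ (A.inv_mem hb)
  calc s * (b * q * b⁻¹) = (s * b) * q * b⁻¹ := by simp only [mul_assoc]
    _ = b * (s * q) * b⁻¹ := by rw [← h2]; simp only [mul_assoc]
    _ = b * q * (s * b⁻¹) := by rw [h1]; simp only [mul_assoc]
    _ = b * q * b⁻¹ * s := by rw [h3]; simp only [mul_assoc]

/-- If `A/A₀` is not cyclic and `A₀` centralizes `K`, then `K` is generated by the `C_K(a)`,
`a ∈ A ∖ A₀`. -/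
theorem gen_outside [Finite X] (A K A₀ : Subgroup X) [IsMulCommutative A]
    (hAK : A ≤ Subgroup.normalizer (K : Set X)) (hcop : (Nat.card A).Coprime (Nat.card K))
    (hA₀ : A₀ ≤ A) (hK₀ : K ≤ Subgroup.centralizer (A₀ : Set X))
    (hnc : ∀ a ∈ A, A₀ ⊔ Subgroup.zpowers a ≠ A) :
    K ≤ ⨆ a ∈ {a : X | a ∈ A ∧ a ∉ A₀}, K ⊓ Subgroup.centralizer ({a} : Set X) := by
  classical
  have hAc : ∀ x ∈ A, ∀ y ∈ A, x * y = y * x := fun x hx y hy => setLike_mul_comm hx hy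
  obtain ⟨T, hT⟩ : ∃ T : Subgroup X,
      T = ⨆ a ∈ {a : X | a ∈ A ∧ a ∉ A₀}, K ⊓ Subgroup.centralizer ({a} : Set X) := ⟨_, rfl⟩
  rw [← hT]
  have hTK : T ≤ K := by rw [hT]; exact iSup₂_le fun _ _ => inf_le_left
  have hdisj : ∀ x : X, x ∈ A₀ → x ∈ K → x = 1 := by
    intro x hx0 hxK
    have h1 := Subgroup.orderOf_dvd_natCard A (hA₀ hx0)
    have h2 := Subgroup.orderOf_dvd_natCard K hxK
    have h3 := Nat.dvd_gcd h1 h2
    rw [Nat.Coprime.gcd_eq_one hcop] at h3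
    exact orderOf_eq_one_iff.1 (Nat.dvd_one.1 h3)
  obtain ⟨Y, hY⟩ : ∃ Y : Subgroup X, Y = Subgroup.centralizer (A₀ : Set X) := ⟨_, rfl⟩
  have hKY : K ≤ Y := by rw [hY]; exact hK₀
  have hAY : A ≤ Y := by
    rw [hY]; intro a ha
    rw [Subgroup.mem_centralizer_iff]
    intro s hs
    exact hAc s (hA₀ hs) a ha
  have hA₀Y : A₀ ≤ Y := hA₀.trans hAY
  haveI hn : (A₀.subgroupOf Y).Normal := by
    rw [Subgroup.normal_subgroupOf_iff_le_normalizer hA₀Y, hY]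
    exact Subgroup.centralizer_le_normalizer _
  obtain ⟨π, hπdef⟩ : ∃ π : ↥Y →* ↥Y ⧸ A₀.subgroupOf Y,
      π = QuotientGroup.mk' (A₀.subgroupOf Y) := ⟨_, rfl⟩
  have hker : ∀ y : ↥Y, π y = 1 ↔ (y : X) ∈ A₀ := by
    intro y
    rw [hπdef]
    exact (QuotientGroup.eq_one_iff y).trans Subgroup.mem_subgroupOf
  obtain ⟨Ab, hAb⟩ : ∃ Ab : Subgroup (↥Y ⧸ A₀.subgroupOf Y), Ab = (A.subgroupOf Y).map π :=
    ⟨_, rfl⟩
  obtain ⟨Kb, hKb⟩ : ∃ Kb : Subgroup (↥Y ⧸ A₀.subgroupOf Y), Kb = (K.subgroupOf Y).map π :=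
    ⟨_, rfl⟩
  have hAbmem : ∀ q, q ∈ Ab ↔ ∃ y : ↥Y, (y : X) ∈ A ∧ π y = q := by
    intro q; rw [hAb]; exact Iff.rfl
  haveI : IsMulCommutative Ab := by
    apply IsMulCommutative.of_comm
    rintro ⟨q₁, h₁⟩ ⟨q₂, h₂⟩
    obtain ⟨y₁, hy₁, rfl⟩ := (hAbmem q₁).1 h₁
    obtain ⟨y₂, hy₂, rfl⟩ := (hAbmem q₂).1 h₂
    apply Subtype.ext
    show π y₁ * π y₂ = π y₂ * π y₁
    rw [← map_mul, ← map_mul]
    congr 1
    exact Subtype.ext (hAc _ hy₁ _ hy₂)
  have hncyc : ¬ IsCyclic Ab := by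
    intro hcyc
    obtain ⟨⟨g, hg⟩, hgen⟩ := hcyc.exists_generator
    obtain ⟨y, hyA, rfl⟩ := (hAbmem g).1 hg
    apply hnc (y : X) hyA
    apply le_antisymm
    · exact sup_le hA₀ (by rw [Subgroup.zpowers_le]; exact hyA)
    · intro a ha
      have haY : a ∈ Y := hAY ha
      have hmem : (⟨π ⟨a, haY⟩, (hAbmem _).2 ⟨⟨a, haY⟩, ha, rfl⟩⟩ : ↥Ab) ∈
          Subgroup.zpowers (⟨π y, hg⟩ : ↥Ab) := hgen _
      obtain ⟨n, hn⟩ := Subgroup.mem_zpowers_iff.1 hmem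
      have hn' : π y ^ n = π ⟨a, haY⟩ := by
        have h := congrArg Subtype.val hn
        simpa using h
      have h1 : π ((y ^ n)⁻¹ * ⟨a, haY⟩) = 1 := by
        rw [map_mul, map_inv, map_zpow, hn', inv_mul_cancel]
      rw [hker] at h1
      have h2 : (y : X) ^ n * (((y ^ n)⁻¹ * ⟨a, haY⟩ : ↥Y) : X) = a := by
        simp
      rw [← h2]
      exact Subgroup.mul_mem _
        (Subgroup.mem_sup_right (Subgroup.zpow_mem _ (Subgroup.mem_zpowers _) n))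
        (Subgroup.mem_sup_left h1)
  have hAKb : Ab ≤ Subgroup.normalizer (Kb : Set (↥Y ⧸ A₀.subgroupOf Y)) := by
    intro q hq
    obtain ⟨y, hyA, rfl⟩ := (hAbmem q).1 hq
    apply Cfsg.Agent.Helper9.mem_normalizer_of_conj_le
    intro r hr
    rw [hKb] at hr ⊢
    obtain ⟨k, hk, rfl⟩ := hr
    refine ⟨y * k * y⁻¹, ?_, by simp⟩
    show ((y * k * y⁻¹ : ↥Y) : X) ∈ K
    have h := (Subgroup.mem_normalizer_iff.1 (hAK hyA) (k : X)).1 hk
    simpa using h
  have hcopb : (Nat.card Ab).Coprime (Nat.card Kb) := by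
    have h1 : Nat.card Ab ∣ Nat.card A := by
      rw [hAb]
      exact (Subgroup.card_map_dvd (H := A.subgroupOf Y) π).trans
        (Cfsg.Agent.S0001.card_subgroupOf_dvd A Y)
    have h2 : Nat.card Kb ∣ Nat.card K := by
      rw [hKb]
      exact (Subgroup.card_map_dvd (H := K.subgroupOf Y) π).trans
        (Cfsg.Agent.S0001.card_subgroupOf_dvd K Y)
    exact Nat.Coprime.coprime_dvd_left h1 (Nat.Coprime.coprime_dvd_right h2 hcop)
  have hgen := Cfsg.Agent.Helper9.coprime_generation Ab Kb hncyc hAKb hcopb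
  have hKbT : Kb ≤ (T.subgroupOf Y).map π := by
    rw [← hgen]
    unfold Cfsg.Agent.Helper9.cgen
    apply iSup₂_le
    rintro q ⟨hqA, hq1⟩
    obtain ⟨y, hyA, rfl⟩ := (hAbmem q).1 hqA
    have hyA₀ : (y : X) ∉ A₀ := fun h => hq1 ((hker y).2 h)
    intro r hr
    obtain ⟨hrK, hrc⟩ := Subgroup.mem_inf.1 hr
    rw [hKb] at hrK
    obtain ⟨k, hk, rfl⟩ := hrK
    have hcomm : π k * π y = π y * π k :=
      (Subgroup.mem_centralizer_iff.1 hrc (π y) (Set.mem_singleton _)).symm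
    have h1 : π (k * y * k⁻¹ * y⁻¹) = 1 := by
      rw [map_mul, map_mul, map_mul, map_inv, map_inv, hcomm]; group
    have h2 : ((k * y * k⁻¹ * y⁻¹ : ↥Y) : X) ∈ A₀ := (hker _).1 h1
    have hk' : (k : X) ∈ K := hk
    have h3 : ((k * y * k⁻¹ * y⁻¹ : ↥Y) : X) ∈ K := by
      have h := (Subgroup.mem_normalizer_iff.1 (hAK hyA) ((k : X)⁻¹)).1 (K.inv_mem hk')
      have h4 := K.mul_mem hk' h
      have e : ((k * y * k⁻¹ * y⁻¹ : ↥Y) : X) = (k : X) * ((y : X) * (k : X)⁻¹ * (y : X)⁻¹) := by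
        simp [mul_assoc]
      rw [e]; exact h4
    have h5 := hdisj _ h2 h3
    have h6 : (k : X) * (y : X) = (y : X) * (k : X) := by
      have h7 : (k : X) * y * (k : X)⁻¹ * (y : X)⁻¹ = 1 := by simpa using h5
      exact mul_inv_eq_iff_eq_mul.1 (mul_inv_eq_one.1 h7)
    refine ⟨k, ?_, rfl⟩
    show (k : X) ∈ T
    rw [hT]
    apply Subgroup.mem_iSup_of_mem (y : X)
    apply Subgroup.mem_iSup_of_mem (⟨hyA, hyA₀⟩ : (y : X) ∈ {a : X | a ∈ A ∧ a ∉ A₀})
    refine Subgroup.mem_inf.2 ⟨hk', ?_⟩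
    rw [Subgroup.mem_centralizer_iff]
    intro s hs
    rw [Set.mem_singleton_iff] at hs
    rw [hs]; exact h6.symm
  intro k hk
  have hkY : k ∈ Y := hKY hk
  have hkb : π ⟨k, hkY⟩ ∈ Kb := by rw [hKb]; exact ⟨⟨k, hkY⟩, hk, rfl⟩
  obtain ⟨t, ht, htk⟩ := hKbT hkb
  have h1 : π (t⁻¹ * ⟨k, hkY⟩) = 1 := by rw [map_mul, map_inv, htk, inv_mul_cancel]
  have h2 := (hker _).1 h1
  have htT : (t : X) ∈ T := ht
  have h3 : ((t⁻¹ * ⟨k, hkY⟩ : ↥Y) : X) ∈ K := by
    have h := K.mul_mem (K.inv_mem (hTK htT)) hk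
    simpa using h
  have h4 := hdisj _ h2 h3
  have h5 : (t : X) = k := by
    have h6 : (t : X)⁻¹ * k = 1 := by simpa using h4
    exact inv_mul_eq_one.1 h6
  rw [← h5]; exact htT

theorem claim [Finite X] (A G : Subgroup X) [IsMulCommutative A]
    (hcop : (Nat.card A).Coprime (Nat.card G)) :
    ∀ (n : ℕ) (A₀ K : Subgroup X), A₀ ≤ A → K ≤ G → A ≤ Subgroup.normalizer (K : Set X) →
      K ≤ Subgroup.centralizer (A₀ : Set X) → Nat.card A - Nat.card A₀ = n →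
      K ≤ ⨆ B ∈ {B : Subgroup X | B ≤ A ∧ ∃ a ∈ A, B ⊔ Subgroup.zpowers a = A},
        G ⊓ Subgroup.centralizer (B : Set X) := by
  intro n
  induction n using Nat.strong_induction_on with
  | _ n ih =>
    intro A₀ K hA₀ hKG hAK hK₀ hn
    have hAc : ∀ x ∈ A, ∀ y ∈ A, x * y = y * x := fun x hx y hy => setLike_mul_comm hx hy
    by_cases hcyc : ∃ a ∈ A, A₀ ⊔ Subgroup.zpowers a = A
    · exact le_iSup₂_of_le A₀ ⟨hA₀, hcyc⟩ (le_inf hKG hK₀)
    · rw [not_exists] at hcyc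
      have hnc : ∀ a ∈ A, A₀ ⊔ Subgroup.zpowers a ≠ A := fun a ha h => hcyc a ⟨ha, h⟩
      have hcopK : (Nat.card A).Coprime (Nat.card K) :=
        Nat.Coprime.coprime_dvd_right (Subgroup.card_dvd_of_le hKG) hcop
      refine (gen_outside A K A₀ hAK hcopK hA₀ hK₀ hnc).trans ?_
      apply iSup₂_le
      rintro a ⟨haA, haA₀⟩
      have hA₀' : A₀ ⊔ Subgroup.zpowers a ≤ A :=
        sup_le hA₀ (by rw [Subgroup.zpowers_le]; exact haA)
      have hlt : A₀ < A₀ ⊔ Subgroup.zpowers a := by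
        refine lt_of_le_of_ne le_sup_left (fun h => haA₀ ?_)
        rw [h]; exact Subgroup.mem_sup_right (Subgroup.mem_zpowers a)
      have hc1 : Nat.card A₀ < Nat.card (A₀ ⊔ Subgroup.zpowers a : Subgroup X) := card_lt' hlt
      have hc2 : Nat.card (A₀ ⊔ Subgroup.zpowers a : Subgroup X) ≤ Nat.card A :=
        Subgroup.card_le_of_le hA₀'
      refine ih (Nat.card A - Nat.card (A₀ ⊔ Subgroup.zpowers a : Subgroup X)) (by omega)
        (A₀ ⊔ Subgroup.zpowers a) (K ⊓ Subgroup.centralizer ({a} : Set X)) hA₀'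
        (inf_le_left.trans hKG) ?_ ?_ rfl
      · exact norm_inf_cent A K hAc hAK {a}
          (by intro s hs; rw [Set.mem_singleton_iff] at hs; rw [hs]; exact haA)
      · intro k hk
        obtain ⟨hkK, hkc⟩ := Subgroup.mem_inf.1 hk
        have hle : A₀ ⊔ Subgroup.zpowers a ≤ Subgroup.centralizer ({k} : Set X) := by
          apply sup_le
          · intro s hs
            rw [Subgroup.mem_centralizer_iff]
            intro t ht
            rw [Set.mem_singleton_iff] at ht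
            rw [ht]
            exact (Subgroup.mem_centralizer_iff.1 (hK₀ hkK) s hs).symm
          · rw [Subgroup.zpowers_le, Subgroup.mem_centralizer_iff]
            intro t ht
            rw [Set.mem_singleton_iff] at ht
            rw [ht]
            exact (Subgroup.mem_centralizer_iff.1 hkc a (Set.mem_singleton a)).symm
        rw [Subgroup.mem_centralizer_iff]
        intro s hs
        exact (Subgroup.mem_centralizer_iff.1 (hle hs) k (Set.mem_singleton k)).symm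

theorem conj_comm_mem (D A : Subgroup X) (d : X) (hd : d ∈ D) :
    ∀ w ∈ ⁅D, A⁆, d * w * d⁻¹ ∈ ⁅D, A⁆ := by
  have h : ⁅D, A⁆ ≤ (⁅D, A⁆).comap (MulAut.conj d).toMonoidHom := by
    rw [Subgroup.commutator_le]
    intro x hx a ha
    show d * ⁅x, a⁆ * d⁻¹ ∈ ⁅D, A⁆
    have e : d * ⁅x, a⁆ * d⁻¹ = ⁅d * x, a⁆ * ⁅d, a⁆⁻¹ := by
      simp only [commutatorElement_def]; group
    rw [e]
    exact Subgroup.mul_mem _ (Subgroup.commutator_mem_commutator (D.mul_mem hd hx) ha)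
      (Subgroup.inv_mem _ (Subgroup.commutator_mem_commutator hd ha))
  intro w hw
  exact h hw

theorem conj_comm_mem' (D A : Subgroup X) (b : X) (hb : b ∈ A)
    (hbD : ∀ x ∈ D, b * x * b⁻¹ ∈ D) : ∀ w ∈ ⁅D, A⁆, b * w * b⁻¹ ∈ ⁅D, A⁆ := by
  have h : ⁅D, A⁆ ≤ (⁅D, A⁆).comap (MulAut.conj b).toMonoidHom := by
    rw [Subgroup.commutator_le]
    intro x hx a ha
    show b * ⁅x, a⁆ * b⁻¹ ∈ ⁅D, A⁆
    have e : b * ⁅x, a⁆ * b⁻¹ = ⁅b * x * b⁻¹, b * a * b⁻¹⁆ := by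
      simp only [commutatorElement_def]; group
    rw [e]
    exact Subgroup.commutator_mem_commutator (hbD x hx)
      (A.mul_mem (A.mul_mem hb ha) (A.inv_mem hb))
  intro w hw
  exact h hw

/-- Let A and G be subgroups of a finite group with A abelian, A normalizing G and the orders of A and G coprime. Then G is generated by the fixed-point subgroups C_G(B) of those subgroups B of A for which A/B is cyclic (that is, A = ⟨B, a⟩ for some a), and [G, A] is generated by the commutator subgroups [C_G(B), A] over the same subgroups B. -/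
theorem result {X : Type*} [Group X] [Finite X] (A G : Subgroup X) (hAab : IsMulCommutative A) (hAG : A ≤ Subgroup.normalizer (G : Set X)) (hcop : (Nat.card A).Coprime (Nat.card G)) : (⨆ B ∈ {B : Subgroup X | B ≤ A ∧ ∃ a ∈ A, B ⊔ Subgroup.zpowers a = A}, G ⊓ Subgroup.centralizer (B : Set X)) = G ∧ (⨆ B ∈ {B : Subgroup X | B ≤ A ∧ ∃ a ∈ A, B ⊔ Subgroup.zpowers a = A}, ⁅G ⊓ Subgroup.centralizer (B : Set X), A⁆) = ⁅G, A⁆ := by
  classical
  haveI := hAab
  have hAc : ∀ x ∈ A, ∀ y ∈ A, x * y = y * x := fun x hx y hy => setLike_mul_comm hx hy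
  have hpart1 : (⨆ B ∈ {B : Subgroup X | B ≤ A ∧ ∃ a ∈ A, B ⊔ Subgroup.zpowers a = A},
      G ⊓ Subgroup.centralizer (B : Set X)) = G := by
    apply le_antisymm
    · exact iSup₂_le fun B _ => inf_le_left
    · refine claim A G hcop _ ⊥ G bot_le le_rfl hAG ?_ rfl
      intro k _
      rw [Subgroup.mem_centralizer_iff]
      intro s hs
      have hs1 : s = 1 := Subgroup.mem_bot.1 hs
      rw [hs1, one_mul, mul_one]
  refine ⟨hpart1, ?_⟩
  apply le_antisymm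
  · exact iSup₂_le fun B _ => Subgroup.commutator_mono inf_le_left le_rfl
  obtain ⟨H, hH⟩ : ∃ H : Subgroup X,
      H = ⨆ B ∈ {B : Subgroup X | B ≤ A ∧ ∃ a ∈ A, B ⊔ Subgroup.zpowers a = A},
        ⁅G ⊓ Subgroup.centralizer (B : Set X), A⁆ := ⟨_, rfl⟩
  rw [← hH]
  have hAsolv : Group.IsSolvable ↥A :=
    Group.isSolvable_of_comm (fun a b : ↥A => Subtype.ext (hAc a a.2 b b.2))
  have hnormD : ∀ B : Subgroup X, B ≤ A →
      A ≤ Subgroup.normalizer ((G ⊓ Subgroup.centralizer (B : Set X) : Subgroup X) : Set X) :=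
    fun B hB => norm_inf_cent A G hAc hAG (B : Set X) hB
  have hconj : ∀ g : X,
      (∀ B ∈ {B : Subgroup X | B ≤ A ∧ ∃ a ∈ A, B ⊔ Subgroup.zpowers a = A},
        ∀ w ∈ ⁅G ⊓ Subgroup.centralizer (B : Set X), A⁆,
          g * w * g⁻¹ ∈ ⁅G ⊓ Subgroup.centralizer (B : Set X), A⁆) →
      ∀ h ∈ H, g * h * g⁻¹ ∈ H := by
    intro g hg
    have hle : (⨆ B ∈ {B : Subgroup X | B ≤ A ∧ ∃ a ∈ A, B ⊔ Subgroup.zpowers a = A},
        ⁅G ⊓ Subgroup.centralizer (B : Set X), A⁆) ≤ H.comap (MulAut.conj g).toMonoidHom := by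
      apply iSup₂_le
      intro B hB w hw
      show g * w * g⁻¹ ∈ H
      rw [hH]
      exact Subgroup.mem_iSup_of_mem B (Subgroup.mem_iSup_of_mem hB (hg B hB w hw))
    intro h hh
    rw [hH] at hh
    exact hle hh
  have hconjA : ∀ b ∈ A, ∀ h ∈ H, b * h * b⁻¹ ∈ H := by
    intro b hb
    apply hconj
    intro B hB
    exact conj_comm_mem' _ A b hb
      (fun x hx => (Subgroup.mem_normalizer_iff.1 (hnormD B hB.1 hb) x).1 hx)
  have hconjC : ∀ c ∈ G ⊓ Subgroup.centralizer (A : Set X), ∀ h ∈ H, c * h * c⁻¹ ∈ H := by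
    intro c hc
    obtain ⟨hcG, hcA⟩ := Subgroup.mem_inf.1 hc
    apply hconj
    intro B hB
    exact conj_comm_mem _ A c (Subgroup.mem_inf.2 ⟨hcG, Subgroup.centralizer_le hB.1 hcA⟩)
  -- the subgroup of elements normalizing `H` and centralizing `A` modulo `H`
  obtain ⟨M, hMmem⟩ : ∃ M : Subgroup X, ∀ g, g ∈ M ↔
      ((∀ h ∈ H, g * h * g⁻¹ ∈ H) ∧ (∀ h ∈ H, g⁻¹ * h * g ∈ H) ∧
        ∀ a ∈ A, g * a * g⁻¹ * a⁻¹ ∈ H) := by
    refine ⟨{ carrier := {g | (∀ h ∈ H, g * h * g⁻¹ ∈ H) ∧ (∀ h ∈ H, g⁻¹ * h * g ∈ H) ∧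
                ∀ a ∈ A, g * a * g⁻¹ * a⁻¹ ∈ H}
              mul_mem' := ?_
              one_mem' := ?_
              inv_mem' := ?_ }, fun g => Iff.rfl⟩
    · rintro x y ⟨hx1, hx2, hx3⟩ ⟨hy1, hy2, hy3⟩
      refine ⟨fun h hh => ?_, fun h hh => ?_, fun a ha => ?_⟩
      · have e : x * y * h * (x * y)⁻¹ = x * (y * h * y⁻¹) * x⁻¹ := by group
        rw [e]; exact hx1 _ (hy1 h hh)
      · have e : (x * y)⁻¹ * h * (x * y) = y⁻¹ * (x⁻¹ * h * x) * y := by group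
        rw [e]; exact hy2 _ (hx2 h hh)
      · have e : x * y * a * (x * y)⁻¹ * a⁻¹ =
            x * (y * a * y⁻¹ * a⁻¹) * x⁻¹ * (x * a * x⁻¹ * a⁻¹) := by group
        rw [e]; exact H.mul_mem (hx1 _ (hy3 a ha)) (hx3 a ha)
    · refine ⟨fun h hh => by simpa using hh, fun h hh => by simpa using hh, fun a ha => ?_⟩
      have e : (1 : X) * a * (1 : X)⁻¹ * a⁻¹ = 1 := by group
      rw [e]; exact H.one_mem
    · rintro x ⟨hx1, hx2, hx3⟩
      refine ⟨fun h hh => ?_, fun h hh => ?_, fun a ha => ?_⟩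
      · rw [inv_inv]; exact hx2 h hh
      · rw [inv_inv]; exact hx1 h hh
      · have e : x⁻¹ * a * x⁻¹⁻¹ * a⁻¹ = x⁻¹ * (x * a * x⁻¹ * a⁻¹)⁻¹ * x := by group
        rw [e]; exact hx2 _ (H.inv_mem (hx3 a ha))
  have hHM : H ≤ M := by
    intro h hh
    rw [hMmem]
    refine ⟨fun k hk => H.mul_mem (H.mul_mem hh hk) (H.inv_mem hh),
      fun k hk => H.mul_mem (H.mul_mem (H.inv_mem hh) hk) hh, fun a ha => ?_⟩
    have e : h * a * h⁻¹ * a⁻¹ = h * (a * h⁻¹ * a⁻¹) := by group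
    rw [e]
    exact H.mul_mem hh (hconjA a ha _ (H.inv_mem hh))
  have hCM : G ⊓ Subgroup.centralizer (A : Set X) ≤ M := by
    intro c hc
    rw [hMmem]
    refine ⟨hconjC c hc, fun h hh => ?_, fun a ha => ?_⟩
    · have h1 := hconjC c⁻¹ (Subgroup.inv_mem _ hc) h hh
      rw [inv_inv] at h1
      exact h1
    · have h1 := Subgroup.mem_centralizer_iff.1 (Subgroup.mem_inf.1 hc).2 a ha
      have e : c * a * c⁻¹ * a⁻¹ = 1 := by
        rw [← h1]; group
      rw [e]; exact H.one_mem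
  have hGM : G ≤ M := by
    rw [← hpart1]
    apply iSup₂_le
    intro B hB
    have hD := Cfsg.Agent.S0026.result A (G ⊓ Subgroup.centralizer (B : Set X))
      (hnormD B hB.1)
      (Nat.Coprime.coprime_dvd_right (Subgroup.card_dvd_of_le inf_le_left) hcop)
      (Or.inl hAsolv)
    rw [← hD]
    apply sup_le
    · refine le_trans ?_ hHM
      rw [hH]
      exact le_iSup₂_of_le B hB le_rfl
    · exact le_trans (inf_le_inf_right _ inf_le_left) hCM
  rw [Subgroup.commutator_le]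
  intro g hg a ha
  exact ((hMmem g).1 (hGM hg)).2.2 a ha

end Cfsg.Agent.S3734
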