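import Cfsg.Statements.S3735
import Mathlib

namespace Cfsg.Agent.S3735

section aux

variable {G : Type*} [Group G]

/-- `A` acts by conjugation on `M`. -/
def Inv (A M : Subgroup G) : Prop := ∀ a ∈ A, ∀ x ∈ M, a * x * a⁻¹ ∈ M

theorem inv_iff (A M : Subgroup G) : A ≤ Subgroup.normalizer (M : Set G) ↔ Inv A M := by
  constructor
  · intro h a ha x hx
    exact (Subgroup.mem_normalizer_iff.mp (h ha) x).mp hx
  · intro h a ha
    rw [Subgroup.mem_normalizer_iff]
    intro x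
    constructor
    · exact h a ha x
    · intro hx
      have := h a⁻¹ (inv_mem ha) _ hx
      simpa [mul_assoc] using this

theorem inv_bot (A : Subgroup G) : Inv A ⊥ := by
  intro a _ x hx
  rw [Subgroup.mem_bot] at hx ⊢
  subst hx
  simp

theorem inv_sup {A U W : Subgroup G} (hU : Inv A U) (hW : Inv A W) : Inv A (U ⊔ W) := by
  intro a ha x hx
  have hle : U ⊔ W ≤ Subgroup.comap (MulAut.conj a).toMonoidHom (U ⊔ W) := by
    apply sup_le
    · intro y hy
      rw [Subgroup.mem_comap]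
      exact Subgroup.mem_sup_left (by simpa [MulAut.conj_apply] using hU a ha y hy)
    · intro y hy
      rw [Subgroup.mem_comap]
      exact Subgroup.mem_sup_right (by simpa [MulAut.conj_apply] using hW a ha y hy)
  have := hle hx
  rw [Subgroup.mem_comap] at this
  simpa [MulAut.conj_apply] using this

theorem inv_inf {A U W : Subgroup G} (hU : Inv A U) (hW : Inv A W) : Inv A (U ⊓ W) := by
  intro a ha x hx
  obtain ⟨h1, h2⟩ := Subgroup.mem_inf.mp hx
  exact Subgroup.mem_inf.mpr ⟨hU a ha x h1, hW a ha x h2⟩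

/-- The conjugate subgroup `g M g⁻¹`. -/
def conjS (g : G) (M : Subgroup G) : Subgroup G := M.map (MulAut.conj g).toMonoidHom

theorem mem_conjS {g : G} {M : Subgroup G} {y : G} : y ∈ conjS g M ↔ g⁻¹ * y * g ∈ M := by
  constructor
  · rintro ⟨x, hx, rfl⟩
    simpa [MulAut.conj_apply, mul_assoc] using hx
  · intro h
    exact ⟨g⁻¹ * y * g, h, by simp [MulAut.conj_apply, mul_assoc]⟩

theorem conjS_conjS_inv (g : G) (M : Subgroup G) : conjS g (conjS g⁻¹ M) = M := by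
  ext y
  rw [mem_conjS, mem_conjS]
  have e : g⁻¹⁻¹ * (g⁻¹ * y * g) * g⁻¹ = y := by group
  rw [e]

theorem conjS_bot (g : G) : conjS g (⊥ : Subgroup G) = ⊥ := Subgroup.map_bot _

theorem conjS_mono (g : G) {M N : Subgroup G} (h : M ≤ N) : conjS g M ≤ conjS g N :=
  Subgroup.map_mono h

theorem inv_conjS {H A M : Subgroup G} (hHA : Inv H A) {g : G} (hg : g ∈ H) (hM : Inv A M) :
    Inv A (conjS g M) := by
  intro a ha y hy
  rw [mem_conjS] at hy ⊢
  have h1 : g⁻¹ * a * g ∈ A := by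
    have := hHA g⁻¹ (inv_mem hg) a ha
    simpa using this
  have := hM _ h1 _ hy
  have e : g⁻¹ * (a * y * a⁻¹) * g = (g⁻¹ * a * g) * (g⁻¹ * y * g) * (g⁻¹ * a * g)⁻¹ := by
    group
  rw [e]; exact this

/-- Minimal nontrivial `A`-invariant subgroups. -/
def IsMinInv (A M : Subgroup G) : Prop :=
  M ≠ ⊥ ∧ Inv A M ∧ ∀ M' : Subgroup G, M' ≤ M → Inv A M' → M' = ⊥ ∨ M' = M

theorem exists_minInv [Finite G] (A W : Subgroup G) (hW : W ≠ ⊥) (hAW : Inv A W) :
    ∃ M : Subgroup G, M ≤ W ∧ IsMinInv A M := by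
  classical
  have hfin : Set.Finite {M : Subgroup G | M ≤ W ∧ M ≠ ⊥ ∧ Inv A M} := Set.toFinite _
  obtain ⟨M, ⟨hMW, hM1, hMA⟩, hmin⟩ :=
    Set.exists_min_image _ (fun M : Subgroup G => Nat.card M) hfin ⟨W, le_rfl, hW, hAW⟩
  refine ⟨M, hMW, hM1, hMA, ?_⟩
  intro M' hM' hA'
  by_cases h1 : M' = ⊥
  · exact Or.inl h1
  · right
    have := hmin M' ⟨hM'.trans hMW, h1, hA'⟩
    exact Subgroup.eq_of_le_of_card_ge hM' this

theorem isMinInv_conjS {H A M : Subgroup G} (hHA : Inv H A) {g : G} (hg : g ∈ H)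
    (hM : IsMinInv A M) : IsMinInv A (conjS g M) := by
  obtain ⟨h1, h2, h3⟩ := hM
  refine ⟨?_, inv_conjS hHA hg h2, ?_⟩
  · intro hbot
    apply h1
    have := congrArg (conjS g⁻¹) hbot
    rw [conjS_bot] at this
    have e := conjS_conjS_inv g⁻¹ M
    rw [inv_inv] at e
    rw [← e, this]
  · intro M' hM' hA'
    have hle : conjS g⁻¹ M' ≤ M := by
      have := conjS_mono g⁻¹ hM'
      have e := conjS_conjS_inv g⁻¹ M
      rw [inv_inv] at e
      rwa [e] at this
    rcases h3 _ hle (inv_conjS hHA (inv_mem hg) hA') with h | h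
    · left
      rw [← conjS_conjS_inv g M', h, conjS_bot]
    · right
      rw [← conjS_conjS_inv g M', h]

theorem mem_sup_comm {V W M : Subgroup G} (hV : IsMulCommutative V) (hW : W ≤ V) (hM : M ≤ V)
    {x : G} (hx : x ∈ W ⊔ M) : ∃ w ∈ W, ∃ m ∈ M, x = w * m := by
  have hcomm : ∀ a ∈ V, ∀ b ∈ V, a * b = b * a := by
    intro a ha b hb
    have := mul_comm' (⟨a, ha⟩ : V) ⟨b, hb⟩
    exact congrArg Subtype.val this
  let S' : Subgroup G :=
    { carrier := {x | ∃ w ∈ W, ∃ m ∈ M, x = w * m}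
      mul_mem' := by
        rintro _ _ ⟨w1, hw1, m1, hm1, rfl⟩ ⟨w2, hw2, m2, hm2, rfl⟩
        refine ⟨w1 * w2, mul_mem hw1 hw2, m1 * m2, mul_mem hm1 hm2, ?_⟩
        have := hcomm m1 (hM hm1) w2 (hW hw2)
        calc w1 * m1 * (w2 * m2) = w1 * (m1 * w2) * m2 := by group
          _ = w1 * (w2 * m1) * m2 := by rw [this]
          _ = w1 * w2 * (m1 * m2) := by group
      one_mem' := ⟨1, one_mem _, 1, one_mem _, by simp⟩
      inv_mem' := by
        rintro _ ⟨w, hw, m, hm, rfl⟩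
        refine ⟨w⁻¹, inv_mem hw, m⁻¹, inv_mem hm, ?_⟩
        have := hcomm w⁻¹ (hW (inv_mem hw)) m⁻¹ (hM (inv_mem hm))
        rw [mul_inv_rev, this] }
  have hle : W ⊔ M ≤ S' := by
    apply sup_le
    · intro w hw; exact ⟨w, hw, 1, one_mem _, by simp⟩
    · intro m hm; exact ⟨1, one_mem _, m, hm, by simp⟩
  exact hle hx

end aux

theorem result {G : Type*} [Group G] [Finite G] (H A V : Subgroup G) (hVab : IsMulCommutative V) (hHV : H ≤ Subgroup.normalizer (V : Set G)) (hAH : A ≤ H) (hAn : H ≤ Subgroup.normalizer (A : Set G)) (hss : ∀ U : Subgroup G, U ≤ V → H ≤ Subgroup.normalizer (U : Set G) → ∃ W : Subgroup G, W ≤ V ∧ H ≤ Subgroup.normalizer (W : Set G) ∧ U ⊓ W = ⊥ ∧ U ⊔ W = V) (U : Subgroup G) (hUV : U ≤ V) (hAU : A ≤ Subgroup.normalizer (U : Set G)) : ∃ W : Subgroup G, W ≤ V ∧ A ≤ Subgroup.normalizer (W : Set G) ∧ U ⊓ W = ⊥ ∧ U ⊔ W = V := by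
  classical
  rw [inv_iff] at hHV hAn hAU
  set S : Set (Subgroup G) := {M | M ≤ V ∧ IsMinInv A M} with hS
  set T : Subgroup G := sSup S with hT
  have hTV : T ≤ V := sSup_le (fun M hM => hM.1)
  have hHT : Inv H T := by
    intro g hg x hx
    have hle : T ≤ Subgroup.comap (MulAut.conj g).toMonoidHom T := by
      apply sSup_le
      intro M hM y hy
      rw [Subgroup.mem_comap]
      have hmem : conjS g M ∈ S := by
        refine ⟨?_, isMinInv_conjS hAn hg hM.2⟩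
        intro z hz
        rw [mem_conjS] at hz
        have := hHV g hg _ (hM.1 hz)
        simpa [mul_assoc] using this
      exact (le_sSup hmem) ⟨y, hy, rfl⟩
    have := hle hx
    rw [Subgroup.mem_comap] at this
    simpa [MulAut.conj_apply] using this
  have hTeq : T = V := by
    obtain ⟨W, hWV, hHW, hTW, hTWV⟩ := hss T hTV ((inv_iff _ _).mpr hHT)
    rw [inv_iff] at hHW
    by_cases hW : W = ⊥
    · rw [hW, sup_bot_eq] at hTWV; exact hTWV
    · exfalso
      have hAW : Inv A W := fun a ha => hHW a (hAH ha)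
      obtain ⟨M, hMW, hM⟩ := exists_minInv A W hW hAW
      have hMT : M ≤ T := le_sSup ⟨hMW.trans hWV, hM⟩
      have : M ≤ T ⊓ W := le_inf hMT hMW
      rw [hTW] at this
      exact hM.1 (le_bot_iff.mp this)
  have hfin : Set.Finite {W : Subgroup G | W ≤ V ∧ Inv A W ∧ U ⊓ W = ⊥} := Set.toFinite _
  obtain ⟨W, ⟨hWV, hAW, hUW⟩, hmax⟩ :=
    Set.exists_max_image _ (fun W : Subgroup G => Nat.card W) hfin
      ⟨⊥, bot_le, inv_bot A, inf_bot_eq _⟩
  refine ⟨W, hWV, (inv_iff _ _).mpr hAW, hUW, ?_⟩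
  by_contra hne
  have hUWV : U ⊔ W ≤ V := sup_le hUV hWV
  have hex : ∃ M ∈ S, ¬ M ≤ U ⊔ W := by
    by_contra hall
    push Not at hall
    apply hne
    apply le_antisymm hUWV
    rw [← hTeq]
    exact sSup_le hall
  obtain ⟨M, ⟨hMV, hM1, hMA, hMmin⟩, hMnot⟩ := hex
  have hdisj : M ⊓ (U ⊔ W) = ⊥ := by
    rcases hMmin (M ⊓ (U ⊔ W)) inf_le_left (inv_inf hMA (inv_sup hAU hAW)) with h | h
    · exact h
    · exact absurd (inf_eq_left.mp h) hMnot
  have hUW' : U ⊓ (W ⊔ M) = ⊥ := by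
    rw [eq_bot_iff]
    intro x hx
    obtain ⟨hxU, hxWM⟩ := Subgroup.mem_inf.mp hx
    obtain ⟨w, hw, m, hm, rfl⟩ := mem_sup_comm hVab hWV hMV hxWM
    have hmUW : m ∈ U ⊔ W := by
      have : m = w⁻¹ * (w * m) := by group
      rw [this]
      exact mul_mem (Subgroup.mem_sup_right (inv_mem hw)) (Subgroup.mem_sup_left hxU)
    have hm1 : m = 1 := by
      have : m ∈ M ⊓ (U ⊔ W) := Subgroup.mem_inf.mpr ⟨hm, hmUW⟩
      rw [hdisj] at this
      exact Subgroup.mem_bot.mp this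
    subst hm1
    rw [mul_one] at hxU ⊢
    have : w ∈ U ⊓ W := Subgroup.mem_inf.mpr ⟨hxU, hw⟩
    rw [hUW] at this
    exact this
  have hcard := hmax (W ⊔ M) ⟨sup_le hWV hMV, inv_sup hAW hMA, hUW'⟩
  have heq : W = W ⊔ M := Subgroup.eq_of_le_of_card_ge le_sup_left hcard
  apply hMnot
  calc M ≤ W ⊔ M := le_sup_right
    _ = W := heq.symm
    _ ≤ U ⊔ W := le_sup_right

end Cfsg.Agent.S3735
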