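import Mathlib
import Cfsg.Statements.S3741
import Cfsg.Agent.Helper19.PCenter

set_option autoImplicit false
open Cfsg

namespace Cfsg.Agent.S3741

open Cfsg.Agent.Helper19
open scoped commutatorElement

/-- The commutator map `b ↦ [a, b]` as a homomorphism, when commutators are central enough. -/
def commHom {G : Type*} [Group G] (B Z : Subgroup G) (a : G)
    (hZ : ∀ b ∈ B, a * b * a⁻¹ * b⁻¹ ∈ Z) (hcen : ∀ b ∈ B, ∀ z ∈ Z, b * z = z * b) : B →* G where
  toFun b := a * b * a⁻¹ * (b : G)⁻¹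
  map_one' := by simp
  map_mul' b b' := by
    have h : Commute (b : G) (a * b' * a⁻¹ * (b' : G)⁻¹) := hcen b b.2 _ (hZ b' b'.2)
    have h2 : (b : G)⁻¹ * (a * b' * a⁻¹ * (b' : G)⁻¹) = (a * b' * a⁻¹ * (b' : G)⁻¹) * (b : G)⁻¹ :=
      (Commute.inv_left h).eq
    show a * ((b : G) * b') * a⁻¹ * ((b : G) * b')⁻¹ =
      (a * b * a⁻¹ * (b : G)⁻¹) * (a * b' * a⁻¹ * (b' : G)⁻¹)
    calc a * ((b : G) * b') * a⁻¹ * ((b : G) * b')⁻¹
        = a * b * a⁻¹ * ((a * b' * a⁻¹ * (b' : G)⁻¹) * (b : G)⁻¹) := by group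
      _ = (a * b * a⁻¹ * (b : G)⁻¹) * (a * b' * a⁻¹ * (b' : G)⁻¹) := by rw [← h2]; group

open Classical in
theorem side {G : Type*} [Group G] [Fintype G] {p : ℕ} [Fact p.Prime] (hG : IsPGroup p G)
    (A B Z : Subgroup G) (hZ : ∀ a ∈ A, ∀ b ∈ B, a * b * a⁻¹ * b⁻¹ ∈ Z)
    (hcen : ∀ b ∈ B, ∀ z ∈ Z, b * z = z * b) (hZcard : Nat.card Z ≤ p) :
    ∑ a : A, ∑ b : B, (if (a : G) * b = b * a then p else 0) =
      Nat.card A * Nat.card B +
        Nat.card ((Subgroup.centralizer (B : Set G)).subgroupOf A) * ((p - 1) * Nat.card B) := by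
  have hp : p.Prime := Fact.out
  have KA : ∀ a : A, ∑ b : B, (if (a : G) * b = b * a then p else 0) =
      Nat.card B + (if a ∈ (Subgroup.centralizer (B : Set G)).subgroupOf A
        then (p - 1) * Nat.card B else 0) := by
    intro a
    let ψ := commHom B Z (a : G) (hZ a a.2) hcen
    have hker : ∀ b : B, b ∈ ψ.ker ↔ (a : G) * b = b * a := by
      intro b
      rw [MonoidHom.mem_ker]
      show (a : G) * b * (a : G)⁻¹ * (b : G)⁻¹ = 1 ↔ _
      constructor
      · intro h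
        have := congrArg (fun t => t * (b : G) * (a : G)) h
        simpa [mul_assoc] using this
      · intro h
        rw [h]; group
    have hsum : ∑ b : B, (if (a : G) * b = b * a then p else 0) = Nat.card ψ.ker * p := by
      rw [← Finset.sum_filter, Finset.sum_const, smul_eq_mul]
      congr 1
      rw [← Fintype.card_subtype, Fintype.card_eq_nat_card]
      exact Nat.card_congr (Equiv.subtypeEquivRight (fun b => (hker b).symm))
    rw [hsum]
    have hcard : Nat.card ψ.ker * Nat.card ψ.range = Nat.card B := by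
      rw [← Subgroup.index_ker]; exact Subgroup.card_mul_index ψ.ker
    by_cases hc : a ∈ (Subgroup.centralizer (B : Set G)).subgroupOf A
    · rw [if_pos hc]
      have hk : ψ.ker = ⊤ := by
        rw [eq_top_iff]; intro b _
        rw [hker]
        rw [Subgroup.mem_subgroupOf, Subgroup.mem_centralizer_iff] at hc
        exact (hc b b.2).symm
      rw [hk, Subgroup.card_top]
      have hp1 : p - 1 + 1 = p := Nat.sub_add_cancel hp.pos
      calc Nat.card B * p = Nat.card B * (p - 1 + 1) := by rw [hp1]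
        _ = Nat.card B + (p - 1) * Nat.card B := by ring
    · rw [if_neg hc, add_zero]
      have hr : ψ.range ≠ ⊥ := by
        intro h
        apply hc
        rw [Subgroup.mem_subgroupOf, Subgroup.mem_centralizer_iff]
        intro b hb
        have : ψ ⟨b, hb⟩ ∈ ψ.range := ⟨_, rfl⟩
        rw [h, Subgroup.mem_bot] at this
        have := (hker ⟨b, hb⟩).mp (MonoidHom.mem_ker.mpr this)
        exact this.symm
      have hrZ : ψ.range ≤ Z := by
        rintro _ ⟨b, rfl⟩
        exact hZ a a.2 b b.2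
      have hr1 : Nat.card ψ.range ≤ p := le_trans (Subgroup.card_le_of_le hrZ) hZcard
      have hr2 : p ∣ Nat.card ψ.range := by
        rcases (hG.to_subgroup ψ.range).card_eq_or_dvd with h | h
        · exact absurd (Subgroup.card_eq_one.mp h) hr
        · exact h
      have hr3 : Nat.card ψ.range = p := le_antisymm hr1 (Nat.le_of_dvd Nat.card_pos hr2)
      rw [← hcard, hr3]
  rw [Finset.sum_congr rfl (fun a _ => KA a), Finset.sum_add_distrib]
  congr 1
  · rw [Finset.sum_const, Finset.card_univ, smul_eq_mul, Fintype.card_eq_nat_card]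
  · rw [← Finset.sum_filter, Finset.sum_const, smul_eq_mul]
    congr 1
    rw [← Fintype.card_subtype, Fintype.card_eq_nat_card]

/-- Let A and B be subgroups of a finite p-group with [A, B] ≤ A ∩ B and [A, B] of order at most p. Then |A : C_A(B)| = |B : C_B(A)|. -/
theorem result {G : Type*} [Group G] [Finite G] {p : ℕ} [Fact p.Prime] (hG : IsPGroup p G) (A B : Subgroup G) (hAB : ⁅A, B⁆ ≤ A ⊓ B) (hcard : Nat.card ↥⁅A, B⁆ ≤ p) : (A ⊓ Subgroup.centralizer (B : Set G)).relIndex A = (B ⊓ Subgroup.centralizer (A : Set G)).relIndex B := by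
  classical
  have hp : p.Prime := Fact.out
  have := Fintype.ofFinite G
  have hZ1 : ∀ a ∈ A, ∀ b ∈ B, a * b * a⁻¹ * b⁻¹ ∈ ⁅A, B⁆ :=
    fun a ha b hb => Subgroup.commutator_mem_commutator ha hb
  have hZ2 : ∀ b ∈ B, ∀ a ∈ A, b * a * b⁻¹ * a⁻¹ ∈ ⁅A, B⁆ := by
    intro b hb a ha
    have := inv_mem (hZ1 a ha b hb)
    have e : (a * b * a⁻¹ * b⁻¹)⁻¹ = b * a * b⁻¹ * a⁻¹ := by group
    rwa [e] at this
  have hAconj : ∀ x ∈ A, ∀ z ∈ ⁅A, B⁆, x * z * x⁻¹ ∈ ⁅A, B⁆ := by
    intro x hx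
    have : ⁅A, B⁆ ≤ (⁅A, B⁆).comap (MulAut.conj x).toMonoidHom := by
      rw [Subgroup.commutator_le]
      intro a ha b hb
      rw [Subgroup.mem_comap]
      show x * ⁅a, b⁆ * x⁻¹ ∈ ⁅A, B⁆
      have e : x * ⁅a, b⁆ * x⁻¹ =
          ((x * a) * b * (x * a)⁻¹ * b⁻¹) * (x * b * x⁻¹ * b⁻¹)⁻¹ := by
        rw [commutatorElement_def]; group
      rw [e]
      exact mul_mem (hZ1 _ (mul_mem hx ha) b hb) (inv_mem (hZ1 x hx b hb))
    intro z hz
    exact this hz
  have hBconj : ∀ x ∈ B, ∀ z ∈ ⁅A, B⁆, x * z * x⁻¹ ∈ ⁅A, B⁆ := by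
    intro x hx
    have : ⁅A, B⁆ ≤ (⁅A, B⁆).comap (MulAut.conj x).toMonoidHom := by
      rw [Subgroup.commutator_le]
      intro a ha b hb
      rw [Subgroup.mem_comap]
      show x * ⁅a, b⁆ * x⁻¹ ∈ ⁅A, B⁆
      have e : x * ⁅a, b⁆ * x⁻¹ =
          (a * x * a⁻¹ * x⁻¹)⁻¹ * (a * (x * b) * a⁻¹ * (x * b)⁻¹) := by
        rw [commutatorElement_def]; group
      rw [e]
      exact mul_mem (inv_mem (hZ1 a ha x hx)) (hZ1 a ha _ (mul_mem hx hb))
    intro z hz
    exact this hz
  have hnorm : ∀ x : G, (∀ z ∈ ⁅A, B⁆, x * z * x⁻¹ ∈ ⁅A, B⁆) →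
      (∀ z ∈ ⁅A, B⁆, x⁻¹ * z * x⁻¹⁻¹ ∈ ⁅A, B⁆) →
      x ∈ Subgroup.normalizer ((⁅A, B⁆ : Subgroup G) : Set G) := by
    intro x h1 h2
    rw [Subgroup.mem_normalizer_iff]
    intro z
    refine ⟨h1 z, fun hz => ?_⟩
    have := h2 _ hz
    have e : x⁻¹ * (x * z * x⁻¹) * x⁻¹⁻¹ = z := by group
    rwa [e] at this
  have hcen : ∀ x ∈ Subgroup.normalizer ((⁅A, B⁆ : Subgroup G) : Set G), ∀ z ∈ ⁅A, B⁆,
      x * z = z * x := by
    obtain ⟨k, hk⟩ := IsPGroup.iff_card.mp (hG.to_subgroup ⁅A, B⁆)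
    rcases Nat.eq_zero_or_pos k with h0 | hpos
    · rw [h0, pow_zero] at hk
      have hbot : ⁅A, B⁆ = ⊥ := Subgroup.card_eq_one.mp hk
      intro x _ z hz
      rw [hbot, Subgroup.mem_bot] at hz
      rw [hz]; simp
    · have hZp : Nat.card ↥⁅A, B⁆ = p := by
        apply le_antisymm hcard
        rw [hk]
        exact Nat.le_self_pow (by omega) p
      have hc : Nat.card ((⁅A, B⁆).subgroupOf
          (Subgroup.normalizer ((⁅A, B⁆ : Subgroup G) : Set G))) = p := by
        rw [← hZp]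
        exact Nat.card_congr (Subgroup.subgroupOfEquivOfLe Subgroup.le_normalizer).toEquiv
      have hle := le_center_of_normal_of_card_eq
        (hG.to_subgroup (Subgroup.normalizer ((⁅A, B⁆ : Subgroup G) : Set G))) _ hc
      intro x hx z hz
      have h1 : (⟨z, Subgroup.le_normalizer hz⟩ :
          ↥(Subgroup.normalizer ((⁅A, B⁆ : Subgroup G) : Set G))) ∈ Subgroup.center _ :=
        hle (Subgroup.mem_subgroupOf.mpr hz)
      have h2 := Subgroup.mem_center_iff.mp h1 ⟨x, hx⟩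
      exact congrArg Subtype.val h2
  have hAn : ∀ a ∈ A, a ∈ Subgroup.normalizer ((⁅A, B⁆ : Subgroup G) : Set G) :=
    fun a ha => hnorm a (hAconj a ha) (hAconj a⁻¹ (inv_mem ha))
  have hBn : ∀ b ∈ B, b ∈ Subgroup.normalizer ((⁅A, B⁆ : Subgroup G) : Set G) :=
    fun b hb => hnorm b (hBconj b hb) (hBconj b⁻¹ (inv_mem hb))
  have s1 := side hG A B ⁅A, B⁆ hZ1 (fun b hb z hz => hcen b (hBn b hb) z hz) hcard
  have s2 := side hG B A ⁅A, B⁆ hZ2 (fun a ha z hz => hcen a (hAn a ha) z hz) hcard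
  have hswap : ∑ a : A, ∑ b : B, (if (a : G) * b = b * a then p else 0) =
      ∑ b : B, ∑ a : A, (if (b : G) * a = a * b then p else 0) := by
    rw [Finset.sum_comm]
    refine Finset.sum_congr rfl (fun b _ => Finset.sum_congr rfl (fun a _ => ?_))
    simp only [eq_comm]
  rw [s1, s2] at hswap
  have hcA : Nat.card ((Subgroup.centralizer (B : Set G)).subgroupOf A) *
      (Subgroup.centralizer (B : Set G)).relIndex A = Nat.card A := Subgroup.card_mul_index _
  have hcB : Nat.card ((Subgroup.centralizer (A : Set G)).subgroupOf B) *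
      (Subgroup.centralizer (A : Set G)).relIndex B = Nat.card B := Subgroup.card_mul_index _
  rw [Subgroup.inf_relIndex_left, Subgroup.inf_relIndex_left]
  have hcApos : 0 < Nat.card ((Subgroup.centralizer (B : Set G)).subgroupOf A) := Nat.card_pos
  have hcBpos : 0 < Nat.card ((Subgroup.centralizer (A : Set G)).subgroupOf B) := Nat.card_pos
  generalize Nat.card ((Subgroup.centralizer (B : Set G)).subgroupOf A) = cA at *
  generalize Nat.card ((Subgroup.centralizer (A : Set G)).subgroupOf B) = cB at *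
  generalize (Subgroup.centralizer (B : Set G)).relIndex A = iA at *
  generalize (Subgroup.centralizer (A : Set G)).relIndex B = iB at *
  rw [← hcA, ← hcB] at hswap
  have hp1 : 0 < p - 1 := by have := hp.two_le; omega
  have h1 : cA * ((p - 1) * (cB * iB)) = cB * ((p - 1) * (cA * iA)) := by
    have e : cA * iA * (cB * iB) = cB * iB * (cA * iA) := by ring
    linarith
  have h2 : (cA * cB * (p - 1)) * iB = (cA * cB * (p - 1)) * iA := by
    calc (cA * cB * (p - 1)) * iB = cA * ((p - 1) * (cB * iB)) := by ring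
      _ = cB * ((p - 1) * (cA * iA)) := h1
      _ = (cA * cB * (p - 1)) * iA := by ring
  exact (Nat.eq_of_mul_eq_mul_left (by positivity) h2).symm

end Cfsg.Agent.S3741
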