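import Mathlib
import Cfsg.Statements.S3742
import Cfsg.Agent.Helper12.S4

set_option autoImplicit false
open Cfsg

namespace Cfsg.Agent.S3742

open QuaternionGroup

/-- the automorphism `i → j → k → i` of `Q₈`, as a function. -/
def cf : QuaternionGroup 2 → QuaternionGroup 2
  | .a i => if i = 0 then a 0 else if i = 1 then xa 0 else if i = 2 then a 2 else xa 2
  | .xa i => if i = 0 then xa 3 else if i = 1 then a 3 else if i = 2 then xa 1 else a 1

/-- the automorphism `i → -j`, `j → -i` of `Q₈`, as a function. -/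
def tf : QuaternionGroup 2 → QuaternionGroup 2
  | .a i => if i = 0 then a 0 else if i = 1 then xa 2 else if i = 2 then a 2 else xa 0
  | .xa i => if i = 0 then a 3 else if i = 1 then xa 3 else if i = 2 then a 1 else xa 1

theorem cf_mul : ∀ g h : QuaternionGroup 2, cf (g * h) = cf g * cf h := by decide

theorem tf_mul : ∀ g h : QuaternionGroup 2, tf (g * h) = tf g * tf h := by decide

theorem cf3 : ∀ g : QuaternionGroup 2, cf (cf (cf g)) = g := by decide

theorem tf2 : ∀ g : QuaternionGroup 2, tf (tf g) = g := by decide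

/-- the automorphism of order three. -/
def cAut : MulAut (QuaternionGroup 2) :=
  { toFun := cf, invFun := fun g => cf (cf g), left_inv := cf3, right_inv := cf3,
    map_mul' := cf_mul }

/-- the outer involution. -/
def tAut : MulAut (QuaternionGroup 2) :=
  { toFun := tf, invFun := tf, left_inv := tf2, right_inv := tf2, map_mul' := tf_mul }

/-- conjugation by `i`. -/
def aAut : MulAut (QuaternionGroup 2) := MulAut.conj (a 1)

/-- conjugation by `j`. -/
def bAut : MulAut (QuaternionGroup 2) := MulAut.conj (xa 0)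

theorem rel_aa : aAut * aAut = 1 := MulEquiv.ext (by decide)
theorem rel_bb : bAut * bAut = 1 := MulEquiv.ext (by decide)
theorem rel_ab : aAut * bAut = bAut * aAut := MulEquiv.ext (by decide)
theorem rel_a1 : aAut ≠ 1 := fun h => absurd (DFunLike.congr_fun h (xa 0)) (by decide)
theorem rel_b1 : bAut ≠ 1 := fun h => absurd (DFunLike.congr_fun h (a 1)) (by decide)
theorem rel_ne : aAut ≠ bAut := fun h => absurd (DFunLike.congr_fun h (a 1)) (by decide)
theorem rel_c3 : cAut * cAut * cAut = 1 := MulEquiv.ext (by decide)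
theorem rel_c1 : cAut ≠ 1 := fun h => absurd (DFunLike.congr_fun h (a 1)) (by decide)
theorem rel_ca : cAut * aAut * cAut⁻¹ = bAut := MulEquiv.ext (by decide)
theorem rel_cb : cAut * bAut * cAut⁻¹ = aAut * bAut := MulEquiv.ext (by decide)
theorem rel_tt : tAut * tAut = 1 := MulEquiv.ext (by decide)
theorem rel_t1 : tAut ≠ 1 := fun h => absurd (DFunLike.congr_fun h (a 1)) (by decide)
theorem rel_ta : tAut * aAut * tAut⁻¹ = bAut := MulEquiv.ext (by decide)
theorem rel_tb : tAut * bAut * tAut⁻¹ = aAut := MulEquiv.ext (by decide)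
theorem rel_tc : tAut * cAut * tAut⁻¹ = cAut⁻¹ := MulEquiv.ext (by decide)

theorem aut_ext (φ ψ : MulAut (QuaternionGroup 2)) (h1 : φ (a 1) = ψ (a 1))
    (h2 : φ (xa 0) = ψ (xa 0)) : φ = ψ := by
  haveI : NeZero (2 * 2) := ⟨by norm_num⟩
  have ha : ∀ i : ZMod (2 * 2), φ (a i) = ψ (a i) := by
    intro i
    have h : (a i : QuaternionGroup 2) = (a 1) ^ (ZMod.val i) := by
      rw [a_one_pow, ZMod.natCast_zmod_val]
    rw [h, map_pow, map_pow, h1]
  apply MulEquiv.ext
  intro g
  cases g with
  | a i => exact ha i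
  | xa i =>
    have h : (xa i : QuaternionGroup 2) = xa 0 * a i := by rw [xa_mul_a, zero_add]
    rw [h, map_mul, map_mul, h2, ha i]

/-- the possible images of the pair of generators. -/
def pairs : Finset (QuaternionGroup 2 × QuaternionGroup 2) :=
  Finset.univ.filter (fun q => q.1 * q.1 ≠ 1 ∧ q.2 * q.2 ≠ 1 ∧ q.2 ≠ q.1 ∧ q.2 ≠ q.1⁻¹)

theorem pairs_card : pairs.card = 24 := by decide

theorem mem_pairs (φ : MulAut (QuaternionGroup 2)) : (φ (a 1), φ (xa 0)) ∈ pairs := by
  refine Finset.mem_filter.mpr ⟨Finset.mem_univ _, ?_, ?_, ?_, ?_⟩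
  · intro h
    rw [← map_mul, MulEquiv.map_eq_one_iff] at h
    exact absurd h (by decide)
  · intro h
    rw [← map_mul, MulEquiv.map_eq_one_iff] at h
    exact absurd h (by decide)
  · intro h
    exact absurd (φ.injective h) (by decide)
  · intro h
    rw [← map_inv] at h
    exact absurd (φ.injective h) (by decide)

theorem card_le : Nat.card (MulAut (QuaternionGroup 2)) ≤ 24 := by
  have hinj : Function.Injective
      (fun φ : MulAut (QuaternionGroup 2) => (⟨(φ (a 1), φ (xa 0)), mem_pairs φ⟩ : ↥pairs)) := by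
    intro φ ψ h
    have h' := congrArg Subtype.val h
    simp only [Prod.mk.injEq] at h'
    exact aut_ext φ ψ h'.1 h'.2
  have h1 := Nat.card_le_card_of_injective _ hinj
  have h2 : Nat.card ↥pairs = 24 := by
    rw [Nat.card_eq_fintype_card, Fintype.card_coe, pairs_card]
  rw [h2] at h1
  exact h1

/-- The automorphism group of the quaternion group of order 8 is isomorphic to the symmetric group of degree 4. -/
theorem result : Nonempty (MulAut (QuaternionGroup 2) ≃* Equiv.Perm (Fin 4)) := by
  have hc : orderOf cAut = 3 :=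
    orderOf_eq_prime (by rw [pow_succ, pow_two]; exact rel_c3) rel_c1
  obtain ⟨H, ⟨e⟩⟩ := Cfsg.Agent.Helper12.exists_s4_of_rel aAut bAut cAut tAut rel_aa rel_bb rel_ab
    rel_a1 rel_b1 rel_ne hc rel_ca rel_cb rel_tt rel_t1 rel_ta rel_tb rel_tc
  have hH : Nat.card H = 24 := by
    rw [Nat.card_congr e.toEquiv, Nat.card_eq_fintype_card, Fintype.card_perm, Fintype.card_fin]
    rfl
  have hG : Nat.card (MulAut (QuaternionGroup 2)) = 24 :=
    le_antisymm card_le (hH ▸ Subgroup.card_le_card_group H)
  have htop : H = ⊤ := Subgroup.eq_top_of_card_eq H (by rw [hH, hG])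
  exact ⟨(Subgroup.topEquiv.symm.trans (MulEquiv.subgroupCongr htop.symm)).trans e⟩

end Cfsg.Agent.S3742
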