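import Mathlib
import Cfsg.Statements.S3743
import Cfsg.Agent.Helper1.Fitting

set_option autoImplicit false
open Cfsg

namespace Cfsg.Agent.S3743

universe u

/-- Generic principle: if the join of the normal `Pr`-subgroups of any finite group has `Pr`
(and `Pr` is isomorphism invariant), then subnormal `Pr`-subgroups lie in that join. -/
theorem generic (Pr : ∀ (X : Type u) [Group X], Prop)
    (hiso : ∀ (X Y : Type u) [Group X] [Group Y], (X ≃* Y) → Pr X → Pr Y)
    (hcore : ∀ (X : Type u) [Group X] [Finite X], Pr ↥(sSup {N : Subgroup X | N.Normal ∧ Pr ↥N}))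
    {G : Type u} [Group G] [Finite G] (K : Subgroup G) (hK : K.IsSubnormal) :
    ∀ B : Subgroup G, B ≤ K → (B.subgroupOf K).Normal → Pr ↥B →
      B ≤ sSup {N : Subgroup G | N.Normal ∧ Pr ↥N} := by
  induction hK with
  | top =>
    intro B _ hBn hB
    have hBn' : B.Normal := by
      constructor
      intro b hb g
      have := hBn.conj_mem ⟨b, Subgroup.mem_top b⟩ (Subgroup.mem_subgroupOf.mpr hb)
        ⟨g, Subgroup.mem_top g⟩
      exact Subgroup.mem_subgroupOf.mp this
    exact le_sSup ⟨hBn', hB⟩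
  | step H K hle hKsub hHn ih =>
    intro B hBH hBn hB
    have hF : Pr ↥(sSup {N : Subgroup ↥H | N.Normal ∧ Pr ↥N}) := hcore ↥H
    generalize hFdef : sSup {N : Subgroup ↥H | N.Normal ∧ Pr ↥N} = F at hF
    have hBF : B.subgroupOf H ≤ F := by
      rw [← hFdef]
      exact le_sSup ⟨hBn, hiso _ _ (Subgroup.subgroupOfEquivOfLe hBH).symm hB⟩
    have hBM : B ≤ F.map H.subtype := by
      rw [← Subgroup.map_subgroupOf_eq_of_le hBH]
      exact Subgroup.map_mono hBF
    have hMK : F.map H.subtype ≤ K := le_trans (Subgroup.map_subtype_le F) hle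
    have hM : Pr ↥(F.map H.subtype) :=
      hiso _ _ (F.equivMapOfInjective H.subtype H.subtype_injective) hF
    have hconj : ∀ (k : G), k ∈ K → ∀ h : G, h ∈ H → k * h * k⁻¹ ∈ H := by
      intro k hk h hh
      have := hHn.conj_mem ⟨h, hle hh⟩ (Subgroup.mem_subgroupOf.mpr hh) ⟨k, hk⟩
      exact Subgroup.mem_subgroupOf.mp this
    have hMn : ((F.map H.subtype).subgroupOf K).Normal := by
      constructor
      rintro ⟨y, hyK⟩ hy ⟨k, hk⟩
      rw [Subgroup.mem_subgroupOf] at hy ⊢
      obtain ⟨y', hy', hyy⟩ := hy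
      have hyy' : (y' : G) = y := hyy
      subst hyy'
      let φ : ↥H ≃* ↥H :=
        { toFun := fun h => ⟨k * h * k⁻¹, hconj k hk h h.2⟩
          invFun := fun h => ⟨k⁻¹ * h * k, by
            have := hconj k⁻¹ (K.inv_mem hk) h h.2
            simpa using this⟩
          left_inv := fun h => by apply Subtype.ext; simp [mul_assoc]
          right_inv := fun h => by apply Subtype.ext; simp [mul_assoc]
          map_mul' := fun a b => by apply Subtype.ext; simp [mul_assoc] }
      have hφF : F.map φ.toMonoidHom ≤ F := by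
        rw [Subgroup.map_le_iff_le_comap, ← hFdef]
        apply sSup_le
        rintro N ⟨hNn, hN⟩
        rw [← Subgroup.map_le_iff_le_comap]
        exact le_sSup ⟨hNn.map φ.toMonoidHom φ.surjective,
          hiso _ _ (N.equivMapOfInjective φ.toMonoidHom φ.injective) hN⟩
      have : φ y' ∈ F := hφF ⟨y', hy', rfl⟩
      exact ⟨φ y', this, rfl⟩
    exact le_trans hBM (ih _ hMK hMn hM)

theorem picore_aux (π : Set ℕ) (X : Type u) [Group X] [Finite X] :
    ∀ p : ℕ, p.Prime → p ∣ Nat.card ↥(sSup {N : Subgroup X | N.Normal ∧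
      ∀ p : ℕ, p.Prime → p ∣ Nat.card N → p ∈ π}) → p ∈ π := by
  have hne : ({N : Subgroup X | N.Normal ∧
      ∀ p : ℕ, p.Prime → p ∣ Nat.card N → p ∈ π}).Nonempty := ⟨⊥, inferInstance, fun p hp hd => by
    rw [Subgroup.card_bot] at hd
    exact absurd (Nat.dvd_one.mp hd) hp.one_lt.ne'⟩
  obtain ⟨N₀, hN₀⟩ := (Set.toFinite _).exists_maximal hne
  have hsup : ∀ N ∈ {N : Subgroup X | N.Normal ∧
      ∀ p : ℕ, p.Prime → p ∣ Nat.card N → p ∈ π}, N ≤ N₀ := by
    intro N hN
    have hmem : N₀ ⊔ N ∈ {N : Subgroup X | N.Normal ∧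
        ∀ p : ℕ, p.Prime → p ∣ Nat.card N → p ∈ π} := by
      have i1 := hN₀.1.1
      have i2 := hN.1
      refine ⟨inferInstance, fun p hp hd => ?_⟩
      have h1 : Nat.card ↥(N₀ ⊔ N) = Nat.card N₀ * N₀.relIndex N := by
        have a1 := Subgroup.relIndex_mul_relIndex (H := (⊥ : Subgroup X)) (K := N₀)
          (L := N₀ ⊔ N) bot_le le_sup_left
        rw [Subgroup.relIndex_bot_left, Subgroup.relIndex_bot_left,
          Subgroup.relIndex_sup_left] at a1
        exact a1.symm
      rw [h1] at hd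
      rcases (Nat.Prime.dvd_mul hp).mp hd with h | h
      · exact hN₀.1.2 p hp h
      · exact hN.2 p hp (dvd_trans h (Subgroup.relIndex_dvd_card N₀ N))
    have := hN₀.2 hmem le_sup_left
    exact le_trans le_sup_right this
  have heq : sSup {N : Subgroup X | N.Normal ∧
      ∀ p : ℕ, p.Prime → p ∣ Nat.card N → p ∈ π} = N₀ :=
    le_antisymm (sSup_le hsup) (le_sSup hN₀.1)
  rw [heq]
  exact hN₀.1.2

/-- In a finite group G, every subnormal nilpotent subgroup lies in the Fitting subgroup F(G), and, for a set of primes π, every subnormal subgroup all of whose prime divisors lie in π lies in O_π(G). -/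
theorem result {G : Type*} [Group G] [Finite G] (A : Subgroup G) (hA : A.IsSubnormal) : (Group.IsNilpotent A → A ≤ Cfsg.fittingSubgroup G) ∧ ∀ π : Set ℕ, (∀ p : ℕ, p.Prime → p ∣ Nat.card A → p ∈ π) → A ≤ Cfsg.piCore π G := by
  have hAA : (A.subgroupOf A).Normal := by rw [Subgroup.subgroupOf_self]; infer_instance
  constructor
  · intro hnil
    exact generic (fun X _ => Group.IsNilpotent X)
      (fun X Y _ _ e h => by have := h; exact Group.nilpotent_of_mulEquiv e)
      (fun X _ _ => Cfsg.Agent.Helper1.fitting_isNilpotent) A hA A le_rfl hAA hnil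
  · intro π hπ
    exact generic (fun X _ => ∀ p : ℕ, p.Prime → p ∣ Nat.card X → p ∈ π)
      (fun X Y _ _ e h p hp hd => h p hp (by rwa [Nat.card_congr e.toEquiv]))
      (fun X _ _ => picore_aux π X) A hA A le_rfl hAA hπ

end Cfsg.Agent.S3743
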