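import Mathlib
import Cfsg.Statements.S3746
import Cfsg.Agent.Helper19.Basic
import Cfsg.Agent.Helper19.Quasisimple
import Cfsg.Agent.Helper7.Components

set_option autoImplicit false
open Cfsg

namespace Cfsg.Agent.S3746

open Cfsg.Agent.Helper19
open scoped commutatorElement

/-- Let Z ≤ Z(G) be a central subgroup of a finite group G and E a subgroup of G containing Z whose image E/Z is a component of G/Z (subnormal and quasisimple). Then the derived subgroup [E, E] is a component of G. -/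
theorem result {G : Type*} [Group G] [Finite G] (Z : Subgroup G) (hZ : Z ≤ Subgroup.center G) [Z.Normal] (E : Subgroup G) (hZE : Z ≤ E) (hE : Cfsg.IsComponent (E.map (QuotientGroup.mk' Z))) : Cfsg.IsComponent ⁅E, E⁆ := by
  obtain ⟨hsub, hqs⟩ := hE
  have hperf : ⁅E.map (QuotientGroup.mk' Z), E.map (QuotientGroup.mk' Z)⁆ =
      E.map (QuotientGroup.mk' Z) := Subgroup.isPerfect_iff.mp hqs.1
  have hDmap : (⁅E, E⁆).map (QuotientGroup.mk' Z) = E.map (QuotientGroup.mk' Z) := by
    rw [Subgroup.map_commutator, hperf]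
  have hDE : ⁅E, E⁆ ≤ E := Subgroup.commutator_le.mpr (fun a ha b hb => by
    rw [commutatorElement_def]
    exact E.mul_mem (E.mul_mem (E.mul_mem ha hb) (E.inv_mem ha)) (E.inv_mem hb))
  have hdecomp : ∀ e ∈ E, ∃ d ∈ ⁅E, E⁆, ∃ z ∈ Z, e = d * z := by
    intro e he
    have h1 : QuotientGroup.mk' Z e ∈ (⁅E, E⁆).map (QuotientGroup.mk' Z) := by
      rw [hDmap]; exact ⟨e, he, rfl⟩
    obtain ⟨d, hd, hde⟩ := h1
    refine ⟨d, hd, d⁻¹ * e, ?_, by group⟩
    rw [← QuotientGroup.eq]
    exact hde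
  have hEsub : E.IsSubnormal := by
    have := hsub.comap (QuotientGroup.mk' Z)
    rwa [Subgroup.comap_map_eq_self (by rw [QuotientGroup.ker_mk']; exact hZE)] at this
  have hDn : ((⁅E, E⁆).subgroupOf E).Normal := by
    constructor
    rintro ⟨c, hcE⟩ hc ⟨e, he⟩
    rw [Subgroup.mem_subgroupOf] at hc ⊢
    have hmap : (⁅E, E⁆).map (MulAut.conj e).toMonoidHom = ⁅E, E⁆ := by
      rw [Subgroup.map_commutator, map_conj_of_mem_normalizer E (Subgroup.le_normalizer he)]
    have : (MulAut.conj e).toMonoidHom c ∈ (⁅E, E⁆).map (MulAut.conj e).toMonoidHom :=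
      ⟨c, hc, rfl⟩
    rw [hmap] at this
    exact this
  have hDsub : (⁅E, E⁆).IsSubnormal := Subgroup.IsSubnormal.trans hDE hDn.isSubnormal hEsub
  have hDperf : ⁅⁅E, E⁆, ⁅E, E⁆⁆ = ⁅E, E⁆ := by
    apply le_antisymm
    · exact Subgroup.commutator_le.mpr (fun a ha b hb => by
        rw [commutatorElement_def]
        exact mul_mem (mul_mem (mul_mem ha hb) (inv_mem ha)) (inv_mem hb))
    · rw [Subgroup.commutator_le]
      intro a ha b hb
      obtain ⟨d1, hd1, z1, hz1, rfl⟩ := hdecomp a ha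
      obtain ⟨d2, hd2, z2, hz2, rfl⟩ := hdecomp b hb
      rw [Cfsg.Agent.Helper7.commutatorElement_mul_center_left _ _ _ (hZ hz1),
        Cfsg.Agent.Helper7.commutatorElement_mul_center_right _ _ _ (hZ hz2)]
      exact Subgroup.commutator_mem_commutator hd1 hd2
  have hDP : Group.IsPerfect ↥⁅E, E⁆ := Subgroup.isPerfect_iff.mpr hDperf
  let g : ↥⁅E, E⁆ →* ↥(E.map (QuotientGroup.mk' Z)) :=
    { toFun := fun d => ⟨QuotientGroup.mk' Z (d : G), ⟨(d : G), hDE d.2, rfl⟩⟩
      map_one' := by apply Subtype.ext; simp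
      map_mul' := fun a b => by apply Subtype.ext; simp }
  have hg : Function.Surjective g := by
    rintro ⟨q, e, he, rfl⟩
    obtain ⟨d, hd, z, hz, rfl⟩ := hdecomp e he
    refine ⟨⟨d, hd⟩, ?_⟩
    apply Subtype.ext
    show QuotientGroup.mk' Z d = QuotientGroup.mk' Z (d * z)
    have hz1 : QuotientGroup.mk' Z z = 1 := (QuotientGroup.eq_one_iff z).mpr hz
    rw [map_mul, hz1, mul_one]
  have hker : g.ker ≤ Subgroup.center ↥⁅E, E⁆ := by
    intro d hd
    rw [MonoidHom.mem_ker] at hd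
    have h1 : QuotientGroup.mk' Z (d : G) = 1 := congrArg Subtype.val hd
    have h2 : (d : G) ∈ Z := (QuotientGroup.eq_one_iff _).mp h1
    rw [Subgroup.mem_center_iff]
    intro x
    apply Subtype.ext
    exact Subgroup.mem_center_iff.mp (hZ h2) (x : G)
  exact ⟨hDsub, isQuasisimple_of_central_ext g hg hker hDP hqs⟩

end Cfsg.Agent.S3746
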