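-- S3747: proof by helper7
import Cfsg.Statements.S3747
import Mathlib
import Cfsg.Agent.Helper7.Components
import Cfsg.Agent.Helper7.Bender

set_option autoImplicit false
open Cfsg

namespace Cfsg.Agent.S3747

theorem eq_one_of_mem_iSup_of_commute {G : Type*} [Group G] [Finite G] (s : Finset (Subgroup G))
    (hs : ∀ L ∈ s, Cfsg.IsComponent L ∧ Subgroup.center ↥L = ⊥) :
    ∀ z ∈ ⨆ L ∈ s, L, (∀ L ∈ s, ∀ x ∈ L, x * z = z * x) → z = 1 := by
  classical
  induction s using Finset.induction_on with
  | empty =>
    intro z hz _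
    simpa using hz
  | insert a s ha ih =>
    intro z hz hc
    rw [Finset.iSup_insert] at hz
    have hsa : ∀ L ∈ s, Cfsg.IsComponent L ∧ Subgroup.center ↥L = ⊥ :=
      fun L hL => hs L (Finset.mem_insert_of_mem hL)
    obtain ⟨haC, haZ⟩ := hs a (Finset.mem_insert_self a s)
    have hcomm : ⁅a, ⨆ L ∈ s, L⁆ = ⊥ := by
      rw [Subgroup.commutator_comm, Subgroup.commutator_eq_bot_iff_le_centralizer]
      apply iSup₂_le
      intro L hL
      rw [← Subgroup.commutator_eq_bot_iff_le_centralizer]
      exact Helper7.components_commute (hsa L hL).1 haC (fun h => ha (h ▸ hL))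
    obtain ⟨x, hx, y, hy, rfl⟩ := Helper7.mem_sup_of_commutator_eq_bot hcomm hz
    have hyc : ∀ k ∈ a, k * y = y * k := fun k hk =>
      ((Subgroup.mem_centralizer_iff.1
        (Subgroup.commutator_eq_bot_iff_le_centralizer.1 hcomm hk)) y hy).symm
    have hx1 : x = 1 := by
      have hxc : (⟨x, hx⟩ : ↥a) ∈ Subgroup.center ↥a := by
        rw [Subgroup.mem_center_iff]
        intro k
        apply Subtype.ext
        show (k : G) * x = x * k
        have h1 := hc a (Finset.mem_insert_self a s) k k.2
        have h2 := hyc k k.2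
        have h3 : (k : G) * x * y = x * k * y := by
          rw [mul_assoc, h1, mul_assoc, ← h2, ← mul_assoc]
        exact mul_right_cancel h3
      rw [haZ, Subgroup.mem_bot] at hxc
      exact congrArg Subtype.val hxc
    rw [hx1, one_mul]
    refine ih hsa y hy (fun L hL k hk => ?_)
    have h4 := hc L (Finset.mem_insert_of_mem hL) k hk
    rwa [hx1, one_mul] at h4


/-- Let G be a finite group. (a) If K is a component of G with trivial centre, then the normal closure of K in G is a minimal normal subgroup of G. (b) If the Fitting subgroup of G is trivial, then the layer E(G) is generated by the minimal normal subgroups of G. -/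
theorem result {G : Type*} [Group G] [Finite G] : (∀ K : Subgroup G, Cfsg.IsComponent K → Subgroup.center ↥K = ⊥ → (Subgroup.normalClosure (K : Set G) ≠ ⊥ ∧ ∀ N : Subgroup G, N.Normal → N ≤ Subgroup.normalClosure (K : Set G) → N = ⊥ ∨ N = Subgroup.normalClosure (K : Set G))) ∧ (Cfsg.fittingSubgroup G = ⊥ → sSup {N : Subgroup G | N ≠ ⊥ ∧ N.Normal ∧ ∀ N' : Subgroup G, N'.Normal → N' ≤ N → N' = ⊥ ∨ N' = N} = Cfsg.layer G) := by
  have partA : ∀ K : Subgroup G, Cfsg.IsComponent K → Subgroup.center ↥K = ⊥ →
      (Subgroup.normalClosure (K : Set G) ≠ ⊥ ∧ ∀ N : Subgroup G, N.Normal →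
        N ≤ Subgroup.normalClosure (K : Set G) →
        N = ⊥ ∨ N = Subgroup.normalClosure (K : Set G)) := by
    intro K hK hZ
    have hKM : K ≤ Subgroup.normalClosure (K : Set G) := Subgroup.le_normalClosure
    have hMn : (Subgroup.normalClosure (K : Set G)).Normal := Subgroup.normalClosure_normal
    refine ⟨fun h => Helper7.IsComponent.ne_bot hK (le_bot_iff.1 (h ▸ hKM)), ?_⟩
    intro N hN hNM
    by_cases hKN : K ≤ N
    · right
      haveI := hN
      exact le_antisymm hNM (Subgroup.normalClosure_le_normal (SetLike.coe_subset_coe.2 hKN))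
    · left
      have hcomm : ⁅K, N⁆ = ⊥ := (Helper7.comp_subnormal hK hN.isSubnormal).resolve_left hKN
      haveI hCn : (Subgroup.centralizer (N : Set G)).Normal := by
        constructor
        intro c hc g
        rw [Subgroup.mem_centralizer_iff] at hc ⊢
        intro n hn
        have h1 := hc (g⁻¹ * n * g) (by have h0 := hN.conj_mem n hn g⁻¹; simpa using h0)
        calc n * (g * c * g⁻¹) = g * (g⁻¹ * n * g * c) * g⁻¹ := by group
          _ = g * (c * (g⁻¹ * n * g)) * g⁻¹ := by rw [h1]
          _ = g * c * g⁻¹ * n := by group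
      have hMC : Subgroup.normalClosure (K : Set G) ≤ Subgroup.centralizer (N : Set G) :=
        Subgroup.normalClosure_le_normal (SetLike.coe_subset_coe.2
          (Subgroup.commutator_eq_bot_iff_le_centralizer.1 hcomm))
      classical
      haveI := Fintype.ofFinite G
      obtain ⟨s, hs⟩ : ∃ s : Finset (Subgroup G),
          s = Finset.univ.image (fun g : G => K.map (MulAut.conj g).toMonoidHom) := ⟨_, rfl⟩
      have hMs : Subgroup.normalClosure (K : Set G) ≤ ⨆ L ∈ s, L := by
        show Subgroup.closure (Group.conjugatesOfSet (K : Set G)) ≤ _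
        rw [Subgroup.closure_le]
        intro x hx
        rw [Group.mem_conjugatesOfSet_iff] at hx
        obtain ⟨k, hk, hkx⟩ := hx
        rw [isConj_iff] at hkx
        obtain ⟨c, rfl⟩ := hkx
        have hmem : K.map (MulAut.conj c).toMonoidHom ∈ s := by
          rw [hs]; exact Finset.mem_image_of_mem _ (Finset.mem_univ c)
        exact (le_iSup₂ (f := fun (L : Subgroup G) (_ : L ∈ s) => L) _ hmem) ⟨k, hk, rfl⟩
      have hsC : ∀ L ∈ s, Cfsg.IsComponent L ∧ Subgroup.center ↥L = ⊥ := by
        intro L hL
        rw [hs] at hL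
        obtain ⟨g, -, rfl⟩ := Finset.mem_image.1 hL
        refine ⟨Helper7.conj_isComponent hK g, ?_⟩
        rw [← Helper7.map_center_mulEquiv (K.equivMapOfInjective (MulAut.conj g).toMonoidHom
          (MulAut.conj g).injective), hZ, Subgroup.map_bot]
      rw [eq_bot_iff]
      intro z hz
      rw [Subgroup.mem_bot]
      refine eq_one_of_mem_iSup_of_commute s hsC z (hMs (hNM hz)) ?_
      intro L hL x hx
      rw [hs] at hL
      obtain ⟨g, -, rfl⟩ := Finset.mem_image.1 hL
      obtain ⟨k, hk, rfl⟩ := hx
      have hxM : (MulAut.conj g).toMonoidHom k ∈ Subgroup.normalClosure (K : Set G) :=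
        hMn.conj_mem k (hKM hk) g
      exact ((Subgroup.mem_centralizer_iff.1 (hMC hxM)) z hz).symm
  refine ⟨partA, ?_⟩
  intro hF
  haveI hEn : (Cfsg.layer G).Normal := Helper7.layer_normal
  apply le_antisymm
  · apply sSup_le
    rintro N ⟨hN1, hNn, hNmin⟩
    haveI := hNn
    have hinf : (N ⊓ Cfsg.layer G).Normal := inferInstance
    rcases hNmin (N ⊓ Cfsg.layer G) hinf inf_le_left with h | h
    · exfalso
      have hcomm : ⁅N, Cfsg.layer G⁆ = ⊥ := by
        rw [eq_bot_iff, ← h]
        exact le_inf (Subgroup.commutator_le_left N _) (Subgroup.commutator_le_right N _)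
      have hGF : Cfsg.generalizedFittingSubgroup G = Cfsg.layer G := by
        show Cfsg.layer G ⊔ Cfsg.fittingSubgroup G = Cfsg.layer G
        rw [hF, sup_bot_eq]
      have hNC : N ≤ Subgroup.centralizer (Cfsg.generalizedFittingSubgroup G : Set G) := by
        rw [hGF]; exact Subgroup.commutator_eq_bot_iff_le_centralizer.1 hcomm
      have hNE : N ≤ Cfsg.layer G := by
        have h5 := hNC.trans Helper7.bender
        rwa [hGF] at h5
      apply hN1
      rw [eq_bot_iff, ← h]
      exact le_inf le_rfl hNE
    · exact inf_eq_left.1 h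
  · show sSup {K : Subgroup G | Cfsg.IsComponent K} ≤ _
    apply sSup_le
    intro K hK
    have hZ : Subgroup.center ↥K = ⊥ := by
      have hsn : ((Subgroup.center ↥K).map K.subtype).IsSubnormal :=
        (Subgroup.Normal.isSubnormal inferInstance).trans' hK.1
      have hnil : Group.IsNilpotent ↥((Subgroup.center ↥K).map K.subtype) := by
        apply Helper7.isNilpotent_of_comm
        rintro ⟨a, ⟨za, hza, rfl⟩⟩ ⟨b, ⟨zb, hzb, rfl⟩⟩
        apply Subtype.ext
        show (za : G) * zb = zb * za
        exact congrArg Subtype.val (Subgroup.mem_center_iff.1 hzb za)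
      have hle := Helper7.subnormal_nilpotent_le_fitting hsn hnil
      rw [hF] at hle
      rw [eq_bot_iff]
      intro z hz
      have h6 : (z : G) ∈ (⊥ : Subgroup G) := hle ⟨z, hz, rfl⟩
      rw [Subgroup.mem_bot] at h6 ⊢
      exact Subtype.ext h6
    obtain ⟨hne, hmin⟩ := partA K hK hZ
    exact (Subgroup.le_normalClosure).trans (le_sSup ⟨hne, Subgroup.normalClosure_normal, hmin⟩)

end Cfsg.Agent.S3747
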