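-- S3748: proof by helper7
import Cfsg.Statements.S3748
import Mathlib
import Cfsg.Agent.Helper7.CharP

set_option autoImplicit false
open Cfsg

namespace Cfsg.Agent.S3748

/-- Call a proper subgroup M of G primitive when M = N_G(N) for every non-trivial normal subgroup N of M. If M is a primitive subgroup of the finite group G, then no non-trivial subnormal subgroup of G is contained in M; in particular M ∩ F(G) = 1. -/
theorem result {G : Type*} [Group G] [Finite G] (M : Subgroup G) (hM : M ≠ ⊤) (hprim : ∀ N : Subgroup G, N ≤ M → M ≤ Subgroup.normalizer (N : Set G) → N ≠ ⊥ → Subgroup.normalizer (N : Set G) = M) : (∀ L : Subgroup G, L.IsSubnormal → L ≤ M → L = ⊥) ∧ M ⊓ Cfsg.fittingSubgroup G = ⊥ := by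
  have hFn : (Cfsg.fittingSubgroup G).Normal := Cfsg.Agent.Helper7.fittingSubgroup_normal
  have hF : M ⊓ Cfsg.fittingSubgroup G = ⊥ := by
    by_contra hne
    have hIM : M ⊓ Cfsg.fittingSubgroup G ≤ M := inf_le_left
    have hMn : M ≤ Subgroup.normalizer ((M ⊓ Cfsg.fittingSubgroup G : Subgroup G) : Set G) :=
      Cfsg.Agent.Helper7.le_normalizer_inf Subgroup.le_normalizer
        (le_of_le_of_eq le_top (Subgroup.normalizer_eq_top (H := Cfsg.fittingSubgroup G)).symm)
    have h1 := hprim _ hIM hMn hne
    have hnil : Group.IsNilpotent (Cfsg.fittingSubgroup G) := Cfsg.Agent.Helper1.fitting_isNilpotent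
    by_cases hlt : M ⊓ Cfsg.fittingSubgroup G = Cfsg.fittingSubgroup G
    · have hFM : Cfsg.fittingSubgroup G ≤ M := by rw [← hlt]; exact inf_le_left
      have hFne : Cfsg.fittingSubgroup G ≠ ⊥ := by rw [← hlt]; exact hne
      have h2 := hprim _ hFM
        (le_of_le_of_eq le_top (Subgroup.normalizer_eq_top (H := Cfsg.fittingSubgroup G)).symm) hFne
      rw [Subgroup.normalizer_eq_top] at h2
      exact hM h2.symm
    · have hlt' : M ⊓ Cfsg.fittingSubgroup G < Cfsg.fittingSubgroup G :=
        lt_of_le_of_ne inf_le_right hlt
      have h2 := Cfsg.Agent.Helper7.lt_inf_normalizer_of_nilpotent hnil hlt'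
      rw [h1, inf_comm] at h2
      exact lt_irrefl _ h2
  refine ⟨?_, hF⟩
  have key : ∀ (n : ℕ) (L : Subgroup G), Nat.card L = n → L.IsSubnormal → L ≤ M → L = ⊥ := by
    intro n
    induction n using Nat.strong_induction_on with
    | _ n ih =>
      intro L hn hL hLM
      by_contra hne
      by_cases hnil : Group.IsNilpotent L
      · have h1 : L ≤ M ⊓ Cfsg.fittingSubgroup G :=
          le_inf hLM (Cfsg.Agent.Helper7.subnormal_nilpotent_le_fitting hL hnil)
        rw [hF] at h1
        exact hne (le_bot_iff.mp h1)
      · have hq : Cfsg.IsQuasisimple L := by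
          apply Cfsg.Agent.Helper7.isQuasisimple_of_proper_normal_central _ hnil
          intro N hN hNtop
          have hsub : (N.map L.subtype).IsSubnormal := hN.isSubnormal.trans' hL
          have hle : N.map L.subtype ≤ L := by
            rintro _ ⟨y, -, rfl⟩; exact y.2
          have hcard : Nat.card (N.map L.subtype) < n := by
            rw [← hn, Subgroup.card_map_of_injective L.subtype_injective]
            exact lt_of_le_of_ne (Subgroup.card_le_card_group N)
              (fun h => hNtop (Subgroup.eq_top_of_card_eq N h))
          have h3 := ih _ hcard (N.map L.subtype) rfl hsub (hle.trans hLM)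
          intro x hx
          have hx1 : (x : G) ∈ N.map L.subtype := ⟨x, hx, rfl⟩
          rw [h3, Subgroup.mem_bot] at hx1
          have hx2 : x = 1 := Subtype.ext hx1
          rw [hx2]; exact Subgroup.one_mem _
        have hLc : Cfsg.IsComponent L := ⟨hL, hq⟩
        have hXM : sSup {K : Subgroup G | Cfsg.IsComponent K ∧ K ≤ M} ≤ M :=
          sSup_le (fun K hK => hK.2)
        have hLX : L ≤ sSup {K : Subgroup G | Cfsg.IsComponent K ∧ K ≤ M} := le_sSup ⟨hLc, hLM⟩
        have hXne : sSup {K : Subgroup G | Cfsg.IsComponent K ∧ K ≤ M} ≠ ⊥ := by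
          intro h0; rw [h0] at hLX; exact hne (le_bot_iff.mp hLX)
        have hMX : M ≤ Subgroup.normalizer
            ((sSup {K : Subgroup G | Cfsg.IsComponent K ∧ K ≤ M} : Subgroup G) : Set G) := by
          apply Cfsg.Agent.Helper7.le_normalizer_of_conj_mem
          intro m hm
          have h1 : sSup {K : Subgroup G | Cfsg.IsComponent K ∧ K ≤ M} ≤
              (sSup {K : Subgroup G | Cfsg.IsComponent K ∧ K ≤ M}).comap
                (MulAut.conj m).toMonoidHom := by
            apply sSup_le
            rintro K ⟨hK, hKM⟩
            rw [← Subgroup.map_le_iff_le_comap]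
            apply le_sSup
            refine ⟨Cfsg.Agent.Helper7.conj_isComponent hK m, ?_⟩
            rintro _ ⟨k, hk, rfl⟩
            exact M.mul_mem (M.mul_mem hm (hKM hk)) (M.inv_mem hm)
          intro x hx
          exact h1 hx
        have hNX := hprim _ hXM hMX hXne
        have hEM : Cfsg.layer G ≤ M := by
          rw [← hNX]
          apply sSup_le
          intro K' hK'
          by_cases hK'M : K' ≤ M
          · exact (le_sSup (show K' ∈ {K : Subgroup G | Cfsg.IsComponent K ∧ K ≤ M} from
              ⟨hK', hK'M⟩)).trans Subgroup.le_normalizer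
          · have h1 : sSup {K : Subgroup G | Cfsg.IsComponent K ∧ K ≤ M} ≤
                Subgroup.centralizer (K' : Set G) := by
              apply sSup_le
              rintro K ⟨hK, hKM⟩
              have hne' : K ≠ K' := by
                rintro rfl; exact hK'M hKM
              exact Subgroup.commutator_eq_bot_iff_le_centralizer.mp
                (Cfsg.Agent.Helper7.components_commute hK hK' hne')
            have h2 : ⁅K', sSup {K : Subgroup G | Cfsg.IsComponent K ∧ K ≤ M}⁆ = ⊥ := by
              rw [Subgroup.commutator_comm]
              exact Subgroup.commutator_eq_bot_iff_le_centralizer.mpr h1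
            exact (Subgroup.commutator_eq_bot_iff_le_centralizer.mp h2).trans
              (Subgroup.centralizer_le_normalizer _)
        have hEn : (Cfsg.layer G).Normal := Cfsg.Agent.Helper7.layer_normal
        have hEne : Cfsg.layer G ≠ ⊥ := by
          intro h0
          have h6 := Cfsg.Agent.Helper7.le_layer hLc
          rw [h0] at h6
          exact hne (le_bot_iff.mp h6)
        have h5 := hprim _ hEM
          (le_of_le_of_eq le_top (Subgroup.normalizer_eq_top (H := Cfsg.layer G)).symm) hEne
        rw [Subgroup.normalizer_eq_top] at h5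
        exact hM h5.symm
  intro L hL hLM
  exact key _ L rfl hL hLM

end Cfsg.Agent.S3748
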