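import Mathlib
import Cfsg.Statements.S3749
import Cfsg.Agent.Helper19.Basic
import Cfsg.Agent.Helper19.SylowQuot
import Cfsg.Agent.Helper1.Fitting
import Cfsg.Agent.Helper9.StrEmb
import Cfsg.Agent.Lead.Coprime

set_option autoImplicit false
open Cfsg

namespace Cfsg.Agent.S3749

variable {G : Type*} [Group G]

theorem mem_normalizer_map_conj (K : Subgroup G) (g x : G) :
    x ∈ Subgroup.normalizer ((K.map (MulAut.conj g).toMonoidHom : Subgroup G) : Set G) ↔
      g⁻¹ * x * g ∈ Subgroup.normalizer (K : Set G) := by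
  rw [Subgroup.mem_normalizer_iff, Subgroup.mem_normalizer_iff]
  constructor
  · intro h k
    have h1 := h (g * k * g⁻¹)
    rw [Cfsg.Agent.Helper19.mem_map_conj, Cfsg.Agent.Helper19.mem_map_conj] at h1
    have e1 : g⁻¹ * (g * k * g⁻¹) * g = k := by group
    have e2 : g⁻¹ * (x * (g * k * g⁻¹) * x⁻¹) * g = g⁻¹ * x * g * k * (g⁻¹ * x * g)⁻¹ := by
      group
    rw [e1, e2] at h1
    exact h1
  · intro h k
    have h1 := h (g⁻¹ * k * g)
    rw [Cfsg.Agent.Helper19.mem_map_conj, Cfsg.Agent.Helper19.mem_map_conj]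
    have e2 : g⁻¹ * x * g * (g⁻¹ * k * g) * (g⁻¹ * x * g)⁻¹ = g⁻¹ * (x * k * x⁻¹) * g := by
      group
    rw [e2] at h1
    exact h1

/-- Sylow conjugacy inside a normal subgroup, at the level of subgroups of `G`. -/
theorem sylow_conj [Finite G] (N : Subgroup G) (q : ℕ) [Fact q.Prime] (S₁ S₂ : Subgroup G)
    (h₁N : S₁ ≤ N) (h₂N : S₂ ≤ N) (h₁ : Nat.card S₁ = q ^ (Nat.card N).factorization q)
    (h₂ : Nat.card S₂ = q ^ (Nat.card N).factorization q) :
    ∃ n ∈ N, S₂ = S₁.map (MulAut.conj n).toMonoidHom := by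
  have c₁ : Nat.card (S₁.subgroupOf N) = q ^ (Nat.card N).factorization q := by
    rw [Nat.card_congr (Subgroup.subgroupOfEquivOfLe h₁N).toEquiv, h₁]
  have c₂ : Nat.card (S₂.subgroupOf N) = q ^ (Nat.card N).factorization q := by
    rw [Nat.card_congr (Subgroup.subgroupOfEquivOfLe h₂N).toEquiv, h₂]
  obtain ⟨Q₁, hQ₁⟩ : ∃ Q₁ : Sylow q ↥N, (Q₁ : Subgroup ↥N) = S₁.subgroupOf N :=
    ⟨Sylow.ofCard _ c₁, Sylow.coe_ofCard _ _⟩
  obtain ⟨Q₂, hQ₂⟩ : ∃ Q₂ : Sylow q ↥N, (Q₂ : Subgroup ↥N) = S₂.subgroupOf N :=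
    ⟨Sylow.ofCard _ c₂, Sylow.coe_ofCard _ _⟩
  obtain ⟨n, hn⟩ := MulAction.exists_smul_eq ↥N Q₁ Q₂
  refine ⟨(n : G), n.2, ?_⟩
  apply Subgroup.eq_of_le_of_card_ge
  · intro y hy
    have hyQ : (⟨y, h₂N hy⟩ : ↥N) ∈ (Q₂ : Subgroup ↥N) := by rw [hQ₂]; exact hy
    rw [← hn, Sylow.coe_subgroup_smul, Subgroup.mem_pointwise_smul_iff_inv_smul_mem] at hyQ
    have h' : n⁻¹ * (⟨y, h₂N hy⟩ : ↥N) * n ∈ (Q₁ : Subgroup ↥N) := by
      simpa [MulAut.smul_def] using hyQ
    rw [hQ₁] at h'
    have h'' : (n : G)⁻¹ * y * (n : G) ∈ S₁ := by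
      simpa using Subgroup.mem_subgroupOf.1 h'
    exact (Cfsg.Agent.Helper19.mem_map_conj S₁ (n : G) y).2 h''
  · rw [Cfsg.Agent.Helper19.card_map_conj, h₁, h₂]

/-- Call a proper subgroup M of G primitive when M = N_G(N) for every non-trivial normal subgroup N of M. Let M be a primitive subgroup of the finite group G, p a prime with O_p(M) ≠ 1, and N a normal subgroup of G with M ∩ N = 1. Then p does not divide the order of N; for every prime q there is exactly one Sylow q-subgroup of N normalized by M; and if the order of N has at least two prime divisors then M is not a maximal subgroup of G. -/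
theorem result {G : Type*} [Group G] [Finite G] (M : Subgroup G) (hM : M ≠ ⊤) (hprim : ∀ N : Subgroup G, N ≤ M → M ≤ Subgroup.normalizer (N : Set G) → N ≠ ⊥ → Subgroup.normalizer (N : Set G) = M) {p : ℕ} [Fact p.Prime] (hOp : Cfsg.pCore p ↥M ≠ ⊥) (N : Subgroup G) [N.Normal] (hMN : M ⊓ N = ⊥) : ¬ p ∣ Nat.card N ∧ (∀ q : ℕ, [Fact q.Prime] → ∃! Q : Sylow q ↥N, M ≤ Subgroup.normalizer ((Q : Subgroup ↥N).map N.subtype : Set G)) ∧ ((∃ q r : ℕ, q.Prime ∧ r.Prime ∧ q ≠ r ∧ q ∣ Nat.card N ∧ r ∣ Nat.card N) → ¬ IsCoatom M) := by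
  classical
  have hp : p.Prime := Fact.out
  have hNn : N.Normal := inferInstance
  obtain ⟨P, hPdef⟩ : ∃ P : Subgroup G, P = (Cfsg.pCore p ↥M).map M.subtype := ⟨_, rfl⟩
  have hPM : P ≤ M := by rw [hPdef]; exact Subgroup.map_subtype_le _
  have hPp : IsPGroup p P := by
    rw [hPdef]; exact (Cfsg.Agent.Helper1.pCore_isPGroup p ↥M).map M.subtype
  have hPne : P ≠ ⊥ := by
    rw [hPdef]; intro h
    apply hOp
    rw [Subgroup.map_eq_bot_iff_of_injective _ M.subtype_injective] at h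
    exact h
  have hMP : M ≤ Subgroup.normalizer (P : Set G) := by
    have h3 := Subgroup.le_normalizer_map (H := Cfsg.pCore p ↥M) M.subtype
    rw [Subgroup.normalizer_eq_top_iff.mpr (Cfsg.Agent.Helper1.pCore_normal p ↥M),
      ← MonoidHom.range_eq_map, Subgroup.range_subtype] at h3
    rw [hPdef]; exact h3
  have hNP : Subgroup.normalizer (P : Set G) = M := hprim P hPM hMP hPne
  have hnorm1 : ∀ n ∈ N, n ∈ Subgroup.normalizer (P : Set G) → n = 1 := by
    intro n hn h
    rw [hNP] at h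
    have h3 : n ∈ M ⊓ N := ⟨h, hn⟩
    rw [hMN] at h3
    exact Subgroup.mem_bot.1 h3
  have hfix : ∀ n ∈ N, (∀ x ∈ P, x * n = n * x) → n = 1 := by
    intro n hn hc
    have h1 : n ∈ Subgroup.centralizer (P : Set G) :=
      Subgroup.mem_centralizer_iff.2 (fun x hx => hc x hx)
    exact hnorm1 n hn (Subgroup.centralizer_le_normalizer _ h1)
  -- (1)
  have hpN : ¬ p ∣ Nat.card N := by
    letI : MulAction ↥P ↥N :=
      MulAction.compHom ↥N ((MulAut.conjNormal (H := N)).comp P.subtype)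
    have hsmul : ∀ (x : ↥P) (n : ↥N), ((x • n : ↥N) : G) = (x : G) * n * (x : G)⁻¹ :=
      fun x n => rfl
    have h1 := hPp.card_modEq_card_fixedPoints (α := ↥N)
    have h2 : Nat.card (MulAction.fixedPoints ↥P ↥N) = 1 := by
      rw [Nat.card_eq_one_iff_unique]
      have hone : ∀ a : ↥N, a ∈ MulAction.fixedPoints ↥P ↥N → a = 1 := by
        intro a ha
        have ha' := MulAction.mem_fixedPoints.1 ha
        apply Subtype.ext
        apply hfix (a : G) a.2
        intro x hx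
        have h3 := congrArg Subtype.val (ha' ⟨x, hx⟩)
        rw [hsmul] at h3
        exact mul_inv_eq_iff_eq_mul.1 h3
      constructor
      · constructor
        rintro ⟨a, ha⟩ ⟨b, hb⟩
        apply Subtype.ext
        show a = b
        rw [hone a ha, hone b hb]
      · refine ⟨⟨1, ?_⟩⟩
        rw [MulAction.mem_fixedPoints]
        intro x
        apply Subtype.ext
        rw [hsmul]
        simp
    rw [h2] at h1
    intro hdvd
    have h3 : Nat.card N ≡ 0 [MOD p] := (Nat.modEq_zero_iff_dvd).2 hdvd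
    have h4 : 1 ≡ 0 [MOD p] := h1.symm.trans h3
    have h5 : p ∣ 1 := (Nat.modEq_zero_iff_dvd).1 h4
    exact hp.one_lt.ne' (Nat.dvd_one.1 h5)
  haveI hPsolv : Group.IsSolvable ↥P := by
    haveI := hPp.isNilpotent
    infer_instance
  -- uniqueness of the `P`-invariant Sylow subgroup
  have hU : ∀ q : ℕ, q.Prime → ∀ S₁ S₂ : Subgroup G, S₁ ≤ N → S₂ ≤ N →
      Nat.card S₁ = q ^ (Nat.card N).factorization q →
      Nat.card S₂ = q ^ (Nat.card N).factorization q →
      P ≤ Subgroup.normalizer (S₁ : Set G) → P ≤ Subgroup.normalizer (S₂ : Set G) →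
      S₁ = S₂ := by
    intro q hq S₁ S₂ h₁N h₂N h₁ h₂ hP1 hP2
    haveI : Fact q.Prime := ⟨hq⟩
    obtain ⟨n, hnN, hS₂⟩ := sylow_conj N q S₁ S₂ h₁N h₂N h₁ h₂
    -- `n⁻¹ P n` normalizes `S₁`
    have hP' : ∀ x ∈ P, n⁻¹ * x * n ∈ Subgroup.normalizer (S₁ : Set G) := by
      intro x hx
      have h := hP2 hx
      rw [hS₂] at h
      exact (mem_normalizer_map_conj S₁ n x).1 h
    obtain ⟨R, hR⟩ : ∃ R : Subgroup G, R = N ⊓ Subgroup.normalizer (S₁ : Set G) := ⟨_, rfl⟩
    have hRmem : ∀ g, g ∈ R ↔ g ∈ N ∧ g ∈ Subgroup.normalizer (S₁ : Set G) := by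
      intro g; rw [hR]; exact Subgroup.mem_inf
    have hPR : P ≤ Subgroup.normalizer (R : Set G) := by
      intro x hx
      apply Cfsg.Agent.Helper9.mem_normalizer_of_conj_le
      intro r hr
      rw [hRmem] at hr ⊢
      exact ⟨hNn.conj_mem r hr.1 x,
        Subgroup.mul_mem _ (Subgroup.mul_mem _ (hP1 hx) hr.2) (Subgroup.inv_mem _ (hP1 hx))⟩
    have hcop : (Nat.card P).Coprime (Nat.card R) := by
      obtain ⟨k, hk⟩ := IsPGroup.iff_card.1 hPp
      rw [hk]
      apply Nat.Coprime.pow_left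
      rw [Nat.Prime.coprime_iff_not_dvd hp]
      intro h
      apply hpN
      refine h.trans (Subgroup.card_dvd_of_le ?_)
      rw [hR]; exact inf_le_left
    have hcop' : (Nat.card (P.map (MulAut.conj n⁻¹).toMonoidHom)).Coprime (Nat.card R) := by
      rw [Cfsg.Agent.Helper19.card_map_conj]; exact hcop
    have hB : P.map (MulAut.conj n⁻¹).toMonoidHom ⊔ R = P ⊔ R := by
      apply le_antisymm
      · apply sup_le _ le_sup_right
        intro y hy
        rw [Cfsg.Agent.Helper19.mem_map_conj, inv_inv] at hy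
        -- hy : n * y * n⁻¹ ∈ P
        have hyn : y ∈ Subgroup.normalizer (S₁ : Set G) := by
          have h := hP' _ hy
          have e : n⁻¹ * (n * y * n⁻¹) * n = y := by group
          rw [e] at h; exact h
        have hr : (n * y * n⁻¹)⁻¹ * y ∈ R := by
          rw [hRmem]
          refine ⟨?_, Subgroup.mul_mem _ (Subgroup.inv_mem _ (hP1 hy)) hyn⟩
          have e : (n * y * n⁻¹)⁻¹ * y = n * (y⁻¹ * n⁻¹ * y⁻¹⁻¹) := by group
          rw [e]
          exact N.mul_mem hnN (hNn.conj_mem _ (N.inv_mem hnN) _)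
        have e : y = (n * y * n⁻¹) * ((n * y * n⁻¹)⁻¹ * y) := by group
        rw [e]
        exact Subgroup.mul_mem _ (Subgroup.mem_sup_left hy) (Subgroup.mem_sup_right hr)
      · apply sup_le _ le_sup_right
        intro x hx
        have hy : n⁻¹ * x * n ∈ P.map (MulAut.conj n⁻¹).toMonoidHom := by
          rw [Cfsg.Agent.Helper19.mem_map_conj, inv_inv]
          have e : n * (n⁻¹ * x * n) * n⁻¹ = x := by group
          rw [e]; exact hx
        have hr : (n⁻¹ * x * n)⁻¹ * x ∈ R := by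
          rw [hRmem]
          refine ⟨?_, Subgroup.mul_mem _ (Subgroup.inv_mem _ (hP' x hx)) (hP1 hx)⟩
          have e : (n⁻¹ * x * n)⁻¹ * x = n⁻¹ * (x⁻¹ * n * x⁻¹⁻¹) := by group
          rw [e]
          exact N.mul_mem (N.inv_mem hnN) (hNn.conj_mem _ hnN _)
        have e : x = (n⁻¹ * x * n) * ((n⁻¹ * x * n)⁻¹ * x) := by group
        rw [e]
        exact Subgroup.mul_mem _ (Subgroup.mem_sup_left hy) (Subgroup.mem_sup_right hr)
    obtain ⟨r, hrR, hconj⟩ := Cfsg.Agent.Lead.conj_complement P R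
      (P.map (MulAut.conj n⁻¹).toMonoidHom) hPR hcop (Or.inl hPsolv) hB hcop'
    have hnr : n * r ∈ Subgroup.normalizer (P : Set G) := by
      rw [Subgroup.mem_normalizer_iff]
      intro w
      have h1 := hconj (r * w * r⁻¹)
      have h2 := Cfsg.Agent.Helper19.mem_map_conj P n⁻¹ (r * w * r⁻¹)
      have e1 : r⁻¹ * (r * w * r⁻¹) * r = w := by group
      have e2 : n⁻¹⁻¹ * (r * w * r⁻¹) * n⁻¹ = n * r * w * (n * r)⁻¹ := by group
      rw [e1] at h1
      rw [e2] at h2
      exact h1.symm.trans h2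
    have hnr1 : n * r = 1 := hnorm1 _ (N.mul_mem hnN ((hRmem r).1 hrR).1) hnr
    have hn_eq : n = r⁻¹ := eq_inv_of_mul_eq_one_left hnr1
    have hnS : n ∈ Subgroup.normalizer (S₁ : Set G) := by
      rw [hn_eq]; exact Subgroup.inv_mem _ ((hRmem r).1 hrR).2
    rw [hS₂, Cfsg.Agent.Helper19.map_conj_of_mem_normalizer S₁ hnS]
  -- existence of a `P`-invariant Sylow subgroup
  have hE : ∀ q : ℕ, q.Prime → ∃ S : Subgroup G, S ≤ N ∧
      Nat.card S = q ^ (Nat.card N).factorization q ∧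
      P ≤ Subgroup.normalizer (S : Set G) := by
    intro q hq
    haveI : Fact q.Prime := ⟨hq⟩
    obtain ⟨Q⟩ : Nonempty (Sylow q ↥N) := inferInstance
    obtain ⟨S₀, hS₀⟩ : ∃ S₀ : Subgroup G, S₀ = (Q : Subgroup ↥N).map N.subtype := ⟨_, rfl⟩
    have hS₀N : S₀ ≤ N := by rw [hS₀]; exact Subgroup.map_subtype_le _
    have hS₀c : Nat.card S₀ = q ^ (Nat.card N).factorization q := by
      rw [hS₀, Subgroup.card_map_of_injective N.subtype_injective]
      exact Q.card_eq_multiplicity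
    have hfr : Subgroup.normalizer (S₀ : Set G) ⊔ N = ⊤ := by
      rw [hS₀]; exact Sylow.normalizer_sup_eq_top Q
    have hidx : ¬ p ∣ (Subgroup.normalizer (S₀ : Set G)).index := by
      have h1 := Cfsg.Agent.Helper19.relIndex_sup_normal (Subgroup.normalizer (S₀ : Set G)) N
      rw [hfr, Subgroup.relIndex_top_right] at h1
      rw [h1]
      intro h
      exact hpN (h.trans (Subgroup.relIndex_dvd_card _ _))
    obtain ⟨R₀, hR₀⟩ := hPp.exists_le_sylow
    obtain ⟨g, hg⟩ := Cfsg.Agent.Helper19.exists_conj_le_of_not_dvd_index R₀ _ hidx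
    refine ⟨S₀.map (MulAut.conj g⁻¹).toMonoidHom, ?_, ?_, ?_⟩
    · intro y hy
      rw [Cfsg.Agent.Helper19.mem_map_conj] at hy
      have h := hNn.conj_mem _ (hS₀N hy) g⁻¹
      have e : g⁻¹ * (g⁻¹⁻¹ * y * g⁻¹) * g⁻¹⁻¹ = y := by group
      rw [e] at h; exact h
    · rw [Cfsg.Agent.Helper19.card_map_conj, hS₀c]
    · intro x hx
      rw [mem_normalizer_map_conj, inv_inv]
      exact hg x (hR₀ hx)
  -- `M`-invariance
  have hMinv : ∀ q : ℕ, q.Prime → ∀ S : Subgroup G, S ≤ N →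
      Nat.card S = q ^ (Nat.card N).factorization q →
      P ≤ Subgroup.normalizer (S : Set G) → M ≤ Subgroup.normalizer (S : Set G) := by
    intro q hq S hSN hSc hPS m hm
    apply Cfsg.Agent.Helper19.mem_normalizer_of_map_conj_eq
    symm
    apply hU q hq S (S.map (MulAut.conj m).toMonoidHom) hSN ?_ hSc ?_ hPS ?_
    · intro y hy
      rw [Cfsg.Agent.Helper19.mem_map_conj] at hy
      have h := hNn.conj_mem _ (hSN hy) m
      have e : m * (m⁻¹ * y * m) * m⁻¹ = y := by group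
      rw [e] at h; exact h
    · rw [Cfsg.Agent.Helper19.card_map_conj, hSc]
    · intro x hx
      rw [mem_normalizer_map_conj]
      apply hPS
      have h := (Subgroup.mem_normalizer_iff.1 (hMP (M.inv_mem hm)) x).1 hx
      rw [inv_inv] at h
      exact h
  refine ⟨hpN, ?_, ?_⟩
  · intro q hqF
    have hq : q.Prime := hqF.out
    obtain ⟨S, hSN, hSc, hPS⟩ := hE q hq
    have hMS := hMinv q hq S hSN hSc hPS
    have c : Nat.card (S.subgroupOf N) = q ^ (Nat.card N).factorization q := by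
      rw [Nat.card_congr (Subgroup.subgroupOfEquivOfLe hSN).toEquiv, hSc]
    obtain ⟨Q, hQ⟩ : ∃ Q : Sylow q ↥N, (Q : Subgroup ↥N) = S.subgroupOf N :=
      ⟨Sylow.ofCard _ c, Sylow.coe_ofCard _ _⟩
    have hQmap : (Q : Subgroup ↥N).map N.subtype = S := by
      rw [hQ]; exact Subgroup.map_subgroupOf_eq_of_le hSN
    refine ⟨Q, ?_, ?_⟩
    · show M ≤ Subgroup.normalizer ((Q : Subgroup ↥N).map N.subtype : Set G)
      rw [hQmap]; exact hMS
    · intro Q' hQ'
      have h1 : (Q' : Subgroup ↥N).map N.subtype = S := by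
        apply hU q hq _ S (Subgroup.map_subtype_le _) hSN ?_ hSc (hPM.trans hQ') hPS
        rw [Subgroup.card_map_of_injective N.subtype_injective]
        exact Q'.card_eq_multiplicity
      apply Sylow.ext
      apply Subgroup.map_injective N.subtype_injective
      rw [h1, hQmap]
  · rintro ⟨q, r, hq, hr, hqr, hqN, hrN⟩ hco
    obtain ⟨S, hSN, hSc, hPS⟩ := hE q hq
    have hMS := hMinv q hq S hSN hSc hPS
    have hSne : S ≠ ⊥ := by
      intro h
      rw [h, Subgroup.card_bot] at hSc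
      have hpos : 0 < (Nat.card N).factorization q :=
        hq.factorization_pos_of_dvd Nat.card_pos.ne' hqN
      have h1 : 1 < q ^ (Nat.card N).factorization q := Nat.one_lt_pow hpos.ne' hq.one_lt
      omega
    have hlt : M < M ⊔ S := by
      refine lt_of_le_of_ne le_sup_left (fun h => hSne ?_)
      have hSM : S ≤ M := by rw [h]; exact le_sup_right
      rw [eq_bot_iff, ← hMN]
      exact le_inf hSM hSN
    have htop : M ⊔ S = ⊤ := hco.2 _ hlt
    haveI hSn : S.Normal := by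
      rw [← Subgroup.normalizer_eq_top_iff, eq_top_iff, ← htop]
      exact sup_le hMS Subgroup.le_normalizer
    have hNS : N ≤ S := by
      intro n hn
      have h1 : n ∈ M ⊔ S := by rw [htop]; exact Subgroup.mem_top n
      obtain ⟨m, hm, s, hs, rfl⟩ := Subgroup.mem_sup_of_normal_right.1 h1
      have hmN : m ∈ N := by
        have h2 := N.mul_mem hn (N.inv_mem (hSN hs))
        rwa [mul_inv_cancel_right] at h2
      have hm1 : m ∈ M ⊓ N := ⟨hm, hmN⟩
      rw [hMN, Subgroup.mem_bot] at hm1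
      rw [hm1, one_mul]; exact hs
    have h1 : Nat.card N ∣ Nat.card S := Subgroup.card_dvd_of_le hNS
    rw [hSc] at h1
    have h2 : r ∣ q := hr.dvd_of_dvd_pow (hrN.trans h1)
    exact hqr ((Nat.prime_dvd_prime_iff_eq hr hq).1 h2).symm

end Cfsg.Agent.S3749
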