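import Mathlib
import Cfsg.Statements.S3750
import Cfsg.Agent.Helper7.Components
import Cfsg.Agent.Helper9.Layer
import Cfsg.Agent.Helper1.Fitting

set_option autoImplicit false
open Cfsg
open scoped commutatorElement

namespace Cfsg.Agent.S3750

/-- A nilpotent group with trivial centre is trivial. -/
theorem eq_one_of_center_eq_bot {H : Type*} [Group H] [Group.IsNilpotent H]
    (h : Subgroup.center H = ⊥) : ∀ x : H, x = 1 := by
  have hucs : ∀ n, Subgroup.upperCentralSeries H n = ⊥ := by
    intro n
    induction n with
    | zero => exact Subgroup.upperCentralSeries_zero H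
    | succ n ih =>
      rw [eq_bot_iff]
      intro x hx
      rw [Subgroup.mem_upperCentralSeries_succ_iff] at hx
      rw [ih] at hx
      have hxc : x ∈ Subgroup.center H := by
        rw [Subgroup.mem_center_iff]
        intro y
        have h1 := hx y
        rw [Subgroup.mem_bot, commutatorElement_eq_one_iff_mul_comm] at h1
        exact h1.symm
      rw [h] at hxc
      exact hxc
  obtain ⟨n, hn⟩ := Group.IsNilpotent.nilpotent H
  intro x
  have hx : x ∈ Subgroup.upperCentralSeries H n := by rw [hn]; trivial
  rw [hucs n] at hx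
  exact hx

/-- Call a proper subgroup M of G primitive when M = N_G(N) for every non-trivial normal subgroup N of M. Let M be a primitive subgroup of the finite group G and N a normal subgroup of G with M ∩ F*(N) ≠ 1. Then F(G) = 1 and F*(N) = F*(G) = E(G); in particular every minimal normal subgroup of G is contained in N. -/
theorem result {G : Type*} [Group G] [Finite G] (M : Subgroup G) (hM : M ≠ ⊤) (hprim : ∀ N : Subgroup G, N ≤ M → M ≤ Subgroup.normalizer (N : Set G) → N ≠ ⊥ → Subgroup.normalizer (N : Set G) = M) (N : Subgroup G) [N.Normal] (hMF : M ⊓ (Cfsg.generalizedFittingSubgroup ↥N).map N.subtype ≠ ⊥) : Cfsg.fittingSubgroup G = ⊥ ∧ (Cfsg.generalizedFittingSubgroup ↥N).map N.subtype = Cfsg.generalizedFittingSubgroup G ∧ Cfsg.generalizedFittingSubgroup G = Cfsg.layer G ∧ ∀ K : Subgroup G, K.Normal → K ≠ ⊥ → (∀ K' : Subgroup G, K'.Normal → K' ≤ K → K' = ⊥ ∨ K' = K) → K ≤ N := by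
  classical
  haveI hFchar := Helper9.generalizedFittingSubgroup_characteristic ↥N
  have hFn : ((Cfsg.generalizedFittingSubgroup ↥N).map N.subtype).Normal := inferInstance
  have hNsub : N.IsSubnormal := Subgroup.Normal.isSubnormal inferInstance
  set F : Subgroup G := (Cfsg.generalizedFittingSubgroup ↥N).map N.subtype with hF
  have hFN : F ≤ N := Subgroup.map_subtype_le _
  have hcore : ∀ X : Subgroup G, X.Normal → X ≤ M → X = ⊥ := by
    intro X hX hXM
    by_contra hne
    have h1 : Subgroup.normalizer (X : Set G) = ⊤ := Subgroup.normalizer_eq_top_iff.mpr hX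
    have h2 := hprim X hXM (by rw [h1]; exact le_top) hne
    exact hM (h2.symm.trans h1)
  have hMFn : M ≤ Subgroup.normalizer ((M ⊓ F : Subgroup G) : Set G) := by
    intro m hm
    rw [Subgroup.mem_normalizer_iff]
    intro x
    constructor
    · intro hx
      have hx' : x ∈ M ⊓ F := hx
      have : m * x * m⁻¹ ∈ M ⊓ F :=
        ⟨M.mul_mem (M.mul_mem hm hx'.1) (M.inv_mem hm), hFn.conj_mem x hx'.2 m⟩
      exact this
    · intro hx
      have hx' : m * x * m⁻¹ ∈ M ⊓ F := hx
      have h1 : x = m⁻¹ * (m * x * m⁻¹) * m := by group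
      have h2 : m⁻¹ * (m * x * m⁻¹) * m ∈ M ⊓ F := by
        refine ⟨M.mul_mem (M.mul_mem (M.inv_mem hm) hx'.1) hm, ?_⟩
        have := hFn.conj_mem _ hx'.2 m⁻¹
        simpa using this
      have h3 : x ∈ M ⊓ F := by rw [h1]; exact h2
      exact h3
  have hnorm : Subgroup.normalizer ((M ⊓ F : Subgroup G) : Set G) = M :=
    hprim (M ⊓ F) inf_le_left hMFn hMF
  have hCF : Subgroup.centralizer (F : Set G) = ⊥ := by
    haveI := hFn
    apply hcore _ inferInstance
    have hsub : ((M ⊓ F : Subgroup G) : Set G) ⊆ (F : Set G) := fun x hx => hx.2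
    calc Subgroup.centralizer (F : Set G)
        ≤ Subgroup.centralizer ((M ⊓ F : Subgroup G) : Set G) := Subgroup.centralizer_le hsub
      _ ≤ Subgroup.normalizer ((M ⊓ F : Subgroup G) : Set G) :=
          Subgroup.centralizer_le_normalizer _
      _ = M := hnorm
  have hCN : Subgroup.centralizer (N : Set G) = ⊥ := by
    rw [eq_bot_iff, ← hCF]
    exact Subgroup.centralizer_le (fun x hx => hFN hx)
  -- the Fitting subgroup of N is trivial
  have hFitN : Cfsg.fittingSubgroup ↥N = ⊥ := by
    haveI : Group.IsNilpotent ↥(Cfsg.fittingSubgroup ↥N) := Helper1.fitting_isNilpotent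
    have hlc : Cfsg.layer ↥N ≤ Subgroup.centralizer (Cfsg.fittingSubgroup ↥N : Set ↥N) :=
      Subgroup.commutator_eq_bot_iff_le_centralizer.mp Helper7.layer_commute_fitting
    have hcen : Subgroup.center ↥(Cfsg.fittingSubgroup ↥N) = ⊥ := by
      rw [eq_bot_iff]
      intro z hz
      rw [Subgroup.mem_bot]
      have hle : Cfsg.generalizedFittingSubgroup ↥N ≤
          Subgroup.centralizer ({(z : ↥N)} : Set ↥N) := by
        unfold Cfsg.generalizedFittingSubgroup
        apply sup_le
        · intro l hl
          rw [Subgroup.mem_centralizer_iff]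
          intro h hh
          rw [Set.mem_singleton_iff] at hh
          subst hh
          exact Subgroup.mem_centralizer_iff.mp (hlc hl) (z : ↥N) z.2
        · intro f hf
          rw [Subgroup.mem_centralizer_iff]
          intro h hh
          rw [Set.mem_singleton_iff] at hh
          subst hh
          have h1 := Subgroup.mem_center_iff.mp hz ⟨f, hf⟩
          have h2 := congrArg Subtype.val h1
          exact h2.symm
      have hzC : (((z : ↥N)) : G) ∈ Subgroup.centralizer (F : Set G) := by
        rw [Subgroup.mem_centralizer_iff]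
        intro x hx
        have hx' : x ∈ (Cfsg.generalizedFittingSubgroup ↥N).map N.subtype := hx
        obtain ⟨y, hy, rfl⟩ := hx'
        have h1 := Subgroup.mem_centralizer_iff.mp (hle hy) (z : ↥N) rfl
        have h2 := congrArg Subtype.val h1
        simpa using h2.symm
      rw [hCF, Subgroup.mem_bot] at hzC
      apply Subtype.ext
      apply Subtype.ext
      simpa using hzC
    rw [eq_bot_iff]
    intro x hx
    have := eq_one_of_center_eq_bot hcen ⟨x, hx⟩
    rw [Subgroup.mem_bot]
    exact congrArg Subtype.val this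
  have hFeq : F = (Cfsg.layer ↥N).map N.subtype := by
    rw [hF]
    unfold Cfsg.generalizedFittingSubgroup
    rw [hFitN, sup_bot_eq]
  have hFle : F ≤ Cfsg.layer G := by
    rw [hFeq, Subgroup.map_le_iff_le_comap]
    apply sSup_le
    intro K hK
    rw [← Subgroup.map_le_iff_le_comap]
    exact Helper7.le_layer ((Helper7.isComponent_map_subtype hNsub K).mp hK)
  have hleF : Cfsg.layer G ≤ F := by
    apply sSup_le
    intro L hL
    rcases Helper7.comp_subnormal hL hNsub with h | h
    · have h1 : L.subgroupOf N ≤ Cfsg.layer ↥N :=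
        Helper7.le_layer (Helper7.isComponent_subgroupOf hL h)
      rw [hFeq, ← Subgroup.map_subgroupOf_eq_of_le h]
      exact Subgroup.map_mono h1
    · exfalso
      have h1 : L ≤ Subgroup.centralizer (N : Set G) :=
        Subgroup.commutator_eq_bot_iff_le_centralizer.mp h
      rw [hCN] at h1
      exact Helper7.IsComponent.ne_bot hL (le_bot_iff.mp h1)
  have hFlayer : F = Cfsg.layer G := le_antisymm hFle hleF
  have hFitG : Cfsg.fittingSubgroup G = ⊥ := by
    have h1 : ⁅Cfsg.fittingSubgroup G, Cfsg.layer G⁆ = ⊥ := by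
      rw [Subgroup.commutator_comm]
      exact Helper7.layer_commute_fitting
    have h2 : Cfsg.fittingSubgroup G ≤ Subgroup.centralizer (Cfsg.layer G : Set G) :=
      Subgroup.commutator_eq_bot_iff_le_centralizer.mp h1
    rw [← hFlayer, hCF] at h2
    exact le_bot_iff.mp h2
  have hgen : Cfsg.generalizedFittingSubgroup G = Cfsg.layer G := by
    unfold Cfsg.generalizedFittingSubgroup
    rw [hFitG, sup_bot_eq]
  refine ⟨hFitG, ?_, hgen, ?_⟩
  · rw [hgen]; exact hFlayer
  · intro K hK hKne hmin
    haveI := hK
    rcases hmin (K ⊓ N) inferInstance inf_le_left with h | h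
    · exfalso
      have h1 : ⁅K, N⁆ = ⊥ := by
        rw [eq_bot_iff, ← h]
        exact Subgroup.commutator_le_inf K N
      have h2 : K ≤ Subgroup.centralizer (N : Set G) :=
        Subgroup.commutator_eq_bot_iff_le_centralizer.mp h1
      rw [hCN] at h2
      exact hKne (le_bot_iff.mp h2)
    · exact inf_eq_left.mp h

end Cfsg.Agent.S3750
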