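import Cfsg.Statements.S3752
import Mathlib
import Cfsg.Agent.Helper25.Prim2

set_option autoImplicit false
open Cfsg

namespace Cfsg.Agent.S3752

/-- Bender's Theorem on primitive pairs. Two distinct subgroups M₁, M₂ of G form a primitive pair when, for {i, j} = {1, 2}, every non-trivial normal subgroup A of M_i contained in M₁ ∩ M₂ satisfies N_{M_j}(A) = M₁ ∩ M₂; the pair has characteristic p when moreover C_{M_i}(O_p(M_i)) ≤ O_p(M_i) for both i and O_p(M₁)O_p(M₂) ≤ M₁ ∩ M₂. If (M₁, M₂) is a primitive pair of the finite group G with F*(M₁) ≤ M₂ and F*(M₂) ≤ M₁, then for some prime p the pair has characteristic p. -/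
theorem result {G : Type*} [Group G] [Finite G] (M₁ M₂ : Subgroup G) (hne : M₁ ≠ M₂) (hP : ∀ A : Subgroup G, A ≠ ⊥ → A ≤ M₁ ⊓ M₂ → (M₁ ≤ Subgroup.normalizer (A : Set G) → M₂ ⊓ Subgroup.normalizer (A : Set G) = M₁ ⊓ M₂) ∧ (M₂ ≤ Subgroup.normalizer (A : Set G) → M₁ ⊓ Subgroup.normalizer (A : Set G) = M₁ ⊓ M₂)) (h₁ : (Cfsg.generalizedFittingSubgroup ↥M₁).map M₁.subtype ≤ M₂) (h₂ : (Cfsg.generalizedFittingSubgroup ↥M₂).map M₂.subtype ≤ M₁) : ∃ p : ℕ, p.Prime ∧ Subgroup.centralizer (Cfsg.pCore p ↥M₁ : Set ↥M₁) ≤ Cfsg.pCore p ↥M₁ ∧ Subgroup.centralizer (Cfsg.pCore p ↥M₂ : Set ↥M₂) ≤ Cfsg.pCore p ↥M₂ ∧ (Cfsg.pCore p ↥M₁).map M₁.subtype ⊔ (Cfsg.pCore p ↥M₂).map M₂.subtype ≤ M₁ ⊓ M₂ := by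
  classical
  obtain ⟨hl₁, hl₂⟩ := Cfsg.Agent.Helper25.Prim.layer_eq_bot M₁ M₂ hne hP h₁ h₂
  have hgf₁ : Cfsg.generalizedFittingSubgroup ↥M₁ = Cfsg.fittingSubgroup ↥M₁ := by
    unfold Cfsg.generalizedFittingSubgroup; rw [hl₁, bot_sup_eq]
  have hgf₂ : Cfsg.generalizedFittingSubgroup ↥M₂ = Cfsg.fittingSubgroup ↥M₂ := by
    unfold Cfsg.generalizedFittingSubgroup; rw [hl₂, bot_sup_eq]
  rw [hgf₁] at h₁
  rw [hgf₂] at h₂
  have h₁' : Cfsg.Agent.Helper25.Prim.FG M₁ ≤ M₂ := h₁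
  have h₂' : Cfsg.Agent.Helper25.Prim.FG M₂ ≤ M₁ := h₂
  have hF₁D : Cfsg.Agent.Helper25.Prim.FG M₁ ≤ M₁ ⊓ M₂ :=
    le_inf (Cfsg.Agent.Helper25.Prim.map_le _ _) h₁'
  have hF₂D : Cfsg.Agent.Helper25.Prim.FG M₂ ≤ M₁ ⊓ M₂ :=
    le_inf h₂' (Cfsg.Agent.Helper25.Prim.map_le _ _)
  have hF₁ne : Cfsg.fittingSubgroup ↥M₁ ≠ ⊥ := by
    intro h0
    have hFG : Cfsg.Agent.Helper25.Prim.FG M₁ = ⊥ := by
      unfold Cfsg.Agent.Helper25.Prim.FG; rw [h0, Subgroup.map_bot]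
    have hM₁ : M₁ = ⊥ := by
      rw [eq_bot_iff]
      intro c hc
      have h5 := Cfsg.Agent.Helper25.Prim.cent_FG M₁ hl₁ hc (by
        intro y hy
        rw [hFG] at hy
        rw [Subgroup.mem_bot.mp hy, mul_one, one_mul])
      rw [hFG] at h5
      exact h5
    have hFG₂ : Cfsg.Agent.Helper25.Prim.FG M₂ = ⊥ := by
      rw [eq_bot_iff]
      rw [hM₁] at h₂'
      exact h₂'
    have hM₂ : M₂ = ⊥ := by
      rw [eq_bot_iff]
      intro c hc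
      have h5 := Cfsg.Agent.Helper25.Prim.cent_FG M₂ hl₂ hc (by
        intro y hy
        rw [hFG₂] at hy
        rw [Subgroup.mem_bot.mp hy, mul_one, one_mul])
      rw [hFG₂] at h5
      exact h5
    exact hne (hM₁.trans hM₂.symm)
  obtain ⟨p, hp, hP₁ne⟩ : ∃ p : ℕ, p.Prime ∧ Cfsg.pCore p ↥M₁ ≠ ⊥ := by
    by_contra hcon
    have hcon' : ∀ q : ℕ, q.Prime → Cfsg.pCore q ↥M₁ = ⊥ := by
      intro q hq
      by_contra h
      exact hcon ⟨q, hq, h⟩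
    apply hF₁ne
    rw [Cfsg.Agent.Helper1.fitting_eq_iSup, eq_bot_iff]
    apply iSup_le
    intro q
    rw [hcon' q (Nat.prime_of_mem_primeFactors q.2)]
  haveI := Fact.mk hp
  refine ⟨p, hp, ?_⟩
  have hP₁ne' : Cfsg.Agent.Helper25.Prim.PG p M₁ ≠ ⊥ := by
    intro h0
    exact hP₁ne ((Subgroup.map_eq_bot_iff_of_injective _ (Subgroup.subtype_injective _)).mp h0)
  have hP₁D : Cfsg.Agent.Helper25.Prim.PG p M₁ ≤ M₁ ⊓ M₂ :=
    (Cfsg.Agent.Helper25.Prim.PG_le_FG p M₁).trans hF₁D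
  have hP₂D : Cfsg.Agent.Helper25.Prim.PG p M₂ ≤ M₁ ⊓ M₂ :=
    (Cfsg.Agent.Helper25.Prim.PG_le_FG p M₂).trans hF₂D
  have nF₁ : ∀ m ∈ M₁, ∀ y ∈ Cfsg.Agent.Helper25.Prim.FG M₁,
      m * y * m⁻¹ ∈ Cfsg.Agent.Helper25.Prim.FG M₁ := fun m hm y hy =>
    Cfsg.Agent.Helper25.Prim.map_conj_mem M₁ (Cfsg.Agent.Helper1.fitting_normal ↥M₁) hm hy
  have nF₂ : ∀ m ∈ M₂, ∀ y ∈ Cfsg.Agent.Helper25.Prim.FG M₂,
      m * y * m⁻¹ ∈ Cfsg.Agent.Helper25.Prim.FG M₂ := fun m hm y hy =>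
    Cfsg.Agent.Helper25.Prim.map_conj_mem M₂ (Cfsg.Agent.Helper1.fitting_normal ↥M₂) hm hy
  have nP₁ : ∀ m ∈ M₁, ∀ y ∈ Cfsg.Agent.Helper25.Prim.PG p M₁,
      m * y * m⁻¹ ∈ Cfsg.Agent.Helper25.Prim.PG p M₁ := fun m hm y hy =>
    Cfsg.Agent.Helper25.Prim.map_conj_mem M₁ (Cfsg.Agent.Helper1.pCore_normal p ↥M₁) hm hy
  have nP₂ : ∀ m ∈ M₂, ∀ y ∈ Cfsg.Agent.Helper25.Prim.PG p M₂,
      m * y * m⁻¹ ∈ Cfsg.Agent.Helper25.Prim.PG p M₂ := fun m hm y hy =>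
    Cfsg.Agent.Helper25.Prim.map_conj_mem M₂ (Cfsg.Agent.Helper1.pCore_normal p ↥M₂) hm hy
  have X₂ : ∀ k ∈ M₂, (∀ y ∈ Cfsg.Agent.Helper25.Prim.PG p M₂, k * y = y * k) → ∀ n : ℕ,
      n.Coprime p → k ^ n = 1 → ∀ x ∈ Cfsg.Agent.Helper25.Prim.PG p M₁, k * x = x * k :=
    fun k hk hkP n hn hkn x hx =>
      Cfsg.Agent.Helper25.Prim.comm_of_pprime_centralizer M₂ (Cfsg.Agent.Helper25.Prim.FG M₂)
        (Cfsg.Agent.Helper25.Prim.PG p M₂) (Cfsg.Agent.Helper25.Prim.PG p M₁) nF₂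
        (Cfsg.Agent.Helper25.Prim.FG_nil M₂) nP₂ (Cfsg.Agent.Helper25.Prim.PG_pgroup p M₂)
        (fun y hy hyp => Cfsg.Agent.Helper25.Prim.pel_mem_PG p M₂ hy hyp)
        (fun c hc h => Cfsg.Agent.Helper25.Prim.cent_FG M₂ hl₂ hc h)
        (Cfsg.Agent.Helper25.Prim.PG_pgroup p M₁) (hP₁D.trans inf_le_right)
        (fun y hy x hx => nP₁ y (hF₂D hy).1 x hx) hk hkP hn hkn hx
  have X₁ : ∀ k ∈ M₁, (∀ y ∈ Cfsg.Agent.Helper25.Prim.PG p M₁, k * y = y * k) → ∀ n : ℕ,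
      n.Coprime p → k ^ n = 1 → ∀ x ∈ Cfsg.Agent.Helper25.Prim.PG p M₂, k * x = x * k :=
    fun k hk hkP n hn hkn x hx =>
      Cfsg.Agent.Helper25.Prim.comm_of_pprime_centralizer M₁ (Cfsg.Agent.Helper25.Prim.FG M₁)
        (Cfsg.Agent.Helper25.Prim.PG p M₁) (Cfsg.Agent.Helper25.Prim.PG p M₂) nF₁
        (Cfsg.Agent.Helper25.Prim.FG_nil M₁) nP₁ (Cfsg.Agent.Helper25.Prim.PG_pgroup p M₁)
        (fun y hy hyp => Cfsg.Agent.Helper25.Prim.pel_mem_PG p M₁ hy hyp)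
        (fun c hc h => Cfsg.Agent.Helper25.Prim.cent_FG M₁ hl₁ hc h)
        (Cfsg.Agent.Helper25.Prim.PG_pgroup p M₂) (hP₂D.trans inf_le_left)
        (fun y hy x hx => nP₂ y (hF₁D hy).2 x hx) hk hkP hn hkn hx
  have hP₂ne' : Cfsg.Agent.Helper25.Prim.PG p M₂ ≠ ⊥ := by
    intro h0
    apply hP₁ne'
    rw [eq_bot_iff]
    intro x hx
    have hxc : ∀ y ∈ Cfsg.Agent.Helper25.Prim.FG M₂, x * y = y * x := by
      intro y hy
      obtain ⟨e, m, u, v, -, hpm, hu, hv, hyvu, hue, hvm⟩ :=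
        Cfsg.Agent.Helper8.exists_decomp y (orderOf_pos y).ne' p hp
      have huF : u ∈ Cfsg.Agent.Helper25.Prim.FG M₂ := (Subgroup.zpowers_le.mpr hy) hu
      have hvF : v ∈ Cfsg.Agent.Helper25.Prim.FG M₂ := (Subgroup.zpowers_le.mpr hy) hv
      have hu1 : u = 1 := by
        have h5 := Cfsg.Agent.Helper25.Prim.pel_mem_PG p M₂ huF ⟨e, hue⟩
        rw [h0] at h5
        exact Subgroup.mem_bot.mp h5
      rw [hyvu, hu1, mul_one]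
      exact Cfsg.Agent.Helper25.Prim.comm_pprime (Cfsg.Agent.Helper25.Prim.FG M₂)
        (Cfsg.Agent.Helper25.Prim.PG p M₁) (Cfsg.Agent.Helper25.Prim.FG_nil M₂)
        (Cfsg.Agent.Helper25.Prim.PG_pgroup p M₁)
        (fun y hy x hx => nP₁ y (hF₂D hy).1 x hx) (fun x hx y hy => nF₂ x (hP₁D hx).2 y hy) hx hvF
        ((Nat.Prime.coprime_iff_not_dvd hp).mpr hpm).symm hvm
    have hxF : x ∈ Cfsg.Agent.Helper25.Prim.FG M₂ :=
      Cfsg.Agent.Helper25.Prim.cent_FG M₂ hl₂ (hP₁D hx).2 hxc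
    obtain ⟨i, hi⟩ := Cfsg.Agent.Helper8.pelem_of_mem (Cfsg.Agent.Helper25.Prim.PG_pgroup p M₁) hx
    have h6 := Cfsg.Agent.Helper25.Prim.pel_mem_PG p M₂ hxF ⟨i, hi⟩
    rw [h0] at h6
    exact h6
  have hnorm₁ : M₁ ≤ Subgroup.normalizer ((Cfsg.Agent.Helper25.Prim.PG p M₁ : Subgroup G) : Set G) :=
    Cfsg.Agent.Helper25.Prim.le_normalizer_map M₁ (Cfsg.Agent.Helper1.pCore_normal p ↥M₁)
  have hnorm₂ : M₂ ≤ Subgroup.normalizer ((Cfsg.Agent.Helper25.Prim.PG p M₂ : Subgroup G) : Set G) :=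
    Cfsg.Agent.Helper25.Prim.le_normalizer_map M₂ (Cfsg.Agent.Helper1.pCore_normal p ↥M₂)
  have hS₂₁ : ∀ k ∈ Cfsg.Agent.Helper25.Prim.SS p M₂ (Cfsg.Agent.Helper25.Prim.PG p M₂),
      k ∈ Cfsg.Agent.Helper25.Prim.SS p M₁ (Cfsg.Agent.Helper25.Prim.PG p M₁) := by
    rintro k ⟨hk, hkP, n, hn, hkn⟩
    have hkc := X₂ k hk hkP n hn hkn
    have hkN : k ∈ Subgroup.normalizer ((Cfsg.Agent.Helper25.Prim.PG p M₁ : Subgroup G) : Set G) := by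
      apply Cfsg.Agent.Helper25.Prim.mem_normalizer_of_conj'
      · intro a ha
        rw [hkc a ha, mul_assoc, mul_inv_cancel, mul_one]
        exact ha
      · intro a ha
        have e : k⁻¹ * a * k = a := by
          rw [mul_assoc, ← hkc a ha, ← mul_assoc, inv_mul_cancel, one_mul]
        rw [e]
        exact ha
    have e := (hP _ hP₁ne' hP₁D).1 hnorm₁
    have hkD : k ∈ M₁ ⊓ M₂ := by
      rw [← e]
      exact Subgroup.mem_inf.mpr ⟨hk, hkN⟩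
    exact ⟨(Subgroup.mem_inf.mp hkD).1, hkc, n, hn, hkn⟩
  have hS₁₂ : ∀ k ∈ Cfsg.Agent.Helper25.Prim.SS p M₁ (Cfsg.Agent.Helper25.Prim.PG p M₁),
      k ∈ Cfsg.Agent.Helper25.Prim.SS p M₂ (Cfsg.Agent.Helper25.Prim.PG p M₂) := by
    rintro k ⟨hk, hkP, n, hn, hkn⟩
    have hkc := X₁ k hk hkP n hn hkn
    have hkN : k ∈ Subgroup.normalizer ((Cfsg.Agent.Helper25.Prim.PG p M₂ : Subgroup G) : Set G) := by
      apply Cfsg.Agent.Helper25.Prim.mem_normalizer_of_conj'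
      · intro a ha
        rw [hkc a ha, mul_assoc, mul_inv_cancel, mul_one]
        exact ha
      · intro a ha
        have e : k⁻¹ * a * k = a := by
          rw [mul_assoc, ← hkc a ha, ← mul_assoc, inv_mul_cancel, one_mul]
        rw [e]
        exact ha
    have e := (hP _ hP₂ne' hP₂D).2 hnorm₂
    have hkD : k ∈ M₁ ⊓ M₂ := by
      rw [← e]
      exact Subgroup.mem_inf.mpr ⟨hk, hkN⟩
    exact ⟨(Subgroup.mem_inf.mp hkD).2, hkc, n, hn, hkn⟩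
  have hBbot : Subgroup.closure
      (Cfsg.Agent.Helper25.Prim.SS p M₁ (Cfsg.Agent.Helper25.Prim.PG p M₁)) = ⊥ := by
    by_contra hBne
    apply Cfsg.Agent.Helper25.Prim.key M₁ M₂ hne hP _ hBne
    · rw [Subgroup.closure_le]
      intro k hk
      exact Subgroup.mem_inf.mpr ⟨hk.1, (hS₁₂ k hk).1⟩
    · intro m hm
      apply Cfsg.Agent.Helper25.Prim.mem_normalizer_of_conj'
      · exact Cfsg.Agent.Helper25.Prim.conj_closure_mem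
          (fun s hs => Cfsg.Agent.Helper25.Prim.SS_conj p M₁ _ nP₁ hm hs)
      · have h5 := Cfsg.Agent.Helper25.Prim.conj_closure_mem (m := m⁻¹)
          (fun s hs => Cfsg.Agent.Helper25.Prim.SS_conj p M₁ _ nP₁ (M₁.inv_mem hm) hs)
        intro a ha
        have h6 := h5 a ha
        rwa [inv_inv] at h6
    · intro m hm
      apply Cfsg.Agent.Helper25.Prim.mem_normalizer_of_conj'
      · exact Cfsg.Agent.Helper25.Prim.conj_closure_mem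
          (fun s hs => hS₂₁ _ (Cfsg.Agent.Helper25.Prim.SS_conj p M₂ _ nP₂ hm (hS₁₂ s hs)))
      · have h5 := Cfsg.Agent.Helper25.Prim.conj_closure_mem (m := m⁻¹)
          (fun s hs => hS₂₁ _ (Cfsg.Agent.Helper25.Prim.SS_conj p M₂ _ nP₂ (M₂.inv_mem hm)
            (hS₁₂ s hs)))
        intro a ha
        have h6 := h5 a ha
        rwa [inv_inv] at h6
  have hS₁ : ∀ k ∈ Cfsg.Agent.Helper25.Prim.SS p M₁ (Cfsg.Agent.Helper25.Prim.PG p M₁), k = 1 := by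
    intro k hk
    have h5 : k ∈ Subgroup.closure
        (Cfsg.Agent.Helper25.Prim.SS p M₁ (Cfsg.Agent.Helper25.Prim.PG p M₁)) :=
      Subgroup.subset_closure hk
    rw [hBbot] at h5
    exact Subgroup.mem_bot.mp h5
  have hS₂ : ∀ k ∈ Cfsg.Agent.Helper25.Prim.SS p M₂ (Cfsg.Agent.Helper25.Prim.PG p M₂), k = 1 :=
    fun k hk => hS₁ k (hS₂₁ k hk)
  exact ⟨Cfsg.Agent.Helper25.Prim.cent_le_pCore p M₁ hS₁,
    Cfsg.Agent.Helper25.Prim.cent_le_pCore p M₂ hS₂, sup_le hP₁D hP₂D⟩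

end Cfsg.Agent.S3752
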