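import Mathlib
import Cfsg.Statements.S3755
import Cfsg.Agent.Helper19.HH2
import Cfsg.Agent.Helper23.PSolv

set_option autoImplicit false
open Cfsg

namespace Cfsg.Agent.S3755

/-- Let M and V be subgroups of a finite group with V an elementary abelian 2-group, M normalizing V and acting faithfully on it (M ∩ C(V) = 1), and C_M(O_{2'}(M)) ≤ O_{2'}(M). If some elementary abelian 2-subgroup A of M satisfies |V : C_V(A)| < |A|², then M has a section isomorphic to the symmetric group of degree 3. -/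
theorem result {X : Type*} [Group X] [Finite X] (M V : Subgroup X) (hV : Cfsg.IsElementaryAbelian 2 V) (hMV : M ≤ Subgroup.normalizer (V : Set X)) (hfaith : M ⊓ Subgroup.centralizer (V : Set X) = ⊥) (hcon : Subgroup.centralizer (Cfsg.pPrimeCore 2 ↥M : Set ↥M) ≤ Cfsg.pPrimeCore 2 ↥M) (A : Subgroup X) (hAM : A ≤ M) (hA : Cfsg.IsElementaryAbelian 2 A) (hsmall : (V ⊓ Subgroup.centralizer (A : Set X)).relIndex V < Nat.card A ^ 2) : Cfsg.Involves (Equiv.Perm (Fin 3)) ↥M := by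
  classical
  by_contra hS3
  have hV' := (Cfsg.Agent.Helper3.isElementaryAbelian_iff).mp hV
  obtain ⟨O, hO⟩ : ∃ O, O = (Cfsg.pPrimeCore 2 ↥M).map M.subtype := ⟨_, rfl⟩
  have hOM : O ≤ M := hO ▸ Subgroup.map_subtype_le _
  have hn : (Cfsg.pPrimeCore 2 ↥M).Normal := Cfsg.Agent.Helper23.pPrimeCore_normal_fin 2
  have hMO : M ≤ Subgroup.normalizer (O : Set X) := by
    intro g hg
    rw [Subgroup.mem_normalizer_iff]
    intro h
    rw [hO]
    constructor
    · rintro ⟨k, hk, rfl⟩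
      exact ⟨⟨g, hg⟩ * k * ⟨g, hg⟩⁻¹, hn.conj_mem k hk ⟨g, hg⟩, rfl⟩
    · rintro ⟨k, hk, hkeq⟩
      refine ⟨⟨g, hg⟩⁻¹ * k * ⟨g, hg⟩, ?_, ?_⟩
      · have h1 := hn.conj_mem k hk (⟨g, hg⟩⁻¹)
        rwa [inv_inv] at h1
      · show g⁻¹ * (M.subtype k) * g = h
        rw [hkeq]; group
  have hOodd : ¬ 2 ∣ Nat.card O := by
    have h1 := Cfsg.Agent.Helper23.pPrimeCore_coprime (G := ↥M) 2
    have h2 : Nat.card O = Nat.card (Cfsg.pPrimeCore 2 ↥M) := by
      rw [hO]
      exact Nat.card_congr ((Cfsg.pPrimeCore 2 ↥M).equivMapOfInjective M.subtype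
        M.subtype_injective).symm.toEquiv
    rw [h2]
    intro h
    have h3 := Nat.Coprime.eq_one_of_dvd h1.symm h
    omega
  have hcon' : M ⊓ Subgroup.centralizer (O : Set X) ≤ O := by
    intro g hg
    obtain ⟨hgM, hgC⟩ := Subgroup.mem_inf.mp hg
    have h1 : (⟨g, hgM⟩ : ↥M) ∈ Subgroup.centralizer (Cfsg.pPrimeCore 2 ↥M : Set ↥M) := by
      rw [Subgroup.mem_centralizer_iff]
      intro k hk
      apply Subtype.ext
      exact (Subgroup.mem_centralizer_iff.mp hgC) (k : X) (hO ▸ ⟨k, hk, rfl⟩)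
    have h2 := hcon h1
    rw [hO]
    exact ⟨⟨g, hgM⟩, h2, rfl⟩
  have key := Cfsg.Agent.Helper19.HH.card_fix_le M V O hV'.1 hV'.2 hMV hfaith hOM hMO hOodd hcon'
    hS3 (Nat.card A) A rfl hAM hA
  have hrel : Nat.card ↥(V ⊓ Subgroup.centralizer (A : Set X)) *
      (V ⊓ Subgroup.centralizer (A : Set X)).relIndex V = Nat.card V := by
    have h1 := Subgroup.relIndex_mul_relIndex ⊥ (V ⊓ Subgroup.centralizer (A : Set X)) V bot_le
      inf_le_left
    rwa [Subgroup.relIndex_bot_left, Subgroup.relIndex_bot_left] at h1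
  have hpos : 0 < Nat.card ↥(V ⊓ Subgroup.centralizer (A : Set X)) := Nat.card_pos
  have h3 := mul_lt_mul_of_pos_left hsmall hpos
  omega

end Cfsg.Agent.S3755
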