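import Cfsg.Statements.S3760

set_option autoImplicit false
open Cfsg

namespace Cfsg.Agent.S3760

theorem mem_map_conj {G : Type*} [Group G] (K : Subgroup G) (g y : G) :
    y ∈ K.map (MulAut.conj g).toMonoidHom ↔ g⁻¹ * y * g ∈ K := by
  constructor
  · rintro ⟨k, hk, rfl⟩
    simpa [MulAut.conj_apply, mul_assoc] using hk
  · intro h
    exact ⟨g⁻¹ * y * g, h, by simp [MulAut.conj_apply, mul_assoc]⟩

/-- Let the group G act transitively on a set X, let x ∈ X with stabilizer H = G_x, and let K ≤ H. Then N_G(K) acts transitively on the set of fixed points of K if and only if every G-conjugate of K contained in H is already an H-conjugate of K. -/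
theorem result {G : Type*} [Group G] {X : Type*} [MulAction G X] (htrans : ∀ a b : X, ∃ g : G, g • a = b) (x : X) (K : Subgroup G) (hK : K ≤ MulAction.stabilizer G x) : (∀ a b : X, (∀ k ∈ K, k • a = a) → (∀ k ∈ K, k • b = b) → ∃ g ∈ Subgroup.normalizer (K : Set G), g • a = b) ↔ ∀ g : G, K.map (MulAut.conj g).toMonoidHom ≤ MulAction.stabilizer G x → ∃ h ∈ MulAction.stabilizer G x, K.map (MulAut.conj g).toMonoidHom = K.map (MulAut.conj h).toMonoidHom := by
  constructor
  · intro hN g hg
    -- K fixes x and g⁻¹ • x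
    have hx : ∀ k ∈ K, k • x = x := fun k hk => hK hk
    have hgx : ∀ k ∈ K, k • (g⁻¹ • x) = g⁻¹ • x := by
      intro k hk
      have h1 : g * k * g⁻¹ ∈ K.map (MulAut.conj g).toMonoidHom := by
        rw [mem_map_conj]
        simpa [mul_assoc] using hk
      have h2 : (g * k * g⁻¹) • x = x := hg h1
      calc k • (g⁻¹ • x) = g⁻¹ • ((g * k * g⁻¹) • x) := by
            simp [smul_smul, mul_assoc]
        _ = g⁻¹ • x := by rw [h2]
    obtain ⟨n, hn, hnx⟩ := hN x (g⁻¹ • x) hx hgx
    refine ⟨g * n, ?_, ?_⟩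
    · show (g * n) • x = x
      rw [mul_smul, hnx, smul_inv_smul]
    · ext y
      rw [mem_map_conj, mem_map_conj]
      have hn' := (Subgroup.mem_normalizer_iff''.mp hn) (g⁻¹ * y * g)
      rw [hn']
      simp [mul_assoc]
  · intro hF a b ha hb
    -- for a fixed point a of K there is n ∈ N(K) with n • a = x
    have key : ∀ a : X, (∀ k ∈ K, k • a = a) → ∃ n ∈ Subgroup.normalizer (K : Set G), n • a = x := by
      intro a ha
      obtain ⟨g, hg⟩ := htrans a x
      -- g • a = x ; g K g⁻¹ ≤ Stab x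
      have hle : K.map (MulAut.conj g).toMonoidHom ≤ MulAction.stabilizer G x := by
        intro y hy
        rw [mem_map_conj] at hy
        show y • x = x
        have h1 := ha _ hy
        rw [← hg]
        calc y • (g • a) = g • ((g⁻¹ * y * g) • a) := by simp [smul_smul, mul_assoc]
          _ = g • a := by rw [h1]
      obtain ⟨h, hh, hEq⟩ := hF g hle
      refine ⟨h⁻¹ * g, ?_, ?_⟩
      · rw [Subgroup.mem_normalizer_iff]
        intro y
        have e1 : (g * y * g⁻¹) ∈ K.map (MulAut.conj g).toMonoidHom ↔ y ∈ K := by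
          rw [mem_map_conj]; simp [mul_assoc]
        have e2 : (g * y * g⁻¹) ∈ K.map (MulAut.conj h).toMonoidHom ↔ (h⁻¹ * g) * y * (h⁻¹ * g)⁻¹ ∈ K := by
          rw [mem_map_conj]; simp [mul_assoc]
        rw [← e1, hEq, e2]
      · rw [mul_smul, hg]
        have : h • x = x := hh
        rw [inv_smul_eq_iff, this]
    obtain ⟨n, hn, hna⟩ := key a ha
    obtain ⟨m, hm, hmb⟩ := key b hb
    refine ⟨m⁻¹ * n, Subgroup.mul_mem _ (Subgroup.inv_mem _ hm) hn, ?_⟩
    rw [mul_smul, hna, inv_smul_eq_iff, hmb]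

end Cfsg.Agent.S3760
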