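import Mathlib
import Cfsg.Statements.S3766
import Cfsg.Agent.Helper1.Fitting
import Cfsg.Agent.Helper9.Layer
import Cfsg.Agent.S0043

set_option autoImplicit false
open Cfsg
open scoped commutatorElement

namespace Cfsg.Agent.S3766

variable {G : Type*} [Group G]

theorem cq_one (U V : Subgroup G) : ∀ u ∈ U, u * (1 : G) * u⁻¹ * (1 : G)⁻¹ ∈ V := by
  intro u _
  have e : u * (1 : G) * u⁻¹ * (1 : G)⁻¹ = 1 := by group
  rw [e]; exact V.one_mem

theorem cq_mul (U V : Subgroup G) (hV : V.Normal) {a b : G}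
    (ha : ∀ u ∈ U, u * a * u⁻¹ * a⁻¹ ∈ V) (hb : ∀ u ∈ U, u * b * u⁻¹ * b⁻¹ ∈ V) :
    ∀ u ∈ U, u * (a * b) * u⁻¹ * (a * b)⁻¹ ∈ V := by
  intro u hu
  have h2 := hV.conj_mem _ (hb u hu) a
  have h3 := V.mul_mem (ha u hu) h2
  have e : u * (a * b) * u⁻¹ * (a * b)⁻¹ =
      u * a * u⁻¹ * a⁻¹ * (a * (u * b * u⁻¹ * b⁻¹) * a⁻¹) := by group
  rw [e]; exact h3

theorem cq_inv (U V : Subgroup G) (hV : V.Normal) {a : G}
    (ha : ∀ u ∈ U, u * a * u⁻¹ * a⁻¹ ∈ V) : ∀ u ∈ U, u * a⁻¹ * u⁻¹ * a⁻¹⁻¹ ∈ V := by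
  intro u hu
  have h2 := hV.conj_mem _ (V.inv_mem (ha u hu)) a⁻¹
  have e : u * a⁻¹ * u⁻¹ * a⁻¹⁻¹ = a⁻¹ * (u * a * u⁻¹ * a⁻¹)⁻¹ * a⁻¹⁻¹ := by group
  rw [e]; exact h2

theorem cq_conj (U V : Subgroup G) (hU : U.Normal) (hV : V.Normal) {a : G}
    (ha : ∀ u ∈ U, u * a * u⁻¹ * a⁻¹ ∈ V) (h : G) :
    ∀ u ∈ U, u * (h * a * h⁻¹) * u⁻¹ * (h * a * h⁻¹)⁻¹ ∈ V := by
  intro u hu
  have hu' : h⁻¹ * u * h⁻¹⁻¹ ∈ U := hU.conj_mem u hu h⁻¹
  have h2 := hV.conj_mem _ (ha _ hu') h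
  have e : u * (h * a * h⁻¹) * u⁻¹ * (h * a * h⁻¹)⁻¹ =
      h * ((h⁻¹ * u * h⁻¹⁻¹) * a * (h⁻¹ * u * h⁻¹⁻¹)⁻¹ * a⁻¹) * h⁻¹ := by group
  rw [e]; exact h2

/-- The centralizer of the section `U/V`. -/
def centQ (U V : Subgroup G) (hV : V.Normal) : Subgroup G where
  carrier := {g | ∀ u ∈ U, u * g * u⁻¹ * g⁻¹ ∈ V}
  mul_mem' := fun {a b} ha hb => cq_mul U V hV ha hb
  one_mem' := cq_one U V
  inv_mem' := fun {a} ha => cq_inv U V hV ha

theorem comm_le_of_le_centQ (U V X : Subgroup G) (hV : V.Normal) (h : X ≤ centQ U V hV) :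
    ⁅U, X⁆ ≤ V := by
  rw [Subgroup.commutator_le]
  intro u hu x hx
  have h1 : ∀ u ∈ U, u * x * u⁻¹ * x⁻¹ ∈ V := h hx
  exact h1 u hu

theorem le_centQ_of_comm_le (U V X : Subgroup G) (hV : V.Normal) (h : ⁅U, X⁆ ≤ V) :
    X ≤ centQ U V hV := by
  intro x hx
  show ∀ u ∈ U, u * x * u⁻¹ * x⁻¹ ∈ V
  intro u hu
  exact h (Subgroup.commutator_mem_commutator hu hx)

/-- A nilpotent normal subgroup centralizes every chief factor. -/
theorem comm_le_of_chief (F : Subgroup G) [F.Normal] (hF : Group.IsNilpotent F)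
    (U V : Subgroup G) (hU : U.Normal) (hV : V.Normal) (hVU : V < U)
    (hch : ∀ W : Subgroup G, W.Normal → V ≤ W → W ≤ U → W = V ∨ W = U) : ⁅U, F⁆ ≤ V := by
  by_contra hcon
  haveI := hU
  haveI := hV
  have hW : ⁅U, F⁆ ⊔ V = U := by
    rcases hch (⁅U, F⁆ ⊔ V) inferInstance le_sup_right
      (sup_le (Subgroup.commutator_le_left U F) hVU.le) with h | h
    · exact absurd (h ▸ le_sup_left) hcon
    · exact h
  obtain ⟨c, hc⟩ := (Subgroup.isNilpotent_iff_lowerCentralSeries F).1 hF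
  have key : ∀ n, (F.lowerCentralSeries n).Normal ∧ U ≤ F.lowerCentralSeries n ⊔ V := by
    intro n
    induction n with
    | zero =>
      rw [Subgroup.lowerCentralSeries_zero]
      refine ⟨inferInstance, ?_⟩
      calc U = ⁅U, F⁆ ⊔ V := hW.symm
        _ ≤ F ⊔ V := sup_le_sup_right (Subgroup.commutator_le_right U F) V
    | succ n ih =>
      obtain ⟨hLn, hUL⟩ := ih
      rw [Subgroup.lowerCentralSeries_succ]
      obtain ⟨L, hL⟩ : ∃ L : Subgroup G, L = F.lowerCentralSeries n := ⟨_, rfl⟩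
      rw [← hL] at hLn hUL ⊢
      haveI := hLn
      refine ⟨inferInstance, ?_⟩
      have hK : (⁅L, F⁆ ⊔ V).Normal := inferInstance
      have h1 : L ≤ centQ F (⁅L, F⁆ ⊔ V) hK :=
        le_centQ_of_comm_le F _ L hK (by rw [Subgroup.commutator_comm F L]; exact le_sup_left)
      have h2 : V ≤ centQ F (⁅L, F⁆ ⊔ V) hK :=
        le_centQ_of_comm_le F _ V hK ((Subgroup.commutator_le_right F V).trans le_sup_right)
      have h3 : ⁅F, L ⊔ V⁆ ≤ ⁅L, F⁆ ⊔ V := comm_le_of_le_centQ F _ (L ⊔ V) hK (sup_le h1 h2)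
      calc U = ⁅U, F⁆ ⊔ V := hW.symm
        _ ≤ ⁅L ⊔ V, F⁆ ⊔ V := sup_le_sup_right (Subgroup.commutator_mono hUL le_rfl) V
        _ ≤ (⁅L, F⁆ ⊔ V) ⊔ V :=
            sup_le_sup_right (by rw [Subgroup.commutator_comm (L ⊔ V) F]; exact h3) V
        _ = ⁅L, F⁆ ⊔ V := by rw [sup_assoc, sup_idem]
  have hfin := (key c).2
  rw [hc, bot_sup_eq] at hfin
  exact absurd hfin (not_le_of_gt hVU)

theorem card_lt [Finite G] {V W : Subgroup G} (h : V < W) : Nat.card V < Nat.card W := by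
  by_contra hcon
  exact h.ne (Subgroup.eq_of_le_of_card_ge h.le (not_lt.1 hcon))

/-- An element of order prime to `|K|` that centralizes all chief factors below `F`
centralizes every normal subgroup `K ≤ F`. -/
theorem coprime_cent [Finite G] (F : Subgroup G) (x : G) (n : ℕ) (hxn : x ^ n = 1)
    (hx : ∀ U V : Subgroup G, (U.Normal ∧ V.Normal ∧ V < U ∧ ∀ W : Subgroup G, W.Normal → V ≤ W → W ≤ U → W = V ∨ W = U) → U ≤ F → ∀ u ∈ U, u * x * u⁻¹ * x⁻¹ ∈ V) :
    ∀ (d : ℕ) (V K : Subgroup G), V.Normal → K.Normal → V ≤ K → K ≤ F →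
      Nat.card K - Nat.card V = d → (Nat.card K).Coprime n → (∀ v ∈ V, x * v = v * x) →
      ∀ k ∈ K, x * k = k * x := by
  intro d
  induction d using Nat.strong_induction_on with
  | _ d ih =>
    intro V K hVn hKn hVK hKF hd hcop hcV
    by_cases hEq : V = K
    · subst hEq; exact hcV
    have hlt : V < K := lt_of_le_of_ne hVK hEq
    by_cases hW : ∃ W : Subgroup G, W.Normal ∧ V < W ∧ W < K
    · obtain ⟨W, hWn, hVW, hWK⟩ := hW
      have c1 : Nat.card V < Nat.card W := card_lt hVW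
      have c2 : Nat.card W < Nat.card K := card_lt hWK
      have hcW : ∀ w ∈ W, x * w = w * x :=
        ih (Nat.card W - Nat.card V) (by omega) V W hVn hWn hVW.le (hWK.le.trans hKF) rfl
          (Nat.Coprime.coprime_dvd_left (Subgroup.card_dvd_of_le hWK.le) hcop) hcV
      exact ih (Nat.card K - Nat.card W) (by omega) W K hWn hKn hWK.le hKF rfl hcop hcW
    · have hch : K.Normal ∧ V.Normal ∧ V < K ∧
          ∀ W : Subgroup G, W.Normal → V ≤ W → W ≤ K → W = V ∨ W = K := by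
        refine ⟨hKn, hVn, hlt, fun W hWn hVW hWK => ?_⟩
        by_contra hne
        rw [not_or] at hne
        exact hW ⟨W, hWn, lt_of_le_of_ne hVW (Ne.symm hne.1), lt_of_le_of_ne hWK hne.2⟩
      have hcq := hx K V hch hKF
      intro u hu
      have hk : u⁻¹ * x * u * x⁻¹ ∈ V := by
        have h2 := hVn.conj_mem _ (V.inv_mem (hcq u hu)) u⁻¹
        have e : u⁻¹ * x * u * x⁻¹ = u⁻¹ * (u * x * u⁻¹ * x⁻¹)⁻¹ * u⁻¹⁻¹ := by group
        rw [e]; exact h2
      obtain ⟨k, hkdef⟩ : ∃ k : G, k = u⁻¹ * x * u * x⁻¹ := ⟨_, rfl⟩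
      rw [← hkdef] at hk
      have hxk : x * k = k * x := hcV k hk
      have hxu : x * u = u * k * x := by rw [hkdef]; group
      have hpow : ∀ j : ℕ, x ^ j * u = u * k ^ j * x ^ j := by
        intro j
        induction j with
        | zero => simp
        | succ j ihj =>
          have hxkj : x * k ^ j = k ^ j * x := (Commute.pow_right (show Commute x k from hxk) j)
          rw [pow_succ' x j, pow_succ' k j, mul_assoc x (x ^ j) u, ihj]
          calc x * (u * k ^ j * x ^ j) = (x * u) * k ^ j * x ^ j := by simp only [mul_assoc]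
            _ = u * k * (x * k ^ j) * x ^ j := by rw [hxu]; simp only [mul_assoc]
            _ = u * k * (k ^ j * x) * x ^ j := by rw [hxkj]
            _ = u * (k * k ^ j) * (x * x ^ j) := by simp only [mul_assoc]
      have h1 := hpow n
      rw [hxn, one_mul, mul_one] at h1
      have hkn : k ^ n = 1 := by
        have h2 : u * 1 = u * k ^ n := by rw [mul_one]; exact h1
        exact (mul_left_cancel h2).symm
      have ho1 : orderOf k ∣ n := orderOf_dvd_of_pow_eq_one hkn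
      have ho2 : orderOf k ∣ Nat.card K := Subgroup.orderOf_dvd_natCard K (hVK hk)
      have ho3 : orderOf k ∣ Nat.gcd (Nat.card K) n := Nat.dvd_gcd ho2 ho1
      rw [Nat.Coprime.gcd_eq_one hcop] at ho3
      have hk1 : k = 1 := orderOf_eq_one_iff.1 (Nat.dvd_one.1 ho3)
      rw [hk1, mul_one] at hxu
      exact hxu

/-- The elements of `N` centralizing all chief factors of `G` below `F`. -/
def chiefCent (N F : Subgroup G) : Subgroup G where
  carrier := {g | g ∈ N ∧ ∀ U V : Subgroup G, (U.Normal ∧ V.Normal ∧ V < U ∧ ∀ W : Subgroup G, W.Normal → V ≤ W → W ≤ U → W = V ∨ W = U) → U ≤ F → ∀ u ∈ U, u * g * u⁻¹ * g⁻¹ ∈ V}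
  mul_mem' := fun {a b} ha hb => ⟨N.mul_mem ha.1 hb.1, fun U V hc hUF =>
    cq_mul U V hc.2.1 (ha.2 U V hc hUF) (hb.2 U V hc hUF)⟩
  one_mem' := ⟨N.one_mem, fun U V _ _ => cq_one U V⟩
  inv_mem' := fun {a} ha => ⟨N.inv_mem ha.1, fun U V hc hUF =>
    cq_inv U V hc.2.1 (ha.2 U V hc hUF)⟩

theorem mem_chiefCent {N F : Subgroup G} {g : G} : g ∈ chiefCent N F ↔
    (g ∈ N ∧ ∀ U V : Subgroup G, (U.Normal ∧ V.Normal ∧ V < U ∧ ∀ W : Subgroup G, W.Normal → V ≤ W → W ≤ U → W = V ∨ W = U) → U ≤ F → ∀ u ∈ U, u * g * u⁻¹ * g⁻¹ ∈ V) :=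
  Iff.rfl

theorem chiefCent_normal (N F : Subgroup G) [hN : N.Normal] : (chiefCent N F).Normal :=
  ⟨fun a ha h => mem_chiefCent.2 ⟨hN.conj_mem a (mem_chiefCent.1 ha).1 h, fun U V hc hUF =>
    cq_conj U V hc.1 hc.2.1 ((mem_chiefCent.1 ha).2 U V hc hUF) h⟩⟩

theorem pCore_char (p : ℕ) (H : Type*) [Group H] : (Cfsg.pCore p H).Characteristic := by
  unfold Cfsg.pCore
  apply Cfsg.Agent.Helper9.characteristic_sSup
  rintro φ K ⟨hKn, hKp⟩
  exact ⟨hKn.map φ.toMonoidHom φ.surjective, hKp.map φ.toMonoidHom⟩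

theorem main_II [Finite G] [Group.IsSolvable G] (N : Subgroup G) [N.Normal] (F : Subgroup G)
    (hFdef : F = (Cfsg.fittingSubgroup ↥N).map N.subtype)
    (hI : ∀ g ∈ F, ∀ U V : Subgroup G, (U.Normal ∧ V.Normal ∧ V < U ∧ ∀ W : Subgroup G, W.Normal → V ≤ W → W ≤ U → W = V ∨ W = U) → ∀ u ∈ U, u * g * u⁻¹ * g⁻¹ ∈ V) :
    chiefCent N F ≤ F := by
  classical
  by_contra hCF
  haveI hCn : (chiefCent N F).Normal := chiefCent_normal N F
  have hFN : F ≤ N := by rw [hFdef]; exact Subgroup.map_subtype_le _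
  haveI hFn : F.Normal := by
    rw [hFdef]
    haveI := Cfsg.Agent.Helper9.fittingSubgroup_characteristic ↥N
    infer_instance
  have hFC : F ≤ chiefCent N F := fun g hg =>
    mem_chiefCent.2 ⟨hFN hg, fun U V hc _ => hI g hg U V hc⟩
  have hπs : Function.Surjective (QuotientGroup.mk' F) := QuotientGroup.mk'_surjective F
  have hker : (QuotientGroup.mk' F).ker = F := QuotientGroup.ker_mk' F
  haveI hAn : ((chiefCent N F).map (QuotientGroup.mk' F)).Normal := hCn.map _ hπs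
  have hAne : (chiefCent N F).map (QuotientGroup.mk' F) ≠ ⊥ := by
    intro h
    rw [Subgroup.map_eq_bot_iff, hker] at h
    exact hCF h
  obtain ⟨B, hBA, hB⟩ := exists_minimal_le_of_wellFoundedLT
    (fun K : Subgroup (G ⧸ F) => K.Normal ∧ K ≠ ⊥) ((chiefCent N F).map (QuotientGroup.mk' F))
    ⟨hAn, hAne⟩
  have hBn : B.Normal := hB.prop.1
  have hBne : B ≠ ⊥ := hB.prop.2
  haveI := hBn
  have hmin : ∀ K : Subgroup (G ⧸ F), K.Normal → K ≤ B → K = ⊥ ∨ K = B := by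
    intro K hK hKB
    by_cases h : K = ⊥
    · exact Or.inl h
    · exact Or.inr (le_antisymm hKB (hB.le_of_le ⟨hK, h⟩ hKB))
  obtain ⟨-, q, hq, hexp⟩ := Cfsg.Agent.S0043.result B hBne hmin
  haveI : Fact q.Prime := ⟨hq⟩
  have hBp : IsPGroup q B := by
    intro x
    refine ⟨1, ?_⟩
    rw [pow_one]
    exact Subtype.ext (by simpa using hexp x x.2)
  obtain ⟨k, hk⟩ := IsPGroup.iff_card.1 hBp
  obtain ⟨M, hMdef⟩ : ∃ M : Subgroup G, M = B.comap (QuotientGroup.mk' F) := ⟨_, rfl⟩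
  haveI hMn : M.Normal := by rw [hMdef]; exact hBn.comap _
  have hFM : F ≤ M := by
    rw [hMdef]
    intro f hf
    show QuotientGroup.mk' F f ∈ B
    have h1 : QuotientGroup.mk' F f = 1 := by
      rw [← MonoidHom.mem_ker, hker]; exact hf
    rw [h1]; exact B.one_mem
  have hMC : M ≤ chiefCent N F := by
    intro m hm
    rw [hMdef] at hm
    obtain ⟨c, hc, hcm⟩ := hBA (show QuotientGroup.mk' F m ∈ B from hm)
    have h1 : c⁻¹ * m ∈ F := by
      rw [← hker, MonoidHom.mem_ker, map_mul, map_inv, hcm, inv_mul_cancel]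
    have h2 := (chiefCent N F).mul_mem hc (hFC h1)
    rwa [mul_inv_cancel_left] at h2
  have hMF : ¬ M ≤ F := by
    intro h
    apply hBne
    rw [eq_bot_iff]
    intro b hb
    obtain ⟨m, rfl⟩ := hπs b
    have hmF : m ∈ F := h (by rw [hMdef]; exact hb)
    rw [Subgroup.mem_bot, ← MonoidHom.mem_ker, hker]
    exact hmF
  have hidx : F.relIndex M = q ^ k := by
    have h1 := Subgroup.relIndex_comap (H := (⊥ : Subgroup (G ⧸ F))) (QuotientGroup.mk' F) M
    rw [MonoidHom.comap_bot, hker, hMdef, Subgroup.map_comap_eq_self_of_surjective hπs,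
      Subgroup.relIndex_bot_left, hk] at h1
    rw [hMdef]; exact h1
  -- the `O_p(N)`
  have hOn : ∀ p : ℕ, ((Cfsg.pCore p ↥N).map N.subtype).Normal := by
    intro p
    haveI := pCore_char p ↥N
    infer_instance
  have hOp : ∀ p : ℕ, IsPGroup p ((Cfsg.pCore p ↥N).map N.subtype) :=
    fun p => (Cfsg.Agent.Helper1.pCore_isPGroup p ↥N).map N.subtype
  have hOF : ∀ p : ℕ, p.Prime → (Cfsg.pCore p ↥N).map N.subtype ≤ F := by
    intro p hp
    haveI : Fact p.Prime := ⟨hp⟩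
    rw [hFdef]
    exact Subgroup.map_mono (Cfsg.Agent.Helper1.pCore_le_fitting p)
  have hFsup : F = ⨆ p : Nat.Primes, (Cfsg.pCore (p : ℕ) ↥N).map N.subtype := by
    rw [hFdef, Cfsg.Agent.Helper1.fitting_eq_iSup_primes, Subgroup.map_iSup]
  -- a Sylow `q`-subgroup of `M` containing `O_q(N)`
  have hOqM : (Cfsg.pCore q ↥N).map N.subtype ≤ M := (hOF q hq).trans hFM
  obtain ⟨Q, hQ⟩ := ((hOp q).comap_subtype (K := M)).exists_le_sylow
  obtain ⟨Qm, hQmdef⟩ : ∃ Qm : Subgroup G, Qm = (Q : Subgroup ↥M).map M.subtype := ⟨_, rfl⟩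
  have hQmM : Qm ≤ M := by rw [hQmdef]; exact Subgroup.map_subtype_le _
  have hOqQ : (Cfsg.pCore q ↥N).map N.subtype ≤ Qm := by
    intro y hy
    rw [hQmdef]
    exact ⟨⟨y, hOqM hy⟩, hQ (show (⟨y, hOqM hy⟩ : ↥M) ∈
      ((Cfsg.pCore q ↥N).map N.subtype).comap M.subtype from hy), rfl⟩
  have hQmp : IsPGroup q Qm := by rw [hQmdef]; exact Q.isPGroup'.map M.subtype
  have hQel : ∀ x ∈ Qm, ∃ j : ℕ, x ^ (q ^ j) = 1 := by
    intro x hx
    obtain ⟨j, hj⟩ := hQmp ⟨x, hx⟩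
    exact ⟨j, by simpa using congrArg Subtype.val hj⟩
  have hQidx : Qm.relIndex M = (Q : Subgroup ↥M).index := by
    rw [hQmdef]
    show (((Q : Subgroup ↥M).map M.subtype).comap M.subtype).index = _
    rw [Subgroup.comap_map_eq_self_of_injective M.subtype_injective]
  have hQnd : ¬ q ∣ (Q : Subgroup ↥M).index := Q.not_dvd_index
  have hMle : M ≤ Qm ⊔ F := by
    rw [← Subgroup.relIndex_eq_one]
    have h1 : (Qm ⊔ F).relIndex M ∣ Qm.relIndex M :=
      Subgroup.relIndex_dvd_of_le_left M le_sup_left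
    have h2 : (Qm ⊔ F).relIndex M ∣ F.relIndex M :=
      Subgroup.relIndex_dvd_of_le_left M le_sup_right
    rw [hidx] at h2
    obtain ⟨i, -, hi⟩ := (Nat.dvd_prime_pow hq).1 h2
    rcases Nat.eq_zero_or_pos i with h0 | hpos
    · rw [hi, h0, pow_zero]
    · exfalso
      apply hQnd
      rw [← hQidx]
      refine (dvd_pow_self q hpos.ne').trans ?_
      rw [← hi]; exact h1
  have hcent : ∀ p : ℕ, p.Prime → p ≠ q →
      (Cfsg.pCore p ↥N).map N.subtype ≤ Subgroup.centralizer (Qm : Set G) := by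
    intro p hp hpq y hy
    rw [Subgroup.mem_centralizer_iff]
    intro x hx
    obtain ⟨j, hj⟩ := hQel x hx
    haveI : Fact p.Prime := ⟨hp⟩
    obtain ⟨i, hi⟩ := IsPGroup.iff_card.1 (hOp p)
    have hcop : (Nat.card ((Cfsg.pCore p ↥N).map N.subtype)).Coprime (q ^ j) := by
      rw [hi]
      exact Nat.Coprime.pow _ _ ((Nat.coprime_primes hp hq).2 hpq)
    have hxC : x ∈ chiefCent N F := hMC (hQmM hx)
    exact coprime_cent F x (q ^ j) hj (mem_chiefCent.1 hxC).2 _ ⊥ _ inferInstance (hOn p) bot_le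
      (hOF p hp) rfl hcop
      (by intro v hv; rw [Subgroup.mem_bot] at hv; rw [hv, mul_one, one_mul]) y hy
  have hFnz : F ≤ Subgroup.normalizer (Qm : Set G) := by
    rw [hFsup]
    apply iSup_le
    intro p
    by_cases hpq : (p : ℕ) = q
    · rw [hpq]; exact hOqQ.trans Subgroup.le_normalizer
    · exact (hcent p p.2 hpq).trans (Subgroup.centralizer_le_normalizer _)
  have hMnz : M ≤ Subgroup.normalizer (Qm : Set G) :=
    hMle.trans (sup_le Subgroup.le_normalizer hFnz)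
  have hQnormal : (Q : Subgroup ↥M).Normal := by
    constructor
    intro x hx m
    have hm := Subgroup.mem_normalizer_iff.1 (hMnz m.2)
    have hx' : (x : G) ∈ Qm := by rw [hQmdef]; exact ⟨x, hx, rfl⟩
    have h3 := (hm (x : G)).1 hx'
    rw [hQmdef] at h3
    obtain ⟨y, hy, hyx⟩ := h3
    have hyeq : y = m * x * m⁻¹ := Subtype.ext (by simpa using hyx)
    rw [← hyeq]; exact hy
  haveI hQchar : (Q : Subgroup ↥M).Characteristic := Sylow.characteristic_of_normal Q hQnormal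
  have hQmn : Qm.Normal := by rw [hQmdef]; infer_instance
  have hQN : Qm ≤ N := fun x hx => (mem_chiefCent.1 (hMC (hQmM hx))).1
  have hQmF : Qm ≤ F := by
    have h1 : Qm.subgroupOf N ≤ Cfsg.pCore q ↥N :=
      Cfsg.Agent.Helper1.le_pCore (hQmn.subgroupOf N) hQmp.comap_subtype
    have h2 := Subgroup.map_mono (f := N.subtype)
      (h1.trans (Cfsg.Agent.Helper1.pCore_le_fitting q))
    rw [Subgroup.map_subgroupOf_eq_of_le hQN, ← hFdef] at h2
    exact h2
  exact hMF (hMle.trans (sup_le hQmF le_rfl))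

/-- Let G be a finite solvable group and N a normal subgroup of G. Call a pair V < U of normal subgroups of G a chief factor of G when no normal subgroup of G lies strictly between them; an element g centralizes the chief factor U/V when u g u⁻¹ g⁻¹ ∈ V for all u ∈ U. Then an element of G lies in the Fitting subgroup F(N) if and only if it lies in N and centralizes every chief factor of G; and also if and only if it lies in N and centralizes every chief factor U/V of G with U ≤ F(N). -/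
theorem result {G : Type*} [Group G] [Finite G] (hG : Group.IsSolvable G) (N : Subgroup G) [N.Normal] (g : G) : (g ∈ (Cfsg.fittingSubgroup ↥N).map N.subtype ↔ g ∈ N ∧ ∀ U V : Subgroup G, (U.Normal ∧ V.Normal ∧ V < U ∧ ∀ W : Subgroup G, W.Normal → V ≤ W → W ≤ U → W = V ∨ W = U) → ∀ u ∈ U, u * g * u⁻¹ * g⁻¹ ∈ V) ∧ (g ∈ (Cfsg.fittingSubgroup ↥N).map N.subtype ↔ g ∈ N ∧ ∀ U V : Subgroup G, (U.Normal ∧ V.Normal ∧ V < U ∧ ∀ W : Subgroup G, W.Normal → V ≤ W → W ≤ U → W = V ∨ W = U) → U ≤ (Cfsg.fittingSubgroup ↥N).map N.subtype → ∀ u ∈ U, u * g * u⁻¹ * g⁻¹ ∈ V) := by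
  haveI := hG
  have hFn : ((Cfsg.fittingSubgroup ↥N).map N.subtype).Normal := by
    haveI := Cfsg.Agent.Helper9.fittingSubgroup_characteristic ↥N
    infer_instance
  haveI := hFn
  have hFnil : Group.IsNilpotent ((Cfsg.fittingSubgroup ↥N).map N.subtype) := by
    haveI := Cfsg.Agent.Helper1.fitting_isNilpotent (G := ↥N)
    exact Group.nilpotent_of_surjective (N.subtype.subgroupMap (Cfsg.fittingSubgroup ↥N))
      (MonoidHom.subgroupMap_surjective _ _)
  have hFN : (Cfsg.fittingSubgroup ↥N).map N.subtype ≤ N := Subgroup.map_subtype_le _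
  have hI : ∀ g ∈ (Cfsg.fittingSubgroup ↥N).map N.subtype, ∀ U V : Subgroup G, (U.Normal ∧ V.Normal ∧ V < U ∧ ∀ W : Subgroup G, W.Normal → V ≤ W → W ≤ U → W = V ∨ W = U) → ∀ u ∈ U, u * g * u⁻¹ * g⁻¹ ∈ V := by
    intro g hg U V hc u hu
    exact comm_le_of_chief _ hFnil U V hc.1 hc.2.1 hc.2.2.1 hc.2.2.2
      (Subgroup.commutator_mem_commutator hu hg)
  have hII := main_II N _ rfl hI
  refine ⟨⟨fun h => ⟨hFN h, hI g h⟩, fun h => hII (mem_chiefCent.2 ⟨h.1, fun U V hc _ => h.2 U V hc⟩)⟩,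
    ⟨fun h => ⟨hFN h, fun U V hc _ => hI g h U V hc⟩, fun h => hII (mem_chiefCent.2 ⟨h.1, h.2⟩)⟩⟩

end Cfsg.Agent.S3766
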