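import Mathlib
import Cfsg.Statements.S3771
import Cfsg.Agent.Helper19.Comm

set_option autoImplicit false
open Cfsg

namespace Cfsg.Agent.S3771

open Cfsg.Agent.Helper19

theorem result {R : Type*} [Group R] [Finite R] {p : ℕ} [Fact p.Prime] (hR : IsPGroup p R) (hrank : Cfsg.PRankLE p 2 R) (hexp : ∀ x : R, x ^ p = 1) : Nat.card R ≤ p ^ 3 := by
  have hp : p.Prime := Fact.out
  have hab : ∀ B : Subgroup R, IsMulCommutative B → Nat.card B ≤ p ^ 2 :=
    fun B hB => hrank B hB (fun a _ => hexp a)
  by_cases hc : Subgroup.center R = ⊤
  · have h1 : IsMulCommutative (⊤ : Subgroup R) := ⟨⟨fun a b => Subtype.ext (by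
      have hb : (b : R) ∈ Subgroup.center R := by rw [hc]; exact Subgroup.mem_top _
      exact Subgroup.mem_center_iff.mp hb (a : R))⟩⟩
    have h2 := hab ⊤ h1
    rw [Subgroup.card_top] at h2
    exact le_trans h2 (Nat.pow_le_pow_right hp.pos (by norm_num))
  · obtain ⟨a, haZ, ha⟩ := exists_second_center hR hc
    have hcard : Nat.card (commHomCentral a ha).ker * Nat.card (commHomCentral a ha).range =
        Nat.card R := by
      rw [← Subgroup.index_ker]; exact Subgroup.card_mul_index _
    have hB : ∀ x : R, a * x = x * a →
        IsMulCommutative (Subgroup.closure ((Subgroup.center R : Set R) ∪ {a, x})) := by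
      intro x hx
      apply isMulCommutative_closure_of_comm
      intro u hu v hv
      rw [Set.mem_union, Set.mem_insert_iff, Set.mem_singleton_iff, SetLike.mem_coe] at hu hv
      rcases hu with hu | hu
      · exact ((Subgroup.mem_center_iff.mp hu) v).symm
      · rcases hv with hv | hv
        · exact (Subgroup.mem_center_iff.mp hv) u
        · rcases hu with rfl | rfl <;> rcases hv with rfl | rfl
          · rfl
          · exact hx
          · exact hx.symm
          · rfl
    have hA := hab _ (hB a rfl)
    have hZle : Subgroup.center R ≤ Subgroup.closure ((Subgroup.center R : Set R) ∪ {a, a}) :=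
      fun z hz => Subgroup.subset_closure (Or.inl hz)
    have haA : a ∈ Subgroup.closure ((Subgroup.center R : Set R) ∪ {a, a}) :=
      Subgroup.subset_closure (Or.inr (Or.inl rfl))
    have hnt : Nontrivial R := ⟨⟨a, 1, fun h => haZ (h ▸ Subgroup.one_mem _)⟩⟩
    obtain ⟨k, hk⟩ := IsPGroup.iff_card.mp (hR.to_subgroup (Subgroup.center R))
    obtain ⟨m, hm⟩ := IsPGroup.iff_card.mp (hR.to_subgroup
      (Subgroup.closure ((Subgroup.center R : Set R) ∪ {a, a})))
    have hk1 : 1 ≤ k := by
      by_contra h
      have hk0 : k = 0 := by omega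
      rw [hk0, pow_zero] at hk
      have := Subgroup.card_eq_one.mp hk
      exact (ne_of_gt hR.bot_lt_center) this
    have hlt : p ^ k < p ^ m := by
      rw [← hk, ← hm]
      by_contra h
      rw [not_lt] at h
      have := Subgroup.eq_of_le_of_card_ge hZle h
      exact haZ (this ▸ haA)
    have hkm : k < m := (Nat.pow_lt_pow_iff_right hp.one_lt).mp hlt
    have hm2 : m ≤ 2 := (Nat.pow_le_pow_iff_right hp.one_lt).mp (hm ▸ hA)
    have hk' : k = 1 := by omega
    have hm' : m = 2 := by omega
    rw [hk', pow_one] at hk
    rw [hm'] at hm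
    have hkerA : (commHomCentral a ha).ker ≤
        Subgroup.closure ((Subgroup.center R : Set R) ∪ {a, a}) := by
      intro x hx
      rw [mem_ker_commHomCentral] at hx
      have h1 := hab _ (hB x hx)
      have hle : Subgroup.closure ((Subgroup.center R : Set R) ∪ {a, a}) ≤
          Subgroup.closure ((Subgroup.center R : Set R) ∪ {a, x}) := by
        apply Subgroup.closure_mono
        rintro u (hu | hu)
        · exact Or.inl hu
        · rw [Set.mem_insert_iff, Set.mem_singleton_iff, or_self] at hu
          exact Or.inr (Or.inl hu)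
      have heq := Subgroup.eq_of_le_of_card_ge hle (by rw [hm]; exact h1)
      rw [heq]
      exact Subgroup.subset_closure (Or.inr (Or.inr rfl))
    have hc1 : Nat.card (commHomCentral a ha).ker ≤ p ^ 2 := by
      rw [← hm]; exact Subgroup.card_le_of_le hkerA
    have hc2 : Nat.card (commHomCentral a ha).range ≤ p := by
      rw [← hk]; exact Subgroup.card_le_of_le (range_commHomCentral_le a ha)
    rw [← hcard]
    calc Nat.card (commHomCentral a ha).ker * Nat.card (commHomCentral a ha).range
        ≤ p ^ 2 * p := Nat.mul_le_mul hc1 hc2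
      _ = p ^ 3 := by ring

end Cfsg.Agent.S3771
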