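import Mathlib
import Cfsg.Statements.S3774

set_option autoImplicit false
open Cfsg

namespace Cfsg.Agent.S3774

theorem dvd_of_mersenne_dvd (n a : ℕ) (h : 2 ^ n - 1 ∣ 2 ^ a - 1) : n ∣ a := by
  have h1 := Nat.pow_sub_one_mod_pow_sub_one 2 n a
  rw [Nat.mod_eq_zero_of_dvd h] at h1
  have h2 : 2 ^ (a % n) ≤ 1 := Nat.sub_eq_zero_iff_le.1 h1.symm
  have h3 : a % n = 0 := by
    by_contra hne
    exact absurd (Nat.one_lt_two_pow hne) (not_lt.2 h2)
  exact Nat.dvd_of_mod_eq_zero h3

/-- the involution "above" `x` in a 2-group. -/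
noncomputable def hp {G : Type*} [Group G] (x : G) : G := x ^ (orderOf x / 2)

theorem hp_aut {G : Type*} [Group G] (b : MulAut G) (x : G) : hp (b x) = b (hp x) := by
  have h : orderOf (b x) = orderOf x := orderOf_injective b.toMonoidHom b.injective x
  unfold hp
  rw [h, map_pow]

theorem hp_inv {G : Type*} [Group G] [Finite G] (hG : IsPGroup 2 G) (x : G) (hx : x ≠ 1) :
    hp x ≠ 1 ∧ hp x ^ 2 = 1 := by
  haveI : Fact (Nat.Prime 2) := ⟨Nat.prime_two⟩
  obtain ⟨k, hk⟩ := IsPGroup.iff_orderOf.1 hG x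
  have hk0 : k ≠ 0 := by
    intro h
    rw [h, pow_zero] at hk
    exact hx (orderOf_eq_one_iff.1 hk)
  have h2dvd : 2 ∣ orderOf x := by rw [hk]; exact dvd_pow_self 2 hk0
  have hpos : 0 < orderOf x := orderOf_pos x
  have hge : 2 ≤ orderOf x := Nat.le_of_dvd hpos h2dvd
  constructor
  · exact pow_ne_one_of_lt_orderOf (by omega) (Nat.div_lt_self hpos (by norm_num))
  · unfold hp
    rw [← pow_mul, Nat.div_mul_cancel h2dvd, pow_orderOf_eq_one]

/-- Let G be a nontrivial finite 2-group whose automorphism group permutes the involutions of G transitively. Then every involution of G is central, so that the involutions together with 1 form the subgroup Ω₁(Z(G)), and if this subgroup has order q then |G| is a power of q. -/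
theorem result {G : Type*} [Group G] [Finite G] [Nontrivial G] (hG : IsPGroup 2 G) (htrans : ∀ x y : G, x ≠ 1 → x ^ 2 = 1 → y ≠ 1 → y ^ 2 = 1 → ∃ a : MulAut G, a x = y) : (∀ x : G, x ^ 2 = 1 → x ∈ Subgroup.center G) ∧ ∃ m : ℕ, Nat.card G = Nat.card {z : G // z ^ 2 = 1} ^ m := by
  classical
  haveI : Fintype G := Fintype.ofFinite G
  haveI : Fact (Nat.Prime 2) := ⟨Nat.prime_two⟩
  haveI := hG.center_nontrivial
  obtain ⟨n0, hn0⟩ := IsPGroup.iff_card.1 (hG.to_subgroup (Subgroup.center G))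
  have hdvd : 2 ∣ Nat.card (Subgroup.center G) := by
    rw [hn0]
    have hne : n0 ≠ 0 := by
      intro h
      rw [h, pow_zero] at hn0
      have := Finite.one_lt_card (α := Subgroup.center G)
      omega
    exact dvd_pow_self 2 hne
  obtain ⟨z0, hz0⟩ := exists_prime_orderOf_dvd_card' 2 hdvd
  have hzc : (z0 : G) ∈ Subgroup.center G := z0.2
  have hz1 : (z0 : G) ≠ 1 := by
    intro h
    have h' : z0 = 1 := Subtype.ext h
    rw [h', orderOf_one] at hz0
    norm_num at hz0
  have hz2 : (z0 : G) ^ 2 = 1 := by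
    have h := pow_orderOf_eq_one z0
    rw [hz0] at h
    simpa using congrArg Subtype.val h
  have hcent : ∀ x : G, x ^ 2 = 1 → x ∈ Subgroup.center G := by
    intro x hx2
    by_cases hx1 : x = 1
    · rw [hx1]; exact Subgroup.one_mem _
    obtain ⟨a, ha⟩ := htrans z0 x hz1 hz2 hx1 hx2
    rw [Subgroup.mem_center_iff]
    intro g
    have h1 := Subgroup.mem_center_iff.1 hzc (a.symm g)
    have h2 := congrArg a h1
    rw [map_mul, map_mul, MulEquiv.apply_symm_apply, ha] at h2
    exact h2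
  refine ⟨hcent, ?_⟩
  -- the subgroup of involutions
  obtain ⟨Ω, hΩmem⟩ : ∃ Ω : Subgroup G, ∀ x : G, x ∈ Ω ↔ x ^ 2 = 1 := by
    refine ⟨{ carrier := {z | z ^ 2 = 1}
              mul_mem' := ?_
              one_mem' := one_pow 2
              inv_mem' := ?_ }, fun x => Iff.rfl⟩
    · intro x y hx hy
      have hc : x * y = y * x := Subgroup.mem_center_iff.1 (hcent y hy) x
      show (x * y) ^ 2 = 1
      rw [(show Commute x y from hc).mul_pow, show x ^ 2 = 1 from hx, show y ^ 2 = 1 from hy,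
        one_mul]
    · intro x hx
      show x⁻¹ ^ 2 = 1
      rw [inv_pow, show x ^ 2 = 1 from hx, inv_one]
  have hq : Nat.card {z : G // z ^ 2 = 1} = Nat.card Ω :=
    Nat.card_congr (Equiv.subtypeEquivRight (fun z => (hΩmem z).symm))
  obtain ⟨n, hn⟩ := IsPGroup.iff_card.1 (hG.to_subgroup Ω)
  obtain ⟨a, ha⟩ := IsPGroup.iff_card.1 hG
  -- the finsets
  obtain ⟨s, hsm⟩ : ∃ s : Finset G, ∀ x, x ∈ s ↔ x ≠ 1 :=
    ⟨Finset.univ.filter (fun x => x ≠ 1), fun x => by simp⟩
  obtain ⟨t, htm⟩ : ∃ t : Finset G, ∀ z, z ∈ t ↔ (z ≠ 1 ∧ z ^ 2 = 1) :=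
    ⟨Finset.univ.filter (fun z => z ≠ 1 ∧ z ^ 2 = 1), fun x => by simp⟩
  have hst : ∀ x ∈ s, hp x ∈ t := fun x hx => (htm _).2 (hp_inv hG x ((hsm x).1 hx))
  have hsum : s.card = t.card * (s.filter (fun x => hp x = (z0 : G))).card := by
    rw [Finset.card_eq_sum_card_fiberwise (f := hp) (s := s) (t := t) (fun x hx => hst x hx)]
    apply Finset.sum_const_nat
    intro b hb
    obtain ⟨hb1, hb2⟩ := (htm b).1 hb
    obtain ⟨e, he⟩ := htrans z0 b hz1 hz2 hb1 hb2
    symm
    apply Finset.card_bij (fun x _ => e x)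
    · intro x hx
      obtain ⟨hxs, hxf⟩ := Finset.mem_filter.1 hx
      have hx1 : x ≠ 1 := (hsm x).1 hxs
      refine Finset.mem_filter.2 ⟨(hsm _).2 ?_, ?_⟩
      · intro h; exact hx1 ((MulEquiv.map_eq_one_iff e).1 h)
      · rw [hp_aut, hxf, he]
    · intro x₁ _ x₂ _ h
      exact e.injective h
    · intro y hy
      obtain ⟨hys, hyf⟩ := Finset.mem_filter.1 hy
      have hy1 : y ≠ 1 := (hsm y).1 hys
      refine ⟨e.symm y, Finset.mem_filter.2 ⟨(hsm _).2 ?_, ?_⟩, e.apply_symm_apply y⟩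
      · intro h; exact hy1 ((MulEquiv.map_eq_one_iff e.symm).1 h)
      · have h1 : e (hp (e.symm y)) = e (z0 : G) := by
          rw [← hp_aut, e.apply_symm_apply, hyf, he]
        exact e.injective h1
  have hs_card : s.card + 1 = Nat.card G := by
    have h1 : s = (Finset.univ : Finset G).erase 1 := by
      ext x; rw [hsm]; simp
    rw [h1, Finset.card_erase_of_mem (Finset.mem_univ _), Finset.card_univ,
      Nat.card_eq_fintype_card]
    have : 0 < Fintype.card G := Fintype.card_pos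
    omega
  have ht_card : t.card + 1 = Nat.card {z : G // z ^ 2 = 1} := by
    have h1 : t = (Finset.univ.filter (fun z : G => z ^ 2 = 1)).erase 1 := by
      ext z; rw [htm]; simp
    have h2 : (1 : G) ∈ Finset.univ.filter (fun z : G => z ^ 2 = 1) := by simp
    rw [h1, Finset.card_erase_of_mem h2, Nat.card_eq_fintype_card, Fintype.card_subtype]
    have : 0 < (Finset.univ.filter (fun z : G => z ^ 2 = 1)).card := Finset.card_pos.2 ⟨1, h2⟩
    omega
  have e1 : s.card = 2 ^ a - 1 := by omega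
  have e2 : t.card = 2 ^ n - 1 := by omega
  rw [e1, e2] at hsum
  obtain ⟨m, hm⟩ := dvd_of_mersenne_dvd n a (Dvd.intro _ hsum.symm)
  exact ⟨m, by rw [ha, hq, hn, hm, pow_mul]⟩

end Cfsg.Agent.S3774
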