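import Cfsg.Statements.S3775
import Cfsg.Agent.Helper3.ActBridge2

set_option autoImplicit false
open Cfsg

namespace Cfsg.Agent.S3775

section gen

variable {A : Type*} [CommGroup A]

/-- invariance of a subgroup under an action by automorphisms -/
def Inv (Y : Type*) [Group Y] [MulDistribMulAction Y A] (B : Subgroup A) : Prop :=
  ∀ y : Y, ∀ b ∈ B, y • b ∈ B

/-- the restricted action on an invariant subgroup -/
@[instance_reducible] def subAct (Y : Type*) [Group Y] [MulDistribMulAction Y A] (S : Subgroup A) (hS : Inv Y S) :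
    MulDistribMulAction Y S where
  smul y s := ⟨y • s.1, hS y s.1 s.2⟩
  one_smul s := Subtype.ext (one_smul Y s.1)
  mul_smul y z s := Subtype.ext (mul_smul y z s.1)
  smul_mul y s t := Subtype.ext (smul_mul' y s.1 t.1)
  smul_one y := Subtype.ext (smul_one y)

variable {Y : Type*} [Group Y] [MulDistribMulAction Y A]

/-- Maschke's theorem for an elementary abelian section `S / T` of an abelian group. -/
theorem maschke_section [Finite A] [Finite Y] (p : ℕ) (hp : p.Prime)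
    (hcop : ∀ S : Subgroup A, (Nat.card Y).Coprime (Nat.card S))
    (T U S : Subgroup A) (hTU : T ≤ U) (hUS : U ≤ S)
    (hT : Inv Y T) (hU : Inv Y U) (hS : Inv Y S) (hpow : ∀ s ∈ S, s ^ p ∈ T) :
    ∃ V : Subgroup A, T ≤ V ∧ V ≤ S ∧ Inv Y V ∧ U ⊓ V = T ∧ U ⊔ V = S := by
  letI : MulDistribMulAction Y S := subAct Y S hS
  have hsm : ∀ (y : Y) (s : S), ((y • s : S) : A) = y • (s : A) := fun y s => rfl
  obtain ⟨W, hNW, hWinv, hWM, hWM2⟩ :=
    Cfsg.Agent.Helper3.ActBridge.exists_invariant_compl_mod (G := S) (A := Y) (hcop S) p hp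
      (T.subgroupOf S)
      (fun y x hx => by
        rw [Subgroup.mem_subgroupOf] at hx ⊢
        rw [hsm]; exact hT y _ hx)
      (fun x y => by
        have : x * y * x⁻¹ * y⁻¹ = 1 := by
          rw [mul_comm x y, mul_inv_cancel_right, mul_inv_cancel]
        rw [this]; exact Subgroup.one_mem _)
      (fun x => by
        rw [Subgroup.mem_subgroupOf]
        exact hpow _ x.2)
      (U.subgroupOf S)
      (fun x hx => by
        rw [Subgroup.mem_subgroupOf] at hx ⊢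
        exact hTU hx)
      (fun y x hx => by
        rw [Subgroup.mem_subgroupOf] at hx ⊢
        rw [hsm]; exact hU y _ hx)
  refine ⟨W.map S.subtype, ?_, ?_, ?_, ?_, ?_⟩
  · intro t ht
    exact ⟨⟨t, hUS (hTU ht)⟩, hNW (by rw [Subgroup.mem_subgroupOf]; exact ht), rfl⟩
  · exact Subgroup.map_subtype_le W
  · rintro y _ ⟨w, hw, rfl⟩
    exact ⟨y • w, hWinv y w hw, rfl⟩
  · apply le_antisymm
    · rintro a ⟨haU, ⟨w, hw, rfl⟩⟩
      have h1 : w ∈ W ⊓ U.subgroupOf S := ⟨hw, (Subgroup.mem_subgroupOf.2 haU : w ∈ U.subgroupOf S)⟩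
      rw [hWM, Subgroup.mem_subgroupOf] at h1
      exact h1
    · intro t ht
      exact ⟨hTU ht, ⟨⟨t, hUS (hTU ht)⟩, hNW (by rw [Subgroup.mem_subgroupOf]; exact ht), rfl⟩⟩
  · apply le_antisymm
    · exact sup_le hUS (Subgroup.map_subtype_le W)
    · intro s hs
      have h1 : (⟨s, hs⟩ : S) ∈ W ⊔ U.subgroupOf S := by rw [hWM2]; exact Subgroup.mem_top _
      obtain ⟨w, hw, m, hm, hwm⟩ := Subgroup.mem_sup.1 h1
      have h2 : s = (w : A) * (m : A) := by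
        have := congrArg (fun z : S => (z : A)) hwm
        exact this.symm
      rw [h2]
      exact Subgroup.mul_mem _ (Subgroup.mem_sup_right ⟨w, hw, rfl⟩)
        (Subgroup.mem_sup_left (by rw [Subgroup.mem_subgroupOf] at hm; exact hm))

/-- `Ω₁` of a subgroup -/
def Om (p : ℕ) (S : Subgroup A) : Subgroup A := S ⊓ (powMonoidHom p : A →* A).ker

/-- the subgroup of `p`-th powers -/
def Pw (p : ℕ) (S : Subgroup A) : Subgroup A := S.map (powMonoidHom p : A →* A)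

theorem mem_Om {p : ℕ} {S : Subgroup A} {a : A} : a ∈ Om p S ↔ a ∈ S ∧ a ^ p = 1 := by
  unfold Om
  rw [Subgroup.mem_inf, MonoidHom.mem_ker]
  rfl

theorem mem_Pw {p : ℕ} {S : Subgroup A} {a : A} : a ∈ Pw p S ↔ ∃ s ∈ S, s ^ p = a := by
  unfold Pw
  rw [Subgroup.mem_map]
  rfl

theorem Om_le (p : ℕ) (S : Subgroup A) : Om p S ≤ S := fun _ ha => (mem_Om.1 ha).1

theorem Pw_le (p : ℕ) (S : Subgroup A) : Pw p S ≤ S := by
  intro a ha
  obtain ⟨s, hs, rfl⟩ := mem_Pw.1 ha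
  exact S.pow_mem hs p

theorem inv_Om {p : ℕ} {S : Subgroup A} (hS : Inv Y S) : Inv Y (Om p S) := by
  intro y a ha
  rw [mem_Om] at ha ⊢
  refine ⟨hS y a ha.1, ?_⟩
  rw [← smul_pow', ha.2, smul_one]

theorem inv_Pw {p : ℕ} {S : Subgroup A} (hS : Inv Y S) : Inv Y (Pw p S) := by
  intro y a ha
  rw [mem_Pw] at ha ⊢
  obtain ⟨s, hs, rfl⟩ := ha
  exact ⟨y • s, hS y s hs, (smul_pow' y s p).symm⟩

theorem inv_sup {B C : Subgroup A} (hB : Inv Y B) (hC : Inv Y C) : Inv Y (B ⊔ C) := by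
  intro y a ha
  obtain ⟨b, hb, c, hc, rfl⟩ := Subgroup.mem_sup.1 ha
  rw [smul_mul']
  exact Subgroup.mul_mem _ (Subgroup.mem_sup_left (hB y b hb)) (Subgroup.mem_sup_right (hC y c hc))

theorem inv_inf {B C : Subgroup A} (hB : Inv Y B) (hC : Inv Y C) : Inv Y (B ⊓ C) :=
  fun y a ha => ⟨hB y a ha.1, hC y a ha.2⟩

theorem inv_bot : Inv Y (⊥ : Subgroup A) := by
  intro y a ha
  rw [Subgroup.mem_bot] at ha ⊢
  rw [ha, smul_one]

/-- indecomposability of an invariant subgroup -/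
def IndecS (Y : Type*) [Group Y] [MulDistribMulAction Y A] (S : Subgroup A) : Prop :=
  ∀ B C : Subgroup A, Inv Y B → Inv Y C → B ⊓ C = ⊥ → B ⊔ C = S → B = ⊥ ∨ C = ⊥

theorem half [Finite A] [Finite Y] (p : ℕ) (hp : p.Prime)
    (hcop : ∀ S : Subgroup A, (Nat.card Y).Coprime (Nat.card S))
    (S : Subgroup A) (hS : Inv Y S) (D₁ D₂ : Subgroup A) (hD₁ : Inv Y D₁) (hD₂ : Inv Y D₂)
    (hinf : D₁ ⊓ D₂ = ⊥) (hsup : D₁ ⊔ D₂ = Pw p S) :
    ∃ P₁ : Subgroup A, Inv Y P₁ ∧ D₁ ≤ P₁ ∧ P₁ ≤ S ∧ (∀ x ∈ P₁, x ^ p ∈ D₁) ∧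
      P₁ ⊓ Om p D₂ = ⊥ ∧ ∀ a ∈ S, a ^ p ∈ D₁ → a ∈ P₁ ⊔ D₂ := by
  have hD₁S : D₁ ≤ S := (le_sup_left.trans (le_of_eq hsup)).trans (Pw_le p S)
  have hD₂S : D₂ ≤ S := (le_sup_right.trans (le_of_eq hsup)).trans (Pw_le p S)
  obtain ⟨A₁, hA₁_def⟩ : ∃ A₁ : Subgroup A, A₁ = S ⊓ D₁.comap (powMonoidHom p : A →* A) :=
    ⟨_, rfl⟩
  have hmemA₁ : ∀ a, a ∈ A₁ ↔ a ∈ S ∧ a ^ p ∈ D₁ := by
    intro a
    rw [hA₁_def, Subgroup.mem_inf, Subgroup.mem_comap]
    rfl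
  have hA₁inv : Inv Y A₁ := by
    intro y a ha
    rw [hmemA₁] at ha ⊢
    refine ⟨hS y a ha.1, ?_⟩
    rw [← smul_pow']
    exact hD₁ y _ ha.2
  have hD₁A₁ : D₁ ≤ A₁ := fun d hd => (hmemA₁ d).2 ⟨hD₁S hd, D₁.pow_mem hd p⟩
  have hOA₁ : Om p D₂ ≤ A₁ := by
    intro d hd
    rw [mem_Om] at hd
    exact (hmemA₁ d).2 ⟨hD₂S hd.1, by rw [hd.2]; exact D₁.one_mem⟩
  obtain ⟨P₁, h1, h2, h3, h4, h5⟩ := maschke_section p hp hcop D₁ (Om p D₂ ⊔ D₁) A₁
    le_sup_right (sup_le hOA₁ hD₁A₁) hD₁ (inv_sup (inv_Om hD₂) hD₁) hA₁inv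
    (fun s hs => ((hmemA₁ s).1 hs).2)
  refine ⟨P₁, h3, h1, h2.trans (fun a ha => ((hmemA₁ a).1 ha).1),
    fun x hx => ((hmemA₁ x).1 (h2 hx)).2, ?_, ?_⟩
  · rw [eq_bot_iff]
    rintro x ⟨hx1, hx2⟩
    have h6 : x ∈ (Om p D₂ ⊔ D₁) ⊓ P₁ := ⟨Subgroup.mem_sup_left hx2, hx1⟩
    rw [h4] at h6
    have h7 : x ∈ D₁ ⊓ D₂ := ⟨h6, Om_le p D₂ hx2⟩
    rw [hinf] at h7
    exact h7
  · intro a haS hap
    have h6 : a ∈ (Om p D₂ ⊔ D₁) ⊔ P₁ := by
      rw [h5]; exact (hmemA₁ a).2 ⟨haS, hap⟩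
    have h7 : (Om p D₂ ⊔ D₁) ⊔ P₁ ≤ P₁ ⊔ D₂ :=
      sup_le (sup_le ((Om_le p D₂).trans le_sup_right) (h1.trans le_sup_left)) le_sup_left
    exact h7 h6

theorem indec_Pw [Finite A] [Finite Y] (p : ℕ) (hp : p.Prime)
    (hcop : ∀ S : Subgroup A, (Nat.card Y).Coprime (Nat.card S))
    (S : Subgroup A) (hS : Inv Y S) (hInd : IndecS Y S) (hab : Om p S ≤ Pw p S) :
    IndecS Y (Pw p S) := by
  intro D₁ D₂ hD₁ hD₂ hinf hsup
  by_contra hne
  push Not at hne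
  obtain ⟨P₁, i1, h1a, h1b, h1c, h1d, h1e⟩ := half p hp hcop S hS D₁ D₂ hD₁ hD₂ hinf hsup
  obtain ⟨P₂, i2, h2a, h2b, h2c, h2d, h2e⟩ := half p hp hcop S hS D₂ D₁ hD₂ hD₁
    (by rw [inf_comm]; exact hinf) (by rw [sup_comm]; exact hsup)
  have hD₁P : D₁ ≤ P₁ ⊔ P₂ := h1a.trans le_sup_left
  have hD₂P : D₂ ≤ P₁ ⊔ P₂ := h2a.trans le_sup_right
  have hI : P₁ ⊓ P₂ = ⊥ := by
    rw [eq_bot_iff]
    rintro x ⟨hx1, hx2⟩
    have hxp : x ^ p = 1 := by
      have : x ^ p ∈ D₁ ⊓ D₂ := ⟨h1c x hx1, h2c x hx2⟩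
      rw [hinf] at this
      exact this
    have hxO : x ∈ Om p S := mem_Om.2 ⟨h1b hx1, hxp⟩
    have hxD : x ∈ D₁ ⊔ D₂ := by rw [hsup]; exact hab hxO
    obtain ⟨d₁, hd₁, d₂, hd₂, rfl⟩ := Subgroup.mem_sup.1 hxD
    rw [mul_pow] at hxp
    have hd₁p : d₁ ^ p = 1 := by
      have h6 : d₁ ^ p = (d₂ ^ p)⁻¹ := eq_inv_of_mul_eq_one_left hxp
      have : d₁ ^ p ∈ D₁ ⊓ D₂ := ⟨D₁.pow_mem hd₁ p, by rw [h6]; exact D₂.inv_mem (D₂.pow_mem hd₂ p)⟩
      rw [hinf] at this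
      exact this
    have hd₂p : d₂ ^ p = 1 := by rw [hd₁p, one_mul] at hxp; exact hxp
    have hd₂1 : d₂ = 1 := by
      have h6 : d₂ ∈ P₁ := by
        have : d₂ = d₁⁻¹ * (d₁ * d₂) := by rw [inv_mul_cancel_left]
        rw [this]
        exact P₁.mul_mem (P₁.inv_mem (h1a hd₁)) hx1
      have : d₂ ∈ P₁ ⊓ Om p D₂ := ⟨h6, mem_Om.2 ⟨hd₂, hd₂p⟩⟩
      rw [h1d] at this
      exact this
    have hd₁1 : d₁ = 1 := by
      have h6 : d₁ ∈ P₂ := by
        have : d₁ = (d₁ * d₂) * d₂⁻¹ := by rw [mul_inv_cancel_right]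
        rw [this]
        exact P₂.mul_mem hx2 (P₂.inv_mem (h2a hd₂))
      have : d₁ ∈ P₂ ⊓ Om p D₁ := ⟨h6, mem_Om.2 ⟨hd₁, hd₁p⟩⟩
      rw [h2d] at this
      exact this
    rw [Subgroup.mem_bot, hd₁1, hd₂1, one_mul]
  have hJ : P₁ ⊔ P₂ = S := by
    apply le_antisymm (sup_le h1b h2b)
    intro s hs
    have hsp : s ^ p ∈ D₁ ⊔ D₂ := by rw [hsup]; exact mem_Pw.2 ⟨s, hs, rfl⟩
    obtain ⟨d₁, hd₁, d₂, hd₂, hdd⟩ := Subgroup.mem_sup.1 hsp
    have hd₁' : d₁ ∈ Pw p S := by rw [← hsup]; exact Subgroup.mem_sup_left hd₁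
    have hd₂' : d₂ ∈ Pw p S := by rw [← hsup]; exact Subgroup.mem_sup_right hd₂
    obtain ⟨a₁, ha₁, ha₁p⟩ := mem_Pw.1 hd₁'
    obtain ⟨a₂, ha₂, ha₂p⟩ := mem_Pw.1 hd₂'
    have ha₁P : a₁ ∈ P₁ ⊔ P₂ :=
      (sup_le le_sup_left hD₂P) (h1e a₁ ha₁ (by rw [ha₁p]; exact hd₁))
    have ha₂P : a₂ ∈ P₁ ⊔ P₂ :=
      (sup_le le_sup_right hD₁P) (h2e a₂ ha₂ (by rw [ha₂p]; exact hd₂))
    have hz : s * (a₁ * a₂)⁻¹ ∈ Om p S := by
      rw [mem_Om]
      refine ⟨S.mul_mem hs (S.inv_mem (S.mul_mem ha₁ ha₂)), ?_⟩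
      rw [mul_pow, inv_pow, mul_pow, ha₁p, ha₂p, hdd, mul_inv_cancel]
    have hz' : s * (a₁ * a₂)⁻¹ ∈ P₁ ⊔ P₂ := by
      have : s * (a₁ * a₂)⁻¹ ∈ D₁ ⊔ D₂ := by rw [hsup]; exact hab hz
      exact (sup_le hD₁P hD₂P) this
    have : s = s * (a₁ * a₂)⁻¹ * (a₁ * a₂) := by rw [inv_mul_cancel_right]
    rw [this]
    exact Subgroup.mul_mem _ hz' (Subgroup.mul_mem _ ha₁P ha₂P)
  rcases hInd P₁ P₂ i1 i2 hI hJ with h | h
  · apply hne.1
    rw [eq_bot_iff]; rw [← h]; exact h1a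
  · apply hne.2
    rw [eq_bot_iff]; rw [← h]; exact h2a

theorem exists_order_p {p : ℕ} (hA : IsPGroup p A) (B : Subgroup A) (hB : B ≠ ⊥) :
    ∃ b ∈ B, b ≠ 1 ∧ b ^ p = 1 := by
  classical
  obtain ⟨b, hb1⟩ := (Subgroup.ne_bot_iff_exists_ne_one).1 hB
  have hex : ∃ k, (b : A) ^ p ^ k = 1 := hA b
  have hk0 : Nat.find hex ≠ 0 := by
    intro h0
    have := Nat.find_spec hex
    rw [h0, pow_zero, pow_one] at this
    exact hb1 (Subtype.ext this)
  obtain ⟨k, hk⟩ := Nat.exists_eq_succ_of_ne_zero hk0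
  refine ⟨(b : A) ^ p ^ k, B.pow_mem b.2 _, ?_, ?_⟩
  · exact Nat.find_min hex (by omega)
  · rw [← pow_mul, ← pow_succ]
    have := Nat.find_spec hex
    rw [hk] at this
    exact this

theorem card_Pw_lt [Finite A] {p : ℕ} (hA : IsPGroup p A) (B : Subgroup A) (hB : B ≠ ⊥) :
    Nat.card (Pw p B) < Nat.card B := by
  have hle : Pw p B ≤ B := Pw_le p B
  have hne : Pw p B ≠ B := by
    intro heq
    obtain ⟨b₀, hb₀, hb₀1, hb₀p⟩ := exists_order_p hA B hB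
    have hsurj : Function.Surjective (fun b : B => (⟨(b : A) ^ p, B.pow_mem b.2 p⟩ : B)) := by
      rintro ⟨c, hc⟩
      have hc' : c ∈ Pw p B := by rw [heq]; exact hc
      obtain ⟨s, hs, rfl⟩ := mem_Pw.1 hc'
      exact ⟨⟨s, hs⟩, rfl⟩
    have hinj := Finite.injective_iff_surjective.2 hsurj
    have h1 : (⟨b₀, hb₀⟩ : B) = 1 := by
      apply hinj
      apply Subtype.ext
      show b₀ ^ p = (1 : A) ^ p
      rw [hb₀p, one_pow]
    exact hb₀1 (congrArg Subtype.val h1)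
  exact lt_of_le_of_ne (Subgroup.card_le_of_le hle)
    (fun h => hne (Subgroup.eq_of_le_of_card_ge hle h.ge))

theorem core [Finite A] [Finite Y] (p : ℕ) (hp : p.Prime) (hA : IsPGroup p A)
    (hcop : ∀ S : Subgroup A, (Nat.card Y).Coprime (Nat.card S)) :
    ∀ (n : ℕ) (S : Subgroup A), Nat.card S ≤ n → Inv Y S → IndecS Y S →
      ∀ B : Subgroup A, Inv Y B → B ≤ Om p S → B = ⊥ ∨ B = Om p S := by
  intro n
  induction n with
  | zero =>
    intro S hn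
    have := Nat.card_pos (α := S)
    omega
  | succ n ih =>
    intro S hn hS hInd B hB hBO
    by_cases hab : Om p S ≤ Pw p S
    · by_cases hS1 : S = ⊥
      · left
        rw [eq_bot_iff]
        exact hBO.trans ((Om_le p S).trans (le_of_eq hS1))
      have hlt : Nat.card (Pw p S) < Nat.card S := card_Pw_lt hA S hS1
      have hIndP : IndecS Y (Pw p S) := indec_Pw p hp hcop S hS hInd hab
      have hOm : Om p (Pw p S) = Om p S := by
        apply le_antisymm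
        · intro a ha
          rw [mem_Om] at ha ⊢
          exact ⟨Pw_le p S ha.1, ha.2⟩
        · intro a ha
          rw [mem_Om]
          exact ⟨hab ha, (mem_Om.1 ha).2⟩
      have h1 := ih (Pw p S) (by omega) (inv_Pw hS) hIndP B hB (by rw [hOm]; exact hBO)
      rw [hOm] at h1
      exact h1
    · obtain ⟨T₁, -, t2, t3, t4, t5⟩ := maschke_section p hp hcop ⊥ (Om p S ⊓ Pw p S) (Om p S)
        bot_le inf_le_left inv_bot (inv_inf (inv_Om hS) (inv_Pw hS)) (inv_Om hS)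
        (fun s hs => by rw [Subgroup.mem_bot]; exact (mem_Om.1 hs).2)
      have hT₁ : T₁ ≠ ⊥ := by
        intro h
        apply hab
        rw [h, sup_bot_eq] at t5
        rw [← t5]
        exact inf_le_right
      obtain ⟨S₁, s1, s2, s3, s4, s5⟩ := maschke_section p hp hcop (Pw p S) (T₁ ⊔ Pw p S) S
        le_sup_right (sup_le (t2.trans (Om_le p S)) (Pw_le p S)) (inv_Pw hS)
        (inv_sup t3 (inv_Pw hS)) hS (fun s hs => mem_Pw.2 ⟨s, hs, rfl⟩)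
      have hI : T₁ ⊓ S₁ = ⊥ := by
        rw [eq_bot_iff]
        rintro t ⟨ht1, ht2⟩
        have h6 : t ∈ (T₁ ⊔ Pw p S) ⊓ S₁ := ⟨Subgroup.mem_sup_left ht1, ht2⟩
        rw [s4] at h6
        have h7 : t ∈ (Om p S ⊓ Pw p S) ⊓ T₁ := ⟨⟨t2 ht1, h6⟩, ht1⟩
        rw [t4] at h7
        exact h7
      have hJ : T₁ ⊔ S₁ = S := by
        apply le_antisymm (sup_le (t2.trans (Om_le p S)) s2)
        rw [← s5]
        exact sup_le (sup_le le_sup_left (s1.trans le_sup_right)) le_sup_right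
      rcases hInd T₁ S₁ t3 s3 hI hJ with h | h
      · exact absurd h hT₁
      · have hPw : ∀ s ∈ S, s ^ p = 1 := by
          intro s hs
          have : s ^ p ∈ S₁ := s1 (mem_Pw.2 ⟨s, hs, rfl⟩)
          rw [h, Subgroup.mem_bot] at this
          exact this
        have hOS : Om p S = S := le_antisymm (Om_le p S) (fun s hs => mem_Om.2 ⟨hs, hPw s hs⟩)
        rw [hOS] at hBO ⊢
        obtain ⟨C, -, c2, c3, c4, c5⟩ := maschke_section p hp hcop ⊥ B S bot_le hBO inv_bot hB hS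
          (fun s hs => by rw [Subgroup.mem_bot]; exact hPw s hs)
        rcases hInd B C hB c3 c4 c5 with h' | h'
        · exact Or.inl h'
        · right
          rw [h', sup_bot_eq] at c5
          exact c5

end gen


/-- Let A be a finite abelian p-group and X a group of automorphisms of A of order prime to p. Call a subgroup of A invariant when every element of X maps it onto itself. Then the following are equivalent: (i) A is not the direct product of two nontrivial invariant subgroups; (ii) every invariant subgroup of A is one of the subgroups Ω_i(A) = {a : a^(p^i) = 1}; (iii) the subgroup Ω₁(A) of elements of order dividing p has no invariant subgroups other than 1 and itself. -/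
theorem result {A : Type*} [CommGroup A] [Finite A] {p : ℕ} [Fact p.Prime] (hA : IsPGroup p A) (X : Subgroup (MulAut A)) (hX : (Nat.card X).Coprime p) : ((¬ ∃ B C : Subgroup A, B ≠ ⊥ ∧ C ≠ ⊥ ∧ (∀ x ∈ X, B.map x.toMonoidHom = B) ∧ (∀ x ∈ X, C.map x.toMonoidHom = C) ∧ B ⊓ C = ⊥ ∧ B ⊔ C = ⊤) ↔ (∀ B : Subgroup A, (∀ x ∈ X, B.map x.toMonoidHom = B) → ∃ i : ℕ, ∀ a : A, a ∈ B ↔ a ^ p ^ i = 1)) ∧ ((∀ B : Subgroup A, (∀ x ∈ X, B.map x.toMonoidHom = B) → ∃ i : ℕ, ∀ a : A, a ∈ B ↔ a ^ p ^ i = 1) ↔ (∀ B : Subgroup A, (∀ x ∈ X, B.map x.toMonoidHom = B) → (∀ b ∈ B, b ^ p = 1) → B = ⊥ ∨ ∀ a : A, a ∈ B ↔ a ^ p = 1)) := by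
  classical
  have hp : p.Prime := Fact.out
  have hcop : ∀ S : Subgroup A, (Nat.card X).Coprime (Nat.card S) := by
    intro S
    obtain ⟨k, hk⟩ := IsPGroup.iff_card.1 (hA.to_subgroup S)
    rw [hk]
    exact Nat.Coprime.pow_right k hX
  -- translation of invariance
  have hinv : ∀ B : Subgroup A, (∀ x ∈ X, B.map x.toMonoidHom = B) ↔ Inv X B := by
    intro B
    constructor
    · intro h y b hb
      have h1 : (y : MulAut A) b ∈ B.map (y : MulAut A).toMonoidHom := ⟨b, hb, rfl⟩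
      rw [h y.1 y.2] at h1
      exact h1
    · intro h x hx
      apply le_antisymm
      · rintro _ ⟨b, hb, rfl⟩
        exact h ⟨x, hx⟩ b hb
      · intro b hb
        refine ⟨x⁻¹ b, h ⟨x⁻¹, X.inv_mem hx⟩ b hb, ?_⟩
        show x (x⁻¹ b) = b
        simp
  have h23 : (∀ B : Subgroup A, (∀ x ∈ X, B.map x.toMonoidHom = B) →
      ∃ i : ℕ, ∀ a : A, a ∈ B ↔ a ^ p ^ i = 1) →
      (∀ B : Subgroup A, (∀ x ∈ X, B.map x.toMonoidHom = B) → (∀ b ∈ B, b ^ p = 1) →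
        B = ⊥ ∨ ∀ a : A, a ∈ B ↔ a ^ p = 1) := by
    intro h2 B hB hBp
    obtain ⟨i, hi⟩ := h2 B hB
    rcases Nat.eq_zero_or_pos i with h0 | h0
    · left
      rw [eq_bot_iff]
      intro a ha
      have := (hi a).1 ha
      rw [h0, pow_zero, pow_one] at this
      rw [Subgroup.mem_bot]; exact this
    · right
      intro a
      refine ⟨hBp a, fun ha => (hi a).2 ?_⟩
      obtain ⟨j, rfl⟩ : ∃ j, i = j + 1 := ⟨i - 1, by omega⟩
      rw [pow_succ', pow_mul, ha, one_pow]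
  have h32 : (∀ B : Subgroup A, (∀ x ∈ X, B.map x.toMonoidHom = B) → (∀ b ∈ B, b ^ p = 1) →
        B = ⊥ ∨ ∀ a : A, a ∈ B ↔ a ^ p = 1) →
      (∀ B : Subgroup A, (∀ x ∈ X, B.map x.toMonoidHom = B) →
      ∃ i : ℕ, ∀ a : A, a ∈ B ↔ a ^ p ^ i = 1) := by
    intro h3
    have key : ∀ (n : ℕ) (B : Subgroup A), Nat.card B ≤ n → Inv X B →
        ∃ i : ℕ, ∀ a : A, a ∈ B ↔ a ^ p ^ i = 1 := by
      intro n
      induction n with
      | zero =>
        intro B hn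
        have := Nat.card_pos (α := B)
        omega
      | succ n ih =>
        intro B hn hB
        by_cases hB1 : B = ⊥
        · refine ⟨0, fun a => ?_⟩
          rw [hB1, Subgroup.mem_bot, pow_zero, pow_one]
        have hO : ∀ a : A, a ^ p = 1 → a ∈ B := by
          intro a ha
          have h4 := h3 (Om p B) ((hinv _).2 (inv_Om hB)) (fun b hb => (mem_Om.1 hb).2)
          rcases h4 with h4 | h4
          · exfalso
            obtain ⟨b, hb, hb1, hbp⟩ := exists_order_p hA B hB1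
            have : b ∈ Om p B := mem_Om.2 ⟨hb, hbp⟩
            rw [h4, Subgroup.mem_bot] at this
            exact hb1 this
          · exact Om_le p B ((h4 a).2 ha)
        have hlt := card_Pw_lt hA B hB1
        obtain ⟨j, hj⟩ := ih (Pw p B) (by omega) (inv_Pw hB)
        refine ⟨j + 1, fun a => ⟨fun ha => ?_, fun ha => ?_⟩⟩
        · have : a ^ p ∈ Pw p B := mem_Pw.2 ⟨a, ha, rfl⟩
          have := (hj _).1 this
          rw [pow_succ', pow_mul]; exact this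
        · rw [pow_succ', pow_mul] at ha
          have h5 := (hj _).2 ha
          obtain ⟨b, hb, hbp⟩ := mem_Pw.1 h5
          have h6 : (a * b⁻¹) ^ p = 1 := by
            rw [mul_pow, inv_pow, hbp, mul_inv_cancel]
          have h7 := hO _ h6
          have : a = a * b⁻¹ * b := by rw [inv_mul_cancel_right]
          rw [this]
          exact B.mul_mem h7 hb
    intro B hB
    exact key _ B le_rfl ((hinv B).1 hB)
  have h21 : (∀ B : Subgroup A, (∀ x ∈ X, B.map x.toMonoidHom = B) →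
      ∃ i : ℕ, ∀ a : A, a ∈ B ↔ a ^ p ^ i = 1) →
      (¬ ∃ B C : Subgroup A, B ≠ ⊥ ∧ C ≠ ⊥ ∧ (∀ x ∈ X, B.map x.toMonoidHom = B) ∧
        (∀ x ∈ X, C.map x.toMonoidHom = C) ∧ B ⊓ C = ⊥ ∧ B ⊔ C = ⊤) := by
    rintro h2 ⟨B, C, hB1, hC1, hB, hC, hinf, hsup⟩
    obtain ⟨i, hi⟩ := h2 B hB
    obtain ⟨j, hj⟩ := h2 C hC
    have hi0 : i ≠ 0 := by
      intro h0
      apply hB1
      rw [eq_bot_iff]
      intro a ha
      have := (hi a).1 ha
      rw [h0, pow_zero, pow_one] at this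
      rw [Subgroup.mem_bot]; exact this
    have hj0 : j ≠ 0 := by
      intro h0
      apply hC1
      rw [eq_bot_iff]
      intro a ha
      have := (hj a).1 ha
      rw [h0, pow_zero, pow_one] at this
      rw [Subgroup.mem_bot]; exact this
    obtain ⟨b, -, hb1, hbp⟩ := exists_order_p hA B hB1
    obtain ⟨i', rfl⟩ := Nat.exists_eq_succ_of_ne_zero hi0
    obtain ⟨j', rfl⟩ := Nat.exists_eq_succ_of_ne_zero hj0
    have hbB : b ∈ B := (hi b).2 (by rw [pow_succ', pow_mul, hbp, one_pow])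
    have hbC : b ∈ C := (hj b).2 (by rw [pow_succ', pow_mul, hbp, one_pow])
    have : b ∈ B ⊓ C := ⟨hbB, hbC⟩
    rw [hinf, Subgroup.mem_bot] at this
    exact hb1 this
  have h13 : (¬ ∃ B C : Subgroup A, B ≠ ⊥ ∧ C ≠ ⊥ ∧ (∀ x ∈ X, B.map x.toMonoidHom = B) ∧
        (∀ x ∈ X, C.map x.toMonoidHom = C) ∧ B ⊓ C = ⊥ ∧ B ⊔ C = ⊤) →
      (∀ B : Subgroup A, (∀ x ∈ X, B.map x.toMonoidHom = B) → (∀ b ∈ B, b ^ p = 1) →
        B = ⊥ ∨ ∀ a : A, a ∈ B ↔ a ^ p = 1) := by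
    intro h1 B hB hBp
    have hInd : IndecS X (⊤ : Subgroup A) := by
      intro B C hB hC hinf hsup
      by_contra hne
      push Not at hne
      exact h1 ⟨B, C, hne.1, hne.2, (hinv B).2 hB, (hinv C).2 hC, hinf, hsup⟩
    have hStop : Inv X (⊤ : Subgroup A) := fun y a _ => Subgroup.mem_top _
    have h4 := core p hp hA hcop _ ⊤ le_rfl hStop hInd B ((hinv B).1 hB)
      (fun b hb => mem_Om.2 ⟨Subgroup.mem_top _, hBp b hb⟩)
    rcases h4 with h4 | h4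
    · exact Or.inl h4
    · right
      intro a
      rw [h4, mem_Om]
      exact ⟨fun h => h.2, fun h => ⟨Subgroup.mem_top _, h⟩⟩
  exact ⟨⟨fun h1 => h32 (h13 h1), h21⟩, ⟨h23, h32⟩⟩

end Cfsg.Agent.S3775
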