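import Cfsg.Statements.S3778
import Mathlib

set_option autoImplicit false
open Cfsg

namespace Cfsg.Agent.S3778

open scoped commutatorElement

section Defs

variable {G : Type*} [Group G]

/-- `{g | ⁅x, g⁆ ∈ N}` for a normal subgroup `N`. -/
def Dsub (N : Subgroup G) [hN : N.Normal] (x : G) : Subgroup G where
  carrier := {g | ⁅x, g⁆ ∈ N}
  one_mem' := by
    show ⁅x, (1 : G)⁆ ∈ N
    rw [commutatorElement_one_right]; exact N.one_mem
  mul_mem' := by
    intro g h hg hh
    have hg' : ⁅x, g⁆ ∈ N := hg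
    have hh' : ⁅x, h⁆ ∈ N := hh
    have e : ⁅x, g * h⁆ = ⁅x, g⁆ * (g * ⁅x, h⁆ * g⁻¹) := by
      simp only [commutatorElement_def]; group
    show ⁅x, g * h⁆ ∈ N
    rw [e]
    exact N.mul_mem hg' (hN.conj_mem _ hh' g)
  inv_mem' := by
    intro g hg
    have hg' : ⁅x, g⁆ ∈ N := hg
    have e : ⁅x, g⁻¹⁆ = g⁻¹ * ⁅x, g⁆⁻¹ * g⁻¹⁻¹ := by
      simp only [commutatorElement_def]; group
    show ⁅x, g⁻¹⁆ ∈ N
    rw [e]
    exact hN.conj_mem _ (N.inv_mem hg') g⁻¹

theorem mem_Dsub (N : Subgroup G) [N.Normal] (x g : G) : g ∈ Dsub N x ↔ ⁅x, g⁆ ∈ N := Iff.rfl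

/-- `{x | ∀ g ∈ M, ⁅x, g⁆ ∈ N}` for a normal subgroup `N`. -/
def Asub (N M : Subgroup G) [hN : N.Normal] : Subgroup G where
  carrier := {x | ∀ g ∈ M, ⁅x, g⁆ ∈ N}
  one_mem' := by
    intro g _
    rw [commutatorElement_one_left]; exact N.one_mem
  mul_mem' := by
    intro x y hx hy g hg
    have hx' : ⁅x, g⁆ ∈ N := hx g hg
    have hy' : ⁅y, g⁆ ∈ N := hy g hg
    have e : ⁅x * y, g⁆ = x * ⁅y, g⁆ * x⁻¹ * ⁅x, g⁆ := by
      simp only [commutatorElement_def]; group
    rw [e]
    exact N.mul_mem (hN.conj_mem _ hy' x) hx'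
  inv_mem' := by
    intro x hx g hg
    have hx' : ⁅x, g⁆ ∈ N := hx g hg
    have e : ⁅x⁻¹, g⁆ = x⁻¹ * ⁅x, g⁆⁻¹ * x⁻¹⁻¹ := by
      simp only [commutatorElement_def]; group
    rw [e]
    exact hN.conj_mem _ (N.inv_mem hx') x⁻¹

theorem mem_Asub (N M : Subgroup G) [N.Normal] (x : G) :
    x ∈ Asub N M ↔ ∀ g ∈ M, ⁅x, g⁆ ∈ N := Iff.rfl

end Defs

abbrev LL (G : Type*) [Group G] (i : ℕ) : Subgroup G := (⊤ : Subgroup G).lowerCentralSeries i

theorem LL_succ (G : Type*) [Group G] (i : ℕ) :
    LL G (i + 1) = ⁅LL G i, (⊤ : Subgroup G)⁆ := rfl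

theorem LL_anti (G : Type*) [Group G] (i : ℕ) : LL G (i + 1) ≤ LL G i :=
  Subgroup.lowerCentralSeries_antitone (S := (⊤ : Subgroup G)) (Nat.le_succ i)

theorem comm_mem_LL (G : Type*) [Group G] (i : ℕ) (x g : G) (hg : g ∈ LL G i) :
    ⁅x, g⁆ ∈ LL G (i + 1) := by
  rw [LL_succ, ← commutatorElement_inv]
  exact Subgroup.inv_mem _ (Subgroup.commutator_mem_commutator hg (Subgroup.mem_top x))

theorem LL_stable (G : Type*) [Group G] (i : ℕ) (h : LL G (i + 1) = LL G i) :
    ∀ k, LL G (i + k) = LL G i := by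
  intro k
  induction k with
  | zero => rfl
  | succ k ih =>
    have e : LL G (i + (k + 1)) = ⁅LL G (i + k), (⊤ : Subgroup G)⁆ := rfl
    rw [e, ih, ← LL_succ, h]

theorem relIndex_ge {G : Type*} [Group G] [Finite G] {p : ℕ} [Fact p.Prime] (hG : IsPGroup p G)
    {H K : Subgroup G} (hle : H ≤ K) (hne : H ≠ K) : p ≤ H.relIndex K := by
  have hK : IsPGroup p K := hG.to_subgroup K
  obtain ⟨k, hk⟩ := hK.index (H.subgroupOf K)
  have h1 : H.relIndex K ≠ 1 := by
    intro h
    exact hne (le_antisymm hle (Subgroup.relIndex_eq_one.mp h))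
  have hk' : H.relIndex K = p ^ k := hk
  rw [hk'] at h1 ⊢
  cases k with
  | zero => exact absurd (pow_zero p) h1
  | succ k =>
    calc p = p ^ 1 := (pow_one p).symm
      _ ≤ p ^ (k + 1) := Nat.pow_le_pow_right (Fact.out : p.Prime).pos (by omega)

open Classical in
theorem chain_index {G : Type*} [Group G] [Finite G] {p : ℕ} [Fact p.Prime] (hG : IsPGroup p G)
    (D : ℕ → Subgroup G) (h0 : D 0 = ⊤) (hanti : ∀ j, D (j + 1) ≤ D j) :
    ∀ j, p ^ ((Finset.range j).filter (fun i => D (i + 1) ≠ D i)).card ≤ (D j).index := by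
  intro j
  induction j with
  | zero => simp [h0]
  | succ j ih =>
    rw [Finset.range_add_one, Finset.filter_insert]
    have hrel := Subgroup.relIndex_mul_index (hanti j)
    by_cases hne : D (j + 1) ≠ D j
    · rw [if_pos hne, Finset.card_insert_of_notMem (by simp), pow_succ]
      have hp : p ≤ (D (j + 1)).relIndex (D j) := relIndex_ge hG (hanti j) hne
      calc p ^ ((Finset.range j).filter (fun i => D (i + 1) ≠ D i)).card * p
          ≤ (D j).index * (D (j + 1)).relIndex (D j) := Nat.mul_le_mul ih hp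
        _ = (D (j + 1)).index := by rw [mul_comm]; exact hrel
    · rw [if_neg hne]
      have heq : D (j + 1) = D j := not_not.mp hne
      rw [heq]; exact ih

open Classical in
theorem per_elt {G : Type*} [Group G] [Finite G] {p : ℕ} [Fact p.Prime] (hG : IsPGroup p G)
    (b : ℕ) (hb : ∀ x : G, (Subgroup.centralizer ({x} : Set G)).index ≤ p ^ b) (c : ℕ) (x : G) :
    ((Finset.range (c - 1)).filter (fun m => x ∉ Asub (LL G (m + 2)) (LL G m))).card ≤ b := by
  have hp : p.Prime := Fact.out
  have h0 : Dsub (LL G 0) x = ⊤ := by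
    rw [eq_top_iff]
    intro g _
    rw [mem_Dsub]
    exact Subgroup.mem_top _
  have hanti : ∀ j, Dsub (LL G (j + 1)) x ≤ Dsub (LL G j) x := by
    intro j g hg
    rw [mem_Dsub] at hg ⊢
    exact LL_anti G j hg
  have hch := chain_index hG (fun j => Dsub (LL G j) x) h0 hanti c
  have hcard : ((Finset.range (c - 1)).filter
        (fun m => x ∉ Asub (LL G (m + 2)) (LL G m))).card ≤
      ((Finset.range c).filter (fun i => Dsub (LL G (i + 1)) x ≠ Dsub (LL G i) x)).card := by
    refine Finset.card_le_card_of_injOn (fun m => m + 1) ?_ ?_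
    · intro m hm
      have hm' : m ∈ (Finset.range (c - 1)).filter
          (fun m => x ∉ Asub (LL G (m + 2)) (LL G m)) := hm
      show m + 1 ∈ (Finset.range c).filter
        (fun i => Dsub (LL G (i + 1)) x ≠ Dsub (LL G i) x)
      rw [Finset.mem_filter] at hm' ⊢
      obtain ⟨hm1, hm2⟩ := hm'
      rw [Finset.mem_range] at hm1
      refine ⟨Finset.mem_range.mpr (by omega), ?_⟩
      rw [mem_Asub] at hm2
      push_neg at hm2
      obtain ⟨g, hg, hgn⟩ := hm2
      intro heq
      have hgi : g ∈ Dsub (LL G (m + 1)) x := by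
        rw [mem_Dsub]
        exact comm_mem_LL G m x g hg
      rw [← heq, mem_Dsub] at hgi
      exact hgn hgi
    · intro a _ b' _ h
      exact Nat.add_right_cancel h
  have hcen : Subgroup.centralizer ({x} : Set G) ≤ Dsub (LL G c) x := by
    intro g hg
    rw [mem_Dsub]
    have hcomm : x * g = g * x := Subgroup.mem_centralizer_iff.mp hg x (Set.mem_singleton x)
    have h1 : ⁅x, g⁆ = 1 := commutatorElement_eq_one_iff_commute.mpr hcomm
    rw [h1]; exact Subgroup.one_mem _
  have hidx : (Dsub (LL G c) x).index ≤ (Subgroup.centralizer ({x} : Set G)).index :=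
    Nat.le_of_dvd (Nat.pos_of_ne_zero Subgroup.index_ne_zero_of_finite)
      (Subgroup.index_dvd_of_le hcen)
  have hpow : p ^ ((Finset.range (c - 1)).filter
      (fun m => x ∉ Asub (LL G (m + 2)) (LL G m))).card ≤ p ^ b :=
    calc p ^ ((Finset.range (c - 1)).filter
          (fun m => x ∉ Asub (LL G (m + 2)) (LL G m))).card
        ≤ p ^ ((Finset.range c).filter
            (fun i => Dsub (LL G (i + 1)) x ≠ Dsub (LL G i) x)).card :=
          Nat.pow_le_pow_right hp.pos hcard
      _ ≤ (Dsub (LL G c) x).index := hch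
      _ ≤ (Subgroup.centralizer ({x} : Set G)).index := hidx
      _ ≤ p ^ b := hb x
  exact (Nat.pow_le_pow_iff_right hp.one_lt).mp hpow

theorem A_card {G : Type*} [Group G] [Finite G] {p : ℕ} [Fact p.Prime] (hG : IsPGroup p G)
    (c : ℕ) (hc : LL G c = ⊥) (hmin : ∀ i, i < c → LL G i ≠ ⊥) (m : ℕ) (hm : m + 1 < c) :
    p * Nat.card (Asub (LL G (m + 2)) (LL G m)) ≤ Nat.card G := by
  have hne : Asub (LL G (m + 2)) (LL G m) ≠ ⊤ := by
    intro htop
    have hle : LL G (m + 1) ≤ LL G (m + 2) := by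
      rw [LL_succ G m, Subgroup.commutator_le]
      intro g hg y _
      have hy : y ∈ Asub (LL G (m + 2)) (LL G m) := by rw [htop]; exact Subgroup.mem_top y
      have h1 := (mem_Asub _ _ y).mp hy g hg
      rw [← commutatorElement_inv]
      exact Subgroup.inv_mem _ h1
    have heq : LL G (m + 1 + 1) = LL G (m + 1) := le_antisymm (LL_anti G (m + 1)) hle
    have hst := LL_stable G (m + 1) heq (c - (m + 1))
    rw [Nat.add_sub_cancel' hm.le, hc] at hst
    exact hmin (m + 1) hm hst.symm
  obtain ⟨k, hk⟩ := hG.index (Asub (LL G (m + 2)) (LL G m))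
  have hk0 : k ≠ 0 := by
    rintro rfl
    rw [pow_zero, Subgroup.index_eq_one] at hk
    exact hne hk
  have hdvd : p ∣ (Asub (LL G (m + 2)) (LL G m)).index := by
    rw [hk]; exact dvd_pow_self p hk0
  have hmul := Subgroup.card_mul_index (Asub (LL G (m + 2)) (LL G m))
  have hple : p ≤ (Asub (LL G (m + 2)) (LL G m)).index :=
    Nat.le_of_dvd (Nat.pos_of_ne_zero Subgroup.index_ne_zero_of_finite) hdvd
  calc p * Nat.card (Asub (LL G (m + 2)) (LL G m))
      ≤ (Asub (LL G (m + 2)) (LL G m)).index * Nat.card (Asub (LL G (m + 2)) (LL G m)) :=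
        Nat.mul_le_mul_right _ hple
    _ = Nat.card G := by rw [mul_comm]; exact hmul

open Classical in
theorem count_ineq {G : Type*} [Group G] [Fintype G] (q b n : ℕ) (A : ℕ → Subgroup G)
    (hA : ∀ m, m < n → (q + 1) * Nat.card (A m) ≤ Nat.card G)
    (hT : ∀ x : G, ((Finset.range n).filter (fun m => x ∉ A m)).card ≤ b) :
    n * q * Nat.card G ≤ (q + 1) * (b * (Nat.card G - 1)) := by
  have hone : ((Finset.range n).filter (fun m => (1 : G) ∉ A m)).card = 0 := by
    rw [Finset.card_eq_zero, Finset.filter_eq_empty_iff]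
    intro m _ h
    exact h (A m).one_mem
  have h1 : ∑ x : G, ((Finset.range n).filter (fun m => x ∉ A m)).card ≤
      b * (Nat.card G - 1) := by
    rw [← Finset.add_sum_erase Finset.univ
      (fun x : G => ((Finset.range n).filter (fun m => x ∉ A m)).card)
      (Finset.mem_univ (1 : G)), hone, zero_add]
    calc ∑ x ∈ Finset.univ.erase (1 : G), ((Finset.range n).filter (fun m => x ∉ A m)).card
        ≤ (Finset.univ.erase (1 : G)).card • b :=
          Finset.sum_le_card_nsmul _ _ _ (fun x _ => hT x)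
      _ = b * (Nat.card G - 1) := by
          rw [Finset.card_erase_of_mem (Finset.mem_univ _), Finset.card_univ,
            Nat.card_eq_fintype_card, smul_eq_mul, mul_comm]
  have h2 : n * (q * Nat.card G) ≤
      (q + 1) * ∑ x : G, ((Finset.range n).filter (fun m => x ∉ A m)).card := by
    have hswap : ∑ x : G, ((Finset.range n).filter (fun m => x ∉ A m)).card =
        ∑ m ∈ Finset.range n, (Finset.univ.filter (fun x : G => x ∉ A m)).card := by
      simp only [Finset.card_filter]
      exact Finset.sum_comm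
    rw [hswap, Finset.mul_sum]
    calc n * (q * Nat.card G) = (Finset.range n).card • (q * Nat.card G) := by
          rw [Finset.card_range, smul_eq_mul]
      _ ≤ ∑ m ∈ Finset.range n,
            (q + 1) * (Finset.univ.filter (fun x : G => x ∉ A m)).card := by
          apply Finset.card_nsmul_le_sum
          intro m hm
          have hAm := hA m (Finset.mem_range.mp hm)
          have hsplit : (Finset.univ.filter (fun x : G => x ∈ A m)).card +
              (Finset.univ.filter (fun x : G => x ∉ A m)).card = Nat.card G := by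
            rw [Finset.card_filter_add_card_filter_not, Finset.card_univ,
              Nat.card_eq_fintype_card]
          have hAc : Nat.card (A m) = (Finset.univ.filter (fun x : G => x ∈ A m)).card :=
            Nat.subtype_card _ (by simp)
          rw [hAc] at hAm
          generalize (Finset.univ.filter (fun x : G => x ∈ A m)).card = a at hsplit hAm
          generalize (Finset.univ.filter (fun x : G => x ∉ A m)).card = U at hsplit ⊢
          generalize Nat.card G = N at hsplit hAm ⊢
          have e1 : q * N = q * a + q * U := by rw [← hsplit]; ring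
          nlinarith
  calc n * q * Nat.card G = n * (q * Nat.card G) := by ring
    _ ≤ (q + 1) * ∑ x : G, ((Finset.range n).filter (fun m => x ∉ A m)).card := h2
    _ ≤ (q + 1) * (b * (Nat.card G - 1)) := Nat.mul_le_mul_left _ h1

theorem main_ineq {G : Type*} [Group G] [Finite G] {p : ℕ} [Fact p.Prime] (hG : IsPGroup p G)
    (b : ℕ) (hb : ∀ x : G, (Subgroup.centralizer ({x} : Set G)).index ≤ p ^ b) (c : ℕ)
    (hc : LL G c = ⊥) (hmin : ∀ i, i < c → LL G i ≠ ⊥) :
    (c - 1) * (p - 1) * Nat.card G ≤ p * (b * (Nat.card G - 1)) := by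
  classical
  have hp : p.Prime := Fact.out
  let _ : Fintype G := Fintype.ofFinite G
  obtain ⟨q, rfl⟩ : ∃ q, p = q + 1 := ⟨p - 1, by have := hp.pos; omega⟩
  have h := count_ineq q b (c - 1) (fun m => Asub (LL G (m + 2)) (LL G m))
    (fun m hm => A_card hG c hc hmin m (by omega))
    (fun x => per_elt hG b hb c x)
  have e : q + 1 - 1 = q := by omega
  rw [e]
  exact h

/-- If G is a finite p-group in which every conjugacy class has at most p^b elements (every element has centralizer of index at most p^b), then G is abelian when b = 0, and when b ≥ 1 its nilpotency class c satisfies (c − 1)(p − 1) < bp, that is c < bp/(p − 1) + 1, and hence c ≤ 2b. -/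
theorem result {G : Type*} [Group G] [Finite G] {p : ℕ} [Fact p.Prime] (hG : IsPGroup p G) (b : ℕ) (hb : ∀ x : G, (Subgroup.centralizer ({x} : Set G)).index ≤ p ^ b) : ∃ c : ℕ, (⊤ : Subgroup G).lowerCentralSeries c = ⊥ ∧ (b ≠ 0 → (c - 1) * (p - 1) < b * p ∧ c ≤ 2 * b) ∧ (b = 0 → c ≤ 1) := by
  classical
  have hp : p.Prime := Fact.out
  have hnil : ∃ n, LL G n = ⊥ := Subgroup.nilpotent_iff_lowerCentralSeries.mp hG.isNilpotent
  have hc : LL G (Nat.find hnil) = ⊥ := Nat.find_spec hnil
  have hmin : ∀ i, i < Nat.find hnil → LL G i ≠ ⊥ := fun i hi => Nat.find_min hnil hi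
  have hkey := main_ineq hG b hb (Nat.find hnil) hc hmin
  generalize Nat.find hnil = c at hc hmin hkey
  have hpos : 0 < Nat.card G := Nat.card_pos
  refine ⟨c, hc, ?_, ?_⟩
  · intro hb0
    have h1 : (c - 1) * (p - 1) < b * p := by
      by_contra hcon
      push_neg at hcon
      have h2 : b * p * Nat.card G ≤ b * p * (Nat.card G - 1) :=
        calc b * p * Nat.card G ≤ (c - 1) * (p - 1) * Nat.card G :=
              Nat.mul_le_mul_right _ hcon
          _ ≤ p * (b * (Nat.card G - 1)) := hkey
          _ = b * p * (Nat.card G - 1) := by ring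
      have h3 : 0 < b * p := Nat.mul_pos (Nat.pos_of_ne_zero hb0) hp.pos
      have h4 := Nat.le_of_mul_le_mul_left h2 h3
      omega
    refine ⟨h1, ?_⟩
    by_contra hcon
    push_neg at hcon
    obtain ⟨q, rfl⟩ : ∃ q, p = q + 2 := ⟨p - 2, by have := hp.two_le; omega⟩
    have e : q + 2 - 1 = q + 1 := by omega
    rw [e] at h1
    have h5 : 2 * b * (q + 1) ≤ (c - 1) * (q + 1) := Nat.mul_le_mul_right _ (by omega)
    nlinarith
  · intro hb0
    subst hb0
    rw [Nat.zero_mul, Nat.mul_zero, Nat.le_zero] at hkey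
    rcases Nat.mul_eq_zero.mp hkey with h | h
    · rcases Nat.mul_eq_zero.mp h with h | h
      · omega
      · have := hp.two_le; omega
    · omega

end Cfsg.Agent.S3778
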