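import Mathlib
import Cfsg.Statements.S3780

set_option autoImplicit false
open Cfsg

namespace Cfsg.Agent.S3780

/-- In an additive commutative group, if `f ^ p = 1` then `(f - 1) ^ p` kills the `p`-torsion. -/
theorem end_sub_one_pow {M : Type*} [AddCommGroup M] (p : ℕ) (hp : p.Prime) (f : AddMonoid.End M)
    (hf : f ^ p = 1) (m : M) (hm : p • m = 0) : ((f - 1) ^ p) m = 0 := by
  have hc : Commute f (-1 : AddMonoid.End M) := (Commute.one_right f).neg_right
  obtain ⟨r, hr⟩ := hc.exists_add_pow_prime_eq hp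
  rw [sub_eq_add_neg, hr, hf]
  have e : ((p : AddMonoid.End M) * f * (-1) * r) = (f * (-1) * r) * (p : AddMonoid.End M) := by
    rw [mul_assoc, mul_assoc, (Nat.cast_commute p (f * ((-1) * r))).eq]
    simp only [mul_assoc]
  have h2 : ((p : AddMonoid.End M) * f * (-1) * r) m = 0 := by
    rw [e]
    show (f * (-1) * r) ((p : AddMonoid.End M) m) = 0
    rw [AddMonoid.End.natCast_apply, hm, map_zero]
  have h1 : ((1 : AddMonoid.End M) + (-1) ^ p) m = 0 := by
    rcases hp.eq_two_or_odd' with h2' | hodd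
    · subst h2'
      rw [neg_one_sq]
      show m + m = 0
      rw [← two_nsmul]; exact hm
    · rw [hodd.neg_one_pow, add_neg_cancel]; rfl
  show ((1 : AddMonoid.End M) + (-1) ^ p) m + ((p : AddMonoid.End M) * f * (-1) * r) m = 0
  rw [h1, h2, zero_add]

/-- The endomorphism `v ↦ α v / v` of a commutative group. -/
noncomputable def Tm {V : Type*} [CommGroup V] (α : MulAut V) : Monoid.End V :=
  α.toMonoidHom / MonoidHom.id V

theorem Tm_apply {V : Type*} [CommGroup V] (α : MulAut V) (v : V) : Tm α v = α v / v := rfl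

theorem iter_eq {V : Type*} [CommGroup V] (α : MulAut V) (f : AddMonoid.End (Additive V))
    (hf : ∀ v : V, f (Additive.ofMul v) = Additive.ofMul (α v)) (k : ℕ) (v : V) :
    Additive.ofMul ((⇑(Tm α))^[k] v) = ((f - 1) ^ k) (Additive.ofMul v) := by
  induction k generalizing v with
  | zero => rfl
  | succ k ih =>
    rw [Function.iterate_succ_apply, ih, pow_succ]
    show ((f - 1) ^ k) (Additive.ofMul (Tm α v)) = ((f - 1) ^ k) ((f - 1) (Additive.ofMul v))
    congr 1
    show Additive.ofMul (α v / v) = f (Additive.ofMul v) - Additive.ofMul v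
    rw [hf]; rfl

theorem Tp_trivial {V : Type*} [CommGroup V] (p : ℕ) (hp : p.Prime) (α : MulAut V)
    (hα : α ^ p = 1) (u : V) (hu : u ^ p = 1) : (⇑(Tm α))^[p] u = 1 := by
  let f : AddMonoid.End (Additive V) := MonoidHom.toAdditive α.toMonoidHom
  have hf0 : ∀ v : V, f (Additive.ofMul v) = Additive.ofMul (α v) := fun v => rfl
  have hfk : ∀ k : ℕ, ∀ v : V, (f ^ k) (Additive.ofMul v) = Additive.ofMul ((α ^ k) v) := by
    intro k
    induction k with
    | zero => intro v; rfl
    | succ k ih =>
      intro v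
      rw [pow_succ, pow_succ]
      show (f ^ k) (f (Additive.ofMul v)) = Additive.ofMul ((α ^ k) (α v))
      rw [hf0]; exact ih (α v)
  have hf : f ^ p = 1 := by
    apply AddMonoidHom.ext
    intro m
    have := hfk p (Additive.toMul m)
    rw [hα] at this
    exact this
  have key := iter_eq α f hf0 p u
  have h0 := end_sub_one_pow p hp f hf (Additive.ofMul u)
    (by show Additive.ofMul (u ^ p) = 0; rw [hu]; rfl)
  rw [h0] at key
  exact ofMul_eq_zero.mp key

/-- The kernel filtration. -/
noncomputable def K {V : Type*} [CommGroup V] (α : MulAut V) (p i : ℕ) : Subgroup V :=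
  (powMonoidHom p : V →* V).ker ⊓ MonoidHom.ker (Tm α ^ i : Monoid.End V)

theorem mem_K {V : Type*} [CommGroup V] (α : MulAut V) (p i : ℕ) (v : V) :
    v ∈ K α p i ↔ v ^ p = 1 ∧ (⇑(Tm α))^[i] v = 1 := Iff.rfl

theorem card_K_succ {V : Type*} [CommGroup V] [Finite V] (α : MulAut V) (p i : ℕ) :
    Nat.card (K α p (i + 1)) ≤ Nat.card (K α p 1) * Nat.card (K α p i) := by
  let g : ↥(K α p (i + 1)) →* V := (show V →* V from Tm α).comp (K α p (i + 1)).subtype
  have h1 : Nat.card g.ker * Nat.card g.range = Nat.card ↥(K α p (i + 1)) := by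
    rw [← Subgroup.index_ker, Subgroup.card_mul_index]
  have hmem : ∀ x : g.ker, (((x : ↥(K α p (i + 1))) : V)) ∈ K α p 1 := by
    intro x
    rw [mem_K]
    refine ⟨((mem_K α p (i + 1) _).mp x.1.2).1, ?_⟩
    exact MonoidHom.mem_ker.mp x.2
  have h2 : Nat.card g.ker ≤ Nat.card (K α p 1) :=
    Nat.card_le_card_of_injective (fun x : g.ker => (⟨_, hmem x⟩ : K α p 1))
      (fun x y hxy => by
        simp only [Subtype.mk.injEq] at hxy
        exact Subtype.ext (Subtype.ext hxy))
  have h3 : Nat.card g.range ≤ Nat.card (K α p i) := by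
    apply Subgroup.card_le_of_le
    rintro _ ⟨x, rfl⟩
    rw [mem_K]
    obtain ⟨hx1, hx2⟩ := (mem_K α p (i + 1) _).mp x.2
    constructor
    · show (Tm α (x : V)) ^ p = 1
      rw [← map_pow, hx1, map_one]
    · rw [Function.iterate_succ_apply] at hx2
      exact hx2
  calc Nat.card ↥(K α p (i + 1)) = Nat.card g.ker * Nat.card g.range := h1.symm
    _ ≤ Nat.card (K α p 1) * Nat.card (K α p i) := Nat.mul_le_mul h2 h3

theorem card_ker_le {V : Type*} [CommGroup V] [Finite V] {p : ℕ} (hp : p.Prime) (α : MulAut V)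
    (hαp : α ^ p = 1) (n : ℕ) (hfix : Nat.card {v : V // α v = v} = p ^ n) :
    Nat.card (powMonoidHom p : V →* V).ker ≤ p ^ (n * p) := by
  have h1 : Nat.card (K α p 1) ≤ p ^ n := by
    rw [← hfix]
    have hmem : ∀ x : K α p 1, α (x : V) = (x : V) := by
      intro x
      have h := ((mem_K α p 1 _).mp x.2).2
      rw [Function.iterate_one, Tm_apply] at h
      exact div_eq_one.mp h
    exact Nat.card_le_card_of_injective
      (fun x : K α p 1 => (⟨(x : V), hmem x⟩ : {v : V // α v = v}))
      (fun x y hxy => by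
        simp only [Subtype.mk.injEq] at hxy
        exact Subtype.ext hxy)
  have h2 : ∀ i : ℕ, Nat.card (K α p i) ≤ Nat.card (K α p 1) ^ i := by
    intro i
    induction i with
    | zero =>
      have : K α p 0 = ⊥ := by
        rw [eq_bot_iff]; intro x hx
        exact Subgroup.mem_bot.mpr ((mem_K α p 0 x).mp hx).2
      rw [this, Subgroup.card_bot, pow_zero]
    | succ i ih =>
      calc Nat.card (K α p (i + 1)) ≤ Nat.card (K α p 1) * Nat.card (K α p i) :=
            card_K_succ α p i
        _ ≤ Nat.card (K α p 1) * Nat.card (K α p 1) ^ i := Nat.mul_le_mul_left _ ih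
        _ = Nat.card (K α p 1) ^ (i + 1) := (pow_succ' _ _).symm
  have h3 : (powMonoidHom p : V →* V).ker ≤ K α p p := by
    intro u hu
    rw [mem_K]
    exact ⟨MonoidHom.mem_ker.mp hu, Tp_trivial p hp α hαp u (MonoidHom.mem_ker.mp hu)⟩
  calc Nat.card (powMonoidHom p : V →* V).ker ≤ Nat.card (K α p p) := Subgroup.card_le_of_le h3
    _ ≤ Nat.card (K α p 1) ^ p := h2 p
    _ ≤ (p ^ n) ^ p := Nat.pow_le_pow_left h1 p
    _ = p ^ (n * p) := (pow_mul p n p).symm

theorem greedy {V : Type*} [Group V] [Finite V] {p : ℕ} [Fact p.Prime] (hV : IsPGroup p V) :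
    ∀ (k : ℕ) (H : Subgroup V), H.index = k →
      ∃ S : Finset V, H ⊔ Subgroup.closure (S : Set V) = ⊤ ∧ p ^ S.card ≤ H.index := by
  have hp : p.Prime := Fact.out
  intro k
  induction k using Nat.strong_induction_on with
  | _ k ih =>
    intro H hk
    classical
    by_cases hH : H = ⊤
    · refine ⟨∅, ?_, ?_⟩
      · rw [hH]; exact top_sup_eq _
      · rw [hH, Subgroup.index_top, Finset.card_empty, pow_zero]
    · obtain ⟨x, hx⟩ : ∃ x, x ∉ H := by
        by_contra hcon
        exact hH (eq_top_iff.mpr fun x _ => by_contra fun hx => hcon ⟨x, hx⟩)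
      have hlt : H < H ⊔ Subgroup.zpowers x := by
        refine lt_of_le_of_ne le_sup_left (fun heq => hx ?_)
        rw [heq]; exact Subgroup.mem_sup_right (Subgroup.mem_zpowers x)
      have hrel := Subgroup.relIndex_mul_index hlt.le
      have hple : p ≤ H.relIndex (H ⊔ Subgroup.zpowers x) := by
        obtain ⟨e, he⟩ := IsPGroup.iff_card.mp hV
        have hd : H.relIndex (H ⊔ Subgroup.zpowers x) ∣ p ^ e := by
          rw [← he]
          exact (Subgroup.relIndex_dvd_card _ _).trans (Subgroup.card_subgroup_dvd_card _)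
        obtain ⟨c, -, hc⟩ := (Nat.dvd_prime_pow hp).mp hd
        have hc0 : c ≠ 0 := by
          rintro rfl
          rw [pow_zero, Subgroup.relIndex_eq_one] at hc
          exact hlt.not_ge hc
        rw [hc]
        exact Nat.le_self_pow hc0 p
      have hpos : 0 < (H ⊔ Subgroup.zpowers x).index :=
        Nat.pos_of_ne_zero Subgroup.index_ne_zero_of_finite
      have hlt' : (H ⊔ Subgroup.zpowers x).index < k := by
        rw [← hk, ← hrel]
        have h2 : 2 ≤ p := hp.two_le
        nlinarith
      obtain ⟨S', hS1, hS2⟩ := ih _ hlt' (H ⊔ Subgroup.zpowers x) rfl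
      refine ⟨insert x S', ?_, ?_⟩
      · rw [Finset.coe_insert, Set.insert_eq, Subgroup.closure_union,
          ← Subgroup.zpowers_eq_closure, ← sup_assoc]
        exact hS1
      · calc p ^ (insert x S').card ≤ p ^ (S'.card + 1) :=
              Nat.pow_le_pow_right hp.pos (Finset.card_insert_le x S')
          _ = p * p ^ S'.card := pow_succ' _ _
          _ ≤ H.relIndex (H ⊔ Subgroup.zpowers x) * (H ⊔ Subgroup.zpowers x).index :=
              Nat.mul_le_mul hple hS2
          _ = H.index := hrel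

theorem index_range_pow {V : Type*} [CommGroup V] [Finite V] (p : ℕ) :
    (powMonoidHom p : V →* V).range.index = Nat.card (powMonoidHom p : V →* V).ker := by
  have h1 := Subgroup.card_mul_index (powMonoidHom p : V →* V).ker
  rw [Subgroup.index_ker] at h1
  have h2 := Subgroup.card_mul_index (powMonoidHom p : V →* V).range
  have hpos : 0 < Nat.card (powMonoidHom p : V →* V).range := Nat.card_pos
  apply Nat.eq_of_mul_eq_mul_left hpos
  rw [h2, ← h1, mul_comm]

theorem closure_top_of_sup {V : Type*} [CommGroup V] [Finite V] {p : ℕ} [Fact p.Prime]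
    (hV : IsPGroup p V) (H : Subgroup V)
    (h : (powMonoidHom p : V →* V).range ⊔ H = ⊤) : H = ⊤ := by
  have key : ∀ k : ℕ, ∀ v : V, ∃ h' ∈ H, ∃ w : V, v = h' * w ^ (p ^ k) := by
    intro k
    induction k with
    | zero => intro v; exact ⟨1, H.one_mem, v, by simp⟩
    | succ k ih =>
      intro v
      obtain ⟨h', hh', w, rfl⟩ := ih v
      have hw : w ∈ (powMonoidHom p : V →* V).range ⊔ H := by rw [h]; exact Subgroup.mem_top w
      obtain ⟨y, ⟨u, rfl⟩, z, hz, rfl⟩ := Subgroup.mem_sup.mp hw
      refine ⟨h' * z ^ (p ^ k), H.mul_mem hh' (H.pow_mem hz _), u, ?_⟩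
      rw [powMonoidHom_apply, mul_pow, ← pow_mul, pow_succ, mul_comm (p ^ k) p, mul_assoc,
        mul_comm (z ^ p ^ k)]
  obtain ⟨e, he⟩ := IsPGroup.iff_card.mp hV
  rw [eq_top_iff]
  intro v _
  obtain ⟨h', hh', w, rfl⟩ := key e v
  rw [← he, pow_card_eq_one', mul_one]
  exact hh'

/-- Let V be a finite abelian p-group and α an automorphism of V of order p whose fixed-point subgroup has order p^n. Then V can be generated by pn elements: some subset of V with at most pn elements generates V. -/
theorem result {V : Type*} [CommGroup V] [Finite V] {p : ℕ} [Fact p.Prime] (hV : IsPGroup p V) (α : MulAut V) (hα : orderOf α = p) (n : ℕ) (hfix : Nat.card {v : V // α v = v} = p ^ n) : ∃ S : Finset V, S.card ≤ p * n ∧ Subgroup.closure (S : Set V) = ⊤ := by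
  have hp : p.Prime := Fact.out
  have hαp : α ^ p = 1 := hα ▸ pow_orderOf_eq_one α
  obtain ⟨S, hS1, hS2⟩ := greedy hV _ (powMonoidHom p : V →* V).range rfl
  refine ⟨S, ?_, closure_top_of_sup hV _ hS1⟩
  rw [index_range_pow] at hS2
  have hb := card_ker_le hp α hαp n hfix
  have h3 : p ^ S.card ≤ p ^ (n * p) := hS2.trans hb
  have h4 := (Nat.pow_le_pow_iff_right hp.one_lt).mp h3
  rw [mul_comm]; exact h4

end Cfsg.Agent.S3780
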