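import Mathlib
import Cfsg.Statements.S3784

set_option autoImplicit false
open Cfsg

namespace Cfsg.Agent.S3784

theorem odd_dvd_two_pow {T a : ℕ} (hodd : Odd T) (hd : T ∣ 2 ^ a) : T = 1 := by
  obtain ⟨m, -, rfl⟩ := (Nat.dvd_prime_pow Nat.prime_two).mp hd
  rcases m with _ | m
  · simp
  · exfalso
    have : Even (2 ^ (m + 1)) := by
      rw [pow_succ]; exact even_two.mul_left _
    exact (Nat.not_odd_iff_even.mpr this) hodd

theorem odd_geom_sum {x n : ℕ} (hx : Odd x) (hn : Odd n) :
    Odd (∑ i ∈ Finset.range n, x ^ i) := by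
  rw [Finset.odd_sum_iff_odd_card_odd]
  have : (Finset.range n).filter (fun i => Odd (x ^ i)) = Finset.range n := by
    apply Finset.filter_true_of_mem
    intro i _
    exact hx.pow
  rw [this, Finset.card_range]
  exact hn

theorem case_p_odd_a_odd {p a b : ℕ} (hp : Odd p) (hp2 : 2 ≤ p) (ha : Odd a) (ha2 : 2 ≤ a)
    (h : p ^ a = 2 ^ b + 1) : False := by
  have hsum := geom_sum_mul_add (p - 1) a
  have hp1 : p - 1 + 1 = p := by omega
  rw [hp1] at hsum
  have hdvd : (∑ i ∈ Finset.range a, p ^ i) ∣ 2 ^ b := by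
    refine ⟨p - 1, ?_⟩
    have := hsum.trans h
    exact (Nat.add_right_cancel this).symm
  have hS1 := odd_dvd_two_pow (odd_geom_sum hp ha) hdvd
  have hge : 1 + p ≤ ∑ i ∈ Finset.range a, p ^ i := by
    obtain ⟨k, rfl⟩ : ∃ k, a = k + 2 := ⟨a - 2, by omega⟩
    rw [Finset.sum_range_succ', Finset.sum_range_succ']
    simp only [pow_zero, zero_add, pow_one]
    omega
  omega

theorem sq_mod_four_of_odd {n : ℕ} (hn : Odd n) : n ^ 2 % 4 = 1 := by
  have h : n % 4 = 1 ∨ n % 4 = 3 := by
    obtain ⟨k, rfl⟩ := hn
    omega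
  rw [Nat.pow_mod]
  rcases h with h | h <;> rw [h]

theorem two_pow_mod_four {a : ℕ} (ha : 2 ≤ a) : 2 ^ a % 4 = 0 := by
  obtain ⟨k, rfl⟩ : ∃ k, a = k + 2 := ⟨a - 2, by omega⟩
  rw [pow_add]
  norm_num

theorem case_two_b_odd {q a b : ℕ} (hq : Odd q) (hq2 : 2 ≤ q) (hbo : Odd b)
    (h : 2 ^ a = q ^ b + 1) : b = 1 := by
  have hsum := geom_sum_mul (-(q : ℤ)) b
  rw [Odd.neg_pow hbo] at hsum
  set T : ℤ := ∑ i ∈ Finset.range b, (-(q : ℤ)) ^ i with hT
  have hTq : T * ((q : ℤ) + 1) = 2 ^ a := by
    have h' : ((2 : ℤ) ^ a) = (q : ℤ) ^ b + 1 := by exact_mod_cast h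
    rw [h']
    linear_combination -hsum
  have hTodd : Odd T := by
    rw [← ZMod.intCast_eq_one_iff_odd, hT]
    push_cast
    have hq1 : (q : ZMod 2) = 1 := ZMod.natCast_eq_one_iff_odd.mpr hq
    have hneg : (-1 : ZMod 2) = 1 := by decide
    rw [hq1, hneg]
    simp only [one_pow, Finset.sum_const, Finset.card_range, nsmul_eq_mul, mul_one]
    exact ZMod.natCast_eq_one_iff_odd.mpr hbo
  have hTpos : 0 < T := by
    by_contra hneg
    rw [not_lt] at hneg
    have h1 : T * ((q : ℤ) + 1) ≤ 0 := mul_nonpos_of_nonpos_of_nonneg hneg (by positivity)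
    have h2 : (0 : ℤ) < 2 ^ a := by positivity
    omega
  have hTdvd : T.natAbs ∣ 2 ^ a := by
    have : T ∣ ((2 ^ a : ℕ) : ℤ) := ⟨(q : ℤ) + 1, by push_cast; exact hTq.symm⟩
    have := Int.natAbs_dvd_natAbs.mpr this
    simpa using this
  have hTabs : T.natAbs = 1 := odd_dvd_two_pow (Int.natAbs_odd.mpr hTodd) hTdvd
  have hT1 : T = 1 := by omega
  rw [hT1, one_mul] at hTq
  have hq' : q + 1 = 2 ^ a := by exact_mod_cast hTq
  have hqb : q ^ b = q := by omega
  exact (Nat.pow_eq_self_iff (by omega : 1 < q)).mp hqb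

/-- Let p, q be primes and a, b positive integers with p^a = q^b + 1. Then either p = 2, b = 1, a is prime and q = 2^a − 1; or q = 2, a = 1, b is a power of 2 and p = 2^b + 1; or p^a = 9 and q^b = 8. -/
theorem result (p q a b : ℕ) (hp : p.Prime) (hq : q.Prime) (ha : 1 ≤ a) (hb : 1 ≤ b) (h : p ^ a = q ^ b + 1) : (p = 2 ∧ b = 1 ∧ a.Prime ∧ q + 1 = 2 ^ a) ∨ (q = 2 ∧ a = 1 ∧ (∃ m : ℕ, b = 2 ^ m) ∧ p = 2 ^ b + 1) ∨ (p ^ a = 9 ∧ q ^ b = 8) := by
  rcases hp.eq_two_or_odd' with rfl | hpodd
  · -- p = 2
    rcases hq.eq_two_or_odd' with rfl | hqodd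
    · exfalso
      have h1 : Even (2 ^ a) := Nat.even_pow.mpr ⟨even_two, by omega⟩
      have h2 : Even (2 ^ b) := Nat.even_pow.mpr ⟨even_two, by omega⟩
      rw [h] at h1
      exact (Nat.even_add_one.mp h1) h2
    · left
      have hq2 : 2 ≤ q := hq.two_le
      have hb1 : b = 1 := by
        rcases Nat.even_or_odd b with hbe | hbo
        · exfalso
          obtain ⟨c, rfl⟩ := hbe
          have hqc : Odd (q ^ c) := hqodd.pow
          have h4 : q ^ (c + c) % 4 = 1 := by
            rw [← two_mul, mul_comm, pow_mul]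
            exact sq_mod_four_of_odd hqc
          have ha1 : a = 1 := by
            by_contra hne
            have := two_pow_mod_four (by omega : 2 ≤ a)
            omega
          subst ha1
          have : 1 < q ^ (c + c) := Nat.one_lt_pow (by omega) (by omega)
          omega
        · exact case_two_b_odd hqodd hq2 hbo h
      subst hb1
      rw [pow_one] at h
      refine ⟨rfl, rfl, ?_, h.symm⟩
      have ha1 : a ≠ 1 := by
        rintro rfl
        omega
      have hP : (2 ^ a - 1).Prime := by
        have : 2 ^ a - 1 = q := by omega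
        rw [this]; exact hq
      exact (Nat.prime_of_pow_sub_one_prime ha1 hP).2
  · rcases hq.eq_two_or_odd' with rfl | hqodd
    · right
      have hp2 : 2 ≤ p := hp.two_le
      by_cases ha1 : a = 1
      · left
        subst ha1
        rw [pow_one] at h
        refine ⟨rfl, rfl, ?_, h⟩
        exact Nat.pow_of_pow_add_prime (by norm_num) (by omega) (h ▸ hp)
      · right
        rcases Nat.even_or_odd a with hae | hao
        · obtain ⟨c, rfl⟩ := hae
          have hc : 1 ≤ c := by omega
          set x := p ^ c with hx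
          have hxodd : Odd x := hpodd.pow
          have hx2 : 2 ≤ x := by
            have : 1 < p ^ c := Nat.one_lt_pow (by omega) (by omega)
            omega
          have hxx : x * x = 2 ^ b + 1 := by
            rw [hx, ← pow_add]; exact h
          have hprod : (x - 1) * (x + 1) = 2 ^ b := by
            have : (x - 1) * (x + 1) + 1 = x * x := by
              obtain ⟨k, hk⟩ : ∃ k, x = k + 1 := ⟨x - 1, by omega⟩
              rw [hk]; simp; ring
            omega
          obtain ⟨i, -, hi⟩ := (Nat.dvd_prime_pow Nat.prime_two).mp (Dvd.intro _ hprod)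
          obtain ⟨j, -, hj⟩ := (Nat.dvd_prime_pow Nat.prime_two).mp (Dvd.intro_left _ hprod)
          have hij : 2 ^ j = 2 ^ i + 2 := by omega
          have hi1 : i = 1 := by
            rcases Nat.lt_or_ge i 2 with hlt | hge
            · interval_cases i
              · exfalso
                rcases Nat.lt_or_ge j 2 with hj2 | hj2
                · interval_cases j <;> omega
                · have := two_pow_mod_four hj2; omega
              · rfl
            · exfalso
              have h4 := two_pow_mod_four hge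
              rcases Nat.lt_or_ge j 2 with hj2 | hj2
              · interval_cases j <;> omega
              · have := two_pow_mod_four hj2; omega
          subst hi1
          have hx3 : x = 3 := by omega
          have h9 : p ^ (c + c) = 9 := by
            rw [pow_add, ← hx, hx3]
            norm_num
          refine ⟨h9, ?_⟩
          rw [h9] at h
          omega
        · exfalso
          exact case_p_odd_a_odd hpodd hp2 hao (by omega) h
    · exfalso
      have h1 : Odd (p ^ a) := hpodd.pow
      have h2 : Odd (q ^ b) := hqodd.pow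
      rw [h] at h1
      exact (Nat.not_even_iff_odd.mpr h1) h2.add_one
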