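import Cfsg.Statements.S3790
import Cfsg.Agent.Lead.PChain

set_option autoImplicit false
open Cfsg

namespace Cfsg.Agent.S3790

open Cfsg.Agent.Lead.PChain

theorem chain_transfer {G : Type*} [Group G] {p q : ℕ} (hp : p.Prime) (hq : q.Prime) (hne : q ≠ p)
    {A B : Subgroup G} (hAB : A ≤ B) (hA : A.Normal) (hB : B.Normal) (m : ℕ)
    (hclaim : ∀ A' B' : Subgroup G, A ≤ A' → A' ≤ B' → B' ≤ B → A'.Normal → B'.Normal →
      (A'.relIndex B').Coprime q → Ch p m A' B') :
    ∀ {k : ℕ} {V0 V1 : Subgroup G}, Ch q k V0 V1 →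
      Ch p (k * m + m) (A ⊔ (V0 ⊓ B)) (A ⊔ (V1 ⊓ B)) := by
  haveI := hA; haveI := hB
  have hW : ∀ V : Subgroup G, A ⊔ (V ⊓ B) ≤ B := fun V => sup_le hAB inf_le_right
  intro k
  induction k with
  | zero =>
    intro V0 V1 h
    obtain ⟨h01, hV0, hV1, hc⟩ := Ch_zero.1 h
    haveI := hV0; haveI := hV1
    have h1 := hclaim (A ⊔ (V0 ⊓ B)) (A ⊔ (V1 ⊓ B)) le_sup_left
      (sup_le_sup_left (inf_le_inf_right B h01) A) (hW V1) inferInstance inferInstance
      (Nat.Coprime.coprime_dvd_left (sect_dvd hA hB hV0 h01) hc)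
    rwa [Nat.zero_mul, Nat.zero_add]
  | succ k ih =>
    intro V0 V1 h
    obtain ⟨C, D, hC, hCD, hDn, ⟨e, he⟩, hDV, hV1, hc⟩ := Ch_succ.1 h
    have hCn := hC.normal_right
    haveI := hCn; haveI := hDn; haveI := hV1
    have hd := sect_dvd hA hB hCn hCD
    rw [he] at hd
    have hcop : ((A ⊔ (C ⊓ B)).relIndex (A ⊔ (D ⊓ B))).Coprime p :=
      Nat.Coprime.coprime_dvd_left hd (Nat.Coprime.pow_left e ((Nat.coprime_primes hq hp).2 hne))
    have s1 : Ch p (k * m + m) (A ⊔ (V0 ⊓ B)) (A ⊔ (D ⊓ B)) :=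
      (ih hC).extend (sup_le_sup_left (inf_le_inf_right B hCD) A) inferInstance hcop
    have s2 : Ch p m (A ⊔ (D ⊓ B)) (A ⊔ (V1 ⊓ B)) :=
      hclaim _ _ le_sup_left (sup_le_sup_left (inf_le_inf_right B hDV) A) (hW V1)
        inferInstance inferInstance
        (Nat.Coprime.coprime_dvd_left (sect_dvd hA hB hDn hDV) hc)
    have s3 := s1.trans s2
    have e3 : (k + 1) * m + m = k * m + m + m := by ring
    rw [e3]; exact s3

theorem claim {G : Type*} [Group G] [Finite G] {p : ℕ} (hp : p.Prime) {r : ℕ} (q : Fin r → ℕ)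
    (hq : ∀ i, (q i).Prime ∧ q i ≠ p) (l : Fin r → ℕ) (hl : ∀ i, PLengthLE (q i) (l i) G)
    (T : Finset (Fin r)) :
    ∀ A B : Subgroup G, A ≤ B → A.Normal → B.Normal →
      (∀ s : ℕ, s.Prime → s ∣ A.relIndex B → s ≠ p → ∃ i ∈ T, q i = s) →
      Ch p (T.prod fun i => 1 + l i) A B := by
  classical
  induction T using Finset.induction_on with
  | empty =>
    intro A B hAB hA hB hprimes
    have hne : A.relIndex B ≠ 0 := Subgroup.index_ne_zero_of_finite
    have he : A.relIndex B = p ^ (A.relIndex B).primeFactorsList.length :=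
      Nat.eq_prime_pow_of_unique_prime_dvd hne (fun {s} hs hd => by
        by_contra hsp
        obtain ⟨i, hi, -⟩ := hprimes s hs hd hsp
        simp at hi)
    have h1 := Ch.of_pow hAB hA hB he
    rw [Finset.prod_empty]; exact h1
  | insert j T hj ih =>
    intro A B hAB hA hB hprimes
    rw [Finset.prod_insert hj]
    have hch : Ch (q j) (l j) (⊥ : Subgroup G) ⊤ := chain_of_plength (hq j).1 (hl j)
    have hcl : ∀ A' B' : Subgroup G, A ≤ A' → A' ≤ B' → B' ≤ B → A'.Normal → B'.Normal →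
        (A'.relIndex B').Coprime (q j) → Ch p (T.prod fun i => 1 + l i) A' B' := by
      intro A' B' hAA' hA'B' hB'B hA'n hB'n hcop
      apply ih A' B' hA'B' hA'n hB'n
      intro s hs hd hsp
      have hd' : s ∣ A.relIndex B := by
        have h1 := Subgroup.relIndex_mul_relIndex A A' B' hAA' hA'B'
        have h2 := Subgroup.relIndex_mul_relIndex A B' B (hAA'.trans hA'B') hB'B
        rw [← h2, ← h1]
        exact Dvd.dvd.mul_right (Dvd.dvd.mul_left hd _) _
      obtain ⟨i, hi, hqi⟩ := hprimes s hs hd' hsp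
      rcases Finset.mem_insert.1 hi with hij | hiT
      · exfalso
        rw [hij] at hqi
        rw [← hqi] at hd
        exact (hq j).1.one_lt.ne' (Nat.Coprime.eq_one_of_dvd hcop.symm hd)
      · exact ⟨i, hiT, hqi⟩
    have key := chain_transfer hp (hq j).1 (hq j).2 hAB hA hB _ hcl hch
    have e1 : A ⊔ (⊥ ⊓ B) = A := by simp
    have e2 : A ⊔ (⊤ ⊓ B) = B := by simp [hAB]
    rw [e1, e2] at key
    have e3 : (1 + l j) * (T.prod fun i => 1 + l i) =
        l j * (T.prod fun i => 1 + l i) + (T.prod fun i => 1 + l i) := by ring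
    rw [e3]; exact key

/-- Let G be a finite solvable group and p a prime. Suppose p₁, …, p_r are distinct primes, all different from p, that include every prime dividing the order of G other than p, and that G has p_i-length at most l_i for each i. Then G has p-length at most the product of the numbers 1 + l_i. -/
theorem result {G : Type*} [Group G] [Finite G] (hG : Group.IsSolvable G) (p : ℕ) [Fact p.Prime] (r : ℕ) (q : Fin r → ℕ) (hq : ∀ i, (q i).Prime ∧ q i ≠ p) (hinj : Function.Injective q) (hcover : ∀ s : ℕ, s.Prime → s ∣ Nat.card G → s ≠ p → ∃ i, q i = s) (l : Fin r → ℕ) (hl : ∀ i, Cfsg.PLengthLE (q i) (l i) G) : Cfsg.PLengthLE p (Finset.univ.prod fun i => 1 + l i) G := by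
  have hp : p.Prime := Fact.out
  apply plength_of_chain hp
  apply claim hp q hq l hl Finset.univ ⊥ ⊤ bot_le inferInstance inferInstance
  intro s hs hd hsp
  rw [Subgroup.relIndex_bot_left, Subgroup.card_top] at hd
  obtain ⟨i, hi⟩ := hcover s hs hd hsp
  exact ⟨i, Finset.mem_univ i, hi⟩

end Cfsg.Agent.S3790
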