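import Cfsg.Statements.S3791
import Cfsg.Agent.Lead.PChain

set_option autoImplicit false
open Cfsg

namespace Cfsg.Agent.S3791

open Cfsg.Agent.Lead.PChain

theorem main {G : Type*} [Group G] [Finite G] {r : ℕ} (q : Fin r → ℕ) (hq : ∀ i, (q i).Prime)
    (d : Fin r → ℕ)
    (hsec : ∀ i, ∀ A Q : Subgroup G, A ≤ Q → A.Normal → ∀ e : ℕ, A.relIndex Q = q i ^ e →
      Dser (d i) Q ≤ A) :
    ∀ (N : ℕ) (l : Fin r → ℕ) (A B : Subgroup G), (∑ i, l i) + A.relIndex B ≤ N → A ≤ B →
      A.Normal → B.Normal →
      (∀ s : ℕ, s.Prime → s ∣ A.relIndex B → ∃ i, q i = s) → (∀ i, Ch (q i) (l i) A B) →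
      Dser (∑ i, d i * l i) B ≤ A := by
  classical
  intro N
  induction N with
  | zero =>
    intro l A B hN hAB hA hB hprimes hch
    have hne : A.relIndex B ≠ 0 := Subgroup.index_ne_zero_of_finite
    omega
  | succ N ih =>
    intro l A B hN hAB hA hB hprimes hch
    haveI := hA; haveI := hB
    have hne : A.relIndex B ≠ 0 := Subgroup.index_ne_zero_of_finite
    by_cases hI : ∃ (i : Fin r) (k : ℕ) (Q : Subgroup G), l i = k + 1 ∧ A ≤ Q ∧ Q.Normal ∧
        (∃ e : ℕ, A.relIndex Q = q i ^ e) ∧ Ch (q i) k Q B
    · obtain ⟨i, k, Q, hk, hAQ, hQn, ⟨e, he⟩, hQB⟩ := hI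
      have hQleB : Q ≤ B := hQB.le
      have hl' : ∀ j, l j = Function.update l i k j + (if j = i then 1 else 0) := by
        intro j
        by_cases h : j = i
        · subst h; simp [hk]
        · simp [h]
      have hs1 : ∑ j, l j = ∑ j, Function.update l i k j + 1 := by
        rw [Finset.sum_congr rfl (fun j _ => hl' j), Finset.sum_add_distrib]
        simp
      have hs2 : ∑ j, d j * l j = ∑ j, d j * Function.update l i k j + d i := by
        have h2 : ∀ j, d j * l j =
            d j * Function.update l i k j + (if j = i then d i else 0) := by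
          intro j
          by_cases h : j = i
          · subst h; simp [hk, mul_add]
          · simp [h]
        rw [Finset.sum_congr rfl (fun j _ => h2 j), Finset.sum_add_distrib]
        simp
      have hmul := Subgroup.relIndex_mul_relIndex A Q B hAQ hQleB
      have hneAQ : A.relIndex Q ≠ 0 := Subgroup.index_ne_zero_of_finite
      have hrelle : Q.relIndex B ≤ A.relIndex B := by
        rw [← hmul]; exact Nat.le_mul_of_pos_left _ (Nat.pos_of_ne_zero hneAQ)
      have hstep : Dser (∑ j, d j * Function.update l i k j) B ≤ Q := by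
        apply ih (Function.update l i k) Q B (by omega) hQleB hQn hB
        · intro s hs hd
          apply hprimes s hs
          rw [← hmul]; exact Dvd.dvd.mul_left hd _
        · intro j
          by_cases h : j = i
          · subst h
            have h4 : Function.update l j k j = k := by simp
            rw [h4]; exact hQB
          · have h4 : Function.update l i k j = l j := by simp [h]
            rw [h4]
            have h3 := (hch j).sup_left (hq j) hQn
            rwa [sup_eq_left.2 hAQ, sup_eq_right.2 hQleB] at h3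
      rw [hs2, Dser_add]
      exact (Dser_mono hstep (d i)).trans (hsec i A Q hAQ hA e he)
    · by_cases hBA : B ≤ A
      · exact (Dser_le B _).trans hBA
      have hXB : A ⊔ Dser (∑ j, d j * l j) B ≤ B := sup_le hAB (Dser_le B _)
      have hcopX : ∀ i, (A.relIndex (A ⊔ Dser (∑ j, d j * l j) B)).Coprime (q i) := by
        intro i
        obtain ⟨F, hFn, hAF, hFB, hcF, hFA⟩ : ∃ F : Subgroup G, F.Normal ∧ A ≤ F ∧ F ≤ B ∧
            (A.relIndex F).Coprime (q i) ∧ ¬ F ≤ A := by
          rcases Nat.eq_zero_or_pos (l i) with h0 | hpos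
          · have h := hch i
            rw [h0] at h
            obtain ⟨-, -, -, hc⟩ := Ch_zero.1 h
            exact ⟨B, hB, hAB, le_rfl, hc, hBA⟩
          · obtain ⟨k, hk⟩ : ∃ k, l i = k + 1 := ⟨l i - 1, by omega⟩
            have h := hch i
            rw [hk] at h
            obtain ⟨V1, V2, hAV1, hV1n, hc1, hV12, hV2n, he2, hV2B⟩ := Ch.peel _ _ _ h
            refine ⟨V1, hV1n, hAV1, hV12.trans hV2B.le, hc1, ?_⟩
            intro hV1A
            have hV1eq : V1 = A := le_antisymm hV1A hAV1
            apply hI
            refine ⟨i, k, V2, hk, hAV1.trans hV12, hV2n, ?_, hV2B⟩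
            rw [← hV1eq]; exact he2
        have hmul := Subgroup.relIndex_mul_relIndex A F B hAF hFB
        have hneAF : A.relIndex F ≠ 0 := Subgroup.index_ne_zero_of_finite
        have hneFB : F.relIndex B ≠ 0 := Subgroup.index_ne_zero_of_finite
        have hAF1 : A.relIndex F ≠ 1 := fun h => hFA (Subgroup.relIndex_eq_one.1 h)
        have hlt : F.relIndex B < A.relIndex B := by
          rw [← hmul]
          have h2 : 2 ≤ A.relIndex F := by omega
          calc F.relIndex B < 2 * F.relIndex B := by omega
            _ ≤ A.relIndex F * F.relIndex B := Nat.mul_le_mul_right _ h2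
        have hDF : Dser (∑ j, d j * l j) B ≤ F := by
          apply ih l F B (by omega) hFB hFn hB
          · intro s hs hd
            apply hprimes s hs
            rw [← hmul]; exact Dvd.dvd.mul_left hd _
          · intro j
            have h3 := (hch j).sup_left (hq j) hFn
            rwa [sup_eq_left.2 hAF, sup_eq_right.2 hFB] at h3
        have hXF : A ⊔ Dser (∑ j, d j * l j) B ≤ F := sup_le hAF hDF
        have hmul2 := Subgroup.relIndex_mul_relIndex A _ F le_sup_left hXF
        exact Nat.Coprime.coprime_dvd_left (Dvd.intro _ hmul2) hcF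
      have hone : A.relIndex (A ⊔ Dser (∑ j, d j * l j) B) = 1 := by
        rw [Nat.eq_one_iff_not_exists_prime_dvd]
        intro s hs hd
        have hmul3 := Subgroup.relIndex_mul_relIndex A _ B le_sup_left hXB
        have hd' : s ∣ A.relIndex B := by
          rw [← hmul3]; exact Dvd.dvd.mul_right hd _
        obtain ⟨i, hi⟩ := hprimes s hs hd'
        have h5 := hcopX i
        rw [hi] at h5
        exact hs.one_lt.ne' (Nat.Coprime.eq_one_of_dvd h5.symm hd)
      exact le_sup_right.trans (Subgroup.relIndex_eq_one.1 hone)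

/-- The Hall–Higman bound on derived length: let G be a finite solvable group, let p₁, …, p_r be distinct primes that include every prime dividing the order of G, and suppose that for each i the Sylow p_i-subgroups of G have derived length at most d_i and G has p_i-length at most l_i. Then G has derived length at most Σ d_i l_i. -/
theorem result {G : Type*} [Group G] [Finite G] (hG : Group.IsSolvable G) (r : ℕ) (q : Fin r → ℕ) (hq : ∀ i, (q i).Prime) (hinj : Function.Injective q) (hcover : ∀ s : ℕ, s.Prime → s ∣ Nat.card G → ∃ i, q i = s) (d l : Fin r → ℕ) (hd : ∀ i, ∀ P : Subgroup G, (haveI := Fact.mk (hq i); ∃ S : Sylow (q i) G, (S : Subgroup G) = P) → derivedSeries ↥P (d i) = ⊥) (hl : ∀ i, Cfsg.PLengthLE (q i) (l i) G) : derivedSeries G (Finset.univ.sum fun i => d i * l i) = ⊥ := by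
  have hsec : ∀ i, ∀ A Q : Subgroup G, A ≤ Q → A.Normal → ∀ e : ℕ, A.relIndex Q = q i ^ e →
      Dser (d i) Q ≤ A := by
    intro i A Q hAQ hA e he
    refine Dser_section_le (hq i) (d i) (fun S => ?_) hAQ hA he
    have h := hd i (S : Subgroup G) ⟨S, rfl⟩
    rw [← Dser_subtype, h, Subgroup.map_bot]
  have h1 : ∀ s : ℕ, s.Prime → s ∣ (⊥ : Subgroup G).relIndex ⊤ → ∃ i, q i = s := by
    intro s hs hdv
    rw [Subgroup.relIndex_bot_left, Subgroup.card_top] at hdv
    exact hcover s hs hdv
  have h2 : ∀ i, Ch (q i) (l i) (⊥ : Subgroup G) ⊤ := fun i => chain_of_plength (hq i) (hl i)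
  have hmain := main q hq d hsec _ l ⊥ ⊤ le_rfl bot_le inferInstance inferInstance h1 h2
  rw [Dser_top]; exact le_bot_iff.1 hmain

end Cfsg.Agent.S3791
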