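import Mathlib
import Cfsg.Statements.S3800
import Cfsg.Agent.Helper19.Basic

set_option autoImplicit false
open Cfsg

namespace Cfsg.Agent.S3800

theorem result {G : Type*} [Group G] [Finite G] {p : ℕ} [Fact p.Prime] (N : Subgroup G) [N.Normal] (hN : (Nat.card N).Coprime p) (P : Subgroup G) (hP : IsPGroup p P) : Subgroup.normalizer ((P.map (QuotientGroup.mk' N)) : Set (G ⧸ N)) = (Subgroup.normalizer (P : Set G)).map (QuotientGroup.mk' N) ∧ Subgroup.centralizer ((P.map (QuotientGroup.mk' N)) : Set (G ⧸ N)) = (Subgroup.centralizer (P : Set G)).map (QuotientGroup.mk' N) := by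
  have hpN : ¬ p ∣ Nat.card N := fun h =>
    (Nat.Prime.coprime_iff_not_dvd (Fact.out : p.Prime)).mp hN.symm h
  obtain ⟨k, hk⟩ := IsPGroup.iff_card.mp hP
  have hcop : Nat.Coprime (Nat.card P) (Nat.card N) := by
    rw [hk]; exact Nat.Coprime.pow_left k hN.symm
  have hPN : P ⊓ N = ⊥ := (Subgroup.disjoint_of_coprime_natCard hcop).eq_bot
  have hidx : ¬ p ∣ (P.subgroupOf (P ⊔ N)).index := by
    have h1 : Nat.card ↥(P ⊔ N) = Nat.card N * Nat.card P := by
      have a1 := Subgroup.relIndex_mul_relIndex (H := (⊥ : Subgroup G)) (K := N) (L := P ⊔ N)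
        bot_le le_sup_right
      rw [Subgroup.relIndex_bot_left, Subgroup.relIndex_bot_left] at a1
      have a2 : N.relIndex (P ⊔ N) = Nat.card P := by
        rw [Subgroup.relIndex_sup_right, ← Subgroup.inf_relIndex_right, inf_comm, hPN,
          Subgroup.relIndex_bot_left]
      rw [← a1, a2]
    have h2 : Nat.card P * P.relIndex (P ⊔ N) = Nat.card ↥(P ⊔ N) := by
      have a1 := Subgroup.relIndex_mul_relIndex (H := (⊥ : Subgroup G)) (K := P) (L := P ⊔ N)
        bot_le le_sup_left
      rwa [Subgroup.relIndex_bot_left, Subgroup.relIndex_bot_left] at a1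
    have h3 : P.relIndex (P ⊔ N) = Nat.card N := by
      rw [h1, mul_comm] at h2
      exact Nat.eq_of_mul_eq_mul_right Nat.card_pos h2
    show ¬ p ∣ P.relIndex (P ⊔ N)
    rw [h3]; exact hpN
  have key : ∀ g : G, (QuotientGroup.mk' N g) ∈ Subgroup.normalizer
      ((P.map (QuotientGroup.mk' N) : Subgroup (G ⧸ N)) : Set (G ⧸ N)) →
      ∃ x ∈ Subgroup.normalizer (P : Set G), QuotientGroup.mk' N x = QuotientGroup.mk' N g := by
    intro g hg
    rw [Subgroup.mem_normalizer_iff] at hg
    have hgK : ∀ y ∈ P, g * y * g⁻¹ ∈ P ⊔ N := by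
      intro y hy
      have h1 : QuotientGroup.mk' N g * QuotientGroup.mk' N y * (QuotientGroup.mk' N g)⁻¹ ∈
          P.map (QuotientGroup.mk' N) := (hg _).mp ⟨y, hy, rfl⟩
      obtain ⟨y', hy', e⟩ := h1
      have h2 : y'⁻¹ * (g * y * g⁻¹) ∈ N := by
        rw [← QuotientGroup.eq]
        simpa using e
      have : g * y * g⁻¹ = y' * (y'⁻¹ * (g * y * g⁻¹)) := by group
      rw [this]
      exact mul_mem (Subgroup.mem_sup_left hy') (Subgroup.mem_sup_right h2)
    have hQ : IsPGroup p ((P.map (MulAut.conj g).toMonoidHom).subgroupOf (P ⊔ N)) :=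
      (hP.map _).comap_subtype
    obtain ⟨R, hR⟩ := hQ.exists_le_sylow
    obtain ⟨k, hk⟩ := Cfsg.Agent.Helper19.exists_conj_le_of_not_dvd_index R
      (P.subgroupOf (P ⊔ N)) hidx
    have hx : ∀ y ∈ P, ((k : G) * g) * y * ((k : G) * g)⁻¹ ∈ P := by
      intro y hy
      have h1 : (⟨g * y * g⁻¹, hgK y hy⟩ : ↥(P ⊔ N)) ∈ R := hR (by
        rw [Subgroup.mem_subgroupOf]
        exact ⟨y, hy, rfl⟩)
      have h2 := hk _ h1
      rw [Subgroup.mem_subgroupOf] at h2
      have e : ((k : G) * g) * y * ((k : G) * g)⁻¹ = (k : G) * (g * y * g⁻¹) * (k : G)⁻¹ := by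
        group
      rw [e]; simpa using h2
    have hxn : (k : G) * g ∈ Subgroup.normalizer (P : Set G) := by
      apply Cfsg.Agent.Helper19.mem_normalizer_of_map_conj_eq
      apply Subgroup.eq_of_le_of_card_ge
      · rintro _ ⟨y, hy, rfl⟩
        exact hx y hy
      · rw [Cfsg.Agent.Helper19.card_map_conj]
    obtain ⟨u, hu, n, hn, hun⟩ := Subgroup.mem_sup_of_normal_right.mp k.2
    refine ⟨n * g, ?_, ?_⟩
    · have : n * g = u⁻¹ * ((k : G) * g) := by rw [← hun]; group
      rw [this]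
      exact mul_mem (inv_mem (Subgroup.le_normalizer hu)) hxn
    · have hn1 : QuotientGroup.mk' N n = 1 := (QuotientGroup.eq_one_iff n).mpr hn
      rw [map_mul, hn1, one_mul]
  constructor
  · apply le_antisymm
    · intro x hx
      obtain ⟨g, rfl⟩ := QuotientGroup.mk'_surjective N x
      obtain ⟨y, hy, e⟩ := key g hx
      exact ⟨y, hy, e⟩
    · rintro _ ⟨g, hg0, rfl⟩
      have hg : g ∈ Subgroup.normalizer (P : Set G) := hg0
      rw [Subgroup.mem_normalizer_iff] at hg ⊢
      intro z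
      obtain ⟨y, rfl⟩ := QuotientGroup.mk'_surjective N z
      constructor
      · rintro ⟨y', hy', e⟩
        refine ⟨g * y' * g⁻¹, (hg y').mp hy', ?_⟩
        rw [← e]; simp
      · rintro ⟨y', hy', e⟩
        refine ⟨g⁻¹ * y' * g, ?_, ?_⟩
        · refine (hg _).mpr ?_
          have : g * (g⁻¹ * y' * g) * g⁻¹ = y' := by group
          rw [this]; exact hy'
        · rw [map_mul, map_mul, e, map_inv]; group
  · apply le_antisymm
    · intro x hx
      obtain ⟨g, rfl⟩ := QuotientGroup.mk'_surjective N x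
      have hxn : QuotientGroup.mk' N g ∈ Subgroup.normalizer
          ((P.map (QuotientGroup.mk' N) : Subgroup (G ⧸ N)) : Set (G ⧸ N)) :=
        Subgroup.centralizer_le_normalizer _ hx
      obtain ⟨y, hy, e⟩ := key g hxn
      refine ⟨y, ?_, e⟩
      show y ∈ Subgroup.centralizer (P : Set G)
      rw [Subgroup.mem_centralizer_iff]
      intro z hz
      have hc1 : y * z * y⁻¹ * z⁻¹ ∈ P :=
        mul_mem ((Subgroup.mem_normalizer_iff.mp hy z).mp hz) (inv_mem hz)
      have hc2 : y * z * y⁻¹ * z⁻¹ ∈ N := by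
        rw [← QuotientGroup.eq_one_iff]
        have h1 : (QuotientGroup.mk' N z) * (QuotientGroup.mk' N g) =
            (QuotientGroup.mk' N g) * (QuotientGroup.mk' N z) :=
          Subgroup.mem_centralizer_iff.mp hx _ ⟨z, hz, rfl⟩
        show QuotientGroup.mk' N (y * z * y⁻¹ * z⁻¹) = 1
        rw [map_mul, map_mul, map_mul, map_inv, map_inv, e, ← h1]; group
      have hc : y * z * y⁻¹ * z⁻¹ ∈ P ⊓ N := ⟨hc1, hc2⟩
      rw [hPN, Subgroup.mem_bot] at hc
      have : y * z = z * y := by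
        have := congrArg (fun t => t * z * y) hc
        simpa [mul_assoc] using this
      exact this.symm
    · rintro _ ⟨g, hg0, rfl⟩
      have hg : g ∈ Subgroup.centralizer (P : Set G) := hg0
      rw [Subgroup.mem_centralizer_iff] at hg ⊢
      rintro _ ⟨y, hy, rfl⟩
      rw [← map_mul, ← map_mul, hg y hy]

end Cfsg.Agent.S3800
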