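import Mathlib
import Cfsg.Statements.S3979
import Cfsg.Agent.Helper20.Schur

set_option autoImplicit false
open Cfsg

namespace Cfsg.Agent.S3979

/-- A finite cyclic group has trivial Schur multiplier: every finite stem extension of it is an isomorphism, said through `HasCyclicSchurMultiplier G 1`. -/
theorem result {G : Type*} [Group G] [Finite G] [IsCyclic G] : Cfsg.HasCyclicSchurMultiplier G 1 := by
  apply Cfsg.Agent.Helper20.hasCyclicSchurMultiplier_one_of_forall_ker_eq_bot
  intro Γ _ _ σ hσ
  obtain ⟨_, hcent, hcomm⟩ := hσ
  have hc : IsMulCommutative Γ := MonoidHom.isMulCommutative_of_isCyclic_of_ker_le_center σ hcent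
  have hbot : commutator Γ = ⊥ := by
    rw [eq_bot_iff, commutator_def, Subgroup.commutator_le]
    intro x _ y _
    rw [Subgroup.mem_bot, commutatorElement_eq_one_iff_commute]
    exact hc.is_comm.comm x y
  rw [eq_bot_iff, ← hbot]
  exact hcomm

end Cfsg.Agent.S3979
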