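import Mathlib
import Cfsg.Statements.S3950
import Cfsg.Agent.Helper20.Schur2
import Cfsg.Agent.S3979

set_option autoImplicit false
open Cfsg

namespace Cfsg.Agent.S3950

open Cfsg.Agent.Helper20
open scoped Function

universe u

theorem exists_pair_of_not_cyclic {G : Type u} [CommGroup G] [Finite G] (h : ¬ IsCyclic G) :
    ∃ (p : ℕ) (_ : Fact p.Prime) (f g : Additive G →+ ZMod p) (a b : Additive G),
      f a = 1 ∧ g a = 0 ∧ f b = 0 ∧ g b = 1 := by
  classical
  obtain ⟨ι, _, n, hn, ⟨e⟩⟩ := CommGroup.equiv_prod_multiplicative_zmod_of_finite G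
  by_cases hcop : Pairwise (Nat.Coprime on n)
  · exfalso
    apply h
    let e2 : Multiplicative (ZMod (∏ i, n i)) ≃* G :=
      ((AddEquiv.toMultiplicative (ZMod.prodEquivPi n hcop).toAddEquiv).trans
        (MulEquiv.piMultiplicative (fun i => ZMod (n i)))).trans e.symm
    exact isCyclic_of_surjective e2 e2.surjective
  · rw [Pairwise] at hcop
    push Not at hcop
    obtain ⟨i, j, hij, hnc⟩ := hcop
    have hg1 : Nat.gcd (n i) (n j) ≠ 1 := hnc
    set p := (Nat.gcd (n i) (n j)).minFac with hp
    have hpp : p.Prime := Nat.minFac_prime hg1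
    have hpi : p ∣ n i := (Nat.minFac_dvd _).trans (Nat.gcd_dvd_left _ _)
    have hpj : p ∣ n j := (Nat.minFac_dvd _).trans (Nat.gcd_dvd_right _ _)
    refine ⟨p, ⟨hpp⟩,
      AddMonoidHom.mk' (fun x : Additive G => ZMod.castHom hpi (ZMod p)
        (Multiplicative.toAdd (e (Additive.toMul x) i))) (by
          intro x y
          show ZMod.castHom hpi (ZMod p) (Multiplicative.toAdd (e (Additive.toMul (x + y)) i)) = _ + _
          rw [toMul_add, map_mul, Pi.mul_apply, toAdd_mul, map_add]),
      AddMonoidHom.mk' (fun x : Additive G => ZMod.castHom hpj (ZMod p)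
        (Multiplicative.toAdd (e (Additive.toMul x) j))) (by
          intro x y
          show ZMod.castHom hpj (ZMod p) (Multiplicative.toAdd (e (Additive.toMul (x + y)) j)) = _ + _
          rw [toMul_add, map_mul, Pi.mul_apply, toAdd_mul, map_add]),
      Additive.ofMul (e.symm (Pi.mulSingle i (Multiplicative.ofAdd 1))),
      Additive.ofMul (e.symm (Pi.mulSingle j (Multiplicative.ofAdd 1))), ?_, ?_, ?_, ?_⟩
    · show ZMod.castHom hpi (ZMod p) (Multiplicative.toAdd (e (e.symm (Pi.mulSingle i (Multiplicative.ofAdd 1))) i)) = 1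
      rw [MulEquiv.apply_symm_apply, Pi.mulSingle_eq_same, toAdd_ofAdd, map_one]
    · show ZMod.castHom hpj (ZMod p) (Multiplicative.toAdd (e (e.symm (Pi.mulSingle i (Multiplicative.ofAdd 1))) j)) = 0
      rw [MulEquiv.apply_symm_apply, Pi.mulSingle_eq_of_ne (Ne.symm hij), toAdd_one, map_zero]
    · show ZMod.castHom hpi (ZMod p) (Multiplicative.toAdd (e (e.symm (Pi.mulSingle j (Multiplicative.ofAdd 1))) i)) = 0
      rw [MulEquiv.apply_symm_apply, Pi.mulSingle_eq_of_ne hij, toAdd_one, map_zero]
    · show ZMod.castHom hpj (ZMod p) (Multiplicative.toAdd (e (e.symm (Pi.mulSingle j (Multiplicative.ofAdd 1))) j)) = 1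
      rw [MulEquiv.apply_symm_apply, Pi.mulSingle_eq_same, toAdd_ofAdd, map_one]

/-- the biadditive map `(x, y) ↦ f x * g y`, with values in a lifted copy of `ZMod p` -/
noncomputable def bil {A : Type u} [AddCommGroup A] (p : ℕ) (f g : A →+ ZMod p) :
    A →+ A →+ ULift.{u} (ZMod p) :=
  AddMonoidHom.mk' (fun x => AddMonoidHom.mk' (fun y => ULift.up (f x * g y))
    (by intro y y'; rw [map_add, mul_add]; rfl))
    (by intro x x'; ext y; show f (x + x') * g y = f x * g y + f x' * g y
        rw [map_add, add_mul])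

theorem bil_apply {A : Type u} [AddCommGroup A] (p : ℕ) (f g : A →+ ZMod p) (x y : A) :
    bil p f g x y = ULift.up (f x * g y) := rfl

/-- A finite abelian group has trivial Schur multiplier if and only if it is cyclic. -/
theorem result {G : Type*} [CommGroup G] [Finite G] : Cfsg.HasCyclicSchurMultiplier G 1 ↔ IsCyclic G := by
  constructor
  · intro hM
    by_contra hnc
    obtain ⟨p, hp, f, g, a, b, hfa, hga, hfb, hgb⟩ := exists_pair_of_not_cyclic hnc
    have hp' : p.Prime := hp.out
    have : NeZero p := ⟨hp'.pos.ne'⟩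
    set β := bil (A := Additive G) p f g with hβ
    let E : Multiplicative (Additive G) ≃* G := MulEquiv.multiplicativeAdditive G
    let σ : CExt (Additive G) (ULift (ZMod p)) β →* G := E.toMonoidHom.comp (CExt.proj β)
    have hker : σ.ker = (CExt.proj β).ker := by
      ext x
      rw [MonoidHom.mem_ker, MonoidHom.mem_ker]
      show E (CExt.proj β x) = 1 ↔ _
      rw [MulEquiv.map_eq_one_iff]
    have hgen : AddSubgroup.closure (Set.range fun q : Additive G × Additive G => β q.1 q.2 - β q.2 q.1) = ⊤ := by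
      rw [eq_top_iff]
      intro c _
      have h1 : (ULift.up (1 : ZMod p) : ULift (ZMod p)) ∈ AddSubgroup.closure
          (Set.range fun q : Additive G × Additive G => β q.1 q.2 - β q.2 q.1) := by
        apply AddSubgroup.subset_closure
        refine ⟨(a, b), ?_⟩
        show β a b - β b a = _
        rw [hβ, bil_apply, bil_apply, hfa, hgb, hfb, hga]
        apply ULift.ext
        show (1 : ZMod p) * 1 - 0 * 0 = 1
        ring
      have h2 : c = c.down.val • (ULift.up (1 : ZMod p) : ULift (ZMod p)) := by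
        apply ULift.ext
        show c.down = c.down.val • (1 : ZMod p)
        rw [nsmul_one, ZMod.natCast_zmod_val]
      rw [h2]
      exact AddSubgroup.nsmul_mem _ h1 _
    have hstem0 := CExt.isStemExtension_proj β hgen
    have hstem : IsStemExtension σ := by
      refine ⟨E.surjective.comp hstem0.1, ?_, ?_⟩
      · rw [hker]; exact hstem0.2.1
      · rw [hker]; exact hstem0.2.2
    obtain ⟨π, hπ⟩ := hM.2 (CExt (Additive G) (ULift (ZMod p)) β) σ hstem
    -- the kernel is nontrivial
    have hmem : CExt.incl β (Multiplicative.ofAdd (ULift.up (1 : ZMod p))) ∈ σ.ker := by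
      rw [hker, ← CExt.range_incl]
      exact ⟨_, rfl⟩
    obtain ⟨t, ht⟩ := hπ ⟨_, hmem⟩
    have ht1 : t = 1 := Subsingleton.elim _ _
    rw [ht1, map_one] at ht
    have h3 := congrArg Subtype.val ht
    have h4 : (1 : CExt (Additive G) (ULift (ZMod p)) β) = CExt.incl β (Multiplicative.ofAdd (ULift.up (1 : ZMod p))) := h3
    rw [← map_one (CExt.incl β)] at h4
    have h5 := CExt.incl_injective β h4
    have h6 : (0 : ZMod p) = 1 := congrArg (fun c : Multiplicative (ULift (ZMod p)) => (Multiplicative.toAdd c).down) h5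
    have : Nontrivial (ZMod p) := ZMod.nontrivial_iff.mpr hp'.one_lt.ne'
    exact zero_ne_one h6
  · intro hc
    exact Cfsg.Agent.S3979.result

end Cfsg.Agent.S3950
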