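import Mathlib
import Cfsg.Statements.S3951
import Cfsg.Agent.Helper20.Schur2

set_option autoImplicit false
open Cfsg

namespace Cfsg.Agent.S3951

open Cfsg.Agent.Helper20

/-- the biadditive map `((a,b),(a',b')) ↦ b * a'` -/
noncomputable def bil (m n : ℕ) (hnm : n ∣ m) : (ZMod m × ZMod n) →+ (ZMod m × ZMod n) →+ ZMod n :=
  AddMonoidHom.mk' (fun x => AddMonoidHom.mk' (fun y => x.2 * ZMod.castHom hnm (ZMod n) y.1)
    (by
      intro y y'
      show x.2 * ZMod.castHom hnm (ZMod n) (y + y').1 = _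
      rw [Prod.fst_add, map_add, mul_add]))
    (by
      intro x x'
      ext y
      show (x + x').2 * ZMod.castHom hnm (ZMod n) y.1 = x.2 * ZMod.castHom hnm (ZMod n) y.1 + x'.2 * ZMod.castHom hnm (ZMod n) y.1
      rw [Prod.snd_add, add_mul])

theorem bil_apply (m n : ℕ) (hnm : n ∣ m) (x y : ZMod m × ZMod n) :
    bil m n hnm x y = x.2 * ZMod.castHom hnm (ZMod n) y.1 := rfl

theorem central_ext_two_gen {Γ : Type*} [Group Γ] (x y : Γ) (Z : Subgroup Γ)
    (hZ : Z ≤ Subgroup.center Γ) (hw : x * y * x⁻¹ * y⁻¹ ∈ Z)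
    (hgen : ∀ g : Γ, ∃ z ∈ Z, ∃ i j : ℕ, g = z * x ^ i * y ^ j) :
    commutator Γ ≤ Subgroup.zpowers (x * y * x⁻¹ * y⁻¹) := by
  set w := x * y * x⁻¹ * y⁻¹ with hwdef
  have hwc : w ∈ Subgroup.center Γ := hZ hw
  have hWc : Subgroup.zpowers w ≤ Subgroup.center Γ := Subgroup.zpowers_le.mpr hwc
  have hWn : (Subgroup.zpowers w).Normal := by
    refine ⟨fun a ha g => ?_⟩
    have := Subgroup.mem_center_iff.mp (hWc ha) g
    have h2 : g * a * g⁻¹ = a := by rw [this]; group
    rw [h2]; exact ha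
  apply Subgroup.Normal.quotient_commutative_iff_commutator_le.mp
  refine ⟨⟨fun a b => ?_⟩⟩
  obtain ⟨g₁, rfl⟩ := QuotientGroup.mk_surjective a
  obtain ⟨g₂, rfl⟩ := QuotientGroup.mk_surjective b
  obtain ⟨z₁, hz₁, i, j, rfl⟩ := hgen g₁
  obtain ⟨z₂, hz₂, k, l, rfl⟩ := hgen g₂
  have hXY : Commute (QuotientGroup.mk x : Γ ⧸ Subgroup.zpowers w) (QuotientGroup.mk y) := by
    show (QuotientGroup.mk x : Γ ⧸ Subgroup.zpowers w) * QuotientGroup.mk y = QuotientGroup.mk y * QuotientGroup.mk x
    rw [← QuotientGroup.mk_mul, ← QuotientGroup.mk_mul, QuotientGroup.eq]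
    have hcomm := Subgroup.mem_center_iff.mp hwc (y * x)
    have : (x * y)⁻¹ * (y * x) = w⁻¹ := by
      have h1 : x * y = w * (y * x) := by rw [hwdef]; group
      rw [h1, ← hcomm]; group
    rw [this]
    exact inv_mem (Subgroup.mem_zpowers w)
  have hZ₁ : ∀ g : Γ ⧸ Subgroup.zpowers w, Commute (QuotientGroup.mk z₁ : Γ ⧸ Subgroup.zpowers w) g := by
    intro g
    obtain ⟨g', rfl⟩ := QuotientGroup.mk_surjective g
    show (QuotientGroup.mk z₁ : Γ ⧸ Subgroup.zpowers w) * QuotientGroup.mk g' = QuotientGroup.mk g' * QuotientGroup.mk z₁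
    rw [← QuotientGroup.mk_mul, ← QuotientGroup.mk_mul, Subgroup.mem_center_iff.mp (hZ hz₁) g']
  have hZ₂ : ∀ g : Γ ⧸ Subgroup.zpowers w, Commute (QuotientGroup.mk z₂ : Γ ⧸ Subgroup.zpowers w) g := by
    intro g
    obtain ⟨g', rfl⟩ := QuotientGroup.mk_surjective g
    show (QuotientGroup.mk z₂ : Γ ⧸ Subgroup.zpowers w) * QuotientGroup.mk g' = QuotientGroup.mk g' * QuotientGroup.mk z₂
    rw [← QuotientGroup.mk_mul, ← QuotientGroup.mk_mul, Subgroup.mem_center_iff.mp (hZ hz₂) g']
  have key : Commute (QuotientGroup.mk (z₁ * x ^ i * y ^ j) : Γ ⧸ Subgroup.zpowers w)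
      (QuotientGroup.mk (z₂ * x ^ k * y ^ l)) := by
    simp only [QuotientGroup.mk_mul, QuotientGroup.mk_pow]
    apply Commute.mul_left
    · apply Commute.mul_left
      · exact hZ₁ _
      · apply Commute.mul_right
        · apply Commute.mul_right
          · exact (hZ₂ _).symm
          · exact (Commute.refl _).pow_pow i k
        · exact hXY.pow_pow i l
    · apply Commute.mul_right
      · apply Commute.mul_right
        · exact (hZ₂ _).symm
        · exact hXY.symm.pow_pow j k
      · exact (Commute.refl _).pow_pow j l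
  exact key

/-- For positive integers `m` and `n` with `n` dividing `m`, the Schur multiplier of the abelian group `ZMod m × ZMod n` (written multiplicatively) is cyclic of order `n`. In particular the elementary abelian group of order `p ^ 2` has multiplier of order `p`. -/
theorem result (m n : ℕ) [NeZero m] [NeZero n] (hnm : n ∣ m) : Cfsg.HasCyclicSchurMultiplier (Multiplicative (ZMod m × ZMod n)) n := by
  constructor
  · refine ⟨CExt (ZMod m × ZMod n) (ZMod n) (bil m n hnm), inferInstance, inferInstance,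
      CExt.proj (bil m n hnm), ?_, ⟨CExt.kerEquiv (bil m n hnm)⟩⟩
    apply CExt.isStemExtension_proj
    rw [eq_top_iff]
    intro c _
    have h1 : (1 : ZMod n) ∈ AddSubgroup.closure (Set.range fun p : (ZMod m × ZMod n) × (ZMod m × ZMod n) =>
        bil m n hnm p.1 p.2 - bil m n hnm p.2 p.1) := by
      apply AddSubgroup.subset_closure
      refine ⟨(((0 : ZMod m), (1 : ZMod n)), ((1 : ZMod m), (0 : ZMod n))), ?_⟩
      show (1 : ZMod n) * ZMod.castHom hnm (ZMod n) 1 - 0 * ZMod.castHom hnm (ZMod n) 0 = 1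
      rw [map_one, map_zero]
      ring
    have h2 : c = c.val • (1 : ZMod n) := by
      rw [nsmul_one, ZMod.natCast_zmod_val]
    rw [h2]
    exact AddSubgroup.nsmul_mem _ h1 _
  · intro Γ _ _ σ hσ
    obtain ⟨hsurj, hcent, hcomm⟩ := hσ
    obtain ⟨x, hx⟩ := hsurj (Multiplicative.ofAdd ((1 : ZMod m), (0 : ZMod n)))
    obtain ⟨y, hy⟩ := hsurj (Multiplicative.ofAdd ((0 : ZMod m), (1 : ZMod n)))
    set w := x * y * x⁻¹ * y⁻¹ with hwdef
    have hwker : w ∈ σ.ker := by
      rw [MonoidHom.mem_ker, hwdef]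
      simp only [map_mul, map_inv]
      rw [mul_comm (σ x) (σ y)]
      group
    have hgen : ∀ g : Γ, ∃ z ∈ σ.ker, ∃ i j : ℕ, g = z * x ^ i * y ^ j := by
      intro g
      refine ⟨g * (x ^ (Multiplicative.toAdd (σ g)).1.val * y ^ (Multiplicative.toAdd (σ g)).2.val)⁻¹, ?_,
        (Multiplicative.toAdd (σ g)).1.val, (Multiplicative.toAdd (σ g)).2.val, by group⟩
      rw [MonoidHom.mem_ker, map_mul, map_inv, map_mul, map_pow, map_pow, hx, hy, ← ofAdd_nsmul,
        ← ofAdd_nsmul, ← ofAdd_add, mul_inv_eq_one]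
      apply Multiplicative.toAdd.injective
      rw [toAdd_ofAdd]
      apply Prod.ext
      · simp
      · simp
    have hker : σ.ker ≤ Subgroup.zpowers w :=
      hcomm.trans (central_ext_two_gen x y σ.ker hcent hwker hgen)
    have hwn : w ^ n = 1 := by
      have hyn : y ^ n ∈ Subgroup.center Γ := by
        apply hcent
        rw [MonoidHom.mem_ker, map_pow, hy, ← ofAdd_nsmul]
        have : n • ((0 : ZMod m), (1 : ZMod n)) = 0 := by
          apply Prod.ext
          · simp
          · simp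
        rw [this]; rfl
      have hwc : w ∈ Subgroup.center Γ := hcent hwker
      have h1 : x * y * x⁻¹ = w * y := by rw [hwdef]; group
      have h2 : x * y ^ n * x⁻¹ = w ^ n * y ^ n := by
        rw [← conj_pow, h1]
        exact Commute.mul_pow (Subgroup.mem_center_iff.mp hwc y).symm n
      have h3 : x * y ^ n * x⁻¹ = y ^ n := by
        rw [Subgroup.mem_center_iff.mp hyn x]; group
      rw [h3] at h2
      exact (mul_eq_right.mp h2.symm)
    exact exists_surjective_of_le_zpowers σ.ker w hwker hker n hwn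

end Cfsg.Agent.S3951
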