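import Mathlib
import Cfsg.Statements.S3952
import Cfsg.Agent.Helper6.SchurExp

set_option autoImplicit false
open Cfsg

namespace Cfsg.Agent.S3952

/-- If `A` is the Schur multiplier of the finite group `Q`, then the square of the exponent of `A` divides the order of `Q`. -/
theorem result {Q : Type*} [Group Q] [Finite Q] {A : Type*} [CommGroup A] (hA : Cfsg.HasSchurMultiplier Q A) : Monoid.exponent A ^ 2 ∣ Nat.card Q := by
  obtain ⟨⟨Γ, _, _, σ, hσ, ⟨e⟩⟩, -⟩ := hA
  obtain ⟨hs, hc, hd⟩ := hσ
  haveI : Finite A := Finite.of_equiv _ e.toEquiv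
  have hidx : σ.ker.index = Nat.card Q := by
    rw [Subgroup.index_ker, MonoidHom.range_eq_top.mpr hs, Subgroup.card_top]
  have hN : Nat.card Q * Nat.card A = Nat.card Γ := by
    rw [← hidx, ← Nat.card_congr e.toEquiv]
    exact Subgroup.index_mul_card σ.ker
  exact Cfsg.Agent.Helper6.SchurExp.exp_sq_dvd (σ.ker.subtype.comp e.symm.toMonoidHom)
    (fun a b h => e.symm.injective (Subtype.ext h))
    (fun a => hc (e.symm a).2) (fun a => hd (e.symm a).2) _ hN

end Cfsg.Agent.S3952
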