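import Cfsg.Statements.S3958
import Mathlib.GroupTheory.FiniteAbelian.Duality
import Mathlib.GroupTheory.Abelianization.Finite
import Mathlib.RingTheory.RootsOfUnity.AlgebraicallyClosed
import Mathlib.RingTheory.RootsOfUnity.Basic
import Mathlib.Analysis.Complex.Polynomial.Basic

set_option autoImplicit false
universe u v w
open Cfsg
open scoped commutatorElement

namespace Cfsg.Agent.S3958

theorem zmod_one_eq (m : Multiplicative (ZMod 1)) : m = 1 := by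
  apply Multiplicative.toAdd.injective
  exact @Subsingleton.elim (Fin 1) inferInstance _ _

/-- A copy of `Fin n` in an arbitrary universe, carrying no algebraic structure. -/
structure Box (n : ℕ) : Type v where
  /-- the underlying element -/
  val : Fin n

/-- `Box n` is equivalent to `Fin n`. -/
def boxEquiv (n : ℕ) : Box.{v} n ≃ Fin n := ⟨Box.val, Box.mk, fun _ => rfl, fun _ => rfl⟩

theorem stem_trivial {Γ : Type v} [Group Γ] (hΓ : Cfsg.HasCyclicSchurMultiplier Γ 1)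
    {S : Type w} [Group S] [Finite S] (f : S →* Γ) (hf : Cfsg.IsStemExtension f) :
    ∀ s, f s = 1 → s = 1 := by
  obtain ⟨hs, hc, hd⟩ := hf
  let e : Box.{v} (Nat.card S) ≃ S := (boxEquiv (Nat.card S)).trans (Finite.equivFin S).symm
  letI : Group (Box.{v} (Nat.card S)) := e.group
  haveI : Finite (Box.{v} (Nat.card S)) := Finite.of_equiv _ (boxEquiv (Nat.card S)).symm
  let em : Box.{v} (Nat.card S) ≃* S :=
    { e with map_mul' := fun x y => e.apply_symm_apply (e x * e y) }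
  have hstem : Cfsg.IsStemExtension (f.comp em.toMonoidHom) := by
    refine ⟨hs.comp em.surjective, ?_, ?_⟩
    · intro x hx
      have h1 : em x ∈ Subgroup.center S := hc (MonoidHom.mem_ker.mpr (MonoidHom.mem_ker.mp hx))
      rw [Subgroup.mem_center_iff] at h1 ⊢
      intro y
      apply em.injective
      rw [map_mul, map_mul]
      exact h1 (em y)
    · intro x hx
      have h1 : em x ∈ commutator S := hd (MonoidHom.mem_ker.mpr (MonoidHom.mem_ker.mp hx))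
      have h2 : em.symm (em x) ∈ Subgroup.map em.symm.toMonoidHom (commutator S) :=
        ⟨em x, h1, rfl⟩
      rw [em.symm_apply_apply] at h2
      rw [commutator_def, Subgroup.map_commutator] at h2
      exact Subgroup.commutator_mono le_top le_top h2
  obtain ⟨π', hπ'⟩ := hΓ.2 _ (f.comp em.toMonoidHom) hstem
  intro s hs1
  have hk : em.symm s ∈ (f.comp em.toMonoidHom).ker := by
    rw [MonoidHom.mem_ker]
    show f (em (em.symm s)) = 1
    rw [em.apply_symm_apply]; exact hs1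
  obtain ⟨m, hm⟩ := hπ' ⟨em.symm s, hk⟩
  rw [zmod_one_eq m, map_one] at hm
  have h3 : em.symm s = 1 := (congrArg Subtype.val hm).symm
  have h4 := congrArg em h3
  rwa [em.apply_symm_apply, map_one] at h4

theorem exists_root (m : ℕ) (hm : 0 < m) (u : ℂˣ) : ∃ d : ℂˣ, d ^ m = u := by
  obtain ⟨z, hz⟩ := IsAlgClosed.exists_pow_nat_eq (u : ℂ) hm
  have hz0 : z ≠ 0 := by
    intro h
    rw [h, zero_pow hm.ne'] at hz
    exact u.ne_zero hz.symm
  refine ⟨Units.mk0 z hz0, ?_⟩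
  apply Units.ext
  rw [Units.val_pow_eq_pow_val, Units.val_mk0]
  exact hz

theorem finite_sub_roots (C : Subgroup ℂˣ) [Finite C] (d : ℂˣ) (hd : d ^ Nat.card C = 1) :
    d ∈ C := by
  haveI : NeZero (Nat.card C) := ⟨Nat.card_pos.ne'⟩
  have hle : C ≤ rootsOfUnity (Nat.card C) ℂ := by
    intro c hc
    rw [mem_rootsOfUnity]
    have h := pow_card_eq_one' (G := C) (x := ⟨c, hc⟩)
    have h2 : (((⟨c, hc⟩ : C) ^ Nat.card C : C) : ℂˣ) = ((1 : C) : ℂˣ) := congrArg Subtype.val h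
    exact h2
  have hcard : Nat.card (rootsOfUnity (Nat.card C) ℂ) ≤ Nat.card C :=
    card_rootsOfUnity ℂ (Nat.card C)
  have heq := Subgroup.eq_of_le_of_card_ge hle hcard
  rw [heq, mem_rootsOfUnity]
  exact hd

theorem comm_le_ker {G : Type*} [Group G] (f : G →* ℂˣ) : commutator G ≤ f.ker := by
  rw [commutator_eq_closure, Subgroup.closure_le]
  rintro _ ⟨a, b, rfl⟩
  rw [SetLike.mem_coe, MonoidHom.mem_ker, map_commutatorElement, commutatorElement_def,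
    mul_comm (f a) (f b), mul_inv_cancel_right, mul_inv_cancel]

theorem chi_one {E : Type w} [Group E] (χ : E → ℂˣ)
    (hχmul : ∀ a b, a ∈ Subgroup.center E → b ∈ Subgroup.center E → χ (a * b) = χ a * χ b) :
    χ 1 = 1 := by
  have h := hχmul 1 1 (one_mem _) (one_mem _)
  rw [mul_one] at h
  have h2 : χ 1 * χ 1 = χ 1 * 1 := by rw [mul_one]; exact h.symm
  exact mul_left_cancel h2

theorem chi_inv {E : Type w} [Group E] (χ : E → ℂˣ)
    (hχmul : ∀ a b, a ∈ Subgroup.center E → b ∈ Subgroup.center E → χ (a * b) = χ a * χ b)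
    (a : E) (ha : a ∈ Subgroup.center E) : χ a⁻¹ = (χ a)⁻¹ := by
  have h := hχmul a⁻¹ a (inv_mem ha) ha
  rw [inv_mul_cancel, chi_one χ hχmul] at h
  exact eq_inv_of_mul_eq_one_left h.symm

theorem exists_chi {E : Type w} [Group E] [Finite E] (n₀ : E) (hz : n₀ ∈ Subgroup.center E)
    (hne : n₀ ≠ 1) : ∃ χ : E → ℂˣ,
      (∀ a b, a ∈ Subgroup.center E → b ∈ Subgroup.center E → χ (a * b) = χ a * χ b) ∧
        χ n₀ ≠ 1 := by
  classical
  letI : CommGroup (Subgroup.center E) :=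
    { (Subgroup.center E).toGroup with
      mul_comm := fun a b => Subtype.ext ((Subgroup.mem_center_iff.mp b.2) a.1) }
  obtain ⟨φ, hφ⟩ := CommGroup.exists_apply_ne_one_of_hasEnoughRootsOfUnity (Subgroup.center E) ℂ
    (a := ⟨n₀, hz⟩) (fun h => hne (congrArg Subtype.val h))
  refine ⟨fun e => if h : e ∈ Subgroup.center E then φ ⟨e, h⟩ else 1, ?_, ?_⟩
  · intro a b ha hb
    simp only [dif_pos ha, dif_pos hb, dif_pos (mul_mem ha hb)]
    exact map_mul φ ⟨a, ha⟩ ⟨b, hb⟩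
  · simp only [dif_pos hz]
    exact hφ

theorem exists_beta {E : Type w} [Group E] [Finite E] (K : Subgroup E) (ψ : E → ℂˣ)
    (hψ : ∀ a b, a ∈ K → b ∈ K → ψ (a * b) = ψ a * ψ b)
    (hψc : ∀ a, a ∈ K → a ∈ commutator E → ψ a = 1) :
    ∃ β : E →* ℂˣ, ∀ k, k ∈ K → β k = ψ k := by
  have Pψ : ∀ k k', k ∈ K → k' ∈ K → Abelianization.of k = Abelianization.of k' →
      ψ k = ψ k' := by
    intro k k' hk hk' h
    have h1 : k⁻¹ * k' ∈ commutator E := by
      rw [← Abelianization.ker_of E, MonoidHom.mem_ker, map_mul, map_inv, h, inv_mul_cancel]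
    have h2 := hψ k (k⁻¹ * k') hk (mul_mem (inv_mem hk) hk')
    rw [mul_inv_cancel_left, hψc _ (mul_mem (inv_mem hk) hk') h1, mul_one] at h2
    exact h2.symm
  let H : Subgroup (Abelianization E) := Subgroup.map Abelianization.of K
  have hsel : ∀ h : H, ∃ k, k ∈ K ∧ Abelianization.of k = h.1 :=
    fun h => Subgroup.mem_map.mp h.2
  let kk : H → E := fun h => (hsel h).choose
  have hkk : ∀ h : H, kk h ∈ K ∧ Abelianization.of (kk h) = h.1 :=
    fun h => (hsel h).choose_spec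
  let fhom : H →* ℂˣ := MonoidHom.mk' (fun h => ψ (kk h)) (by
    intro h₁ h₂
    show ψ (kk (h₁ * h₂)) = ψ (kk h₁) * ψ (kk h₂)
    rw [← hψ _ _ (hkk h₁).1 (hkk h₂).1]
    apply Pψ _ _ (hkk _).1 (mul_mem (hkk h₁).1 (hkk h₂).1)
    have e1 : Abelianization.of (kk (h₁ * h₂)) = h₁.1 * h₂.1 := (hkk (h₁ * h₂)).2
    have e2 : Abelianization.of (kk h₁ * kk h₂) = h₁.1 * h₂.1 := by
      rw [map_mul, (hkk h₁).2, (hkk h₂).2]
    exact e1.trans e2.symm)
  obtain ⟨β₀, hβ₀⟩ := MonoidHom.domRestrict_surjective (M := ℂ) H fhom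
  refine ⟨β₀.comp Abelianization.of, ?_⟩
  intro k hk
  have h1 := DFunLike.congr_fun hβ₀ ⟨Abelianization.of k, Subgroup.mem_map_of_mem _ hk⟩
  have h2 : β₀ (Abelianization.of k) =
      ψ (kk ⟨Abelianization.of k, Subgroup.mem_map_of_mem _ hk⟩) := h1
  show β₀ (Abelianization.of k) = ψ k
  rw [h2]
  exact Pψ _ _ (hkk _).1 hk (hkk _).2

theorem quot_construction {Γ : Type v} [Group Γ] (hΓ : Cfsg.HasCyclicSchurMultiplier Γ 1)
    {E : Type w} [Group E] [Finite E] (p : E →* Γ) (hp : Function.Surjective p)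
    (hc : p.ker ≤ Subgroup.center E) (χ : E → ℂˣ)
    (hχmul : ∀ a b, a ∈ Subgroup.center E → b ∈ Subgroup.center E → χ (a * b) = χ a * χ b)
    (m : ℕ) (hm : 0 < m) (β : E →* ℂˣ) (hβ : ∀ k, k ∈ p.ker → β k = χ k ^ m)
    (hall : ∀ ζ : ℂˣ, ζ ^ m = 1 → ∃ n, n ∈ p.ker ∧ n ∈ commutator E ∧ χ n = ζ)
    (n₀ : E) (hn₀ : n₀ ∈ p.ker) (hn₀' : n₀ ∈ commutator E) : χ n₀ = 1 := by
  have hχ1 : χ 1 = 1 := chi_one χ hχmul
  have hχinv : ∀ a, a ∈ Subgroup.center E → χ a⁻¹ = (χ a)⁻¹ := chi_inv χ hχmul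
  have hβc : ∀ c, c ∈ commutator E → β c = 1 := by
    intro c hc'
    exact MonoidHom.mem_ker.mp (comm_le_ker β hc')
  obtain ⟨S₀, hS₀⟩ : ∃ S₀ : Subgroup (E × ℂˣ), ∀ y, y ∈ S₀ ↔ β y.1 = y.2 ^ m :=
    ⟨(β.comp (MonoidHom.fst E ℂˣ)).eqLocus ((powMonoidHom m).comp (MonoidHom.snd E ℂˣ)),
      fun _ => Iff.rfl⟩
  haveI : Finite S₀ := by
    haveI : NeZero (m * Nat.card E) := ⟨(Nat.mul_pos hm Nat.card_pos).ne'⟩
    have hroot : ∀ x : S₀, x.1.2 ∈ rootsOfUnity (m * Nat.card E) ℂ := by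
      intro x
      rw [mem_rootsOfUnity, pow_mul, ← (hS₀ x.1).mp x.2, ← map_pow, pow_card_eq_one', map_one]
    let g : S₀ → E × rootsOfUnity (m * Nat.card E) ℂ := fun x => (x.1.1, ⟨x.1.2, hroot x⟩)
    apply Finite.of_injective g
    intro x y hxy
    apply Subtype.ext
    apply Prod.ext
    · have h1 : (g x).1 = (g y).1 := congrArg Prod.fst hxy
      exact h1
    · have h2 : ((g x).2 : ℂˣ) = (g y).2 := congrArg (fun t => (t.2 : ℂˣ)) hxy
      exact h2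
  obtain ⟨D₀, hD₀⟩ : ∃ D₀ : Subgroup S₀, ∀ x, x ∈ D₀ ↔ (x.1.1 ∈ p.ker ∧ x.1.2 = χ x.1.1) :=
    ⟨{ carrier := {x | x.1.1 ∈ p.ker ∧ x.1.2 = χ x.1.1}
       mul_mem' := fun {a b} ha hb => by
         obtain ⟨ha, ha'⟩ := ha
         obtain ⟨hb, hb'⟩ := hb
         show a.1.1 * b.1.1 ∈ p.ker ∧ a.1.2 * b.1.2 = χ (a.1.1 * b.1.1)
         refine ⟨mul_mem ha hb, ?_⟩
         rw [hχmul _ _ (hc ha) (hc hb), ha', hb']
       one_mem' := by
         show (1 : E) ∈ p.ker ∧ (1 : ℂˣ) = χ 1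
         exact ⟨one_mem _, hχ1.symm⟩
       inv_mem' := fun {a} ha => by
         obtain ⟨ha, ha'⟩ := ha
         show (a.1.1)⁻¹ ∈ p.ker ∧ (a.1.2)⁻¹ = χ (a.1.1)⁻¹
         refine ⟨inv_mem ha, ?_⟩
         rw [hχinv _ (hc ha), ha'] }, fun _ => Iff.rfl⟩
  have hcentS : ∀ x : S₀, x.1.1 ∈ Subgroup.center E → ∀ y : S₀, y * x = x * y := by
    intro x hx y
    apply Subtype.ext
    apply Prod.ext
    · exact (Subgroup.mem_center_iff.mp hx) y.1.1
    · exact mul_comm _ _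
  haveI : D₀.Normal := by
    constructor
    intro d hd s
    have h1 : s * d * s⁻¹ = d := by
      rw [hcentS d (hc ((hD₀ d).mp hd).1) s]; group
    rw [h1]; exact hd
  let q0 : S₀ →* Γ := p.comp ((MonoidHom.fst E ℂˣ).comp S₀.subtype)
  have hq0 : ∀ x : S₀, q0 x = p x.1.1 := fun _ => rfl
  have hD₀ker : D₀ ≤ q0.ker := by
    intro d hd
    rw [MonoidHom.mem_ker, hq0]
    exact MonoidHom.mem_ker.mp ((hD₀ d).mp hd).1
  let q : S₀ ⧸ D₀ →* Γ := QuotientGroup.lift D₀ q0 hD₀ker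
  have hq : ∀ x : S₀, q (QuotientGroup.mk x) = p x.1.1 := fun _ => rfl
  have hlift : ∀ n, n ∈ commutator E → ∃ y : S₀, y ∈ commutator S₀ ∧ y.1.1 = n ∧ y.1.2 = 1 := by
    intro n hn
    let pr1 : S₀ →* E := (MonoidHom.fst E ℂˣ).comp S₀.subtype
    let pr2 : S₀ →* ℂˣ := (MonoidHom.snd E ℂˣ).comp S₀.subtype
    have hpr1 : Function.Surjective pr1 := by
      intro e
      obtain ⟨d, hd⟩ := exists_root m hm (β e)
      exact ⟨⟨(e, d), (hS₀ _).mpr hd.symm⟩, rfl⟩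
    have h1 : n ∈ Subgroup.map pr1 (commutator S₀) := by
      rw [commutator_def, Subgroup.map_commutator, Subgroup.map_top_of_surjective pr1 hpr1,
        ← commutator_def]
      exact hn
    obtain ⟨y, hy, hyn⟩ := h1
    exact ⟨y, hy, hyn, MonoidHom.mem_ker.mp (comm_le_ker pr2 hy)⟩
  have hstem : Cfsg.IsStemExtension q := by
    refine ⟨?_, ?_, ?_⟩
    · intro γ
      obtain ⟨e, he⟩ := hp γ
      obtain ⟨d, hd⟩ := exists_root m hm (β e)
      exact ⟨QuotientGroup.mk ⟨(e, d), (hS₀ _).mpr hd.symm⟩, he⟩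
    · intro s hs
      obtain ⟨x, rfl⟩ := QuotientGroup.mk_surjective s
      rw [MonoidHom.mem_ker, hq] at hs
      rw [Subgroup.mem_center_iff]
      intro t
      obtain ⟨y, rfl⟩ := QuotientGroup.mk_surjective t
      show (QuotientGroup.mk (y * x) : S₀ ⧸ D₀) = QuotientGroup.mk (x * y)
      rw [hcentS x (hc (MonoidHom.mem_ker.mpr hs)) y]
    · intro s hs
      obtain ⟨x, rfl⟩ := QuotientGroup.mk_surjective s
      rw [MonoidHom.mem_ker, hq] at hs
      have hk : x.1.1 ∈ p.ker := MonoidHom.mem_ker.mpr hs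
      have hx : β x.1.1 = x.1.2 ^ m := (hS₀ x.1).mp x.2
      rw [hβ _ hk] at hx
      have hζ : (χ x.1.1 * (x.1.2)⁻¹) ^ m = 1 := by
        rw [mul_pow, inv_pow, hx, mul_inv_cancel]
      obtain ⟨n, hn, hn', hnζ⟩ := hall _ hζ
      obtain ⟨y, hy, hy1, hy2⟩ := hlift n hn'
      have hxy : (QuotientGroup.mk x : S₀ ⧸ D₀) = QuotientGroup.mk y := by
        rw [QuotientGroup.eq, hD₀]
        show (x.1.1)⁻¹ * y.1.1 ∈ p.ker ∧ (x.1.2)⁻¹ * y.1.2 = χ ((x.1.1)⁻¹ * y.1.1)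
        rw [hy1, hy2]
        refine ⟨mul_mem (inv_mem hk) hn, ?_⟩
        rw [hχmul _ _ (hc (inv_mem hk)) (hc hn), hχinv _ (hc hk), hnζ, mul_one,
          inv_mul_cancel_left]
      rw [hxy]
      have h2 : (QuotientGroup.mk y : S₀ ⧸ D₀) ∈
          Subgroup.map (QuotientGroup.mk' D₀) (commutator S₀) := ⟨y, hy, rfl⟩
      rw [commutator_def, Subgroup.map_commutator] at h2
      exact Subgroup.commutator_mono le_top le_top h2
  have hx₀ : ((n₀, 1) : E × ℂˣ) ∈ S₀ := by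
    rw [hS₀]
    show β n₀ = 1 ^ m
    rw [hβc n₀ hn₀', one_pow]
  have hq0' : q (QuotientGroup.mk ⟨(n₀, 1), hx₀⟩) = 1 := MonoidHom.mem_ker.mp hn₀
  have h1 := stem_trivial hΓ q hstem _ hq0'
  rw [QuotientGroup.eq_one_iff, hD₀] at h1
  exact h1.2.symm

theorem lemmaX {Γ : Type v} [Group Γ] (hΓ : Cfsg.HasCyclicSchurMultiplier Γ 1)
    {E : Type w} [Group E] [Finite E] (p : E →* Γ) (hp : Function.Surjective p)
    (hc : p.ker ≤ Subgroup.center E) (n₀ : E) (hn₀ : n₀ ∈ p.ker) (hn₀' : n₀ ∈ commutator E) :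
    n₀ = 1 := by
  by_contra hne
  obtain ⟨χ, hχmul, hχn₀⟩ := exists_chi n₀ (hc hn₀) hne
  have hχ1 : χ 1 = 1 := chi_one χ hχmul
  have hχinv : ∀ a, a ∈ Subgroup.center E → χ a⁻¹ = (χ a)⁻¹ := chi_inv χ hχmul
  obtain ⟨C, hCmem⟩ : ∃ C : Subgroup ℂˣ,
      ∀ d, d ∈ C ↔ ∃ n, n ∈ p.ker ∧ n ∈ commutator E ∧ χ n = d :=
    ⟨{ carrier := {d | ∃ n, n ∈ p.ker ∧ n ∈ commutator E ∧ χ n = d}
       mul_mem' := fun {x y} hx hy => by
         obtain ⟨a, ha, ha', rfl⟩ := hx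
         obtain ⟨b, hb, hb', rfl⟩ := hy
         exact ⟨a * b, mul_mem ha hb, mul_mem ha' hb', hχmul a b (hc ha) (hc hb)⟩
       one_mem' := ⟨1, one_mem _, one_mem _, hχ1⟩
       inv_mem' := fun {x} hx => by
         obtain ⟨a, ha, ha', rfl⟩ := hx
         exact ⟨a⁻¹, inv_mem ha, inv_mem ha', hχinv a (hc ha)⟩ }, fun _ => Iff.rfl⟩
  haveI : Finite C := by
    have hsub : (C : Set ℂˣ) ⊆ Set.range χ := by
      intro d hd
      obtain ⟨n, _, _, hn⟩ := (hCmem d).mp hd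
      exact ⟨n, hn⟩
    exact Set.finite_coe_iff.mpr ((Set.finite_range χ).subset hsub)
  have hm : 0 < Nat.card C := Nat.card_pos
  have hCpow : ∀ n, n ∈ p.ker → n ∈ commutator E → χ n ^ Nat.card C = 1 := by
    intro n hn hn'
    have hmem : χ n ∈ C := (hCmem _).mpr ⟨n, hn, hn', rfl⟩
    have h := pow_card_eq_one' (G := C) (x := ⟨χ n, hmem⟩)
    have h2 : (((⟨χ n, hmem⟩ : C) ^ Nat.card C : C) : ℂˣ) = ((1 : C) : ℂˣ) :=
      congrArg Subtype.val h
    exact h2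
  have hall : ∀ ζ : ℂˣ, ζ ^ Nat.card C = 1 →
      ∃ n, n ∈ p.ker ∧ n ∈ commutator E ∧ χ n = ζ := by
    intro ζ hζ
    exact (hCmem ζ).mp (finite_sub_roots C ζ hζ)
  obtain ⟨β, hβ⟩ := exists_beta p.ker (fun e => χ e ^ Nat.card C)
    (by
      intro a b ha hb
      show χ (a * b) ^ Nat.card C = χ a ^ Nat.card C * χ b ^ Nat.card C
      rw [hχmul a b (hc ha) (hc hb), mul_pow])
    (by
      intro a ha ha'
      exact hCpow a ha ha')
  exact hχn₀ (quot_construction hΓ p hp hc χ hχmul (Nat.card C) hm β hβ hall n₀ hn₀ hn₀')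

/-- Let `σ : Γ →* Q` be a finite stem extension of the finite group `Q` such that `Γ` has trivial Schur multiplier. Then `σ` is a Schur covering group of `Q`: for every finite stem extension `τ : Δ →* Q` with `Δ` in the same universe as `Q`, the kernel of `τ` is a homomorphic image of the kernel of `σ`. -/
theorem result {Q : Type u} [Group Q] [Finite Q] {Γ : Type v} [Group Γ] [Finite Γ] (σ : Γ →* Q) (hσ : Cfsg.IsStemExtension σ) (hΓ : Cfsg.HasCyclicSchurMultiplier Γ 1) (Δ : Type u) [Group Δ] [Finite Δ] (τ : Δ →* Q) (hτ : Cfsg.IsStemExtension τ) : ∃ π : σ.ker →* τ.ker, Function.Surjective π := by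
  obtain ⟨hσs, hσc, hσd⟩ := hσ
  obtain ⟨hτs, hτc, hτd⟩ := hτ
  obtain ⟨P, hPmem⟩ : ∃ P : Subgroup (Γ × Δ), ∀ y, y ∈ P ↔ σ y.1 = τ y.2 :=
    ⟨(σ.comp (MonoidHom.fst Γ Δ)).eqLocus (τ.comp (MonoidHom.snd Γ Δ)), fun _ => Iff.rfl⟩
  obtain ⟨p1, hp1⟩ : ∃ p1 : P →* Γ, ∀ q, p1 q = q.1.1 :=
    ⟨(MonoidHom.fst Γ Δ).comp P.subtype, fun _ => rfl⟩
  obtain ⟨p2, hp2⟩ : ∃ p2 : P →* Δ, ∀ q, p2 q = q.1.2 :=
    ⟨(MonoidHom.snd Γ Δ).comp P.subtype, fun _ => rfl⟩
  have hP : ∀ q : P, σ (p1 q) = τ (p2 q) := by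
    intro q; rw [hp1, hp2]; exact (hPmem q.1).mp q.2
  have hp1s : Function.Surjective p1 := by
    intro g
    obtain ⟨x, hx⟩ := hτs (σ g)
    exact ⟨⟨(g, x), (hPmem _).mpr hx.symm⟩, by rw [hp1]⟩
  have hp2s : Function.Surjective p2 := by
    intro d
    obtain ⟨x, hx⟩ := hσs (τ d)
    exact ⟨⟨(x, d), (hPmem _).mpr hx⟩, by rw [hp2]⟩
  have hp1c : p1.ker ≤ Subgroup.center P := by
    intro q hq
    rw [MonoidHom.mem_ker] at hq
    have hq1 : q.1.1 = 1 := by rw [← hp1]; exact hq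
    have hq2 : q.1.2 ∈ Subgroup.center Δ := by
      apply hτc
      rw [MonoidHom.mem_ker, ← hp2, ← hP q, hq, map_one]
    rw [Subgroup.mem_center_iff]
    intro r
    apply Subtype.ext
    apply Prod.ext
    · show r.1.1 * q.1.1 = q.1.1 * r.1.1
      rw [hq1, mul_one, one_mul]
    · show r.1.2 * q.1.2 = q.1.2 * r.1.2
      exact (Subgroup.mem_center_iff.mp hq2) r.1.2
  have hX : ∀ n, n ∈ p1.ker → n ∈ commutator P → n = 1 :=
    fun n hn hn' => lemmaX hΓ p1 hp1s hp1c n hn hn'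
  have hc1 : ∀ a, a ∈ commutator Γ → ∃ r, r ∈ commutator P ∧ p1 r = a := by
    intro a ha
    have h1 : a ∈ Subgroup.map p1 (commutator P) := by
      rw [commutator_def, Subgroup.map_commutator, Subgroup.map_top_of_surjective p1 hp1s,
        ← commutator_def]
      exact ha
    obtain ⟨r, hr, hra⟩ := h1
    exact ⟨r, hr, hra⟩
  have hc2 : ∀ t, t ∈ commutator Δ → ∃ r, r ∈ commutator P ∧ p2 r = t := by
    intro a ha
    have h1 : a ∈ Subgroup.map p2 (commutator P) := by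
      rw [commutator_def, Subgroup.map_commutator, Subgroup.map_top_of_surjective p2 hp2s,
        ← commutator_def]
      exact ha
    obtain ⟨r, hr, hra⟩ := h1
    exact ⟨r, hr, hra⟩
  have huniq : ∀ r r', r ∈ commutator P → r' ∈ commutator P → p1 r = p1 r' → r = r' := by
    intro r r' hr hr' h
    have h1 : r⁻¹ * r' = 1 := by
      apply hX
      · rw [MonoidHom.mem_ker, map_mul, map_inv, h, inv_mul_cancel]
      · exact mul_mem (inv_mem hr) hr'
    exact inv_mul_eq_one.mp h1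
  have hsel : ∀ a : σ.ker, ∃ r, r ∈ commutator P ∧ p1 r = a.1 := fun a => hc1 a.1 (hσd a.2)
  let ρ : σ.ker → P := fun a => (hsel a).choose
  have hρ : ∀ a : σ.ker, ρ a ∈ commutator P ∧ p1 (ρ a) = a.1 := fun a => (hsel a).choose_spec
  have hρmul : ∀ a b : σ.ker, ρ (a * b) = ρ a * ρ b := by
    intro a b
    have e1 : p1 (ρ (a * b)) = a.1 * b.1 := (hρ (a * b)).2
    have e2 : p1 (ρ a * ρ b) = a.1 * b.1 := by rw [map_mul, (hρ a).2, (hρ b).2]
    exact huniq _ _ (hρ _).1 (mul_mem (hρ a).1 (hρ b).1) (e1.trans e2.symm)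
  have hρker : ∀ a : σ.ker, p2 (ρ a) ∈ τ.ker := by
    intro a
    rw [MonoidHom.mem_ker, ← hP, (hρ a).2]
    exact MonoidHom.mem_ker.mp a.2
  refine ⟨MonoidHom.mk' (fun a => ⟨p2 (ρ a), hρker a⟩) ?_, ?_⟩
  · intro a b
    apply Subtype.ext
    show p2 (ρ (a * b)) = p2 (ρ a) * p2 (ρ b)
    rw [hρmul, map_mul]
  · intro t
    obtain ⟨r, hr, hrt⟩ := hc2 t.1 (hτd t.2)
    have ha : p1 r ∈ σ.ker := by
      rw [MonoidHom.mem_ker, hP, hrt]
      exact MonoidHom.mem_ker.mp t.2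
    refine ⟨⟨p1 r, ha⟩, ?_⟩
    apply Subtype.ext
    show p2 (ρ ⟨p1 r, ha⟩) = t.1
    have h1 : ρ ⟨p1 r, ha⟩ = r := huniq _ _ (hρ _).1 hr (hρ ⟨p1 r, ha⟩).2
    rw [h1, hrt]

end Cfsg.Agent.S3958
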