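import Cfsg.Statements.S3978
import Cfsg.Agent.Helper11.StemCover
import Cfsg.Agent.S3958
import Mathlib.GroupTheory.QuotientGroup.Finite

set_option autoImplicit false
universe u
open Cfsg Cfsg.Agent.Helper11

namespace Cfsg.Agent.S3978

theorem backward {Q : Type u} [Group Q] [Finite Q]
    (hlift : ∀ (n : ℕ) (γ : Q →* (GL (Fin n) ℂ ⧸ Subgroup.center (GL (Fin n) ℂ))),
      ∃ ρ : Q →* GL (Fin n) ℂ, (QuotientGroup.mk' (Subgroup.center (GL (Fin n) ℂ))).comp ρ = γ) :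
    Cfsg.HasCyclicSchurMultiplier Q 1 := by
  refine ⟨⟨Q, inferInstance, inferInstance, MonoidHom.id Q,
    ⟨Function.surjective_id, ?_, ?_⟩, ⟨?_⟩⟩, ?_⟩
  · intro x hx
    rw [MonoidHom.mem_ker] at hx
    have : x = 1 := hx
    rw [this]; exact Subgroup.one_mem _
  · intro x hx
    rw [MonoidHom.mem_ker] at hx
    have : x = 1 := hx
    rw [this]; exact Subgroup.one_mem _
  · exact
      { toFun := fun _ => 1
        invFun := fun _ => 1
        left_inv := by
          intro x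
          apply Subtype.ext
          have := x.2
          rw [MonoidHom.mem_ker] at this
          exact this.symm
        right_inv := by
          intro x
          exact (Cfsg.Agent.S3958.zmod_one_eq x).symm
        map_mul' := by intro x y; exact (one_mul 1).symm }
  · intro Δ _ _ τ hτ
    obtain ⟨hτs, hτc, hτd⟩ := hτ
    have hinj : ∀ t, t ∈ τ.ker → t = 1 := by
      intro t ht
      by_contra hne
      obtain ⟨n, M, hMc, hMt⟩ := sc_exists_rep τ hτs hτc t ht hne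
      obtain ⟨γ, hγ⟩ := sc_exists_gamma τ hτs (Subgroup.center (GL (Fin n) ℂ)) M hMc
      obtain ⟨ρ, hρ⟩ := hlift n γ
      have hρ' : ∀ q, (QuotientGroup.mk (ρ q) :
          GL (Fin n) ℂ ⧸ Subgroup.center (GL (Fin n) ℂ)) = γ q :=
        fun q => DFunLike.congr_fun hρ q
      have hratio : ∀ x : Δ, M x * ((ρ.comp τ) x)⁻¹ ∈ Subgroup.center (GL (Fin n) ℂ) := by
        intro x
        apply (QuotientGroup.eq_one_iff _).mp
        show (QuotientGroup.mk (M x * (ρ (τ x))⁻¹) :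
          GL (Fin n) ℂ ⧸ Subgroup.center (GL (Fin n) ℂ)) = 1
        rw [QuotientGroup.mk_mul, QuotientGroup.mk_inv, ← hγ, hρ', mul_inv_cancel]
      have h1 := sc_eq_on_comm M (ρ.comp τ) hratio t (hτd ht)
      have h2 : M t = ρ (τ t) := h1
      rw [MonoidHom.mem_ker.mp ht, map_one] at h2
      exact hMt h2
    refine ⟨1, ?_⟩
    intro k
    refine ⟨1, ?_⟩
    apply Subtype.ext
    rw [hinj k.1 k.2]
    rfl

theorem det_fix (n : ℕ) (g : GL (Fin n) ℂ) :
    ∃ u : ℂˣ, Matrix.GeneralLinearGroup.det (Matrix.GeneralLinearGroup.scalar (Fin n) u * g) = 1 := by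
  rcases Nat.eq_zero_or_pos n with h0 | hpos
  · subst h0
    refine ⟨1, ?_⟩
    apply Units.ext
    exact Matrix.det_isEmpty
  · obtain ⟨u, hu⟩ := Cfsg.Agent.S3958.exists_root n hpos (Matrix.GeneralLinearGroup.det g)⁻¹
    refine ⟨u, ?_⟩
    rw [map_mul, Matrix.GeneralLinearGroup.det_scalar, Fintype.card_fin, hu, inv_mul_cancel]

theorem scalar_inj (n : ℕ) (hpos : 0 < n) (u u' : ℂˣ)
    (h : Matrix.GeneralLinearGroup.scalar (Fin n) u = Matrix.GeneralLinearGroup.scalar (Fin n) u') :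
    u = u' := by
  have h1 := congrArg (fun g : GL (Fin n) ℂ => (g : Matrix (Fin n) (Fin n) ℂ) ⟨0, hpos⟩ ⟨0, hpos⟩) h
  apply Units.ext
  simpa [Matrix.GeneralLinearGroup.coe_scalar, Matrix.scalar_apply] using h1

theorem forward_zero {Q : Type u} [Group Q]
    (γ : Q →* (GL (Fin 0) ℂ ⧸ Subgroup.center (GL (Fin 0) ℂ))) :
    ∃ ρ : Q →* GL (Fin 0) ℂ, (QuotientGroup.mk' (Subgroup.center (GL (Fin 0) ℂ))).comp ρ = γ := by
  refine ⟨1, ?_⟩
  apply MonoidHom.ext
  intro q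
  obtain ⟨g, hg⟩ := QuotientGroup.mk_surjective (γ q)
  have h1 : g = 1 := Units.ext (Subsingleton.elim _ _)
  rw [← hg, h1]
  rfl

theorem forward_pos {Q : Type u} [Group Q] [Finite Q] (hQ : Cfsg.HasCyclicSchurMultiplier Q 1)
    (n : ℕ) (hpos : 0 < n) (γ : Q →* (GL (Fin n) ℂ ⧸ Subgroup.center (GL (Fin n) ℂ))) :
    ∃ ρ : Q →* GL (Fin n) ℂ, (QuotientGroup.mk' (Subgroup.center (GL (Fin n) ℂ))).comp ρ = γ := by
  classical
  haveI : NeZero n := ⟨hpos.ne'⟩
  have hZ1 : ∀ u : ℂˣ, Matrix.GeneralLinearGroup.scalar (Fin n) u ∈ Subgroup.center (GL (Fin n) ℂ) :=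
    fun u => Subgroup.mem_center_iff.mpr
      (fun g => (Matrix.GeneralLinearGroup.scalar_commute u g).symm)
  have hZ2 : ∀ z, z ∈ Subgroup.center (GL (Fin n) ℂ) →
      ∃ u : ℂˣ, Matrix.GeneralLinearGroup.scalar (Fin n) u = z := by
    intro z hz
    rw [Matrix.GeneralLinearGroup.center_eq_range_scalar] at hz
    exact hz
  have hmk1 : ∀ u : ℂˣ, (QuotientGroup.mk (Matrix.GeneralLinearGroup.scalar (Fin n) u) :
      GL (Fin n) ℂ ⧸ Subgroup.center (GL (Fin n) ℂ)) = 1 :=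
    fun u => (QuotientGroup.eq_one_iff _).mpr (hZ1 u)
  obtain ⟨E₀, hE₀⟩ : ∃ E₀ : Subgroup (Q × GL (Fin n) ℂ), ∀ y, y ∈ E₀ ↔
      (γ y.1 = QuotientGroup.mk y.2 ∧ Matrix.GeneralLinearGroup.det y.2 = 1) :=
    ⟨((γ.comp (MonoidHom.fst Q (GL (Fin n) ℂ))).eqLocus
        ((QuotientGroup.mk' (Subgroup.center (GL (Fin n) ℂ))).comp
          (MonoidHom.snd Q (GL (Fin n) ℂ)))) ⊓
      (Matrix.GeneralLinearGroup.det.comp (MonoidHom.snd Q (GL (Fin n) ℂ))).ker,
      fun _ => Subgroup.mem_inf⟩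
  obtain ⟨p, hp⟩ : ∃ p : E₀ →* Q, ∀ x, p x = x.1.1 :=
    ⟨(MonoidHom.fst Q (GL (Fin n) ℂ)).comp E₀.subtype, fun _ => rfl⟩
  obtain ⟨pg, hpg⟩ : ∃ pg : E₀ →* GL (Fin n) ℂ, ∀ x, pg x = x.1.2 :=
    ⟨(MonoidHom.snd Q (GL (Fin n) ℂ)).comp E₀.subtype, fun _ => rfl⟩
  have hmem : ∀ x : E₀, γ (p x) = QuotientGroup.mk (pg x) ∧
      Matrix.GeneralLinearGroup.det (pg x) = 1 := by
    intro x; rw [hp, hpg]; exact (hE₀ x.1).mp x.2
  have hps : Function.Surjective p := by
    intro q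
    obtain ⟨g, hg⟩ := QuotientGroup.mk_surjective (γ q)
    obtain ⟨u, hu⟩ := det_fix n g
    refine ⟨⟨(q, Matrix.GeneralLinearGroup.scalar (Fin n) u * g), (hE₀ _).mpr ⟨?_, hu⟩⟩, ?_⟩
    · show γ q = QuotientGroup.mk (Matrix.GeneralLinearGroup.scalar (Fin n) u * g)
      rw [QuotientGroup.mk_mul, hmk1, one_mul, hg]
    · rw [hp]
  have hkerZ : ∀ x, x ∈ p.ker → pg x ∈ Subgroup.center (GL (Fin n) ℂ) := by
    intro x hx
    apply (QuotientGroup.eq_one_iff _).mp
    rw [← (hmem x).1, MonoidHom.mem_ker.mp hx, map_one]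
  have hpc : p.ker ≤ Subgroup.center E₀ := by
    intro x hx
    have hx1 : x.1.1 = 1 := by rw [← hp]; exact MonoidHom.mem_ker.mp hx
    have hx2 : x.1.2 ∈ Subgroup.center (GL (Fin n) ℂ) := by rw [← hpg]; exact hkerZ x hx
    rw [Subgroup.mem_center_iff]
    intro y
    apply Subtype.ext
    apply Prod.ext
    · show y.1.1 * x.1.1 = x.1.1 * y.1.1
      rw [hx1, mul_one, one_mul]
    · show y.1.2 * x.1.2 = x.1.2 * y.1.2
      exact (Subgroup.mem_center_iff.mp hx2) y.1.2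
  haveI : Finite p.ker := by
    have hroot : ∀ u : rootsOfUnity n ℂ,
        ((1, Matrix.GeneralLinearGroup.scalar (Fin n) (u : ℂˣ)) : Q × GL (Fin n) ℂ) ∈ E₀ := by
      intro u
      rw [hE₀]
      refine ⟨?_, ?_⟩
      · show γ 1 = QuotientGroup.mk (Matrix.GeneralLinearGroup.scalar (Fin n) (u : ℂˣ))
        rw [hmk1, map_one]
      · show Matrix.GeneralLinearGroup.det (Matrix.GeneralLinearGroup.scalar (Fin n) (u : ℂˣ)) = 1
        rw [Matrix.GeneralLinearGroup.det_scalar, Fintype.card_fin]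
        exact (mem_rootsOfUnity _ _).mp u.2
    let f : rootsOfUnity n ℂ → p.ker := fun u =>
      ⟨⟨(1, Matrix.GeneralLinearGroup.scalar (Fin n) (u : ℂˣ)), hroot u⟩, by
        rw [MonoidHom.mem_ker, hp]⟩
    apply Finite.of_surjective f
    intro x
    obtain ⟨u, hu⟩ := hZ2 _ (hkerZ x.1 x.2)
    have hdet := (hmem x.1).2
    rw [← hu, Matrix.GeneralLinearGroup.det_scalar, Fintype.card_fin] at hdet
    refine ⟨⟨u, (mem_rootsOfUnity _ _).mpr hdet⟩, ?_⟩
    apply Subtype.ext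
    apply Subtype.ext
    apply Prod.ext
    · show (1 : Q) = x.1.1.1
      have h1 := MonoidHom.mem_ker.mp x.2
      rw [hp] at h1
      exact h1.symm
    · show Matrix.GeneralLinearGroup.scalar (Fin n) u = x.1.1.2
      rw [hu, hpg]
  haveI : Finite (E₀ ⧸ p.ker) :=
    Finite.of_equiv Q (QuotientGroup.quotientKerEquivOfSurjective p hps).symm.toEquiv
  haveI : Finite E₀ := Finite.of_subgroup_quotient p.ker
  have hX : ∀ x, x ∈ p.ker → x ∈ commutator E₀ → x = 1 :=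
    fun x hx hx' => Cfsg.Agent.S3958.lemmaX hQ p hps hpc x hx hx'
  -- the scalar of a kernel element
  let ψ : E₀ → ℂˣ := fun x =>
    if h : pg x ∈ Subgroup.center (GL (Fin n) ℂ) then (hZ2 _ h).choose else 1
  have hψK : ∀ x, x ∈ p.ker → Matrix.GeneralLinearGroup.scalar (Fin n) (ψ x) = pg x := by
    intro x hx
    have h := hkerZ x hx
    show Matrix.GeneralLinearGroup.scalar (Fin n)
      (if h : pg x ∈ Subgroup.center (GL (Fin n) ℂ) then (hZ2 _ h).choose else 1) = pg x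
    rw [dif_pos h]
    exact (hZ2 _ h).choose_spec
  have hψmul : ∀ a b, a ∈ p.ker → b ∈ p.ker → ψ (a * b) = ψ a * ψ b := by
    intro a b ha hb
    apply scalar_inj n hpos
    rw [hψK _ (mul_mem ha hb), map_mul (Matrix.GeneralLinearGroup.scalar (Fin n)), hψK a ha,
      hψK b hb, map_mul pg]
  have hψ1 : ψ 1 = 1 := by
    apply scalar_inj n hpos
    rw [hψK 1 (one_mem _), map_one, map_one]
  have hψc : ∀ a, a ∈ p.ker → a ∈ commutator E₀ → ψ a = 1 := by
    intro a ha ha'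
    rw [hX a ha ha', hψ1]
  obtain ⟨β, hβ⟩ := Cfsg.Agent.S3958.exists_beta p.ker ψ hψmul hψc
  let ρ₀ : E₀ →* GL (Fin n) ℂ := MonoidHom.mk'
    (fun x => Matrix.GeneralLinearGroup.scalar (Fin n) (β x)⁻¹ * pg x) (by
      intro x y
      have hcomm : Matrix.GeneralLinearGroup.scalar (Fin n) (β y)⁻¹ * pg x =
          pg x * Matrix.GeneralLinearGroup.scalar (Fin n) (β y)⁻¹ :=
        Matrix.GeneralLinearGroup.scalar_commute _ _
      show Matrix.GeneralLinearGroup.scalar (Fin n) (β (x * y))⁻¹ * pg (x * y) =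
        (Matrix.GeneralLinearGroup.scalar (Fin n) (β x)⁻¹ * pg x) *
          (Matrix.GeneralLinearGroup.scalar (Fin n) (β y)⁻¹ * pg y)
      rw [map_mul β, mul_inv, map_mul (Matrix.GeneralLinearGroup.scalar (Fin n)), map_mul pg]
      calc Matrix.GeneralLinearGroup.scalar (Fin n) (β x)⁻¹ *
            Matrix.GeneralLinearGroup.scalar (Fin n) (β y)⁻¹ * (pg x * pg y)
          = Matrix.GeneralLinearGroup.scalar (Fin n) (β x)⁻¹ *
            (Matrix.GeneralLinearGroup.scalar (Fin n) (β y)⁻¹ * pg x) * pg y := by group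
        _ = Matrix.GeneralLinearGroup.scalar (Fin n) (β x)⁻¹ *
            (pg x * Matrix.GeneralLinearGroup.scalar (Fin n) (β y)⁻¹) * pg y := by rw [hcomm]
        _ = _ := by group)
  have hρ₀ : ∀ x, ρ₀ x = Matrix.GeneralLinearGroup.scalar (Fin n) (β x)⁻¹ * pg x := fun _ => rfl
  have hker : p.ker ≤ ρ₀.ker := by
    intro x hx
    rw [MonoidHom.mem_ker, hρ₀, hβ x hx, ← hψK x hx, ← map_mul, inv_mul_cancel, map_one]
  refine ⟨p.liftOfRightInverse (Function.surjInv hps) (Function.rightInverse_surjInv hps)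
    ⟨ρ₀, hker⟩, ?_⟩
  apply MonoidHom.ext
  intro q
  obtain ⟨x, rfl⟩ := hps q
  show (QuotientGroup.mk (p.liftOfRightInverse (Function.surjInv hps)
    (Function.rightInverse_surjInv hps) ⟨ρ₀, hker⟩ (p x)) :
      GL (Fin n) ℂ ⧸ Subgroup.center (GL (Fin n) ℂ)) = γ (p x)
  rw [MonoidHom.liftOfRightInverse_comp_apply]
  show (QuotientGroup.mk (Matrix.GeneralLinearGroup.scalar (Fin n) (β x)⁻¹ * pg x) :
      GL (Fin n) ℂ ⧸ Subgroup.center (GL (Fin n) ℂ)) = γ (p x)
  rw [QuotientGroup.mk_mul, hmk1, one_mul, (hmem x).1]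

/-- A finite group `Q` has trivial Schur multiplier if and only if, for every `n`, every homomorphism from `Q` to the projective general linear group (the quotient of `GL n ℂ` by its centre) lifts to a homomorphism into `GL n ℂ`. -/
theorem result {Q : Type*} [Group Q] [Finite Q] : Cfsg.HasCyclicSchurMultiplier Q 1 ↔ ∀ (n : ℕ) (γ : Q →* (GL (Fin n) ℂ ⧸ Subgroup.center (GL (Fin n) ℂ))), ∃ ρ : Q →* GL (Fin n) ℂ, (QuotientGroup.mk' (Subgroup.center (GL (Fin n) ℂ))).comp ρ = γ := by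
  constructor
  · intro hQ n γ
    rcases Nat.eq_zero_or_pos n with h0 | hpos
    · subst h0
      exact forward_zero γ
    · exact forward_pos hQ n hpos γ
  · intro hlift
    exact backward hlift

end Cfsg.Agent.S3978
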