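import Cfsg.Statements.S3955
import Cfsg.Agent.Helper11.StemCover
import Cfsg.Agent.S3958
import Cfsg.Agent.S3978

set_option autoImplicit false
universe u v w
open Cfsg Cfsg.Agent.Helper11 Cfsg.Agent.S3958 Cfsg.Agent.S3978
open scoped commutatorElement

namespace Cfsg.Agent.S3955

theorem stem_ker_quot {Q : Type u} [Group Q] {A : Type*} [CommGroup A]
    (hA : Cfsg.HasSchurMultiplier Q A) {S : Type w} [Group S] [Finite S] (f : S →* Q)
    (hf : Cfsg.IsStemExtension f) : ∃ φ : A → f.ker, Function.Surjective φ := by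
  obtain ⟨hs, hc, hd⟩ := hf
  let e : Box.{u} (Nat.card S) ≃ S := (boxEquiv (Nat.card S)).trans (Finite.equivFin S).symm
  letI : Group (Box.{u} (Nat.card S)) := e.group
  haveI : Finite (Box.{u} (Nat.card S)) := Finite.of_equiv _ (boxEquiv (Nat.card S)).symm
  let em : Box.{u} (Nat.card S) ≃* S :=
    { e with map_mul' := fun x y => e.apply_symm_apply (e x * e y) }
  have hstem : Cfsg.IsStemExtension (f.comp em.toMonoidHom) := by
    refine ⟨hs.comp em.surjective, ?_, ?_⟩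
    · intro x hx
      have h1 : em x ∈ Subgroup.center S := hc (MonoidHom.mem_ker.mpr (MonoidHom.mem_ker.mp hx))
      rw [Subgroup.mem_center_iff] at h1 ⊢
      intro y
      apply em.injective
      rw [map_mul, map_mul]
      exact h1 (em y)
    · intro x hx
      have h1 : em x ∈ commutator S := hd (MonoidHom.mem_ker.mpr (MonoidHom.mem_ker.mp hx))
      have h2 : em.symm (em x) ∈ Subgroup.map em.symm.toMonoidHom (commutator S) :=
        ⟨em x, h1, rfl⟩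
      rw [em.symm_apply_apply] at h2
      rw [commutator_def, Subgroup.map_commutator] at h2
      exact Subgroup.commutator_mono le_top le_top h2
  obtain ⟨π', hπ'⟩ := hA.2 _ (f.comp em.toMonoidHom) hstem
  refine ⟨fun a => ⟨em (π' a).1, MonoidHom.mem_ker.mpr (MonoidHom.mem_ker.mp (π' a).2)⟩, ?_⟩
  intro y
  have hk : em.symm y.1 ∈ (f.comp em.toMonoidHom).ker := by
    rw [MonoidHom.mem_ker]
    show f (em (em.symm y.1)) = 1
    rw [em.apply_symm_apply]; exact MonoidHom.mem_ker.mp y.2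
  obtain ⟨a, ha⟩ := hπ' ⟨em.symm y.1, hk⟩
  refine ⟨a, Subtype.ext ?_⟩
  show em (π' a).1 = y.1
  rw [ha]
  exact em.apply_symm_apply y.1

theorem twist_ext {Γ : Type v} [Group Γ]
    {E : Type w} [Group E] [Finite E] (p : E →* Γ) (hp : Function.Surjective p)
    (hc : p.ker ≤ Subgroup.center E) (χ : E → ℂˣ)
    (hχmul : ∀ a b, a ∈ Subgroup.center E → b ∈ Subgroup.center E → χ (a * b) = χ a * χ b)
    (m : ℕ) (hm : 0 < m) (β : E →* ℂˣ) (hβ : ∀ k, k ∈ p.ker → β k = χ k ^ m)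
    (hall : ∀ ζ : ℂˣ, ζ ^ m = 1 → ∃ n, n ∈ p.ker ∧ n ∈ commutator E ∧ χ n = ζ)
    (n₀ : E) (hn₀ : n₀ ∈ p.ker) (hn₀' : n₀ ∈ commutator E) (hχn₀ : χ n₀ ≠ 1) :
    ∃ (S : Type w) (_ : Group S) (_ : Finite S) (q : S →* Γ), Cfsg.IsStemExtension q ∧
      (∃ s, q s = 1 ∧ s ≠ 1) ∧
      (∀ Z : Subgroup Γ, Subgroup.comap p Z ≤ Subgroup.center E →
        Subgroup.comap q Z ≤ Subgroup.center S) := by
  have hχ1 : χ 1 = 1 := chi_one χ hχmul
  have hχinv : ∀ a, a ∈ Subgroup.center E → χ a⁻¹ = (χ a)⁻¹ := chi_inv χ hχmul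
  have hβc : ∀ c, c ∈ commutator E → β c = 1 := by
    intro c hc'
    exact MonoidHom.mem_ker.mp (comm_le_ker β hc')
  obtain ⟨S₀, hS₀⟩ : ∃ S₀ : Subgroup (E × ℂˣ), ∀ y, y ∈ S₀ ↔ β y.1 = y.2 ^ m :=
    ⟨(β.comp (MonoidHom.fst E ℂˣ)).eqLocus ((powMonoidHom m).comp (MonoidHom.snd E ℂˣ)),
      fun _ => Iff.rfl⟩
  haveI : Finite S₀ := by
    haveI : NeZero (m * Nat.card E) := ⟨(Nat.mul_pos hm Nat.card_pos).ne'⟩
    have hroot : ∀ x : S₀, x.1.2 ∈ rootsOfUnity (m * Nat.card E) ℂ := by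
      intro x
      rw [mem_rootsOfUnity, pow_mul, ← (hS₀ x.1).mp x.2, ← map_pow, pow_card_eq_one', map_one]
    let g : S₀ → E × rootsOfUnity (m * Nat.card E) ℂ := fun x => (x.1.1, ⟨x.1.2, hroot x⟩)
    apply Finite.of_injective g
    intro x y hxy
    apply Subtype.ext
    apply Prod.ext
    · have h1 : (g x).1 = (g y).1 := congrArg Prod.fst hxy
      exact h1
    · have h2 : ((g x).2 : ℂˣ) = (g y).2 := congrArg (fun t => (t.2 : ℂˣ)) hxy
      exact h2
  obtain ⟨D₀, hD₀⟩ : ∃ D₀ : Subgroup S₀, ∀ x, x ∈ D₀ ↔ (x.1.1 ∈ p.ker ∧ x.1.2 = χ x.1.1) :=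
    ⟨{ carrier := {x | x.1.1 ∈ p.ker ∧ x.1.2 = χ x.1.1}
       mul_mem' := fun {a b} ha hb => by
         obtain ⟨ha, ha'⟩ := ha
         obtain ⟨hb, hb'⟩ := hb
         show a.1.1 * b.1.1 ∈ p.ker ∧ a.1.2 * b.1.2 = χ (a.1.1 * b.1.1)
         refine ⟨mul_mem ha hb, ?_⟩
         rw [hχmul _ _ (hc ha) (hc hb), ha', hb']
       one_mem' := by
         show (1 : E) ∈ p.ker ∧ (1 : ℂˣ) = χ 1
         exact ⟨one_mem _, hχ1.symm⟩
       inv_mem' := fun {a} ha => by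
         obtain ⟨ha, ha'⟩ := ha
         show (a.1.1)⁻¹ ∈ p.ker ∧ (a.1.2)⁻¹ = χ (a.1.1)⁻¹
         refine ⟨inv_mem ha, ?_⟩
         rw [hχinv _ (hc ha), ha'] }, fun _ => Iff.rfl⟩
  have hcentS : ∀ x : S₀, x.1.1 ∈ Subgroup.center E → ∀ y : S₀, y * x = x * y := by
    intro x hx y
    apply Subtype.ext
    apply Prod.ext
    · exact (Subgroup.mem_center_iff.mp hx) y.1.1
    · exact mul_comm _ _
  haveI : D₀.Normal := by
    constructor
    intro d hd s
    have h1 : s * d * s⁻¹ = d := by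
      rw [hcentS d (hc ((hD₀ d).mp hd).1) s]; group
    rw [h1]; exact hd
  let q0 : S₀ →* Γ := p.comp ((MonoidHom.fst E ℂˣ).comp S₀.subtype)
  have hq0 : ∀ x : S₀, q0 x = p x.1.1 := fun _ => rfl
  have hD₀ker : D₀ ≤ q0.ker := by
    intro d hd
    rw [MonoidHom.mem_ker, hq0]
    exact MonoidHom.mem_ker.mp ((hD₀ d).mp hd).1
  let q : S₀ ⧸ D₀ →* Γ := QuotientGroup.lift D₀ q0 hD₀ker
  have hq : ∀ x : S₀, q (QuotientGroup.mk x) = p x.1.1 := fun _ => rfl
  have hlift : ∀ n, n ∈ commutator E → ∃ y : S₀, y ∈ commutator S₀ ∧ y.1.1 = n ∧ y.1.2 = 1 := by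
    intro n hn
    let pr1 : S₀ →* E := (MonoidHom.fst E ℂˣ).comp S₀.subtype
    let pr2 : S₀ →* ℂˣ := (MonoidHom.snd E ℂˣ).comp S₀.subtype
    have hpr1 : Function.Surjective pr1 := by
      intro e
      obtain ⟨d, hd⟩ := exists_root m hm (β e)
      exact ⟨⟨(e, d), (hS₀ _).mpr hd.symm⟩, rfl⟩
    have h1 : n ∈ Subgroup.map pr1 (commutator S₀) := by
      rw [commutator_def, Subgroup.map_commutator, Subgroup.map_top_of_surjective pr1 hpr1,
        ← commutator_def]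
      exact hn
    obtain ⟨y, hy, hyn⟩ := h1
    exact ⟨y, hy, hyn, MonoidHom.mem_ker.mp (comm_le_ker pr2 hy)⟩
  have hstem : Cfsg.IsStemExtension q := by
    refine ⟨?_, ?_, ?_⟩
    · intro γ
      obtain ⟨e, he⟩ := hp γ
      obtain ⟨d, hd⟩ := exists_root m hm (β e)
      exact ⟨QuotientGroup.mk ⟨(e, d), (hS₀ _).mpr hd.symm⟩, he⟩
    · intro s hs
      obtain ⟨x, rfl⟩ := QuotientGroup.mk_surjective s
      rw [MonoidHom.mem_ker, hq] at hs
      rw [Subgroup.mem_center_iff]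
      intro t
      obtain ⟨y, rfl⟩ := QuotientGroup.mk_surjective t
      show (QuotientGroup.mk (y * x) : S₀ ⧸ D₀) = QuotientGroup.mk (x * y)
      rw [hcentS x (hc (MonoidHom.mem_ker.mpr hs)) y]
    · intro s hs
      obtain ⟨x, rfl⟩ := QuotientGroup.mk_surjective s
      rw [MonoidHom.mem_ker, hq] at hs
      have hk : x.1.1 ∈ p.ker := MonoidHom.mem_ker.mpr hs
      have hx : β x.1.1 = x.1.2 ^ m := (hS₀ x.1).mp x.2
      rw [hβ _ hk] at hx
      have hζ : (χ x.1.1 * (x.1.2)⁻¹) ^ m = 1 := by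
        rw [mul_pow, inv_pow, hx, mul_inv_cancel]
      obtain ⟨n, hn, hn', hnζ⟩ := hall _ hζ
      obtain ⟨y, hy, hy1, hy2⟩ := hlift n hn'
      have hxy : (QuotientGroup.mk x : S₀ ⧸ D₀) = QuotientGroup.mk y := by
        rw [QuotientGroup.eq, hD₀]
        show (x.1.1)⁻¹ * y.1.1 ∈ p.ker ∧ (x.1.2)⁻¹ * y.1.2 = χ ((x.1.1)⁻¹ * y.1.1)
        rw [hy1, hy2]
        refine ⟨mul_mem (inv_mem hk) hn, ?_⟩
        rw [hχmul _ _ (hc (inv_mem hk)) (hc hn), hχinv _ (hc hk), hnζ, mul_one,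
          inv_mul_cancel_left]
      rw [hxy]
      have h2 : (QuotientGroup.mk y : S₀ ⧸ D₀) ∈
          Subgroup.map (QuotientGroup.mk' D₀) (commutator S₀) := ⟨y, hy, rfl⟩
      rw [commutator_def, Subgroup.map_commutator] at h2
      exact Subgroup.commutator_mono le_top le_top h2
  have hx₀ : ((n₀, 1) : E × ℂˣ) ∈ S₀ := by
    rw [hS₀]
    show β n₀ = 1 ^ m
    rw [hβc n₀ hn₀', one_pow]
  refine ⟨S₀ ⧸ D₀, inferInstance, inferInstance, q, hstem,
    ⟨QuotientGroup.mk ⟨(n₀, 1), hx₀⟩, MonoidHom.mem_ker.mp hn₀, ?_⟩, ?_⟩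
  · intro h1
    rw [QuotientGroup.eq_one_iff, hD₀] at h1
    exact hχn₀ h1.2.symm
  · intro Z hZ s hs
    obtain ⟨x, rfl⟩ := QuotientGroup.mk_surjective s
    rw [Subgroup.mem_comap, hq] at hs
    have hx : x.1.1 ∈ Subgroup.center E := hZ (Subgroup.mem_comap.mpr hs)
    rw [Subgroup.mem_center_iff]
    intro t
    obtain ⟨y, rfl⟩ := QuotientGroup.mk_surjective t
    show (QuotientGroup.mk (y * x) : S₀ ⧸ D₀) = QuotientGroup.mk (x * y)
    rw [hcentS x hx y]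

theorem exists_twist {Γ : Type v} [Group Γ] {E : Type w} [Group E] [Finite E] (p : E →* Γ)
    (hp : Function.Surjective p) (hc : p.ker ≤ Subgroup.center E) (n₀ : E) (hn₀ : n₀ ∈ p.ker)
    (hn₀' : n₀ ∈ commutator E) (hne : n₀ ≠ 1) :
    ∃ (S : Type w) (_ : Group S) (_ : Finite S) (q : S →* Γ), Cfsg.IsStemExtension q ∧
      (∃ s, q s = 1 ∧ s ≠ 1) ∧
      (∀ Z : Subgroup Γ, Subgroup.comap p Z ≤ Subgroup.center E →
        Subgroup.comap q Z ≤ Subgroup.center S) := by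
  obtain ⟨χ, hχmul, hχn₀⟩ := exists_chi n₀ (hc hn₀) hne
  have hχ1 : χ 1 = 1 := chi_one χ hχmul
  have hχinv : ∀ a, a ∈ Subgroup.center E → χ a⁻¹ = (χ a)⁻¹ := chi_inv χ hχmul
  obtain ⟨C, hCmem⟩ : ∃ C : Subgroup ℂˣ,
      ∀ d, d ∈ C ↔ ∃ n, n ∈ p.ker ∧ n ∈ commutator E ∧ χ n = d :=
    ⟨{ carrier := {d | ∃ n, n ∈ p.ker ∧ n ∈ commutator E ∧ χ n = d}
       mul_mem' := fun {x y} hx hy => by
         obtain ⟨a, ha, ha', rfl⟩ := hx
         obtain ⟨b, hb, hb', rfl⟩ := hy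
         exact ⟨a * b, mul_mem ha hb, mul_mem ha' hb', hχmul a b (hc ha) (hc hb)⟩
       one_mem' := ⟨1, one_mem _, one_mem _, hχ1⟩
       inv_mem' := fun {x} hx => by
         obtain ⟨a, ha, ha', rfl⟩ := hx
         exact ⟨a⁻¹, inv_mem ha, inv_mem ha', hχinv a (hc ha)⟩ }, fun _ => Iff.rfl⟩
  haveI : Finite C := by
    have hsub : (C : Set ℂˣ) ⊆ Set.range χ := by
      intro d hd
      obtain ⟨n, _, _, hn⟩ := (hCmem d).mp hd
      exact ⟨n, hn⟩
    exact Set.finite_coe_iff.mpr ((Set.finite_range χ).subset hsub)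
  have hm : 0 < Nat.card C := Nat.card_pos
  have hCpow : ∀ n, n ∈ p.ker → n ∈ commutator E → χ n ^ Nat.card C = 1 := by
    intro n hn hn'
    have hmem : χ n ∈ C := (hCmem _).mpr ⟨n, hn, hn', rfl⟩
    have h := pow_card_eq_one' (G := C) (x := ⟨χ n, hmem⟩)
    have h2 : (((⟨χ n, hmem⟩ : C) ^ Nat.card C : C) : ℂˣ) = ((1 : C) : ℂˣ) :=
      congrArg Subtype.val h
    exact h2
  have hall : ∀ ζ : ℂˣ, ζ ^ Nat.card C = 1 →
      ∃ n, n ∈ p.ker ∧ n ∈ commutator E ∧ χ n = ζ := by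
    intro ζ hζ
    exact (hCmem ζ).mp (finite_sub_roots C ζ hζ)
  obtain ⟨β, hβ⟩ := exists_beta p.ker (fun e => χ e ^ Nat.card C)
    (by
      intro a b ha hb
      show χ (a * b) ^ Nat.card C = χ a ^ Nat.card C * χ b ^ Nat.card C
      rw [hχmul a b (hc ha) (hc hb), mul_pow])
    (by
      intro a ha ha'
      exact hCpow a ha ha')
  exact twist_ext p hp hc χ hχmul (Nat.card C) hm β hβ hall n₀ hn₀ hn₀' hχn₀

theorem exists_E0 {Q : Type u} [Group Q] [Finite Q] (n : ℕ) (hpos : 0 < n)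
    (γ : Q →* (GL (Fin n) ℂ ⧸ Subgroup.center (GL (Fin n) ℂ))) :
    ∃ (E₀ : Type u) (_ : Group E₀) (_ : Finite E₀) (p : E₀ →* Q) (pg : E₀ →* GL (Fin n) ℂ),
      Function.Surjective p ∧ p.ker ≤ Subgroup.center E₀ ∧
      (∀ x, γ (p x) = QuotientGroup.mk (pg x)) := by
  classical
  haveI : NeZero n := ⟨hpos.ne'⟩
  have hZ1 : ∀ u : ℂˣ, Matrix.GeneralLinearGroup.scalar (Fin n) u ∈ Subgroup.center (GL (Fin n) ℂ) :=
    fun u => Subgroup.mem_center_iff.mpr
      (fun g => (Matrix.GeneralLinearGroup.scalar_commute u g).symm)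
  have hZ2 : ∀ z, z ∈ Subgroup.center (GL (Fin n) ℂ) →
      ∃ u : ℂˣ, Matrix.GeneralLinearGroup.scalar (Fin n) u = z := by
    intro z hz
    rw [Matrix.GeneralLinearGroup.center_eq_range_scalar] at hz
    exact hz
  have hmk1 : ∀ u : ℂˣ, (QuotientGroup.mk (Matrix.GeneralLinearGroup.scalar (Fin n) u) :
      GL (Fin n) ℂ ⧸ Subgroup.center (GL (Fin n) ℂ)) = 1 :=
    fun u => (QuotientGroup.eq_one_iff _).mpr (hZ1 u)
  obtain ⟨E₀, hE₀⟩ : ∃ E₀ : Subgroup (Q × GL (Fin n) ℂ), ∀ y, y ∈ E₀ ↔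
      (γ y.1 = QuotientGroup.mk y.2 ∧ Matrix.GeneralLinearGroup.det y.2 = 1) :=
    ⟨((γ.comp (MonoidHom.fst Q (GL (Fin n) ℂ))).eqLocus
        ((QuotientGroup.mk' (Subgroup.center (GL (Fin n) ℂ))).comp
          (MonoidHom.snd Q (GL (Fin n) ℂ)))) ⊓
      (Matrix.GeneralLinearGroup.det.comp (MonoidHom.snd Q (GL (Fin n) ℂ))).ker,
      fun _ => Subgroup.mem_inf⟩
  obtain ⟨p, hp⟩ : ∃ p : E₀ →* Q, ∀ x, p x = x.1.1 :=
    ⟨(MonoidHom.fst Q (GL (Fin n) ℂ)).comp E₀.subtype, fun _ => rfl⟩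
  obtain ⟨pg, hpg⟩ : ∃ pg : E₀ →* GL (Fin n) ℂ, ∀ x, pg x = x.1.2 :=
    ⟨(MonoidHom.snd Q (GL (Fin n) ℂ)).comp E₀.subtype, fun _ => rfl⟩
  have hmem : ∀ x : E₀, γ (p x) = QuotientGroup.mk (pg x) ∧
      Matrix.GeneralLinearGroup.det (pg x) = 1 := by
    intro x; rw [hp, hpg]; exact (hE₀ x.1).mp x.2
  have hps : Function.Surjective p := by
    intro q
    obtain ⟨g, hg⟩ := QuotientGroup.mk_surjective (γ q)
    obtain ⟨u, hu⟩ := det_fix n g
    refine ⟨⟨(q, Matrix.GeneralLinearGroup.scalar (Fin n) u * g), (hE₀ _).mpr ⟨?_, hu⟩⟩, ?_⟩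
    · show γ q = QuotientGroup.mk (Matrix.GeneralLinearGroup.scalar (Fin n) u * g)
      rw [QuotientGroup.mk_mul, hmk1, one_mul, hg]
    · rw [hp]
  have hkerZ : ∀ x, x ∈ p.ker → pg x ∈ Subgroup.center (GL (Fin n) ℂ) := by
    intro x hx
    apply (QuotientGroup.eq_one_iff _).mp
    rw [← (hmem x).1, MonoidHom.mem_ker.mp hx, map_one]
  have hpc : p.ker ≤ Subgroup.center E₀ := by
    intro x hx
    have hx1 : x.1.1 = 1 := by rw [← hp]; exact MonoidHom.mem_ker.mp hx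
    have hx2 : x.1.2 ∈ Subgroup.center (GL (Fin n) ℂ) := by rw [← hpg]; exact hkerZ x hx
    rw [Subgroup.mem_center_iff]
    intro y
    apply Subtype.ext
    apply Prod.ext
    · show y.1.1 * x.1.1 = x.1.1 * y.1.1
      rw [hx1, mul_one, one_mul]
    · show y.1.2 * x.1.2 = x.1.2 * y.1.2
      exact (Subgroup.mem_center_iff.mp hx2) y.1.2
  haveI : Finite p.ker := by
    have hroot : ∀ u : rootsOfUnity n ℂ,
        ((1, Matrix.GeneralLinearGroup.scalar (Fin n) (u : ℂˣ)) : Q × GL (Fin n) ℂ) ∈ E₀ := by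
      intro u
      rw [hE₀]
      refine ⟨?_, ?_⟩
      · show γ 1 = QuotientGroup.mk (Matrix.GeneralLinearGroup.scalar (Fin n) (u : ℂˣ))
        rw [hmk1, map_one]
      · show Matrix.GeneralLinearGroup.det (Matrix.GeneralLinearGroup.scalar (Fin n) (u : ℂˣ)) = 1
        rw [Matrix.GeneralLinearGroup.det_scalar, Fintype.card_fin]
        exact (mem_rootsOfUnity _ _).mp u.2
    let f : rootsOfUnity n ℂ → p.ker := fun u =>
      ⟨⟨(1, Matrix.GeneralLinearGroup.scalar (Fin n) (u : ℂˣ)), hroot u⟩, by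
        rw [MonoidHom.mem_ker, hp]⟩
    apply Finite.of_surjective f
    intro x
    obtain ⟨u, hu⟩ := hZ2 _ (hkerZ x.1 x.2)
    have hdet := (hmem x.1).2
    rw [← hu, Matrix.GeneralLinearGroup.det_scalar, Fintype.card_fin] at hdet
    refine ⟨⟨u, (mem_rootsOfUnity _ _).mpr hdet⟩, ?_⟩
    apply Subtype.ext
    apply Subtype.ext
    apply Prod.ext
    · show (1 : Q) = x.1.1.1
      have h1 := MonoidHom.mem_ker.mp x.2
      rw [hp] at h1
      exact h1.symm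
    · show Matrix.GeneralLinearGroup.scalar (Fin n) u = x.1.1.2
      rw [hu, hpg]
  haveI : Finite (E₀ ⧸ p.ker) :=
    Finite.of_equiv Q (QuotientGroup.quotientKerEquivOfSurjective p hps).symm.toEquiv
  haveI : Finite E₀ := Finite.of_subgroup_quotient p.ker
  exact ⟨E₀, inferInstance, inferInstance, p, pg, hps, hpc, fun x => (hmem x).1⟩

theorem lift_of_trivial_inter {Γ : Type v} [Group Γ] {E₀ : Type w} [Group E₀] [Finite E₀]
    (n : ℕ) (hpos : 0 < n) (p : E₀ →* Γ) (hps : Function.Surjective p)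
    (pg : E₀ →* GL (Fin n) ℂ)
    (hkerZ : ∀ x, x ∈ p.ker → pg x ∈ Subgroup.center (GL (Fin n) ℂ))
    (hX : ∀ a, a ∈ p.ker → a ∈ commutator E₀ → pg a = 1) :
    ∃ ρ : Γ →* GL (Fin n) ℂ, ∀ x, (QuotientGroup.mk (ρ (p x)) :
      GL (Fin n) ℂ ⧸ Subgroup.center (GL (Fin n) ℂ)) = QuotientGroup.mk (pg x) := by
  classical
  haveI : NeZero n := ⟨hpos.ne'⟩
  have hZ1 : ∀ u : ℂˣ, Matrix.GeneralLinearGroup.scalar (Fin n) u ∈ Subgroup.center (GL (Fin n) ℂ) :=
    fun u => Subgroup.mem_center_iff.mpr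
      (fun g => (Matrix.GeneralLinearGroup.scalar_commute u g).symm)
  have hZ2 : ∀ z, z ∈ Subgroup.center (GL (Fin n) ℂ) →
      ∃ u : ℂˣ, Matrix.GeneralLinearGroup.scalar (Fin n) u = z := by
    intro z hz
    rw [Matrix.GeneralLinearGroup.center_eq_range_scalar] at hz
    exact hz
  have hmk1 : ∀ u : ℂˣ, (QuotientGroup.mk (Matrix.GeneralLinearGroup.scalar (Fin n) u) :
      GL (Fin n) ℂ ⧸ Subgroup.center (GL (Fin n) ℂ)) = 1 :=
    fun u => (QuotientGroup.eq_one_iff _).mpr (hZ1 u)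
  let ψ : E₀ → ℂˣ := fun x =>
    if h : pg x ∈ Subgroup.center (GL (Fin n) ℂ) then (hZ2 _ h).choose else 1
  have hψK : ∀ x, x ∈ p.ker → Matrix.GeneralLinearGroup.scalar (Fin n) (ψ x) = pg x := by
    intro x hx
    have h := hkerZ x hx
    show Matrix.GeneralLinearGroup.scalar (Fin n)
      (if h : pg x ∈ Subgroup.center (GL (Fin n) ℂ) then (hZ2 _ h).choose else 1) = pg x
    rw [dif_pos h]
    exact (hZ2 _ h).choose_spec
  have hψmul : ∀ a b, a ∈ p.ker → b ∈ p.ker → ψ (a * b) = ψ a * ψ b := by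
    intro a b ha hb
    apply scalar_inj n hpos
    rw [hψK _ (mul_mem ha hb), map_mul (Matrix.GeneralLinearGroup.scalar (Fin n)), hψK a ha,
      hψK b hb, map_mul pg]
  have hψ1 : ψ 1 = 1 := by
    apply scalar_inj n hpos
    rw [hψK 1 (one_mem _), map_one, map_one]
  have hψc : ∀ a, a ∈ p.ker → a ∈ commutator E₀ → ψ a = 1 := by
    intro a ha ha'
    apply scalar_inj n hpos
    rw [hψK a ha, hX a ha ha', map_one]
  obtain ⟨β, hβ⟩ := Cfsg.Agent.S3958.exists_beta p.ker ψ hψmul hψc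
  let ρ₀ : E₀ →* GL (Fin n) ℂ := MonoidHom.mk'
    (fun x => Matrix.GeneralLinearGroup.scalar (Fin n) (β x)⁻¹ * pg x) (by
      intro x y
      have hcomm : Matrix.GeneralLinearGroup.scalar (Fin n) (β y)⁻¹ * pg x =
          pg x * Matrix.GeneralLinearGroup.scalar (Fin n) (β y)⁻¹ :=
        Matrix.GeneralLinearGroup.scalar_commute _ _
      show Matrix.GeneralLinearGroup.scalar (Fin n) (β (x * y))⁻¹ * pg (x * y) =
        (Matrix.GeneralLinearGroup.scalar (Fin n) (β x)⁻¹ * pg x) *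
          (Matrix.GeneralLinearGroup.scalar (Fin n) (β y)⁻¹ * pg y)
      rw [map_mul β, mul_inv, map_mul (Matrix.GeneralLinearGroup.scalar (Fin n)), map_mul pg]
      calc Matrix.GeneralLinearGroup.scalar (Fin n) (β x)⁻¹ *
            Matrix.GeneralLinearGroup.scalar (Fin n) (β y)⁻¹ * (pg x * pg y)
          = Matrix.GeneralLinearGroup.scalar (Fin n) (β x)⁻¹ *
            (Matrix.GeneralLinearGroup.scalar (Fin n) (β y)⁻¹ * pg x) * pg y := by group
        _ = Matrix.GeneralLinearGroup.scalar (Fin n) (β x)⁻¹ *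
            (pg x * Matrix.GeneralLinearGroup.scalar (Fin n) (β y)⁻¹) * pg y := by rw [hcomm]
        _ = _ := by group)
  have hρ₀ : ∀ x, ρ₀ x = Matrix.GeneralLinearGroup.scalar (Fin n) (β x)⁻¹ * pg x := fun _ => rfl
  have hker : p.ker ≤ ρ₀.ker := by
    intro x hx
    rw [MonoidHom.mem_ker, hρ₀, hβ x hx, ← hψK x hx, ← map_mul, inv_mul_cancel, map_one]
  refine ⟨p.liftOfRightInverse (Function.surjInv hps) (Function.rightInverse_surjInv hps)
    ⟨ρ₀, hker⟩, ?_⟩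
  intro x
  rw [MonoidHom.liftOfRightInverse_comp_apply]
  show (QuotientGroup.mk (Matrix.GeneralLinearGroup.scalar (Fin n) (β x)⁻¹ * pg x) :
      GL (Fin n) ℂ ⧸ Subgroup.center (GL (Fin n) ℂ)) = QuotientGroup.mk (pg x)
  rw [QuotientGroup.mk_mul, hmk1, one_mul]

/-- Let `Q` be a finite group with Schur multiplier `A`, and let `σ : Γ →* Q` be a finite stem extension whose kernel is isomorphic to `A` (a Schur covering group of `Q`). Then every homomorphism `γ` from `Q` to the quotient of `GL n ℂ` by its centre lifts along `σ`: there is a homomorphism `ρ : Γ →* GL n ℂ` which, followed by the quotient map, equals `γ ∘ σ`. -/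
theorem result {Q : Type*} [Group Q] [Finite Q] {A : Type*} [CommGroup A] (hA : Cfsg.HasSchurMultiplier Q A) {Γ : Type*} [Group Γ] [Finite Γ] (σ : Γ →* Q) (hσ : Cfsg.IsStemExtension σ) (hk : Nonempty (σ.ker ≃* A)) (n : ℕ) (γ : Q →* (GL (Fin n) ℂ ⧸ Subgroup.center (GL (Fin n) ℂ))) : ∃ ρ : Γ →* GL (Fin n) ℂ, (QuotientGroup.mk' (Subgroup.center (GL (Fin n) ℂ))).comp ρ = γ.comp σ := by
  rcases Nat.eq_zero_or_pos n with h0 | hpos
  · subst h0
    exact forward_zero (γ.comp σ)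
  · obtain ⟨E₀, iE, fE, p₀, pg₀, hp₀s, hp₀c, hγ⟩ := exists_E0 n hpos γ
    obtain ⟨hσs, hσc, hσd⟩ := hσ
    obtain ⟨F, hFmem⟩ : ∃ F : Subgroup (Γ × E₀), ∀ y, y ∈ F ↔ σ y.1 = p₀ y.2 :=
      ⟨(σ.comp (MonoidHom.fst Γ E₀)).eqLocus (p₀.comp (MonoidHom.snd Γ E₀)), fun _ => Iff.rfl⟩
    obtain ⟨π₁, hπ₁⟩ : ∃ π₁ : F →* Γ, ∀ f, π₁ f = f.1.1 :=
      ⟨(MonoidHom.fst Γ E₀).comp F.subtype, fun _ => rfl⟩
    obtain ⟨π₂, hπ₂⟩ : ∃ π₂ : F →* E₀, ∀ f, π₂ f = f.1.2 :=
      ⟨(MonoidHom.snd Γ E₀).comp F.subtype, fun _ => rfl⟩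
    have hF : ∀ f : F, σ (π₁ f) = p₀ (π₂ f) := by
      intro f; rw [hπ₁, hπ₂]; exact (hFmem f.1).mp f.2
    have hπ₁s : Function.Surjective π₁ := by
      intro g
      obtain ⟨x, hx⟩ := hp₀s (σ g)
      exact ⟨⟨(g, x), (hFmem _).mpr hx.symm⟩, by rw [hπ₁]⟩
    have hcentF : ∀ f : F, σ (π₁ f) = 1 → f ∈ Subgroup.center F := by
      intro f hf
      have h1 : f.1.1 ∈ Subgroup.center Γ := by
        apply hσc
        rw [MonoidHom.mem_ker, ← hπ₁]; exact hf
      have h2 : f.1.2 ∈ Subgroup.center E₀ := by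
        apply hp₀c
        rw [MonoidHom.mem_ker, ← hπ₂, ← hF]; exact hf
      rw [Subgroup.mem_center_iff]
      intro r
      apply Subtype.ext
      apply Prod.ext
      · show r.1.1 * f.1.1 = f.1.1 * r.1.1
        exact (Subgroup.mem_center_iff.mp h1) r.1.1
      · show r.1.2 * f.1.2 = f.1.2 * r.1.2
        exact (Subgroup.mem_center_iff.mp h2) r.1.2
    have hπ₁c : π₁.ker ≤ Subgroup.center F := by
      intro f hf
      apply hcentF
      rw [MonoidHom.mem_ker.mp hf, map_one]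
    have hX : ∀ f, f ∈ π₁.ker → f ∈ commutator F → f = 1 := by
      intro f hf hf'
      by_contra hne
      obtain ⟨S, iS, fS, q, hq, ⟨s, hs1, hsne⟩, hZ⟩ := exists_twist π₁ hπ₁s hπ₁c f hf hf' hne
      have hcomap : Subgroup.comap π₁ σ.ker ≤ Subgroup.center F := by
        intro y hy
        exact hcentF y (MonoidHom.mem_ker.mp (Subgroup.mem_comap.mp hy))
      have hScent := hZ σ.ker hcomap
      obtain ⟨hqs, hqc, hqd⟩ := hq
      have hstem : Cfsg.IsStemExtension (σ.comp q) := by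
        refine ⟨hσs.comp hqs, ?_, ?_⟩
        · intro y hy
          exact hScent (Subgroup.mem_comap.mpr (MonoidHom.mem_ker.mpr (MonoidHom.mem_ker.mp hy)))
        · intro y hy
          have h1 : q y ∈ commutator Γ :=
            hσd (MonoidHom.mem_ker.mpr (MonoidHom.mem_ker.mp hy))
          have h2 : q y ∈ Subgroup.map q (commutator S) := by
            rw [commutator_def, Subgroup.map_commutator, Subgroup.map_top_of_surjective q hqs,
              ← commutator_def]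
            exact h1
          obtain ⟨y', hy', hyy⟩ := h2
          have h3 : y'⁻¹ * y ∈ q.ker := by
            rw [MonoidHom.mem_ker, map_mul, map_inv, hyy, inv_mul_cancel]
          have h4 := Subgroup.mul_mem _ hy' (hqd h3)
          rwa [mul_inv_cancel_left] at h4
      obtain ⟨φ, hφ⟩ := stem_ker_quot hA (σ.comp q) hstem
      obtain ⟨e⟩ := hk
      let θ : (σ.comp q).ker → σ.ker := fun y =>
        ⟨q y.1, MonoidHom.mem_ker.mpr (MonoidHom.mem_ker.mp y.2)⟩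
      have hθ : Function.Surjective θ := by
        intro a
        obtain ⟨y, hy⟩ := hqs a.1
        refine ⟨⟨y, ?_⟩, Subtype.ext hy⟩
        rw [MonoidHom.mem_ker, MonoidHom.comp_apply, hy]; exact MonoidHom.mem_ker.mp a.2
      have hφe : Function.Surjective (fun a : σ.ker => φ (e a)) := hφ.comp e.surjective
      have hg : Function.Surjective (fun a : σ.ker => θ (φ (e a))) := hθ.comp hφe
      have hginj : Function.Injective (fun a : σ.ker => θ (φ (e a))) :=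
        Finite.injective_iff_surjective.mpr hg
      have hs2 : s ∈ (σ.comp q).ker := by
        rw [MonoidHom.mem_ker, MonoidHom.comp_apply, hs1, map_one]
      obtain ⟨a, ha⟩ := hφe ⟨s, hs2⟩
      obtain ⟨b, hb⟩ := hφe (1 : (σ.comp q).ker)
      have ha' : φ (e a) = ⟨s, hs2⟩ := ha
      have hb' : φ (e b) = 1 := hb
      have hab : (fun a : σ.ker => θ (φ (e a))) a = (fun a : σ.ker => θ (φ (e a))) b := by
        show θ (φ (e a)) = θ (φ (e b))
        rw [ha', hb']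
        apply Subtype.ext
        show q s = q 1
        rw [hs1, map_one]
      have h5 := hginj hab
      rw [h5] at ha'
      have h6 : (⟨s, hs2⟩ : (σ.comp q).ker) = 1 := ha'.symm.trans hb'
      exact hsne (congrArg Subtype.val h6)
    have hkerZ : ∀ x, x ∈ π₁.ker → (pg₀.comp π₂) x ∈ Subgroup.center (GL (Fin n) ℂ) := by
      intro x hx
      apply (QuotientGroup.eq_one_iff _).mp
      show (QuotientGroup.mk (pg₀ (π₂ x)) : GL (Fin n) ℂ ⧸ Subgroup.center (GL (Fin n) ℂ)) = 1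
      rw [← hγ, ← hF, MonoidHom.mem_ker.mp hx, map_one, map_one]
    have hX' : ∀ a, a ∈ π₁.ker → a ∈ commutator F → (pg₀.comp π₂) a = 1 := by
      intro a ha ha'
      rw [hX a ha ha', map_one]
    obtain ⟨ρ, hρ⟩ := lift_of_trivial_inter n hpos π₁ hπ₁s (pg₀.comp π₂) hkerZ hX'
    refine ⟨ρ, ?_⟩
    apply MonoidHom.ext
    intro g
    obtain ⟨f, rfl⟩ := hπ₁s g
    show (QuotientGroup.mk (ρ (π₁ f)) : GL (Fin n) ℂ ⧸ Subgroup.center (GL (Fin n) ℂ)) =
      γ (σ (π₁ f))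
    rw [hρ, hF, hγ]
    rfl

end Cfsg.Agent.S3955
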