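import Cfsg.Statements.S3980
import Cfsg.Agent.S3955
import Mathlib.GroupTheory.NoncommCoprod

set_option autoImplicit false
universe u v w
open Cfsg Cfsg.Agent.Helper11
open scoped commutatorElement

namespace Cfsg.Agent.S3980

theorem cover_inter_trivial {Q : Type u} [Group Q] {A : Type*} [CommGroup A]
    (hA : Cfsg.HasSchurMultiplier Q A) {Γ : Type v} [Group Γ] [Finite Γ] (σ : Γ →* Q)
    (hσ : Cfsg.IsStemExtension σ) (hk : Nonempty (σ.ker ≃* A))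
    {F : Type w} [Group F] [Finite F] (π₁ : F →* Γ) (hπ₁s : Function.Surjective π₁)
    (hcentF : ∀ f : F, σ (π₁ f) = 1 → f ∈ Subgroup.center F) :
    ∀ f, f ∈ π₁.ker → f ∈ commutator F → f = 1 := by
  obtain ⟨hσs, hσc, hσd⟩ := hσ
  have hπ₁c : π₁.ker ≤ Subgroup.center F := by
    intro f hf
    apply hcentF
    rw [MonoidHom.mem_ker.mp hf, map_one]
  intro f hf hf'
  by_contra hne
  obtain ⟨S, iS, fS, q, hq, ⟨s, hs1, hsne⟩, hZ⟩ := Cfsg.Agent.S3955.exists_twist π₁ hπ₁s hπ₁c f hf hf' hne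
  have hcomap : Subgroup.comap π₁ σ.ker ≤ Subgroup.center F := by
    intro y hy
    exact hcentF y (MonoidHom.mem_ker.mp (Subgroup.mem_comap.mp hy))
  have hScent := hZ σ.ker hcomap
  obtain ⟨hqs, hqc, hqd⟩ := hq
  have hstem : Cfsg.IsStemExtension (σ.comp q) := by
    refine ⟨hσs.comp hqs, ?_, ?_⟩
    · intro y hy
      exact hScent (Subgroup.mem_comap.mpr (MonoidHom.mem_ker.mpr (MonoidHom.mem_ker.mp hy)))
    · intro y hy
      have h1 : q y ∈ commutator Γ :=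
        hσd (MonoidHom.mem_ker.mpr (MonoidHom.mem_ker.mp hy))
      have h2 : q y ∈ Subgroup.map q (commutator S) := by
        rw [commutator_def, Subgroup.map_commutator, Subgroup.map_top_of_surjective q hqs,
          ← commutator_def]
        exact h1
      obtain ⟨y', hy', hyy⟩ := h2
      have h3 : y'⁻¹ * y ∈ q.ker := by
        rw [MonoidHom.mem_ker, map_mul, map_inv, hyy, inv_mul_cancel]
      have h4 := Subgroup.mul_mem _ hy' (hqd h3)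
      rwa [mul_inv_cancel_left] at h4
  obtain ⟨φ, hφ⟩ := Cfsg.Agent.S3955.stem_ker_quot hA (σ.comp q) hstem
  obtain ⟨e⟩ := hk
  let θ : (σ.comp q).ker → σ.ker := fun y =>
    ⟨q y.1, MonoidHom.mem_ker.mpr (MonoidHom.mem_ker.mp y.2)⟩
  have hθ : Function.Surjective θ := by
    intro a
    obtain ⟨y, hy⟩ := hqs a.1
    refine ⟨⟨y, ?_⟩, Subtype.ext hy⟩
    rw [MonoidHom.mem_ker, MonoidHom.comp_apply, hy]; exact MonoidHom.mem_ker.mp a.2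
  have hφe : Function.Surjective (fun a : σ.ker => φ (e a)) := hφ.comp e.surjective
  have hg : Function.Surjective (fun a : σ.ker => θ (φ (e a))) := hθ.comp hφe
  have hginj : Function.Injective (fun a : σ.ker => θ (φ (e a))) :=
    Finite.injective_iff_surjective.mpr hg
  have hs2 : s ∈ (σ.comp q).ker := by
    rw [MonoidHom.mem_ker, MonoidHom.comp_apply, hs1, map_one]
  obtain ⟨a, ha⟩ := hφe ⟨s, hs2⟩
  obtain ⟨b, hb⟩ := hφe (1 : (σ.comp q).ker)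
  have ha' : φ (e a) = ⟨s, hs2⟩ := ha
  have hb' : φ (e b) = 1 := hb
  have hab : (fun a : σ.ker => θ (φ (e a))) a = (fun a : σ.ker => θ (φ (e a))) b := by
    show θ (φ (e a)) = θ (φ (e b))
    rw [ha', hb']
    apply Subtype.ext
    show q s = q 1
    rw [hs1, map_one]
  have h5 := hginj hab
  rw [h5] at ha'
  have h6 : (⟨s, hs2⟩ : (σ.comp q).ker) = 1 := ha'.symm.trans hb'
  exact hsne (congrArg Subtype.val h6)

theorem comm_inter_quot {Q : Type u} [Group Q] {A : Type*} [CommGroup A]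
    (hA : Cfsg.HasSchurMultiplier Q A) {E : Type w} [Group E] [Finite E] (p : E →* Q)
    (hp : Function.Surjective p) (hc : p.ker ≤ Subgroup.center E) :
    ∃ φ : A →* E, (∀ a, φ a ∈ p.ker) ∧
      ∀ x, x ∈ p.ker → x ∈ commutator E → ∃ a, φ a = x := by
  obtain ⟨Γ₁, iΓ₁, fΓ₁, σ₁, hσ₁, ⟨e₁⟩⟩ := hA.1
  obtain ⟨hσ₁s, hσ₁c, hσ₁d⟩ := id hσ₁
  obtain ⟨F, hFmem⟩ : ∃ F : Subgroup (Γ₁ × E), ∀ y, y ∈ F ↔ σ₁ y.1 = p y.2 :=
    ⟨(σ₁.comp (MonoidHom.fst Γ₁ E)).eqLocus (p.comp (MonoidHom.snd Γ₁ E)), fun _ => Iff.rfl⟩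
  obtain ⟨π₁, hπ₁⟩ : ∃ π₁ : F →* Γ₁, ∀ f, π₁ f = f.1.1 :=
    ⟨(MonoidHom.fst Γ₁ E).comp F.subtype, fun _ => rfl⟩
  obtain ⟨π₂, hπ₂⟩ : ∃ π₂ : F →* E, ∀ f, π₂ f = f.1.2 :=
    ⟨(MonoidHom.snd Γ₁ E).comp F.subtype, fun _ => rfl⟩
  have hF : ∀ f : F, σ₁ (π₁ f) = p (π₂ f) := by
    intro f; rw [hπ₁, hπ₂]; exact (hFmem f.1).mp f.2
  have hπ₁s : Function.Surjective π₁ := by
    intro g
    obtain ⟨x, hx⟩ := hp (σ₁ g)
    exact ⟨⟨(g, x), (hFmem _).mpr hx.symm⟩, by rw [hπ₁]⟩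
  have hπ₂s : Function.Surjective π₂ := by
    intro x
    obtain ⟨g, hg⟩ := hσ₁s (p x)
    exact ⟨⟨(g, x), (hFmem _).mpr hg⟩, by rw [hπ₂]⟩
  have hcentF : ∀ f : F, σ₁ (π₁ f) = 1 → f ∈ Subgroup.center F := by
    intro f hf
    have h1 : f.1.1 ∈ Subgroup.center Γ₁ := by
      apply hσ₁c
      rw [MonoidHom.mem_ker, ← hπ₁]; exact hf
    have h2 : f.1.2 ∈ Subgroup.center E := by
      apply hc
      rw [MonoidHom.mem_ker, ← hπ₂, ← hF]; exact hf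
    rw [Subgroup.mem_center_iff]
    intro r
    apply Subtype.ext
    apply Prod.ext
    · show r.1.1 * f.1.1 = f.1.1 * r.1.1
      exact (Subgroup.mem_center_iff.mp h1) r.1.1
    · show r.1.2 * f.1.2 = f.1.2 * r.1.2
      exact (Subgroup.mem_center_iff.mp h2) r.1.2
  have hX := cover_inter_trivial hA σ₁ hσ₁ ⟨e₁⟩ π₁ hπ₁s hcentF
  have hc1 : ∀ a, a ∈ commutator Γ₁ → ∃ r, r ∈ commutator F ∧ π₁ r = a := by
    intro a ha
    have h1 : a ∈ Subgroup.map π₁ (commutator F) := by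
      rw [commutator_def, Subgroup.map_commutator, Subgroup.map_top_of_surjective π₁ hπ₁s,
        ← commutator_def]
      exact ha
    obtain ⟨r, hr, hra⟩ := h1
    exact ⟨r, hr, hra⟩
  have hc2 : ∀ t, t ∈ commutator E → ∃ r, r ∈ commutator F ∧ π₂ r = t := by
    intro a ha
    have h1 : a ∈ Subgroup.map π₂ (commutator F) := by
      rw [commutator_def, Subgroup.map_commutator, Subgroup.map_top_of_surjective π₂ hπ₂s,
        ← commutator_def]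
      exact ha
    obtain ⟨r, hr, hra⟩ := h1
    exact ⟨r, hr, hra⟩
  have huniq : ∀ r r', r ∈ commutator F → r' ∈ commutator F → π₁ r = π₁ r' → r = r' := by
    intro r r' hr hr' h
    have h1 : r⁻¹ * r' = 1 := by
      apply hX
      · rw [MonoidHom.mem_ker, map_mul, map_inv, h, inv_mul_cancel]
      · exact mul_mem (inv_mem hr) hr'
    exact inv_mul_eq_one.mp h1
  have hsel : ∀ a : σ₁.ker, ∃ r, r ∈ commutator F ∧ π₁ r = a.1 := fun a => hc1 a.1 (hσ₁d a.2)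
  let ρ : σ₁.ker → F := fun a => (hsel a).choose
  have hρ : ∀ a : σ₁.ker, ρ a ∈ commutator F ∧ π₁ (ρ a) = a.1 := fun a => (hsel a).choose_spec
  have hρmul : ∀ a b : σ₁.ker, ρ (a * b) = ρ a * ρ b := by
    intro a b
    have e1 : π₁ (ρ (a * b)) = a.1 * b.1 := (hρ (a * b)).2
    have e2 : π₁ (ρ a * ρ b) = a.1 * b.1 := by rw [map_mul, (hρ a).2, (hρ b).2]
    exact huniq _ _ (hρ _).1 (mul_mem (hρ a).1 (hρ b).1) (e1.trans e2.symm)
  refine ⟨MonoidHom.mk' (fun a => π₂ (ρ (e₁.symm a))) ?_, ?_, ?_⟩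
  · intro a b
    show π₂ (ρ (e₁.symm (a * b))) = π₂ (ρ (e₁.symm a)) * π₂ (ρ (e₁.symm b))
    rw [map_mul e₁.symm, hρmul, map_mul]
  · intro a
    rw [MonoidHom.mem_ker]
    show p (π₂ (ρ (e₁.symm a))) = 1
    rw [← hF, (hρ _).2]
    exact MonoidHom.mem_ker.mp (e₁.symm a).2
  · intro x hx hx'
    obtain ⟨r, hr, hrx⟩ := hc2 x hx'
    have ha : π₁ r ∈ σ₁.ker := by
      rw [MonoidHom.mem_ker, hF, hrx]; exact MonoidHom.mem_ker.mp hx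
    refine ⟨e₁ ⟨π₁ r, ha⟩, ?_⟩
    show π₂ (ρ (e₁.symm (e₁ ⟨π₁ r, ha⟩))) = x
    rw [e₁.symm_apply_apply]
    have h1 : ρ ⟨π₁ r, ha⟩ = r := huniq _ _ (hρ _).1 hr (hρ ⟨π₁ r, ha⟩).2
    rw [h1, hrx]

theorem ratio_hom {H : Type*} {K : Type*} [Group H] [Group K] (f g : H →* K)
    (hfg : ∀ x, f x * (g x)⁻¹ ∈ Subgroup.center K) :
    ∃ z : H →* K, ∀ x, z x = f x * (g x)⁻¹ := by
  refine ⟨MonoidHom.mk' (fun x => f x * (g x)⁻¹) ?_, fun _ => rfl⟩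
  intro x y
  show f (x * y) * (g (x * y))⁻¹ = (f x * (g x)⁻¹) * (f y * (g y)⁻¹)
  have hc : (f y * (g y)⁻¹) * (g x)⁻¹ = (g x)⁻¹ * (f y * (g y)⁻¹) :=
    ((Subgroup.mem_center_iff.mp (hfg y)) ((g x)⁻¹)).symm
  rw [map_mul, map_mul, mul_inv_rev]
  calc f x * f y * ((g y)⁻¹ * (g x)⁻¹) = f x * ((f y * (g y)⁻¹) * (g x)⁻¹) := by group
    _ = f x * ((g x)⁻¹ * (f y * (g y)⁻¹)) := by rw [hc]
    _ = _ := by group

theorem pairing_pow {Q : Type*} [Group Q] {Δ : Type*} [Group Δ] (H : Subgroup Δ)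
    (p : H →* Q) (hp : Function.Surjective p) (y : Δ)
    (hy : ∀ x : H, (x : Δ) * y * (x : Δ)⁻¹ * y⁻¹ ∈ Subgroup.center Δ)
    (hker : ∀ x : H, p x = 1 → (x : Δ) * y = y * (x : Δ)) (x : H) :
    ((x : Δ) * y * (x : Δ)⁻¹ * y⁻¹) ^ Nat.card (Abelianization Q) = 1 := by
  let f : H →* Δ := H.subtype
  let g : H →* Δ := (MulAut.conj y).toMonoidHom.comp H.subtype
  have hfg : ∀ x : H, f x * (g x)⁻¹ = (x : Δ) * y * (x : Δ)⁻¹ * y⁻¹ := by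
    intro x
    show (x : Δ) * (y * (x : Δ) * y⁻¹)⁻¹ = (x : Δ) * y * (x : Δ)⁻¹ * y⁻¹
    group
  have hcen : ∀ x : H, f x * (g x)⁻¹ ∈ Subgroup.center Δ := by
    intro x; rw [hfg]; exact hy x
  obtain ⟨z, hz⟩ := ratio_hom f g hcen
  have hzc : ∀ d : H, d ∈ commutator H → z d = 1 := by
    intro d hd
    rw [hz, sc_eq_on_comm f g hcen d hd, mul_inv_cancel]
  have hzk : ∀ t : H, p t = 1 → z t = 1 := by
    intro t ht
    rw [hz, hfg, hker t ht]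
    group
  have h1 : p x ^ Nat.card (Abelianization Q) ∈ commutator Q := by
    rw [← Abelianization.ker_of Q, MonoidHom.mem_ker, map_pow]
    exact pow_card_eq_one'
  have h2 : p (x ^ Nat.card (Abelianization Q)) ∈ Subgroup.map p (commutator H) := by
    rw [commutator_def, Subgroup.map_commutator, Subgroup.map_top_of_surjective p hp,
      ← commutator_def, map_pow]
    exact h1
  obtain ⟨d, hd, hdx⟩ := h2
  have h3 : p (d⁻¹ * x ^ Nat.card (Abelianization Q)) = 1 := by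
    rw [map_mul, map_inv, hdx, inv_mul_cancel]
  have h4 : z (x ^ Nat.card (Abelianization Q)) = 1 := by
    have e : x ^ Nat.card (Abelianization Q) = d * (d⁻¹ * x ^ Nat.card (Abelianization Q)) := by
      group
    rw [e, map_mul, hzc d hd, hzk _ h3, mul_one]
  rw [← hfg, ← hz, ← map_pow]
  exact h4

theorem part1 {Q₁ : Type u} {Q₂ : Type v} [Group Q₁] [Group Q₂]
    {A B : Type w} [CommGroup A] [CommGroup B]
    (hA : Cfsg.HasSchurMultiplier Q₁ A) (hB : Cfsg.HasSchurMultiplier Q₂ B) :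
    ∃ (Γ : Type (max u v)) (_ : Group Γ) (_ : Finite Γ) (σ : Γ →* Q₁ × Q₂),
      Cfsg.IsStemExtension σ ∧ Nonempty (σ.ker ≃* (A × B)) := by
  obtain ⟨Γ₁, iΓ₁, fΓ₁, σ₁, ⟨hσ₁s, hσ₁c, hσ₁d⟩, ⟨e₁⟩⟩ := hA.1
  obtain ⟨Γ₂, iΓ₂, fΓ₂, σ₂, ⟨hσ₂s, hσ₂c, hσ₂d⟩, ⟨e₂⟩⟩ := hB.1
  have hker : ∀ x : Γ₁ × Γ₂, x ∈ (σ₁.prodMap σ₂).ker ↔ (x.1 ∈ σ₁.ker ∧ x.2 ∈ σ₂.ker) := by
    intro x
    rw [MonoidHom.mem_ker, MonoidHom.mem_ker, MonoidHom.mem_ker]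
    exact Prod.ext_iff
  refine ⟨Γ₁ × Γ₂, inferInstance, inferInstance, σ₁.prodMap σ₂, ⟨?_, ?_, ?_⟩, ⟨?_⟩⟩
  · exact Function.Surjective.prodMap hσ₁s hσ₂s
  · intro x hx
    obtain ⟨h1, h2⟩ := (hker x).mp hx
    have c1 := Subgroup.mem_center_iff.mp (hσ₁c h1)
    have c2 := Subgroup.mem_center_iff.mp (hσ₂c h2)
    rw [Subgroup.mem_center_iff]
    intro y
    exact Prod.ext (c1 y.1) (c2 y.2)
  · intro x hx
    obtain ⟨h1, h2⟩ := (hker x).mp hx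
    have k1 : ((x.1, 1) : Γ₁ × Γ₂) ∈ commutator (Γ₁ × Γ₂) := by
      have h3 : (MonoidHom.inl Γ₁ Γ₂) x.1 ∈
          Subgroup.map (MonoidHom.inl Γ₁ Γ₂) (commutator Γ₁) := ⟨x.1, hσ₁d h1, rfl⟩
      rw [commutator_def, Subgroup.map_commutator] at h3
      exact Subgroup.commutator_mono le_top le_top h3
    have k2 : ((1, x.2) : Γ₁ × Γ₂) ∈ commutator (Γ₁ × Γ₂) := by
      have h3 : (MonoidHom.inr Γ₁ Γ₂) x.2 ∈
          Subgroup.map (MonoidHom.inr Γ₁ Γ₂) (commutator Γ₂) := ⟨x.2, hσ₂d h2, rfl⟩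
      rw [commutator_def, Subgroup.map_commutator] at h3
      exact Subgroup.commutator_mono le_top le_top h3
    have e : x = (x.1, 1) * (1, x.2) := by
      apply Prod.ext
      · show x.1 = x.1 * 1
        rw [mul_one]
      · show x.2 = 1 * x.2
        rw [one_mul]
    rw [e]
    exact mul_mem k1 k2
  · let k₁ : (σ₁.prodMap σ₂).ker →* σ₁.ker :=
      ((MonoidHom.fst Γ₁ Γ₂).comp (σ₁.prodMap σ₂).ker.subtype).codRestrict σ₁.ker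
        (fun x => ((hker x.1).mp x.2).1)
    let k₂ : (σ₁.prodMap σ₂).ker →* σ₂.ker :=
      ((MonoidHom.snd Γ₁ Γ₂).comp (σ₁.prodMap σ₂).ker.subtype).codRestrict σ₂.ker
        (fun x => ((hker x.1).mp x.2).2)
    let ψ : (σ₁.prodMap σ₂).ker →* A × B :=
      (e₁.toMonoidHom.comp k₁).prod (e₂.toMonoidHom.comp k₂)
    have hψ : ∀ x, ψ x = (e₁ (k₁ x), e₂ (k₂ x)) := fun _ => rfl
    have hbij : Function.Bijective ψ := by
      constructor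
      · intro x y hxy
        rw [hψ, hψ] at hxy
        have h1 : k₁ x = k₁ y := e₁.injective (congrArg Prod.fst hxy)
        have h2 : k₂ x = k₂ y := e₂.injective (congrArg Prod.snd hxy)
        apply Subtype.ext
        exact Prod.ext (congrArg Subtype.val h1) (congrArg Subtype.val h2)
      · intro ab
        refine ⟨⟨((e₁.symm ab.1).1, (e₂.symm ab.2).1),
          (hker _).mpr ⟨(e₁.symm ab.1).2, (e₂.symm ab.2).2⟩⟩, ?_⟩
        rw [hψ]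
        apply Prod.ext
        · show e₁ (k₁ _) = ab.1
          have h1 : k₁ ⟨((e₁.symm ab.1).1, (e₂.symm ab.2).1),
            (hker _).mpr ⟨(e₁.symm ab.1).2, (e₂.symm ab.2).2⟩⟩ = e₁.symm ab.1 := Subtype.ext rfl
          rw [h1, e₁.apply_symm_apply]
        · show e₂ (k₂ _) = ab.2
          have h2 : k₂ ⟨((e₁.symm ab.1).1, (e₂.symm ab.2).1),
            (hker _).mpr ⟨(e₁.symm ab.1).2, (e₂.symm ab.2).2⟩⟩ = e₂.symm ab.2 := Subtype.ext rfl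
          rw [h2, e₂.apply_symm_apply]
    exact MulEquiv.ofBijective ψ hbij

theorem part2 {Q₁ : Type u} {Q₂ : Type v} [Group Q₁] [Group Q₂] [Finite Q₁] [Finite Q₂]
    {A B : Type w} [CommGroup A] [CommGroup B]
    (hA : Cfsg.HasSchurMultiplier Q₁ A) (hB : Cfsg.HasSchurMultiplier Q₂ B)
    (hcop : Nat.Coprime (Nat.card (Abelianization Q₁)) (Nat.card (Abelianization Q₂)))
    (Δ : Type (max u v)) [Group Δ] [Finite Δ] (τ : Δ →* Q₁ × Q₂)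
    (hτ : Cfsg.IsStemExtension τ) :
    ∃ π : A × B →* τ.ker, Function.Surjective π := by
  obtain ⟨hτs, hτc, hτd⟩ := hτ
  obtain ⟨τ₁, hτ₁⟩ : ∃ τ₁ : Δ →* Q₁, ∀ δ, τ₁ δ = (τ δ).1 :=
    ⟨(MonoidHom.fst Q₁ Q₂).comp τ, fun _ => rfl⟩
  obtain ⟨τ₂, hτ₂⟩ : ∃ τ₂ : Δ →* Q₂, ∀ δ, τ₂ δ = (τ δ).2 :=
    ⟨(MonoidHom.snd Q₁ Q₂).comp τ, fun _ => rfl⟩
  have hkerτ : ∀ δ, δ ∈ τ.ker ↔ (τ₁ δ = 1 ∧ τ₂ δ = 1) := by
    intro δ
    rw [MonoidHom.mem_ker, hτ₁, hτ₂]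
    exact Prod.ext_iff
  obtain ⟨p₁, hp₁⟩ : ∃ p₁ : τ₂.ker →* Q₁, ∀ x, p₁ x = τ₁ x.1 :=
    ⟨τ₁.comp τ₂.ker.subtype, fun _ => rfl⟩
  obtain ⟨p₂, hp₂⟩ : ∃ p₂ : τ₁.ker →* Q₂, ∀ x, p₂ x = τ₂ x.1 :=
    ⟨τ₂.comp τ₁.ker.subtype, fun _ => rfl⟩
  have hp₁s : Function.Surjective p₁ := by
    intro q
    obtain ⟨δ, hδ⟩ := hτs (q, 1)
    refine ⟨⟨δ, ?_⟩, ?_⟩
    · rw [MonoidHom.mem_ker, hτ₂, hδ]
    · rw [hp₁, hτ₁, hδ]
  have hp₂s : Function.Surjective p₂ := by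
    intro q
    obtain ⟨δ, hδ⟩ := hτs (1, q)
    refine ⟨⟨δ, ?_⟩, ?_⟩
    · rw [MonoidHom.mem_ker, hτ₁, hδ]
    · rw [hp₂, hτ₂, hδ]
  have hk₁ : ∀ x : τ₂.ker, p₁ x = 1 → x.1 ∈ τ.ker := by
    intro x hx
    rw [hp₁] at hx
    exact (hkerτ x.1).mpr ⟨hx, MonoidHom.mem_ker.mp x.2⟩
  have hk₂ : ∀ y : τ₁.ker, p₂ y = 1 → y.1 ∈ τ.ker := by
    intro y hy
    rw [hp₂] at hy
    exact (hkerτ y.1).mpr ⟨MonoidHom.mem_ker.mp y.2, hy⟩
  have hp₁c : p₁.ker ≤ Subgroup.center τ₂.ker := by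
    intro x hx
    have h2 := hτc (hk₁ x (MonoidHom.mem_ker.mp hx))
    rw [Subgroup.mem_center_iff] at h2 ⊢
    intro y
    apply Subtype.ext
    exact h2 y.1
  have hp₂c : p₂.ker ≤ Subgroup.center τ₁.ker := by
    intro x hx
    have h2 := hτc (hk₂ x (MonoidHom.mem_ker.mp hx))
    rw [Subgroup.mem_center_iff] at h2 ⊢
    intro y
    apply Subtype.ext
    exact h2 y.1
  obtain ⟨φ₁, hφ₁k, hφ₁s⟩ := comm_inter_quot hA p₁ hp₁s hp₁c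
  obtain ⟨φ₂, hφ₂k, hφ₂s⟩ := comm_inter_quot hB p₂ hp₂s hp₂c
  have hφ₁T : ∀ a, (φ₁ a).1 ∈ τ.ker := fun a => hk₁ _ (MonoidHom.mem_ker.mp (hφ₁k a))
  have hφ₂T : ∀ b, (φ₂ b).1 ∈ τ.ker := fun b => hk₂ _ (MonoidHom.mem_ker.mp (hφ₂k b))
  -- commutators between the two preimages lie in the kernel
  have hcT : ∀ (x : τ₂.ker) (y : τ₁.ker), (x : Δ) * (y : Δ) * (x : Δ)⁻¹ * (y : Δ)⁻¹ ∈ τ.ker := by
    intro x y
    rw [hkerτ]
    constructor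
    · rw [map_mul, map_mul, map_mul, map_inv, map_inv, MonoidHom.mem_ker.mp y.2]
      group
    · rw [map_mul, map_mul, map_mul, map_inv, map_inv, MonoidHom.mem_ker.mp x.2]
      group
  have hcT' : ∀ (x : τ₂.ker) (y : τ₁.ker), (y : Δ) * (x : Δ) * (y : Δ)⁻¹ * (x : Δ)⁻¹ ∈ τ.ker := by
    intro x y
    have h := inv_mem (hcT x y)
    have e : ((x : Δ) * (y : Δ) * (x : Δ)⁻¹ * (y : Δ)⁻¹)⁻¹ =
        (y : Δ) * (x : Δ) * (y : Δ)⁻¹ * (x : Δ)⁻¹ := by group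
    rwa [e] at h
  have hcomm : ∀ (x : τ₂.ker) (y : τ₁.ker), (x : Δ) * (y : Δ) = (y : Δ) * (x : Δ) := by
    intro x y
    have h1 := pairing_pow τ₂.ker p₁ hp₁s (y : Δ) (fun x' => hτc (hcT x' y))
      (fun x' hx' => (Subgroup.mem_center_iff.mp (hτc (hk₁ x' hx')) (y : Δ)).symm) x
    have h2 := pairing_pow τ₁.ker p₂ hp₂s (x : Δ) (fun y' => hτc (hcT' x y'))
      (fun y' hy' => (Subgroup.mem_center_iff.mp (hτc (hk₂ y' hy')) (x : Δ)).symm) y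
    have e : (y : Δ) * (x : Δ) * (y : Δ)⁻¹ * (x : Δ)⁻¹ =
        ((x : Δ) * (y : Δ) * (x : Δ)⁻¹ * (y : Δ)⁻¹)⁻¹ := by group
    rw [e, inv_pow, inv_eq_one] at h2
    have d1 := orderOf_dvd_of_pow_eq_one h1
    have d2 := orderOf_dvd_of_pow_eq_one h2
    have d3 : orderOf ((x : Δ) * (y : Δ) * (x : Δ)⁻¹ * (y : Δ)⁻¹) ∣ 1 := by
      have := Nat.dvd_gcd d1 d2
      rwa [Nat.Coprime.gcd_eq_one hcop] at this
    have h3 : (x : Δ) * (y : Δ) * (x : Δ)⁻¹ * (y : Δ)⁻¹ = 1 :=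
      orderOf_eq_one_iff.mp (Nat.dvd_one.mp d3)
    calc (x : Δ) * (y : Δ) = ((x : Δ) * (y : Δ) * (x : Δ)⁻¹ * (y : Δ)⁻¹) * ((y : Δ) * (x : Δ)) := by
          group
      _ = (y : Δ) * (x : Δ) := by rw [h3, one_mul]
  have hdec : ∀ t, t ∈ commutator Δ → ∃ (x : τ₂.ker) (y : τ₁.ker),
      x ∈ commutator τ₂.ker ∧ y ∈ commutator τ₁.ker ∧ t = (x : Δ) * (y : Δ) := by
    let μ : τ₂.ker × τ₁.ker →* Δ :=
      MonoidHom.noncommCoprod τ₂.ker.subtype τ₁.ker.subtype (fun x y => hcomm x y)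
    have hμ : ∀ z, μ z = (z.1 : Δ) * (z.2 : Δ) := fun _ => rfl
    have hμs : Function.Surjective μ := by
      intro δ
      obtain ⟨δ₁, hδ₁⟩ := hτs ((τ δ).1, 1)
      have h1 : δ₁ ∈ τ₂.ker := by rw [MonoidHom.mem_ker, hτ₂, hδ₁]
      have h2 : δ₁⁻¹ * δ ∈ τ₁.ker := by
        rw [MonoidHom.mem_ker, map_mul, map_inv, hτ₁, hτ₁, hδ₁, inv_mul_cancel]
      refine ⟨(⟨δ₁, h1⟩, ⟨δ₁⁻¹ * δ, h2⟩), ?_⟩
      rw [hμ]
      show δ₁ * (δ₁⁻¹ * δ) = δ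
      group
    intro t ht
    have h1 : t ∈ Subgroup.map μ (commutator (τ₂.ker × τ₁.ker)) := by
      rw [commutator_def, Subgroup.map_commutator, Subgroup.map_top_of_surjective μ hμs,
        ← commutator_def]
      exact ht
    obtain ⟨z, hz, hzt⟩ := h1
    refine ⟨z.1, z.2, ?_, ?_, ?_⟩
    · have h2 : (MonoidHom.fst τ₂.ker τ₁.ker) z ∈
          Subgroup.map (MonoidHom.fst τ₂.ker τ₁.ker) (commutator (τ₂.ker × τ₁.ker)) :=
        ⟨z, hz, rfl⟩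
      rw [commutator_def, Subgroup.map_commutator] at h2
      exact Subgroup.commutator_mono le_top le_top h2
    · have h2 : (MonoidHom.snd τ₂.ker τ₁.ker) z ∈
          Subgroup.map (MonoidHom.snd τ₂.ker τ₁.ker) (commutator (τ₂.ker × τ₁.ker)) :=
        ⟨z, hz, rfl⟩
      rw [commutator_def, Subgroup.map_commutator] at h2
      exact Subgroup.commutator_mono le_top le_top h2
    · rw [← hzt, hμ]
  refine ⟨MonoidHom.mk' (fun ab => ⟨((φ₁ ab.1 : τ₂.ker) : Δ) * ((φ₂ ab.2 : τ₁.ker) : Δ),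
    mul_mem (hφ₁T _) (hφ₂T _)⟩) ?_, ?_⟩
  · rintro ⟨a, b⟩ ⟨a', b'⟩
    apply Subtype.ext
    show ((φ₁ (a * a') : τ₂.ker) : Δ) * ((φ₂ (b * b') : τ₁.ker) : Δ) =
      (((φ₁ a : τ₂.ker) : Δ) * ((φ₂ b : τ₁.ker) : Δ)) *
        (((φ₁ a' : τ₂.ker) : Δ) * ((φ₂ b' : τ₁.ker) : Δ))
    rw [map_mul φ₁, map_mul φ₂]
    have hc' : ((φ₁ a' : τ₂.ker) : Δ) * ((φ₂ b : τ₁.ker) : Δ) =
        ((φ₂ b : τ₁.ker) : Δ) * ((φ₁ a' : τ₂.ker) : Δ) := hcomm _ _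
    show ((φ₁ a : τ₂.ker) : Δ) * ((φ₁ a' : τ₂.ker) : Δ) *
        (((φ₂ b : τ₁.ker) : Δ) * ((φ₂ b' : τ₁.ker) : Δ)) = _
    calc ((φ₁ a : τ₂.ker) : Δ) * ((φ₁ a' : τ₂.ker) : Δ) *
          (((φ₂ b : τ₁.ker) : Δ) * ((φ₂ b' : τ₁.ker) : Δ))
        = ((φ₁ a : τ₂.ker) : Δ) * (((φ₁ a' : τ₂.ker) : Δ) * ((φ₂ b : τ₁.ker) : Δ)) *
          ((φ₂ b' : τ₁.ker) : Δ) := by group
      _ = ((φ₁ a : τ₂.ker) : Δ) * (((φ₂ b : τ₁.ker) : Δ) * ((φ₁ a' : τ₂.ker) : Δ)) *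
          ((φ₂ b' : τ₁.ker) : Δ) := by rw [hc']
      _ = _ := by group
  · intro t
    obtain ⟨x, y, hx, hy, hxy⟩ := hdec t.1 (hτd t.2)
    have ht := (hkerτ t.1).mp t.2
    have hx1 : x ∈ p₁.ker := by
      rw [MonoidHom.mem_ker, hp₁]
      have h := ht.1
      rw [hxy, map_mul, MonoidHom.mem_ker.mp y.2, mul_one] at h
      exact h
    have hy1 : y ∈ p₂.ker := by
      rw [MonoidHom.mem_ker, hp₂]
      have h := ht.2
      rw [hxy, map_mul, MonoidHom.mem_ker.mp x.2, one_mul] at h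
      exact h
    obtain ⟨a, ha⟩ := hφ₁s x hx1 hx
    obtain ⟨b, hb⟩ := hφ₂s y hy1 hy
    refine ⟨(a, b), Subtype.ext ?_⟩
    show ((φ₁ a : τ₂.ker) : Δ) * ((φ₂ b : τ₁.ker) : Δ) = t.1
    rw [ha, hb, hxy]

/-- Let `Q₁` and `Q₂` be finite groups whose commutator quotients have coprime orders, with Schur multipliers `A` and `B`. Then the Schur multiplier of `Q₁ × Q₂` is isomorphic to `A × B`. -/
theorem result {Q₁ : Type u} {Q₂ : Type v} [Group Q₁] [Group Q₂] [Finite Q₁] [Finite Q₂] {A B : Type w} [CommGroup A] [CommGroup B] (hA : Cfsg.HasSchurMultiplier Q₁ A) (hB : Cfsg.HasSchurMultiplier Q₂ B) (hcop : Nat.Coprime (Nat.card (Abelianization Q₁)) (Nat.card (Abelianization Q₂))) : Cfsg.HasSchurMultiplier (Q₁ × Q₂) (A × B) := by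
  exact ⟨part1 hA hB, fun Δ _ _ τ hτ => part2 hA hB hcop Δ τ hτ⟩

end Cfsg.Agent.S3980
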