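import Cfsg.Statements.S3954
import Cfsg.Agent.S3980
import Mathlib.GroupTheory.Transfer
import Mathlib.GroupTheory.FiniteAbelian.Duality
import Mathlib.Algebra.Group.Hom.Instances

set_option autoImplicit false
open Cfsg
open scoped commutatorElement

namespace Cfsg.Agent.S3954

theorem comm_le_ker' {G : Type*} [Group G] {C : Type*} [CommGroup C] (f : G →* C) :
    commutator G ≤ f.ker := by
  rw [commutator_eq_closure, Subgroup.closure_le]
  rintro _ ⟨a, b, rfl⟩
  rw [SetLike.mem_coe, MonoidHom.mem_ker, map_commutatorElement, commutatorElement_def,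
    mul_comm (f a) (f b), mul_inv_cancel_right, mul_inv_cancel]

theorem transfer_pow_mem {Γ : Type*} [Group Γ] [Finite Γ] (V : Subgroup Γ) (a : Γ)
    (hac : a ∈ Subgroup.center Γ) (ha : a ∈ commutator Γ) :
    ∃ h : a ^ V.index ∈ V, (⟨a ^ V.index, h⟩ : V) ∈ commutator V := by
  have key : ∀ (k : ℕ) (g₀ : Γ), g₀⁻¹ * a ^ k * g₀ ∈ V → g₀⁻¹ * a ^ k * g₀ = a ^ k := by
    intro k g₀ _
    have hc := Subgroup.mem_center_iff.mp (Subgroup.pow_mem _ hac k) g₀
    rw [mul_assoc, ← hc, inv_mul_cancel_left]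
  have h1 := MonoidHom.transfer_eq_pow (Abelianization.of : V →* Abelianization V) a key
  have h2 : MonoidHom.transfer (Abelianization.of : V →* Abelianization V) a = 1 :=
    MonoidHom.mem_ker.mp (comm_le_ker' _ ha)
  rw [h1] at h2
  refine ⟨MonoidHom.transfer_eq_pow_aux a key, ?_⟩
  rw [← Abelianization.ker_of V, MonoidHom.mem_ker]
  exact h2

theorem exists_inj_of_surj {B : Type*} {C : Type*} [CommGroup B] [Finite B] [CommGroup C]
    (φ : B →* C) (hφ : Function.Surjective φ) : ∃ j : C →* B, Function.Injective j := by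
  haveI : Finite C := Finite.of_surjective φ hφ
  obtain ⟨dB⟩ := CommGroup.monoidHom_mulEquiv_of_hasEnoughRootsOfUnity B ℂ
  obtain ⟨dC⟩ := CommGroup.monoidHom_mulEquiv_of_hasEnoughRootsOfUnity C ℂ
  refine ⟨dB.toMonoidHom.comp ((MonoidHom.compHom' φ).comp dC.symm.toMonoidHom), ?_⟩
  intro x y hxy
  have h1 : (MonoidHom.compHom' φ) (dC.symm x) = (MonoidHom.compHom' φ) (dC.symm y) :=
    dB.injective hxy
  have h2 : dC.symm x = dC.symm y := by
    apply MonoidHom.ext
    intro c
    obtain ⟨b, rfl⟩ := hφ c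
    exact DFunLike.congr_fun h1 b
  exact dC.symm.injective h2

/-- Let `U` be a subgroup of index `m` in the finite group `G`, let `A` be the Schur multiplier of `G` and `B` that of `U`. Then the subgroup of `m`-th powers of `A` is isomorphic to a subgroup of `B`. -/
theorem result {G : Type*} [Group G] [Finite G] (U : Subgroup G) {A B : Type*} [CommGroup A] [CommGroup B] (hA : Cfsg.HasSchurMultiplier G A) (hB : Cfsg.HasSchurMultiplier U B) : ∃ C : Subgroup B, Nonempty ((powMonoidHom U.index : A →* A).range ≃* C) := by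
  obtain ⟨Γ, iΓ, fΓ, σ, ⟨hσs, hσc, hσd⟩, ⟨e₁⟩⟩ := hA.1
  haveI : Finite B := by
    obtain ⟨Γ', _, _, σ', _, ⟨e'⟩⟩ := hB.1
    exact Finite.of_equiv _ e'.toEquiv
  let p : Subgroup.comap σ U →* U := σ.subgroupComap U
  have hp : ∀ x, ((p x : U) : G) = σ x.1 := fun _ => rfl
  have hps : Function.Surjective p := by
    intro u
    obtain ⟨g, hg⟩ := hσs u.1
    exact ⟨⟨g, by rw [Subgroup.mem_comap, hg]; exact u.2⟩, Subtype.ext hg⟩
  have hkp : ∀ x, x ∈ p.ker ↔ σ x.1 = 1 := by
    intro x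
    rw [MonoidHom.mem_ker, Subtype.ext_iff, hp]
    rfl
  have hpc : p.ker ≤ Subgroup.center (Subgroup.comap σ U) := by
    intro x hx
    have h2 := hσc (MonoidHom.mem_ker.mpr ((hkp x).mp hx))
    rw [Subgroup.mem_center_iff] at h2 ⊢
    intro y
    apply Subtype.ext
    exact h2 y.1
  obtain ⟨φ, hφk, hφs⟩ := Cfsg.Agent.S3980.comm_inter_quot hB p hps hpc
  have hidx : (Subgroup.comap σ U).index = U.index := Subgroup.index_comap_of_surjective U hσs
  have hsel : ∀ x : (powMonoidHom U.index : A →* A).range,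
      ∃ b : B, (φ b).1 = (e₁.symm x.1).1 := by
    intro x
    obtain ⟨y, hy⟩ := x.2
    have hy' : x.1 = y ^ U.index := hy.symm
    obtain ⟨h, hcomm⟩ := transfer_pow_mem (Subgroup.comap σ U) (e₁.symm y).1
      (hσc (e₁.symm y).2) (hσd (e₁.symm y).2)
    have hker : (⟨(e₁.symm y).1 ^ (Subgroup.comap σ U).index, h⟩ : Subgroup.comap σ U) ∈
        p.ker := by
      rw [hkp]
      show σ ((e₁.symm y).1 ^ (Subgroup.comap σ U).index) = 1
      rw [map_pow, MonoidHom.mem_ker.mp (e₁.symm y).2, one_pow]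
    obtain ⟨b, hb⟩ := hφs _ hker hcomm
    refine ⟨b, ?_⟩
    rw [hb, hy', map_pow]
    show (e₁.symm y).1 ^ (Subgroup.comap σ U).index = ((e₁.symm y) ^ U.index : σ.ker).1
    rw [hidx]
    rfl
  let β : (powMonoidHom U.index : A →* A).range → B := fun x => (hsel x).choose
  have hβ : ∀ x, (φ (β x)).1 = (e₁.symm x.1).1 := fun x => (hsel x).choose_spec
  let ψ' : (powMonoidHom U.index : A →* A).range →* B ⧸ φ.ker :=
    MonoidHom.mk' (fun x => QuotientGroup.mk (β x)) (by
      intro x y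
      show (QuotientGroup.mk (β (x * y)) : B ⧸ φ.ker) =
        QuotientGroup.mk (β x) * QuotientGroup.mk (β y)
      rw [← QuotientGroup.mk_mul, QuotientGroup.eq, MonoidHom.mem_ker]
      apply Subtype.ext
      rw [map_mul, map_inv, map_mul]
      show ((φ (β (x * y))).1)⁻¹ * ((φ (β x)).1 * (φ (β y)).1) = 1
      rw [hβ, hβ, hβ]
      have e2 : e₁.symm ((x * y : (powMonoidHom U.index : A →* A).range) : A) =
          e₁.symm x.1 * e₁.symm y.1 := map_mul e₁.symm x.1 y.1
      rw [e2]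
      show ((e₁.symm x.1).1 * (e₁.symm y.1).1)⁻¹ * ((e₁.symm x.1).1 * (e₁.symm y.1).1) = 1
      exact inv_mul_cancel _)
  have hψ'inj : Function.Injective ψ' := by
    rw [injective_iff_map_eq_one]
    intro x hx
    have h1 : β x ∈ φ.ker := (QuotientGroup.eq_one_iff _).mp hx
    have h2 : (φ (β x)).1 = 1 := congrArg Subtype.val (MonoidHom.mem_ker.mp h1)
    rw [hβ] at h2
    have h3 : e₁.symm x.1 = 1 := Subtype.ext h2
    have h4 : x.1 = 1 := by
      have := congrArg e₁ h3
      rwa [e₁.apply_symm_apply, map_one] at this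
    exact Subtype.ext h4
  obtain ⟨j, hj⟩ := exists_inj_of_surj (QuotientGroup.mk' φ.ker) (QuotientGroup.mk'_surjective φ.ker)
  exact ⟨(j.comp ψ').range, ⟨MonoidHom.ofInjective (hj.comp hψ'inj)⟩⟩

end Cfsg.Agent.S3954
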