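import Mathlib
import Cfsg.Statements.S3953
import Cfsg.Agent.S3954

set_option autoImplicit false
universe u v w
open Cfsg Cfsg.Agent.Helper11
open scoped commutatorElement

namespace Cfsg.Agent.S3953

theorem fin_split {A B : Type*} [CommGroup A] [CommGroup B] [Finite A] (p m : ℕ) [Fact p.Prime]
    (hm : ¬ p ∣ m) (ρ : A →* B) (θ : B →* A) (h : ∀ a, θ (ρ a) = a ^ m) :
    ∃ C D : Subgroup B, C ⊓ D = ⊥ ∧ C ⊔ D = ⊤ ∧
      Nonempty (CommGroup.primaryComponent A p ≃* C) := by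
  have hp : p.Prime := Fact.out
  have hn0 : Nat.card A ≠ 0 := Nat.card_pos.ne'
  obtain ⟨s, r, hr, hsr⟩ : ∃ s r : ℕ, Nat.Coprime p r ∧ p ^ s * r = Nat.card A :=
    ⟨(Nat.card A).factorization p, (Nat.card A) / p ^ (Nat.card A).factorization p,
      Nat.coprime_ordCompl hp hn0, Nat.ordProj_mul_ordCompl_eq_self _ _⟩
  have hmc : Nat.Coprime p m := (Nat.Prime.coprime_iff_not_dvd hp).mpr hm
  have F1 : ∀ a : A, a ∈ CommGroup.primaryComponent A p → ∀ j : ℕ, Nat.Coprime p j →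
      a ^ j = 1 → a = 1 := by
    intro a ha j hj haj
    obtain ⟨k, hk⟩ : ∃ k : ℕ, a ^ p ^ k = 1 := ha
    have h1 : orderOf a ∣ j := orderOf_dvd_of_pow_eq_one haj
    have h0 : orderOf a ∣ p ^ k := orderOf_dvd_of_pow_eq_one hk
    have h2 : Nat.Coprime (p ^ k) j := Nat.Coprime.pow_left k hj
    have h3 := Nat.dvd_gcd h0 h1
    rw [Nat.Coprime.gcd_eq_one h2] at h3
    exact orderOf_eq_one_iff.mp (Nat.dvd_one.mp h3)
  have F2 : ∀ a : A, a ^ r ∈ CommGroup.primaryComponent A p := by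
    intro a
    have h1 : (a ^ r) ^ (p ^ s) = 1 := by
      rw [← pow_mul, mul_comm, hsr]; exact pow_card_eq_one'
    exact ⟨s, h1⟩
  let f : CommGroup.primaryComponent A p →* B := ρ.comp (CommGroup.primaryComponent A p).subtype
  have hf : ∀ a, f a = ρ a.1 := fun _ => rfl
  have hinj : Function.Injective f := by
    rw [injective_iff_map_eq_one]
    intro a ha
    rw [hf] at ha
    have h1 : a.1 ^ m = 1 := by rw [← h, ha, map_one]
    exact Subtype.ext (F1 a.1 a.2 m hmc h1)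
  let D : Subgroup B := ((powMonoidHom r : A →* A).comp θ).ker
  have hD : ∀ b, b ∈ D ↔ θ b ^ r = 1 := fun b => MonoidHom.mem_ker
  refine ⟨f.range, D, ?_, ?_, ⟨MonoidHom.ofInjective hinj⟩⟩
  · rw [eq_bot_iff]
    rintro b ⟨⟨a, rfl⟩, hbD0⟩
    have hbD : f a ∈ D := hbD0
    rw [hD, hf, h, ← pow_mul] at hbD
    have h1 : a.1 = 1 := F1 a.1 a.2 (m * r) (Nat.Coprime.mul_right hmc hr) hbD
    rw [Subgroup.mem_bot, hf, h1, map_one]
  · rw [eq_top_iff]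
    intro b _
    have ha' := F2 (θ b)
    obtain ⟨k, hk⟩ : ∃ k : ℕ, (θ b ^ r) ^ p ^ k = 1 := ha'
    have hcop : Nat.Coprime (r * m) (orderOf (θ b ^ r)) :=
      Nat.Coprime.coprime_dvd_right (orderOf_dvd_of_pow_eq_one hk)
        (Nat.Coprime.pow_right k (Nat.Coprime.mul_left hr.symm hmc.symm))
    obtain ⟨w, hw⟩ := exists_pow_eq_self_of_coprime hcop
    have hc : (θ b ^ r) ^ w ∈ CommGroup.primaryComponent A p :=
      Subgroup.pow_mem _ (F2 (θ b)) w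
    rw [Subgroup.mem_sup]
    refine ⟨ρ ((θ b ^ r) ^ w), ⟨⟨_, hc⟩, rfl⟩, b * (ρ ((θ b ^ r) ^ w))⁻¹, ?_, ?_⟩
    · rw [hD, map_mul, map_inv, h, mul_pow, inv_pow]
      have e : (((θ b ^ r) ^ w) ^ m) ^ r = ((θ b ^ r) ^ (r * m)) ^ w := by
        calc (((θ b ^ r) ^ w) ^ m) ^ r = ((θ b ^ r) ^ w) ^ (m * r) := (pow_mul _ m r).symm
          _ = (θ b ^ r) ^ (w * (m * r)) := (pow_mul _ w (m * r)).symm
          _ = (θ b ^ r) ^ ((r * m) * w) := by congr 1; ring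
          _ = ((θ b ^ r) ^ (r * m)) ^ w := pow_mul _ (r * m) w
      rw [e, hw, mul_inv_cancel]
    · rw [mul_comm, inv_mul_cancel_right]

theorem alg_theta {K B X : Type*} [Group K] [CommGroup B] [CommGroup X] (m : ℕ)
    (κ : K →* X) (hκ : Function.Injective κ) (ν : B →* X) (hi : ∀ b, ∃ k, κ k * ν b = 1)
    (ρ : K →* B) (hρ : ∀ k, κ k ^ m * ν (ρ k) = 1) :
    ∃ θ : B →* K, ∀ k, θ (ρ k) = k ^ m := by
  choose t ht using hi
  refine ⟨MonoidHom.mk' t ?_, ?_⟩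
  · intro b b'
    apply hκ
    rw [map_mul κ, eq_inv_of_mul_eq_one_left (ht (b * b')), eq_inv_of_mul_eq_one_left (ht b),
      eq_inv_of_mul_eq_one_left (ht b'), map_mul, mul_inv]
  · intro k
    apply hκ
    show κ (t (ρ k)) = κ (k ^ m)
    rw [eq_inv_of_mul_eq_one_left (ht (ρ k)), map_pow, eq_inv_of_mul_eq_one_left (hρ k)]

theorem perm_apply_inv {α : Type*} (f : Equiv.Perm α) (x : α) : f (f⁻¹ x) = x :=
  f.apply_symm_apply x

section WR

variable {G : Type u} [Group G] {Γ : Type u} [Group Γ] (σ : Γ →* G)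
  {H : Subgroup G} {Δ : Type u} [Group Δ] (τ : Δ →* H)

/-- fibre product of `σ` and `τ` over `G` -/
def Fib : Subgroup (Γ × Δ) where
  carrier := {z | σ z.1 = (τ z.2 : G)}
  mul_mem' := by
    intro a b ha hb
    show σ (a.1 * b.1) = ((τ (a.2 * b.2) : H) : G)
    have ha' : σ a.1 = (τ a.2 : G) := ha
    have hb' : σ b.1 = (τ b.2 : G) := hb
    rw [map_mul, map_mul, Subgroup.coe_mul, ha', hb']
  one_mem' := by
    show σ (1 : Γ) = ((τ (1 : Δ) : H) : G)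
    rw [map_one, map_one]; rfl
  inv_mem' := by
    intro a ha
    show σ (a.1⁻¹) = ((τ (a.2⁻¹) : H) : G)
    have ha' : σ a.1 = (τ a.2 : G) := ha
    rw [map_inv, map_inv, Subgroup.coe_inv, ha']

/-- inclusion of the kernel of `σ` -/
def kIn : σ.ker →* Fib σ τ := MonoidHom.mk' (fun k => ⟨(k.1, 1), by
    show σ k.1 = ((τ 1 : H) : G)
    rw [MonoidHom.mem_ker.mp k.2, map_one]; rfl⟩)
  (fun a b => Subtype.ext (Prod.ext rfl (one_mul 1).symm))

/-- inclusion of the kernel of `τ` -/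
def lIn : τ.ker →* Fib σ τ := MonoidHom.mk' (fun l => ⟨(1, l.1), by
    show σ 1 = ((τ l.1 : H) : G)
    rw [MonoidHom.mem_ker.mp l.2, map_one]; rfl⟩)
  (fun a b => Subtype.ext (Prod.ext (one_mul 1).symm rfl))

/-- kernel of `σ` in the abelianised fibre product -/
def kap : σ.ker →* Abelianization (Fib σ τ) := Abelianization.of.comp (kIn σ τ)

/-- kernel of `τ` in the abelianised fibre product -/
def nu {B : Type*} [CommGroup B] (eB : τ.ker ≃* B) : B →* Abelianization (Fib σ τ) :=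
  Abelianization.of.comp ((lIn σ τ).comp eB.symm.toMonoidHom)

/-- class in the abelianised fibre product, trivial outside -/
noncomputable def chi (z : Γ × Δ) : Abelianization (Fib σ τ) := by
  classical
  exact if h : z ∈ Fib σ τ then Abelianization.of ⟨z, h⟩ else 1

theorem chi_pos (z : Γ × Δ) (h : z ∈ Fib σ τ) : chi σ τ z = Abelianization.of ⟨z, h⟩ := by
  unfold chi
  exact dif_pos h

theorem chi_mul (z z' : Γ × Δ) (h : z ∈ Fib σ τ) (h' : z' ∈ Fib σ τ) :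
    chi σ τ (z * z') = chi σ τ z * chi σ τ z' := by
  rw [chi_pos σ τ _ h, chi_pos σ τ _ h', chi_pos σ τ _ (mul_mem h h'), ← map_mul]
  rfl

/-- covering map to `G` -/
noncomputable def cov (ω : (G ⧸ H) × Δ) : G := Quotient.out ω.1 * (τ ω.2 : G)

theorem cov_mul (i : G ⧸ H) (δ y : Δ) : cov τ (i, δ * y) = cov τ (i, δ) * (τ y : G) := by
  show Quotient.out i * ((τ (δ * y) : H) : G) = Quotient.out i * (τ δ : G) * (τ y : G)
  rw [map_mul, Subgroup.coe_mul, mul_assoc]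

theorem cov_inj (ω ω' : (G ⧸ H) × Δ) (h : cov τ ω = cov τ ω') :
    ω.1 = ω'.1 ∧ τ ω.2 = τ ω'.2 := by
  have h' : Quotient.out ω.1 * (τ ω.2 : G) = Quotient.out ω'.1 * (τ ω'.2 : G) := h
  have h1 : ω.1 = ω'.1 := by
    have e : (Quotient.out ω.1)⁻¹ * Quotient.out ω'.1 = (τ ω.2 : G) * (τ ω'.2 : G)⁻¹ := by
      have e0 : Quotient.out ω'.1 = Quotient.out ω.1 * (τ ω.2 : G) * (τ ω'.2 : G)⁻¹ := by
        rw [h', mul_inv_cancel_right]
      rw [e0]; group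
    have e2 : ((Quotient.out ω.1 : G) : G ⧸ H) = ((Quotient.out ω'.1 : G) : G ⧸ H) := by
      apply QuotientGroup.eq.mpr
      rw [e]
      exact H.mul_mem (τ ω.2).2 (H.inv_mem (τ ω'.2).2)
    calc ω.1 = ((Quotient.out ω.1 : G) : G ⧸ H) := (QuotientGroup.out_eq' _).symm
      _ = ((Quotient.out ω'.1 : G) : G ⧸ H) := e2
      _ = ω'.1 := QuotientGroup.out_eq' _
  refine ⟨h1, ?_⟩
  rw [h1] at h'
  exact Subtype.ext (mul_left_cancel h')

theorem cov_surj (hτs : Function.Surjective τ) (x : G) : ∃ ω, cov τ ω = x := by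
  have h1 : (Quotient.out (x : G ⧸ H))⁻¹ * x ∈ H :=
    QuotientGroup.eq.mp (QuotientGroup.out_eq' (x : G ⧸ H))
  obtain ⟨δ, hδ⟩ := hτs ⟨_, h1⟩
  refine ⟨((x : G ⧸ H), δ), ?_⟩
  show Quotient.out (x : G ⧸ H) * ((τ δ : H) : G) = x
  rw [hδ]
  exact mul_inv_cancel_left _ _

/-- the group of lifted permutations -/
def G0 : Subgroup (Γ × Equiv.Perm ((G ⧸ H) × Δ)) where
  carrier := {x | (∀ (ω : (G ⧸ H) × Δ) (y : Δ),
      x.2 (ω.1, ω.2 * y) = ((x.2 ω).1, (x.2 ω).2 * y)) ∧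
    (∀ ω, cov τ (x.2 ω) = σ x.1 * cov τ ω)}
  mul_mem' := by
    rintro x y ⟨hx1, hx2⟩ ⟨hy1, hy2⟩
    refine ⟨fun ω z => ?_, fun ω => ?_⟩
    · show x.2 (y.2 (ω.1, ω.2 * z)) = ((x.2 (y.2 ω)).1, (x.2 (y.2 ω)).2 * z)
      rw [hy1, hx1]
    · show cov τ (x.2 (y.2 ω)) = σ (x.1 * y.1) * cov τ ω
      rw [hx2, hy2, map_mul, mul_assoc]
  one_mem' := by
    refine ⟨fun ω z => rfl, fun ω => ?_⟩
    show cov τ ω = σ 1 * cov τ ω
    rw [map_one, one_mul]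
  inv_mem' := by
    rintro x ⟨hx1, hx2⟩
    refine ⟨fun ω z => ?_, fun ω => ?_⟩
    · show x.2⁻¹ (ω.1, ω.2 * z) = ((x.2⁻¹ ω).1, (x.2⁻¹ ω).2 * z)
      apply x.2.injective
      rw [perm_apply_inv, hx1 (x.2⁻¹ ω) z, perm_apply_inv]
    · show cov τ (x.2⁻¹ ω) = σ x.1⁻¹ * cov τ ω
      have h := hx2 (x.2⁻¹ ω)
      rw [perm_apply_inv] at h
      rw [map_inv, h, inv_mul_cancel_left]

theorem G0_surj [Finite G] [Finite Δ] (hτs : Function.Surjective τ) (g : Γ) :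
    ∃ ψ, (g, ψ) ∈ G0 σ τ := by
  choose c hc using fun i : G ⧸ H => cov_surj τ hτs (σ g * Quotient.out i)
  let fn : (G ⧸ H) × Δ → (G ⧸ H) × Δ := fun ω => ((c ω.1).1, (c ω.1).2 * ω.2)
  have hcov : ∀ ω, cov τ (fn ω) = σ g * cov τ ω := by
    intro ω
    show cov τ ((c ω.1).1, (c ω.1).2 * ω.2) = σ g * (Quotient.out ω.1 * (τ ω.2 : G))
    rw [cov_mul, ← mul_assoc, ← hc ω.1]
  have hinj : Function.Injective fn := by
    intro ω ω' h
    have h1 : cov τ ω = cov τ ω' := by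
      have h0 := congrArg (cov τ) h
      rw [hcov, hcov] at h0
      exact mul_left_cancel h0
    obtain ⟨h2, -⟩ := cov_inj τ _ _ h1
    have h3 : (c ω.1).2 * ω.2 = (c ω'.1).2 * ω'.2 := congrArg Prod.snd h
    rw [h2] at h3
    exact Prod.ext h2 (mul_left_cancel h3)
  have hbij : Function.Bijective fn := ⟨hinj, Finite.injective_iff_surjective.mp hinj⟩
  refine ⟨Equiv.ofBijective fn hbij, fun ω z => ?_, fun ω => hcov ω⟩
  show ((c ω.1).1, (c ω.1).2 * (ω.2 * z)) = ((c ω.1).1, (c ω.1).2 * ω.2 * z)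
  rw [mul_assoc]

theorem G0_apply (x : Γ × Equiv.Perm ((G ⧸ H) × Δ)) (hx : x ∈ G0 σ τ) (ω : (G ⧸ H) × Δ) :
    x.2 ω = ((x.2 (ω.1, 1)).1, (x.2 (ω.1, 1)).2 * ω.2) := by
  have h : x.2 (ω.1, 1 * ω.2) = ((x.2 (ω.1, 1)).1, (x.2 (ω.1, 1)).2 * ω.2) :=
    hx.1 (ω.1, 1) ω.2
  rwa [one_mul] at h

/-- induced permutation of cosets -/
def bar (x : Γ × Equiv.Perm ((G ⧸ H) × Δ)) (i : G ⧸ H) : G ⧸ H := (x.2 (i, 1)).1

/-- coordinates -/
def dd (x : Γ × Equiv.Perm ((G ⧸ H) × Δ)) (i : G ⧸ H) : Δ := (x.2 (i, 1)).2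

theorem bar_mul (x y : Γ × Equiv.Perm ((G ⧸ H) × Δ)) (hx : x ∈ G0 σ τ) (i : G ⧸ H) :
    bar (x * y) i = bar x (bar y i) := by
  show (x.2 (y.2 (i, 1))).1 = (x.2 ((y.2 (i, 1)).1, 1)).1
  rw [G0_apply σ τ x hx (y.2 (i, 1))]

theorem dd_mul (x y : Γ × Equiv.Perm ((G ⧸ H) × Δ)) (hx : x ∈ G0 σ τ) (i : G ⧸ H) :
    dd (x * y) i = dd x (bar y i) * dd y i := by
  show (x.2 (y.2 (i, 1))).2 = (x.2 ((y.2 (i, 1)).1, 1)).2 * (y.2 (i, 1)).2
  rw [G0_apply σ τ x hx (y.2 (i, 1))]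

theorem bar_bij (x : Γ × Equiv.Perm ((G ⧸ H) × Δ)) (hx : x ∈ G0 σ τ) :
    Function.Bijective (bar x) := by
  rw [Function.bijective_iff_has_inverse]
  refine ⟨bar x⁻¹, fun i => ?_, fun i => ?_⟩
  · rw [← bar_mul σ τ x⁻¹ x (inv_mem hx), inv_mul_cancel]; rfl
  · rw [← bar_mul σ τ x x⁻¹ hx, mul_inv_cancel]; rfl

theorem overK (x : Γ × Equiv.Perm ((G ⧸ H) × Δ)) (hx : x ∈ G0 σ τ) (hxk : σ x.1 = 1)
    (i : G ⧸ H) : bar x i = i ∧ τ (dd x i) = 1 := by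
  have h := hx.2 (i, 1)
  rw [hxk, one_mul] at h
  obtain ⟨h1, h2⟩ := cov_inj τ _ _ h
  refine ⟨h1, ?_⟩
  rw [show τ (dd x i) = τ (x.2 (i, 1)).2 from rfl, h2]
  exact map_one τ

/-- identification of the kernel of `τ` with `B`, trivial outside -/
noncomputable def eps {B : Type*} [CommGroup B] (eB : τ.ker ≃* B) (δ : Δ) : B := by
  classical
  exact if h : τ δ = 1 then eB ⟨δ, MonoidHom.mem_ker.mpr h⟩ else 1

theorem eps_pos {B : Type*} [CommGroup B] (eB : τ.ker ≃* B) (δ : Δ) (h : τ δ = 1) :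
    eps τ eB δ = eB ⟨δ, MonoidHom.mem_ker.mpr h⟩ := by
  unfold eps
  exact dif_pos h

theorem eps_mul {B : Type*} [CommGroup B] (eB : τ.ker ≃* B) (δ δ' : Δ) (h : τ δ = 1)
    (h' : τ δ' = 1) : eps τ eB (δ * δ') = eps τ eB δ * eps τ eB δ' := by
  have h2 : τ (δ * δ') = 1 := by rw [map_mul, h, h', one_mul]
  rw [eps_pos τ eB _ h, eps_pos τ eB _ h', eps_pos τ eB _ h2, ← map_mul]
  rfl

theorem eps_one {B : Type*} [CommGroup B] (eB : τ.ker ≃* B) : eps τ eB 1 = 1 := by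
  rw [eps_pos τ eB 1 (map_one τ)]
  exact map_one eB

/-- product of the coordinates -/
noncomputable def Lam0 [Fintype (G ⧸ H)] {B : Type*} [CommGroup B] (eB : τ.ker ≃* B)
    (x : Γ × Equiv.Perm ((G ⧸ H) × Δ)) : B :=
  ∏ i : G ⧸ H, eps τ eB (dd x i)

theorem Lam0_one [Fintype (G ⧸ H)] {B : Type*} [CommGroup B] (eB : τ.ker ≃* B) :
    Lam0 τ eB (1 : Γ × Equiv.Perm ((G ⧸ H) × Δ)) = 1 :=
  Finset.prod_eq_one (fun _ _ => eps_one τ eB)

theorem Lam0_mul [Fintype (G ⧸ H)] {B : Type*} [CommGroup B] (eB : τ.ker ≃* B)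
    (x y : Γ × Equiv.Perm ((G ⧸ H) × Δ)) (hx : x ∈ G0 σ τ) (hy : y ∈ G0 σ τ)
    (hxk : σ x.1 = 1) (hyk : σ y.1 = 1) :
    Lam0 τ eB (x * y) = Lam0 τ eB x * Lam0 τ eB y := by
  unfold Lam0
  rw [← Finset.prod_mul_distrib]
  apply Finset.prod_congr rfl
  intro i _
  rw [dd_mul σ τ x y hx, (overK σ τ y hy hyk i).1]
  exact eps_mul τ eB _ _ (overK σ τ x hx hxk i).2 (overK σ τ y hy hyk i).2

theorem Lam0_conj [Fintype (G ⧸ H)] (hτc : τ.ker ≤ Subgroup.center Δ) {B : Type*}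
    [CommGroup B] (eB : τ.ker ≃* B)
    (x y : Γ × Equiv.Perm ((G ⧸ H) × Δ)) (hx : x ∈ G0 σ τ) (hy : y ∈ G0 σ τ)
    (hxk : σ x.1 = 1) : Lam0 τ eB (y * x * y⁻¹) = Lam0 τ eB x := by
  have hyi : y⁻¹ ∈ G0 σ τ := inv_mem hy
  have key : ∀ i, dd (y * x * y⁻¹) i = dd x (bar y⁻¹ i) := by
    intro i
    rw [dd_mul σ τ (y * x) y⁻¹ (mul_mem hy hx), dd_mul σ τ y x hy,
      (overK σ τ x hx hxk _).1]
    have h1 : dd y (bar y⁻¹ i) * dd y⁻¹ i = 1 := by
      rw [← dd_mul σ τ y y⁻¹ hy, mul_inv_cancel]; rfl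
    have hc := Subgroup.mem_center_iff.mp
      (hτc (MonoidHom.mem_ker.mpr (overK σ τ x hx hxk (bar y⁻¹ i)).2)) (dd y (bar y⁻¹ i))
    rw [hc, mul_assoc, h1, mul_one]
  unfold Lam0
  rw [Finset.prod_congr rfl (fun i _ => by rw [key i])]
  exact Function.Bijective.prod_comp (bar_bij σ τ y⁻¹ hyi) (fun j => eps τ eB (dd x j))

/-- the subgroup to be factored out -/
def N0 [Fintype (G ⧸ H)] {B : Type*} [CommGroup B] (eB : τ.ker ≃* B) : Subgroup (G0 σ τ) where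
  carrier := {x | x.1.1 = 1 ∧ Lam0 τ eB x.1 = 1}
  mul_mem' := by
    rintro x y ⟨hx1, hx2⟩ ⟨hy1, hy2⟩
    refine ⟨?_, ?_⟩
    · show x.1.1 * y.1.1 = 1
      rw [hx1, hy1, one_mul]
    · show Lam0 τ eB (x.1 * y.1) = 1
      rw [Lam0_mul σ τ eB x.1 y.1 x.2 y.2 (by rw [hx1, map_one]) (by rw [hy1, map_one]),
        hx2, hy2, one_mul]
  one_mem' := ⟨rfl, Lam0_one τ eB⟩
  inv_mem' := by
    rintro x ⟨hx1, hx2⟩
    refine ⟨?_, ?_⟩
    · show x.1.1⁻¹ = 1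
      rw [hx1, inv_one]
    · show Lam0 τ eB (x.1⁻¹) = 1
      have h := Lam0_mul σ τ eB x.1⁻¹ x.1 (inv_mem x.2) x.2
        (by show σ (x.1.1⁻¹) = 1; rw [hx1, inv_one, map_one]) (by rw [hx1, map_one])
      rw [inv_mul_cancel, Lam0_one, hx2, mul_one] at h
      exact h.symm

theorem N0_normal [Fintype (G ⧸ H)] (hτc : τ.ker ≤ Subgroup.center Δ) {B : Type*}
    [CommGroup B] (eB : τ.ker ≃* B) : (N0 σ τ eB).Normal := by
  refine ⟨fun n hn g => ?_⟩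
  obtain ⟨hn1, hn2⟩ := hn
  refine ⟨?_, ?_⟩
  · show g.1.1 * n.1.1 * g.1.1⁻¹ = 1
    rw [hn1, mul_one, mul_inv_cancel]
  · show Lam0 τ eB (g.1 * n.1 * g.1⁻¹) = 1
    rw [Lam0_conj σ τ hτc eB n.1 g.1 n.2 g.2 (by rw [hn1, map_one]), hn2]

/-- components in the fibre product -/
def fc (t : G ⧸ H → Γ) (x : Γ × Equiv.Perm ((G ⧸ H) × Δ)) (i : G ⧸ H) : Γ × Δ :=
  ((t (bar x i))⁻¹ * x.1 * t i, dd x i)

theorem fc_mem (t : G ⧸ H → Γ) (ht : ∀ i, σ (t i) = Quotient.out i)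
    (x : Γ × Equiv.Perm ((G ⧸ H) × Δ)) (hx : x ∈ G0 σ τ) (i : G ⧸ H) :
    fc t x i ∈ Fib σ τ := by
  show σ ((t (bar x i))⁻¹ * x.1 * t i) = ((τ (dd x i) : H) : G)
  have h' : Quotient.out (bar x i) * ((τ (dd x i) : H) : G) =
      σ x.1 * (Quotient.out i * ((τ (1 : Δ) : H) : G)) := hx.2 (i, 1)
  rw [map_one, Subgroup.coe_one, mul_one] at h'
  rw [map_mul, map_mul, map_inv, ht, ht, mul_assoc, ← h', inv_mul_cancel_left]

theorem fc_mul (t : G ⧸ H → Γ) (x y : Γ × Equiv.Perm ((G ⧸ H) × Δ)) (hx : x ∈ G0 σ τ)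
    (i : G ⧸ H) : fc t (x * y) i = fc t x (bar y i) * fc t y i := by
  unfold fc
  rw [bar_mul σ τ x y hx, dd_mul σ τ x y hx]
  refine Prod.ext ?_ rfl
  show (t (bar x (bar y i)))⁻¹ * (x.1 * y.1) * t i =
    (t (bar x (bar y i)))⁻¹ * x.1 * t (bar y i) * ((t (bar y i))⁻¹ * y.1 * t i)
  group

/-- the transfer-like map -/
noncomputable def V0 [Fintype (G ⧸ H)] (t : G ⧸ H → Γ)
    (x : Γ × Equiv.Perm ((G ⧸ H) × Δ)) : Abelianization (Fib σ τ) :=
  ∏ i : G ⧸ H, chi σ τ (fc t x i)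

theorem V0_mul [Fintype (G ⧸ H)] (t : G ⧸ H → Γ) (ht : ∀ i, σ (t i) = Quotient.out i)
    (x y : Γ × Equiv.Perm ((G ⧸ H) × Δ)) (hx : x ∈ G0 σ τ) (hy : y ∈ G0 σ τ) :
    V0 σ τ t (x * y) = V0 σ τ t x * V0 σ τ t y := by
  unfold V0
  rw [← Function.Bijective.prod_comp (bar_bij σ τ y hy) (fun j => chi σ τ (fc t x j)),
    ← Finset.prod_mul_distrib]
  apply Finset.prod_congr rfl
  intro i _
  rw [fc_mul σ τ t x y hx i]
  exact chi_mul σ τ _ _ (fc_mem σ τ t ht x hx _) (fc_mem σ τ t ht y hy i)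

theorem V0_overK [Fintype (G ⧸ H)] (hσc : σ.ker ≤ Subgroup.center Γ) (t : G ⧸ H → Γ)
    {B : Type*} [CommGroup B] (eB : τ.ker ≃* B)
    (x : Γ × Equiv.Perm ((G ⧸ H) × Δ)) (hx : x ∈ G0 σ τ) (hxk : σ x.1 = 1) :
    V0 σ τ t x = kap σ τ ⟨x.1, MonoidHom.mem_ker.mpr hxk⟩ ^ Fintype.card (G ⧸ H) *
      nu σ τ eB (Lam0 τ eB x) := by
  unfold V0 Lam0
  rw [map_prod, ← Finset.card_univ, ← Finset.prod_const, ← Finset.prod_mul_distrib]
  apply Finset.prod_congr rfl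
  intro i _
  obtain ⟨hb, hd⟩ := overK σ τ x hx hxk i
  have hcen := Subgroup.mem_center_iff.mp (hσc (MonoidHom.mem_ker.mpr hxk)) (t i)
  have e : fc t x i = ((x.1, 1) : Γ × Δ) * (1, dd x i) := by
    unfold fc
    rw [hb]
    refine Prod.ext ?_ ?_
    · show (t i)⁻¹ * x.1 * t i = x.1 * 1
      rw [mul_one, mul_assoc, ← hcen, inv_mul_cancel_left]
    · show dd x i = 1 * dd x i
      rw [one_mul]
  have m1 : ((x.1, 1) : Γ × Δ) ∈ Fib σ τ := by
    show σ x.1 = ((τ (1 : Δ) : H) : G)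
    rw [hxk, map_one]; rfl
  have m2 : ((1, dd x i) : Γ × Δ) ∈ Fib σ τ := by
    show σ (1 : Γ) = ((τ (dd x i) : H) : G)
    rw [hd, map_one]; rfl
  rw [e, chi_mul σ τ _ _ m1 m2, chi_pos σ τ _ m1, chi_pos σ τ _ m2, eps_pos τ eB _ hd]
  congr 1
  show _ = Abelianization.of (lIn σ τ (eB.symm (eB ⟨dd x i, MonoidHom.mem_ker.mpr hd⟩)))
  rw [eB.symm_apply_apply]
  rfl

end WR

theorem wr {G : Type u} [Group G] [Finite G] {Γ : Type u} [Group Γ] [Finite Γ] (σ : Γ →* G)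
    (hσs : Function.Surjective σ) (hσc : σ.ker ≤ Subgroup.center Γ) {H : Subgroup G}
    {Δ : Type u} [Group Δ] [Finite Δ] (τ : Δ →* H) (hτs : Function.Surjective τ)
    (hτc : τ.ker ≤ Subgroup.center Δ) {B : Type*} [CommGroup B] (eB : τ.ker ≃* B) :
    ∃ (Γh : Type u) (_ : Group Γh) (_ : Finite Γh) (πh : Γh →* Γ) (Λ : Γh → B),
      Function.Surjective πh ∧ (∀ x, σ (πh x) = 1 → x ∈ Subgroup.center Γh) ∧
      (∀ x y, σ (πh x) = 1 → σ (πh y) = 1 → Λ (x * y) = Λ x * Λ y) ∧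
      (∀ x, x ∈ commutator Γh → ∀ hk : σ (πh x) = 1,
        kap σ τ ⟨πh x, MonoidHom.mem_ker.mpr hk⟩ ^ H.index * nu σ τ eB (Λ x) = 1) := by
  classical
  haveI : Fintype (G ⧸ H) := Fintype.ofFinite _
  haveI hN : (N0 σ τ eB).Normal := N0_normal σ τ hτc eB
  choose t ht using fun i : G ⧸ H => hσs (Quotient.out i)
  let q : G0 σ τ →* Γ := (MonoidHom.fst Γ _).comp (G0 σ τ).subtype
  have hq : ∀ x : G0 σ τ, q x = x.1.1 := fun _ => rfl
  have hqN : N0 σ τ eB ≤ q.ker := by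
    intro n hn
    rw [MonoidHom.mem_ker, hq]; exact hn.1
  let πh : (G0 σ τ ⧸ N0 σ τ eB) →* Γ := QuotientGroup.lift (N0 σ τ eB) q hqN
  have hπh : ∀ x : G0 σ τ, πh (QuotientGroup.mk x) = x.1.1 := fun _ => rfl
  let Λ : (G0 σ τ ⧸ N0 σ τ eB) → B := fun x => Lam0 τ eB (Quotient.out x).1
  have hrep : ∀ y : G0 σ τ, σ y.1.1 = 1 →
      Λ (QuotientGroup.mk y) = Lam0 τ eB y.1 := by
    intro y hy
    obtain ⟨n, hn⟩ := QuotientGroup.mk_out_eq_mul (N0 σ τ eB) y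
    show Lam0 τ eB (Quotient.out (QuotientGroup.mk y : G0 σ τ ⧸ N0 σ τ eB)).1 = _
    rw [hn]
    show Lam0 τ eB (y.1 * n.1.1) = _
    rw [Lam0_mul σ τ eB y.1 n.1.1 y.2 n.1.2 hy (by rw [n.2.1, map_one]), n.2.2, mul_one]
  have hVm : ∀ x y : G0 σ τ, V0 σ τ t (x * y).1 = V0 σ τ t x.1 * V0 σ τ t y.1 :=
    fun x y => V0_mul σ τ t ht x.1 y.1 x.2 y.2
  let V : G0 σ τ →* Abelianization (Fib σ τ) := MonoidHom.mk' (fun x => V0 σ τ t x.1) hVm
  have hVdef : ∀ x : G0 σ τ, V x = V0 σ τ t x.1 := fun _ => rfl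
  refine ⟨G0 σ τ ⧸ N0 σ τ eB, inferInstance, inferInstance, πh, Λ, ?_, ?_, ?_, ?_⟩
  · intro g
    obtain ⟨ψ, hψ⟩ := G0_surj σ τ hτs g
    exact ⟨QuotientGroup.mk ⟨(g, ψ), hψ⟩, rfl⟩
  · intro x hx
    induction x using QuotientGroup.induction_on with
    | H x =>
      rw [hπh] at hx
      rw [Subgroup.mem_center_iff]
      intro y
      induction y using QuotientGroup.induction_on with
      | H y =>
        have hn : y * x * y⁻¹ * x⁻¹ ∈ N0 σ τ eB := by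
          refine ⟨?_, ?_⟩
          · show y.1.1 * x.1.1 * y.1.1⁻¹ * x.1.1⁻¹ = 1
            have hc := Subgroup.mem_center_iff.mp (hσc (MonoidHom.mem_ker.mpr hx)) y.1.1
            rw [hc]; group
          · show Lam0 τ eB (y.1 * x.1 * y.1⁻¹ * x.1⁻¹) = 1
            have hxi : σ (x.1⁻¹).1 = 1 := by
              show σ (x.1.1⁻¹) = 1
              rw [map_inv, hx, inv_one]
            have hcj : σ (y.1 * x.1 * y.1⁻¹).1 = 1 := by
              show σ (y.1.1 * x.1.1 * y.1.1⁻¹) = 1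
              rw [map_mul, map_mul, hx, mul_one, map_inv, mul_inv_cancel]
            rw [Lam0_mul σ τ eB (y.1 * x.1 * y.1⁻¹) x.1⁻¹
                (mul_mem (mul_mem y.2 x.2) (inv_mem y.2)) (inv_mem x.2) hcj hxi,
              Lam0_conj σ τ hτc eB x.1 y.1 x.2 y.2 hx,
              ← Lam0_mul σ τ eB x.1 x.1⁻¹ x.2 (inv_mem x.2) hx hxi, mul_inv_cancel]
            exact Lam0_one τ eB
        have h1 : (QuotientGroup.mk (y * x * y⁻¹ * x⁻¹) : G0 σ τ ⧸ N0 σ τ eB) = 1 :=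
          (QuotientGroup.eq_one_iff _).mpr hn
        have h2 : (QuotientGroup.mk y : G0 σ τ ⧸ N0 σ τ eB) * QuotientGroup.mk x *
            (QuotientGroup.mk y)⁻¹ * (QuotientGroup.mk x)⁻¹ = 1 := h1
        calc (QuotientGroup.mk y : G0 σ τ ⧸ N0 σ τ eB) * QuotientGroup.mk x
            = ((QuotientGroup.mk y : G0 σ τ ⧸ N0 σ τ eB) * QuotientGroup.mk x *
              (QuotientGroup.mk y)⁻¹ * (QuotientGroup.mk x)⁻¹) *
                (QuotientGroup.mk x * QuotientGroup.mk y) := by group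
          _ = QuotientGroup.mk x * QuotientGroup.mk y := by rw [h2, one_mul]
  · intro x y hx hy
    induction x using QuotientGroup.induction_on with
    | H x =>
      induction y using QuotientGroup.induction_on with
      | H y =>
        rw [hπh] at hx hy
        have hxy : σ (x * y).1.1 = 1 := by
          show σ (x.1.1 * y.1.1) = 1
          rw [map_mul, hx, hy, one_mul]
        rw [← QuotientGroup.mk_mul, hrep _ hxy, hrep _ hx, hrep _ hy]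
        exact Lam0_mul σ τ eB x.1 y.1 x.2 y.2 hx hy
  · intro x hxc hk
    have h1 : x ∈ Subgroup.map (QuotientGroup.mk' (N0 σ τ eB)) (commutator (G0 σ τ)) := by
      rw [commutator_def, Subgroup.map_commutator,
        Subgroup.map_top_of_surjective _ (QuotientGroup.mk'_surjective _), ← commutator_def]
      exact hxc
    obtain ⟨y, hy, rfl⟩ := h1
    have hk' : σ y.1.1 = 1 := hk
    have hVy : V y = 1 := MonoidHom.mem_ker.mp (Cfsg.Agent.S3954.comm_le_ker' V hy)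
    have h2 := V0_overK σ τ hσc t eB y.1 y.2 hk'
    have h3 : Λ (QuotientGroup.mk y) = Lam0 τ eB y.1 := hrep y hk'
    show kap σ τ ⟨y.1.1, _⟩ ^ H.index * nu σ τ eB (Λ (QuotientGroup.mk y)) = 1
    rw [h3, Subgroup.index_eq_card, Nat.card_eq_fintype_card, ← h2, ← hVdef]
    exact hVy

/-- Let `P` be a Sylow `p`-subgroup of the finite group `G`, let `A` be the Schur multiplier of `G` and `B` that of `P`. Then the `p`-primary component of `A` is isomorphic to a direct factor of `B`: there are subgroups `C` and `D` of `B` meeting trivially and generating `B`, with `C` isomorphic to the `p`-primary component of `A`. -/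
theorem result {G : Type*} [Group G] [Finite G] (p : ℕ) [Fact p.Prime] (P : Sylow p G) {A B : Type*} [CommGroup A] [CommGroup B] (hA : Cfsg.HasSchurMultiplier G A) (hB : Cfsg.HasSchurMultiplier P B) : ∃ C D : Subgroup B, C ⊓ D = ⊥ ∧ C ⊔ D = ⊤ ∧ Nonempty (CommGroup.primaryComponent A p ≃* C) := by
  obtain ⟨Γ, iΓ, fΓ, σ, hσ, ⟨eA⟩⟩ := hA.1
  obtain ⟨Δ, iΔ, fΔ, τ, hτ, ⟨eB⟩⟩ := hB.1
  obtain ⟨hσs, hσc, hσd⟩ := hσ
  obtain ⟨hτs, hτc, hτd⟩ := hτ
  haveI : Finite A := Finite.of_equiv _ eA.toEquiv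
  let π₂ : Fib σ τ →* Δ := (MonoidHom.snd Γ Δ).comp (Fib σ τ).subtype
  have hπ₂ : ∀ f : Fib σ τ, π₂ f = f.1.2 := fun _ => rfl
  have hπ₂s : Function.Surjective π₂ := by
    intro δ
    obtain ⟨γ, hγ⟩ := hσs (τ δ : G)
    exact ⟨⟨(γ, δ), hγ⟩, rfl⟩
  have hFσ : ∀ f : Fib σ τ, τ f.1.2 = 1 → σ f.1.1 = 1 := by
    intro f hf
    have h' : σ f.1.1 = ((τ f.1.2 : (P : Subgroup G)) : G) := f.2
    rw [h', hf]; rfl
  have hcF : ∀ f : Fib σ τ, τ (π₂ f) = 1 → f ∈ Subgroup.center (Fib σ τ) := by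
    intro f hf
    rw [hπ₂] at hf
    have c1 := Subgroup.mem_center_iff.mp (hσc (MonoidHom.mem_ker.mpr (hFσ f hf)))
    have c2 := Subgroup.mem_center_iff.mp (hτc (MonoidHom.mem_ker.mpr hf))
    rw [Subgroup.mem_center_iff]
    intro y
    exact Subtype.ext (Prod.ext (c1 y.1.1) (c2 y.1.2))
  have hX := Cfsg.Agent.S3980.cover_inter_trivial hB τ ⟨hτs, hτc, hτd⟩ ⟨eB⟩ π₂ hπ₂s hcF
  have hκ : Function.Injective (kap σ τ) := by
    rw [injective_iff_map_eq_one]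
    intro k hk
    have h1 : kIn σ τ k ∈ commutator (Fib σ τ) := by
      rw [← Abelianization.ker_of, MonoidHom.mem_ker]; exact hk
    have h2 : kIn σ τ k ∈ π₂.ker := by rw [MonoidHom.mem_ker]; rfl
    have h3 := hX _ h2 h1
    apply Subtype.ext
    exact congrArg (fun f : Fib σ τ => f.1.1) h3
  have hi : ∀ b : B, ∃ k, kap σ τ k * nu σ τ eB b = 1 := by
    intro b
    have hl : ((eB.symm b : τ.ker) : Δ) ∈ commutator Δ := hτd (eB.symm b).2
    have h1 : ((eB.symm b : τ.ker) : Δ) ∈ Subgroup.map π₂ (commutator (Fib σ τ)) := by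
      rw [commutator_def, Subgroup.map_commutator, Subgroup.map_top_of_surjective π₂ hπ₂s,
        ← commutator_def]
      exact hl
    obtain ⟨f, hf, hfl⟩ := h1
    have hfl' : f.1.2 = ((eB.symm b : τ.ker) : Δ) := hfl
    have h2 : σ f.1.1 = 1 := by
      apply hFσ
      rw [hfl']
      exact MonoidHom.mem_ker.mp (eB.symm b).2
    refine ⟨⟨f.1.1, MonoidHom.mem_ker.mpr h2⟩, ?_⟩
    have e : f = kIn σ τ ⟨f.1.1, MonoidHom.mem_ker.mpr h2⟩ * lIn σ τ (eB.symm b) := by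
      apply Subtype.ext
      apply Prod.ext
      · show f.1.1 = f.1.1 * 1
        rw [mul_one]
      · show f.1.2 = 1 * ((eB.symm b : τ.ker) : Δ)
        rw [one_mul, hfl']
    have h3 : Abelianization.of f = 1 := by
      have h4 : f ∈ (Abelianization.of : Fib σ τ →* _).ker := by
        rw [Abelianization.ker_of]; exact hf
      exact MonoidHom.mem_ker.mp h4
    rw [e, map_mul] at h3
    exact h3
  obtain ⟨Γh, iΓh, fΓh, πh, Λ, hπs, hcent, hΛ, hV⟩ := wr σ hσs hσc τ hτs hτc eB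
  have hY := Cfsg.Agent.S3980.cover_inter_trivial hA σ ⟨hσs, hσc, hσd⟩ ⟨eA⟩ πh hπs hcent
  have hlift : ∀ k : σ.ker, ∃ x : Γh, x ∈ commutator Γh ∧ πh x = k.1 := by
    intro k
    have h1 : k.1 ∈ Subgroup.map πh (commutator Γh) := by
      rw [commutator_def, Subgroup.map_commutator, Subgroup.map_top_of_surjective πh hπs,
        ← commutator_def]
      exact hσd k.2
    obtain ⟨x, hx, hxk⟩ := h1
    exact ⟨x, hx, hxk⟩
  choose xk hxc hxπ using hlift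
  have hxσ : ∀ k : σ.ker, σ (πh (xk k)) = 1 := fun k => by
    rw [hxπ]; exact MonoidHom.mem_ker.mp k.2
  have hxmul : ∀ k k' : σ.ker, xk (k * k') = xk k * xk k' := by
    intro k k'
    have h1 : (xk (k * k'))⁻¹ * (xk k * xk k') ∈ πh.ker := by
      rw [MonoidHom.mem_ker, map_mul, map_inv, map_mul, hxπ, hxπ, hxπ]
      show ((k * k' : σ.ker) : Γ)⁻¹ * ((k : Γ) * (k' : Γ)) = 1
      rw [Subgroup.coe_mul, inv_mul_cancel]
    have h2 : (xk (k * k'))⁻¹ * (xk k * xk k') ∈ commutator Γh :=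
      mul_mem (inv_mem (hxc _)) (mul_mem (hxc k) (hxc k'))
    exact inv_mul_eq_one.mp (hY _ h1 h2)
  let ρ : σ.ker →* B := MonoidHom.mk' (fun k => Λ (xk k)) (by
    intro k k'
    show Λ (xk (k * k')) = Λ (xk k) * Λ (xk k')
    rw [hxmul, hΛ _ _ (hxσ k) (hxσ k')])
  have hρ : ∀ k, kap σ τ k ^ (P : Subgroup G).index * nu σ τ eB (ρ k) = 1 := by
    intro k
    have h := hV (xk k) (hxc k) (hxσ k)
    have e : (⟨πh (xk k), MonoidHom.mem_ker.mpr (hxσ k)⟩ : σ.ker) = k := Subtype.ext (hxπ k)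
    rw [e] at h
    exact h
  obtain ⟨θ, hθ⟩ := alg_theta (P : Subgroup G).index (kap σ τ) hκ (nu σ τ eB) hi ρ hρ
  let ρA : A →* B := ρ.comp eA.symm.toMonoidHom
  let θA : B →* A := eA.toMonoidHom.comp θ
  have hθA : ∀ a, θA (ρA a) = a ^ (P : Subgroup G).index := by
    intro a
    show eA (θ (ρ (eA.symm a))) = _
    rw [hθ, map_pow, eA.apply_symm_apply]
  exact fin_split p (P : Subgroup G).index P.not_dvd_index ρA θA hθA

end Cfsg.Agent.S3953
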