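import Cfsg.Statements.S3956
import Cfsg.Agent.Helper11.StemCover

set_option autoImplicit false
universe u v
open Cfsg Cfsg.Agent.Helper11

namespace Cfsg.Agent.S3956

/-- Let `σ : Γ →* Q` be a finite stem extension of the finite group `Q` such that every homomorphism from `Q` to the quotient of `GL n ℂ` by its centre, for every `n`, lifts along `σ` to a homomorphism `Γ →* GL n ℂ`. Then `σ` is a Schur covering group of `Q`: for every finite stem extension `τ : Δ →* Q` with `Δ` in the same universe as `Q`, the kernel of `τ` is a homomorphic image of the kernel of `σ`. -/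
theorem result {Q : Type u} [Group Q] [Finite Q] {Γ : Type v} [Group Γ] [Finite Γ] (σ : Γ →* Q) (hσ : Cfsg.IsStemExtension σ) (hlift : ∀ (n : ℕ) (γ : Q →* (GL (Fin n) ℂ ⧸ Subgroup.center (GL (Fin n) ℂ))), ∃ ρ : Γ →* GL (Fin n) ℂ, (QuotientGroup.mk' (Subgroup.center (GL (Fin n) ℂ))).comp ρ = γ.comp σ) (Δ : Type u) [Group Δ] [Finite Δ] (τ : Δ →* Q) (hτ : Cfsg.IsStemExtension τ) : ∃ π : σ.ker →* τ.ker, Function.Surjective π := by
  apply sc_cover_of_inter σ hσ τ hτ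
  intro r hr1 hrc
  by_contra hne
  obtain ⟨hτs, hτc, hτd⟩ := hτ
  have hmem : σ r.1.1 = τ r.1.2 := r.2
  have ht₀ : r.1.2 ∈ τ.ker := by rw [MonoidHom.mem_ker, ← hmem, hr1, map_one]
  have ht₀ne : r.1.2 ≠ 1 := by
    intro h
    apply hne
    apply Subtype.ext
    exact Prod.ext hr1 h
  obtain ⟨n, M, hMc, hMt⟩ := sc_exists_rep τ hτs hτc r.1.2 ht₀ ht₀ne
  obtain ⟨γ, hγ⟩ := sc_exists_gamma τ hτs (Subgroup.center (GL (Fin n) ℂ)) M hMc
  obtain ⟨ρ, hρ⟩ := hlift n γ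
  have hρ' : ∀ g, (QuotientGroup.mk (ρ g) : GL (Fin n) ℂ ⧸ Subgroup.center (GL (Fin n) ℂ)) =
      γ (σ g) := fun g => DFunLike.congr_fun hρ g
  let p1 : sc_fib σ τ →* Γ := (MonoidHom.fst Γ Δ).comp (sc_fib σ τ).subtype
  let p2 : sc_fib σ τ →* Δ := (MonoidHom.snd Γ Δ).comp (sc_fib σ τ).subtype
  have hratio : ∀ x : sc_fib σ τ,
      (M.comp p2) x * ((ρ.comp p1) x)⁻¹ ∈ Subgroup.center (GL (Fin n) ℂ) := by
    intro x
    apply (QuotientGroup.eq_one_iff _).mp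
    show (QuotientGroup.mk (M x.1.2 * (ρ x.1.1)⁻¹) :
      GL (Fin n) ℂ ⧸ Subgroup.center (GL (Fin n) ℂ)) = 1
    rw [QuotientGroup.mk_mul, QuotientGroup.mk_inv, ← hγ, hρ',
      (show σ x.1.1 = τ x.1.2 from x.2), mul_inv_cancel]
  have h1 := sc_eq_on_comm (M.comp p2) (ρ.comp p1) hratio r hrc
  have h2 : M r.1.2 = ρ r.1.1 := h1
  rw [hr1, map_one] at h2
  exact hMt h2

end Cfsg.Agent.S3956
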