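import Cfsg.Statements.S3961
import Mathlib.GroupTheory.Schreier
import Mathlib.GroupTheory.Abelianization.Defs

set_option autoImplicit false
universe u v
open Cfsg
open scoped commutatorElement

namespace Cfsg.Agent.S3961

theorem perfect_hom_eq {H : Type*} {K : Type*} [Group H] [Group K] (hH : commutator H = ⊤)
    (f g : H →* K) (hfg : ∀ x, f x * (g x)⁻¹ ∈ Subgroup.center K) : f = g := by
  let z : H →* Subgroup.center K := MonoidHom.mk' (fun x => ⟨f x * (g x)⁻¹, hfg x⟩) (by
    intro x y
    apply Subtype.ext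
    show f (x * y) * (g (x * y))⁻¹ = (f x * (g x)⁻¹) * (f y * (g y)⁻¹)
    have hc : (f y * (g y)⁻¹) * (g x)⁻¹ = (g x)⁻¹ * (f y * (g y)⁻¹) :=
      ((Subgroup.mem_center_iff.mp (hfg y)) ((g x)⁻¹)).symm
    rw [map_mul, map_mul, mul_inv_rev]
    calc f x * f y * ((g y)⁻¹ * (g x)⁻¹) = f x * ((f y * (g y)⁻¹) * (g x)⁻¹) := by group
      _ = f x * ((g x)⁻¹ * (f y * (g y)⁻¹)) := by rw [hc]
      _ = _ := by group)
  have hz : ∀ x, z x = 1 := by
    intro x
    have h1 : commutator H ≤ z.ker := by
      rw [commutator_eq_closure, Subgroup.closure_le]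
      rintro _ ⟨a, b, rfl⟩
      rw [SetLike.mem_coe, MonoidHom.mem_ker, map_commutatorElement, commutatorElement_def]
      have hcomm : z a * z b = z b * z a := by
        apply Subtype.ext
        exact ((Subgroup.mem_center_iff.mp (z b).2) (z a).1)
      rw [hcomm]; group
    rw [hH] at h1
    exact MonoidHom.mem_ker.mp (h1 (Subgroup.mem_top x))
  ext x
  have h2 := congrArg Subtype.val (hz x)
  have h3 : f x * (g x)⁻¹ = 1 := h2
  exact mul_inv_eq_one.mp h3

theorem conj_central {K : Type*} [Group K] (a z x : K) (hz : ∀ g, g * z = z * g) :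
    (a * z) * x * (a * z)⁻¹ = a * x * a⁻¹ := by
  calc (a * z) * x * (a * z)⁻¹ = a * (z * x) * z⁻¹ * a⁻¹ := by group
    _ = a * (x * z) * z⁻¹ * a⁻¹ := by rw [hz x]
    _ = a * x * a⁻¹ := by group

theorem comm_eq_of_ker_central {P : Type*} {G : Type*} [Group P] [Group G] (p1 : P →* G)
    (hc : p1.ker ≤ Subgroup.center P) (a b a' b' : P) (ha : p1 a' = p1 a) (hb : p1 b' = p1 b) :
    ⁅a, b⁆ = ⁅a', b'⁆ := by
  have hza : a'⁻¹ * a ∈ Subgroup.center P := by
    apply hc
    rw [MonoidHom.mem_ker, map_mul, map_inv, ha, inv_mul_cancel]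
  have hzb : b'⁻¹ * b ∈ Subgroup.center P := by
    apply hc
    rw [MonoidHom.mem_ker, map_mul, map_inv, hb, inv_mul_cancel]
  have ea : a = a' * (a'⁻¹ * a) := by group
  have eb : b = b' * (b'⁻¹ * b) := by group
  have h1 : a * b * a⁻¹ = a' * b * a'⁻¹ := by
    conv_lhs => rw [ea]
    exact conj_central _ _ _ (Subgroup.mem_center_iff.mp hza)
  have h2 : b * a'⁻¹ * b⁻¹ = b' * a'⁻¹ * b'⁻¹ := by
    conv_lhs => rw [eb]
    exact conj_central _ _ _ (Subgroup.mem_center_iff.mp hzb)
  rw [commutatorElement_def, commutatorElement_def]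
  calc a * b * a⁻¹ * b⁻¹ = a' * b * a'⁻¹ * b⁻¹ := by rw [h1]
    _ = a' * (b * a'⁻¹ * b⁻¹) := by group
    _ = a' * (b' * a'⁻¹ * b'⁻¹) := by rw [h2]
    _ = _ := by group

theorem perfect_of_stem {Γ : Type*} {G : Type*} [Group Γ] [Group G] (σ : Γ →* G)
    (hs : Function.Surjective σ) (hd : σ.ker ≤ commutator Γ) (hGc : commutator G = ⊤) :
    commutator Γ = ⊤ := by
  rw [eq_top_iff]
  intro x _
  have h1 : σ x ∈ Subgroup.map σ (commutator Γ) := by
    rw [commutator_def, Subgroup.map_commutator, Subgroup.map_top_of_surjective σ hs,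
      ← commutator_def, hGc]
    exact Subgroup.mem_top _
  obtain ⟨y, hy, hyx⟩ := h1
  have h2 : y⁻¹ * x ∈ σ.ker := by
    rw [MonoidHom.mem_ker, map_mul, map_inv, hyx, inv_mul_cancel]
  have h3 := hd h2
  have h4 := Subgroup.mul_mem _ hy h3
  rwa [mul_inv_cancel_left] at h4

theorem zmod_one_eq (m : Multiplicative (ZMod 1)) : m = 1 := by
  apply Multiplicative.toAdd.injective
  exact @Subsingleton.elim (Fin 1) inferInstance _ _

theorem forward {G : Type u} {Q : Type v} [Group G] [Group Q] [Finite G]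
    (hGc : commutator G = ⊤) (π : G →* Q) (hπ : Function.Surjective π)
    (hker : π.ker ≤ Subgroup.center G)
    (huniv : ∀ (X : Type u) [Group X] (ξ : X →* Q), Function.Surjective ξ →
      ξ.ker ≤ Subgroup.center X → ∃ η : G →* X, ξ.comp η = π) :
    Cfsg.HasCyclicSchurMultiplier G 1 := by
  refine ⟨⟨G, inferInstance, inferInstance, MonoidHom.id G, ⟨Function.surjective_id, ?_, ?_⟩, ⟨?_⟩⟩, ?_⟩
  · intro x hx
    rw [MonoidHom.mem_ker] at hx
    have : x = 1 := hx
    rw [this]; exact Subgroup.one_mem _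
  · intro x hx
    rw [MonoidHom.mem_ker] at hx
    have : x = 1 := hx
    rw [this]; exact Subgroup.one_mem _
  · exact
      { toFun := fun _ => 1
        invFun := fun _ => 1
        left_inv := by
          intro x
          apply Subtype.ext
          have := x.2
          rw [MonoidHom.mem_ker] at this
          exact this.symm
        right_inv := by
          intro x
          exact (zmod_one_eq x).symm
        map_mul' := by intro x y; exact (one_mul 1).symm }
  · intro Γ _ _ σ hσ
    obtain ⟨hs, hc, hd⟩ := hσ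
    have hΓ : commutator Γ = ⊤ := perfect_of_stem σ hs hd hGc
    have hcent : (π.comp σ).ker ≤ Subgroup.center Γ := by
      intro x hx
      rw [MonoidHom.mem_ker, MonoidHom.comp_apply] at hx
      have hx' : σ x ∈ Subgroup.center G := hker (MonoidHom.mem_ker.mpr hx)
      have h1 : (MulAut.conj x).toMonoidHom = MonoidHom.id Γ := by
        apply perfect_hom_eq hΓ
        intro y
        apply hc
        rw [MonoidHom.mem_ker]
        show σ (x * y * x⁻¹ * y⁻¹) = 1
        rw [map_mul, map_mul, map_mul, map_inv, map_inv]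
        have := (Subgroup.mem_center_iff.mp hx') (σ y)
        rw [← this]; group
      rw [Subgroup.mem_center_iff]
      intro y
      have h2 := DFunLike.congr_fun h1 y
      have h3 : x * y * x⁻¹ = y := h2
      calc y * x = (x * y * x⁻¹) * x := by rw [h3]
        _ = x * y := by group
    obtain ⟨η, hη⟩ := huniv Γ (π.comp σ) (hπ.comp hs) hcent
    have hση : σ.comp η = MonoidHom.id G := by
      apply perfect_hom_eq hGc
      intro g
      apply hker
      rw [MonoidHom.mem_ker]
      show π (σ (η g) * g⁻¹) = 1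
      have := DFunLike.congr_fun hη g
      have h' : π (σ (η g)) = π g := this
      rw [map_mul, map_inv, h', mul_inv_cancel]
    have hησ : MonoidHom.id Γ = η.comp σ := by
      apply perfect_hom_eq hΓ
      intro x
      apply hc
      rw [MonoidHom.mem_ker]
      show σ (x * (η (σ x))⁻¹) = 1
      have := DFunLike.congr_fun hση (σ x)
      have h' : σ (η (σ x)) = σ x := this
      rw [map_mul, map_inv, h', mul_inv_cancel]
    have hinj : ∀ x, x ∈ σ.ker → x = 1 := by
      intro x hx
      rw [MonoidHom.mem_ker] at hx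
      have := DFunLike.congr_fun hησ x
      have h' : x = η (σ x) := this
      rw [h', hx, map_one]
    refine ⟨1, ?_⟩
    intro k
    refine ⟨1, ?_⟩
    apply Subtype.ext
    rw [hinj k.1 k.2]
    rfl

theorem backward {G : Type u} {Q : Type v} [Group G] [Group Q] [Finite G]
    (hGc : commutator G = ⊤) (π : G →* Q)
    (hM : Cfsg.HasCyclicSchurMultiplier G 1)
    (X : Type u) [Group X] (ξ : X →* Q) (hξ : Function.Surjective ξ)
    (hξc : ξ.ker ≤ Subgroup.center X) : ∃ η : G →* X, ξ.comp η = π := by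
  obtain ⟨P, hPmem⟩ : ∃ P : Subgroup (G × X), ∀ y, y ∈ P ↔ π y.1 = ξ y.2 :=
    ⟨(π.comp (MonoidHom.fst G X)).eqLocus (ξ.comp (MonoidHom.snd G X)), fun _ => Iff.rfl⟩
  obtain ⟨p1, hp1⟩ : ∃ p1 : P →* G, ∀ q, p1 q = q.1.1 :=
    ⟨(MonoidHom.fst G X).comp P.subtype, fun _ => rfl⟩
  obtain ⟨p2, hp2⟩ : ∃ p2 : P →* X, ∀ q, p2 q = q.1.2 :=
    ⟨(MonoidHom.snd G X).comp P.subtype, fun _ => rfl⟩
  have hP : ∀ q : P, π (p1 q) = ξ (p2 q) := by
    intro q; rw [hp1, hp2]; exact (hPmem q.1).mp q.2
  have hp1s : Function.Surjective p1 := by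
    intro g
    obtain ⟨x, hx⟩ := hξ (π g)
    exact ⟨⟨(g, x), (hPmem _).mpr hx.symm⟩, by rw [hp1]⟩
  have hp1c : p1.ker ≤ Subgroup.center P := by
    intro q hq
    rw [MonoidHom.mem_ker] at hq
    have hq1 : q.1.1 = 1 := by rw [← hp1]; exact hq
    have hq2 : q.1.2 ∈ Subgroup.center X := by
      apply hξc
      rw [MonoidHom.mem_ker, ← hp2, ← hP q, hq, map_one]
    rw [Subgroup.mem_center_iff]
    intro r
    apply Subtype.ext
    apply Prod.ext
    · show r.1.1 * q.1.1 = q.1.1 * r.1.1
      rw [hq1, mul_one, one_mul]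
    · show r.1.2 * q.1.2 = q.1.2 * r.1.2
      exact (Subgroup.mem_center_iff.mp hq2) r.1.2
  have hfin : Finite (commutatorSet P) := by
    let c : G × G → P := fun gh =>
      ⁅(Function.surjInv hp1s gh.1), (Function.surjInv hp1s gh.2)⁆
    have hsub : commutatorSet P ⊆ Set.range c := by
      rintro _ ⟨a, b, rfl⟩
      refine ⟨(p1 a, p1 b), ?_⟩
      exact (comm_eq_of_ker_central p1 hp1c a b _ _
        (Function.surjInv_eq hp1s (p1 a)) (Function.surjInv_eq hp1s (p1 b))).symm
    exact Set.finite_coe_iff.mpr ((Set.finite_range c).subset hsub)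
  have hSfin : Finite (commutator P) := inferInstance
  obtain ⟨σ, hσ⟩ : ∃ σ : (commutator P) →* G, ∀ s, σ s = p1 s.1 :=
    ⟨p1.comp (commutator P).subtype, fun _ => rfl⟩
  have hσs : Function.Surjective σ := by
    intro g
    have h1 : g ∈ Subgroup.map p1 (commutator P) := by
      rw [commutator_def, Subgroup.map_commutator, Subgroup.map_top_of_surjective p1 hp1s,
        ← commutator_def, hGc]
      exact Subgroup.mem_top _
    obtain ⟨s, hs, hsg⟩ := h1
    exact ⟨⟨s, hs⟩, by rw [hσ]; exact hsg⟩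
  have hSperf : commutator (commutator P) = ⊤ := by
    have h1 : ⁅commutator P, commutator P⁆ = commutator P := by
      apply le_antisymm
      · rw [Subgroup.commutator_le]
        intro g₁ _ g₂ _
        exact Subgroup.commutator_mem_commutator (Subgroup.mem_top _) (Subgroup.mem_top _)
      · conv_lhs => rw [commutator_eq_closure]
        rw [Subgroup.closure_le]
        rintro _ ⟨a, b, rfl⟩
        obtain ⟨a', ha'⟩ := hσs (p1 a)
        obtain ⟨b', hb'⟩ := hσs (p1 b)
        rw [hσ] at ha' hb'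
        rw [comm_eq_of_ker_central p1 hp1c a b a'.1 b'.1 ha' hb']
        exact Subgroup.commutator_mem_commutator a'.2 b'.2
    exact (Subgroup.isPerfect_iff.mpr h1).commutator_eq_top
  have hσstem : Cfsg.IsStemExtension σ := by
    refine ⟨hσs, ?_, ?_⟩
    · intro s hs
      rw [MonoidHom.mem_ker, hσ] at hs
      have h1 : s.1 ∈ Subgroup.center P := hp1c (MonoidHom.mem_ker.mpr hs)
      rw [Subgroup.mem_center_iff] at h1 ⊢
      intro t
      apply Subtype.ext
      exact h1 t.1
    · rw [hSperf]; exact le_top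
  obtain ⟨π', hπ'⟩ := hM.2 (commutator P) σ hσstem
  have hσinj : Function.Injective σ := by
    rw [injective_iff_map_eq_one]
    intro s hs
    obtain ⟨m, hm⟩ := hπ' ⟨s, MonoidHom.mem_ker.mpr hs⟩
    rw [zmod_one_eq m, map_one] at hm
    have := congrArg Subtype.val hm
    exact this.symm
  let e : (commutator P) ≃* G := MulEquiv.ofBijective σ ⟨hσinj, hσs⟩
  refine ⟨p2.comp ((commutator P).subtype.comp e.symm.toMonoidHom), ?_⟩
  ext g
  show ξ (p2 (e.symm g).1) = π g
  rw [← hP, ← hσ]
  have : σ (e.symm g) = g := e.apply_symm_apply g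
  rw [this]

/-- Let `π : G →* Q` be a surjective homomorphism with central kernel from a finite perfect group `G` (a perfect cover of `Q`). Then `π` is universal, in the sense that every surjective homomorphism `ξ : X →* Q` with central kernel from a group `X` in the universe of `G` admits a homomorphism `η : G →* X` with `ξ ∘ η = π`, if and only if `G` has trivial Schur multiplier. -/
theorem result {G : Type u} {Q : Type v} [Group G] [Group Q] [Finite G] (hG : Group.IsPerfect G) (π : G →* Q) (hπ : Function.Surjective π) (hker : π.ker ≤ Subgroup.center G) : (∀ (X : Type u) [Group X] (ξ : X →* Q), Function.Surjective ξ → ξ.ker ≤ Subgroup.center X → ∃ η : G →* X, ξ.comp η = π) ↔ Cfsg.HasCyclicSchurMultiplier G 1 := by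
  have hGc : commutator G = ⊤ := hG.commutator_eq_top
  exact ⟨forward hGc π hπ hker, fun hM X _ ξ hξ hξc => backward hGc π hM X ξ hξ hξc⟩

end Cfsg.Agent.S3961
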