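import Cfsg.Statements.S3960
import Cfsg.Agent.S3961
import Mathlib.GroupTheory.Schreier
import Mathlib.GroupTheory.Index
import Mathlib.SetTheory.Cardinal.Finite
import Mathlib.Order.Lattice.Nat

set_option autoImplicit false
universe u v
open Cfsg
open scoped commutatorElement

namespace Cfsg.Agent.S3960

theorem stem_ker_bound {Q : Type u} [Group Q] [Finite Q] {Γ : Type v} [Group Γ] [Finite Γ]
    (σ : Γ →* Q) (hσ : Cfsg.IsStemExtension σ) :
    Nat.card σ.ker ≤ Nat.card Q ^ (Nat.card Q * (Nat.card Q * Nat.card Q) + 1) := by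
  obtain ⟨hs, hc, hd⟩ := hσ
  have h1 : Nat.card σ.ker ≤ Nat.card (commutator Γ) := Subgroup.card_le_of_le hd
  have hi : (Subgroup.center Γ).index ∣ Nat.card Q := by
    have h := Subgroup.index_dvd_of_le hc
    rwa [Subgroup.index_ker, MonoidHom.range_eq_top.mpr hs, Subgroup.card_top] at h
  have hQpos : 0 < Nat.card Q := Nat.card_pos
  have hi' : (Subgroup.center Γ).index ≤ Nat.card Q := Nat.le_of_dvd hQpos hi
  have hipos : 0 < (Subgroup.center Γ).index := Nat.pos_of_dvd_of_pos hi hQpos
  have hcs : Nat.card (commutatorSet Γ) ≤ Nat.card Q * Nat.card Q := by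
    let f : Q × Q → commutatorSet Γ := fun qq =>
      ⟨⁅Function.surjInv hs qq.1, Function.surjInv hs qq.2⁆, commutator_mem_commutatorSet _ _⟩
    have hf : Function.Surjective f := by
      rintro ⟨_, a, b, rfl⟩
      refine ⟨(σ a, σ b), ?_⟩
      apply Subtype.ext
      exact (Cfsg.Agent.S3961.comm_eq_of_ker_central σ hc a b _ _
        (Function.surjInv_eq hs (σ a)) (Function.surjInv_eq hs (σ b))).symm
    have h := Nat.card_le_card_of_surjective f hf
    rwa [Nat.card_prod] at h
  have hdvd := Subgroup.card_commutator_dvd_index_center_pow Γ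
  have hle : Nat.card (commutator Γ) ≤
      (Subgroup.center Γ).index ^ ((Subgroup.center Γ).index * Nat.card (commutatorSet Γ) + 1) :=
    Nat.le_of_dvd (pow_pos hipos _) hdvd
  have hexp : (Subgroup.center Γ).index * Nat.card (commutatorSet Γ) + 1 ≤
      Nat.card Q * (Nat.card Q * Nat.card Q) + 1 :=
    Nat.succ_le_succ (Nat.mul_le_mul hi' hcs)
  calc Nat.card σ.ker ≤ Nat.card (commutator Γ) := h1
    _ ≤ (Subgroup.center Γ).index ^
          ((Subgroup.center Γ).index * Nat.card (commutatorSet Γ) + 1) := hle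
    _ ≤ Nat.card Q ^ ((Subgroup.center Γ).index * Nat.card (commutatorSet Γ) + 1) :=
        Nat.pow_le_pow_left hi' _
    _ ≤ Nat.card Q ^ (Nat.card Q * (Nat.card Q * Nat.card Q) + 1) :=
        Nat.pow_le_pow_right hQpos hexp

theorem id_stem (Q : Type u) [Group Q] : Cfsg.IsStemExtension (MonoidHom.id Q) := by
  refine ⟨Function.surjective_id, ?_, ?_⟩
  · intro x hx
    rw [MonoidHom.mem_ker] at hx
    have : x = 1 := hx
    rw [this]; exact Subgroup.one_mem _
  · intro x hx
    rw [MonoidHom.mem_ker] at hx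
    have : x = 1 := hx
    rw [this]; exact Subgroup.one_mem _

theorem exists_max_stem (Q : Type u) [Group Q] [Finite Q] :
    ∃ (G : Type u) (_ : Group G) (_ : Finite G) (π : G →* Q), Cfsg.IsStemExtension π ∧
      ∀ (Γ : Type u) [Group Γ] [Finite Γ] (σ : Γ →* Q), Cfsg.IsStemExtension σ →
        Nat.card σ.ker ≤ Nat.card π.ker := by
  let 𝒮 : Set ℕ := {k | ∃ (Γ : Type u) (_ : Group Γ) (_ : Finite Γ) (σ : Γ →* Q),
    Cfsg.IsStemExtension σ ∧ Nat.card σ.ker = k}
  have hne : 𝒮.Nonempty := ⟨_, Q, inferInstance, inferInstance, MonoidHom.id Q, id_stem Q, rfl⟩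
  have hbdd : BddAbove 𝒮 := by
    refine ⟨Nat.card Q ^ (Nat.card Q * (Nat.card Q * Nat.card Q) + 1), ?_⟩
    rintro k ⟨Γ, _, _, σ, hσ, rfl⟩
    exact stem_ker_bound σ hσ
  obtain ⟨Γ, i1, i2, σ, hσ, hk⟩ := Nat.sSup_mem hne hbdd
  refine ⟨Γ, i1, i2, σ, hσ, ?_⟩
  intro Γ' _ _ σ' hσ'
  rw [hk]
  exact le_csSup hbdd ⟨Γ', inferInstance, inferInstance, σ', hσ', rfl⟩

theorem max_stem_trivial {Q : Type u} [Group Q] [Finite Q] (hQc : commutator Q = ⊤)
    {G : Type u} [Group G] [Finite G] (π : G →* Q) (hπ : Cfsg.IsStemExtension π)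
    (hmax : ∀ (Γ : Type u) [Group Γ] [Finite Γ] (σ : Γ →* Q), Cfsg.IsStemExtension σ →
        Nat.card σ.ker ≤ Nat.card π.ker) :
    Cfsg.HasCyclicSchurMultiplier G 1 := by
  have hGc : commutator G = ⊤ := Cfsg.Agent.S3961.perfect_of_stem π hπ.1 hπ.2.2 hQc
  refine ⟨⟨G, inferInstance, inferInstance, MonoidHom.id G, id_stem G, ⟨?_⟩⟩, ?_⟩
  · exact
      { toFun := fun _ => 1
        invFun := fun _ => 1
        left_inv := by
          intro x
          apply Subtype.ext
          have := x.2
          rw [MonoidHom.mem_ker] at this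
          exact this.symm
        right_inv := by
          intro x
          exact (Cfsg.Agent.S3961.zmod_one_eq x).symm
        map_mul' := by intro x y; exact (one_mul 1).symm }
  · intro S _ _ τ hτ
    obtain ⟨hτs, hτc, hτd⟩ := hτ
    have hSc : commutator S = ⊤ := Cfsg.Agent.S3961.perfect_of_stem τ hτs hτd hGc
    have hcent : (π.comp τ).ker ≤ Subgroup.center S := by
      intro x hx
      rw [MonoidHom.mem_ker, MonoidHom.comp_apply] at hx
      have hx' : τ x ∈ Subgroup.center G := hπ.2.1 (MonoidHom.mem_ker.mpr hx)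
      have h1 : (MulAut.conj x).toMonoidHom = MonoidHom.id S := by
        apply Cfsg.Agent.S3961.perfect_hom_eq hSc
        intro y
        apply hτc
        rw [MonoidHom.mem_ker]
        show τ (x * y * x⁻¹ * y⁻¹) = 1
        rw [map_mul, map_mul, map_mul, map_inv, map_inv]
        have := (Subgroup.mem_center_iff.mp hx') (τ y)
        rw [← this]; group
      rw [Subgroup.mem_center_iff]
      intro y
      have h2 := DFunLike.congr_fun h1 y
      have h3 : x * y * x⁻¹ = y := h2
      calc y * x = (x * y * x⁻¹) * x := by rw [h3]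
        _ = x * y := by group
    have hstem : Cfsg.IsStemExtension (π.comp τ) := by
      refine ⟨hπ.1.comp hτs, hcent, ?_⟩
      rw [hSc]; exact le_top
    have hcard := hmax S (π.comp τ) hstem
    let f : (π.comp τ).ker → π.ker := fun x => ⟨τ x.1, MonoidHom.mem_ker.mpr
      (MonoidHom.mem_ker.mp x.2)⟩
    have hf : Function.Surjective f := by
      intro y
      obtain ⟨s, hs⟩ := hτs y.1
      refine ⟨⟨s, ?_⟩, Subtype.ext hs⟩
      rw [MonoidHom.mem_ker, MonoidHom.comp_apply, hs]
      exact MonoidHom.mem_ker.mp y.2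
    have hbij := hf.bijective_of_nat_card_le hcard
    have hinj : ∀ x, x ∈ τ.ker → x = 1 := by
      intro x hx
      have hx2 : x ∈ (π.comp τ).ker := by
        rw [MonoidHom.mem_ker, MonoidHom.comp_apply, MonoidHom.mem_ker.mp hx, map_one]
      have h1 : f ⟨x, hx2⟩ = f 1 := by
        apply Subtype.ext
        show τ x = τ 1
        rw [MonoidHom.mem_ker.mp hx, map_one]
      exact congrArg Subtype.val (hbij.1 h1)
    refine ⟨1, ?_⟩
    intro k
    refine ⟨1, ?_⟩
    apply Subtype.ext
    rw [hinj k.1 k.2]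
    rfl


/-- A finite perfect group `Q` has a universal central extension: a finite perfect group `G` in the universe of `Q` and a surjective homomorphism `π : G →* Q` with central kernel such that for every group `X` in that universe and every surjective homomorphism `ξ : X →* Q` with central kernel there is exactly one homomorphism `η : G →* X` with `ξ ∘ η = π`. -/
theorem result {Q : Type u} [Group Q] [Finite Q] (hQ : Group.IsPerfect Q) : ∃ (G : Type u) (_ : Group G) (_ : Finite G) (π : G →* Q), Group.IsPerfect G ∧ Function.Surjective π ∧ π.ker ≤ Subgroup.center G ∧ ∀ (X : Type u) [Group X] (ξ : X →* Q), Function.Surjective ξ → ξ.ker ≤ Subgroup.center X → ∃! η : G →* X, ξ.comp η = π := by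
  have hQc : commutator Q = ⊤ := hQ.commutator_eq_top
  obtain ⟨G, iG, fG, π, hπ, hmax⟩ := exists_max_stem Q
  have hGc : commutator G = ⊤ := Cfsg.Agent.S3961.perfect_of_stem π hπ.1 hπ.2.2 hQc
  have hM : Cfsg.HasCyclicSchurMultiplier G 1 := max_stem_trivial hQc π hπ hmax
  refine ⟨G, iG, fG, π, ⟨hGc⟩, hπ.1, hπ.2.1, ?_⟩
  intro X _ ξ hξ hξc
  obtain ⟨η, hη⟩ := Cfsg.Agent.S3961.backward hGc π hM X ξ hξ hξc
  refine ⟨η, hη, ?_⟩
  intro η' hη'
  apply Cfsg.Agent.S3961.perfect_hom_eq hGc
  intro g
  apply hξc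
  rw [MonoidHom.mem_ker, map_mul, map_inv]
  have e1 : ξ (η' g) = π g := DFunLike.congr_fun hη' g
  have e2 : ξ (η g) = π g := DFunLike.congr_fun hη g
  rw [e1, e2, mul_inv_cancel]

end Cfsg.Agent.S3960
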