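import Cfsg.Statements.S3957
import Cfsg.Agent.S3955
import Cfsg.Agent.S3960

set_option autoImplicit false
universe u v
open Cfsg
open scoped commutatorElement

namespace Cfsg.Agent.S3957

/-- Let `Q` be a finite group with Schur multiplier `A` and let `τ : Δ →* Q` be a finite stem extension, `Δ` in the universe of `Q`. Then there is a finite stem extension `σ : Γ →* Q` with kernel isomorphic to `A` (a Schur covering group) and a surjective homomorphism `β : Γ →* Δ` with `τ ∘ β = σ`. -/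
theorem result {Q : Type u} [Group Q] [Finite Q] {A : Type v} [CommGroup A] (hA : Cfsg.HasSchurMultiplier Q A) {Δ : Type u} [Group Δ] [Finite Δ] (τ : Δ →* Q) (hτ : Cfsg.IsStemExtension τ) : ∃ (Γ : Type u) (_ : Group Γ) (_ : Finite Γ) (σ : Γ →* Q), Cfsg.IsStemExtension σ ∧ Nonempty (σ.ker ≃* A) ∧ ∃ β : Γ →* Δ, Function.Surjective β ∧ τ.comp β = σ := by
  obtain ⟨⟨Γ₁, iΓ₁, fΓ₁, σ₁, hσ₁, ⟨e₁⟩⟩, hA2⟩ := hA
  let 𝒯 : Set ℕ := {k | ∃ (Γ : Type u) (_ : Group Γ) (_ : Finite Γ) (σ : Γ →* Q) (β : Γ →* Δ),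
    Cfsg.IsStemExtension σ ∧ Function.Surjective β ∧ τ.comp β = σ ∧ Nat.card σ.ker = k}
  have hne : 𝒯.Nonempty := ⟨_, Δ, inferInstance, inferInstance, τ, MonoidHom.id Δ, hτ,
    Function.surjective_id, MonoidHom.comp_id τ, rfl⟩
  have hbdd : BddAbove 𝒯 := by
    refine ⟨Nat.card Q ^ (Nat.card Q * (Nat.card Q * Nat.card Q) + 1), ?_⟩
    rintro k ⟨Γ, _, _, σ, β, hσ, _, _, rfl⟩
    exact Cfsg.Agent.S3960.stem_ker_bound σ hσ
  obtain ⟨Γ, iΓ, fΓ, σ, β, hσ, hβ, hτβ, hk⟩ := Nat.sSup_mem hne hbdd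
  have hmax : ∀ (Γ' : Type u) [Group Γ'] [Finite Γ'] (σ' : Γ' →* Q) (β' : Γ' →* Δ),
      Cfsg.IsStemExtension σ' → Function.Surjective β' → τ.comp β' = σ' →
      Nat.card σ'.ker ≤ Nat.card σ.ker := by
    intro Γ' _ _ σ' β' h1 h2 h3
    rw [hk]
    exact le_csSup hbdd ⟨Γ', inferInstance, inferInstance, σ', β', h1, h2, h3, rfl⟩
  have hkey : Nat.card σ₁.ker ≤ Nat.card σ.ker := by
    by_contra hlt
    rw [not_le] at hlt
    obtain ⟨hσs, hσc, hσd⟩ := hσ
    obtain ⟨hσ₁s, hσ₁c, hσ₁d⟩ := hσ₁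
    obtain ⟨F, hFmem⟩ : ∃ F : Subgroup (Γ × Γ₁), ∀ y, y ∈ F ↔ σ y.1 = σ₁ y.2 :=
      ⟨(σ.comp (MonoidHom.fst Γ Γ₁)).eqLocus (σ₁.comp (MonoidHom.snd Γ Γ₁)), fun _ => Iff.rfl⟩
    obtain ⟨π₁, hπ₁⟩ : ∃ π₁ : F →* Γ, ∀ f, π₁ f = f.1.1 :=
      ⟨(MonoidHom.fst Γ Γ₁).comp F.subtype, fun _ => rfl⟩
    obtain ⟨π₂, hπ₂⟩ : ∃ π₂ : F →* Γ₁, ∀ f, π₂ f = f.1.2 :=
      ⟨(MonoidHom.snd Γ Γ₁).comp F.subtype, fun _ => rfl⟩
    have hF : ∀ f : F, σ (π₁ f) = σ₁ (π₂ f) := by
      intro f; rw [hπ₁, hπ₂]; exact (hFmem f.1).mp f.2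
    have hπ₁s : Function.Surjective π₁ := by
      intro g
      obtain ⟨x, hx⟩ := hσ₁s (σ g)
      exact ⟨⟨(g, x), (hFmem _).mpr hx.symm⟩, by rw [hπ₁]⟩
    have hπ₂s : Function.Surjective π₂ := by
      intro g
      obtain ⟨x, hx⟩ := hσs (σ₁ g)
      exact ⟨⟨(x, g), (hFmem _).mpr hx⟩, by rw [hπ₂]⟩
    have hcentF : ∀ f : F, σ (π₁ f) = 1 → f ∈ Subgroup.center F := by
      intro f hf
      have h1 : f.1.1 ∈ Subgroup.center Γ := by
        apply hσc
        rw [MonoidHom.mem_ker, ← hπ₁]; exact hf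
      have h2 : f.1.2 ∈ Subgroup.center Γ₁ := by
        apply hσ₁c
        rw [MonoidHom.mem_ker, ← hπ₂, ← hF]; exact hf
      rw [Subgroup.mem_center_iff]
      intro r
      apply Subtype.ext
      apply Prod.ext
      · show r.1.1 * f.1.1 = f.1.1 * r.1.1
        exact (Subgroup.mem_center_iff.mp h1) r.1.1
      · show r.1.2 * f.1.2 = f.1.2 * r.1.2
        exact (Subgroup.mem_center_iff.mp h2) r.1.2
    have hπ₁c : π₁.ker ≤ Subgroup.center F := by
      intro f hf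
      apply hcentF
      rw [MonoidHom.mem_ker.mp hf, map_one]
    have hsel : ∀ a : σ₁.ker, ∃ r, r ∈ commutator F ∧ π₂ r = a.1 := by
      intro a
      have h1 : a.1 ∈ Subgroup.map π₂ (commutator F) := by
        rw [commutator_def, Subgroup.map_commutator, Subgroup.map_top_of_surjective π₂ hπ₂s,
          ← commutator_def]
        exact hσ₁d a.2
      obtain ⟨r, hr, hra⟩ := h1
      exact ⟨r, hr, hra⟩
    let r : σ₁.ker → F := fun a => (hsel a).choose
    have hr : ∀ a, r a ∈ commutator F ∧ π₂ (r a) = a.1 := fun a => (hsel a).choose_spec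
    let ω : σ₁.ker → σ.ker := fun a => ⟨π₁ (r a), by
      rw [MonoidHom.mem_ker, hF, (hr a).2]; exact MonoidHom.mem_ker.mp a.2⟩
    have hninj : ¬ Function.Injective ω :=
      fun hinj => absurd (Nat.card_le_card_of_injective ω hinj) (not_le.mpr hlt)
    unfold Function.Injective at hninj
    push_neg at hninj
    obtain ⟨a, a', hω, haa⟩ := hninj
    have hω' : π₁ (r a) = π₁ (r a') := congrArg Subtype.val hω
    have hn₀ker : (r a)⁻¹ * r a' ∈ π₁.ker := by
      rw [MonoidHom.mem_ker, map_mul, map_inv, hω', inv_mul_cancel]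
    have hn₀comm : (r a)⁻¹ * r a' ∈ commutator F := mul_mem (inv_mem (hr a).1) (hr a').1
    have hn₀ne : (r a)⁻¹ * r a' ≠ 1 := by
      intro h
      apply haa
      apply Subtype.ext
      have h2 : r a = r a' := inv_mul_eq_one.mp h
      rw [← (hr a).2, ← (hr a').2, h2]
    obtain ⟨S, iS, fS, q, hq, ⟨s, hs1, hsne⟩, hZ⟩ :=
      Cfsg.Agent.S3955.exists_twist π₁ hπ₁s hπ₁c _ hn₀ker hn₀comm hn₀ne
    have hcomap : Subgroup.comap π₁ σ.ker ≤ Subgroup.center F := by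
      intro y hy
      exact hcentF y (MonoidHom.mem_ker.mp (Subgroup.mem_comap.mp hy))
    have hScent := hZ σ.ker hcomap
    obtain ⟨hqs, hqc, hqd⟩ := hq
    have hstem : Cfsg.IsStemExtension (σ.comp q) := by
      refine ⟨hσs.comp hqs, ?_, ?_⟩
      · intro y hy
        exact hScent (Subgroup.mem_comap.mpr (MonoidHom.mem_ker.mpr (MonoidHom.mem_ker.mp hy)))
      · intro y hy
        have h1 : q y ∈ commutator Γ :=
          hσd (MonoidHom.mem_ker.mpr (MonoidHom.mem_ker.mp hy))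
        have h2 : q y ∈ Subgroup.map q (commutator S) := by
          rw [commutator_def, Subgroup.map_commutator, Subgroup.map_top_of_surjective q hqs,
            ← commutator_def]
          exact h1
        obtain ⟨y', hy', hyy⟩ := h2
        have h3 : y'⁻¹ * y ∈ q.ker := by
          rw [MonoidHom.mem_ker, map_mul, map_inv, hyy, inv_mul_cancel]
        have h4 := Subgroup.mul_mem _ hy' (hqd h3)
        rwa [mul_inv_cancel_left] at h4
    have hle := hmax S (σ.comp q) (β.comp q) hstem (hβ.comp hqs)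
      (by rw [← MonoidHom.comp_assoc, hτβ])
    let θ : (σ.comp q).ker → σ.ker := fun y =>
      ⟨q y.1, MonoidHom.mem_ker.mpr (MonoidHom.mem_ker.mp y.2)⟩
    have hθ : Function.Surjective θ := by
      intro a
      obtain ⟨y, hy⟩ := hqs a.1
      refine ⟨⟨y, ?_⟩, Subtype.ext hy⟩
      rw [MonoidHom.mem_ker, MonoidHom.comp_apply, hy]; exact MonoidHom.mem_ker.mp a.2
    have hbij := hθ.bijective_of_nat_card_le hle
    have hs2 : s ∈ (σ.comp q).ker := by
      rw [MonoidHom.mem_ker, MonoidHom.comp_apply, hs1, map_one]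
    have h5 : θ ⟨s, hs2⟩ = θ 1 := by
      apply Subtype.ext
      show q s = q 1
      rw [hs1, map_one]
    have h6 : (⟨s, hs2⟩ : (σ.comp q).ker) = 1 := hbij.1 h5
    exact hsne (congrArg Subtype.val h6)
  obtain ⟨π, hπ⟩ := hA2 Γ σ hσ
  haveI : Finite A := Finite.of_equiv _ e₁.toEquiv
  have hcardA : Nat.card A = Nat.card σ₁.ker := (Nat.card_congr e₁.toEquiv).symm
  have hbij : Function.Bijective π := hπ.bijective_of_nat_card_le (by rw [hcardA]; exact hkey)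
  exact ⟨Γ, iΓ, fΓ, σ, hσ, ⟨(MulEquiv.ofBijective π hbij).symm⟩, β, hβ, hτβ⟩

end Cfsg.Agent.S3957
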