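import Mathlib
import Cfsg.Statements.S3959
import Cfsg.Agent.S3980

set_option autoImplicit false
universe u v w
open Cfsg Cfsg.Agent.Helper11
open scoped commutatorElement TensorProduct

namespace Cfsg.Agent.S3959

/-- twisted product of two groups with a central factor, twisted by a bimultiplicative map -/
@[ext] structure Tw {Γ₁ : Type u} {Γ₂ : Type v} {Z : Type w} [Group Γ₁] [Group Γ₂] [CommGroup Z]
    (β : Γ₁ →* Γ₂ →* Z) where
  /-- first coordinate -/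
  a : Γ₁
  /-- second coordinate -/
  b : Γ₂
  /-- central coordinate -/
  t : Z

namespace Tw

variable {Γ₁ : Type u} {Γ₂ : Type v} {Z : Type w} [Group Γ₁] [Group Γ₂] [CommGroup Z]
  (β : Γ₁ →* Γ₂ →* Z)

instance : Mul (Tw β) := ⟨fun x y => ⟨x.a * y.a, x.b * y.b, x.t * y.t * β y.a x.b⟩⟩
instance : One (Tw β) := ⟨⟨1, 1, 1⟩⟩
instance : Inv (Tw β) := ⟨fun x => ⟨x.a⁻¹, x.b⁻¹, x.t⁻¹ * β x.a x.b⟩⟩

theorem mul_a (x y : Tw β) : (x * y).a = x.a * y.a := rfl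
theorem mul_b (x y : Tw β) : (x * y).b = x.b * y.b := rfl
theorem mul_t (x y : Tw β) : (x * y).t = x.t * y.t * β y.a x.b := rfl
theorem one_a : (1 : Tw β).a = 1 := rfl
theorem one_b : (1 : Tw β).b = 1 := rfl
theorem one_t : (1 : Tw β).t = 1 := rfl
theorem inv_a (x : Tw β) : (x⁻¹).a = x.a⁻¹ := rfl
theorem inv_b (x : Tw β) : (x⁻¹).b = x.b⁻¹ := rfl
theorem inv_t (x : Tw β) : (x⁻¹).t = x.t⁻¹ * β x.a x.b := rfl

instance : Group (Tw β) := Group.ofLeftAxioms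
  (by
    intro x y z
    apply Tw.ext
    · exact mul_assoc _ _ _
    · exact mul_assoc _ _ _
    · show x.t * y.t * β y.a x.b * z.t * β z.a (x.b * y.b) =
        x.t * (y.t * z.t * β z.a y.b) * β (y.a * z.a) x.b
      rw [map_mul, map_mul, MonoidHom.mul_apply]
      simp only [mul_assoc, mul_left_comm, mul_comm])
  (by
    intro x
    apply Tw.ext
    · exact one_mul _
    · exact one_mul _
    · show 1 * x.t * β x.a 1 = x.t
      rw [map_one, one_mul, mul_one])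
  (by
    intro x
    apply Tw.ext
    · exact inv_mul_cancel _
    · exact inv_mul_cancel _
    · show x.t⁻¹ * β x.a x.b * x.t * β x.a x.b⁻¹ = 1
      rw [map_inv, mul_assoc, mul_mul_mul_comm, inv_mul_cancel, mul_inv_cancel, one_mul])

instance [Finite Γ₁] [Finite Γ₂] [Finite Z] : Finite (Tw β) :=
  Finite.of_equiv (Γ₁ × Γ₂ × Z)
    ⟨fun p => ⟨p.1, p.2.1, p.2.2⟩, fun x => (x.a, x.b, x.t), fun _ => rfl, fun _ => rfl⟩

end Tw

theorem tw_part1 {Q₁ : Type u} {Q₂ : Type v} [Group Q₁] [Group Q₂]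
    {Γ₁ : Type u} {Γ₂ : Type v} [Group Γ₁] [Group Γ₂] [Finite Γ₁] [Finite Γ₂]
    {Z : Type (max u v)} [CommGroup Z] [Finite Z]
    (σ₁ : Γ₁ →* Q₁) (σ₂ : Γ₂ →* Q₂) (h₁ : IsStemExtension σ₁) (h₂ : IsStemExtension σ₂)
    (β : Γ₁ →* Γ₂ →* Z) (hβ₁ : ∀ a b, σ₁ a = 1 → β a b = 1) (hβ₂ : ∀ a b, σ₂ b = 1 → β a b = 1)
    (hgen : Subgroup.closure (Set.range fun p : Γ₁ × Γ₂ => β p.1 p.2) = ⊤) :
    ∃ (Γ : Type (max u v)) (_ : Group Γ) (_ : Finite Γ) (σ : Γ →* Q₁ × Q₂),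
      IsStemExtension σ ∧ Nonempty (σ.ker ≃* (σ₁.ker × σ₂.ker × Z)) := by
  obtain ⟨hσ₁s, hσ₁c, hσ₁d⟩ := h₁
  obtain ⟨hσ₂s, hσ₂c, hσ₂d⟩ := h₂
  let σ : Tw β →* Q₁ × Q₂ := MonoidHom.mk' (fun x => (σ₁ x.a, σ₂ x.b))
    (fun x y => Prod.ext (map_mul σ₁ _ _) (map_mul σ₂ _ _))
  have hσ : ∀ x, σ x = (σ₁ x.a, σ₂ x.b) := fun _ => rfl
  have hker : ∀ x : Tw β, x ∈ σ.ker ↔ (σ₁ x.a = 1 ∧ σ₂ x.b = 1) := by
    intro x
    rw [MonoidHom.mem_ker, hσ]
    exact Prod.ext_iff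
  let ι₁ : Γ₁ →* Tw β := MonoidHom.mk' (fun a => ⟨a, 1, 1⟩) (by
    intro a a'
    apply Tw.ext
    · rfl
    · exact (one_mul (1 : Γ₂)).symm
    · show (1 : Z) = 1 * 1 * β a' 1
      rw [map_one, mul_one, mul_one])
  let ι₂ : Γ₂ →* Tw β := MonoidHom.mk' (fun b => ⟨1, b, 1⟩) (by
    intro b b'
    apply Tw.ext
    · exact (one_mul (1 : Γ₁)).symm
    · rfl
    · show (1 : Z) = 1 * 1 * β 1 b
      rw [map_one, MonoidHom.one_apply, mul_one, mul_one])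
  let ιz : Z →* Tw β := MonoidHom.mk' (fun t => ⟨1, 1, t⟩) (by
    intro t t'
    apply Tw.ext
    · exact (one_mul (1 : Γ₁)).symm
    · exact (one_mul (1 : Γ₂)).symm
    · show t * t' = t * t' * β 1 1
      rw [map_one, mul_one])
  have hι₁ : ∀ a, ι₁ a = ⟨a, 1, 1⟩ := fun _ => rfl
  have hι₂ : ∀ b, ι₂ b = ⟨1, b, 1⟩ := fun _ => rfl
  have hιz : ∀ t, ιz t = ⟨1, 1, t⟩ := fun _ => rfl
  have hz : ∀ t : Z, ιz t ∈ commutator (Tw β) := by
    intro t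
    have ht : t ∈ Subgroup.closure (Set.range fun p : Γ₁ × Γ₂ => β p.1 p.2) := by
      rw [hgen]; exact Subgroup.mem_top t
    induction ht using Subgroup.closure_induction with
    | mem x hx =>
      obtain ⟨p, rfl⟩ := hx
      have e : ιz (β p.1 p.2) = ⁅ι₂ p.2, ι₁ p.1⁆ := by
        rw [commutatorElement_def, hιz, hι₁, hι₂]
        apply Tw.ext
        · simp [Tw.mul_a, Tw.inv_a]
        · simp [Tw.mul_b, Tw.inv_b]
        · simp [Tw.mul_t, Tw.inv_t, Tw.mul_a, Tw.inv_a, Tw.mul_b, Tw.inv_b]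
      rw [e, commutator_def]
      exact Subgroup.commutator_mem_commutator (Subgroup.mem_top _) (Subgroup.mem_top _)
    | one => rw [map_one]; exact one_mem _
    | mul x y _ _ hx hy => rw [map_mul]; exact mul_mem hx hy
    | inv x _ hx => rw [map_inv]; exact inv_mem hx
  refine ⟨Tw β, inferInstance, inferInstance, σ, ⟨?_, ?_, ?_⟩, ⟨?_⟩⟩
  · rintro ⟨q₁, q₂⟩
    obtain ⟨a, ha⟩ := hσ₁s q₁
    obtain ⟨b, hb⟩ := hσ₂s q₂
    exact ⟨⟨a, b, 1⟩, Prod.ext ha hb⟩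
  · intro x hx
    obtain ⟨hx1, hx2⟩ := (hker x).mp hx
    have c1 := Subgroup.mem_center_iff.mp (hσ₁c (MonoidHom.mem_ker.mpr hx1))
    have c2 := Subgroup.mem_center_iff.mp (hσ₂c (MonoidHom.mem_ker.mpr hx2))
    rw [Subgroup.mem_center_iff]
    intro y
    apply Tw.ext
    · exact c1 y.a
    · exact c2 y.b
    · show y.t * x.t * β x.a y.b = x.t * y.t * β y.a x.b
      rw [hβ₁ _ _ hx1, hβ₂ _ _ hx2, mul_one, mul_one, mul_comm]
  · intro x hx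
    obtain ⟨hx1, hx2⟩ := (hker x).mp hx
    have k1 : ι₁ x.a ∈ commutator (Tw β) := by
      have h3 : ι₁ x.a ∈ Subgroup.map ι₁ (commutator Γ₁) :=
        ⟨x.a, hσ₁d (MonoidHom.mem_ker.mpr hx1), rfl⟩
      rw [commutator_def, Subgroup.map_commutator] at h3
      exact Subgroup.commutator_mono le_top le_top h3
    have k2 : ι₂ x.b ∈ commutator (Tw β) := by
      have h3 : ι₂ x.b ∈ Subgroup.map ι₂ (commutator Γ₂) :=
        ⟨x.b, hσ₂d (MonoidHom.mem_ker.mpr hx2), rfl⟩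
      rw [commutator_def, Subgroup.map_commutator] at h3
      exact Subgroup.commutator_mono le_top le_top h3
    have e : x = ι₁ x.a * ι₂ x.b * ιz x.t := by
      rw [hι₁, hι₂, hιz]
      apply Tw.ext
      · simp [Tw.mul_a]
      · simp [Tw.mul_b]
      · simp [Tw.mul_t, Tw.mul_a, Tw.mul_b]
    rw [e]
    exact mul_mem (mul_mem k1 k2) (hz x.t)
  · let ψ : σ.ker →* σ₁.ker × σ₂.ker × Z := MonoidHom.mk'
      (fun x => (⟨x.1.a, MonoidHom.mem_ker.mpr ((hker x.1).mp x.2).1⟩,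
        ⟨x.1.b, MonoidHom.mem_ker.mpr ((hker x.1).mp x.2).2⟩, x.1.t)) (by
      intro x y
      refine Prod.ext (Subtype.ext rfl) (Prod.ext (Subtype.ext rfl) ?_)
      show x.1.t * y.1.t * β y.1.a x.1.b = x.1.t * y.1.t
      rw [hβ₂ _ _ ((hker x.1).mp x.2).2, mul_one])
    have hψ : ∀ x : σ.ker, ψ x = (⟨x.1.a, MonoidHom.mem_ker.mpr ((hker x.1).mp x.2).1⟩,
        ⟨x.1.b, MonoidHom.mem_ker.mpr ((hker x.1).mp x.2).2⟩, x.1.t) := fun _ => rfl
    have hbij : Function.Bijective ψ := by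
      constructor
      · intro x y hxy
        rw [hψ, hψ] at hxy
        apply Subtype.ext
        apply Tw.ext
        · exact congrArg Subtype.val (congrArg Prod.fst hxy)
        · exact congrArg Subtype.val (congrArg Prod.fst (congrArg Prod.snd hxy))
        · exact congrArg Prod.snd (congrArg Prod.snd hxy)
      · rintro ⟨k₁, k₂, t⟩
        exact ⟨⟨⟨k₁.1, k₂.1, t⟩, (hker _).mpr ⟨MonoidHom.mem_ker.mp k₁.2,
          MonoidHom.mem_ker.mp k₂.2⟩⟩, rfl⟩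
    exact MulEquiv.ofBijective ψ hbij

/-- the bimultiplicative map into the tensor product -/
noncomputable def tβ {Γ₁ : Type*} {Γ₂ : Type*} [Group Γ₁] [Group Γ₂] {M₁ M₂ : Type*}
    [AddCommGroup M₁] [AddCommGroup M₂]
    (u : Γ₁ → M₁) (hu : ∀ a a', u (a * a') = u a + u a') (v : Γ₂ → M₂)
    (hv : ∀ b b', v (b * b') = v b + v b') :
    Γ₁ →* Γ₂ →* Multiplicative (M₁ ⊗[ℤ] M₂) :=
  MonoidHom.mk' (fun a => MonoidHom.mk' (fun b => Multiplicative.ofAdd (u a ⊗ₜ[ℤ] v b))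
    (fun b b' => by rw [hv, TensorProduct.tmul_add, ofAdd_add]))
    (fun a a' => by
      ext b
      show Multiplicative.ofAdd (u (a * a') ⊗ₜ[ℤ] v b) =
        Multiplicative.ofAdd (u a ⊗ₜ[ℤ] v b) * Multiplicative.ofAdd (u a' ⊗ₜ[ℤ] v b)
      rw [hu, TensorProduct.add_tmul, ofAdd_add])

theorem finite_tensor (M₁ M₂ : Type*) [AddCommGroup M₁] [AddCommGroup M₂] [Finite M₁]
    [Finite M₂] : Finite (M₁ ⊗[ℤ] M₂) := by
  haveI : Module.Finite ℤ M₁ := Module.Finite.of_finite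
  haveI : Module.Finite ℤ M₂ := Module.Finite.of_finite
  have hfin : Module.Finite ℤ (M₁ ⊗[ℤ] M₂) := Module.Finite.tensorProduct ℤ M₁ M₂
  have hT : Module.IsTorsion ℤ (M₁ ⊗[ℤ] M₂) := by
    intro x
    have hpos : 0 < Nat.card M₁ := Nat.card_pos
    refine ⟨⟨(Nat.card M₁ : ℤ), mem_nonZeroDivisors_of_ne_zero (by exact_mod_cast hpos.ne')⟩, ?_⟩
    show (Nat.card M₁ : ℤ) • x = 0
    induction x using TensorProduct.induction_on with
    | zero => rw [smul_zero]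
    | tmul m₁ m₂ =>
      rw [TensorProduct.smul_tmul', natCast_zsmul, card_nsmul_eq_zero', TensorProduct.zero_tmul]
    | add x y hx hy => rw [smul_add, hx, hy, add_zero]
  exact @Module.finite_of_fg_torsion (M₁ ⊗[ℤ] M₂) _ _ hfin hT

theorem part1 {Q₁ : Type u} {Q₂ : Type v} [Group Q₁] [Group Q₂] [Finite Q₁] [Finite Q₂]
    {A B : Type w} [CommGroup A] [CommGroup B]
    (hA : Cfsg.HasSchurMultiplier Q₁ A) (hB : Cfsg.HasSchurMultiplier Q₂ B) :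
    ∃ (Γ : Type (max u v)) (_ : Group Γ) (_ : Finite Γ) (σ : Γ →* Q₁ × Q₂),
      Cfsg.IsStemExtension σ ∧ Nonempty (σ.ker ≃* (A × B × Multiplicative
        (TensorProduct ℤ (Additive (Abelianization Q₁)) (Additive (Abelianization Q₂))))) := by
  obtain ⟨Γ₁, iΓ₁, fΓ₁, σ₁, h₁, ⟨e₁⟩⟩ := hA.1
  obtain ⟨Γ₂, iΓ₂, fΓ₂, σ₂, h₂, ⟨e₂⟩⟩ := hB.1
  haveI := finite_tensor (Additive (Abelianization Q₁)) (Additive (Abelianization Q₂))
  let u : Γ₁ → Additive (Abelianization Q₁) := fun a => Additive.ofMul (Abelianization.of (σ₁ a))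
  let v : Γ₂ → Additive (Abelianization Q₂) := fun b => Additive.ofMul (Abelianization.of (σ₂ b))
  have hu : ∀ a a', u (a * a') = u a + u a' := by
    intro a a'
    show Additive.ofMul (Abelianization.of (σ₁ (a * a'))) = _
    rw [map_mul, map_mul]; rfl
  have hv : ∀ b b', v (b * b') = v b + v b' := by
    intro b b'
    show Additive.ofMul (Abelianization.of (σ₂ (b * b'))) = _
    rw [map_mul, map_mul]; rfl
  have hus : Function.Surjective u := by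
    intro m
    obtain ⟨q, hq⟩ := QuotientGroup.mk_surjective (Additive.toMul m)
    obtain ⟨a, ha⟩ := h₁.1 q
    refine ⟨a, ?_⟩
    show Additive.ofMul (Abelianization.of (σ₁ a)) = m
    rw [ha]
    exact congrArg Additive.ofMul hq
  have hvs : Function.Surjective v := by
    intro m
    obtain ⟨q, hq⟩ := QuotientGroup.mk_surjective (Additive.toMul m)
    obtain ⟨a, ha⟩ := h₂.1 q
    refine ⟨a, ?_⟩
    show Additive.ofMul (Abelianization.of (σ₂ a)) = m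
    rw [ha]
    exact congrArg Additive.ofMul hq
  have hβ₁ : ∀ a b, σ₁ a = 1 → tβ u hu v hv a b = 1 := by
    intro a b ha
    show Multiplicative.ofAdd (u a ⊗ₜ[ℤ] v b) = 1
    have h0 : u a = 0 := by
      show Additive.ofMul (Abelianization.of (σ₁ a)) = 0
      rw [ha, map_one]; rfl
    rw [h0, TensorProduct.zero_tmul]; rfl
  have hβ₂ : ∀ a b, σ₂ b = 1 → tβ u hu v hv a b = 1 := by
    intro a b hb
    show Multiplicative.ofAdd (u a ⊗ₜ[ℤ] v b) = 1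
    have h0 : v b = 0 := by
      show Additive.ofMul (Abelianization.of (σ₂ b)) = 0
      rw [hb, map_one]; rfl
    rw [h0, TensorProduct.tmul_zero]; rfl
  have key : ∀ t : (Additive (Abelianization Q₁)) ⊗[ℤ] (Additive (Abelianization Q₂)),
      Multiplicative.ofAdd t ∈
        Subgroup.closure (Set.range fun p : Γ₁ × Γ₂ => tβ u hu v hv p.1 p.2) := by
    intro t
    induction t using TensorProduct.induction_on with
    | zero => exact one_mem _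
    | tmul m₁ m₂ =>
      obtain ⟨a, rfl⟩ := hus m₁
      obtain ⟨b, rfl⟩ := hvs m₂
      exact Subgroup.subset_closure ⟨(a, b), rfl⟩
    | add x y hx hy => exact mul_mem hx hy
  have hgen : Subgroup.closure (Set.range fun p : Γ₁ × Γ₂ => tβ u hu v hv p.1 p.2) = ⊤ := by
    rw [eq_top_iff]
    intro z _
    exact key (Multiplicative.toAdd z)
  obtain ⟨Γ, iΓ, fΓ, σ, hσ, ⟨e⟩⟩ := tw_part1 σ₁ σ₂ h₁ h₂ (tβ u hu v hv) hβ₁ hβ₂ hgen
  exact ⟨Γ, iΓ, fΓ, σ, hσ,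
    ⟨e.trans (MulEquiv.prodCongr e₁ (MulEquiv.prodCongr e₂ (MulEquiv.refl _)))⟩⟩

theorem exists_tensor_hom {M₁ M₂ : Type*} [AddCommGroup M₁] [AddCommGroup M₂] {K : Type*}
    [Group K] (hK : ∀ a b : K, a * b = b * a)
    (c : M₁ → M₂ → K) (h1 : ∀ m m' n, c (m + m') n = c m n * c m' n)
    (h2 : ∀ m n n', c m (n + n') = c m n * c m n') :
    ∃ w : Multiplicative (M₁ ⊗[ℤ] M₂) →* K,
      ∀ m n, w (Multiplicative.ofAdd (m ⊗ₜ[ℤ] n)) = c m n := by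
  letI cg : CommGroup K := { (inferInstance : Group K) with mul_comm := hK }
  let f : M₁ →+ M₂ →+ Additive K :=
    AddMonoidHom.mk' (fun m => AddMonoidHom.mk' (fun n => Additive.ofMul (c m n)) (fun n n' => by
      show Additive.ofMul (c m (n + n')) = Additive.ofMul (c m n) + Additive.ofMul (c m n')
      rw [h2]; rfl)) (fun m m' => by
      ext n
      show Additive.ofMul (c (m + m') n) = Additive.ofMul (c m n) + Additive.ofMul (c m' n)
      rw [h1]; rfl)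
  have hf : ∀ (r : ℤ) (m : M₁) (n : M₂), f (r • m) n = f m (r • n) := by
    intro r m n
    rw [map_zsmul, map_zsmul]
    rfl
  exact ⟨AddMonoidHom.toMultiplicativeLeft (TensorProduct.liftAddHom f hf), fun m n => rfl⟩

theorem coprod3 {A B C K : Type*} [Group A] [Group B] [Group C] [Group K]
    (hK : ∀ a b : K, a * b = b * a) (f : A →* K) (g : B →* K) (h : C →* K) :
    ∃ π : A × B × C →* K, ∀ a b c, π (a, b, c) = f a * g b * h c := by
  refine ⟨MonoidHom.mk' (fun x => f x.1 * g x.2.1 * h x.2.2) ?_, fun _ _ _ => rfl⟩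
  rintro ⟨a, b, c⟩ ⟨a', b', c'⟩
  show f (a * a') * g (b * b') * h (c * c') = f a * g b * h c * (f a' * g b' * h c')
  rw [map_mul, map_mul, map_mul]
  calc f a * f a' * (g b * g b') * (h c * h c')
      = f a * (f a' * g b) * ((g b' * h c) * h c') := by group
    _ = f a * (g b * f a') * ((h c * g b') * h c') := by rw [hK (f a') (g b), hK (g b') (h c)]
    _ = f a * g b * ((f a' * h c) * g b' * h c') := by group
    _ = f a * g b * ((h c * f a') * g b' * h c') := by rw [hK (f a') (h c)]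
    _ = f a * g b * h c * (f a' * g b' * h c') := by group

theorem pairing_hom {Q : Type*} [Group Q] {Δ : Type*} [Group Δ] (H : Subgroup Δ)
    (p : H →* Q) (hp : Function.Surjective p) (y : Δ)
    (hy : ∀ x : H, (x : Δ) * y * (x : Δ)⁻¹ * y⁻¹ ∈ Subgroup.center Δ)
    (hker : ∀ x : H, p x = 1 → (x : Δ) * y = y * (x : Δ)) :
    ∃ z : H →* Δ, (∀ x : H, z x = (x : Δ) * y * (x : Δ)⁻¹ * y⁻¹) ∧
      ∀ x : H, Abelianization.of (p x) = 1 → z x = 1 := by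
  let f : H →* Δ := H.subtype
  let g : H →* Δ := (MulAut.conj y).toMonoidHom.comp H.subtype
  have hfg : ∀ x : H, f x * (g x)⁻¹ = (x : Δ) * y * (x : Δ)⁻¹ * y⁻¹ := by
    intro x
    show (x : Δ) * (y * (x : Δ) * y⁻¹)⁻¹ = (x : Δ) * y * (x : Δ)⁻¹ * y⁻¹
    group
  have hcen : ∀ x : H, f x * (g x)⁻¹ ∈ Subgroup.center Δ := by
    intro x; rw [hfg]; exact hy x
  obtain ⟨z, hz⟩ := Cfsg.Agent.S3980.ratio_hom f g hcen
  have hzc : ∀ d : H, d ∈ commutator H → z d = 1 := by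
    intro d hd
    rw [hz, sc_eq_on_comm f g hcen d hd, mul_inv_cancel]
  have hzk : ∀ t : H, p t = 1 → z t = 1 := by
    intro t ht
    rw [hz, hfg, hker t ht]
    group
  refine ⟨z, fun x => by rw [hz, hfg], ?_⟩
  intro x hx
  have h1 : p x ∈ commutator Q := by
    rw [← Abelianization.ker_of Q, MonoidHom.mem_ker]; exact hx
  have h2 : p x ∈ Subgroup.map p (commutator H) := by
    rw [commutator_def, Subgroup.map_commutator, Subgroup.map_top_of_surjective p hp,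
      ← commutator_def]
    exact h1
  obtain ⟨d, hd, hdx⟩ := h2
  have h3 : p (d⁻¹ * x) = 1 := by
    rw [map_mul, map_inv, hdx, inv_mul_cancel]
  have e : x = d * (d⁻¹ * x) := by group
  rw [e, map_mul, hzc d hd, hzk _ h3, mul_one]

theorem part2 {Q₁ : Type u} {Q₂ : Type v} [Group Q₁] [Group Q₂] [Finite Q₁] [Finite Q₂]
    {A B : Type w} [CommGroup A] [CommGroup B]
    (hA : Cfsg.HasSchurMultiplier Q₁ A) (hB : Cfsg.HasSchurMultiplier Q₂ B)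
    (Δ : Type (max u v)) [Group Δ] [Finite Δ] (τ : Δ →* Q₁ × Q₂)
    (hτ : Cfsg.IsStemExtension τ) :
    ∃ π : A × B × Multiplicative
        (TensorProduct ℤ (Additive (Abelianization Q₁)) (Additive (Abelianization Q₂))) →* τ.ker,
      Function.Surjective π := by
  obtain ⟨hτs, hτc, hτd⟩ := hτ
  obtain ⟨τ₁, hτ₁⟩ : ∃ τ₁ : Δ →* Q₁, ∀ δ, τ₁ δ = (τ δ).1 :=
    ⟨(MonoidHom.fst Q₁ Q₂).comp τ, fun _ => rfl⟩
  obtain ⟨τ₂, hτ₂⟩ : ∃ τ₂ : Δ →* Q₂, ∀ δ, τ₂ δ = (τ δ).2 :=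
    ⟨(MonoidHom.snd Q₁ Q₂).comp τ, fun _ => rfl⟩
  have hkerτ : ∀ δ, δ ∈ τ.ker ↔ (τ₁ δ = 1 ∧ τ₂ δ = 1) := by
    intro δ
    rw [MonoidHom.mem_ker, hτ₁, hτ₂]
    exact Prod.ext_iff
  obtain ⟨p₁, hp₁⟩ : ∃ p₁ : τ₂.ker →* Q₁, ∀ x, p₁ x = τ₁ x.1 :=
    ⟨τ₁.comp τ₂.ker.subtype, fun _ => rfl⟩
  obtain ⟨p₂, hp₂⟩ : ∃ p₂ : τ₁.ker →* Q₂, ∀ x, p₂ x = τ₂ x.1 :=
    ⟨τ₂.comp τ₁.ker.subtype, fun _ => rfl⟩
  have hp₁s : Function.Surjective p₁ := by
    intro q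
    obtain ⟨δ, hδ⟩ := hτs (q, 1)
    refine ⟨⟨δ, ?_⟩, ?_⟩
    · rw [MonoidHom.mem_ker, hτ₂, hδ]
    · rw [hp₁, hτ₁, hδ]
  have hp₂s : Function.Surjective p₂ := by
    intro q
    obtain ⟨δ, hδ⟩ := hτs (1, q)
    refine ⟨⟨δ, ?_⟩, ?_⟩
    · rw [MonoidHom.mem_ker, hτ₁, hδ]
    · rw [hp₂, hτ₂, hδ]
  have hk₁ : ∀ x : τ₂.ker, p₁ x = 1 → x.1 ∈ τ.ker := by
    intro x hx
    rw [hp₁] at hx
    exact (hkerτ x.1).mpr ⟨hx, MonoidHom.mem_ker.mp x.2⟩
  have hk₂ : ∀ y : τ₁.ker, p₂ y = 1 → y.1 ∈ τ.ker := by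
    intro y hy
    rw [hp₂] at hy
    exact (hkerτ y.1).mpr ⟨MonoidHom.mem_ker.mp y.2, hy⟩
  have hp₁c : p₁.ker ≤ Subgroup.center τ₂.ker := by
    intro x hx
    have h2 := hτc (hk₁ x (MonoidHom.mem_ker.mp hx))
    rw [Subgroup.mem_center_iff] at h2 ⊢
    intro y
    apply Subtype.ext
    exact h2 y.1
  have hp₂c : p₂.ker ≤ Subgroup.center τ₁.ker := by
    intro x hx
    have h2 := hτc (hk₂ x (MonoidHom.mem_ker.mp hx))
    rw [Subgroup.mem_center_iff] at h2 ⊢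
    intro y
    apply Subtype.ext
    exact h2 y.1
  obtain ⟨φ₁, hφ₁k, hφ₁s⟩ := Cfsg.Agent.S3980.comm_inter_quot hA p₁ hp₁s hp₁c
  obtain ⟨φ₂, hφ₂k, hφ₂s⟩ := Cfsg.Agent.S3980.comm_inter_quot hB p₂ hp₂s hp₂c
  have hφ₁T : ∀ a, (φ₁ a).1 ∈ τ.ker := fun a => hk₁ _ (MonoidHom.mem_ker.mp (hφ₁k a))
  have hφ₂T : ∀ b, (φ₂ b).1 ∈ τ.ker := fun b => hk₂ _ (MonoidHom.mem_ker.mp (hφ₂k b))
  have hcT : ∀ (x : τ₂.ker) (y : τ₁.ker), (x : Δ) * (y : Δ) * (x : Δ)⁻¹ * (y : Δ)⁻¹ ∈ τ.ker := by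
    intro x y
    rw [hkerτ]
    constructor
    · rw [map_mul, map_mul, map_mul, map_inv, map_inv, MonoidHom.mem_ker.mp y.2]
      group
    · rw [map_mul, map_mul, map_mul, map_inv, map_inv, MonoidHom.mem_ker.mp x.2]
      group
  have hcT' : ∀ (x : τ₂.ker) (y : τ₁.ker), (y : Δ) * (x : Δ) * (y : Δ)⁻¹ * (x : Δ)⁻¹ ∈ τ.ker := by
    intro x y
    have h := inv_mem (hcT x y)
    have e : ((x : Δ) * (y : Δ) * (x : Δ)⁻¹ * (y : Δ)⁻¹)⁻¹ =
        (y : Δ) * (x : Δ) * (y : Δ)⁻¹ * (x : Δ)⁻¹ := by group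
    rwa [e] at h
  -- abelianization maps
  let u₁ : τ₂.ker → Additive (Abelianization Q₁) :=
    fun x => Additive.ofMul (Abelianization.of (p₁ x))
  let u₂ : τ₁.ker → Additive (Abelianization Q₂) :=
    fun y => Additive.ofMul (Abelianization.of (p₂ y))
  have hu₁ : ∀ x x', u₁ (x * x') = u₁ x + u₁ x' := by
    intro x x'
    show Additive.ofMul (Abelianization.of (p₁ (x * x'))) = _
    rw [map_mul, map_mul]; rfl
  have hu₂ : ∀ y y', u₂ (y * y') = u₂ y + u₂ y' := by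
    intro y y'
    show Additive.ofMul (Abelianization.of (p₂ (y * y'))) = _
    rw [map_mul, map_mul]; rfl
  have hu₁s : Function.Surjective u₁ := by
    intro m
    obtain ⟨q, hq⟩ := QuotientGroup.mk_surjective (Additive.toMul m)
    obtain ⟨x, hx⟩ := hp₁s q
    refine ⟨x, ?_⟩
    show Additive.ofMul (Abelianization.of (p₁ x)) = m
    rw [hx]
    exact congrArg Additive.ofMul hq
  have hu₂s : Function.Surjective u₂ := by
    intro m
    obtain ⟨q, hq⟩ := QuotientGroup.mk_surjective (Additive.toMul m)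
    obtain ⟨x, hx⟩ := hp₂s q
    refine ⟨x, ?_⟩
    show Additive.ofMul (Abelianization.of (p₂ x)) = m
    rw [hx]
    exact congrArg Additive.ofMul hq
  have hz₁ : ∀ y : τ₁.ker, ∃ z : τ₂.ker →* Δ,
      (∀ x : τ₂.ker, z x = (x : Δ) * (y : Δ) * (x : Δ)⁻¹ * (y : Δ)⁻¹) ∧
      ∀ x : τ₂.ker, Abelianization.of (p₁ x) = 1 → z x = 1 := fun y =>
    pairing_hom τ₂.ker p₁ hp₁s (y : Δ) (fun x' => hτc (hcT x' y))
      (fun x' hx' => (Subgroup.mem_center_iff.mp (hτc (hk₁ x' hx')) (y : Δ)).symm)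
  have hz₂ : ∀ x : τ₂.ker, ∃ z : τ₁.ker →* Δ,
      (∀ y : τ₁.ker, z y = (y : Δ) * (x : Δ) * (y : Δ)⁻¹ * (x : Δ)⁻¹) ∧
      ∀ y : τ₁.ker, Abelianization.of (p₂ y) = 1 → z y = 1 := fun x =>
    pairing_hom τ₁.ker p₂ hp₂s (x : Δ) (fun y' => hτc (hcT' x y'))
      (fun y' hy' => (Subgroup.mem_center_iff.mp (hτc (hk₂ y' hy')) (x : Δ)).symm)
  let C : τ₂.ker → τ₁.ker → τ.ker := fun x y => ⟨(x : Δ) * (y : Δ) * (x : Δ)⁻¹ * (y : Δ)⁻¹, hcT x y⟩
  have hCv : ∀ x y, ((C x y : τ.ker) : Δ) = (x : Δ) * (y : Δ) * (x : Δ)⁻¹ * (y : Δ)⁻¹ :=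
    fun _ _ => rfl
  have hK : ∀ a b : τ.ker, a * b = b * a :=
    fun a b => Subtype.ext (Subgroup.mem_center_iff.mp (hτc b.2) a.1)
  have hC1 : ∀ x x' y, C (x * x') y = C x y * C x' y := by
    intro x x' y
    obtain ⟨z, hz, -⟩ := hz₁ y
    apply Subtype.ext
    show ((C (x * x') y : τ.ker) : Δ) = ((C x y : τ.ker) : Δ) * ((C x' y : τ.ker) : Δ)
    rw [hCv, hCv, hCv, ← hz, ← hz, ← hz, map_mul]
  have hC1' : ∀ x y, u₁ x = 0 → C x y = 1 := by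
    intro x y hx
    obtain ⟨z, hz, hz0⟩ := hz₁ y
    apply Subtype.ext
    show ((C x y : τ.ker) : Δ) = 1
    rw [hCv, ← hz]
    exact hz0 x hx
  have hinv : ∀ (x : τ₂.ker) (y : τ₁.ker),
      (y : Δ) * (x : Δ) * (y : Δ)⁻¹ * (x : Δ)⁻¹ = ((C x y : τ.ker) : Δ)⁻¹ := by
    intro x y
    rw [hCv]
    group
  have hC2 : ∀ x y y', C x (y * y') = C x y * C x y' := by
    intro x y y'
    obtain ⟨z, hz, -⟩ := hz₂ x
    have e1 := map_mul z y y'
    rw [hz, hz, hz, hinv, hinv, hinv] at e1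
    have e2 : ((C x (y * y') : τ.ker) : Δ) = ((C x y' : τ.ker) : Δ) * ((C x y : τ.ker) : Δ) := by
      rw [← inv_inj, e1]
      exact (mul_inv_rev _ _).symm
    rw [hK]
    exact Subtype.ext e2
  have hC2' : ∀ x y, u₂ y = 0 → C x y = 1 := by
    intro x y hy
    obtain ⟨z, hz, hz0⟩ := hz₂ x
    have e1 := hz0 y hy
    rw [hz, hinv, inv_eq_one] at e1
    exact Subtype.ext e1
  have hC3 : ∀ x x' y, u₁ x = u₁ x' → C x y = C x' y := by
    intro x x' y h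
    have e : x' * (x'⁻¹ * x) = x := by group
    have h0 : u₁ (x'⁻¹ * x) = 0 := by
      have h1 := hu₁ x' (x'⁻¹ * x)
      rw [e, h] at h1
      simpa using h1
    have h2 := hC1 x' (x'⁻¹ * x) y
    rw [e, hC1' _ _ h0, mul_one] at h2
    exact h2
  have hC4 : ∀ x y y', u₂ y = u₂ y' → C x y = C x y' := by
    intro x y y' h
    have e : y' * (y'⁻¹ * y) = y := by group
    have h0 : u₂ (y'⁻¹ * y) = 0 := by
      have h1 := hu₂ y' (y'⁻¹ * y)
      rw [e, h] at h1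
      simpa using h1
    have h2 := hC2 x y' (y'⁻¹ * y)
    rw [e, hC2' _ _ h0, mul_one] at h2
    exact h2
  choose s₁ hs₁ using hu₁s
  choose s₂ hs₂ using hu₂s
  have h1 : ∀ m m' n, C (s₁ (m + m')) (s₂ n) = C (s₁ m) (s₂ n) * C (s₁ m') (s₂ n) := by
    intro m m' n
    rw [← hC1]
    apply hC3
    rw [hs₁, hu₁, hs₁, hs₁]
  have h2 : ∀ m n n', C (s₁ m) (s₂ (n + n')) = C (s₁ m) (s₂ n) * C (s₁ m) (s₂ n') := by
    intro m n n'
    rw [← hC2]
    apply hC4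
    rw [hs₂, hu₂, hs₂, hs₂]
  obtain ⟨w, hw⟩ := exists_tensor_hom hK (fun m n => C (s₁ m) (s₂ n)) h1 h2
  have hwC : ∀ x y, w (Multiplicative.ofAdd (u₁ x ⊗ₜ[ℤ] u₂ y)) = C x y := by
    intro x y
    rw [hw]
    show C (s₁ (u₁ x)) (s₂ (u₂ y)) = C x y
    rw [hC3 _ x _ (hs₁ _), hC4 _ _ y (hs₂ _)]
  let C₀ : Subgroup Δ := (τ.ker.subtype.comp w).range
  have hC₀ : ∀ c, c ∈ C₀ → c ∈ Subgroup.center Δ := by
    rintro _ ⟨s, rfl⟩
    exact hτc (w s).2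
  haveI hC₀n : C₀.Normal := ⟨fun n hn g => by
    rw [Subgroup.mem_center_iff.mp (hC₀ n hn) g, mul_inv_cancel_right]; exact hn⟩
  have hmem : ∀ (x : τ₂.ker) (y : τ₁.ker), (x : Δ) * (y : Δ) * (x : Δ)⁻¹ * (y : Δ)⁻¹ ∈ C₀ := by
    intro x y
    refine ⟨Multiplicative.ofAdd (u₁ x ⊗ₜ[ℤ] u₂ y), ?_⟩
    show ((w (Multiplicative.ofAdd (u₁ x ⊗ₜ[ℤ] u₂ y)) : τ.ker) : Δ) = _
    rw [hwC]
  have hcomm : ∀ (x : τ₂.ker) (y : τ₁.ker),
      (QuotientGroup.mk' C₀) (x : Δ) * (QuotientGroup.mk' C₀) (y : Δ) =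
        (QuotientGroup.mk' C₀) (y : Δ) * (QuotientGroup.mk' C₀) (x : Δ) := by
    intro x y
    rw [← map_mul, ← map_mul]
    symm
    show ((((y : Δ) * (x : Δ) : Δ)) : Δ ⧸ C₀) = (((x : Δ) * (y : Δ) : Δ) : Δ ⧸ C₀)
    apply QuotientGroup.eq.mpr
    have h := hmem x⁻¹ y⁻¹
    have e : ((y : Δ) * (x : Δ))⁻¹ * ((x : Δ) * (y : Δ)) =
        ((x⁻¹ : τ₂.ker) : Δ) * ((y⁻¹ : τ₁.ker) : Δ) * ((x⁻¹ : τ₂.ker) : Δ)⁻¹ *
          ((y⁻¹ : τ₁.ker) : Δ)⁻¹ := by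
      rw [Subgroup.coe_inv, Subgroup.coe_inv]; group
    rw [e]; exact h
  let μ : τ₂.ker × τ₁.ker →* Δ ⧸ C₀ :=
    MonoidHom.noncommCoprod ((QuotientGroup.mk' C₀).comp τ₂.ker.subtype)
      ((QuotientGroup.mk' C₀).comp τ₁.ker.subtype) (fun x y => hcomm x y)
  have hμ : ∀ z, μ z = (QuotientGroup.mk' C₀) (z.1 : Δ) * (QuotientGroup.mk' C₀) (z.2 : Δ) :=
    fun _ => rfl
  have hμs : Function.Surjective μ := by
    intro d
    obtain ⟨δ, rfl⟩ := QuotientGroup.mk'_surjective C₀ d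
    obtain ⟨δ₁, hδ₁⟩ := hτs ((τ δ).1, 1)
    have h1 : δ₁ ∈ τ₂.ker := by rw [MonoidHom.mem_ker, hτ₂, hδ₁]
    have h2 : δ₁⁻¹ * δ ∈ τ₁.ker := by
      rw [MonoidHom.mem_ker, map_mul, map_inv, hτ₁, hτ₁, hδ₁, inv_mul_cancel]
    refine ⟨(⟨δ₁, h1⟩, ⟨δ₁⁻¹ * δ, h2⟩), ?_⟩
    rw [hμ, ← map_mul]
    congr 1
    show δ₁ * (δ₁⁻¹ * δ) = δ
    group
  have hdec : ∀ t, t ∈ commutator Δ → ∃ (x : τ₂.ker) (y : τ₁.ker)
      (s : Multiplicative
        (TensorProduct ℤ (Additive (Abelianization Q₁)) (Additive (Abelianization Q₂)))),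
      x ∈ commutator τ₂.ker ∧ y ∈ commutator τ₁.ker ∧
        t = (x : Δ) * (y : Δ) * ((w s : τ.ker) : Δ) := by
    intro t ht
    have h00 : (QuotientGroup.mk' C₀) t ∈ Subgroup.map (QuotientGroup.mk' C₀) (commutator Δ) :=
      ⟨t, ht, rfl⟩
    rw [commutator_def, Subgroup.map_commutator,
      Subgroup.map_top_of_surjective _ (QuotientGroup.mk'_surjective C₀), ← commutator_def] at h00
    have h1 : (QuotientGroup.mk' C₀) t ∈ Subgroup.map μ (commutator (τ₂.ker × τ₁.ker)) := by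
      rw [commutator_def, Subgroup.map_commutator, Subgroup.map_top_of_surjective μ hμs,
        ← commutator_def]
      exact h00
    obtain ⟨z, hz, hzt⟩ := h1
    have h5 : ((z.1 : Δ) * (z.2 : Δ))⁻¹ * t ∈ C₀ := by
      apply QuotientGroup.eq.mp
      rw [hμ, ← map_mul] at hzt
      exact hzt
    obtain ⟨s, hs⟩ := h5
    refine ⟨z.1, z.2, s, ?_, ?_, ?_⟩
    · have h2 : (MonoidHom.fst τ₂.ker τ₁.ker) z ∈
          Subgroup.map (MonoidHom.fst τ₂.ker τ₁.ker) (commutator (τ₂.ker × τ₁.ker)) :=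
        ⟨z, hz, rfl⟩
      rw [commutator_def, Subgroup.map_commutator] at h2
      exact Subgroup.commutator_mono le_top le_top h2
    · have h2 : (MonoidHom.snd τ₂.ker τ₁.ker) z ∈
          Subgroup.map (MonoidHom.snd τ₂.ker τ₁.ker) (commutator (τ₂.ker × τ₁.ker)) :=
        ⟨z, hz, rfl⟩
      rw [commutator_def, Subgroup.map_commutator] at h2
      exact Subgroup.commutator_mono le_top le_top h2
    · have hs' : ((w s : τ.ker) : Δ) = ((z.1 : Δ) * (z.2 : Δ))⁻¹ * t := hs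
      rw [hs']; group
  let φ₁' : A →* τ.ker := MonoidHom.mk' (fun a => ⟨((φ₁ a : τ₂.ker) : Δ), hφ₁T a⟩)
    (fun a a' => Subtype.ext (by
      show ((φ₁ (a * a') : τ₂.ker) : Δ) = ((φ₁ a : τ₂.ker) : Δ) * ((φ₁ a' : τ₂.ker) : Δ)
      rw [map_mul]; rfl))
  let φ₂' : B →* τ.ker := MonoidHom.mk' (fun b => ⟨((φ₂ b : τ₁.ker) : Δ), hφ₂T b⟩)
    (fun b b' => Subtype.ext (by
      show ((φ₂ (b * b') : τ₁.ker) : Δ) = ((φ₂ b : τ₁.ker) : Δ) * ((φ₂ b' : τ₁.ker) : Δ)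
      rw [map_mul]; rfl))
  obtain ⟨π, hπ⟩ := coprod3 hK φ₁' φ₂' w
  refine ⟨π, ?_⟩
  intro t
  obtain ⟨x, y, s, hx, hy, hxy⟩ := hdec t.1 (hτd t.2)
  have ht := (hkerτ t.1).mp t.2
  have hws := (hkerτ (w s).1).mp (w s).2
  have hx1 : x ∈ p₁.ker := by
    rw [MonoidHom.mem_ker, hp₁]
    have h := ht.1
    rw [hxy, map_mul, map_mul, MonoidHom.mem_ker.mp y.2, hws.1, mul_one, mul_one] at h
    exact h
  have hy1 : y ∈ p₂.ker := by
    rw [MonoidHom.mem_ker, hp₂]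
    have h := ht.2
    rw [hxy, map_mul, map_mul, MonoidHom.mem_ker.mp x.2, hws.2, one_mul, mul_one] at h
    exact h
  obtain ⟨a, ha⟩ := hφ₁s x hx1 hx
  obtain ⟨b, hb⟩ := hφ₂s y hy1 hy
  refine ⟨(a, b, s), Subtype.ext ?_⟩
  rw [hπ]
  show ((φ₁ a : τ₂.ker) : Δ) * ((φ₂ b : τ₁.ker) : Δ) * ((w s : τ.ker) : Δ) = t.1
  rw [ha, hb, hxy]

/-- Let `Q₁` and `Q₂` be finite groups with Schur multipliers `A` and `B`. Then the Schur multiplier of `Q₁ × Q₂` is isomorphic to `A × B × (Q₁ᵃᵇ ⊗ Q₂ᵃᵇ)`, the last factor being the tensor product over the integers of the commutator quotients, written multiplicatively. -/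
theorem result {Q₁ : Type u} {Q₂ : Type v} [Group Q₁] [Group Q₂] [Finite Q₁] [Finite Q₂] {A B : Type w} [CommGroup A] [CommGroup B] (hA : Cfsg.HasSchurMultiplier Q₁ A) (hB : Cfsg.HasSchurMultiplier Q₂ B) : Cfsg.HasSchurMultiplier (Q₁ × Q₂) (A × B × Multiplicative (TensorProduct ℤ (Additive (Abelianization Q₁)) (Additive (Abelianization Q₂)))) := by
  exact ⟨part1 hA hB, fun Δ _ _ τ hτ => part2 hA hB Δ τ hτ⟩

end Cfsg.Agent.S3959
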