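import Mathlib
import Cfsg.Statements.S3962

set_option autoImplicit false
open Cfsg

namespace Cfsg.Agent.S3962

/-- Let `G` be a perfect group and `π : G →* Q` a surjective homomorphism whose kernel is central. Then `π` maps the centre of `G` onto the centre of `Q`. Taking `π` to be the map to `G ⧸ Z(G)` shows that the central quotient of a perfect group has trivial centre. -/
theorem result {G Q : Type*} [Group G] [Group Q] (hG : Group.IsPerfect G) (π : G →* Q) (hπ : Function.Surjective π) (hker : π.ker ≤ Subgroup.center G) : (Subgroup.center G).map π = Subgroup.center Q := by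
  apply le_antisymm
  · rintro _ ⟨z, hz, rfl⟩
    rw [Subgroup.mem_center_iff]
    intro q
    obtain ⟨x, rfl⟩ := hπ q
    rw [← map_mul, ← map_mul, (Subgroup.mem_center_iff.mp hz) x]
  · intro q hq
    obtain ⟨g, rfl⟩ := hπ q
    refine ⟨g, ?_, rfl⟩
    -- for every x, g x g⁻¹ x⁻¹ is central
    have hcent : ∀ x : G, g * x * g⁻¹ * x⁻¹ ∈ Subgroup.center G := by
      intro x
      apply hker
      rw [MonoidHom.mem_ker]
      have h := (Subgroup.mem_center_iff.mp hq) (π x)
      simp only [map_mul, map_inv]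
      rw [← h]
      simp
    have hcomm : commutator G ≤ Subgroup.centralizer {g} := by
      rw [commutator_def, Subgroup.commutator_le]
      intro x _ y _
      rw [Subgroup.mem_centralizer_iff]
      intro h hh
      rw [Set.mem_singleton_iff] at hh
      subst hh
      -- g x g⁻¹ = z x, g y g⁻¹ = w y
      set z := h * x * h⁻¹ * x⁻¹ with hz
      set w := h * y * h⁻¹ * y⁻¹ with hw
      have hzc := Subgroup.mem_center_iff.mp (hcent x)
      have hwc := Subgroup.mem_center_iff.mp (hcent y)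
      have hx : h * x = z * x * h := by rw [hz]; group
      have hy : h * y = w * y * h := by rw [hw]; group
      have hxi : h * x⁻¹ = x⁻¹ * z⁻¹ * h := by rw [hz]; group
      have hyi : h * y⁻¹ = y⁻¹ * w⁻¹ * h := by rw [hw]; group
      rw [commutatorElement_def]
      have hzi : ∀ a : G, a * z⁻¹ = z⁻¹ * a := by
        intro a
        have := hzc a
        calc a * z⁻¹ = z⁻¹ * (z * a) * z⁻¹ := by group
          _ = z⁻¹ * (a * z) * z⁻¹ := by rw [this]
          _ = z⁻¹ * a := by group
      have hwi : ∀ a : G, a * w⁻¹ = w⁻¹ * a := by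
        intro a
        have := hwc a
        calc a * w⁻¹ = w⁻¹ * (w * a) * w⁻¹ := by group
          _ = w⁻¹ * (a * w) * w⁻¹ := by rw [this]
          _ = w⁻¹ * a := by group
      calc h * (x * y * x⁻¹ * y⁻¹) = (h * x) * y * x⁻¹ * y⁻¹ := by group
        _ = z * x * (h * y) * x⁻¹ * y⁻¹ := by rw [hx]; group
        _ = z * x * w * y * (h * x⁻¹) * y⁻¹ := by rw [hy]; group
        _ = z * x * w * y * x⁻¹ * z⁻¹ * (h * y⁻¹) := by rw [hxi]; group
        _ = z * x * w * y * x⁻¹ * z⁻¹ * y⁻¹ * w⁻¹ * h := by rw [hyi]; group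
        _ = z * (x * w) * y * x⁻¹ * (z⁻¹ * y⁻¹) * w⁻¹ * h := by group
        _ = z * (w * x) * y * x⁻¹ * (y⁻¹ * z⁻¹) * w⁻¹ * h := by rw [hwc x, hzi y⁻¹]
        _ = (z * w) * (x * y * x⁻¹ * y⁻¹) * (z⁻¹ * w⁻¹) * h := by group
        _ = (z * w) * ((x * y * x⁻¹ * y⁻¹) * z⁻¹) * w⁻¹ * h := by group
        _ = (z * w) * (z⁻¹ * (x * y * x⁻¹ * y⁻¹)) * w⁻¹ * h := by rw [hzi]
        _ = z * (w * z⁻¹) * ((x * y * x⁻¹ * y⁻¹) * w⁻¹) * h := by group
        _ = z * (z⁻¹ * w) * (w⁻¹ * (x * y * x⁻¹ * y⁻¹)) * h := by rw [hzi w, hwi]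
        _ = x * y * x⁻¹ * y⁻¹ * h := by group
    have htop : Subgroup.centralizer {g} = ⊤ := by
      rw [eq_top_iff, ← hG.commutator_eq_top]
      exact hcomm
    show g ∈ Subgroup.center G
    rw [Subgroup.mem_center_iff]
    intro a
    have ha : a ∈ Subgroup.centralizer {g} := by rw [htop]; trivial
    exact (Subgroup.mem_centralizer_iff.mp ha g rfl).symm

end Cfsg.Agent.S3962
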