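import Mathlib
import Cfsg.Statements.S3963
import Cfsg.Agent.Helper20.Schur

set_option autoImplicit false
open Cfsg

namespace Cfsg.Agent.S3963

open QuaternionGroup

theorem inv_xa' (n : ℕ) (i : ZMod (2 * n)) : (xa i : QuaternionGroup n)⁻¹ = xa ((n : ZMod (2 * n)) + i) := rfl

theorem inv_a' (n : ℕ) (i : ZMod (2 * n)) : (a i : QuaternionGroup n)⁻¹ = a (-i) := rfl

theorem two_n_zero (n : ℕ) : ((n : ZMod (2 * n)) + n) = 0 := by
  have : ((2 * n : ℕ) : ZMod (2 * n)) = 0 := ZMod.natCast_self (2 * n)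
  push_cast at this
  linear_combination this

theorem quat_cover (n : ℕ) [NeZero n] : ∀ q : QuaternionGroup n, q ∈ Subgroup.zpowers (a 1 : QuaternionGroup n) ∨
    q * (xa 0 : QuaternionGroup n)⁻¹ ∈ Subgroup.zpowers (a 1 : QuaternionGroup n) := by
  intro q
  cases q with
  | a i =>
    left
    rw [Subgroup.mem_zpowers_iff]
    refine ⟨(i.val : ℤ), ?_⟩
    rw [zpow_natCast, a_one_pow, ZMod.natCast_zmod_val]
  | xa i =>
    right
    rw [Subgroup.mem_zpowers_iff, inv_xa', xa_mul_xa]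
    refine ⟨(((n : ZMod (2 * n)) + (n + 0) - i).val : ℤ), ?_⟩
    rw [zpow_natCast, a_one_pow, ZMod.natCast_zmod_val]

theorem quat_inv (n : ℕ) : (xa 0 : QuaternionGroup n) * a 1 * (xa 0)⁻¹ = (a 1)⁻¹ := by
  rw [inv_xa', xa_mul_a, xa_mul_xa, inv_a']
  congr 1
  linear_combination two_n_zero n

theorem double_eq_zero (n : ℕ) [NeZero n] (i : ZMod (2 * n)) (h : i + i = 0) : i = 0 ∨ i = n := by
  have hn : 0 < n := Nat.pos_of_ne_zero (NeZero.ne n)
  have hv : i.val < 2 * n := ZMod.val_lt i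
  have h1 : ((i.val + i.val : ℕ) : ZMod (2 * n)) = 0 := by
    push_cast
    rw [ZMod.natCast_zmod_val, h]
  rw [ZMod.natCast_eq_zero_iff] at h1
  obtain ⟨k, hk⟩ := h1
  have hk' : i.val = n * k := by nlinarith
  have hk2 : k < 2 := by
    by_contra hcon
    rw [not_lt] at hcon
    nlinarith
  have hi : i = ((i.val : ℕ) : ZMod (2 * n)) := (ZMod.natCast_zmod_val i).symm
  interval_cases k
  · left
    rw [hi, hk']
    simp
  · right
    rw [hi, hk']
    simp

/-- For every `n ≥ 1` the dicyclic (generalized quaternion) group of order `4 n` has trivial Schur multiplier. -/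
theorem result (n : ℕ) [NeZero n] : Cfsg.HasCyclicSchurMultiplier (QuaternionGroup n) 1 := by
  apply Cfsg.Agent.Helper20.hasCyclicSchurMultiplier_one_of_forall_ker_eq_bot
  intro Γ _ _ σ hσ
  obtain ⟨τ, hτ⟩ := hσ.1 (xa 0)
  rw [eq_bot_iff]
  intro z hz
  obtain ⟨b, hb, hb2, hzb⟩ := Cfsg.Agent.Helper20.ker_eq_comm σ hσ (a 1)
    (xa 0) (quat_cover n) (quat_inv n) τ hτ z hz
  rw [Subgroup.mem_bot, hzb]
  have hn : 0 < n := Nat.pos_of_ne_zero (NeZero.ne n)
  cases hq : σ b with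
  | a i =>
    rw [hq, sq, a_mul_a, one_def, a.injEq] at hb2
    rcases double_eq_zero n i hb2 with h0 | hn'
    · have hb1 : σ b = σ 1 := by rw [hq, h0, map_one, one_def]
      rw [Cfsg.Agent.Helper20.comm_eq_of_map_eq σ hσ.2.1 τ b 1 hb1]
      group
    · have hb1 : σ b = σ (τ ^ 2) := by rw [hq, hn', map_pow, hτ, xa_sq]
      rw [Cfsg.Agent.Helper20.comm_eq_of_map_eq σ hσ.2.1 τ b (τ ^ 2) hb1]
      group
  | xa i =>
    exfalso
    rw [hq, xa_sq, one_def, a.injEq] at hb2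
    have h1 : ((n : ℕ) : ZMod (2 * n)) = 0 := hb2
    rw [ZMod.natCast_eq_zero_iff] at h1
    have := Nat.le_of_dvd hn h1
    omega

end Cfsg.Agent.S3963
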