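import Mathlib
import Cfsg.Statements.S3964
import Cfsg.Agent.Helper20.Schur

set_option autoImplicit false
open Cfsg

namespace Cfsg.Agent.S3964

open DihedralGroup in
theorem dih_cover (n : ℕ) : ∀ q : DihedralGroup n, q ∈ Subgroup.zpowers (r 1 : DihedralGroup n) ∨
    q * (sr 0 : DihedralGroup n)⁻¹ ∈ Subgroup.zpowers (r 1 : DihedralGroup n) := by
  intro q
  cases q with
  | r i =>
    left
    rw [Subgroup.mem_zpowers_iff]
    exact ⟨(i.cast : ℤ), by rw [r_one_zpow, ZMod.intCast_zmod_cast]⟩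
  | sr i =>
    right
    rw [Subgroup.mem_zpowers_iff]
    refine ⟨((-i).cast : ℤ), ?_⟩
    rw [r_one_zpow, ZMod.intCast_zmod_cast, inv_sr, sr_mul_sr]
    simp

open DihedralGroup in
theorem dih_inv (n : ℕ) : (sr 0 : DihedralGroup n) * r 1 * (sr 0)⁻¹ = (r 1)⁻¹ := by
  rw [inv_sr, sr_mul_r, sr_mul_sr, inv_r]
  simp

/-- For odd `n` the dihedral group of order `2 n` has trivial Schur multiplier. -/
theorem result (n : ℕ) (hn : Odd n) : Cfsg.HasCyclicSchurMultiplier (DihedralGroup n) 1 := by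
  have hn0 : NeZero n := ⟨by rintro rfl; simp at hn⟩
  apply Cfsg.Agent.Helper20.hasCyclicSchurMultiplier_one_of_forall_ker_eq_bot
  intro Γ _ _ σ hσ
  obtain ⟨τ, hτ⟩ := hσ.1 (DihedralGroup.sr 0)
  rw [eq_bot_iff]
  intro z hz
  obtain ⟨b, hb, hb2, hzb⟩ := Cfsg.Agent.Helper20.ker_eq_comm σ hσ (DihedralGroup.r 1)
    (DihedralGroup.sr 0) (dih_cover n) (dih_inv n) τ hτ z hz
  obtain ⟨k, hk⟩ := Subgroup.mem_zpowers_iff.mp hb
  rw [DihedralGroup.r_one_zpow] at hk
  rw [← hk, DihedralGroup.r_pow, DihedralGroup.one_def, DihedralGroup.r.injEq] at hb2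
  have hk0 : ((k : ℤ) : ZMod n) = 0 := by
    obtain ⟨m, hm⟩ := hn
    have h2 : (2 : ZMod n) * ((m : ZMod n) + 1) = 1 := by
      have : ((2 * m + 1 : ℕ) : ZMod n) = 0 := by rw [← hm]; exact ZMod.natCast_self n
      push_cast at this
      linear_combination this
    calc ((k : ℤ) : ZMod n) = ((k : ℤ) : ZMod n) * ((2 : ℕ) : ZMod n) * ((m : ZMod n) + 1) := by
          push_cast; rw [mul_assoc, h2, mul_one]
      _ = 0 := by rw [hb2, zero_mul]
  have hb1 : σ b = σ 1 := by rw [← hk, hk0, map_one, DihedralGroup.one_def]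
  have := Cfsg.Agent.Helper20.comm_eq_of_map_eq σ hσ.2.1 τ b 1 hb1
  rw [Subgroup.mem_bot, hzb, this]
  group

end Cfsg.Agent.S3964
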