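import Mathlib
import Cfsg.Statements.S3966

set_option autoImplicit false
open Cfsg

namespace Cfsg.Agent.S3966

open QuaternionGroup DihedralGroup
open scoped commutatorElement

/-- The reduction map `ZMod (2 n) →+* ZMod n`. -/
noncomputable def red (n : ℕ) : ZMod (2 * n) →+* ZMod n := ZMod.castHom (dvd_mul_left n 2) (ZMod n)

theorem red_n (n : ℕ) : red n (n : ZMod (2 * n)) = 0 := by
  rw [map_natCast]; exact ZMod.natCast_self n

/-- The underlying map of the covering `QuaternionGroup n → DihedralGroup n`. -/
noncomputable def covFun (n : ℕ) : QuaternionGroup n → DihedralGroup n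
  | QuaternionGroup.a i => DihedralGroup.r (red n i)
  | QuaternionGroup.xa i => DihedralGroup.sr (red n i)

/-- The covering `QuaternionGroup n →* DihedralGroup n`. -/
noncomputable def cov (n : ℕ) : QuaternionGroup n →* DihedralGroup n where
  toFun := covFun n
  map_one' := by
    show DihedralGroup.r (red n 0) = 1
    rw [map_zero, DihedralGroup.r_zero]
  map_mul' := by
    rintro (i | i) (j | j)
    · simp [covFun]
    · simp [covFun]
    · simp [covFun]
    · simp [covFun]

theorem cov_a (n : ℕ) (i : ZMod (2 * n)) : cov n (QuaternionGroup.a i) = DihedralGroup.r (red n i) := rfl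
theorem cov_xa (n : ℕ) (i : ZMod (2 * n)) : cov n (QuaternionGroup.xa i) = DihedralGroup.sr (red n i) := rfl

theorem two_n_zero (n : ℕ) : ((n : ZMod (2 * n)) + n) = 0 := by
  have : ((2 * n : ℕ) : ZMod (2 * n)) = 0 := ZMod.natCast_self (2 * n)
  push_cast at this
  linear_combination this

theorem red_eq_zero (n : ℕ) [NeZero n] (i : ZMod (2 * n)) (h : red n i = 0) : i = 0 ∨ i = n := by
  have hn : 0 < n := Nat.pos_of_ne_zero (NeZero.ne n)
  have hv : i.val < 2 * n := ZMod.val_lt i
  have hi : i = ((i.val : ℕ) : ZMod (2 * n)) := (ZMod.natCast_zmod_val i).symm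
  have h1 : ((i.val : ℕ) : ZMod n) = 0 := by
    rw [← h, hi, map_natCast, ZMod.val_natCast, Nat.mod_eq_of_lt hv]
  rw [ZMod.natCast_eq_zero_iff] at h1
  obtain ⟨k, hk⟩ := h1
  have hk2 : k < 2 := by
    by_contra hcon
    rw [not_lt] at hcon
    nlinarith
  interval_cases k
  · left
    rw [hi, hk]
    simp
  · right
    rw [hi, hk]
    simp

theorem mem_ker_iff (n : ℕ) [NeZero n] (x : QuaternionGroup n) :
    x ∈ (cov n).ker ↔ x = 1 ∨ x = QuaternionGroup.a n := by
  rw [MonoidHom.mem_ker]
  constructor
  · intro h
    cases x with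
    | a i =>
      rw [cov_a, DihedralGroup.one_def, DihedralGroup.r.injEq] at h
      rcases red_eq_zero n i h with h0 | h1
      · left; rw [h0, QuaternionGroup.one_def]
      · right; rw [h1]
    | xa i =>
      rw [cov_xa, DihedralGroup.one_def] at h
      cases h
  · rintro (rfl | rfl)
    · exact map_one _
    · rw [cov_a, red_n, DihedralGroup.one_def]

theorem a_n_ne_one (n : ℕ) [NeZero n] : (QuaternionGroup.a (n : ZMod (2 * n)) : QuaternionGroup n) ≠ 1 := by
  have hn : 0 < n := Nat.pos_of_ne_zero (NeZero.ne n)
  rw [QuaternionGroup.one_def]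
  intro h
  rw [QuaternionGroup.a.injEq, ZMod.natCast_eq_zero_iff] at h
  have := Nat.le_of_dvd hn h
  omega

/-- For even `n ≥ 2` the dicyclic group of order `4 n` is a stem extension of the dihedral group of order `2 n` with kernel of order `2`: there is a surjective homomorphism `QuaternionGroup n →* DihedralGroup n` whose kernel is central, lies in the commutator subgroup and has two elements. Together with the order of the multiplier this exhibits the dicyclic group as a Schur covering group of the dihedral group. -/
theorem result (n : ℕ) [NeZero n] (hn : Even n) : ∃ σ : QuaternionGroup n →* DihedralGroup n, Cfsg.IsStemExtension σ ∧ Nat.card σ.ker = 2 := by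
  refine ⟨cov n, ⟨?_, ?_, ?_⟩, ?_⟩
  · -- surjective
    intro y
    cases y with
    | r i =>
      obtain ⟨j, hj⟩ := ZMod.ringHom_surjective (red n) i
      exact ⟨QuaternionGroup.a j, by rw [cov_a, hj]⟩
    | sr i =>
      obtain ⟨j, hj⟩ := ZMod.ringHom_surjective (red n) i
      exact ⟨QuaternionGroup.xa j, by rw [cov_xa, hj]⟩
  · -- central
    intro x hx
    rw [mem_ker_iff] at hx
    rcases hx with rfl | rfl
    · exact one_mem _
    · rw [Subgroup.mem_center_iff]
      rintro (j | j)
      · simp [add_comm]
      · simp only [QuaternionGroup.xa_mul_a, QuaternionGroup.a_mul_xa, QuaternionGroup.xa.injEq]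
        linear_combination two_n_zero n
  · -- in the commutator subgroup
    intro x hx
    rw [mem_ker_iff] at hx
    rcases hx with rfl | rfl
    · exact one_mem _
    · obtain ⟨m, hm⟩ := hn
      have hcomm : ⁅(QuaternionGroup.xa 0 : QuaternionGroup n), QuaternionGroup.a (-(m : ZMod (2 * n)))⁆
          = QuaternionGroup.a (n : ZMod (2 * n)) := by
        rw [commutatorElement_def]
        have h1 : (QuaternionGroup.xa 0 : QuaternionGroup n)⁻¹ = QuaternionGroup.xa ((n : ZMod (2 * n)) + 0) := rfl
        have h2 : (QuaternionGroup.a (-(m : ZMod (2 * n))) : QuaternionGroup n)⁻¹ = QuaternionGroup.a (-(-(m : ZMod (2 * n)))) := rfl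
        rw [h1, h2, QuaternionGroup.xa_mul_a, QuaternionGroup.xa_mul_xa, QuaternionGroup.a_mul_a,
          QuaternionGroup.a.injEq]
        have hnm : (n : ZMod (2 * n)) = (m : ZMod (2 * n)) + m := by rw [hm]; push_cast; rfl
        linear_combination two_n_zero n - hnm
      rw [← hcomm, commutator_def]
      exact Subgroup.commutator_mem_commutator (Subgroup.mem_top _) (Subgroup.mem_top _)
  · -- the kernel has two elements
    have hker : (cov n).ker = Subgroup.zpowers (QuaternionGroup.a (n : ZMod (2 * n)) : QuaternionGroup n) := by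
      ext x
      rw [mem_ker_iff]
      constructor
      · rintro (rfl | rfl)
        · exact one_mem _
        · exact Subgroup.mem_zpowers _
      · intro hx
        obtain ⟨k, rfl⟩ := Subgroup.mem_zpowers_iff.mp hx
        have hsq : (QuaternionGroup.a (n : ZMod (2 * n)) : QuaternionGroup n) ^ (2 : ℤ) = 1 := by
          rw [zpow_ofNat, sq, QuaternionGroup.a_mul_a, two_n_zero, QuaternionGroup.a_zero]
        rcases Int.emod_two_eq_zero_or_one k with h0 | h1
        · left
          obtain ⟨j, hj⟩ : (2 : ℤ) ∣ k := Int.dvd_of_emod_eq_zero h0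
          rw [hj, zpow_mul, hsq, one_zpow]
        · right
          have : k = 2 * (k / 2) + 1 := by omega
          rw [this, zpow_add, zpow_mul, hsq, one_zpow, one_mul, zpow_one]
    rw [hker, Nat.card_zpowers]
    exact orderOf_eq_prime (by rw [sq, QuaternionGroup.a_mul_a, two_n_zero, QuaternionGroup.a_zero])
      (a_n_ne_one n)

end Cfsg.Agent.S3966
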