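import Mathlib
import Cfsg.Statements.S3965
import Cfsg.Agent.Helper20.Schur
import Cfsg.Agent.S3964
import Cfsg.Agent.S3966

set_option autoImplicit false
open Cfsg

namespace Cfsg.Agent.S3965

theorem double_eq_zero' (n : ℕ) [NeZero n] (m : ℕ) (hm : n = m + m) (i : ZMod n) (h : i + i = 0) :
    i = 0 ∨ i = (m : ZMod n) := by
  have hn : 0 < n := Nat.pos_of_ne_zero (NeZero.ne n)
  have hv : i.val < n := ZMod.val_lt i
  have h1 : ((i.val + i.val : ℕ) : ZMod n) = 0 := by
    push_cast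
    rw [ZMod.natCast_zmod_val, h]
  rw [ZMod.natCast_eq_zero_iff] at h1
  obtain ⟨k, hk⟩ := h1
  have hk' : i.val = m * k := by subst hm; nlinarith
  have hk2 : k < 2 := by
    by_contra hcon
    rw [not_lt] at hcon
    subst hm
    nlinarith
  have hi : i = ((i.val : ℕ) : ZMod n) := (ZMod.natCast_zmod_val i).symm
  interval_cases k
  · left
    rw [hi, hk']
    simp
  · right
    rw [hi, hk']
    simp

/-- For even `n ≥ 2` the dihedral group of order `2 n` has Schur multiplier cyclic of order `2`. -/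
theorem result (n : ℕ) [NeZero n] (hn : Even n) : Cfsg.HasCyclicSchurMultiplier (DihedralGroup n) 2 := by
  apply Cfsg.Agent.Helper20.hasCyclicSchurMultiplier_two
  · obtain ⟨σ, hσ, hcard⟩ := Cfsg.Agent.S3966.result n hn
    exact ⟨QuaternionGroup n, inferInstance, inferInstance, σ, hσ, hcard⟩
  · intro Γ _ _ σ hσ
    obtain ⟨m, hm⟩ := hn
    obtain ⟨τ, hτ⟩ := hσ.1 (DihedralGroup.sr 0)
    obtain ⟨b₀, hb₀⟩ := hσ.1 (DihedralGroup.r (m : ZMod n))
    have hsub : (σ.ker : Set Γ) ⊆ {1, τ * b₀ * τ⁻¹ * b₀⁻¹} := by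
      intro z hz
      obtain ⟨b, hb, hb2, hzb⟩ := Cfsg.Agent.Helper20.ker_eq_comm σ hσ (DihedralGroup.r 1)
        (DihedralGroup.sr 0) (Cfsg.Agent.S3964.dih_cover n) (Cfsg.Agent.S3964.dih_inv n) τ hτ z hz
      obtain ⟨k, hk⟩ := Subgroup.mem_zpowers_iff.mp hb
      rw [DihedralGroup.r_one_zpow] at hk
      rw [← hk, sq, DihedralGroup.r_mul_r, DihedralGroup.one_def, DihedralGroup.r.injEq] at hb2
      rcases double_eq_zero' n m hm _ hb2 with h0 | h1
      · left
        have hb1 : σ b = σ 1 := by rw [← hk, h0, map_one, DihedralGroup.one_def]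
        have := Cfsg.Agent.Helper20.comm_eq_of_map_eq σ hσ.2.1 τ b 1 hb1
        rw [hzb, this]
        group
      · right
        have hb1 : σ b = σ b₀ := by rw [← hk, h1, hb₀]
        have := Cfsg.Agent.Helper20.comm_eq_of_map_eq σ hσ.2.1 τ b b₀ hb1
        rw [Set.mem_singleton_iff, hzb, this]
    have h1 : Nat.card σ.ker = (σ.ker : Set Γ).ncard := (Nat.card_coe_set_eq (σ.ker : Set Γ))
    rw [h1]
    calc (σ.ker : Set Γ).ncard ≤ ({1, τ * b₀ * τ⁻¹ * b₀⁻¹} : Set Γ).ncard :=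
          Set.ncard_le_ncard hsub (Set.toFinite _)
      _ ≤ 2 := Set.ncard_insert_le _ _ |>.trans (by rw [Set.ncard_singleton])

end Cfsg.Agent.S3965
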