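import Mathlib
import Cfsg.Statements.S3967

set_option autoImplicit false
open Cfsg
open scoped commutatorElement

namespace Cfsg.Agent.S3967

/-- pre-model of a metacyclic group: `ZMod M ⋊ ℤ` -/
@[ext] structure Pre (M : ℕ) (u : (ZMod M)ˣ) where
  /-- the cyclic normal coordinate -/
  i : ZMod M
  /-- the acting coordinate -/
  j : ℤ

namespace Pre

variable {M : ℕ} (u : (ZMod M)ˣ)

instance : Mul (Pre M u) :=
  ⟨fun x y => ⟨x.i + ((u ^ x.j : (ZMod M)ˣ) : ZMod M) * y.i, x.j + y.j⟩⟩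
instance : One (Pre M u) := ⟨⟨0, 0⟩⟩
instance : Inv (Pre M u) :=
  ⟨fun x => ⟨-(((u ^ (-x.j) : (ZMod M)ˣ) : ZMod M) * x.i), -x.j⟩⟩

instance : Group (Pre M u) := Group.ofLeftAxioms
  (by
    intro x y z
    apply Pre.ext
    · show x.i + ((u ^ x.j : (ZMod M)ˣ) : ZMod M) * y.i +
          ((u ^ (x.j + y.j) : (ZMod M)ˣ) : ZMod M) * z.i =
        x.i + ((u ^ x.j : (ZMod M)ˣ) : ZMod M) *
          (y.i + ((u ^ y.j : (ZMod M)ˣ) : ZMod M) * z.i)
      rw [zpow_add, Units.val_mul]; ring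
    · exact add_assoc _ _ _)
  (by
    intro x
    apply Pre.ext
    · show (0 : ZMod M) + ((u ^ (0 : ℤ) : (ZMod M)ˣ) : ZMod M) * x.i = x.i
      rw [zpow_zero, Units.val_one, one_mul, zero_add]
    · exact zero_add _)
  (by
    intro x
    apply Pre.ext
    · show -(((u ^ (-x.j) : (ZMod M)ˣ) : ZMod M) * x.i) +
        ((u ^ (-x.j) : (ZMod M)ˣ) : ZMod M) * x.i = 0
      exact neg_add_cancel _
    · exact neg_add_cancel _)

theorem A_pow (k : ℕ) : (⟨1, 0⟩ : Pre M u) ^ k = ⟨(k : ZMod M), 0⟩ := by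
  induction k with
  | zero => rw [pow_zero, Nat.cast_zero]; rfl
  | succ k ih =>
    rw [pow_succ, ih]
    apply Pre.ext
    · show (k : ZMod M) + ((u ^ (0 : ℤ) : (ZMod M)ˣ) : ZMod M) * 1 = ((k + 1 : ℕ) : ZMod M)
      rw [zpow_zero, Units.val_one, one_mul, Nat.cast_succ]
    · show (0 : ℤ) + 0 = 0
      rfl

theorem B_pow (k : ℕ) : (⟨0, 1⟩ : Pre M u) ^ k = ⟨0, (k : ℤ)⟩ := by
  induction k with
  | zero => rw [pow_zero, Nat.cast_zero]; rfl
  | succ k ih =>
    rw [pow_succ, ih]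
    apply Pre.ext
    · show (0 : ZMod M) + ((u ^ (k : ℤ) : (ZMod M)ˣ) : ZMod M) * 0 = 0
      rw [mul_zero, add_zero]
    · show (k : ℤ) + 1 = ((k + 1 : ℕ) : ℤ)
      rw [Nat.cast_succ]

theorem AB (i j : ℕ) :
    (⟨1, 0⟩ : Pre M u) ^ i * (⟨0, 1⟩ : Pre M u) ^ j = ⟨(i : ZMod M), (j : ℤ)⟩ := by
  rw [A_pow, B_pow]
  apply Pre.ext
  · show (i : ZMod M) + ((u ^ (0 : ℤ) : (ZMod M)ˣ) : ZMod M) * 0 = i
    rw [mul_zero, add_zero]
  · show (0 : ℤ) + j = j
    exact zero_add _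

theorem zpow_mul_T (T : ZMod M) (hT : (u : ZMod M) * T = T) (j : ℤ) :
    ((u ^ j : (ZMod M)ˣ) : ZMod M) * T = T := by
  have hinv : ((u⁻¹ : (ZMod M)ˣ) : ZMod M) * T = T := by
    conv_lhs => rw [← hT]
    rw [← mul_assoc, ← Units.val_mul, inv_mul_cancel, Units.val_one, one_mul]
  induction j using Int.induction_on with
  | zero => rw [zpow_zero, Units.val_one, one_mul]
  | succ k ih => rw [zpow_add_one, Units.val_mul, mul_assoc, hT, ih]
  | pred k ih => rw [zpow_sub_one, Units.val_mul, mul_assoc, hinv, ih]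

/-- the central cyclic subgroup to be factored out -/
def zeta (n : ℕ) (T : ZMod M) (hun : u ^ n = 1) : Multiplicative ℤ →* Pre M u :=
  MonoidHom.mk' (fun k => ⟨-((Multiplicative.toAdd k : ℤ) : ZMod M) * T,
    Multiplicative.toAdd k * n⟩) (by
    intro k k'
    apply Pre.ext
    · show -((Multiplicative.toAdd (k * k') : ℤ) : ZMod M) * T =
        -((Multiplicative.toAdd k : ℤ) : ZMod M) * T +
          ((u ^ (Multiplicative.toAdd k * (n : ℤ)) : (ZMod M)ˣ) : ZMod M) *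
            (-((Multiplicative.toAdd k' : ℤ) : ZMod M) * T)
      have h1 : u ^ (Multiplicative.toAdd k * (n : ℤ)) = 1 := by
        rw [mul_comm, zpow_mul, zpow_natCast, hun, one_zpow]
      rw [h1, Units.val_one, one_mul, toAdd_mul, Int.cast_add]; ring
    · show Multiplicative.toAdd (k * k') * (n : ℤ) =
        Multiplicative.toAdd k * n + Multiplicative.toAdd k' * n
      rw [toAdd_mul, add_mul])

theorem zeta_central (n : ℕ) (T : ZMod M) (hun : u ^ n = 1) (hT : (u : ZMod M) * T = T)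
    (k : Multiplicative ℤ) (x : Pre M u) : zeta u n T hun k * x = x * zeta u n T hun k := by
  apply Pre.ext
  · show -((Multiplicative.toAdd k : ℤ) : ZMod M) * T +
        ((u ^ (Multiplicative.toAdd k * (n : ℤ)) : (ZMod M)ˣ) : ZMod M) * x.i =
      x.i + ((u ^ x.j : (ZMod M)ˣ) : ZMod M) * (-((Multiplicative.toAdd k : ℤ) : ZMod M) * T)
    have h1 : u ^ (Multiplicative.toAdd k * (n : ℤ)) = 1 := by
      rw [mul_comm, zpow_mul, zpow_natCast, hun, one_zpow]
    have h2 := zpow_mul_T u T hT x.j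
    rw [h1, Units.val_one, one_mul]
    calc -((Multiplicative.toAdd k : ℤ) : ZMod M) * T + x.i
        = x.i + (-((Multiplicative.toAdd k : ℤ) : ZMod M)) *
            (((u ^ x.j : (ZMod M)ˣ) : ZMod M) * T) := by rw [h2]; ring
      _ = _ := by ring
  · show Multiplicative.toAdd k * (n : ℤ) + x.j = x.j + Multiplicative.toAdd k * n
    exact add_comm _ _

theorem zeta_normal (n : ℕ) (T : ZMod M) (hun : u ^ n = 1) (hT : (u : ZMod M) * T = T) :
    (zeta u n T hun).range.Normal := by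
  refine ⟨fun x hx g => ?_⟩
  obtain ⟨k, rfl⟩ := hx
  rw [← zeta_central u n T hun hT k g, mul_inv_cancel_right]
  exact ⟨k, rfl⟩

end Pre

/-- a concrete model of the metacyclic group with parameters `M, n, R, T` -/
theorem model (M n R T : ℕ) (hn : 0 < n) (hR : (R : ZMod M) ^ n = 1)
    (hT : (R : ZMod M) * (T : ZMod M) = T) :
    ∃ (X : Type) (_ : Group X) (α β : X), α ^ M = 1 ∧ β * α * β⁻¹ = α ^ R ∧ β ^ n = α ^ T ∧
      ∀ i j : ℕ, α ^ i * β ^ j = 1 → ∃ k : ℕ, j = k * n ∧ M ∣ i + k * T := by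
  let u : (ZMod M)ˣ := Units.ofPowEqOne (R : ZMod M) n hR hn.ne'
  have hu : (u : ZMod M) = R := Units.val_ofPowEqOne _ _ _ _
  have hun : u ^ n = 1 := Units.pow_ofPowEqOne _ _
  have hT' : (u : ZMod M) * (T : ZMod M) = T := by rw [hu]; exact hT
  haveI := Pre.zeta_normal u n (T : ZMod M) hun hT'
  let q : Pre M u →* Pre M u ⧸ (Pre.zeta u n (T : ZMod M) hun).range := QuotientGroup.mk' _
  have hq1 : ∀ x, q x = 1 ↔ x ∈ (Pre.zeta u n (T : ZMod M) hun).range :=
    fun x => QuotientGroup.eq_one_iff x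
  refine ⟨Pre M u ⧸ (Pre.zeta u n (T : ZMod M) hun).range, inferInstance, q ⟨1, 0⟩, q ⟨0, 1⟩,
    ?_, ?_, ?_, ?_⟩
  · rw [← map_pow, Pre.A_pow, ZMod.natCast_self]
    exact map_one q
  · rw [← map_inv, ← map_mul, ← map_mul, ← map_pow, Pre.A_pow]
    congr 1
    apply Pre.ext
    · show (0 : ZMod M) + ((u ^ (1 : ℤ) : (ZMod M)ˣ) : ZMod M) * 1 +
        ((u ^ ((1 : ℤ) + 0) : (ZMod M)ˣ) : ZMod M) *
          (-(((u ^ (-(1 : ℤ)) : (ZMod M)ˣ) : ZMod M) * 0)) = (R : ZMod M)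
      rw [mul_zero, neg_zero, mul_zero, add_zero, zero_add, zpow_one, mul_one, hu]
    · show (1 : ℤ) + 0 + -1 = 0
      norm_num
  · rw [← map_pow, ← map_pow, Pre.A_pow, Pre.B_pow]
    symm
    apply QuotientGroup.eq.mpr
    refine ⟨Multiplicative.ofAdd 1, ?_⟩
    apply Pre.ext
    · show -(((1 : ℤ) : ZMod M)) * (T : ZMod M) =
        -(((u ^ (-(0 : ℤ)) : (ZMod M)ˣ) : ZMod M) * (T : ZMod M)) +
          ((u ^ (-(0 : ℤ)) : (ZMod M)ˣ) : ZMod M) * 0
      rw [neg_zero, zpow_zero, Units.val_one, one_mul, mul_zero, add_zero, Int.cast_one,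
        neg_one_mul]
    · show (1 : ℤ) * (n : ℤ) = -0 + (n : ℤ)
      ring
  · intro i j h
    rw [← map_pow, ← map_pow, ← map_mul, hq1, Pre.AB] at h
    obtain ⟨k, hk⟩ := h
    have hki : -((Multiplicative.toAdd k : ℤ) : ZMod M) * (T : ZMod M) = (i : ZMod M) :=
      congrArg Pre.i hk
    have hkj : Multiplicative.toAdd k * (n : ℤ) = (j : ℤ) := congrArg Pre.j hk
    have hk0 : 0 ≤ Multiplicative.toAdd k := by
      have h0 : 0 ≤ Multiplicative.toAdd k * (n : ℤ) := by rw [hkj]; exact Int.natCast_nonneg j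
      exact nonneg_of_mul_nonneg_left h0 (by exact_mod_cast hn)
    obtain ⟨k₀, hk₀⟩ := Int.eq_ofNat_of_zero_le hk0
    refine ⟨k₀, ?_, ?_⟩
    · rw [hk₀] at hkj
      exact_mod_cast hkj.symm
    · rw [hk₀] at hki
      rw [← ZMod.natCast_eq_zero_iff]
      push_cast
      rw [← hki]
      push_cast
      ring

/-- relators of the metacyclic presentation -/
def rels (m n r t : ℕ) : Set (FreeGroup Bool) :=
  {FreeGroup.of true ^ m, (FreeGroup.of false) ^ n * (FreeGroup.of true ^ t)⁻¹,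
    FreeGroup.of false * FreeGroup.of true * (FreeGroup.of false)⁻¹ * (FreeGroup.of true ^ r)⁻¹}

/-- the presented metacyclic group -/
abbrev MG (m n r t : ℕ) : Type := PresentedGroup (rels m n r t)

/-- first generator -/
abbrev ga (m n r t : ℕ) : MG m n r t := PresentedGroup.of true

/-- second generator -/
abbrev gb (m n r t : ℕ) : MG m n r t := PresentedGroup.of false

theorem rel1 (m n r t : ℕ) : ga m n r t ^ m = 1 := by
  have h : (PresentedGroup.mk (rels m n r t)) (FreeGroup.of true ^ m) = 1 :=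
    (QuotientGroup.eq_one_iff _).mpr (Subgroup.subset_normalClosure (Or.inl rfl))
  rw [map_pow] at h
  exact h

theorem rel2 (m n r t : ℕ) : gb m n r t ^ n = ga m n r t ^ t := by
  have h : (PresentedGroup.mk (rels m n r t))
      ((FreeGroup.of false) ^ n * (FreeGroup.of true ^ t)⁻¹) = 1 :=
    (QuotientGroup.eq_one_iff _).mpr (Subgroup.subset_normalClosure (Or.inr (Or.inl rfl)))
  rw [map_mul, map_inv, map_pow, map_pow] at h
  exact mul_inv_eq_one.mp h

theorem rel3 (m n r t : ℕ) : gb m n r t * ga m n r t * (gb m n r t)⁻¹ = ga m n r t ^ r := by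
  have h : (PresentedGroup.mk (rels m n r t)) (FreeGroup.of false * FreeGroup.of true *
      (FreeGroup.of false)⁻¹ * (FreeGroup.of true ^ r)⁻¹) = 1 :=
    (QuotientGroup.eq_one_iff _).mpr (Subgroup.subset_normalClosure (Or.inr (Or.inr rfl)))
  rw [map_mul, map_mul, map_mul, map_inv, map_inv, map_pow] at h
  exact mul_inv_eq_one.mp h

theorem conj_rule {X : Type*} [Group X] (a b : X) (r : ℕ) (h : b * a * b⁻¹ = a ^ r) (i : ℕ) :
    b * a ^ i = a ^ (r * i) * b := by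
  have h1 : b * a ^ i * b⁻¹ = a ^ (r * i) := by rw [← conj_pow, h, pow_mul]
  rw [← h1]; group

theorem conj_rule_pow {X : Type*} [Group X] (a b : X) (r : ℕ) (h : b * a * b⁻¹ = a ^ r)
    (j i : ℕ) : b ^ j * a ^ i = a ^ (r ^ j * i) * b ^ j := by
  induction j generalizing i with
  | zero => simp
  | succ j ih =>
    rw [pow_succ, mul_assoc, conj_rule a b r h i, ← mul_assoc, ih, pow_succ, mul_assoc,
      mul_assoc]

/-- normal form in a group generated by `a`, `b` with the metacyclic relations -/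
theorem nf {X : Type*} [Group X] (f : Bool → X) (hgen : Subgroup.closure (Set.range f) = ⊤)
    (m n r t : ℕ) (hm : 0 < m) (hn : 0 < n) (h1 : f true ^ m = 1)
    (h2 : f false ^ n = f true ^ t) (h3 : f false * f true * (f false)⁻¹ = f true ^ r)
    (x : X) : ∃ i j : ℕ, x = f true ^ i * f false ^ j := by
  have hmul : ∀ x y : X, (∃ i j : ℕ, x = f true ^ i * f false ^ j) →
      (∃ i j : ℕ, y = f true ^ i * f false ^ j) →
      ∃ i j : ℕ, x * y = f true ^ i * f false ^ j := by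
    rintro x y ⟨i, j, rfl⟩ ⟨i', j', rfl⟩
    refine ⟨i + r ^ j * i', j + j', ?_⟩
    calc f true ^ i * f false ^ j * (f true ^ i' * f false ^ j')
        = f true ^ i * (f false ^ j * f true ^ i') * f false ^ j' := by group
      _ = f true ^ i * (f true ^ (r ^ j * i') * f false ^ j) * f false ^ j' := by
          rw [conj_rule_pow (f true) (f false) r h3 j i']
      _ = f true ^ (i + r ^ j * i') * f false ^ (j + j') := by
          rw [pow_add, pow_add]; group
  have hpow : ∀ (x : X) (k : ℕ), (∃ i j : ℕ, x = f true ^ i * f false ^ j) →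
      ∃ i j : ℕ, x ^ k = f true ^ i * f false ^ j := by
    intro x k hx
    induction k with
    | zero => exact ⟨0, 0, by simp⟩
    | succ k ih => rw [pow_succ]; exact hmul _ _ ih hx
  have hainv : ∃ i j : ℕ, (f true)⁻¹ = f true ^ i * f false ^ j := by
    refine ⟨m - 1, 0, ?_⟩
    rw [pow_zero, mul_one]
    symm
    apply eq_inv_of_mul_eq_one_left
    rw [← pow_succ, Nat.sub_add_cancel hm, h1]
  have hbinv : ∃ i j : ℕ, (f false)⁻¹ = f true ^ i * f false ^ j := by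
    refine ⟨(m - 1) * t, n - 1, ?_⟩
    have e1 : f false ^ (n - 1) * f false = f true ^ t := by
      rw [← pow_succ, Nat.sub_add_cancel hn, h2]
    have e2 : f true ^ ((m - 1) * t) * f true ^ t = 1 := by
      rw [← pow_add, ← Nat.succ_mul, Nat.succ_eq_add_one, Nat.sub_add_cancel hm, pow_mul, h1,
        one_pow]
    have e3 : f true ^ ((m - 1) * t) * f false ^ (n - 1) * f false = 1 := by
      rw [mul_assoc, e1, e2]
    exact (eq_inv_of_mul_eq_one_left e3).symm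
  have hx : x ∈ Subgroup.closure (Set.range f) := by rw [hgen]; exact Subgroup.mem_top x
  induction hx using Subgroup.closure_induction with
  | mem y hy =>
    obtain ⟨c, rfl⟩ := hy
    cases c
    · exact ⟨0, 1, by simp⟩
    · exact ⟨1, 0, by simp⟩
  | one => exact ⟨0, 0, by simp⟩
  | mul x y _ _ hx hy => exact hmul x y hx hy
  | inv x _ hx =>
    obtain ⟨i, j, rfl⟩ := hx
    rw [mul_inv_rev, ← inv_pow, ← inv_pow]
    exact hmul _ _ (hpow _ j hbinv) (hpow _ i hainv)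

/-- normal form consequences through the model -/
theorem mg_eq_one (M n R T : ℕ) (hn : 0 < n) (hR : (R : ZMod M) ^ n = 1)
    (hT : (R : ZMod M) * (T : ZMod M) = T) (i j : ℕ)
    (h : ga M n R T ^ i * gb M n R T ^ j = 1) : ∃ k : ℕ, j = k * n ∧ M ∣ i + k * T := by
  obtain ⟨X, iX, α, β, h1, h2, h3, h4⟩ := model M n R T hn hR hT
  have hrel : ∀ w ∈ rels M n R T, FreeGroup.lift (fun c : Bool => if c then α else β) w = 1 := by
    rintro w (rfl | rfl | rfl)
    · simp [h1]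
    · simp [h3]
    · simp [h2]
  have e := congrArg (PresentedGroup.toGroup hrel) h
  rw [map_mul, map_pow, map_pow, PresentedGroup.toGroup.of, PresentedGroup.toGroup.of,
    map_one] at e
  exact h4 i j e

theorem mg_gen (m n r t : ℕ) :
    Subgroup.closure (Set.range (fun c : Bool => if c then ga m n r t else gb m n r t)) = ⊤ := by
  have h := PresentedGroup.closure_range_of (rels m n r t)
  have e : (fun c : Bool => if c then ga m n r t else gb m n r t) =
      (PresentedGroup.of : Bool → MG m n r t) := by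
    funext c
    cases c <;> rfl
  rw [e]
  exact h


/-- homomorphism from a cyclic group determined by an element of exponent `e` -/
theorem cyc_hom {K : Type} [Group K] (κ : K) (e : ℕ) (h : κ ^ e = 1) :
    ∃ π : Multiplicative (ZMod e) →* K,
      ∀ k : ℤ, π (Multiplicative.ofAdd (k : ZMod e)) = κ ^ k := by
  let f : ℤ →+ Additive K := zmultiplesHom (Additive K) (Additive.ofMul κ)
  have hf : f e = 0 := by
    show (e : ℤ) • Additive.ofMul κ = 0
    rw [natCast_zsmul]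
    show Additive.ofMul (κ ^ e) = 0
    rw [h]; rfl
  refine ⟨AddMonoidHom.toMultiplicativeLeft (ZMod.lift e ⟨f, hf⟩), fun k => ?_⟩
  show Additive.toMul (ZMod.lift e ⟨f, hf⟩ (k : ZMod e)) = κ ^ k
  rw [ZMod.lift_coe]
  rfl

theorem ucore {Γ : Type} [Group Γ] (a b z3 c : Γ) (w : ℕ) (hz3 : ∀ g : Γ, Commute z3 g)
    (hcd : c = z3 * a ^ w) (hc : b * a * b⁻¹ = z3 * a ^ (1 + w)) :
    Commute c a ∧ b * c * b⁻¹ = c ^ (1 + w) ∧ (∀ k : ℕ, Commute b (a ^ k) → c ^ k = 1) ∧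
      (∀ n : ℕ, Commute (b ^ n) a → c ^ (∑ i ∈ Finset.range n, (1 + w) ^ i) = 1) ∧
      b * a * b⁻¹ = c * a := by
  have h1 : Commute c a := by rw [hcd]; exact (hz3 a).mul_left ((Commute.refl a).pow_left w)
  have h2 : b * a * b⁻¹ = c * a := by rw [hc, hcd, add_comm, pow_succ, mul_assoc]
  have e1 : b * z3 * b⁻¹ = z3 := by rw [← (hz3 b).eq, mul_inv_cancel_right]
  have h3 : b * c * b⁻¹ = c ^ (1 + w) := by
    have e2 : b * a ^ w * b⁻¹ = (c * a) ^ w := by rw [← h2, conj_pow]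
    calc b * c * b⁻¹ = (b * z3 * b⁻¹) * (b * a ^ w * b⁻¹) := by rw [hcd]; group
      _ = z3 * (c * a) ^ w := by rw [e1, e2]
      _ = z3 * (c ^ w * a ^ w) := by rw [h1.mul_pow]
      _ = c ^ w * (z3 * a ^ w) := by rw [← mul_assoc, ← mul_assoc, (hz3 (c ^ w)).eq]
      _ = c ^ (1 + w) := by rw [← hcd, add_comm, pow_succ]
  have h4 : ∀ j : ℕ, b ^ j * a * (b ^ j)⁻¹ =
      c ^ (∑ i ∈ Finset.range j, (1 + w) ^ i) * a := by
    intro j
    induction j with
    | zero => simp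
    | succ j ih =>
      calc b ^ (j + 1) * a * (b ^ (j + 1))⁻¹ = b * (b ^ j * a * (b ^ j)⁻¹) * b⁻¹ := by
            rw [pow_succ']; group
        _ = b * (c ^ (∑ i ∈ Finset.range j, (1 + w) ^ i) * a) * b⁻¹ := by rw [ih]
        _ = (b * c * b⁻¹) ^ (∑ i ∈ Finset.range j, (1 + w) ^ i) * (b * a * b⁻¹) := by
            rw [conj_pow]; group
        _ = (c ^ (1 + w)) ^ (∑ i ∈ Finset.range j, (1 + w) ^ i) * (c * a) := by rw [h3, h2]
        _ = c ^ ((1 + w) * (∑ i ∈ Finset.range j, (1 + w) ^ i) + 1) * a := by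
            rw [← pow_mul, pow_succ, mul_assoc]
        _ = c ^ (∑ i ∈ Finset.range (j + 1), (1 + w) ^ i) * a := by rw [geom_sum_succ]
  refine ⟨h1, h3, ?_, ?_, h2⟩
  · intro k hk
    have e3 : (c * a) ^ k = a ^ k := by rw [← h2, conj_pow, hk.eq, mul_inv_cancel_right]
    rw [h1.mul_pow] at e3
    exact mul_right_cancel (e3.trans (one_mul _).symm)
  · intro n hn
    have e4 := h4 n
    rw [hn.eq, mul_inv_cancel_right] at e4
    exact mul_right_cancel (e4.symm.trans (one_mul _).symm)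

theorem upper (m n r t d μ ρ S' l : ℕ) (hd : 0 < d) (hμ : 0 < μ) (hn : 0 < n)
    (hmd : m = d * μ) (hrd : r = 1 + d * ρ) (ht : t = μ * l) (hcop : Nat.Coprime μ ρ)
    (hS : ∑ i ∈ Finset.range n, r ^ i = μ * S') (hga : orderOf (ga m n r t) = m)
    (Γ : Type) [Group Γ] [Finite Γ] (σ : Γ →* MG m n r t) (hσ : IsStemExtension σ) :
    ∃ π : Multiplicative (ZMod (Nat.gcd l (Nat.gcd d S'))) →* σ.ker, Function.Surjective π := by
  have hm : 0 < m := by rw [hmd]; exact Nat.mul_pos hd hμ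
  obtain ⟨hsurj, hcen, hcom⟩ := hσ
  obtain ⟨a, ha⟩ := hsurj (ga m n r t)
  obtain ⟨b, hb⟩ := hsurj (gb m n r t)
  have hker : ∀ z : Γ, σ z = 1 → ∀ g : Γ, Commute z g := fun z hz g =>
    ((Subgroup.mem_center_iff.mp (hcen (MonoidHom.mem_ker.mpr hz)) g).symm : z * g = g * z)
  obtain ⟨z3, hz3def⟩ : ∃ z3, z3 = b * a * b⁻¹ * (a ^ r)⁻¹ := ⟨_, rfl⟩
  have hz3 : σ z3 = 1 := by
    rw [hz3def, map_mul, map_mul, map_mul, map_inv, map_inv, map_pow, ha, hb, rel3,
      mul_inv_cancel]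
  have hc0 : b * a * b⁻¹ = z3 * a ^ (1 + d * ρ) := by
    rw [hz3def, ← hrd, inv_mul_cancel_right]
  obtain ⟨c, hcdef⟩ : ∃ c, c = z3 * a ^ (d * ρ) := ⟨_, rfl⟩
  obtain ⟨hca, hbc, hk, hSn, hbab⟩ := ucore a b z3 c (d * ρ) (hker z3 hz3) hcdef hc0
  have hcm : c ^ m = 1 := hk m ((hker (a ^ m) (by rw [map_pow, ha, rel1]) b).symm)
  have hz2 : σ (b ^ n * (a ^ t)⁻¹) = 1 := by
    rw [map_mul, map_inv, map_pow, map_pow, ha, hb, rel2, mul_inv_cancel]
  have hbat : Commute b (a ^ t) := by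
    have h1 : Commute b (b ^ n * (a ^ t)⁻¹) := (hker _ hz2 b).symm
    have h2 : Commute b (b ^ n) := (Commute.refl b).pow_right n
    have h3 : a ^ t = (b ^ n * (a ^ t)⁻¹)⁻¹ * b ^ n := by group
    rw [h3]
    exact (h1.inv_right).mul_right h2
  have hct : c ^ t = 1 := hk t hbat
  have hbna : Commute (b ^ n) a := by
    have h1 : Commute (b ^ n * (a ^ t)⁻¹) a := hker _ hz2 a
    have h3 : b ^ n = (b ^ n * (a ^ t)⁻¹) * a ^ t := by group
    rw [h3]
    exact h1.mul_left ((Commute.refl a).pow_left t)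
  have hcS : c ^ (∑ i ∈ Finset.range n, (1 + d * ρ) ^ i) = 1 := hSn n hbna
  rw [← hrd, hS] at hcS
  have hκd : (c ^ μ) ^ d = 1 := by rw [← pow_mul, mul_comm, ← hmd]; exact hcm
  have hκl : (c ^ μ) ^ l = 1 := by rw [← pow_mul, ← ht]; exact hct
  have hκS : (c ^ μ) ^ S' = 1 := by rw [← pow_mul]; exact hcS
  have hκe : (c ^ μ) ^ (Nat.gcd l (Nat.gcd d S')) = 1 := by
    rw [← orderOf_dvd_iff_pow_eq_one] at hκd hκl hκS ⊢
    exact Nat.dvd_gcd hκl (Nat.dvd_gcd hκd hκS)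
  have hσc : σ c = ga m n r t ^ (d * ρ) := by rw [hcdef, map_mul, hz3, one_mul, map_pow, ha]
  have hκker : σ (c ^ μ) = 1 := by
    rw [map_pow, hσc, ← pow_mul, mul_right_comm, ← hmd, pow_mul, rel1, one_pow]
  have hnf : ∀ g : Γ, ∃ (k : Γ) (i j : ℕ), σ k = 1 ∧ g = k * (a ^ i * b ^ j) := by
    intro g
    obtain ⟨i, j, hij⟩ := nf (fun s : Bool => if s then ga m n r t else gb m n r t)
      (mg_gen m n r t) m n r t hm hn (rel1 m n r t) (rel2 m n r t) (rel3 m n r t) (σ g)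
    have hij' : σ g = ga m n r t ^ i * gb m n r t ^ j := hij
    refine ⟨g * (a ^ i * b ^ j)⁻¹, i, j, ?_, by group⟩
    rw [map_mul, map_inv, map_mul, map_pow, map_pow, ha, hb, hij', mul_inv_cancel]
  have hbjc : ∀ j : ℕ, b ^ j * c * (b ^ j)⁻¹ = c ^ ((1 + d * ρ) ^ j) := by
    intro j
    induction j with
    | zero => simp
    | succ j ih =>
      calc b ^ (j + 1) * c * (b ^ (j + 1))⁻¹ = b * (b ^ j * c * (b ^ j)⁻¹) * b⁻¹ := by
            rw [pow_succ']; group
        _ = (b * c * b⁻¹) ^ ((1 + d * ρ) ^ j) := by rw [ih, conj_pow]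
        _ = c ^ ((1 + d * ρ) ^ (j + 1)) := by rw [hbc, ← pow_mul, pow_succ']
  have hnormal : (Subgroup.zpowers c).Normal := by
    refine ⟨fun x hx g => ?_⟩
    obtain ⟨q, rfl⟩ := Subgroup.mem_zpowers_iff.mp hx
    obtain ⟨k, i, j, hk1, rfl⟩ := hnf g
    have e1 : k * (a ^ i * b ^ j) * c ^ q * (k * (a ^ i * b ^ j))⁻¹ =
        (c ^ ((1 + d * ρ) ^ j)) ^ q := by
      have hkc := hker k hk1
      calc k * (a ^ i * b ^ j) * c ^ q * (k * (a ^ i * b ^ j))⁻¹
          = k * (a ^ i * (b ^ j * c * (b ^ j)⁻¹) ^ q * (a ^ i)⁻¹) * k⁻¹ := by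
            rw [conj_zpow]; group
        _ = k * (a ^ i * (c ^ ((1 + d * ρ) ^ j)) ^ q * (a ^ i)⁻¹) * k⁻¹ := by rw [hbjc]
        _ = k * (c ^ ((1 + d * ρ) ^ j)) ^ q * k⁻¹ := by
            have hh : Commute (a ^ i) ((c ^ ((1 + d * ρ) ^ j)) ^ q) :=
              ((hca.symm.pow_left i).pow_right _).zpow_right q
            rw [hh.eq, mul_inv_cancel_right]
        _ = (c ^ ((1 + d * ρ) ^ j)) ^ q := by rw [(hkc _).eq, mul_inv_cancel_right]
    rw [e1]
    exact Subgroup.zpow_mem _ (Subgroup.pow_mem _ (Subgroup.mem_zpowers c) _) _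
  have hcomm_le : commutator Γ ≤ Subgroup.zpowers c := by
    haveI := hnormal
    have hqc : (QuotientGroup.mk' (Subgroup.zpowers c)) c = 1 :=
      (QuotientGroup.eq_one_iff c).mpr (Subgroup.mem_zpowers c)
    have key : ∀ q : Γ →* Γ ⧸ Subgroup.zpowers c, q c = 1 → ∀ x y : Γ,
        Commute (q x) (q y) := by
      intro q hqc x y
      have hAB : Commute (q b) (q a) := by
        have h0 : q b * q a * (q b)⁻¹ = q a := by
          rw [← map_inv, ← map_mul, ← map_mul, hbab, map_mul, hqc, one_mul]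
        have h1 : q b * q a = (q b * q a * (q b)⁻¹) * q b := by group
        rw [h0] at h1
        exact h1
      obtain ⟨k, i, j, hk1, rfl⟩ := hnf x
      obtain ⟨k', i', j', hk1', rfl⟩ := hnf y
      have h3 : Commute (q (a ^ i * b ^ j)) (q (a ^ i' * b ^ j')) := by
        rw [map_mul, map_mul, map_pow, map_pow, map_pow, map_pow]
        exact (((Commute.refl (q a)).pow_pow i i').mul_right (hAB.symm.pow_pow i j')).mul_left
          ((hAB.pow_pow j i').mul_right ((Commute.refl (q b)).pow_pow j j'))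
      have hk : Commute (q k) (q (k' * (a ^ i' * b ^ j'))) := (hker k hk1 _).map q
      have hk' : Commute (q (a ^ i * b ^ j)) (q k') := ((hker k' hk1' _).map q).symm
      have e : Commute (q k * q (a ^ i * b ^ j)) (q k' * q (a ^ i' * b ^ j')) := by
        have hk2 : Commute (q k) (q k' * q (a ^ i' * b ^ j')) := by rw [← map_mul]; exact hk
        exact hk2.mul_left (hk'.mul_right h3)
      rw [map_mul q k, map_mul q k']
      exact e
    rw [commutator_def, Subgroup.commutator_le]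
    intro x _ y _
    have hxy := key (QuotientGroup.mk' (Subgroup.zpowers c)) hqc x y
    apply (QuotientGroup.eq_one_iff _).mp
    show (QuotientGroup.mk' (Subgroup.zpowers c)) ⁅x, y⁆ = 1
    rw [map_commutatorElement, commutatorElement_eq_one_iff_commute]
    exact hxy
  have hker_le : ∀ x : Γ, σ x = 1 → x ∈ Subgroup.zpowers (c ^ μ) := by
    intro x hx
    obtain ⟨q, rfl⟩ := Subgroup.mem_zpowers_iff.mp (hcomm_le (hcom (MonoidHom.mem_ker.mpr hx)))
    rw [map_zpow, hσc, ← zpow_natCast, ← zpow_mul, ← orderOf_dvd_iff_zpow_eq_one, hga] at hx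
    have h1 : (μ : ℤ) ∣ (ρ : ℤ) * q := by
      rw [hmd] at hx
      push_cast at hx
      rw [mul_assoc] at hx
      exact (mul_dvd_mul_iff_left (by exact_mod_cast hd.ne' : (d : ℤ) ≠ 0)).mp hx
    have h2 : (μ : ℤ) ∣ q := (Nat.isCoprime_iff_coprime.mpr hcop).dvd_of_dvd_mul_left h1
    obtain ⟨q', rfl⟩ := h2
    rw [zpow_mul, zpow_natCast]
    exact Subgroup.zpow_mem_zpowers _ _
  obtain ⟨π₀, hπ₀⟩ := cyc_hom (⟨c ^ μ, MonoidHom.mem_ker.mpr hκker⟩ : σ.ker)
    (Nat.gcd l (Nat.gcd d S')) (Subtype.ext (by rw [Subgroup.coe_pow]; exact hκe))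
  refine ⟨π₀, fun y => ?_⟩
  obtain ⟨q, hq⟩ := Subgroup.mem_zpowers_iff.mp (hker_le y.1 (MonoidHom.mem_ker.mp y.2))
  refine ⟨Multiplicative.ofAdd (q : ZMod _), ?_⟩
  rw [hπ₀]
  apply Subtype.ext
  rw [Subgroup.coe_zpow]
  exact hq


theorem lower (m n r t d μ ρ S' l : ℕ) (hd : 0 < d) (hμ : 0 < μ) (hn : 0 < n)
    (hmd : m = d * μ) (hrd : r = 1 + d * ρ) (ht : t = μ * l) (hcop : Nat.Coprime μ ρ)
    (hS : ∑ i ∈ Finset.range n, r ^ i = μ * S') (hga : orderOf (ga m n r t) = m)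
    (hG1 : (r : ZMod m) ^ n = 1) (hG2 : (r : ZMod m) * (t : ZMod m) = t) :
    ∃ (Γ : Type) (_ : Group Γ) (_ : Finite Γ) (σ : Γ →* MG m n r t), IsStemExtension σ ∧
      Nonempty (σ.ker ≃* Multiplicative (ZMod (Nat.gcd l (Nat.gcd d S')))) := by
  have hm : 0 < m := by rw [hmd]; exact Nat.mul_pos hd hμ
  obtain ⟨e, he⟩ : ∃ e, e = Nat.gcd l (Nat.gcd d S') := ⟨_, rfl⟩
  rw [← he]
  have hed : e ∣ d := by rw [he]; exact (Nat.gcd_dvd_right _ _).trans (Nat.gcd_dvd_left _ _)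
  have heS : e ∣ S' := by rw [he]; exact (Nat.gcd_dvd_right _ _).trans (Nat.gcd_dvd_right _ _)
  have hel : e ∣ l := by rw [he]; exact Nat.gcd_dvd_left _ _
  have he0 : 0 < e := Nat.pos_of_dvd_of_pos hed hd
  have hme : 0 < m * e := Nat.mul_pos hm he0
  obtain ⟨u, hu1, hu2⟩ : ∃ u : ℕ, u ≡ ρ [MOD μ] ∧ Nat.Coprime u e := by
    haveI : NeZero (μ * e) := ⟨(Nat.mul_pos hμ he0).ne'⟩
    have hdvd : μ ∣ μ * e := Dvd.intro _ rfl
    obtain ⟨v, hv⟩ := ZMod.unitsMap_surjective hdvd (ZMod.unitOfCoprime ρ hcop.symm)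
    refine ⟨(v : ZMod (μ * e)).val, ?_, ?_⟩
    · rw [← ZMod.natCast_eq_natCast_iff]
      have h1 := congrArg (fun x : (ZMod μ)ˣ => (x : ZMod μ)) hv
      simp only [ZMod.unitsMap_def, Units.coe_map, ZMod.coe_unitOfCoprime] at h1
      rw [← h1]
      conv_rhs => rw [← ZMod.natCast_zmod_val (v : ZMod (μ * e))]
      exact (map_natCast (ZMod.castHom hdvd (ZMod μ)) _).symm
    · exact Nat.Coprime.coprime_dvd_right (Dvd.intro_left _ rfl) (ZMod.val_coe_unit_coprime v)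
  obtain ⟨R, hR⟩ : ∃ R, R = 1 + d * u := ⟨_, rfl⟩
  have hRr : R ≡ r [MOD m] := by
    rw [hR, hrd, hmd]
    exact Nat.ModEq.add_left 1 (Nat.ModEq.mul_left' d hu1)
  have hH2 : (R : ZMod (m * e)) * (t : ZMod (m * e)) = t := by
    have h0 : ((d * u * t : ℕ) : ZMod (m * e)) = 0 := by
      rw [ZMod.natCast_eq_zero_iff]
      obtain ⟨l', hl'⟩ := hel
      refine ⟨u * l', ?_⟩
      rw [ht, hmd, hl']; ring
    rw [hR]
    push_cast
    push_cast at h0
    linear_combination h0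
  have hSR : μ * e ∣ ∑ i ∈ Finset.range n, R ^ i := by
    have h1 : (∑ i ∈ Finset.range n, R ^ i) ≡ (∑ i ∈ Finset.range n, r ^ i) [MOD m] := by
      rw [← ZMod.natCast_eq_natCast_iff]
      push_cast
      rw [(ZMod.natCast_eq_natCast_iff _ _ _).mpr hRr]
    have h2 : μ * e ∣ m := by rw [hmd, mul_comm d μ]; exact Nat.mul_dvd_mul_left μ hed
    rw [h1.dvd_iff h2, hS]
    exact Nat.mul_dvd_mul_left μ heS
  have hH1 : (R : ZMod (m * e)) ^ n = 1 := by
    have h0 : (((∑ i ∈ Finset.range n, R ^ i) * (d * u) : ℕ) : ZMod (m * e)) = 0 := by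
      rw [ZMod.natCast_eq_zero_iff]
      obtain ⟨s, hs⟩ := hSR
      refine ⟨s * u, ?_⟩
      rw [hs, hmd]; ring
    have h1 := geom_sum_mul (R : ZMod (m * e)) n
    have h2 : (R : ZMod (m * e)) - 1 = ((d * u : ℕ) : ZMod (m * e)) := by
      rw [hR]; push_cast; ring
    have h3 : (R : ZMod (m * e)) ^ n - 1 = 0 := by
      rw [← h1, h2]
      exact_mod_cast h0
    exact sub_eq_zero.mp h3
  obtain ⟨A, hA⟩ : ∃ A, A = ga (m * e) n R t := ⟨_, rfl⟩
  obtain ⟨B, hB⟩ : ∃ B, B = gb (m * e) n R t := ⟨_, rfl⟩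
  have hr1 : A ^ (m * e) = 1 := by rw [hA]; exact rel1 _ _ _ _
  have hr2 : B ^ n = A ^ t := by rw [hA, hB]; exact rel2 _ _ _ _
  have hr3 : B * A * B⁻¹ = A ^ R := by rw [hA, hB]; exact rel3 _ _ _ _
  have hRpow : ga m n r t ^ R = ga m n r t ^ r := by
    rw [pow_eq_pow_iff_modEq, hga]; exact hRr
  have hrelσ : ∀ w ∈ rels (m * e) n R t,
      FreeGroup.lift (fun s : Bool => if s then ga m n r t else gb m n r t) w = 1 := by
    have h1 := rel1 m n r t
    have h2 := rel2 m n r t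
    have h3 := rel3 m n r t
    rintro w (rfl | rfl | rfl)
    · simp [pow_mul, h1]
    · simp [h2]
    · simp [hRpow, h3]
  obtain ⟨σ, hσ⟩ : ∃ σ : MG (m * e) n R t →* MG m n r t, σ = PresentedGroup.toGroup hrelσ :=
    ⟨_, rfl⟩
  have hσa : σ A = ga m n r t := by rw [hσ, hA]; exact PresentedGroup.toGroup.of hrelσ
  have hσb : σ B = gb m n r t := by rw [hσ, hB]; exact PresentedGroup.toGroup.of hrelσ
  have hnfΓ : ∀ x : MG (m * e) n R t, ∃ i j : ℕ, x = A ^ i * B ^ j := by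
    intro x
    obtain ⟨i, j, hij⟩ := nf (fun s : Bool => if s then ga (m * e) n R t else gb (m * e) n R t)
      (mg_gen _ _ _ _) (m * e) n R t hme hn (rel1 _ _ _ _) (rel2 _ _ _ _) (rel3 _ _ _ _) x
    refine ⟨i, j, ?_⟩
    rw [hA, hB]
    exact hij
  have hnfG : ∀ x : MG m n r t, ∃ i j : ℕ, x = ga m n r t ^ i * gb m n r t ^ j := by
    intro x
    obtain ⟨i, j, hij⟩ := nf (fun s : Bool => if s then ga m n r t else gb m n r t)
      (mg_gen _ _ _ _) m n r t hm hn (rel1 _ _ _ _) (rel2 _ _ _ _) (rel3 _ _ _ _) x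
    exact ⟨i, j, hij⟩
  have hsurj : Function.Surjective σ := by
    intro y
    obtain ⟨i, j, rfl⟩ := hnfG y
    exact ⟨A ^ i * B ^ j, by rw [map_mul, map_pow, map_pow, hσa, hσb]⟩
  obtain ⟨z, hz⟩ : ∃ z, z = A ^ m := ⟨_, rfl⟩
  have hze : z ^ e = 1 := by rw [hz, ← pow_mul]; exact hr1
  have hzσ : σ z = 1 := by rw [hz, map_pow, hσa, rel1]
  have hA_one : ∀ i : ℕ, A ^ i = 1 → m * e ∣ i := by
    intro i hi
    rw [hA] at hi
    obtain ⟨k, hk1, hk2⟩ := mg_eq_one (m * e) n R t hn hH1 hH2 i 0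
      (by rw [pow_zero, mul_one]; exact hi)
    have hk0 : k = 0 := by
      rcases Nat.eq_zero_or_pos k with h | h
      · exact h
      · exact absurd hk1 (Nat.mul_pos h hn).ne
    rw [hk0, zero_mul, add_zero] at hk2
    exact hk2
  have hzord : orderOf z = e := by
    rw [orderOf_eq_iff he0]
    refine ⟨hze, fun i hi hi0 h => ?_⟩
    rw [hz, ← pow_mul] at h
    have h1 := hA_one _ h
    have h2 : e ∣ i := (Nat.mul_dvd_mul_iff_left hm).mp h1
    exact absurd (Nat.le_of_dvd hi0 h2) (not_le.mpr hi)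
  have hkerz : ∀ x : MG (m * e) n R t, σ x = 1 → ∃ q : ℕ, x = z ^ q := by
    intro x hx
    obtain ⟨i, j, rfl⟩ := hnfΓ x
    rw [map_mul, map_pow, map_pow, hσa, hσb] at hx
    obtain ⟨k, hk1, q, hq⟩ := mg_eq_one m n r t hn hG1 hG2 i j hx
    refine ⟨q, ?_⟩
    rw [hk1, mul_comm k n, pow_mul, hr2, ← pow_mul, ← pow_add, mul_comm t k, hq, pow_mul, hz]
  have hzcen : z ∈ Subgroup.center (MG (m * e) n R t) := by
    have h1 : A ^ (R * m) = A ^ m := by
      obtain ⟨d', hd'⟩ := hed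
      have h2 : R * m = m + (m * e) * (d' * u) := by rw [hR, hd']; ring
      rw [h2, pow_add, pow_mul, hr1, one_pow, mul_one]
    have hBA : B * A ^ m = A ^ m * B := by
      rw [conj_rule A B R hr3 m, h1]
    rw [Subgroup.mem_center_iff]
    intro g
    obtain ⟨i, j, rfl⟩ := hnfΓ g
    have c1 : Commute z A := by rw [hz]; exact (Commute.refl A).pow_left m
    have c2 : Commute z B := by rw [hz]; exact hBA.symm
    exact ((c1.pow_right i).mul_right (c2.pow_right j)).symm.eq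
  have hzcomm : z ∈ commutator (MG (m * e) n R t) := by
    have hAR : A ^ R = A ^ (d * u) * A := by
      have h0 : R = d * u + 1 := by rw [hR, add_comm]
      exact (congrArg (fun k : ℕ => A ^ k) h0).trans (pow_succ A (d * u))
    have h1 : A ^ (d * u) ∈ commutator (MG (m * e) n R t) := by
      have h2 : ⁅B, A⁆ = A ^ (d * u) := by
        rw [commutatorElement_def, hr3, hAR, mul_inv_cancel_right]
      rw [← h2, commutator_def]
      exact Subgroup.commutator_mem_commutator (Subgroup.mem_top _) (Subgroup.mem_top _)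
    have h3 : z ^ u ∈ commutator (MG (m * e) n R t) := by
      have h4 : z ^ u = (A ^ (d * u)) ^ μ := by
        rw [hz, ← pow_mul, ← pow_mul]
        congr 1
        rw [hmd]; ring
      rw [h4]
      exact Subgroup.pow_mem _ h1 μ
    obtain ⟨x, y, hxy⟩ := Nat.isCoprime_iff_coprime.mpr hu2
    have h5 : z = (z ^ u) ^ x * (z ^ e) ^ y := by
      rw [← zpow_natCast z u, ← zpow_natCast z e, ← zpow_mul, ← zpow_mul, ← zpow_add,
        mul_comm (u : ℤ), mul_comm (e : ℤ), hxy, zpow_one]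
    rw [h5, hze, one_zpow, mul_one]
    exact Subgroup.zpow_mem _ h3 x
  have hker_mem : ∀ x ∈ σ.ker, ∃ q : ℕ, x = z ^ q := fun x hx =>
    hkerz x (MonoidHom.mem_ker.mp hx)
  have hfin : Finite (MG (m * e) n R t) := by
    have hB1 : B ^ (n * (m * e)) = 1 := by
      rw [pow_mul, hr2, ← pow_mul, mul_comm t (m * e), pow_mul, hr1, one_pow]
    apply Finite.of_surjective
      (fun p : Fin (m * e) × Fin (n * (m * e)) => A ^ (p.1 : ℕ) * B ^ (p.2 : ℕ))
    intro x
    obtain ⟨i, j, rfl⟩ := hnfΓ x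
    refine ⟨(⟨i % (m * e), Nat.mod_lt _ hme⟩,
      ⟨j % (n * (m * e)), Nat.mod_lt _ (Nat.mul_pos hn hme)⟩), ?_⟩
    show A ^ (i % (m * e)) * B ^ (j % (n * (m * e))) = A ^ i * B ^ j
    rw [← pow_eq_pow_mod i hr1, ← pow_eq_pow_mod j hB1]
  refine ⟨MG (m * e) n R t, inferInstance, hfin, σ, ⟨hsurj, ?_, ?_⟩, ?_⟩
  · intro x hx
    obtain ⟨q, rfl⟩ := hker_mem x hx
    exact Subgroup.pow_mem _ hzcen q
  · intro x hx
    obtain ⟨q, rfl⟩ := hker_mem x hx
    exact Subgroup.pow_mem _ hzcomm q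
  · obtain ⟨π₀, hπ₀⟩ := cyc_hom (⟨z, MonoidHom.mem_ker.mpr hzσ⟩ : σ.ker) e
      (Subtype.ext (by rw [Subgroup.coe_pow]; exact hze))
    have hinj : Function.Injective π₀ := by
      rw [injective_iff_map_eq_one]
      intro x hx
      obtain ⟨k, hk⟩ := ZMod.intCast_surjective (Multiplicative.toAdd x)
      have hx' : x = Multiplicative.ofAdd ((k : ℤ) : ZMod e) := by rw [hk]; rfl
      rw [hx', hπ₀] at hx
      have h1 : z ^ k = 1 := by
        have h2 := congrArg Subtype.val hx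
        rw [Subgroup.coe_zpow] at h2
        exact h2
      rw [← orderOf_dvd_iff_zpow_eq_one, hzord] at h1
      rw [hx', (ZMod.intCast_zmod_eq_zero_iff_dvd k e).mpr h1]
      rfl
    have hsur : Function.Surjective π₀ := by
      intro y
      obtain ⟨q, hq⟩ := hker_mem y.1 y.2
      refine ⟨Multiplicative.ofAdd ((q : ℤ) : ZMod e), ?_⟩
      rw [hπ₀]
      apply Subtype.ext
      rw [Subgroup.coe_zpow, zpow_natCast]
      exact hq.symm
    exact ⟨(MulEquiv.ofBijective π₀ ⟨hinj, hsur⟩).symm⟩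

theorem main (m n r l d μ ρ S' : ℕ) (hd : 0 < d) (hμ : 0 < μ) (hn : 0 < n)
    (hmd : m = d * μ) (hrd : r = 1 + d * ρ) (hcop : Nat.Coprime μ ρ)
    (hS : ∑ i ∈ Finset.range n, r ^ i = μ * S') (hrn : r ^ n ≡ 1 [MOD m]) :
    HasCyclicSchurMultiplier (MG m n r (μ * l)) (Nat.gcd l (Nat.gcd d S')) := by
  have hm : 0 < m := by rw [hmd]; exact Nat.mul_pos hd hμ
  have hG1 : (r : ZMod m) ^ n = 1 := by
    have h := (ZMod.natCast_eq_natCast_iff _ _ _).mpr hrn
    push_cast at h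
    exact h
  have hG2 : (r : ZMod m) * ((μ * l : ℕ) : ZMod m) = ((μ * l : ℕ) : ZMod m) := by
    have h0 : ((d * ρ * (μ * l) : ℕ) : ZMod m) = 0 := by
      rw [ZMod.natCast_eq_zero_iff]
      exact ⟨ρ * l, by rw [hmd]; ring⟩
    rw [hrd]
    push_cast
    push_cast at h0
    linear_combination h0
  have hga : orderOf (ga m n r (μ * l)) = m := by
    rw [orderOf_eq_iff hm]
    refine ⟨rel1 _ _ _ _, fun i hi hi0 h => ?_⟩
    obtain ⟨k, hk1, hk2⟩ := mg_eq_one m n r (μ * l) hn hG1 hG2 i 0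
      (by rw [pow_zero, mul_one]; exact h)
    have hk0 : k = 0 := by
      rcases Nat.eq_zero_or_pos k with h | h
      · exact h
      · exact absurd hk1 (Nat.mul_pos h hn).ne
    rw [hk0, zero_mul, add_zero] at hk2
    exact absurd (Nat.le_of_dvd hi0 hk2) (not_le.mpr hi)
  exact ⟨lower m n r (μ * l) d μ ρ S' l hd hμ hn hmd hrd rfl hcop hS hga hG1 hG2,
    fun Γ _ _ σ hσ => upper m n r (μ * l) d μ ρ S' l hd hμ hn hmd hrd rfl hcop hS hga Γ σ hσ⟩

/-- Let `m, n ≥ 1`, `r ≥ 1` with `r ^ n ≡ 1 (mod m)`, and `l` a natural number; put `d = gcd(m, r - 1)`, `t = m l / d` and `h = d · gcd(m, 1 + r + ⋯ + r^(n-1)) / m`. The group presented by generators `a, b` and relations `a ^ m = 1`, `b ^ n = a ^ t`, `b a b⁻¹ = a ^ r` (a metacyclic group of order `m n`) has Schur multiplier cyclic of order `gcd(l, h)`. -/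
theorem result (m n r l : ℕ) (hm : 0 < m) (hn : 0 < n) (hr : 0 < r) (hrn : r ^ n ≡ 1 [MOD m]) : Cfsg.HasCyclicSchurMultiplier (PresentedGroup ({FreeGroup.of true ^ m, (FreeGroup.of false) ^ n * (FreeGroup.of true ^ (m * l / Nat.gcd m (r - 1)))⁻¹, FreeGroup.of false * FreeGroup.of true * (FreeGroup.of false)⁻¹ * (FreeGroup.of true ^ r)⁻¹} : Set (FreeGroup Bool))) (Nat.gcd l (Nat.gcd m (r - 1) * Nat.gcd m (∑ i ∈ Finset.range n, r ^ i) / m)) := by
  obtain ⟨μ, ρ, hcop, hm', hr'⟩ := Nat.exists_coprime m (r - 1)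
  have hd : 0 < Nat.gcd m (r - 1) := Nat.gcd_pos_of_pos_left _ hm
  obtain ⟨d, hdd⟩ : ∃ d, d = Nat.gcd m (r - 1) := ⟨_, rfl⟩
  rw [← hdd] at hm' hr' hd ⊢
  have hμ : 0 < μ := by
    rcases Nat.eq_zero_or_pos μ with h | h
    · rw [h, zero_mul] at hm'; omega
    · exact h
  have hmd : m = d * μ := by rw [hm', mul_comm]
  have hrd : r = 1 + d * ρ := by
    have h1 : r = 1 + (r - 1) := by omega
    rw [h1, hr', mul_comm ρ d]
  have hSdvd : μ ∣ ∑ i ∈ Finset.range n, r ^ i := by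
    have h1 : (m : ℤ) ∣ (∑ i ∈ Finset.range n, (r : ℤ) ^ i) * ((r : ℤ) - 1) := by
      rw [geom_sum_mul]
      have h := Nat.modEq_iff_dvd.mp hrn.symm
      push_cast at h
      exact h
    have h2 : ((r : ℤ) - 1) = (d : ℤ) * ρ := by rw [hrd]; push_cast; ring
    rw [h2, hmd] at h1
    push_cast at h1
    have h3 : (μ : ℤ) ∣ (∑ i ∈ Finset.range n, (r : ℤ) ^ i) * ρ := by
      have h4 : (d : ℤ) * μ ∣ (d : ℤ) * ((∑ i ∈ Finset.range n, (r : ℤ) ^ i) * ρ) := by
        convert h1 using 1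
        ring
      exact (mul_dvd_mul_iff_left (by exact_mod_cast hd.ne' : (d : ℤ) ≠ 0)).mp h4
    have h5 : (μ : ℤ) ∣ ∑ i ∈ Finset.range n, (r : ℤ) ^ i :=
      (Nat.isCoprime_iff_coprime.mpr hcop).dvd_of_dvd_mul_right h3
    exact_mod_cast h5
  obtain ⟨S', hS⟩ := hSdvd
  have ht : m * l / d = μ * l := by
    rw [hmd, mul_assoc, Nat.mul_div_cancel_left _ hd]
  have hh : d * Nat.gcd m (∑ i ∈ Finset.range n, r ^ i) / m = Nat.gcd d S' := by
    rw [hS, hmd, Nat.mul_comm d μ, Nat.gcd_mul_left,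
      show d * (μ * Nat.gcd d S') = μ * d * Nat.gcd d S' by ring,
      Nat.mul_div_cancel_left _ (Nat.mul_pos hμ hd)]
  rw [ht, hh]
  exact main m n r l d μ ρ S' hd hμ hn hmd hrd hcop hS hrn

end Cfsg.Agent.S3967
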