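import Cfsg.Statements.S3968
import Cfsg.Agent.Helper24.CharGagola
import Cfsg.Agent.Helper24.CharBurnside
import Cfsg.Agent.Helper24.CharMisc
import Cfsg.Agent.Helper5.LinChar


set_option autoImplicit false
open Cfsg

namespace Cfsg.Agent.S3968

/-- Let `p` be a prime and `G` a finite group with a faithful irreducible complex character of degree `p` (so `G` is an irreducible linear group in `p` variables). If `p ^ 2` divides the order of `G`, then the centre of `G` is nontrivial. -/
theorem result {G : Type*} [Group G] [Finite G] (p : ℕ) (hp : p.Prime) (χ : Cfsg.IrrCharacter G) (hdeg : χ.1 1 = p) (hfaith : ∀ g : G, χ.1 g = χ.1 1 → g = 1) (hdiv : p ^ 2 ∣ Nat.card G) : Subgroup.center G ≠ ⊥ := by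
  classical
  intro hZ
  haveI : Fact p.Prime := ⟨hp⟩
  haveI : Fintype G := Fintype.ofFinite G
  obtain ⟨n, ρ, hρ, hχ⟩ := χ.2
  haveI := hρ
  have hfin : Module.finrank ℂ (Fin n → ℂ) = n := by simp
  have hn : n = p := by
    have h1 : ρ.character 1 = (n : ℂ) := by rw [Representation.char_one, hfin]
    rw [hχ, hdeg] at h1
    exact_mod_cast h1.symm
  have hχc : IsCharacter G χ.1 := Helper24.isCharacter_of_isIrrCharacter χ.2
  have key : ∀ g : G, ‖χ.1 g‖ = (p : ℝ) → g = 1 := by
    intro g hg
    obtain ⟨ω, hω⟩ := (Helper24.norm_char_eq_finrank_iff ρ g).mp (by rw [hχ, hfin, hn]; exact hg)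
    have hcen : g ∈ Subgroup.center G := by
      rw [Subgroup.mem_center_iff]
      intro h
      have hcomm : ρ (h * g * h⁻¹ * g⁻¹) = LinearMap.id := by
        have e2 : ρ h * ρ g = ρ g * ρ h := by
          rw [hω]
          apply LinearMap.ext
          intro v
          simp [Module.End.mul_apply]
        have e1 : ρ (h * g * h⁻¹ * g⁻¹) = ρ h * ρ g * ρ h⁻¹ * ρ g⁻¹ := by
          simp only [map_mul]
        rw [e1, e2, mul_assoc (ρ g) (ρ h) (ρ h⁻¹), ← map_mul, mul_inv_cancel, map_one, mul_one,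
          ← map_mul, mul_inv_cancel, map_one]
        rfl
      have h2 : χ.1 (h * g * h⁻¹ * g⁻¹) = χ.1 1 := by
        rw [← hχ, (Helper24.char_eq_finrank_iff ρ (h * g * h⁻¹ * g⁻¹)).mpr hcomm,
          Representation.char_one]
      have h3 := hfaith _ h2
      calc h * g = (h * g * h⁻¹ * g⁻¹) * g * h := by group
        _ = g * h := by rw [h3, one_mul]
    rw [hZ] at hcen
    exact Subgroup.mem_bot.mp hcen
  obtain ⟨P⟩ := (inferInstance : Nonempty (Sylow p G))
  have hPdvd : p ^ 2 ∣ Nat.card (P : Subgroup G) := P.pow_dvd_card_of_pow_dvd_card hdiv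
  have hPp : IsPGroup p (P : Subgroup G) := P.isPGroup'
  obtain ⟨k, hk⟩ := IsPGroup.iff_card.mp hPp
  haveI : Fintype (P : Subgroup G) := Fintype.ofFinite _
  have hres : IsCharacter (P : Subgroup G) (fun x : (P : Subgroup G) => χ.1 x) :=
    Helper24.isCharacter_restrict (P : Subgroup G) hχc
  obtain ⟨c, hc1, hc2⟩ := Helper24.isCharacter_decomp hres
  choose d hd hdd using fun ψ : IrrCharacter (P : Subgroup G) => Helper24.irr_degree_dvd_card ψ
  have hd0 : ∀ ψ, d ψ ≠ 0 := by
    intro ψ h0
    have := Helper24.irr_one_ne_zero ψ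
    rw [hd ψ, h0] at this
    simp at this
  have hsum : ∑ ψ : IrrCharacter (P : Subgroup G), c ψ * d ψ = p := by
    have h1 := congrFun hc2 1
    simp only [Finset.sum_apply, Pi.smul_apply, smul_eq_mul, hd, OneMemClass.coe_one] at h1
    rw [hdeg] at h1
    exact_mod_cast h1.symm
  have hcop : ∀ x : G, x ∈ (P : Subgroup G) → (∀ y ∈ (P : Subgroup G), x * y = y * x) → x ≠ 1 →
      χ.1 x = 0 := by
    intro x hx hxc hx1
    have hle : (P : Subgroup G) ≤ Subgroup.centralizer ({x} : Set G) := by
      intro y hy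
      rw [Subgroup.mem_centralizer_iff]
      intro z hz
      rw [Set.mem_singleton_iff] at hz
      subst hz
      exact hxc y hy
    have hidx : ¬ p ∣ (Subgroup.centralizer ({x} : Set G)).index := fun hdvd =>
      P.not_dvd_index (hdvd.trans (Subgroup.index_dvd_of_le hle))
    have hc : Nat.Coprime (Module.finrank ℂ (Fin n → ℂ))
        (Subgroup.centralizer ({x} : Set G)).index := by
      rw [hfin, hn]
      exact (Nat.Prime.coprime_iff_not_dvd hp).mpr hidx
    rcases Helper24.char_eq_zero_or_norm_eq ρ x hc with h0 | h1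
    · rw [← hχ]; exact h0
    · exfalso
      apply hx1
      apply key
      rw [← hχ, h1, hfin, hn]
  by_cases hlin : ∀ ψ : IrrCharacter (P : Subgroup G), c ψ ≠ 0 → d ψ = 1
  · have hab : ∀ a b : (P : Subgroup G), a * b = b * a := by
      intro a b
      have hval : χ.1 ((a * b * a⁻¹ * b⁻¹ : (P : Subgroup G)) : G) = χ.1 1 := by
        have h1 := congrFun hc2 (a * b * a⁻¹ * b⁻¹)
        have h2 := congrFun hc2 1
        simp only [Finset.sum_apply, Pi.smul_apply, smul_eq_mul, OneMemClass.coe_one] at h1 h2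
        rw [h1, h2]
        apply Finset.sum_congr rfl
        intro ψ _
        by_cases hcψ : c ψ = 0
        · simp [hcψ]
        · have hψ1 : (ψ : ↥(P : Subgroup G) → ℂ) 1 = 1 := by rw [hd ψ, hlin ψ hcψ]; simp
          have hψc := Helper24.isCharacter_of_isIrrCharacter ψ.2
          have ha := Helper5.linChar_ne_zero hψc hψ1 a
          have hb := Helper5.linChar_ne_zero hψc hψ1 b
          have e : (ψ : ↥(P : Subgroup G) → ℂ) (a * b * a⁻¹ * b⁻¹) = 1 := by
            rw [Helper5.linChar_mul hψc hψ1, Helper5.linChar_mul hψc hψ1,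
              Helper5.linChar_mul hψc hψ1, Helper5.linChar_inv hψc hψ1,
              Helper5.linChar_inv hψc hψ1]
            field_simp
          rw [e, hψ1]
      have h3 := hfaith _ hval
      have h4 : a * b * a⁻¹ * b⁻¹ = 1 := Subtype.ext (by rw [h3]; rfl)
      calc a * b = (a * b * a⁻¹ * b⁻¹) * b * a := by group
        _ = b * a := by rw [h4, one_mul]
    have hvan : ∀ g : G, g ∈ (P : Subgroup G) → g ≠ 1 → χ.1 g = 0 := by
      intro g hg hg1
      apply hcop g hg _ hg1
      intro y hy
      have := hab ⟨g, hg⟩ ⟨y, hy⟩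
      exact congrArg Subtype.val this
    obtain ⟨k', hk'⟩ := Helper24.exists_eq_card_mul_of_vanish (P : Subgroup G) χ.1 hχc hvan
    rw [hdeg] at hk'
    have hk'' : p = Nat.card (P : Subgroup G) * k' := by exact_mod_cast hk'
    have hdv : p ^ 2 ∣ p := hPdvd.trans ⟨k', hk''⟩
    have := Nat.le_of_dvd hp.pos hdv
    have h2 := hp.two_le
    nlinarith
  · push Not at hlin
    obtain ⟨ψ, hcψ, hdψ⟩ := hlin
    have hdp : p ∣ d ψ := by
      have h1 : d ψ ∣ p ^ k := by rw [← hk]; exact hdd ψ
      obtain ⟨j, hj, hjeq⟩ := (Nat.dvd_prime_pow hp).mp h1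
      rw [hjeq]
      rcases Nat.eq_zero_or_pos j with h0 | hpos
      · exfalso; apply hdψ; rw [hjeq, h0, pow_zero]
      · exact dvd_pow_self p hpos.ne'
    have hterm : c ψ * d ψ ≤ p := by
      rw [← hsum]
      exact Finset.single_le_sum (f := fun ψ => c ψ * d ψ) (fun _ _ => Nat.zero_le _)
        (Finset.mem_univ ψ)
    have hdle : p ≤ d ψ := Nat.le_of_dvd (Nat.pos_of_ne_zero (hd0 ψ)) hdp
    have hcpos : 1 ≤ c ψ := Nat.one_le_iff_ne_zero.mpr hcψ
    have hc1' : c ψ = 1 := by nlinarith [hp.pos]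
    have hdeq : d ψ = p := by nlinarith
    have hothers : ∀ ψ' : IrrCharacter (P : Subgroup G), ψ' ≠ ψ → c ψ' = 0 := by
      intro ψ' hne
      by_contra h0
      have h2 : c ψ * d ψ + c ψ' * d ψ' ≤ p := by
        rw [← hsum]
        have := Finset.sum_le_sum_of_subset (f := fun ψ => c ψ * d ψ)
          (Finset.subset_univ ({ψ, ψ'} : Finset (IrrCharacter (P : Subgroup G))))
        rw [Finset.sum_pair hne.symm] at this
        exact this
      have h3 : 1 ≤ c ψ' * d ψ' := Nat.one_le_iff_ne_zero.mpr (Nat.mul_ne_zero h0 (hd0 ψ'))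
      rw [hc1', hdeq] at h2
      omega
    have hχψ : ∀ z : (P : Subgroup G), χ.1 z = (ψ : ↥(P : Subgroup G) → ℂ) z := by
      intro z
      have h1 := congrFun hc2 z
      simp only [Finset.sum_apply, Pi.smul_apply, smul_eq_mul] at h1
      rw [h1, Finset.sum_eq_single ψ]
      · rw [hc1']; simp
      · intro ψ' _ hne; rw [hothers ψ' hne]; simp
      · intro h; exact absurd (Finset.mem_univ ψ) h
    obtain ⟨m, σ, hσ, hψ⟩ := ψ.2
    haveI := hσ
    have hfinm : Module.finrank ℂ (Fin m → ℂ) = m := by simp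
    have hm : m = p := by
      have h1 : σ.character 1 = (m : ℂ) := by rw [Representation.char_one, hfinm]
      rw [hψ, hd ψ, hdeq] at h1
      exact_mod_cast h1.symm
    have hcenter : ∀ z : (P : Subgroup G), z ∈ Subgroup.center (P : Subgroup G) → z = 1 := by
      intro z hz
      have hcomm : ∀ g : (P : Subgroup G), σ z ∘ₗ σ g = σ g ∘ₗ σ z := by
        intro g
        have := (Subgroup.mem_center_iff.mp hz) g
        show σ z * σ g = σ g * σ z
        rw [← map_mul, ← map_mul, this]
      have hsc := Helper24.eq_smul_of_comm_of_irreducible σ (σ z) hcomm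
      have hnorm : ‖σ.character z‖ = (Module.finrank ℂ (Fin m → ℂ) : ℝ) :=
        (Helper24.norm_char_eq_finrank_iff σ z).mpr ⟨_, hsc⟩
      have h1 : ‖χ.1 (z : G)‖ = (p : ℝ) := by
        rw [hχψ z, ← hψ, hnorm, hfinm, hm]
      exact Subtype.ext (key _ h1)
    haveI : Nontrivial (P : Subgroup G) := by
      rw [← Finite.one_lt_card_iff_nontrivial]
      have := Nat.le_of_dvd Nat.card_pos hPdvd
      have h2 := hp.two_le
      nlinarith
    haveI := hPp.center_nontrivial
    obtain ⟨z, hz⟩ := exists_ne (1 : Subgroup.center (P : Subgroup G))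
    apply hz
    exact Subtype.ext (hcenter z.1 z.2)

end Cfsg.Agent.S3968
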