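import Cfsg.Statements.S3970
import Mathlib
import Cfsg.Agent.Helper20.AbSylow

set_option autoImplicit false
open Cfsg

namespace Cfsg.Agent.S3970

universe u

theorem aux : ∀ (n : ℕ) (G : Type u) [Group G] [Finite G], Nat.card G = n →
    (∀ p : ℕ, p.Prime → p ∣ Nat.card G → (∃ q : ℕ, q.Prime ∧ q ∣ Nat.card G ∧ p < q) →
      ∀ P : Sylow p G, IsMulCommutative (P : Subgroup G) ∧ Group.rank (P : Subgroup G) ≤ 2) →
    ¬ 12 ∣ Nat.card G → Group.IsSolvable G := by
  intro n
  induction n using Nat.strong_induction_on with
  | _ n IH =>
  intro G _ _ hn h h12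
  by_cases h1 : Nat.card G = 1
  · haveI : Subsingleton G := (Nat.card_eq_one_iff_unique.mp h1).1
    exact Group.isSolvable_of_comm (fun a b => Subsingleton.elim _ _)
  obtain ⟨p, hpdef⟩ : ∃ p, p = (Nat.card G).minFac := ⟨_, rfl⟩
  have hp : p.Prime := hpdef ▸ Nat.minFac_prime h1
  haveI : Fact p.Prime := ⟨hp⟩
  have hpG : p ∣ Nat.card G := hpdef ▸ Nat.minFac_dvd _
  have hmin : ∀ q : ℕ, q.Prime → q ∣ Nat.card G → p ≤ q := by
    intro q hq hqG
    rw [hpdef]; exact Nat.minFac_le_of_dvd hq.two_le hqG
  by_cases hbig : ∃ q : ℕ, q.Prime ∧ q ∣ Nat.card G ∧ p < q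
  · obtain ⟨P⟩ : Nonempty (Sylow p G) := inferInstance
    obtain ⟨hab, hrank⟩ := h p hp hpG hbig P
    have hNC : Subgroup.normalizer ((P : Subgroup G) : Set G) ≤
        Subgroup.centralizer ((P : Subgroup G) : Set G) := by
      by_contra hcon
      obtain ⟨q, j, hq, hqp, hqG, hj1, hjle, hpj, hqd⟩ :=
        Cfsg.Agent.Helper20.exists_prime_of_not_le_centralizer p P hab hcon
      have hpq : p < q := lt_of_le_of_ne (hmin q hq hqG) (Ne.symm hqp)
      have h2le := hp.two_le
      have hj2 : j = 1 ∨ j = 2 := by omega
      rcases hj2 with rfl | rfl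
      · rw [pow_one] at hqd
        have h3 : q ≤ p - 1 := Nat.le_of_dvd (by omega) hqd
        omega
      · have e : p ^ 2 - 1 = (p + 1) * (p - 1) := by
          have h5 := Nat.sq_sub_sq p 1
          rw [one_pow] at h5
          exact h5
        rw [e] at hqd
        rcases (Nat.Prime.dvd_mul hq).mp hqd with h3 | h3
        · have h4 : q ≤ p + 1 := Nat.le_of_dvd (by omega) h3
          have hq' : q = p + 1 := by omega
          have hp2 : p = 2 := by
            rcases hp.eq_two_or_odd with h5 | h5
            · exact h5
            · rcases hq.eq_two_or_odd with h6 | h6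
              · omega
              · omega
          have hq3 : q = 3 := by omega
          apply h12
          have h4' : 4 ∣ Nat.card G := by
            have h6 := hpj.trans (Subgroup.card_subgroup_dvd_card (P : Subgroup G))
            rw [hp2] at h6
            exact h6
          have h3' : 3 ∣ Nat.card G := hq3 ▸ hqG
          exact Nat.Coprime.mul_dvd_of_dvd_of_dvd (by decide : Nat.Coprime 4 3) h4' h3'
        · have h4 : q ≤ p - 1 := Nat.le_of_dvd (by omega) h3
          omega
    have hcompl := MonoidHom.ker_transferSylow_isComplement' P hNC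
    have hpK : ¬ p ∣ Nat.card (MonoidHom.transferSylow P hNC).ker :=
      MonoidHom.not_dvd_card_ker_transferSylow P hNC
    have hcard := hcompl.card_mul_card
    have hKG : Nat.card (MonoidHom.transferSylow P hNC).ker ∣ Nat.card G :=
      Subgroup.card_subgroup_dvd_card _
    have hPne : (P : Subgroup G) ≠ ⊥ := P.ne_bot_of_dvd_card hpG
    have hPcard : 1 < Nat.card (P : Subgroup G) := (Subgroup.one_lt_card_iff_ne_bot _).mpr hPne
    have hlt : Nat.card (MonoidHom.transferSylow P hNC).ker < n := by
      rw [← hn, ← hcard]
      have hKpos : 0 < Nat.card (MonoidHom.transferSylow P hNC).ker := Nat.card_pos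
      nlinarith
    have hKsolv : Group.IsSolvable (MonoidHom.transferSylow P hNC).ker := by
      refine IH _ hlt (MonoidHom.transferSylow P hNC).ker rfl ?_ (fun h12' => h12 (h12'.trans hKG))
      intro r hr hrK hbigK R
      haveI : Fact r.Prime := ⟨hr⟩
      obtain ⟨q, hq, hqK, hrq⟩ := hbigK
      have hrp : r ≠ p := by
        rintro rfl
        exact hpK hrK
      have hidx : ¬ r ∣ ((R : Subgroup (MonoidHom.transferSylow P hNC).ker).map
          (MonoidHom.transferSylow P hNC).ker.subtype).index := by
        rw [Subgroup.index_map_subtype]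
        intro hd
        rcases (Nat.Prime.dvd_mul hr).mp hd with h3 | h3
        · exact R.not_dvd_index h3
        · rw [hcompl.symm.index_eq_card] at h3
          obtain ⟨k, hk⟩ := P.isPGroup'.exists_card_eq
          rw [hk] at h3
          exact hrp ((Nat.prime_dvd_prime_iff_eq hr hp).mp (hr.dvd_of_dvd_pow h3))
      obtain ⟨hab', hrank'⟩ := h r hr (hrK.trans hKG) ⟨q, hq, hqK.trans hKG, hrq⟩
        ((R.isPGroup'.map (MonoidHom.transferSylow P hNC).ker.subtype).toSylow hidx)
      have hab'' : IsMulCommutative ↥((R : Subgroup (MonoidHom.transferSylow P hNC).ker).map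
          (MonoidHom.transferSylow P hNC).ker.subtype) := hab'
      have hrank'' : Group.rank ↥((R : Subgroup (MonoidHom.transferSylow P hNC).ker).map
          (MonoidHom.transferSylow P hNC).ker.subtype) ≤ 2 := hrank'
      refine ⟨⟨⟨fun a b => ?_⟩⟩, ?_⟩
      · apply ((R : Subgroup (MonoidHom.transferSylow P hNC).ker).equivMapOfInjective
          (MonoidHom.transferSylow P hNC).ker.subtype (Subgroup.subtype_injective _)).injective
        rw [map_mul, map_mul]
        exact mul_comm' _ _
      · refine le_trans (Group.rank_le_of_surjective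
          ((R : Subgroup (MonoidHom.transferSylow P hNC).ker).equivMapOfInjective
          (MonoidHom.transferSylow P hNC).ker.subtype
          (Subgroup.subtype_injective _)).symm.toMonoidHom
          ((R : Subgroup (MonoidHom.transferSylow P hNC).ker).equivMapOfInjective
          (MonoidHom.transferSylow P hNC).ker.subtype
          (Subgroup.subtype_injective _)).symm.surjective) hrank''
    haveI : Group.IsSolvable (P : Subgroup G) := by
      haveI := hab
      exact Group.isSolvable_of_comm (fun a b => mul_comm' a b)
    exact Group.isSolvable_of_ker_le_range (MonoidHom.transferSylow P hNC).ker.subtype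
      (MonoidHom.transferSylow P hNC) (by rw [Subgroup.range_subtype])
  · have hall : ∀ q : ℕ, q.Prime → q ∣ Nat.card G → q = p := by
      intro q hq hqG
      by_contra hne
      exact hbig ⟨q, hq, hqG, lt_of_le_of_ne (hmin q hq hqG) (Ne.symm hne)⟩
    have hcard : Nat.card G = p ^ (Nat.card G).primeFactorsList.length :=
      Nat.eq_prime_pow_of_unique_prime_dvd (Nat.card_pos (α := G)).ne'
        (fun {d} hd hdG => hall d hd hdG)
    haveI : Group.IsNilpotent G := (IsPGroup.of_card hcard).isNilpotent
    exact inferInstance

/-- Let `G` be a finite group such that for every prime `p` dividing its order, other than the largest such prime, the Sylow `p`-subgroups are abelian and generated by at most two elements, and suppose `12` does not divide the order of `G`. Then `G` is solvable. In particular a group of cube-free order not divisible by `12` is solvable. -/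
theorem result {G : Type*} [Group G] [Finite G] (h : ∀ p : ℕ, p.Prime → p ∣ Nat.card G → (∃ q : ℕ, q.Prime ∧ q ∣ Nat.card G ∧ p < q) → ∀ P : Sylow p G, IsMulCommutative (P : Subgroup G) ∧ Group.rank (P : Subgroup G) ≤ 2) (h12 : ¬ 12 ∣ Nat.card G) : Group.IsSolvable G :=
  aux (Nat.card G) G rfl h h12

end Cfsg.Agent.S3970
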