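import Cfsg.Statements.S3972
import Cfsg.Agent.Helper2.Schur

set_option autoImplicit false
open Cfsg

namespace Cfsg.Agent.S3972

/-- Let `p` be a prime, `m ≥ 2`, and `G` a transitive but not doubly transitive permutation group on `p ^ m` points containing a permutation of order `p ^ m` (necessarily a full cycle). Then `G` is imprimitive, and the normal closure in `G` of the `p ^ (m - 1)`-th power of that permutation is an intransitive normal subgroup. -/
theorem result {Ω : Type*} [Fintype Ω] [DecidableEq Ω] (p m : ℕ) (hp : p.Prime) (hm : 2 ≤ m) (hΩ : Fintype.card Ω = p ^ m) (G : Subgroup (Equiv.Perm Ω)) (htr : MulAction.IsPretransitive G Ω) (h2 : ¬ MulAction.IsMultiplyPretransitive G Ω 2) (g : G) (hg : orderOf g = p ^ m) : ¬ MulAction.IsPreprimitive G Ω ∧ ¬ MulAction.IsPretransitive (Subgroup.normalClosure ({g ^ (p ^ (m - 1))} : Set G)) Ω := by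
  have hfaith : ∀ x : ↥G, (∀ ω : Ω, x • ω = ω) → x = 1 := by
    intro x hx
    apply Subtype.ext
    apply Equiv.ext
    intro ω
    exact hx ω
  exact Helper2.Schur.burnside_aux hfaith p m hp hm
    (by rw [Nat.card_eq_fintype_card]; exact hΩ) htr h2 g hg

end Cfsg.Agent.S3972
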