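import Cfsg.Statements.S3973
import Cfsg.Agent.Helper20.MultRank

set_option autoImplicit false
open Cfsg

namespace Cfsg.Agent.S3973

/-- If a finite group is presented by `n` generators and a finite set of `r` relators, then its Schur multiplier can be generated by `r - n` elements. In particular a finite group with a presentation having as many relators as generators has trivial Schur multiplier. -/
theorem result (n : ℕ) (rels : Finset (FreeGroup (Fin n))) [Finite (PresentedGroup (rels : Set (FreeGroup (Fin n))))] {A : Type*} [CommGroup A] [Finite A] (hA : Cfsg.HasSchurMultiplier (PresentedGroup (rels : Set (FreeGroup (Fin n)))) A) : Group.rank A ≤ rels.card - n := by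
  obtain ⟨⟨Γ, hG, hfin, σ, ⟨hs, hc, hd⟩, ⟨e⟩⟩, -⟩ := hA
  obtain ⟨S, hS, hcl⟩ := Cfsg.Agent.Helper20.MultRank.ker_generated rels σ hs hc hd
  have h1 : Group.rank σ.ker ≤ S.card := Group.rank_le hcl
  have h2 : Group.rank σ.ker = Group.rank A := Group.rank_congr e
  omega

end Cfsg.Agent.S3973
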