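import Mathlib
import Cfsg.Statements.S3975

set_option autoImplicit false
open Cfsg

namespace Cfsg.Agent.S3975

open scoped Pointwise

theorem choose_pred_modEq_one (p : ℕ) (hp : p.Prime) (β : ℕ) :
    ∀ k : ℕ, 0 < k → Nat.choose (p ^ β * k - 1) (p ^ β - 1) ≡ 1 [MOD p] := by
  induction β with
  | zero => intro k hk; simp [Nat.ModEq]
  | succ β ih =>
    intro k hk
    have : Fact p.Prime := ⟨hp⟩
    have hp1 : 1 ≤ p := hp.pos
    have hM : 1 ≤ p ^ β * k := Nat.mul_pos (pow_pos hp.pos β) hk
    have hM' : 1 ≤ p ^ β := pow_pos hp.pos β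
    have hn : p ^ (β + 1) * k - 1 = (p - 1) + p * (p ^ β * k - 1) := by
      have : p ^ (β + 1) * k = p * (p ^ β * k) := by ring
      rw [this]
      obtain ⟨M, hMe⟩ : ∃ M, p ^ β * k = M + 1 := ⟨p ^ β * k - 1, by omega⟩
      rw [hMe]
      obtain ⟨p', rfl⟩ : ∃ p', p = p' + 1 := ⟨p - 1, by omega⟩
      simp only [Nat.add_sub_cancel]
      ring_nf
      omega
    have hr : p ^ (β + 1) - 1 = (p - 1) + p * (p ^ β - 1) := by
      have : p ^ (β + 1) = p * p ^ β := by ring
      rw [this]
      obtain ⟨M, hMe⟩ : ∃ M, p ^ β = M + 1 := ⟨p ^ β - 1, by omega⟩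
      rw [hMe]
      obtain ⟨p', rfl⟩ : ∃ p', p = p' + 1 := ⟨p - 1, by omega⟩
      simp only [Nat.add_sub_cancel]
      ring_nf
      omega
    have h := Choose.choose_modEq_choose_mod_mul_choose_div_nat (p := p) (n := p ^ (β + 1) * k - 1)
      (k := p ^ (β + 1) - 1)
    have hlt : p - 1 < p := by omega
    rw [hn, hr, Nat.add_mul_mod_self_left, Nat.add_mul_mod_self_left, Nat.mod_eq_of_lt hlt,
      Nat.add_mul_div_left _ _ hp.pos, Nat.add_mul_div_left _ _ hp.pos, Nat.div_eq_of_lt hlt,
      Nat.choose_self, zero_add, zero_add, one_mul] at h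
    rw [hn, hr]
    exact h.trans (ih k hk)

theorem choose_eq (q k : ℕ) (hq : 0 < q) (hk : 0 < k) :
    Nat.choose (q * k) q = k * Nat.choose (q * k - 1) (q - 1) := by
  obtain ⟨q', rfl⟩ : ∃ q', q = q' + 1 := ⟨q - 1, by omega⟩
  obtain ⟨n, hn⟩ : ∃ n, (q' + 1) * k = n + 1 := ⟨(q' + 1) * k - 1, by
    have : 0 < (q' + 1) * k := Nat.mul_pos (by omega) hk
    omega⟩
  rw [hn]
  simp only [Nat.add_sub_cancel]
  have h := Nat.add_one_mul_choose_eq n q'
  rw [← hn] at h
  have h2 : (q' + 1) * (k * n.choose q') = (q' + 1) * ((n + 1).choose (q' + 1)) := by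
    rw [← mul_assoc, h, hn]; ring
  exact (Nat.eq_of_mul_eq_mul_left (by omega) h2).symm

/-- A finite set invariant under left multiplication by a subgroup has cardinality divisible by
the order of the subgroup. -/
theorem card_dvd_of_invariant {G : Type*} [Group G] [Fintype G] [DecidableEq G] (T : Subgroup G) :
    ∀ (n : ℕ) (S : Finset G), S.card = n → (∀ t ∈ T, ∀ s ∈ S, t * s ∈ S) → Nat.card T ∣ S.card := by
  classical
  intro n
  induction n using Nat.strong_induction_on with
  | _ n ih =>
    intro S hS hinv
    rcases S.eq_empty_or_nonempty with rfl | ⟨s₀, hs₀⟩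
    · simp
    · set Tf : Finset G := Finset.univ.filter (fun t => t ∈ T) with hTf
      have hTfc : Tf.card = Nat.card T := by
        rw [Nat.card_eq_fintype_card]
        exact (Fintype.card_of_subtype Tf (fun x => by simp [hTf])).symm
      set C : Finset G := Tf.image (· * s₀) with hC
      have hCc : C.card = Nat.card T := by
        rw [hC, Finset.card_image_of_injective _ (mul_left_injective s₀), hTfc]
      have hCS : C ⊆ S := by
        intro x hx
        rw [hC, Finset.mem_image] at hx
        obtain ⟨t, ht, rfl⟩ := hx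
        exact hinv t (by simpa [hTf] using ht) s₀ hs₀
      have hcard := Finset.card_sdiff_add_card_eq_card hCS
      have hpos : 0 < Nat.card T := Nat.card_pos
      have hlt : (S \ C).card < n := by omega
      have hinv' : ∀ t ∈ T, ∀ s ∈ S \ C, t * s ∈ S \ C := by
        intro t ht s hs
        rw [Finset.mem_sdiff] at hs ⊢
        refine ⟨hinv t ht s hs.1, fun hts => hs.2 ?_⟩
        rw [hC, Finset.mem_image] at hts ⊢
        obtain ⟨t', ht', hts'⟩ := hts
        refine ⟨t⁻¹ * t', ?_, ?_⟩
        · simp only [hTf, Finset.mem_filter, Finset.mem_univ, true_and] at ht' ⊢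
          exact T.mul_mem (T.inv_mem ht) ht'
        · show t⁻¹ * t' * s₀ = s
          rw [mul_assoc, hts']; group
      have := ih _ hlt (S \ C) rfl hinv'
      rw [← hcard, hCc]
      exact Dvd.dvd.add this (dvd_refl _)

/-- If every orbit meeting an invariant finite set has size divisible by `d`, so has the set. -/
theorem dvd_card_of_orbits {G X : Type*} [Group G] [Finite G] [MulAction G X] [DecidableEq X] (d : ℕ) :
    ∀ (n : ℕ) (A : Finset X), A.card = n → (∀ g : G, ∀ x ∈ A, g • x ∈ A) →
      (∀ x ∈ A, d ∣ (MulAction.orbit G x).ncard) → d ∣ A.card := by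
  intro n
  induction n using Nat.strong_induction_on with
  | _ n ih =>
    intro A hA hinv hd
    rcases A.eq_empty_or_nonempty with rfl | ⟨x, hx⟩
    · simp
    · have hfin : (MulAction.orbit G x).Finite := Set.finite_range _
      set O : Finset X := hfin.toFinset with hO
      have hOc : O.card = (MulAction.orbit G x).ncard := (Set.ncard_eq_toFinset_card _ hfin).symm
      have hOA : O ⊆ A := by
        intro y hy
        rw [hO, Set.Finite.mem_toFinset] at hy
        obtain ⟨g, rfl⟩ := hy
        exact hinv g x hx
      have hxO : x ∈ O := by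
        rw [hO, Set.Finite.mem_toFinset]
        exact MulAction.mem_orbit_self x
      have hcard := Finset.card_sdiff_add_card_eq_card hOA
      have hpos : 0 < O.card := Finset.card_pos.mpr ⟨x, hxO⟩
      have hlt : (A \ O).card < n := by omega
      have hinv' : ∀ g : G, ∀ y ∈ A \ O, g • y ∈ A \ O := by
        intro g y hy
        rw [Finset.mem_sdiff] at hy ⊢
        refine ⟨hinv g y hy.1, fun hgy => hy.2 ?_⟩
        rw [hO, Set.Finite.mem_toFinset] at hgy ⊢
        obtain ⟨h, hh⟩ := hgy
        refine ⟨g⁻¹ * h, ?_⟩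
        show (g⁻¹ * h) • x = y
        rw [mul_smul]
        have : h • x = g • y := hh
        rw [this, inv_smul_smul]
      have := ih _ hlt (A \ O) rfl hinv' (fun y hy => hd y (Finset.mem_sdiff.mp hy).1)
      rw [← hcard, hOc]
      exact Dvd.dvd.add this (hd x hx)

/-- Let `p` be a prime and `G` a finite group whose order is divisible by `p ^ β`. Then the number of subgroups of `G` of order `p ^ β` is congruent to `1` modulo `p`. (When `p ^ β` is the full power of `p` dividing the order, these are the Sylow `p`-subgroups and this is the usual Sylow count.) -/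
theorem result {G : Type*} [Group G] [Finite G] (p β : ℕ) (hp : p.Prime) (hdiv : p ^ β ∣ Nat.card G) : Nat.card {H : Subgroup G // Nat.card H = p ^ β} ≡ 1 [MOD p] := by
  classical
  have : Fintype G := Fintype.ofFinite G
  have : Fintype (Subgroup G) := Fintype.ofFinite _
  set q := p ^ β with hq
  have hqpos : 0 < q := pow_pos hp.pos β
  obtain ⟨k, hk⟩ := hdiv
  have hcardG : Fintype.card G = q * k := by rw [← Nat.card_eq_fintype_card, hk]
  have hkpos : 0 < k := by
    rcases Nat.eq_zero_or_pos k with h0 | h0
    · rw [h0, mul_zero] at hk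
      exact absurd hk (Nat.card_pos (α := G)).ne'
    · exact h0
  set Ω : Finset (Finset G) := Finset.powersetCard q Finset.univ with hΩ
  have hΩmem : ∀ S : Finset G, S ∈ Ω ↔ S.card = q := by
    intro S; rw [hΩ, Finset.mem_powersetCard]; simp
  have hΩcard : Ω.card = Nat.choose (q * k) q := by
    rw [hΩ, Finset.card_powersetCard, Finset.card_univ, hcardG]
  set Ω₀ := Ω.filter (fun S => Nat.card (MulAction.stabilizer G S) = q) with hΩ₀
  set Ω₁ := Ω.filter (fun S => ¬ Nat.card (MulAction.stabilizer G S) = q) with hΩ₁
  have hsplit : Ω₀.card + Ω₁.card = Ω.card := Finset.card_filter_add_card_filter_not _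
  -- stabilizers have order dividing q
  have hstabdvd : ∀ S : Finset G, S.card = q → Nat.card (MulAction.stabilizer G S) ∣ q := by
    intro S hS
    have := card_dvd_of_invariant (MulAction.stabilizer G S) q S hS (by
      intro t ht s hs
      exact MulAction.mem_stabilizer_finset'.mp ht hs)
    rwa [hS] at this
  -- (A) p * k divides |Ω₁|
  have hA : p * k ∣ Ω₁.card := by
    apply dvd_card_of_orbits (G := G) (p * k) _ Ω₁ rfl
    · intro g S hS
      rw [hΩ₁, Finset.mem_filter, hΩmem] at hS ⊢
      refine ⟨by rw [Finset.card_smul_finset]; exact hS.1, ?_⟩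
      rw [MulAction.stabilizer_smul_eq_stabilizer_map_conj,
        Subgroup.card_map_of_injective (MulAut.conj g).injective]
      exact hS.2
    · intro S hS
      rw [hΩ₁, Finset.mem_filter, hΩmem] at hS
      obtain ⟨i, hi, hTi⟩ := (Nat.dvd_prime_pow hp).mp (hstabdvd S hS.1)
      have hilt : i < β := by
        rcases Nat.lt_or_ge i β with h | h
        · exact h
        · exfalso
          have : i = β := le_antisymm hi h
          exact hS.2 (by rw [hTi, this])
      have h1 := (MulAction.stabilizer G S).card_mul_index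
      rw [MulAction.index_stabilizer, hTi, hk] at h1
      have h2 : q = p ^ i * (p * p ^ (β - i - 1)) := by
        rw [hq, ← pow_succ', ← pow_add]
        congr 1
        omega
      rw [h2, mul_assoc] at h1
      have h3 := Nat.eq_of_mul_eq_mul_left (pow_pos hp.pos i) h1
      rw [h3]
      exact ⟨p ^ (β - i - 1), by ring⟩
  -- (B) |Ω₀| = N * k
  set Subs : Finset (Subgroup G) := Finset.univ.filter (fun H => Nat.card H = q) with hSubs
  have hN : Nat.card {H : Subgroup G // Nat.card H = q} = Subs.card := by
    rw [Nat.card_eq_fintype_card]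
    exact Fintype.card_of_subtype Subs (fun x => by simp [hSubs])
  have hfib : ∀ H ∈ Subs, (Ω₀.filter (fun S => MulAction.stabilizer G S = H)).card = k := by
    intro H hH
    rw [hSubs, Finset.mem_filter] at hH
    have hHq : Nat.card H = q := hH.2
    set F := Ω₀.filter (fun S => MulAction.stabilizer G S = H) with hF
    have hFmem : ∀ S : Finset G, S ∈ F ↔ S.card = q ∧ MulAction.stabilizer G S = H := by
      intro S
      rw [hF, Finset.mem_filter, hΩ₀, Finset.mem_filter, hΩmem]
      constructor
      · rintro ⟨⟨h1, _⟩, h3⟩; exact ⟨h1, h3⟩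
      · rintro ⟨h1, h3⟩; exact ⟨⟨h1, by rw [h3, hHq]⟩, h3⟩
    set Hf : Finset G := Finset.univ.filter (fun t => t ∈ H) with hHf
    have hHfc : Hf.card = q := by
      rw [← hHq, Nat.card_eq_fintype_card]
      exact (Fintype.card_of_subtype Hf (fun x => by simp [hHf])).symm
    let c : G → Finset G := fun g => Hf.image (· * g)
    have hcc : ∀ g, (c g).card = q := by
      intro g
      show (Hf.image (· * g)).card = q
      rw [Finset.card_image_of_injective _ (mul_left_injective g), hHfc]
    have hcmem : ∀ g x, x ∈ c g ↔ ∃ h ∈ H, h * g = x := by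
      intro g x
      show x ∈ Hf.image (· * g) ↔ _
      rw [Finset.mem_image]
      simp [hHf]
    have hgc : ∀ g, g ∈ c g := fun g => (hcmem g g).mpr ⟨1, H.one_mem, one_mul g⟩
    have hc1 : ∀ g, c g ∈ F := by
      intro g
      rw [hFmem]
      refine ⟨hcc g, ?_⟩
      ext a
      rw [MulAction.mem_stabilizer_finset']
      constructor
      · intro h
        have := h (hgc g)
        rw [smul_eq_mul, hcmem] at this
        obtain ⟨h', hh', he⟩ := this
        have : a = h' := mul_right_cancel he.symm
        rw [this]; exact hh'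
      · intro ha b hb
        rw [hcmem] at hb
        obtain ⟨h', hh', rfl⟩ := hb
        rw [smul_eq_mul, hcmem]
        exact ⟨a * h', H.mul_mem ha hh', mul_assoc _ _ _⟩
    have hc2 : ∀ S ∈ F, ∀ g, c g = S ↔ g ∈ S := by
      intro S hS g
      rw [hFmem] at hS
      constructor
      · intro h; rw [← h]; exact hgc g
      · intro hg
        apply Finset.eq_of_subset_of_card_le
        · intro x hx
          rw [hcmem] at hx
          obtain ⟨h', hh', rfl⟩ := hx
          have h'S : h' ∈ MulAction.stabilizer G S := by rw [hS.2]; exact hh'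
          exact MulAction.mem_stabilizer_finset'.mp h'S hg
        · rw [hcc g, hS.1]
    have hsum := Finset.card_eq_sum_card_fiberwise (f := c) (s := (Finset.univ : Finset G)) (t := F)
      (fun g _ => hc1 g)
    have hsum2 : ∑ S ∈ F, (Finset.univ.filter (fun g => c g = S)).card = ∑ S ∈ F, q := by
      apply Finset.sum_congr rfl
      intro S hS
      have : Finset.univ.filter (fun g => c g = S) = S := by
        ext g
        rw [Finset.mem_filter]
        simp [hc2 S hS g]
      rw [this]
      exact ((hFmem S).mp hS).1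
    rw [hsum2, Finset.sum_const, smul_eq_mul, Finset.card_univ, hcardG, mul_comm] at hsum
    exact (Nat.eq_of_mul_eq_mul_right hqpos hsum).symm
  have hB : Ω₀.card = Subs.card * k := by
    have hsum := Finset.card_eq_sum_card_fiberwise (f := fun S : Finset G => MulAction.stabilizer G S)
      (s := Ω₀) (t := Subs) (by
        intro S hS
        have hS' : S ∈ Ω₀ := hS
        rw [hΩ₀, Finset.mem_filter] at hS'
        show MulAction.stabilizer G S ∈ Subs
        rw [hSubs, Finset.mem_filter]
        exact ⟨Finset.mem_univ _, hS'.2⟩)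
    rw [hsum, Finset.sum_congr rfl hfib, Finset.sum_const, smul_eq_mul]
  -- conclusion
  obtain ⟨j, hj⟩ := hA
  have hchoose := choose_eq q k hqpos hkpos
  have hc1 := choose_pred_modEq_one p hp β k hkpos
  rw [← hq] at hc1
  set c := Nat.choose (q * k - 1) (q - 1) with hcdef
  have hfinal : k * c = k * (Subs.card + p * j) := by
    rw [← hchoose, ← hΩcard, ← hsplit, hB, hj]; ring
  have hceq : c = Subs.card + p * j := Nat.eq_of_mul_eq_mul_left hkpos hfinal
  rw [hN]
  have : Subs.card ≡ c [MOD p] := by
    rw [hceq]
    exact (Nat.modEq_iff_dvd' (Nat.le_add_right _ _)).mpr (by simp)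
  exact this.trans hc1

end Cfsg.Agent.S3975
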