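import Cfsg.Statements.S3976
import Cfsg.Agent.S3975
import Mathlib

set_option autoImplicit false
open Cfsg

namespace Cfsg.Agent.S3976

theorem mem_map_conj {G : Type*} [Group G] (K : Subgroup G) (g y : G) :
    y ∈ K.map (MulAut.conj g).toMonoidHom ↔ g⁻¹ * y * g ∈ K := by
  rw [Subgroup.mem_map]
  constructor
  · rintro ⟨x, hx, rfl⟩
    have : g⁻¹ * ((MulAut.conj g).toMonoidHom x) * g = x := by
      simp [MulAut.conj_apply, mul_assoc]
    rw [this]; exact hx
  · intro h
    refine ⟨g⁻¹ * y * g, h, ?_⟩
    simp [MulAut.conj_apply, mul_assoc]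

/-- Let `p` be a prime and `G` a group of order `p ^ m`. For every `s ≤ m` the number of normal subgroups of `G` of order `p ^ s` is congruent to `1` modulo `p`. -/
theorem result {G : Type*} [Group G] [Finite G] (p m s : ℕ) (hp : p.Prime) (hG : Nat.card G = p ^ m) (hs : s ≤ m) : Nat.card {H : Subgroup G // H.Normal ∧ Nat.card H = p ^ s} ≡ 1 [MOD p] := by
  classical
  haveI : Fact p.Prime := ⟨hp⟩
  have hPG : IsPGroup p G := IsPGroup.of_card hG
  have hdiv : p ^ s ∣ Nat.card G := by rw [hG]; exact pow_dvd_pow p hs
  have h1 := Cfsg.Agent.S3975.result (G := G) p s hp hdiv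
  letI act : MulAction G {H : Subgroup G // Nat.card H = p ^ s} :=
    { smul := fun g H => ⟨H.1.map (MulAut.conj g).toMonoidHom, by
        rw [Subgroup.card_map_of_injective (MulAut.conj g).injective]; exact H.2⟩
      one_smul := by
        intro H
        apply Subtype.ext
        show H.1.map (MulAut.conj (1:G)).toMonoidHom = H.1
        ext x
        rw [mem_map_conj]
        simp
      mul_smul := by
        intro g h H
        apply Subtype.ext
        show H.1.map (MulAut.conj (g*h)).toMonoidHom = (H.1.map (MulAut.conj h).toMonoidHom).map (MulAut.conj g).toMonoidHom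
        ext x
        rw [mem_map_conj, mem_map_conj, mem_map_conj]
        simp [mul_assoc] }
  have hsmul : ∀ (g : G) (H : {H : Subgroup G // Nat.card H = p ^ s}),
      (g • H).1 = H.1.map (MulAut.conj g).toMonoidHom := fun g H => rfl
  have h2 := hPG.card_modEq_card_fixedPoints {H : Subgroup G // Nat.card H = p ^ s}
  have e : MulAction.fixedPoints G {H : Subgroup G // Nat.card H = p ^ s} ≃
      {H : Subgroup G // H.Normal ∧ Nat.card H = p ^ s} :=
    { toFun := fun H => ⟨H.1.1, by
        refine ⟨⟨?_⟩, H.1.2⟩
        intro n hn g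
        have hfix := H.2 g
        have h3 : (g • H.1).1 = H.1.1 := by rw [hfix]
        rw [hsmul] at h3
        rw [← h3, mem_map_conj]
        have : g⁻¹ * (g * n * g⁻¹) * g = n := by group
        rw [this]; exact hn⟩
      invFun := fun H => ⟨⟨H.1, H.2.2⟩, by
        intro g
        apply Subtype.ext
        rw [hsmul]
        show H.1.map (MulAut.conj g).toMonoidHom = H.1
        haveI := H.2.1
        ext x
        rw [mem_map_conj]
        constructor
        · intro hx
          have := H.2.1.conj_mem _ hx g
          have h4 : g * (g⁻¹ * x * g) * g⁻¹ = x := by group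
          rwa [h4] at this
        · intro hx
          have := H.2.1.conj_mem _ hx g⁻¹
          rwa [inv_inv] at this⟩
      left_inv := fun H => rfl
      right_inv := fun H => rfl }
  rw [← Nat.card_congr e]
  exact h2.symm.trans h1

end Cfsg.Agent.S3976
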