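import Cfsg.Statements.S3977
import Mathlib

set_option autoImplicit false
open Cfsg

namespace Cfsg.Agent.S3977

universe u

theorem pow_mul_comm_central {G : Type*} [Group G] (x y c : G) (hc : y * x = x * y * c)
    (hcen : ∀ g : G, g * c = c * g) (n : ℕ) : y ^ n * x = x * y ^ n * c ^ n := by
  induction n with
  | zero => simp
  | succ n ih =>
    have h1 : ∀ g : G, g * c ^ n = c ^ n * g :=
      fun g => ((show Commute g c from hcen g).pow_right n).eq
    calc y ^ (n + 1) * x = y ^ n * (y * x) := by rw [pow_succ, mul_assoc]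
      _ = y ^ n * (x * y * c) := by rw [hc]
      _ = (y ^ n * x) * y * c := by simp only [mul_assoc]
      _ = x * y ^ n * c ^ n * y * c := by rw [ih]
      _ = x * y ^ n * (c ^ n * y) * c := by simp only [mul_assoc]
      _ = x * y ^ n * (y * c ^ n) * c := by rw [h1 y]
      _ = x * y ^ (n + 1) * c ^ (n + 1) := by rw [pow_succ, pow_succ]; simp only [mul_assoc]

theorem mul_pow_central {G : Type*} [Group G] (x y c : G) (hc : y * x = x * y * c)
    (hcen : ∀ g : G, g * c = c * g) (n : ℕ) :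
    (x * y) ^ n = x ^ n * y ^ n * c ^ (n * (n - 1) / 2) := by
  induction n with
  | zero => simp
  | succ n ih =>
    have h1 : ∀ (k : ℕ) (g : G), g * c ^ k = c ^ k * g :=
      fun k g => ((show Commute g c from hcen g).pow_right k).eq
    have h2 := pow_mul_comm_central x y c hc hcen n
    have h3 : (n + 1) * (n + 1 - 1) / 2 = n + n * (n - 1) / 2 := by
      rw [Nat.triangle_succ n, add_comm]
    rw [pow_succ, ih, h3]
    calc x ^ n * y ^ n * c ^ (n * (n - 1) / 2) * (x * y)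
        = x ^ n * y ^ n * (c ^ (n * (n - 1) / 2) * (x * y)) := by rw [mul_assoc]
      _ = x ^ n * y ^ n * ((x * y) * c ^ (n * (n - 1) / 2)) := by rw [h1]
      _ = x ^ n * (y ^ n * x) * y * c ^ (n * (n - 1) / 2) := by simp only [mul_assoc]
      _ = x ^ n * (x * y ^ n * c ^ n) * y * c ^ (n * (n - 1) / 2) := by rw [h2]
      _ = x ^ n * x * y ^ n * (c ^ n * y) * c ^ (n * (n - 1) / 2) := by simp only [mul_assoc]
      _ = x ^ n * x * y ^ n * (y * c ^ n) * c ^ (n * (n - 1) / 2) := by rw [h1 n y]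
      _ = x ^ (n + 1) * y ^ (n + 1) * c ^ (n + n * (n - 1) / 2) := by
          rw [pow_succ, pow_succ, pow_add]; simp only [mul_assoc]

theorem comm_of_card_prime {Q : Type*} [Group Q] {p : ℕ} (hp : p.Prime) (hQ : Nat.card Q = p)
    (a b : Q) : a * b = b * a := by
  haveI : Fact p.Prime := ⟨hp⟩
  haveI := isCyclic_of_prime_card hQ
  obtain ⟨g, hg⟩ := IsCyclic.exists_generator (α := Q)
  obtain ⟨i, rfl⟩ := Subgroup.mem_zpowers_iff.mp (hg a)
  obtain ⟨j, rfl⟩ := Subgroup.mem_zpowers_iff.mp (hg b)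
  rw [← zpow_add, ← zpow_add, add_comm]

/-- properties of a subgroup of index `p` in a `p`-group -/
theorem max_props {G : Type*} [Group G] [Finite G] {p m : ℕ} (hp : p.Prime) (hm : 1 ≤ m)
    (hG : Nat.card G = p ^ m) (M : Subgroup G) (hM : Nat.card M = p ^ (m - 1)) :
    M.index = p ∧ M.Normal ∧ (∀ x : G, x ^ p ∈ M) ∧ (∀ x y : G, y⁻¹ * x⁻¹ * y * x ∈ M) := by
  have hidx : M.index = p := by
    have h1 := M.card_mul_index
    rw [hM, hG] at h1
    have h2 : p ^ m = p ^ (m - 1) * p := by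
      rw [← pow_succ]; congr 1; omega
    rw [h2] at h1
    exact Nat.eq_of_mul_eq_mul_left (pow_pos hp.pos _) h1
  have hn : M.Normal := by
    apply Subgroup.normal_of_index_eq_minFac_card
    rw [hidx, hG, Nat.pow_minFac (by omega), hp.minFac_eq]
  haveI := hn
  have hq : Nat.card (G ⧸ M) = p := by rw [← Subgroup.index_eq_card]; exact hidx
  refine ⟨hidx, hn, ?_, ?_⟩
  · intro x
    rw [← QuotientGroup.eq_one_iff, QuotientGroup.mk_pow, ← hq]
    exact pow_card_eq_one'
  · intro x y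
    rw [← QuotientGroup.eq_one_iff]
    simp only [QuotientGroup.mk_mul, QuotientGroup.mk_inv]
    have h := comm_of_card_prime hp hq (x : G ⧸ M) (y : G ⧸ M)
    rw [mul_assoc, ← h]; group

theorem aux (p : ℕ) (hp : p.Prime) : ∀ (m : ℕ) (G : Type u) [Group G] [Finite G] (s : ℕ),
    Nat.card G = p ^ m → 1 ≤ s → s < m → (p ≠ 2 ∨ 2 ≤ s) →
    (∀ H K : Subgroup G, Nat.card H = p ^ s → Nat.card K = p ^ s → H = K) → IsCyclic G := by
  haveI : Fact p.Prime := ⟨hp⟩
  intro m
  induction m using Nat.strong_induction_on with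
  | _ m IH =>
  intro G _ _ s hG hs hsm h2 huniq
  have hdvd : ∀ j, j ≤ m → p ^ j ∣ Nat.card G := fun j hj => by
    rw [hG]; exact pow_dvd_pow p hj
  obtain ⟨H, hH⟩ := Sylow.exists_subgroup_card_pow_prime p (hdvd s hsm.le)
  have hA : ∀ (L : Subgroup G) (j : ℕ), Nat.card L = p ^ j → j ≤ s → L ≤ H := by
    intro L j hL hj
    obtain ⟨K, hK, hLK⟩ := Sylow.exists_subgroup_card_pow_prime_le p (hdvd s hsm.le) L hL hj
    rw [huniq H K hH hK]; exact hLK
  have hord : ∀ x : G, ∃ j, j ≤ m ∧ orderOf x = p ^ j := by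
    intro x
    have h1 : orderOf x ∣ p ^ m := hG ▸ orderOf_dvd_natCard x
    exact (Nat.dvd_prime_pow hp).mp h1
  have hB : ∀ x : G, x ∉ H → ∃ j, s < j ∧ j ≤ m ∧ orderOf x = p ^ j := by
    intro x hx
    obtain ⟨j, hjm, hj⟩ := hord x
    refine ⟨j, ?_, hjm, hj⟩
    by_contra hjs
    push Not at hjs
    exact hx (hA (Subgroup.zpowers x) j (by rw [Nat.card_zpowers, hj]) hjs
      (Subgroup.mem_zpowers x))
  have hHtop : H ≠ ⊤ := by
    intro h
    rw [h, Subgroup.card_top, hG] at hH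
    exact absurd (Nat.pow_right_injective hp.two_le hH) (by omega)
  obtain ⟨x₀, hx₀⟩ : ∃ x : G, x ∉ H := by
    by_contra hall
    push Not at hall
    exact hHtop ((Subgroup.eq_top_iff' H).mpr hall)
  obtain ⟨j₀, hj₀s, hj₀m, hj₀⟩ := hB x₀ hx₀
  by_cases hcase : s + 1 = m
  · have hjm : j₀ = m := by omega
    exact isCyclic_of_orderOf_eq_card x₀ (by rw [hj₀, hjm, hG])
  have hsm2 : s + 1 < m := by omega
  by_contra hnc
  have hHcyc : IsCyclic H := by
    obtain ⟨L', hL'⟩ := Sylow.exists_subgroup_card_pow_prime (G := Subgroup.zpowers x₀) p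
      (n := s) (by rw [Nat.card_zpowers, hj₀]; exact pow_dvd_pow p hj₀s.le)
    have hL : Nat.card (L'.map (Subgroup.zpowers x₀).subtype) = p ^ s := by
      rw [Subgroup.card_map_of_injective (Subgroup.subtype_injective _)]; exact hL'
    have hHL : H = L'.map (Subgroup.zpowers x₀).subtype := huniq _ _ hH hL
    have hle : H ≤ Subgroup.zpowers x₀ := by rw [hHL]; exact Subgroup.map_subtype_le _
    exact isCyclic_of_injective (Subgroup.inclusion hle) (Subgroup.inclusion_injective hle)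
  have hC : ∀ (e : ℕ) (x : G), e ≤ s → x ^ (p ^ e) = 1 → x ∈ H := by
    intro e x he hx
    obtain ⟨j, hj, hjo⟩ := (Nat.dvd_prime_pow hp).mp (orderOf_dvd_of_pow_eq_one hx)
    exact hA (Subgroup.zpowers x) j (by rw [Nat.card_zpowers, hjo]) (hj.trans he)
      (Subgroup.mem_zpowers x)
  obtain ⟨M₁, hM₁, hHM₁⟩ := Sylow.exists_subgroup_card_pow_prime_le p
    (hdvd (m - 1) (by omega)) H hH (by omega)
  have hM₁top : M₁ ≠ ⊤ := by
    intro h
    rw [h, Subgroup.card_top, hG] at hM₁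
    exact absurd (Nat.pow_right_injective hp.two_le hM₁) (by omega)
  obtain ⟨x₁, hx₁⟩ : ∃ x : G, x ∉ M₁ := by
    by_contra hall
    push Not at hall
    exact hM₁top ((Subgroup.eq_top_iff' M₁).mpr hall)
  obtain ⟨j₁, hj₁m, hj₁⟩ := hord x₁
  have hj₁ne : j₁ ≠ m := by
    rintro rfl
    exact hnc (isCyclic_of_orderOf_eq_card x₁ (by rw [hj₁, hG]))
  obtain ⟨M₂, hM₂, hxM₂⟩ := Sylow.exists_subgroup_card_pow_prime_le p
    (hdvd (m - 1) (by omega)) (Subgroup.zpowers x₁) (by rw [Nat.card_zpowers, hj₁])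
    (by omega : j₁ ≤ m - 1)
  have hx₁M₂ : x₁ ∈ M₂ := hxM₂ (Subgroup.mem_zpowers x₁)
  have hHM₂ : H ≤ M₂ := by
    obtain ⟨L', hL'⟩ := Sylow.exists_subgroup_card_pow_prime (G := M₂) p (n := s)
      (by rw [hM₂]; exact pow_dvd_pow p (by omega))
    have hL : Nat.card (L'.map M₂.subtype) = p ^ s := by
      rw [Subgroup.card_map_of_injective (Subgroup.subtype_injective _)]; exact hL'
    rw [huniq H _ hH hL]; exact Subgroup.map_subtype_le _
  have hMcyc : ∀ M : Subgroup G, Nat.card M = p ^ (m - 1) → IsCyclic M := by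
    intro M hM
    refine IH (m - 1) (by omega) ↥M s hM hs (by omega) h2 ?_
    intro H' K' hH' hK'
    have h1 : Nat.card (H'.map M.subtype) = p ^ s := by
      rw [Subgroup.card_map_of_injective (Subgroup.subtype_injective _)]; exact hH'
    have h2' : Nat.card (K'.map M.subtype) = p ^ s := by
      rw [Subgroup.card_map_of_injective (Subgroup.subtype_injective _)]; exact hK'
    exact Subgroup.map_injective (Subgroup.subtype_injective _) (huniq _ _ h1 h2')
  have hcomm : ∀ M : Subgroup G, Nat.card M = p ^ (m - 1) →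
      ∀ a ∈ M, ∀ b ∈ M, a * b = b * a := by
    intro M hM a ha b hb
    haveI := hMcyc M hM
    obtain ⟨g, hg⟩ := IsCyclic.exists_generator (α := M)
    obtain ⟨i, hi⟩ := Subgroup.mem_zpowers_iff.mp (hg ⟨a, ha⟩)
    obtain ⟨k, hk⟩ := Subgroup.mem_zpowers_iff.mp (hg ⟨b, hb⟩)
    have hi' : (g : G) ^ i = a := by
      have h3 := congrArg Subtype.val hi
      simpa using h3
    have hk' : (g : G) ^ k = b := by
      have h3 := congrArg Subtype.val hk
      simpa using h3
    rw [← hi', ← hk', ← zpow_add, ← zpow_add, add_comm]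
  obtain ⟨hidx₁, hn₁, hpow₁, hc₁⟩ := max_props hp (by omega : 1 ≤ m) hG M₁ hM₁
  obtain ⟨hidx₂, hn₂, hpow₂, hc₂⟩ := max_props hp (by omega : 1 ≤ m) hG M₂ hM₂
  have hM₂M₁ : ¬ M₂ ≤ M₁ := fun h => hx₁ (h hx₁M₂)
  have hsup : M₁ ⊔ M₂ = ⊤ := by
    rw [← Subgroup.index_eq_one]
    have h1 : (M₁ ⊔ M₂).index ∣ p := hidx₁ ▸ Subgroup.index_dvd_of_le le_sup_left
    rcases (Nat.dvd_prime hp).mp h1 with h | h
    · exact h
    · exfalso
      apply hM₂M₁
      have h3 : M₁ = M₁ ⊔ M₂ := by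
        apply Subgroup.eq_of_le_of_card_ge le_sup_left
        have h4 := (M₁ ⊔ M₂).card_mul_index
        have h5 := M₁.card_mul_index
        rw [h] at h4
        rw [hidx₁, ← h4] at h5
        exact le_of_eq (Nat.eq_of_mul_eq_mul_right hp.pos h5).symm
      rw [h3]; exact le_sup_right
  have hDcen : ∀ d ∈ M₁ ⊓ M₂, ∀ g : G, g * d = d * g := by
    intro d hd g
    have hg : g ∈ Subgroup.centralizer ({d} : Set G) := by
      have hle : M₁ ⊔ M₂ ≤ Subgroup.centralizer ({d} : Set G) := by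
        apply sup_le
        · intro a ha
          rw [Subgroup.mem_centralizer_iff]
          intro h hh; rw [Set.mem_singleton_iff] at hh; rw [hh]
          exact hcomm M₁ hM₁ d hd.1 a ha
        · intro a ha
          rw [Subgroup.mem_centralizer_iff]
          intro h hh; rw [Set.mem_singleton_iff] at hh; rw [hh]
          exact hcomm M₂ hM₂ d hd.2 a ha
      rw [hsup] at hle
      exact hle (Subgroup.mem_top g)
    rw [Subgroup.mem_centralizer_iff] at hg
    exact (hg d (Set.mem_singleton d)).symm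
  have hDcard : Nat.card (M₁ ⊓ M₂ : Subgroup G) * p ^ 2 ≤ p ^ m := by
    have h1 : Nat.card (M₁ ⊓ M₂ : Subgroup G) ∣ p ^ (m - 1) :=
      hM₁ ▸ Subgroup.card_dvd_of_le inf_le_left
    obtain ⟨j, hj, hjD⟩ := (Nat.dvd_prime_pow hp).mp h1
    have hjne : j ≠ m - 1 := by
      intro hjm
      apply hM₂M₁
      have h3 : M₁ ⊓ M₂ = M₁ :=
        Subgroup.eq_of_le_of_card_ge inf_le_left (by rw [hjD, hM₁, hjm])
      have h4 : M₁ ≤ M₂ := by rw [← h3]; exact inf_le_right
      have h5 : M₁ = M₂ := Subgroup.eq_of_le_of_card_ge h4 (by rw [hM₁, hM₂])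
      rw [h5]
    rw [hjD, ← pow_add]
    exact Nat.pow_le_pow_right hp.pos (by omega)
  have hDpos : 0 < Nat.card (M₁ ⊓ M₂ : Subgroup G) := Nat.card_pos
  -- commutators
  have hcprop : ∀ x y : G, (y⁻¹ * x⁻¹ * y * x) ^ p = 1 := by
    intro x y
    have hcD : y⁻¹ * x⁻¹ * y * x ∈ M₁ ⊓ M₂ := ⟨hc₁ x y, hc₂ x y⟩
    have h1 := pow_mul_comm_central x y (y⁻¹ * x⁻¹ * y * x) (by group)
      (fun g => hDcen _ hcD g) p
    have h2 : x * y ^ p = y ^ p * x := hDcen (y ^ p) ⟨hpow₁ y, hpow₂ y⟩ x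
    rw [h2] at h1
    exact left_eq_mul.mp h1
  have hmulpow : ∀ (E k : ℕ), E * (E - 1) / 2 = p * k → ∀ x y : G,
      (x * y) ^ E = x ^ E * y ^ E := by
    intro E k hEk x y
    have hcD : y⁻¹ * x⁻¹ * y * x ∈ M₁ ⊓ M₂ := ⟨hc₁ x y, hc₂ x y⟩
    have h1 := mul_pow_central x y (y⁻¹ * x⁻¹ * y * x) (by group)
      (fun g => hDcen _ hcD g) E
    rw [h1, hEk, pow_mul, hcprop x y, one_pow, mul_one]
  have hcardker : ∀ (e : ℕ) (φ : G →* G), e ≤ s → (∀ x, φ x = x ^ (p ^ e)) →
      Nat.card φ.ker ≤ p ^ e := by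
    intro e φ he hφ
    have hkerH : φ.ker ≤ H := by
      intro x hx
      apply hC e x he
      rw [← hφ]; exact (MonoidHom.mem_ker).mp hx
    haveI : IsCyclic φ.ker :=
      isCyclic_of_injective (Subgroup.inclusion hkerH) (Subgroup.inclusion_injective hkerH)
    have h1 : Monoid.exponent φ.ker ∣ p ^ e := by
      apply Monoid.exponent_dvd_of_forall_pow_eq_one
      rintro ⟨x, hx⟩
      apply Subtype.ext
      rw [Subgroup.coe_pow]
      show x ^ (p ^ e) = 1
      rw [← hφ]; exact (MonoidHom.mem_ker).mp hx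
    rw [IsCyclic.exponent_eq_card] at h1
    exact Nat.le_of_dvd (pow_pos hp.pos e) h1
  by_cases hp2 : p = 2
  · subst hp2
    have hs2 : 2 ≤ s := by
      rcases h2 with h | h
      · exact absurd rfl h
      · exact h
    have hmul := hmulpow 4 3 (by norm_num)
    have hker := hcardker 2 (MonoidHom.mk' (fun x : G => x ^ 4) hmul) hs2 (fun x => rfl)
    have hcg := (MonoidHom.mk' (fun x : G => x ^ 4) hmul).ker.card_mul_index
    rw [Subgroup.index_ker, hG] at hcg
    -- the squaring map on D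
    have hsqmul : ∀ a b : (M₁ ⊓ M₂ : Subgroup G), ((a * b : (M₁ ⊓ M₂ : Subgroup G)) : G) ^ 2 =
        (a : G) ^ 2 * (b : G) ^ 2 := by
      intro a b
      rw [Subgroup.coe_mul]
      exact (show Commute (a : G) (b : G) from hDcen b b.2 a).mul_pow 2
    have hrange : (MonoidHom.mk' (fun x : G => x ^ 4) hmul).range ≤
        (MonoidHom.mk' (fun d : (M₁ ⊓ M₂ : Subgroup G) => (d : G) ^ 2) hsqmul).range := by
      rintro y ⟨x, rfl⟩
      refine ⟨⟨x ^ 2, ⟨hpow₁ x, hpow₂ x⟩⟩, ?_⟩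
      show (x ^ 2) ^ 2 = x ^ 4
      rw [← pow_mul]
    have hr := Subgroup.card_le_of_le hrange
    have hsq := (MonoidHom.mk' (fun d : (M₁ ⊓ M₂ : Subgroup G) => (d : G) ^ 2) hsqmul).ker.card_mul_index
    rw [Subgroup.index_ker] at hsq
    have hkerne : (MonoidHom.mk' (fun d : (M₁ ⊓ M₂ : Subgroup G) => (d : G) ^ 2) hsqmul).ker ≠ ⊥ := by
      obtain ⟨t, ht⟩ := exists_prime_orderOf_dvd_card' (G := H) 2
        (by rw [hH]; exact dvd_pow_self 2 (by omega))
      have htD : (t : G) ∈ M₁ ⊓ M₂ := ⟨hHM₁ t.2, hHM₂ t.2⟩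
      have ht2 : (t : G) ^ 2 = 1 := by
        have h3 := pow_orderOf_eq_one t
        rw [ht] at h3
        have h4 := congrArg Subtype.val h3
        rw [Subgroup.coe_pow] at h4
        exact h4
      have ht1 : (t : G) ≠ 1 := by
        intro h3
        have h4 : t = 1 := Subtype.ext h3
        rw [h4, orderOf_one] at ht
        omega
      intro hbot
      have hmem : (⟨(t : G), htD⟩ : (M₁ ⊓ M₂ : Subgroup G)) ∈
          (MonoidHom.mk' (fun d : (M₁ ⊓ M₂ : Subgroup G) => (d : G) ^ 2) hsqmul).ker := by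
        rw [MonoidHom.mem_ker]
        exact ht2
      rw [hbot, Subgroup.mem_bot] at hmem
      exact ht1 (congrArg Subtype.val hmem)
    have hk2 := (Subgroup.one_lt_card_iff_ne_bot _).mpr hkerne
    have h22 : (2 : ℕ) ^ 2 = 4 := by norm_num
    rw [h22] at hker hDcard
    nlinarith
  · have hodd : 2 ∣ p - 1 := by
      rcases hp.eq_two_or_odd with h | h
      · exact absurd h hp2
      · omega
    have hmul := hmulpow p ((p - 1) / 2) (Nat.mul_div_assoc p hodd)
    have hker := hcardker 1 (MonoidHom.mk' (fun x : G => x ^ p) hmul) hs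
      (fun x => by rw [pow_one]; rfl)
    have hcg := (MonoidHom.mk' (fun x : G => x ^ p) hmul).ker.card_mul_index
    rw [Subgroup.index_ker, hG] at hcg
    have hrange : (MonoidHom.mk' (fun x : G => x ^ p) hmul).range ≤ M₁ ⊓ M₂ := by
      rintro y ⟨x, rfl⟩
      exact ⟨hpow₁ x, hpow₂ x⟩
    have hr := Subgroup.card_le_of_le hrange
    rw [pow_one] at hker
    have hp2' := hp.two_le
    have h1 := Nat.mul_le_mul hker hr
    rw [hcg] at h1
    have h2' : Nat.card (M₁ ⊓ M₂ : Subgroup G) * p ^ 2 ≤ p * Nat.card (M₁ ⊓ M₂ : Subgroup G) :=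
      hDcard.trans h1
    have e : Nat.card (M₁ ⊓ M₂ : Subgroup G) * p ^ 2 =
        p * Nat.card (M₁ ⊓ M₂ : Subgroup G) * p := by ring
    rw [e] at h2'
    have h3 : p * Nat.card (M₁ ⊓ M₂ : Subgroup G) * 2 ≤ p * Nat.card (M₁ ⊓ M₂ : Subgroup G) :=
      (Nat.mul_le_mul_left _ hp2').trans h2'
    have h4 : 0 < p * Nat.card (M₁ ⊓ M₂ : Subgroup G) := Nat.mul_pos hp.pos hDpos
    omega

/-- Let `p` be a prime and `G` a group of order `p ^ m` which has exactly one subgroup of order `p ^ s`, where `1 ≤ s < m`, and where `s ≥ 2` if `p = 2`. Then `G` is cyclic. (For `p = 2` and `s = 1` the generalized quaternion groups also occur; that case is the classical criterion for a unique involution.) -/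
theorem result {G : Type*} [Group G] [Finite G] (p m s : ℕ) (hp : p.Prime) (hG : Nat.card G = p ^ m) (hs : 1 ≤ s) (hsm : s < m) (h2 : p ≠ 2 ∨ 2 ≤ s) (huniq : ∀ H K : Subgroup G, Nat.card H = p ^ s → Nat.card K = p ^ s → H = K) : IsCyclic G :=
  aux p hp m G s hG hs hsm h2 huniq

end Cfsg.Agent.S3977
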