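import Cfsg.Statements.S3992
-- import your own Cfsg.Agent.* helpers here
import Mathlib
import Cfsg.Agent.S1475
import Cfsg.Agent.S0144
-- import your own Cfsg.Agent.* helpers here

set_option autoImplicit false
open Cfsg

namespace Cfsg.Agent.S3992

universe u

/-- no two commuting elements of distinct prime orders when all element orders are prime powers -/
theorem cp_comm {Q : Type*} [Group Q] (hCP : ∀ x : Q, x ≠ 1 → IsPrimePow (orderOf x))
    (x y : Q) (hxy : x * y = y * x) (r s : ℕ) (hr : r.Prime) (hs : s.Prime)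
    (hx : orderOf x = r) (hy : orderOf y = s) : r = s := by
  by_contra hrs
  have hc : Commute x y := hxy
  have ho : orderOf (x * y) = r * s := by
    rw [hc.orderOf_mul_eq_mul_orderOf_of_coprime
      (by rw [hx, hy]; exact (Nat.coprime_primes hr hs).2 hrs), hx, hy]
  have hne : x * y ≠ 1 := by
    intro h
    rw [h, orderOf_one] at ho
    have h1 := hr.two_le
    have h2 := hs.two_le
    nlinarith
  have hpp := hCP (x * y) hne
  rw [ho] at hpp
  obtain ⟨t, k, ht, hk, e⟩ := (isPrimePow_nat_iff _).1 hpp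
  have h1 : r ∣ t ^ k := by rw [e]; exact dvd_mul_right r s
  have h2 : s ∣ t ^ k := by rw [e]; exact dvd_mul_left s r
  have e1 := (Nat.prime_dvd_prime_iff_eq hr ht).1 (hr.dvd_of_dvd_pow h1)
  have e2 := (Nat.prime_dvd_prime_iff_eq hs ht).1 (hs.dvd_of_dvd_pow h2)
  exact hrs (e1.trans e2.symm)

/-- a non-solvable finite group has a prime divisor other than a given prime -/
theorem other_prime {X : Type*} [Group X] [Finite X] (hns : ¬ Group.IsSolvable X) (s : ℕ)
    (hs : s.Prime) : ∃ r : ℕ, r.Prime ∧ r ≠ s ∧ r ∣ Nat.card X := by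
  by_contra hno
  push_neg at hno
  haveI : Fact s.Prime := ⟨hs⟩
  have hcard : Nat.card X = s ^ (Nat.card X).primeFactorsList.length :=
    Nat.eq_prime_pow_of_unique_prime_dvd Nat.card_pos.ne' (fun {d} hd hdv => by
      by_contra hne
      exact hno d hd hne hdv)
  haveI : Group.IsNilpotent X := (IsPGroup.of_card hcard).isNilpotent
  exact hns inferInstance

theorem cauchy_sub {Q : Type*} [Group Q] [Finite Q] (D : Subgroup Q) (r : ℕ) (hr : r.Prime)
    (hd : r ∣ Nat.card D) : ∃ x ∈ D, orderOf x = r := by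
  haveI : Fact r.Prime := ⟨hr⟩
  obtain ⟨x, hx⟩ := exists_prime_orderOf_dvd_card' r hd
  exact ⟨(x : Q), x.2, by rw [Subgroup.orderOf_coe]; exact hx⟩

theorem exists_prime_elt {Q : Type*} [Group Q] [Finite Q] (D : Subgroup Q) (hD : D ≠ ⊥) :
    ∃ r : ℕ, r.Prime ∧ ∃ x ∈ D, orderOf x = r := by
  have h1 : Nat.card D ≠ 1 := fun h => hD (Subgroup.eq_bot_of_card_eq D h)
  exact ⟨_, Nat.minFac_prime h1, cauchy_sub D _ (Nat.minFac_prime h1) (Nat.minFac_dvd _)⟩

/-- a normal `r`-subgroup lies in every Sylow `r`-subgroup -/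
theorem nps {X : Type*} [Group X] [Finite X] (r : ℕ) [Fact r.Prime] (T : Subgroup X) [T.Normal]
    (hT : IsPGroup r T) (P : Sylow r X) : T ≤ (P : Subgroup X) := by
  have h1 : IsPGroup r ((P : Subgroup X) ⊔ T : Subgroup X) :=
    IsPGroup.to_sup_of_normal_right P.isPGroup' hT
  have h2 := P.is_maximal' h1 le_sup_left
  exact le_of_le_of_eq le_sup_right h2

theorem conj_pow' {Q : Type*} [Group Q] (b g : Q) (n : ℕ) :
    (b⁻¹ * g * b) ^ n = b⁻¹ * g ^ n * b := by
  have h := conj_pow (a := b⁻¹) (b := g) (i := n)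
  simpa using h

/-- the conjugate `h D h⁻¹` -/
def cj {Q : Type*} [Group Q] (D : Subgroup Q) (h : Q) : Subgroup Q where
  carrier := {e | h⁻¹ * e * h ∈ D}
  one_mem' := by
    show h⁻¹ * 1 * h ∈ D
    rw [mul_one, inv_mul_cancel]; exact D.one_mem
  mul_mem' := fun {a b} ha hb => by
    have e : h⁻¹ * (a * b) * h = (h⁻¹ * a * h) * (h⁻¹ * b * h) := by group
    show h⁻¹ * (a * b) * h ∈ D
    rw [e]; exact D.mul_mem ha hb
  inv_mem' := fun {a} ha => by
    have e : h⁻¹ * a⁻¹ * h = (h⁻¹ * a * h)⁻¹ := by group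
    show h⁻¹ * a⁻¹ * h ∈ D
    rw [e]; exact D.inv_mem ha

theorem mem_cj {Q : Type*} [Group Q] {D : Subgroup Q} {h e : Q} :
    e ∈ cj D h ↔ h⁻¹ * e * h ∈ D := Iff.rfl

/-- `R S` is solvable for a solvable normal `R` and an `r`-group `S` -/
theorem rs_solvable {G : Type*} [Group G] [Finite G] (R : Subgroup G) [hRn : R.Normal]
    (hRs : Group.IsSolvable ↥R) (S : Subgroup G) (r : ℕ) [Fact r.Prime] (hS : IsPGroup r S) :
    Group.IsSolvable ↥(R ⊔ S) := by
  haveI := hRs
  haveI : Group.IsSolvable ↥(R.subgroupOf (R ⊔ S)) :=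
    Group.isSolvable_of_isSolvable_injective
      (f := (Subgroup.subgroupOfEquivOfLe (le_sup_left : R ≤ R ⊔ S)).toMonoidHom)
      (MulEquiv.injective _)
  have hQ : IsPGroup r (↥(R ⊔ S) ⧸ R.subgroupOf (R ⊔ S)) := by
    intro x
    obtain ⟨g, rfl⟩ := QuotientGroup.mk_surjective x
    have hg : (g : G) ∈ (↑(R ⊔ S) : Set G) := g.2
    rw [Subgroup.normal_mul] at hg
    obtain ⟨ρ, hρ, s, hs, e⟩ := Set.mem_mul.1 hg
    obtain ⟨k, hk⟩ := hS ⟨s, hs⟩
    refine ⟨k, ?_⟩
    have h2 : s ^ r ^ k = 1 := congrArg Subtype.val hk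
    have h1 : ((g : G) ^ r ^ k : G) ∈ R := by
      rw [← QuotientGroup.eq_one_iff (N := R), ← e, QuotientGroup.mk_pow, QuotientGroup.mk_mul,
        (QuotientGroup.eq_one_iff ρ).2 hρ, one_mul, ← QuotientGroup.mk_pow, h2]
      rfl
    rw [← QuotientGroup.mk_pow, QuotientGroup.eq_one_iff, Subgroup.mem_subgroupOf,
      Subgroup.coe_pow]
    exact h1
  haveI : Group.IsSolvable (↥(R ⊔ S) ⧸ R.subgroupOf (R ⊔ S)) := by
    haveI := hQ.isNilpotent
    infer_instance
  exact Group.isSolvable_of_ker_le_range (R.subgroupOf (R ⊔ S)).subtype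
    (QuotientGroup.mk' (R.subgroupOf (R ⊔ S)))
    (le_of_eq (by rw [QuotientGroup.ker_mk', Subgroup.range_subtype]))

/-- in a group with all element orders prime powers and trivial solvable radical, the socle is
a nonabelian simple group -/
theorem simple_min {Q : Type u} [Group Q] [Finite Q] (hQ1 : ∃ x : Q, x ≠ 1)
    (hCP : ∀ x : Q, x ≠ 1 → IsPrimePow (orderOf x))
    (hrad : ∀ N : Subgroup Q, N.Normal → Group.IsSolvable ↥N → N = ⊥) :
    ∃ M : Subgroup Q, M.Normal ∧ IsSimpleGroup ↥M ∧ ¬ IsMulCommutative ↥M ∧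
      ∀ N : Subgroup Q, N.Normal → N ≠ ⊥ → M ≤ N := by
  classical
  have hP : ∃ n : ℕ, ∃ N : Subgroup Q, N.Normal ∧ N ≠ ⊥ ∧ Nat.card N = n := by
    obtain ⟨x, hx⟩ := hQ1
    refine ⟨_, ⊤, inferInstance, ?_, rfl⟩
    intro h
    have h1 : x ∈ (⊤ : Subgroup Q) := Subgroup.mem_top x
    rw [h, Subgroup.mem_bot] at h1
    exact hx h1
  obtain ⟨M, hMn, hM1, hMc⟩ := Nat.find_spec hP
  have hmin : ∀ N : Subgroup Q, N.Normal → N ≠ ⊥ → Nat.card M ≤ Nat.card N := by
    intro N hN hN1
    rw [hMc]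
    exact Nat.find_min' hP ⟨N, hN, hN1, rfl⟩
  haveI := hMn
  have hMns : ¬ Group.IsSolvable ↥M := fun h => hM1 (hrad M hMn h)
  have hle : ∀ N : Subgroup Q, N.Normal → N ≠ ⊥ → M ≤ N := by
    intro N hN hN1
    haveI := hN
    by_cases hI : N ⊓ M = ⊥
    · exfalso
      obtain ⟨s, hs, y, hyN, hy⟩ := exists_prime_elt N hN1
      obtain ⟨r, hr, hrs, hrd⟩ := other_prime hMns s hs
      obtain ⟨x, hxM, hx⟩ := cauchy_sub M r hr hrd
      have hcomm : x * y = y * x := by
        have h1 : x * y * x⁻¹ * y⁻¹ ∈ N ⊓ M := by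
          refine Subgroup.mem_inf.2 ⟨?_, ?_⟩
          · exact N.mul_mem (hN.conj_mem y hyN x) (N.inv_mem hyN)
          · have e : x * y * x⁻¹ * y⁻¹ = x * (y * x⁻¹ * y⁻¹) := by group
            rw [e]
            exact M.mul_mem hxM (hMn.conj_mem _ (M.inv_mem hxM) y)
        rw [hI, Subgroup.mem_bot] at h1
        have h2 : x * y * x⁻¹ = y := mul_inv_eq_one.1 h1
        exact mul_inv_eq_iff_eq_mul.1 h2
      exact hrs (cp_comm hCP x y hcomm r s hr hs hx hy)
    · have h1 := hmin (N ⊓ M) inferInstance hI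
      have h2 : N ⊓ M = M := Subgroup.eq_of_le_of_card_ge inf_le_right h1
      exact le_of_eq_of_le h2.symm inf_le_left
  have hnc : ¬ IsMulCommutative ↥M := by
    intro h
    exact hMns (Group.isSolvable_of_comm (fun a b => h.is_comm.comm a b))
  refine ⟨M, hMn, ?_, hnc, hle⟩
  have hnt : Nontrivial ↥M := (Subgroup.nontrivial_iff_ne_bot M).2 hM1
  refine { toNontrivial := hnt, eq_bot_or_eq_top_of_normal := fun T hT => ?_ }
  by_contra hT2
  push_neg at hT2
  obtain ⟨hTb, hTt⟩ := hT2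
  have hT₀M : T.map M.subtype ≤ M := by
    rintro _ ⟨t, _, rfl⟩
    exact t.2
  have hT₀1 : T.map M.subtype ≠ ⊥ := by
    intro h
    apply hTb
    rw [Subgroup.eq_bot_iff_forall]
    intro t ht
    have h1 : (t : Q) ∈ T.map M.subtype := Subgroup.mem_map.2 ⟨t, ht, rfl⟩
    rw [h, Subgroup.mem_bot] at h1
    exact Subtype.ext h1
  have hT₀inv : ∀ m ∈ M, ∀ t ∈ T.map M.subtype, m * t * m⁻¹ ∈ T.map M.subtype := by
    rintro m hm _ ⟨t, ht, rfl⟩
    exact Subgroup.mem_map.2 ⟨⟨m, hm⟩ * t * ⟨m, hm⟩⁻¹, hT.conj_mem t ht ⟨m, hm⟩, rfl⟩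
  have hT₀top : ¬ M ≤ T.map M.subtype := by
    intro h
    apply hTt
    rw [eq_top_iff]
    intro m _
    obtain ⟨t, ht, e⟩ := Subgroup.mem_map.1 (h m.2)
    have h1 : t = m := Subtype.ext e
    rw [← h1]; exact ht
  -- a minimal `M`-invariant nontrivial subgroup of `T`
  have hPD : ∃ n : ℕ, ∃ D : Subgroup Q, D ≠ ⊥ ∧ D ≤ T.map M.subtype ∧
      (∀ m ∈ M, ∀ d ∈ D, m * d * m⁻¹ ∈ D) ∧ Nat.card D = n :=
    ⟨_, T.map M.subtype, hT₀1, le_refl _, hT₀inv, rfl⟩
  obtain ⟨D, hD1, hDT, hDinv, hDc⟩ := Nat.find_spec hPD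
  have hDmin : ∀ D' : Subgroup Q, D' ≠ ⊥ → D' ≤ T.map M.subtype →
      (∀ m ∈ M, ∀ d ∈ D', m * d * m⁻¹ ∈ D') → Nat.card D ≤ Nat.card D' := by
    intro D' h1 h2 h3
    rw [hDc]
    exact Nat.find_min' hPD ⟨D', h1, h2, h3, rfl⟩
  have hDM : D ≤ M := hDT.trans hT₀M
  have hconjM : ∀ (h : Q) (m : Q), m ∈ M → h⁻¹ * m * h ∈ M := by
    intro h m hm
    have h1 := hMn.conj_mem m hm h⁻¹
    simpa using h1
  have hcjinv : ∀ (h m : Q), m ∈ M → ∀ e ∈ cj D h, m * e * m⁻¹ ∈ cj D h := by
    intro h m hm e he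
    have e1 : h⁻¹ * (m * e * m⁻¹) * h = (h⁻¹ * m * h) * (h⁻¹ * e * h) * (h⁻¹ * m * h)⁻¹ := by
      group
    show h⁻¹ * (m * e * m⁻¹) * h ∈ D
    rw [e1]
    exact hDinv _ (hconjM h m hm) _ he
  have hex : ∃ h : Q, D ⊓ cj D h = ⊥ := by
    by_contra hno
    push_neg at hno
    have hDn : D.Normal := by
      refine ⟨fun d hd g => ?_⟩
      have hI := hno g⁻¹
      have h1 : D ⊓ cj D g⁻¹ = D := by
        refine Subgroup.eq_of_le_of_card_ge inf_le_left
          (hDmin _ hI (inf_le_left.trans hDT) ?_)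
        intro m hm e he
        obtain ⟨he1, he2⟩ := Subgroup.mem_inf.1 he
        exact Subgroup.mem_inf.2 ⟨hDinv m hm e he1, hcjinv g⁻¹ m hm e he2⟩
      have h2 : d ∈ cj D g⁻¹ := by
        have h3 : d ∈ D ⊓ cj D g⁻¹ := by rw [h1]; exact hd
        exact (Subgroup.mem_inf.1 h3).2
      have h3 : g⁻¹⁻¹ * d * g⁻¹ ∈ D := h2
      rwa [inv_inv] at h3
    exact hT₀top ((hle D hDn hD1).trans hDT)
  obtain ⟨h, hh⟩ := hex
  have hcjM : cj D h ≤ M := by
    intro e he
    have h1 : h⁻¹ * e * h ∈ M := hDM he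
    have h2 := hMn.conj_mem _ h1 h
    have e1 : h * (h⁻¹ * e * h) * h⁻¹ = e := by group
    rwa [e1] at h2
  have hcomm : ∀ d ∈ D, ∀ e ∈ cj D h, d * e = e * d := by
    intro d hd e he
    have h1 : d * e * d⁻¹ * e⁻¹ ∈ D ⊓ cj D h := by
      refine Subgroup.mem_inf.2 ⟨?_, ?_⟩
      · have e1 : d * e * d⁻¹ * e⁻¹ = d * (e * d⁻¹ * e⁻¹) := by group
        rw [e1]
        exact D.mul_mem hd (hDinv e (hcjM he) _ (D.inv_mem hd))
      · exact (cj D h).mul_mem (hcjinv h d (hDM hd) e he) ((cj D h).inv_mem he)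
    rw [hh, Subgroup.mem_bot] at h1
    have h2 : d * e * d⁻¹ = e := mul_inv_eq_one.1 h1
    exact mul_inv_eq_iff_eq_mul.1 h2
  obtain ⟨r, hr, x, hxD, hx⟩ := exists_prime_elt D hD1
  have hall : ∀ s : ℕ, s.Prime → s ∣ Nat.card D → s = r := by
    intro s hs hsd
    obtain ⟨x', hx'D, hx'⟩ := cauchy_sub D s hs hsd
    have hy : h * x' * h⁻¹ ∈ cj D h := by
      show h⁻¹ * (h * x' * h⁻¹) * h ∈ D
      have e1 : h⁻¹ * (h * x' * h⁻¹) * h = x' := by group
      rw [e1]; exact hx'D
    haveI : Fact s.Prime := ⟨hs⟩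
    have hx'1 : x' ≠ 1 := by
      intro h1
      rw [h1, orderOf_one] at hx'
      exact hs.one_lt.ne hx'
    have hyo : orderOf (h * x' * h⁻¹) = s :=
      orderOf_eq_prime (by rw [conj_pow, ← hx', pow_orderOf_eq_one, mul_one, mul_inv_cancel])
        (fun h1 => hx'1 (conj_eq_one_iff.1 h1))
    exact (cp_comm hCP x (h * x' * h⁻¹) (hcomm x hxD _ hy) r s hr hs hx hyo).symm
  have hDcard : Nat.card D = r ^ (Nat.card D).primeFactorsList.length :=
    Nat.eq_prime_pow_of_unique_prime_dvd Nat.card_pos.ne' (fun {d} hd hdv => hall d hd hdv)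
  haveI : Fact r.Prime := ⟨hr⟩
  obtain ⟨P⟩ : Nonempty (Sylow r ↥M) := inferInstance
  have hDJ : D ≤ ((P : Subgroup ↥M).map M.subtype).normalCore := by
    intro d hd
    show ∀ b : Q, b * d * b⁻¹ ∈ (P : Subgroup ↥M).map M.subtype
    intro b
    haveI hEn : ((cj D b).subgroupOf M).Normal := by
      refine ⟨fun m hm n => ?_⟩
      rw [Subgroup.mem_subgroupOf] at hm ⊢
      exact hcjinv b n n.2 m hm
    have hEp : IsPGroup r ((cj D b).subgroupOf M) := by
      intro g
      refine ⟨(Nat.card D).primeFactorsList.length, ?_⟩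
      have hg : b⁻¹ * ((g : ↥M) : Q) * b ∈ D := Subgroup.mem_subgroupOf.1 g.2
      have h1 : (b⁻¹ * ((g : ↥M) : Q) * b) ^ Nat.card D = 1 := by
        have h2 := pow_card_eq_one' (G := ↥D) (x := ⟨_, hg⟩)
        exact congrArg Subtype.val h2
      rw [hDcard, conj_pow'] at h1
      have h3 : ((g : ↥M) : Q) ^ r ^ (Nat.card D).primeFactorsList.length = 1 := by
        calc ((g : ↥M) : Q) ^ r ^ (Nat.card D).primeFactorsList.length
            = b * (b⁻¹ * ((g : ↥M) : Q) ^ r ^ (Nat.card D).primeFactorsList.length * b) * b⁻¹ := by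
              group
          _ = 1 := by rw [h1]; group
      exact Subtype.ext (Subtype.ext h3)
    have hEP := nps r ((cj D b).subgroupOf M) hEp P
    have hm₀ : (⟨b * d * b⁻¹, hMn.conj_mem d (hDM hd) b⟩ : ↥M) ∈ (cj D b).subgroupOf M := by
      rw [Subgroup.mem_subgroupOf]
      show b⁻¹ * (b * d * b⁻¹) * b ∈ D
      have e1 : b⁻¹ * (b * d * b⁻¹) * b = d := by group
      rw [e1]; exact hd
    exact Subgroup.mem_map.2 ⟨_, hEP hm₀, rfl⟩
  have hJ1 : ((P : Subgroup ↥M).map M.subtype).normalCore ≠ ⊥ := by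
    intro h1
    exact hD1 (le_bot_iff.1 (by rw [← h1]; exact hDJ))
  have hMJ := hle _ inferInstance hJ1
  have hMP : ∀ m : ↥M, m ∈ (P : Subgroup ↥M) := by
    intro m
    have h1 := Subgroup.normalCore_le _ (hMJ m.2)
    obtain ⟨m', hm', e⟩ := Subgroup.mem_map.1 h1
    have h2 : m' = m := Subtype.ext e
    rw [← h2]; exact hm'
  have hMp : IsPGroup r ↥M := by
    intro m
    obtain ⟨k, hk⟩ := P.isPGroup' ⟨m, hMP m⟩
    exact ⟨k, congrArg Subtype.val hk⟩
  haveI : Group.IsNilpotent ↥M := hMp.isNilpotent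
  exact hMns inferInstance


/-- Let G be a finite non-solvable group in which every element has prime-power order, and let R be its largest solvable normal subgroup. Then R is a p-group for some prime p; G/R has a non-abelian simple normal subgroup contained in every nontrivial normal subgroup of G/R (its unique minimal normal subgroup); and the order of every solvable subgroup of G has at most two prime divisors. -/
theorem result {G : Type*} [Group G] [Finite G] (hns : ¬ Group.IsSolvable G) (hpp : ∀ g : G, g ≠ 1 → IsPrimePow (orderOf g))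
    (R : Subgroup G) [R.Normal] (hRs : Group.IsSolvable ↥R) (hRmax : ∀ N : Subgroup G, N.Normal → Group.IsSolvable ↥N → N ≤ R) :
    (∃ p : ℕ, p.Prime ∧ IsPGroup p ↥R) ∧
      (∃ M : Subgroup (G ⧸ R), M.Normal ∧ IsSimpleGroup ↥M ∧ ¬ IsMulCommutative ↥M ∧
        ∀ N : Subgroup (G ⧸ R), N.Normal → N ≠ ⊥ → M ≤ N) ∧
      ∀ H : Subgroup G, Group.IsSolvable ↥H → (Nat.card ↥H).primeFactors.card ≤ 2 := by
  classical
  have hc : ∀ H : Subgroup G, Group.IsSolvable ↥H → (Nat.card ↥H).primeFactors.card ≤ 2 := by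
    intro H hH
    haveI := hH
    refine Cfsg.Agent.S1475.result (G := ↥H) (fun g => ?_)
    by_cases hg : g = 1
    · exact Or.inr hg
    · left
      rw [← Subgroup.orderOf_coe]
      exact hpp (g : G) (fun h => hg (Subtype.ext h))
  refine ⟨?_, ?_, hc⟩
  · -- (a)
    by_contra hno
    push_neg at hno
    have hR1 : Nat.card R ≠ 1 := by
      intro h1
      haveI : Fact (Nat.Prime 2) := ⟨Nat.prime_two⟩
      exact hno 2 Nat.prime_two (IsPGroup.of_card (n := 0) (by rw [h1, pow_zero]))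
    obtain ⟨p, hp, hpR⟩ : ∃ p : ℕ, p.Prime ∧ p ∣ Nat.card R :=
      ⟨_, Nat.minFac_prime hR1, Nat.minFac_dvd _⟩
    have hq : ∃ q : ℕ, q.Prime ∧ q ≠ p ∧ q ∣ Nat.card R := by
      by_contra hno2
      push_neg at hno2
      haveI : Fact p.Prime := ⟨hp⟩
      have hcard : Nat.card R = p ^ (Nat.card R).primeFactorsList.length :=
        Nat.eq_prime_pow_of_unique_prime_dvd Nat.card_pos.ne' (fun {d} hd hdv => by
          by_contra hne
          exact hno2 d hd hne hdv)
      exact hno p hp (IsPGroup.of_card hcard)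
    obtain ⟨q, hq, hqp, hqR⟩ := hq
    have hall : ∀ r : ℕ, r.Prime → r ∣ Nat.card G → r = p ∨ r = q := by
      intro r hr hrG
      by_contra hne
      push_neg at hne
      haveI : Fact r.Prime := ⟨hr⟩
      obtain ⟨S⟩ : Nonempty (Sylow r G) := inferInstance
      have hsol := rs_solvable R hRs (S : Subgroup G) r S.isPGroup'
      have h2 := hc _ hsol
      have hpm : p ∈ (Nat.card ↥(R ⊔ (S : Subgroup G))).primeFactors :=
        Nat.mem_primeFactors.2
          ⟨hp, hpR.trans (Subgroup.card_dvd_of_le le_sup_left), Nat.card_pos.ne'⟩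
      have hqm : q ∈ (Nat.card ↥(R ⊔ (S : Subgroup G))).primeFactors :=
        Nat.mem_primeFactors.2
          ⟨hq, hqR.trans (Subgroup.card_dvd_of_le le_sup_left), Nat.card_pos.ne'⟩
      have hrS : r ∣ Nat.card (S : Subgroup G) := by
        rw [Sylow.card_eq_multiplicity]
        exact dvd_pow_self r (Nat.Prime.factorization_pos_of_dvd hr Nat.card_pos.ne' hrG).ne'
      have hrm : r ∈ (Nat.card ↥(R ⊔ (S : Subgroup G))).primeFactors :=
        Nat.mem_primeFactors.2
          ⟨hr, hrS.trans (Subgroup.card_dvd_of_le le_sup_right), Nat.card_pos.ne'⟩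
      have h3 : 2 < (Nat.card ↥(R ⊔ (S : Subgroup G))).primeFactors.card :=
        Finset.two_lt_card_iff.2 ⟨p, q, r, hpm, hqm, hrm, fun h => hqp h.symm,
          fun h => hne.1 h.symm, fun h => hne.2 h.symm⟩
      omega
    obtain ⟨a, n1, hn1, e1⟩ :=
      Nat.exists_eq_pow_mul_and_not_dvd (Nat.card_pos (α := G)).ne' p hp.ne_one
    have hn1pos : n1 ≠ 0 := by
      rintro rfl
      exact hn1 (dvd_zero _)
    obtain ⟨b, n2, hn2, e2⟩ := Nat.exists_eq_pow_mul_and_not_dvd hn1pos q hq.ne_one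
    have hn2one : n2 = 1 := by
      by_contra h1
      obtain ⟨r, hr, hrn⟩ := Nat.exists_prime_and_dvd h1
      have hrG : r ∣ Nat.card G := by
        rw [e1, e2]
        exact Dvd.dvd.mul_left (Dvd.dvd.mul_left hrn _) _
      rcases hall r hr hrG with h | h
      · apply hn1
        rw [e2, ← h]
        exact Dvd.dvd.mul_left hrn _
      · rw [h] at hrn
        exact hn2 hrn
    have hcard : Nat.card G = p ^ a * q ^ b := by
      rw [e1, e2, hn2one, mul_one]
    exact hns (Cfsg.Agent.S0144.result p q a b hp hq hcard)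
  · -- (b)
    have hRle : ∀ N : Subgroup (G ⧸ R), R ≤ N.comap (QuotientGroup.mk' R) := by
      intro N g hg
      rw [Subgroup.mem_comap]
      have h1 : (QuotientGroup.mk' R) g = 1 := (QuotientGroup.eq_one_iff g).2 hg
      rw [h1]; exact N.one_mem
    refine simple_min ?_ ?_ ?_
    · by_contra hno
      push_neg at hno
      apply hns
      have hRtop : R = ⊤ := by
        rw [eq_top_iff]
        intro g _
        exact (QuotientGroup.eq_one_iff g).1 (hno (g : G ⧸ R))
      haveI := hRs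
      have hsurj : Function.Surjective R.subtype := by
        intro g
        exact ⟨⟨g, by rw [hRtop]; exact Subgroup.mem_top g⟩, rfl⟩
      exact Group.isSolvable_of_surjective (f := R.subtype) hsurj
    · intro x hx
      obtain ⟨g, rfl⟩ := QuotientGroup.mk_surjective x
      have hg1 : g ≠ 1 := by
        rintro rfl
        exact hx rfl
      obtain ⟨t, k, ht, hk, e⟩ := (isPrimePow_nat_iff _).1 (hpp g hg1)
      have hdvd : orderOf ((QuotientGroup.mk' R) g) ∣ orderOf g := orderOf_map_dvd _ g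
      rw [← e] at hdvd
      obtain ⟨j, hj, ej⟩ := (Nat.dvd_prime_pow ht).1 hdvd
      have hj0 : 0 < j := by
        rcases Nat.eq_zero_or_pos j with h0 | h0
        · exfalso
          rw [h0, pow_zero] at ej
          exact hx (orderOf_eq_one_iff.1 ej)
        · exact h0
      exact (isPrimePow_nat_iff _).2 ⟨t, j, ht, hj0, ej.symm⟩
    · intro N hN hNs
      haveI := hN
      haveI := hNs
      haveI : Group.IsSolvable ↥(N.comap (QuotientGroup.mk' R)) := by
        haveI := hRs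
        exact Group.isSolvable_of_ker_le_range (Subgroup.inclusion (hRle N))
          ((QuotientGroup.mk' R).subgroupComap N) (by
            intro x hx
            rw [MonoidHom.mem_ker] at hx
            have h1 : (QuotientGroup.mk' R) (x : G) = 1 := congrArg Subtype.val hx
            have h2 : (x : G) ∈ R := (QuotientGroup.eq_one_iff _).1 h1
            exact MonoidHom.mem_range.2 ⟨⟨x, h2⟩, Subtype.ext rfl⟩)
      have hle := hRmax (N.comap (QuotientGroup.mk' R)) inferInstance inferInstance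
      rw [Subgroup.eq_bot_iff_forall]
      intro x hx
      obtain ⟨g, rfl⟩ := QuotientGroup.mk_surjective x
      exact (QuotientGroup.eq_one_iff g).2 (hle (Subgroup.mem_comap.2 hx))

end Cfsg.Agent.S3992
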