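import Cfsg.Statements.S3994
import Mathlib
import Cfsg.Agent.Helper20.Frob

set_option autoImplicit false
open Cfsg

namespace Cfsg.Agent.S3994

/-- Let G be a finite group and n a positive integer. The number of elements of G whose order is divisible by n is either 0 or divisible by the largest divisor of the order of G that is coprime to n. -/
theorem result {G : Type*} [Group G] [Finite G] (n : ℕ) (hn : 0 < n) :
    Nat.card {g : G // n ∣ orderOf g} = 0 ∨
      (Nat.card G / Nat.gcd (Nat.card G) (n ^ Nat.card G)) ∣ Nat.card {g : G // n ∣ orderOf g} := by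
  right
  classical
  haveI : Fintype G := Fintype.ofFinite G
  obtain ⟨N, hN⟩ : ∃ N, N = Nat.card G := ⟨_, rfl⟩
  rw [← hN]
  have hNpos : 0 < N := by rw [hN]; exact Nat.card_pos
  obtain ⟨q, hq⟩ : ∃ q, q = Nat.gcd N (n ^ N) := ⟨_, rfl⟩
  rw [← hq]
  have hqN : q ∣ N := by rw [hq]; exact Nat.gcd_dvd_left _ _
  have hqpos : 0 < q := Nat.pos_of_dvd_of_pos hqN hNpos
  obtain ⟨t, ht⟩ : ∃ t, t = N / q := ⟨_, rfl⟩
  rw [← ht]
  have hNqt : N = q * t := by rw [ht]; exact (Nat.mul_div_cancel' hqN).symm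
  have hcop : Nat.Coprime t n := by
    apply Nat.coprime_of_dvd
    intro r hr hrt hrn
    obtain ⟨j, q', hq', hqj⟩ := Nat.exists_eq_pow_mul_and_not_dvd hqpos.ne' r hr.ne_one
    have h1 : r ^ (j + 1) ∣ N := by
      rw [hNqt, pow_succ]
      exact Nat.mul_dvd_mul ⟨q', hqj⟩ hrt
    have h2 : j + 1 ≤ N := by
      have h3 : r ^ (j + 1) ≤ N := Nat.le_of_dvd hNpos h1
      have h4 : j + 1 < r ^ (j + 1) := Nat.lt_pow_self hr.one_lt
      omega
    have h5 : r ^ (j + 1) ∣ n ^ N := (pow_dvd_pow r h2).trans (pow_dvd_pow_of_dvd hrn N)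
    have h6 : r ^ (j + 1) ∣ q := by rw [hq]; exact Nat.dvd_gcd h1 h5
    rw [hqj, pow_succ] at h6
    exact hq' (Nat.dvd_of_mul_dvd_mul_left (pow_pos hr.pos j) h6)
  have hcop2 : Nat.Coprime q t := by
    have h1 : Nat.Coprime t (n ^ N) := Nat.Coprime.pow_right N hcop
    have h2 : q ∣ n ^ N := by rw [hq]; exact Nat.gcd_dvd_right _ _
    exact (Nat.Coprime.coprime_dvd_right h2 h1).symm
  have e1 : Nat.card {g : G // n ∣ orderOf g} =
      Nat.card {x : G // x ^ (q * t) = 1 ∧ n ∣ orderOf x} := by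
    apply Nat.card_congr
    exact Equiv.subtypeEquivRight (fun g => by
      constructor
      · intro h; exact ⟨by rw [← hNqt, hN]; exact pow_card_eq_one', h⟩
      · intro h; exact h.2)
  have hT : ∀ y z : G, y ^ q = 1 → z ^ t = 1 → Commute y z →
      (n ∣ orderOf (y * z) ↔ n ∣ orderOf y) := by
    intro y z hy hz hc
    have hoy := orderOf_dvd_of_pow_eq_one hy
    have hoz := orderOf_dvd_of_pow_eq_one hz
    have hcyz : (orderOf y).Coprime (orderOf z) :=
      Nat.Coprime.coprime_dvd_left hoy (Nat.Coprime.coprime_dvd_right hoz hcop2)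
    rw [hc.orderOf_mul_eq_mul_orderOf_of_coprime hcyz]
    constructor
    · intro h
      exact Nat.Coprime.dvd_of_dvd_mul_right (Nat.Coprime.coprime_dvd_right hoz hcop.symm) h
    · intro h; exact h.trans (dvd_mul_right _ _)
  have e2 : Nat.card {x : G // x ^ (q * t) = 1 ∧ n ∣ orderOf x} =
      ∑ y : G, Nat.card {z : G // (y ^ q = 1 ∧ n ∣ orderOf y) ∧ Commute y z ∧ z ^ t = 1} :=
    Cfsg.Agent.Helper20.card_decomp q t hcop2 (fun x => n ∣ orderOf x)
      (fun y => n ∣ orderOf y) hT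
  rw [e1, e2]
  apply Cfsg.Agent.Helper20.dvd_sum_conj t (fun y : G => y ^ q = 1 ∧ n ∣ orderOf y)
  · rintro g y ⟨h1, h2⟩
    refine ⟨by rw [conj_pow, h1]; group, ?_⟩
    have h3 : orderOf (g * y * g⁻¹) = orderOf y := MulEquiv.orderOf_eq (MulAut.conj g) y
    rw [h3]; exact h2
  · rintro y -
    have h1 := Cfsg.Agent.Helper20.frobenius_gcd (Subgroup.centralizer ({y} : Set G)) t
    have h2 : t ∣ (Subgroup.centralizer ({y} : Set G)).index *
        Nat.gcd t (Nat.card (Subgroup.centralizer ({y} : Set G))) := by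
      rw [← Nat.gcd_mul_left]
      apply Nat.dvd_gcd (dvd_mul_left _ _)
      rw [mul_comm, Subgroup.card_mul_index, ← hN, hNqt]
      exact dvd_mul_left _ _
    exact h2.trans (Nat.mul_dvd_mul_left _ h1)

end Cfsg.Agent.S3994
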