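import Cfsg.Statements.S3995
import Mathlib
import Cfsg.Agent.S3993

set_option autoImplicit false
open Cfsg

namespace Cfsg.Agent.S3995

/-- number of elements of order `m` -/
noncomputable def cnt (G : Type*) [Group G] (m : ℕ) : ℕ := Nat.card {g : G // orderOf g = m}

section
variable {G : Type*} [Group G] [Finite G]

theorem card_pow_eq (m : ℕ) (D : Finset ℕ) (hD : ∀ d : ℕ, d ∣ m ↔ d ∈ D) :
    Nat.card {g : G // g ^ m = 1} = ∑ d ∈ D, cnt G d := by
  classical
  haveI := Fintype.ofFinite G
  have h1 : Nat.card {g : G // g ^ m = 1} = (Finset.univ.filter (fun g : G => g ^ m = 1)).card := by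
    rw [Nat.card_eq_fintype_card, Fintype.card_subtype]
  rw [h1, Finset.card_eq_sum_card_fiberwise (f := orderOf) (t := D)]
  · apply Finset.sum_congr rfl
    intro d hd
    unfold cnt
    rw [Nat.card_eq_fintype_card, Fintype.card_subtype]
    congr 1
    ext g
    simp only [Finset.mem_filter, Finset.mem_univ, true_and]
    constructor
    · rintro ⟨_, h⟩; exact h
    · intro h
      refine ⟨?_, h⟩
      have : orderOf g ∣ m := by rw [h]; exact (hD d).2 hd
      exact orderOf_dvd_iff_pow_eq_one.1 this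
  · intro g hg
    simp only [Finset.coe_filter, Finset.mem_univ, true_and, Set.mem_setOf_eq] at hg
    exact Finset.mem_coe.2 ((hD _).1 (orderOf_dvd_of_pow_eq_one hg))

theorem cnt_one : cnt G 1 = 1 := by
  unfold cnt
  rw [Nat.card_eq_one_iff_unique]
  refine ⟨⟨?_⟩, ⟨⟨1, orderOf_one⟩⟩⟩
  rintro ⟨a, ha⟩ ⟨b, hb⟩
  rw [orderOf_eq_one_iff] at ha hb
  exact Subtype.ext (ha.trans hb.symm)

theorem cnt_ne_zero {m : ℕ} {g : G} (hg : orderOf g = m) : cnt G m ≠ 0 := by
  unfold cnt
  haveI : Nonempty {g : G // orderOf g = m} := ⟨⟨g, hg⟩⟩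
  exact Nat.card_pos.ne'

theorem cnt_eq_zero {m : ℕ} (h : ¬ ∃ g : G, orderOf g = m) : cnt G m = 0 := by
  unfold cnt
  haveI : IsEmpty {g : G // orderOf g = m} := ⟨fun x => h ⟨x.1, x.2⟩⟩
  exact Nat.card_of_isEmpty

theorem sq_eq_one_of_cnt_one {g : G} (h : cnt G (orderOf g) = 1) : g ^ 2 = 1 := by
  unfold cnt at h
  rw [Nat.card_eq_one_iff_unique] at h
  have h1 := h.1.elim ⟨g, rfl⟩ ⟨g⁻¹, orderOf_inv g⟩
  have h2 : g = g⁻¹ := congrArg Subtype.val h1
  have h3 := mul_inv_cancel g
  rw [← h2] at h3
  rw [pow_two]; exact h3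

theorem val3 {n : ℕ} (hv : ∀ g : G, cnt G (orderOf g) = 1 ∨ cnt G (orderOf g) = n) {d : ℕ}
    (hd : 3 ≤ d) : cnt G d = 0 ∨ cnt G d = n := by
  by_cases hex : ∃ g : G, orderOf g = d
  · obtain ⟨g, rfl⟩ := hex
    rcases hv g with h1 | h1
    · exfalso
      have h2 := sq_eq_one_of_cnt_one h1
      have h3 := orderOf_dvd_of_pow_eq_one h2
      have h4 := Nat.le_of_dvd (by norm_num) h3
      omega
    · exact Or.inr h1
  · exact Or.inl (cnt_eq_zero hex)

theorem card_prime {p : ℕ} (hp : p.Prime) :
    Nat.card {g : G // g ^ p = 1} = 1 + cnt G p := by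
  rw [card_pow_eq p {1, p} (by intro d; rw [Nat.dvd_prime hp]; simp),
    Finset.sum_pair hp.one_lt.ne, cnt_one]

theorem cong_prime {p : ℕ} (hp : p.Prime) (hdvd : p ∣ Nat.card G) : p ∣ 1 + cnt G p := by
  have h1 := Cfsg.Agent.S3993.result (G := G) p hdvd
  rw [card_prime hp] at h1
  exact h1

theorem card_pow_prime_pow {p : ℕ} (hp : p.Prime) (k : ℕ) :
    Nat.card {g : G // g ^ (p ^ k) = 1} = ∑ i ∈ Finset.range (k + 1), cnt G (p ^ i) := by
  rw [card_pow_eq (p ^ k) (p ^ k).divisors (fun d => by
    rw [Nat.mem_divisors]; exact ⟨fun h => ⟨h, pow_ne_zero k hp.ne_zero⟩, fun h => h.1⟩),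
    Nat.sum_divisors_prime_pow hp]

theorem card_pow_mul {p q : ℕ} (hp : p.Prime) (hq : q.Prime) (hpq : p ≠ q) :
    Nat.card {g : G // g ^ (p * q) = 1} = 1 + cnt G p + cnt G q + cnt G (p * q) := by
  have hp1 := hp.one_lt
  have hq1 := hq.one_lt
  have h1 : p < p * q := by nlinarith
  have h2 : q < p * q := by nlinarith
  have hD : ∀ d : ℕ, d ∣ p * q ↔ d ∈ ({1, p, q, p * q} : Finset ℕ) := by
    intro d
    simp only [Finset.mem_insert, Finset.mem_singleton]
    constructor
    · intro hd
      obtain ⟨a, b, ha, hb, hab⟩ := dvd_mul.1 hd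
      subst hab
      rcases (Nat.dvd_prime hp).1 ha with rfl | rfl <;>
        rcases (Nat.dvd_prime hq).1 hb with rfl | rfl <;> simp
    · rintro (rfl | rfl | rfl | rfl)
      · exact one_dvd _
      · exact dvd_mul_right _ _
      · exact dvd_mul_left _ _
      · exact dvd_rfl
  have e1 : (1 : ℕ) ∉ ({p, q, p * q} : Finset ℕ) := by
    simp only [Finset.mem_insert, Finset.mem_singleton]; omega
  have e2 : p ∉ ({q, p * q} : Finset ℕ) := by
    simp only [Finset.mem_insert, Finset.mem_singleton]; omega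
  have e3 : q ≠ p * q := by omega
  rw [card_pow_eq (p * q) _ hD, Finset.sum_insert e1, Finset.sum_insert e2, Finset.sum_pair e3,
    cnt_one]
  ring

theorem card_pow_four_mul {q : ℕ} (hq : q.Prime) (hq2 : q ≠ 2) :
    Nat.card {g : G // g ^ (4 * q) = 1} =
      1 + cnt G 2 + cnt G 4 + cnt G q + cnt G (2 * q) + cnt G (4 * q) := by
  have hq1 := hq.two_le
  have hodd : q % 2 = 1 := by
    rcases hq.eq_two_or_odd with h | h
    · exact absurd h hq2
    · exact h
  have hD : ∀ d : ℕ, d ∣ 4 * q ↔ d ∈ ({1, 2, 4, q, 2 * q, 4 * q} : Finset ℕ) := by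
    intro d
    simp only [Finset.mem_insert, Finset.mem_singleton]
    constructor
    · intro hd
      obtain ⟨a, b, ha, hb, hab⟩ := dvd_mul.1 hd
      subst hab
      have ha' : a = 1 ∨ a = 2 ∨ a = 4 := by
        have hle := Nat.le_of_dvd (by norm_num) ha
        interval_cases a <;> omega
      rcases ha' with rfl | rfl | rfl <;>
        rcases (Nat.dvd_prime hq).1 hb with rfl | rfl <;> simp
    · rintro (rfl | rfl | rfl | rfl | rfl | rfl)
      · exact one_dvd _
      · exact Dvd.dvd.mul_right (by norm_num) _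
      · exact dvd_mul_right _ _
      · exact dvd_mul_left _ _
      · exact Nat.mul_dvd_mul (by norm_num) dvd_rfl
      · exact dvd_rfl
  have e1 : (1 : ℕ) ∉ ({2, 4, q, 2 * q, 4 * q} : Finset ℕ) := by
    simp only [Finset.mem_insert, Finset.mem_singleton]; omega
  have e2 : (2 : ℕ) ∉ ({4, q, 2 * q, 4 * q} : Finset ℕ) := by
    simp only [Finset.mem_insert, Finset.mem_singleton]; omega
  have e3 : (4 : ℕ) ∉ ({q, 2 * q, 4 * q} : Finset ℕ) := by
    simp only [Finset.mem_insert, Finset.mem_singleton]; omega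
  have e4 : q ∉ ({2 * q, 4 * q} : Finset ℕ) := by
    simp only [Finset.mem_insert, Finset.mem_singleton]; omega
  have e5 : 2 * q ≠ 4 * q := by omega
  rw [card_pow_eq (4 * q) _ hD, Finset.sum_insert e1, Finset.sum_insert e2, Finset.sum_insert e3,
    Finset.sum_insert e4, Finset.sum_pair e5, cnt_one]
  ring

theorem key1 {n p q : ℕ} (hp : p.Prime) (hq : q.Prime) (hpq : p ≠ q) (hq2 : q ≠ 2)
    (hpG : p ∣ Nat.card G) (hqG : q ∣ Nat.card G) (hcp : cnt G p = n) (hcq : cnt G q = n)
    (hcpq : cnt G (p * q) = 0 ∨ cnt G (p * q) = n) : False := by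
  have h1 := cong_prime hq hqG
  have hdvd : p * q ∣ Nat.card G :=
    Nat.Coprime.mul_dvd_of_dvd_of_dvd ((Nat.coprime_primes hp hq).2 hpq) hpG hqG
  have h2 := Cfsg.Agent.S3993.result (G := G) (p * q) hdvd
  rw [card_pow_mul hp hq hpq, hcp, hcq] at h2
  rw [hcq] at h1
  have h3 : q ∣ 1 + n + n + cnt G (p * q) := (dvd_mul_left q p).trans h2
  have hn : q ∣ n + cnt G (p * q) := by
    have h4 := Nat.dvd_sub h3 h1
    have e : 1 + n + n + cnt G (p * q) - (1 + n) = n + cnt G (p * q) := by omega
    rwa [e] at h4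
  have h2n : q ∣ 2 * n := by
    rcases hcpq with h0 | h0
    · rw [h0, add_zero] at hn; exact Dvd.dvd.mul_left hn 2
    · rw [h0] at hn
      have e : n + n = 2 * n := by ring
      rwa [e] at hn
  have hqn : q ∣ n :=
    (Nat.Coprime.dvd_mul_left ((Nat.coprime_primes hq Nat.prime_two).2 hq2)).1 h2n
  have h5 : q ∣ 1 := by
    have h6 := Nat.dvd_sub h1 hqn
    have e : 1 + n - n = 1 := by omega
    rwa [e] at h6
  exact hq.one_lt.ne' (Nat.dvd_one.1 h5)

theorem key2 {n p : ℕ} (hp : p.Prime) (hp2G : p ^ 2 ∣ Nat.card G) (hcp : cnt G p = n)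
    (hcp2 : cnt G (p ^ 2) = n) : False := by
  have hpG : p ∣ Nat.card G := (dvd_pow_self p (by norm_num)).trans hp2G
  have h1 := cong_prime hp hpG
  have h2 := Cfsg.Agent.S3993.result (G := G) (p ^ 2) hp2G
  rw [card_pow_prime_pow hp 2] at h2
  simp only [Finset.sum_range_succ, Finset.sum_range_zero, pow_zero, pow_one, zero_add, cnt_one,
    hcp, hcp2] at h2
  rw [hcp] at h1
  have h3 : p ∣ 1 + n + n := (dvd_pow_self p (by norm_num)).trans h2
  have hn : p ∣ n := by
    have h4 := Nat.dvd_sub h3 h1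
    have e : 1 + n + n - (1 + n) = n := by omega
    rwa [e] at h4
  have h5 : p ∣ 1 := by
    have h6 := Nat.dvd_sub h1 hn
    have e : 1 + n - n = 1 := by omega
    rwa [e] at h6
  exact hp.one_lt.ne' (Nat.dvd_one.1 h5)

theorem card_four : Nat.card {g : G // g ^ 4 = 1} = 1 + cnt G 2 + cnt G 4 := by
  have h := card_pow_prime_pow (G := G) Nat.prime_two 2
  simp only [Finset.sum_range_succ, Finset.sum_range_zero, pow_zero, pow_one, zero_add, cnt_one]
    at h
  have e : (2 : ℕ) ^ 2 = 4 := by norm_num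
  rw [e] at h
  exact h

theorem card_eight : Nat.card {g : G // g ^ 8 = 1} = 1 + cnt G 2 + cnt G 4 + cnt G 8 := by
  have h := card_pow_prime_pow (G := G) Nat.prime_two 3
  simp only [Finset.sum_range_succ, Finset.sum_range_zero, pow_zero, pow_one, zero_add, cnt_one]
    at h
  have e : (2 : ℕ) ^ 2 = 4 := by norm_num
  have e' : (2 : ℕ) ^ 3 = 8 := by norm_num
  rw [e, e'] at h
  exact h

theorem key3 {n : ℕ} (h8 : 8 ∣ Nat.card G) (hc2 : cnt G 2 = 1) (hc4 : cnt G 4 = n)
    (hc8 : cnt G 8 = n) : False := by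
  have h4 : 4 ∣ Nat.card G := Dvd.dvd.trans (by norm_num) h8
  have a4 := Cfsg.Agent.S3993.result (G := G) 4 h4
  have a8 := Cfsg.Agent.S3993.result (G := G) 8 h8
  rw [card_four, hc2, hc4] at a4
  rw [card_eight, hc2, hc4, hc8] at a8
  omega

theorem key4 {n q : ℕ} (hq : q.Prime) (hq2 : q ≠ 2) (hqG : q ∣ Nat.card G)
    (h4G : 4 ∣ Nat.card G) (hc2 : cnt G 2 = 1) (hc4 : cnt G 4 = n) (hcq : cnt G q = n)
    (hc2q : cnt G (2 * q) = n) (hc4q : cnt G (4 * q) = 0 ∨ cnt G (4 * q) = n) : False := by
  have h1 := cong_prime hq hqG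
  rw [hcq] at h1
  have hcop : Nat.Coprime 4 q := by
    rw [show (4 : ℕ) = 2 ^ 2 by norm_num]
    exact Nat.Coprime.pow_left 2 ((Nat.coprime_primes Nat.prime_two hq).2 (Ne.symm hq2))
  have hdvd : 4 * q ∣ Nat.card G := Nat.Coprime.mul_dvd_of_dvd_of_dvd hcop h4G hqG
  have h2 := Cfsg.Agent.S3993.result (G := G) (4 * q) hdvd
  rw [card_pow_four_mul hq hq2, hc2, hc4, hcq, hc2q] at h2
  have h3 : q ∣ 1 + 1 + n + n + n + cnt G (4 * q) := (dvd_mul_left q 4).trans h2
  have hn : q ∣ n + cnt G (4 * q) := by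
    have h1' : q ∣ 2 * (1 + n) := Dvd.dvd.mul_left h1 2
    have h4 := Nat.dvd_sub h3 h1'
    have e : 1 + 1 + n + n + n + cnt G (4 * q) - 2 * (1 + n) = n + cnt G (4 * q) := by omega
    rwa [e] at h4
  have h2n : q ∣ 2 * n := by
    rcases hc4q with h0 | h0
    · rw [h0, add_zero] at hn; exact Dvd.dvd.mul_left hn 2
    · rw [h0] at hn
      have e : n + n = 2 * n := by ring
      rwa [e] at hn
  have hqn : q ∣ n :=
    (Nat.Coprime.dvd_mul_left ((Nat.coprime_primes hq Nat.prime_two).2 hq2)).1 h2n
  have h5 : q ∣ 1 := by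
    have h6 := Nat.dvd_sub h1 hqn
    have e : 1 + n - n = 1 := by omega
    rwa [e] at h6
  exact hq.one_lt.ne' (Nat.dvd_one.1 h5)

theorem exists_order {g : G} {d : ℕ} (hd : d ∣ orderOf g) : ∃ x : G, orderOf x = d := by
  have ho : orderOf g ≠ 0 := (orderOf_pos g).ne'
  have hd0 : d ≠ 0 := by rintro rfl; exact ho (zero_dvd_iff.1 hd)
  refine ⟨g ^ (orderOf g / d), ?_⟩
  rw [orderOf_pow_of_dvd ?_ (Nat.div_dvd_of_dvd hd), Nat.div_div_self hd ho]
  exact (Nat.div_pos (Nat.le_of_dvd (orderOf_pos g) hd) (Nat.pos_of_ne_zero hd0)).ne'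

/-- the candidate map from `Q₈` -/
noncomputable def qmap (x y : G) : QuaternionGroup 2 → G
  | QuaternionGroup.a i => x ^ i.val
  | QuaternionGroup.xa i => y * x ^ i.val

theorem exists_q8_iso {x y : G} (hx : orderOf x = 4) (hyy : y * y = x * x)
    (hxy : x * y = y * x⁻¹) (hy : y ∉ Subgroup.zpowers x)
    (hsurj : ∀ w : G, w ∉ Subgroup.zpowers x → ∃ k : ℕ, w = y * x ^ k) :
    Nonempty (G ≃* QuaternionGroup 2) := by
  haveI : NeZero (2 * 2) := ⟨by norm_num⟩
  have hx4 : x ^ (2 * 2) = 1 := by
    have := pow_orderOf_eq_one x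
    rw [hx] at this; exact this
  have hE_add : ∀ i j : ZMod (2 * 2), x ^ (i + j).val = x ^ i.val * x ^ j.val := by
    intro i j
    rw [ZMod.val_add, ← pow_add, ← pow_eq_pow_mod _ hx4]
  have hE_zero : x ^ (0 : ZMod (2 * 2)).val = 1 := by simp
  have hE_comm : ∀ i j : ZMod (2 * 2), x ^ i.val * x ^ j.val = x ^ j.val * x ^ i.val := by
    intro i j; rw [← pow_add, ← pow_add, add_comm]
  have hE_neg : ∀ i : ZMod (2 * 2), x ^ (-i).val = (x ^ i.val)⁻¹ := by
    intro i
    rw [eq_inv_iff_mul_eq_one, ← hE_add, neg_add_cancel, hE_zero]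
  have hE_sub : ∀ i j : ZMod (2 * 2), x ^ (i - j).val = x ^ i.val * (x ^ j.val)⁻¹ := by
    intro i j; rw [sub_eq_add_neg, hE_add, hE_neg]
  have hv2 : (((2 : ℕ) : ZMod (2 * 2))).val = 2 := by rw [ZMod.val_natCast]
  have hE_two : x ^ (((2 : ℕ) : ZMod (2 * 2))).val = y * y := by
    rw [hv2, pow_two, hyy]
  have hpow_conj : ∀ k : ℕ, x ^ k * y = y * (x ^ k)⁻¹ := by
    intro k
    induction k with
    | zero => simp
    | succ k ih =>
      calc x ^ (k + 1) * y = x ^ k * (x * y) := by rw [pow_succ, mul_assoc]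
        _ = (x ^ k * y) * x⁻¹ := by rw [hxy, mul_assoc]
        _ = y * ((x ^ k)⁻¹ * x⁻¹) := by rw [ih, mul_assoc]
        _ = y * (x ^ (k + 1))⁻¹ := by rw [← mul_inv_rev, ← pow_succ']
  have hf_mul : ∀ u v : QuaternionGroup 2, qmap x y (u * v) = qmap x y u * qmap x y v := by
    rintro (i | i) (j | j)
    · rw [QuaternionGroup.a_mul_a]
      exact hE_add i j
    · rw [QuaternionGroup.a_mul_xa]
      show y * x ^ (j - i).val = x ^ i.val * (y * x ^ j.val)
      rw [hE_sub, ← mul_assoc (x ^ i.val) y (x ^ j.val), hpow_conj i.val,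
        mul_assoc y ((x ^ i.val)⁻¹) (x ^ j.val), ← hE_neg i, hE_comm j (-i)]
    · rw [QuaternionGroup.xa_mul_a]
      show y * x ^ (i + j).val = y * x ^ i.val * x ^ j.val
      rw [hE_add, mul_assoc]
    · rw [QuaternionGroup.xa_mul_xa]
      show x ^ (((2 : ℕ) : ZMod (2 * 2)) + j - i).val = y * x ^ i.val * (y * x ^ j.val)
      rw [hE_sub, hE_add, hE_two, mul_assoc y (x ^ i.val), ← mul_assoc (x ^ i.val) y (x ^ j.val),
        hpow_conj i.val]
      simp only [mul_assoc]
      rw [← hE_neg i, hE_comm j (-i)]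
  let f : QuaternionGroup 2 →* G := MonoidHom.mk' (qmap x y) hf_mul
  have hinj : Function.Injective f := by
    rw [injective_iff_map_eq_one]
    rintro (i | i) hi
    · have hi' : x ^ i.val = 1 := hi
      have h1 : orderOf x ∣ i.val := orderOf_dvd_of_pow_eq_one hi'
      rw [hx] at h1
      have h2 : i.val < 2 * 2 := ZMod.val_lt i
      have h3 : i.val = 0 := by omega
      rw [QuaternionGroup.one_def, (ZMod.val_eq_zero i).1 h3]
    · exfalso
      have hi' : y * x ^ i.val = 1 := hi
      apply hy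
      rw [mul_eq_one_iff_eq_inv.1 hi']
      exact Subgroup.inv_mem _ (Subgroup.pow_mem _ (Subgroup.mem_zpowers x) _)
  have hsur : Function.Surjective f := by
    intro w
    by_cases hw : w ∈ Subgroup.zpowers x
    · rw [← mem_powers_iff_mem_zpowers] at hw
      obtain ⟨k, hk⟩ := (Submonoid.mem_powers_iff _ _).1 hw
      refine ⟨QuaternionGroup.a (k : ZMod (2 * 2)), ?_⟩
      show x ^ ((k : ZMod (2 * 2))).val = w
      rw [ZMod.val_natCast, ← pow_eq_pow_mod _ hx4, hk]
    · obtain ⟨k, hk⟩ := hsurj w hw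
      refine ⟨QuaternionGroup.xa (k : ZMod (2 * 2)), ?_⟩
      show y * x ^ ((k : ZMod (2 * 2))).val = w
      rw [ZMod.val_natCast, ← pow_eq_pow_mod _ hx4, hk]
  exact ⟨(MulEquiv.ofBijective f ⟨hinj, hsur⟩).symm⟩

end

theorem result {G : Type*} [Group G] [Finite G] (n : ℕ) (hn : n ≠ 1) (h : ((fun m : ℕ => Nat.card {g : G // orderOf g = m}) '' Set.range (orderOf : G → ℕ)) = {1, n}) :
    (∃ p : ℕ, p.Prime ∧ IsPGroup p G ∧ 3 ≤ Nat.card G ∧ Monoid.exponent G = p) ∨
      Nonempty (G ≃* QuaternionGroup 2) ∨ (IsCyclic G ∧ Nat.card G = 4) ∨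
      (∃ (p : ℕ) (P : Type) (_ : Group P) (_ : Finite P), p.Prime ∧ p ≠ 2 ∧ IsPGroup p P ∧ Monoid.exponent P = p ∧
        Nonempty (G ≃* Multiplicative (ZMod 2) × P)) := by
  classical
  have hv : ∀ g : G, cnt G (orderOf g) = 1 ∨ cnt G (orderOf g) = n := by
    intro g
    have hmem : cnt G (orderOf g) ∈ ((fun m : ℕ => Nat.card {g : G // orderOf g = m}) ''
        Set.range (orderOf : G → ℕ)) := ⟨orderOf g, ⟨g, rfl⟩, rfl⟩
    rw [h] at hmem
    simpa using hmem
  obtain ⟨g₀, hg₀⟩ : ∃ g : G, cnt G (orderOf g) = n := by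
    have hmem : n ∈ ((fun m : ℕ => Nat.card {g : G // orderOf g = m}) ''
        Set.range (orderOf : G → ℕ)) := by rw [h]; simp
    obtain ⟨m, ⟨g, rfl⟩, hm⟩ := hmem
    exact ⟨g, hm⟩
  have hv3 : ∀ d, 3 ≤ d → cnt G d = 0 ∨ cnt G d = n := fun d hd => val3 hv hd
  have hcard0 : Nat.card G ≠ 0 := Nat.card_pos.ne'
  have hg₀1 : orderOf g₀ ≠ 1 := by
    intro h1; rw [h1, cnt_one] at hg₀; exact hn hg₀.symm
  have hn0 : n ≠ 0 := by rw [← hg₀]; exact cnt_ne_zero rfl
  by_cases hc2 : cnt G 2 = 1
  · -- Case II : a unique involution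
    have hex2 : ∃ z : G, orderOf z = 2 := by
      by_contra hno
      rw [cnt_eq_zero hno] at hc2; exact absurd hc2 (by norm_num)
    obtain ⟨z, hz⟩ := hex2
    have huniq : ∀ g : G, orderOf g = 2 → g = z := by
      intro g hg
      have hc2' := hc2
      unfold cnt at hc2'
      rw [Nat.card_eq_one_iff_unique] at hc2'
      exact congrArg Subtype.val (hc2'.1.elim ⟨g, hg⟩ ⟨z, hz⟩)
    have hz2 : z ^ 2 = 1 := by rw [← hz]; exact pow_orderOf_eq_one z
    have hz1 : z ≠ 1 := by
      rintro rfl; rw [orderOf_one] at hz; exact absurd hz (by norm_num)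
    have hsq : ∀ g : G, g ^ 2 = 1 → g = 1 ∨ g = z := by
      intro g hg
      by_cases h1 : g = 1
      · exact Or.inl h1
      · right; apply huniq
        exact orderOf_eq_prime hg h1
    have hzc : ∀ g : G, g * z = z * g := by
      intro g
      have h1 : (g * z * g⁻¹) ^ 2 = 1 := by rw [conj_pow, hz2, mul_one, mul_inv_cancel]
      rcases hsq _ h1 with h2 | h2
      · exfalso; apply hz1
        calc z = g⁻¹ * (g * z * g⁻¹) * g := by group
          _ = 1 := by rw [h2]; group
      · calc g * z = (g * z * g⁻¹) * g := by group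
          _ = z * g := by rw [h2]
    have hex_n : ∀ {d : ℕ} {g : G}, orderOf g = d → 3 ≤ d → cnt G d = n := by
      intro d g hg hd
      rcases hv3 d hd with h0 | h0
      · exact absurd h0 (cnt_ne_zero hg)
      · exact h0
    have hg₀3 : 3 ≤ orderOf g₀ := by
      have h0 : orderOf g₀ ≠ 0 := (orderOf_pos g₀).ne'
      have h2 : orderOf g₀ ≠ 2 := by
        intro h2; rw [h2, hc2] at hg₀; exact hn hg₀.symm
      omega
    have h2G : 2 ∣ Nat.card G := hz ▸ orderOf_dvd_natCard z
    by_cases hodd : ∃ q : ℕ, q.Prime ∧ q ≠ 2 ∧ q ∣ Nat.card G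
    · -- IIb
      obtain ⟨q, hq, hq2, hqG⟩ := hodd
      haveI : Fact q.Prime := ⟨hq⟩
      obtain ⟨y, hy⟩ := exists_prime_orderOf_dvd_card' q hqG
      have hq3 : 3 ≤ q := by have := hq.two_le; omega
      have hcq : cnt G q = n := hex_n hy hq3
      have hcop2q : Nat.Coprime 2 q := (Nat.coprime_primes Nat.prime_two hq).2 (Ne.symm hq2)
      have hzy : orderOf (z * y) = 2 * q := by
        have h1 := (show Commute z y from (hzc y).symm).orderOf_mul_eq_mul_orderOf_of_coprime
          (by rw [hz, hy]; exact hcop2q)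
        rw [h1, hz, hy]
      have hc2q : cnt G (2 * q) = n := hex_n hzy (by omega)
      have hno4 : ∀ g : G, orderOf g ≠ 4 := by
        intro g hg4
        have h4G : 4 ∣ Nat.card G := hg4 ▸ orderOf_dvd_natCard g
        have hc4 : cnt G 4 = n := hex_n hg4 (by norm_num)
        exact key4 hq hq2 hqG h4G hc2 hc4 hcq hc2q (hv3 _ (by omega))
      have honly : ∀ {r : ℕ}, r.Prime → r ∣ Nat.card G → r = 2 ∨ r = q := by
        intro r hr hrG
        by_contra hne
        push_neg at hne
        haveI : Fact r.Prime := ⟨hr⟩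
        obtain ⟨xr, hxr⟩ := exists_prime_orderOf_dvd_card' r hrG
        have hr3 : 3 ≤ r := by have := hr.two_le; omega
        have hcr : cnt G r = n := hex_n hxr hr3
        exact key1 hr hq hne.2 hq2 hrG hqG hcr hcq (hv3 _ (by nlinarith))
      have hnoq2 : ∀ g : G, orderOf g ≠ q ^ 2 := by
        intro g hg
        have hq2G : q ^ 2 ∣ Nat.card G := hg ▸ orderOf_dvd_natCard g
        exact key2 hq hq2G hcq (hex_n hg (by nlinarith))
      have h4 : ¬ 4 ∣ Nat.card G := by
        intro h4G
        have a4 := Cfsg.Agent.S3993.result (G := G) 4 h4G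
        rw [card_four, hc2, cnt_eq_zero (fun ⟨g, hg⟩ => hno4 g hg)] at a4
        omega
      obtain ⟨P⟩ : Nonempty (Sylow q G) := inferInstance
      have hPcard : Nat.card P = q ^ (Nat.card G).factorization q := P.card_eq_multiplicity
      have hPidx : (P : Subgroup G).index = 2 := by
        have hnd : ¬ q ∣ (P : Subgroup G).index := P.not_dvd_index
        have hdG : (P : Subgroup G).index ∣ Nat.card G := Subgroup.index_dvd_card _
        have hi0 : (P : Subgroup G).index ≠ 0 := Subgroup.index_ne_zero_of_finite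
        have hpow : (P : Subgroup G).index = 2 ^ ((P : Subgroup G).index).primeFactorsList.length :=
          Nat.eq_prime_pow_of_unique_prime_dvd hi0 (fun {d} hd hdi => by
            rcases honly hd (hdi.trans hdG) with h | h
            · exact h
            · exact absurd (h ▸ hdi) hnd)
        obtain ⟨k, hk⟩ : ∃ k, (P : Subgroup G).index = 2 ^ k := ⟨_, hpow⟩
        have hk1 : k ≤ 1 := by
          by_contra hk2
          push_neg at hk2
          apply h4
          have h22 : (2 : ℕ) ^ 2 ∣ 2 ^ k := pow_dvd_pow 2 hk2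
          rw [← hk] at h22
          have e : (2 : ℕ) ^ 2 = 4 := by norm_num
          rw [e] at h22
          exact h22.trans hdG
        have hk0 : k ≠ 0 := by
          intro hk0
          rw [hk0, pow_zero] at hk
          have hcardG : Nat.card G = Nat.card P := by
            have h5 := (P : Subgroup G).card_mul_index
            rw [hk, mul_one] at h5; exact h5.symm
          rw [hcardG, hPcard] at h2G
          have h6 := Nat.Prime.dvd_of_dvd_pow Nat.prime_two h2G
          exact hq2 ((Nat.prime_dvd_prime_iff_eq Nat.prime_two hq).1 h6).symm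
        have hk' : k = 1 := by omega
        rw [hk, hk', pow_one]
      have hcardG2 : Nat.card G = 2 * q ^ (Nat.card G).factorization q := by
        have h5 := (P : Subgroup G).card_mul_index
        rw [hPcard, hPidx, mul_comm] at h5
        exact h5.symm
      haveI hPn : (P : Subgroup G).Normal := Subgroup.normal_of_index_eq_two hPidx
      have hZn : (Subgroup.zpowers z).Normal := by
        refine ⟨fun w hw g => ?_⟩
        obtain ⟨k, rfl⟩ := Subgroup.mem_zpowers_iff.1 hw
        have hcz : Commute g (z ^ k) := Commute.zpow_right (hzc g) k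
        have e : g * z ^ k * g⁻¹ = z ^ k := by rw [hcz.eq, mul_assoc, mul_inv_cancel, mul_one]
        rw [e]; exact Subgroup.zpow_mem _ (Subgroup.mem_zpowers z) k
      haveI := hZn
      have hZcard : Nat.card (Subgroup.zpowers z) = 2 := by rw [Nat.card_zpowers, hz]
      have hidxZ : (Subgroup.zpowers z).index = q ^ (Nat.card G).factorization q := by
        have h5 := (Subgroup.zpowers z).card_mul_index
        rw [hZcard, hcardG2] at h5
        exact Nat.eq_of_mul_eq_mul_left (by norm_num) h5
      have hcardQ : Nat.card (G ⧸ Subgroup.zpowers z) = q ^ (Nat.card G).factorization q := by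
        rw [← Subgroup.index_eq_card]; exact hidxZ
      have hordG : ∀ g : G, orderOf g ∣ 2 * q := by
        intro g
        have h1 : orderOf g ∣ 2 * q ^ (Nat.card G).factorization q := by
          have h5 := orderOf_dvd_natCard g
          rw [hcardG2] at h5; exact h5
        obtain ⟨u, v, hu, hv', huv⟩ := dvd_mul.1 h1
        obtain ⟨j, -, rfl⟩ := (Nat.dvd_prime_pow hq).1 hv'
        have hj : j ≤ 1 := by
          by_contra hj; push_neg at hj
          have h6 : q ^ 2 ∣ orderOf g := by
            rw [huv]; exact Dvd.dvd.mul_left (pow_dvd_pow q hj) u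
          obtain ⟨x, hx⟩ := exists_order h6
          exact hnoq2 x hx
        rw [huv]
        exact Nat.mul_dvd_mul hu (by
          calc q ^ j ∣ q ^ 1 := pow_dvd_pow q hj
            _ = q := pow_one q)
      have hquot : ∀ t : G ⧸ Subgroup.zpowers z, t ^ q = 1 := by
        intro t
        obtain ⟨g, rfl⟩ := QuotientGroup.mk_surjective t
        rw [← QuotientGroup.mk_pow, QuotientGroup.eq_one_iff]
        have h1 : (g ^ q) ^ 2 = 1 := by
          rw [← pow_mul, mul_comm]; exact orderOf_dvd_iff_pow_eq_one.1 (hordG g)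
        rcases hsq _ h1 with h5 | h5
        · rw [h5]; exact Subgroup.one_mem _
        · rw [h5]; exact Subgroup.mem_zpowers z
      let φ : G →* (G ⧸ (P : Subgroup G)) × (G ⧸ Subgroup.zpowers z) :=
        (QuotientGroup.mk' (P : Subgroup G)).prod (QuotientGroup.mk' (Subgroup.zpowers z))
      have hinj : Function.Injective φ := by
        rw [injective_iff_map_eq_one]
        intro g hg
        have hg1 : (QuotientGroup.mk' (P : Subgroup G)) g = 1 := congrArg Prod.fst hg
        have hg2 : (QuotientGroup.mk' (Subgroup.zpowers z)) g = 1 := congrArg Prod.snd hg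
        have hg1' : g ∈ (P : Subgroup G) := (QuotientGroup.eq_one_iff g).1 hg1
        have hg2' : g ∈ Subgroup.zpowers z := (QuotientGroup.eq_one_iff g).1 hg2
        have hg3 : g ^ 2 = 1 := by
          have h5 := Subgroup.orderOf_dvd_natCard (Subgroup.zpowers z) hg2'
          rw [hZcard] at h5
          exact orderOf_dvd_iff_pow_eq_one.1 h5
        rcases hsq g hg3 with h5 | h5
        · exact h5
        · exfalso
          rw [h5] at hg1'
          have h6 := Subgroup.orderOf_dvd_natCard (P : Subgroup G) hg1'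
          rw [hz, hPcard] at h6
          exact hq2 ((Nat.prime_dvd_prime_iff_eq Nat.prime_two hq).1
            (Nat.Prime.dvd_of_dvd_pow Nat.prime_two h6)).symm
      have hbij : Function.Bijective φ := by
        apply hinj.bijective_of_nat_card_le
        have e : Nat.card ((G ⧸ (P : Subgroup G)) × (G ⧸ Subgroup.zpowers z)) = Nat.card G := by
          rw [Nat.card_prod, ← Subgroup.index_eq_card, ← Subgroup.index_eq_card, hPidx, hidxZ,
            ← hcardG2]
        exact e.le
      let e₁ : G ≃* (G ⧸ (P : Subgroup G)) × (G ⧸ Subgroup.zpowers z) :=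
        MulEquiv.ofBijective φ hbij
      let e₂ : G ⧸ (P : Subgroup G) ≃* Multiplicative (ZMod 2) :=
        mulEquivOfPrimeCardEq (p := 2) (by rw [← Subgroup.index_eq_card]; exact hPidx)
          ((Nat.card_congr Multiplicative.toAdd).trans (Nat.card_zmod 2))
      let e₃ : Shrink.{0} (G ⧸ Subgroup.zpowers z) ≃* G ⧸ Subgroup.zpowers z := Shrink.mulEquiv
      have hcardS : Nat.card (Shrink.{0} (G ⧸ Subgroup.zpowers z)) =
          q ^ (Nat.card G).factorization q :=
        (Nat.card_congr (equivShrink.{0} (G ⧸ Subgroup.zpowers z))).symm.trans hcardQ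
      right; right; right
      refine ⟨q, Shrink.{0} (G ⧸ Subgroup.zpowers z), inferInstance, inferInstance, hq, hq2, ?_, ?_,
        ⟨e₁.trans (MulEquiv.prodCongr e₂ e₃.symm)⟩⟩
      · exact IsPGroup.of_card hcardS
      · haveI : Nontrivial (Shrink.{0} (G ⧸ Subgroup.zpowers z)) := by
          rw [← Finite.one_lt_card_iff_nontrivial, hcardS]
          exact Nat.one_lt_pow (hq.factorization_pos_of_dvd hcard0 hqG).ne' hq.one_lt
        rw [Monoid.exponent_eq_prime_iff hq]
        intro g hg
        apply orderOf_eq_prime _ hg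
        apply e₃.injective
        rw [map_pow, map_one]
        exact hquot (e₃ g)
    · -- IIa : a 2-group
      push_neg at hodd
      have hcardpow : Nat.card G = 2 ^ (Nat.card G).primeFactorsList.length :=
        Nat.eq_prime_pow_of_unique_prime_dvd hcard0 (fun {d} hd hdG => by
          by_contra hne; exact hodd d hd hne hdG)
      have hord2 : ∀ g : G, ∃ j, orderOf g = 2 ^ j := by
        intro g
        have h5 : orderOf g ∣ 2 ^ (Nat.card G).primeFactorsList.length := by
          rw [← hcardpow]; exact orderOf_dvd_natCard g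
        obtain ⟨j, -, hj⟩ := (Nat.dvd_prime_pow Nat.prime_two).1 h5
        exact ⟨j, hj⟩
      obtain ⟨j₀, hj₀⟩ := hord2 g₀
      have hj₀2 : 2 ≤ j₀ := by
        by_contra hlt; push_neg at hlt
        have h5 : 2 ^ j₀ ≤ 2 := by
          calc 2 ^ j₀ ≤ 2 ^ 1 := Nat.pow_le_pow_right (by norm_num) (by omega)
            _ = 2 := by norm_num
        rw [← hj₀] at h5
        omega
      obtain ⟨x, hx⟩ : ∃ x : G, orderOf x = 4 := by
        apply exists_order (g := g₀)
        rw [hj₀, show (4 : ℕ) = 2 ^ 2 by norm_num]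
        exact pow_dvd_pow 2 hj₀2
      have hc4 : cnt G 4 = n := hex_n hx (by norm_num)
      have hno8 : ∀ g : G, orderOf g ≠ 8 := by
        intro g hg
        exact key3 (hg ▸ orderOf_dvd_natCard g) hc2 hc4 (hex_n hg (by norm_num))
      have hall4 : ∀ g : G, g ^ 4 = 1 := by
        intro g
        obtain ⟨j, hj⟩ := hord2 g
        have hj2 : j ≤ 2 := by
          by_contra hj3; push_neg at hj3
          have h5 : (8 : ℕ) ∣ orderOf g := by
            rw [hj, show (8 : ℕ) = 2 ^ 3 by norm_num]; exact pow_dvd_pow 2 hj3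
          obtain ⟨w, hw⟩ := exists_order h5
          exact hno8 w hw
        apply orderOf_dvd_iff_pow_eq_one.1
        rw [hj, show (4 : ℕ) = 2 ^ 2 by norm_num]; exact pow_dvd_pow 2 hj2
      have hsq4 : ∀ g : G, (g * g) ^ 2 = 1 := by
        intro g
        have h5 := hall4 g
        have e : g ^ 4 = (g * g) ^ 2 := by rw [← pow_two, ← pow_mul]
        rw [← e]; exact h5
      have hxx : x * x = z := by
        rcases hsq _ (hsq4 x) with h5 | h5
        · exfalso
          have h6 : orderOf x ∣ 2 := orderOf_dvd_of_pow_eq_one (by rw [pow_two]; exact h5)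
          rw [hx] at h6
          omega
        · exact h5
      have hzmem : z ∈ Subgroup.zpowers x := by
        rw [← hxx]; exact Subgroup.mul_mem _ (Subgroup.mem_zpowers x) (Subgroup.mem_zpowers x)
      by_cases hcyc : ∀ w : G, w ∈ Subgroup.zpowers x
      · right; right; left
        have htop : Subgroup.zpowers x = ⊤ := (Subgroup.eq_top_iff' _).2 hcyc
        refine ⟨isCyclic_iff_exists_zpowers_eq_top.2 ⟨x, htop⟩, ?_⟩
        rw [← Subgroup.card_top (G := G), ← htop, Nat.card_zpowers, hx]
      · push_neg at hcyc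
        obtain ⟨y, hy⟩ := hcyc
        have hkey : ∀ w : G, w ∉ Subgroup.zpowers x → w * w = z ∧ x * w * x = w := by
          intro w hw
          have hw1 : w ≠ 1 := fun h5 => hw (h5 ▸ Subgroup.one_mem _)
          have hwz : w ≠ z := fun h5 => hw (h5 ▸ hzmem)
          have hww : w * w = z := by
            rcases hsq _ (hsq4 w) with h5 | h5
            · exfalso
              rcases hsq w (by rw [pow_two]; exact h5) with h' | h'
              · exact hw1 h'
              · exact hwz h'
            · exact h5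
          have hxw1 : x * w ≠ 1 := by
            intro h5
            apply hw
            have h6 : w = x⁻¹ := eq_inv_of_mul_eq_one_right h5
            rw [h6]; exact Subgroup.inv_mem _ (Subgroup.mem_zpowers x)
          have hxwz : x * w ≠ z := by
            intro h5
            apply hw
            have h6 : w = x := mul_left_cancel (h5.trans hxx.symm)
            rw [h6]; exact Subgroup.mem_zpowers x
          have hxwxw : x * w * (x * w) = z := by
            rcases hsq _ (hsq4 (x * w)) with h5 | h5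
            · exfalso
              rcases hsq (x * w) (by rw [pow_two]; exact h5) with h' | h'
              · exact hxw1 h'
              · exact hxwz h'
            · exact h5
          refine ⟨hww, ?_⟩
          have h4 : w * x * w = x := by
            apply mul_left_cancel (a := x)
            calc x * (w * x * w) = x * w * (x * w) := by simp only [mul_assoc]
              _ = x * x := by rw [hxwxw, hxx]
          have h5 : w * x = x * w⁻¹ := by rw [eq_mul_inv_iff_mul_eq]; exact h4
          calc x * w * x = x * (w * x) := mul_assoc _ _ _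
            _ = x * (x * w⁻¹) := by rw [h5]
            _ = (x * x) * w⁻¹ := (mul_assoc _ _ _).symm
            _ = (w * w) * w⁻¹ := by rw [hxx, hww]
            _ = w := by rw [mul_assoc, mul_inv_cancel, mul_one]
        obtain ⟨hyy, hy6⟩ := hkey y hy
        have hxy : x * y = y * x⁻¹ := by rw [eq_mul_inv_iff_mul_eq]; exact hy6
        have hx4 : x ^ 4 = 1 := hall4 x
        have hpow_conj : ∀ k : ℕ, x ^ k * y = y * (x ^ k)⁻¹ := by
          intro k
          induction k with
          | zero => simp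
          | succ k ih =>
            calc x ^ (k + 1) * y = x ^ k * (x * y) := by rw [pow_succ, mul_assoc]
              _ = (x ^ k * y) * x⁻¹ := by rw [hxy, mul_assoc]
              _ = y * ((x ^ k)⁻¹ * x⁻¹) := by rw [ih, mul_assoc]
              _ = y * (x ^ (k + 1))⁻¹ := by rw [← mul_inv_rev, ← pow_succ']
        have hyx' : y * x = x⁻¹ * y := by
          rw [eq_inv_mul_iff_mul_eq, ← mul_assoc]; exact hy6
        have e1 : x⁻¹ * y⁻¹ = y⁻¹ * x := by
          have h5 := congrArg Inv.inv hyx'
          rw [mul_inv_rev, mul_inv_rev, inv_inv] at h5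
          exact h5
        have hsurj : ∀ w : G, w ∉ Subgroup.zpowers x → ∃ k : ℕ, w = y * x ^ k := by
          intro w hw
          obtain ⟨hww, hw6⟩ := hkey w hw
          have hw2 : x * w = w * x⁻¹ := by rw [eq_mul_inv_iff_mul_eq]; exact hw6
          have hcomm : x * (w * y⁻¹) = (w * y⁻¹) * x := by
            calc x * (w * y⁻¹) = (x * w) * y⁻¹ := (mul_assoc _ _ _).symm
              _ = w * x⁻¹ * y⁻¹ := by rw [hw2]
              _ = w * (x⁻¹ * y⁻¹) := mul_assoc _ _ _
              _ = w * (y⁻¹ * x) := by rw [e1]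
              _ = w * y⁻¹ * x := (mul_assoc _ _ _).symm
          have hu : w * y⁻¹ ∈ Subgroup.zpowers x := by
            by_contra hu
            obtain ⟨-, hu6⟩ := hkey _ hu
            rw [hcomm, mul_assoc, hxx] at hu6
            apply hz1
            apply mul_left_cancel (a := w * y⁻¹)
            rw [mul_one]; exact hu6
          rw [← mem_powers_iff_mem_zpowers] at hu
          obtain ⟨k, hk⟩ := (Submonoid.mem_powers_iff _ _).1 hu
          refine ⟨3 * k, ?_⟩
          have hw' : w = x ^ k * y := by rw [hk]; group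
          have hinv : (x ^ k)⁻¹ = x ^ (3 * k) := by
            apply inv_eq_of_mul_eq_one_right
            rw [← pow_add, show k + 3 * k = 4 * k by ring, pow_mul, hx4, one_pow]
          rw [hw', hpow_conj k, hinv]
        right; left
        exact exists_q8_iso hx (hyy.trans hxx.symm) hxy hy hsurj
  · -- Case I : every nontrivial order has `n` elements
    have hall : ∀ d, 2 ≤ d → cnt G d = 0 ∨ cnt G d = n := by
      intro d hd
      rcases Nat.lt_or_ge d 3 with h3 | h3
      · have hd2 : d = 2 := by omega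
        subst hd2
        by_cases hex : ∃ g : G, orderOf g = 2
        · obtain ⟨g, hg⟩ := hex
          rcases hv g with h1 | h1
          · rw [hg] at h1; exact absurd h1 hc2
          · rw [hg] at h1; exact Or.inr h1
        · exact Or.inl (cnt_eq_zero hex)
      · exact hv3 d h3
    have hex_n : ∀ {d : ℕ} {g : G}, orderOf g = d → 2 ≤ d → cnt G d = n := by
      intro d g hg hd
      rcases hall d hd with h0 | h0
      · exact absurd h0 (cnt_ne_zero hg)
      · exact h0
    obtain ⟨p, hp, hpd⟩ := Nat.exists_prime_and_dvd hg₀1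
    have hpG : p ∣ Nat.card G := hpd.trans (orderOf_dvd_natCard g₀)
    obtain ⟨xp, hxp⟩ := exists_order hpd
    have hcp : cnt G p = n := hex_n hxp hp.two_le
    have honly : ∀ {q : ℕ}, q.Prime → q ∣ Nat.card G → q = p := by
      intro q hq hqG
      by_contra hne
      haveI : Fact q.Prime := ⟨hq⟩
      obtain ⟨xq, hxq⟩ := exists_prime_orderOf_dvd_card' q hqG
      have hcq : cnt G q = n := hex_n hxq hq.two_le
      have hpq2 : 2 ≤ p * q := by nlinarith [hp.two_le, hq.two_le]
      have hqp2 : 2 ≤ q * p := by nlinarith [hp.two_le, hq.two_le]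
      by_cases hq2 : q = 2
      · have hp2 : p ≠ 2 := fun hp2 => hne (hq2.trans hp2.symm)
        exact key1 hq hp hne hp2 hqG hpG hcq hcp (hall _ hqp2)
      · exact key1 hp hq (Ne.symm hne) hq2 hpG hqG hcp hcq (hall _ hpq2)
    have hcardpow : Nat.card G = p ^ (Nat.card G).primeFactorsList.length :=
      Nat.eq_prime_pow_of_unique_prime_dvd hcard0 (fun {d} hd hdG => honly hd hdG)
    have hPG : IsPGroup p G := IsPGroup.of_card hcardpow
    have hord : ∀ g : G, g ≠ 1 → orderOf g = p := by
      intro g hg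
      have hdvd : orderOf g ∣ p ^ (Nat.card G).primeFactorsList.length := by
        rw [← hcardpow]; exact orderOf_dvd_natCard g
      obtain ⟨k, -, hgk⟩ := (Nat.dvd_prime_pow hp).1 hdvd
      rcases Nat.lt_or_ge k 2 with hk2 | hk2
      · interval_cases k
        · rw [pow_zero, orderOf_eq_one_iff] at hgk; exact absurd hgk hg
        · rw [pow_one] at hgk; exact hgk
      · exfalso
        have hp2d : p ^ 2 ∣ orderOf g := by rw [hgk]; exact pow_dvd_pow p hk2
        obtain ⟨x, hx⟩ := exists_order hp2d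
        have h4 : 2 ≤ p ^ 2 := by nlinarith [hp.two_le]
        exact key2 hp (hp2d.trans (orderOf_dvd_natCard g)) hcp (hex_n hx h4)
    left
    refine ⟨p, hp, hPG, ?_, ?_⟩
    · have h1 : Nat.card {g : G // g ^ p = 1} ≤ Nat.card G :=
        Nat.card_le_card_of_injective Subtype.val Subtype.val_injective
      rw [card_prime hp, hcp] at h1
      omega
    · haveI : Nontrivial G :=
        ⟨⟨xp, 1, fun h5 => by rw [h5, orderOf_one] at hxp; exact hp.one_lt.ne hxp⟩⟩
      exact (Monoid.exponent_eq_prime_iff hp).2 hord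

end Cfsg.Agent.S3995
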