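import Mathlib
import Cfsg.Statements.S3997

set_option autoImplicit false
open Cfsg

namespace Cfsg.Agent.S3997

/-- Let G and H be finite groups with the same order type: for every m they have the same number of elements of order m. If G is nilpotent then so is H. -/
theorem result {G H : Type*} [Group G] [Finite G] [Group H] [Finite H] (hT : (∀ m : ℕ, Nat.card {g : G // orderOf g = m} = Nat.card {h : H // orderOf h = m})) (hG : Group.IsNilpotent G) :
    Group.IsNilpotent H := by
  -- an order-preserving bijection
  have hf : ∀ m : ℕ, Nonempty ({g : G // orderOf g = m} ≃ {h : H // orderOf h = m}) :=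
    fun m => Finite.card_eq.mp (hT m)
  choose f _ using (fun m => (hf m).elim (fun x => ⟨x, trivial⟩) : ∀ m : ℕ, ∃ _ : ({g : G // orderOf g = m} ≃ {h : H // orderOf h = m}), True)
  let e : G ≃ H := (Equiv.sigmaFiberEquiv (orderOf : G → ℕ)).symm.trans
    ((Equiv.sigmaCongrRight f).trans (Equiv.sigmaFiberEquiv (orderOf : H → ℕ)))
  have he : ∀ g : G, orderOf (e g) = orderOf g := by
    intro g
    show orderOf ((f (orderOf g) ⟨g, rfl⟩ : {h : H // orderOf h = orderOf g}) : H) = orderOf g
    exact (f (orderOf g) ⟨g, rfl⟩).2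
  have hcard : Nat.card G = Nat.card H := Nat.card_congr e
  have hsyl : ∀ (p : ℕ) (_hp : Fact p.Prime) (P : Sylow p H), (↑P : Subgroup H).Normal := by
    intro p _ P
    obtain ⟨Q⟩ := (inferInstance : Nonempty (Sylow p G))
    have h03 := (Group.isNilpotent_of_finite_tfae (G := G)).out 0 3
    have hQn : (Q : Subgroup G).Normal := h03.mp hG p inferInstance Q
    have hSG : {x : G | ∃ k : ℕ, orderOf x = p ^ k} = ((Q : Subgroup G) : Set G) := by
      ext x
      constructor
      · rintro ⟨k, hk⟩
        have hpg : IsPGroup p (Subgroup.zpowers x) := by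
          apply IsPGroup.of_card (n := k)
          rw [Nat.card_zpowers, hk]
        obtain ⟨Q', hQ'⟩ := hpg.exists_le_sylow
        have := Sylow.unique_of_normal Q hQn
        have hQQ : Q' = Q := Subsingleton.elim _ _
        rw [hQQ] at hQ'
        exact hQ' (Subgroup.mem_zpowers x)
      · intro hx
        obtain ⟨k, hk⟩ := (IsPGroup.iff_orderOf.mp Q.isPGroup') ⟨x, hx⟩
        exact ⟨k, by rw [← hk, Subgroup.orderOf_mk]⟩
    have hall : ∀ P' : Sylow p H, ((P' : Subgroup H) : Set H) = {x : H | ∃ k : ℕ, orderOf x = p ^ k} := by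
      intro P'
      apply Set.eq_of_subset_of_ncard_le _ _ (Set.toFinite _)
      · intro x hx
        obtain ⟨k, hk⟩ := (IsPGroup.iff_orderOf.mp P'.isPGroup') ⟨x, hx⟩
        exact ⟨k, by rw [← hk, Subgroup.orderOf_mk]⟩
      · have h1 : ({x : H | ∃ k : ℕ, orderOf x = p ^ k} : Set H).ncard
            = ({x : G | ∃ k : ℕ, orderOf x = p ^ k} : Set G).ncard := by
          rw [← Nat.card_coe_set_eq, ← Nat.card_coe_set_eq]
          apply Nat.card_congr
          exact (e.subtypeEquiv (fun g => by
            show (∃ k : ℕ, orderOf g = p ^ k) ↔ (∃ k : ℕ, orderOf (e g) = p ^ k)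
            rw [he])).symm
        rw [h1, hSG]
        have h2 : ((Q : Subgroup G) : Set G).ncard = Nat.card (Q : Subgroup G) := (Nat.card_coe_set_eq _).symm
        have h3 : ((P' : Subgroup H) : Set H).ncard = Nat.card (P' : Subgroup H) := (Nat.card_coe_set_eq _).symm
        rw [h2, h3, Sylow.card_eq_multiplicity, Sylow.card_eq_multiplicity, hcard]
    have hsub : Subsingleton (Sylow p H) := by
      refine ⟨fun P₁ P₂ => ?_⟩
      apply Sylow.ext
      apply SetLike.coe_injective
      rw [hall P₁, hall P₂]
    exact Sylow.normal_of_subsingleton P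
  have h03' := (Group.isNilpotent_of_finite_tfae (G := H)).out 0 3
  exact h03'.mpr hsyl

end Cfsg.Agent.S3997
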