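-- Statement S4005: groups whose element orders are exactly 1, 2, 3
import Cfsg.Statements.S4005
import Mathlib
import Cfsg.Agent.Helper20.Basic

set_option autoImplicit false
open Cfsg

namespace Cfsg.Agent.S4005

theorem eq_one_of_sq_cube {G : Type*} [Group G] (g : G) (h2 : g ^ 2 = 1) (h3 : g ^ 3 = 1) :
    g = 1 := by
  calc g = g ^ 3 * (g ^ 2)⁻¹ := by group
    _ = 1 := by rw [h3, h2]; simp

theorem eq_inv_of_sq {G : Type*} [Group G] (y : G) (h : y ^ 2 = 1) : y = y⁻¹ := by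
  have h1 : y * y = 1 := by rw [← pow_two]; exact h
  exact eq_inv_of_mul_eq_one_left h1

theorem no_six {G : Type*} [Group G] (hall : ∀ g : G, g ^ 2 = 1 ∨ g ^ 3 = 1) (a b : G)
    (ha : a ^ 2 = 1) (hb : b ^ 3 = 1) (hab : a * b = b * a) : a = 1 ∨ b = 1 := by
  have hc : Commute a b := hab
  rcases hall (a * b) with h | h
  · right
    rw [hc.mul_pow, ha, one_mul] at h
    exact eq_one_of_sq_cube b h hb
  · left
    rw [hc.mul_pow, hb, mul_one] at h
    exact eq_one_of_sq_cube a ha h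

theorem mul_cube_of_not_inverts {G : Type*} [Group G] (hall : ∀ g : G, g ^ 2 = 1 ∨ g ^ 3 = 1)
    (t x : G) (ht2 : t ^ 2 = 1) (hne : t * x * t⁻¹ ≠ x⁻¹) :
    t * x * (t * x) * (t * x) = 1 := by
  have hti : t⁻¹ = t := inv_eq_of_mul_eq_one_right (by rw [← pow_two]; exact ht2)
  rcases hall (t * x) with h | h
  · exfalso; apply hne
    rw [pow_two] at h
    calc t * x * t⁻¹ = t * x * t := by rw [hti]
      _ = (t * x * (t * x)) * x⁻¹ := by group
      _ = x⁻¹ := by rw [h, one_mul]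
  · rw [pow_succ, pow_two] at h; exact h

theorem flip_of_cube {G : Type*} [Group G] (t x : G) (ht2 : t ^ 2 = 1)
    (h3 : t * x * (t * x) * (t * x) = 1) : x * t * x = t * x⁻¹ * t := by
  have hti : t⁻¹ = t := inv_eq_of_mul_eq_one_right (by rw [← pow_two]; exact ht2)
  calc x * t * x = t⁻¹ * (t * x * (t * x) * (t * x)) * (t * x)⁻¹ := by group
    _ = t⁻¹ * x⁻¹ * t⁻¹ := by rw [h3]; group
    _ = t * x⁻¹ * t := by rw [hti]

/-- an involution `s` inverting an element of order 3 is the only involution in its centralizer -/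
theorem lemX {G : Type*} [Group G] (hall : ∀ g : G, g ^ 2 = 1 ∨ g ^ 3 = 1)
    (s t x : G) (hs2 : s ^ 2 = 1) (ht2 : t ^ 2 = 1) (hx3 : x ^ 3 = 1) (hx1 : x ≠ 1) (hs1 : s ≠ 1)
    (hinv : s * x * s⁻¹ = x⁻¹) (hst : s * t = t * s) (hts : t ≠ s) (ht1 : t ≠ 1) : False := by
  have hsi : s⁻¹ = s := inv_eq_of_mul_eq_one_right (by rw [← pow_two]; exact hs2)
  have hti : t⁻¹ = t := inv_eq_of_mul_eq_one_right (by rw [← pow_two]; exact ht2)
  have hss : s * s = 1 := by rw [← pow_two]; exact hs2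
  have htt : t * t = 1 := by rw [← pow_two]; exact ht2
  have hxxx : x * x * x = 1 := by
    have := hx3
    rw [pow_succ, pow_two] at this
    exact this
  have hxi : x⁻¹ = x * x := inv_eq_of_mul_eq_one_right (by rw [← mul_assoc]; exact hxxx)
  have hsx : s * x = x⁻¹ * s := by
    calc s * x = (s * x * s⁻¹) * s := by group
      _ = x⁻¹ * s := by rw [hinv]
  have hsx' : s * x⁻¹ = x * s := by
    calc s * x⁻¹ = (s * x * s⁻¹)⁻¹ * s := by group
      _ = x * s := by rw [hinv, inv_inv]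
  by_cases hcase : t * x * t⁻¹ = x⁻¹
  · have hcomm : (s * t) * x = x * (s * t) := by
      calc (s * t) * x = s * (t * x * t⁻¹) * t := by group
        _ = s * x⁻¹ * t := by rw [hcase]
        _ = x * s * t := by rw [hsx']
        _ = x * (s * t) := by group
    have hst2 : (s * t) ^ 2 = 1 := by
      have hc : Commute s t := hst
      rw [hc.mul_pow, hs2, ht2, one_mul]
    rcases no_six hall (s * t) x hst2 hx3 hcomm with h | h
    · apply hts
      calc t = s⁻¹ * (s * t) := by group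
        _ = s := by rw [h, mul_one, hsi]
    · exact hx1 h
  · have htx3 := mul_cube_of_not_inverts hall t x ht2 hcase
    have hF := flip_of_cube t x ht2 htx3
    have hA : s * (x⁻¹ * t * x) = x * t * x⁻¹ * s := by
      calc s * (x⁻¹ * t * x) = (s * x⁻¹) * t * x := by group
        _ = x * s * t * x := by rw [hsx']
        _ = x * (s * t) * x := by group
        _ = x * (t * s) * x := by rw [hst]
        _ = x * t * (s * x) := by group
        _ = x * t * (x⁻¹ * s) := by rw [hsx]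
        _ = x * t * x⁻¹ * s := by group
    have hxx : x⁻¹ * x⁻¹ = x := by
      calc x⁻¹ * x⁻¹ = x * (x * x * x)⁻¹ := by group
        _ = x := by rw [hxxx, inv_one, mul_one]
    have hsw2 : (s * (x⁻¹ * t * x)) ^ 2 = t := by
      calc (s * (x⁻¹ * t * x)) ^ 2 = (s * (x⁻¹ * t * x)) * (s * (x⁻¹ * t * x)) := pow_two _
        _ = (x * t * x⁻¹ * s) * (s * (x⁻¹ * t * x)) := by rw [hA]
        _ = x * t * x⁻¹ * (s * s) * (x⁻¹ * t * x) := by group
        _ = x * t * (x⁻¹ * x⁻¹) * t * x := by rw [hss]; group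
        _ = (x * t * x) * t * x := by rw [hxx]
        _ = (t * x⁻¹ * t) * t * x := by rw [hF]
        _ = t * x⁻¹ * (t * t) * x := by group
        _ = t := by rw [htt]; group
    have hsw3 : (s * (x⁻¹ * t * x)) ^ 3 = 1 := by
      rcases hall (s * (x⁻¹ * t * x)) with h | h
      · exfalso; rw [hsw2] at h; exact ht1 h
      · exact h
    have h1 : (s * (x⁻¹ * t * x)) ^ 2 * (s * (x⁻¹ * t * x)) = 1 := by
      rw [← pow_succ]; exact hsw3
    rw [hsw2] at h1
    have hw : x⁻¹ * t * x = s * t := by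
      calc x⁻¹ * t * x = s⁻¹ * t⁻¹ * (t * (s * (x⁻¹ * t * x))) := by group
        _ = s⁻¹ * t⁻¹ := by rw [h1, mul_one]
        _ = s * t := by rw [hsi, hti]
    have h2 : x * t * x⁻¹ = s * t := by
      calc x * t * x⁻¹ = (x * t * x⁻¹ * s) * s⁻¹ := by group
        _ = (s * (x⁻¹ * t * x)) * s⁻¹ := by rw [hA]
        _ = (s * (s * t)) * s⁻¹ := by rw [hw]
        _ = (s * (t * s)) * s⁻¹ := by rw [hst]
        _ = s * t := by group
    have h3 : x * t * x⁻¹ = x⁻¹ * t * x := by rw [h2, hw]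
    have h4 : x * x * t = t * (x * x) := by
      calc x * x * t = x * (x * t * x⁻¹) * x := by group
        _ = x * (x⁻¹ * t * x) * x := by rw [h3]
        _ = t * (x * x) := by group
    have h5 : x⁻¹ * t = t * x⁻¹ := by rw [hxi]; exact h4
    have h6 : x⁻¹ * t * x = t := by rw [h5]; group
    rw [h6] at hw
    apply hs1
    calc s = (s * t) * t⁻¹ := by group
      _ = t * t⁻¹ := by rw [← hw]
      _ = 1 := mul_inv_cancel t

theorem sq_eq_one_of_mem_sylow {G : Type*} [Group G] [Finite G]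
    (hall : ∀ g : G, g ^ 2 = 1 ∨ g ^ 3 = 1) (P : Sylow 2 G) (g : G)
    (hg : g ∈ (P : Subgroup G)) : g ^ 2 = 1 := by
  rcases hall g with h | h
  · exact h
  · obtain ⟨k, hk⟩ := Helper20.orderOf_eq_pow_of_mem_sylow 2 P g hg
    have hd : orderOf g ∣ 3 := orderOf_dvd_of_pow_eq_one h
    rw [hk] at hd
    have hk0 : k = 0 := by
      by_contra hk0
      have h2 : 2 ∣ 2 ^ k := dvd_pow_self 2 hk0
      have h3 := Nat.dvd_trans h2 hd
      omega
    rw [hk0, pow_zero, orderOf_eq_one_iff] at hk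
    rw [hk, one_pow]

/-- if two involutions do not commute, every involution inverts every element of order 3 -/
theorem claimY {G : Type*} [Group G] [Finite G] (hall : ∀ g : G, g ^ 2 = 1 ∨ g ^ 3 = 1)
    (s u : G) (hs2 : s ^ 2 = 1) (hu2 : u ^ 2 = 1) (hsu : s * u ≠ u * s) :
    ∀ t x : G, t ^ 2 = 1 → t ≠ 1 → x ^ 3 = 1 → t * x * t⁻¹ = x⁻¹ := by
  have hs1 : s ≠ 1 := by rintro rfl; apply hsu; simp
  have hsi : s⁻¹ = s := inv_eq_of_mul_eq_one_right (by rw [← pow_two]; exact hs2)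
  have hui : u⁻¹ = u := inv_eq_of_mul_eq_one_right (by rw [← pow_two]; exact hu2)
  have hss : s * s = 1 := by rw [← pow_two]; exact hs2
  have hy3 : (s * u) ^ 3 = 1 := by
    rcases hall (s * u) with h | h
    · exfalso; apply hsu
      calc s * u = (s * u)⁻¹ := eq_inv_of_sq _ h
        _ = u⁻¹ * s⁻¹ := mul_inv_rev s u
        _ = u * s := by rw [hui, hsi]
    · exact h
  have hy1 : s * u ≠ 1 := by
    intro h1; apply hsu
    have hus : u = s := by
      calc u = s⁻¹ * (s * u) := by group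
        _ = s := by rw [h1, mul_one, hsi]
    rw [hus]
  have hyinv : s * (s * u) * s⁻¹ = (s * u)⁻¹ := by
    calc s * (s * u) * s⁻¹ = (s * s) * u * s⁻¹ := by group
      _ = u * s := by rw [hss, one_mul, hsi]
      _ = (s * u)⁻¹ := by rw [mul_inv_rev, hui, hsi]
  obtain ⟨P, hP⟩ :=
    (Helper20.isPGroup_zpowers_of_pow_eq_one 2 s 1 (by rw [pow_one]; exact hs2)).exists_le_sylow
  have hsP : s ∈ (P : Subgroup G) := hP (Subgroup.mem_zpowers s)
  have hPel : ∀ g ∈ (P : Subgroup G), g = 1 ∨ g = s := by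
    intro g hg
    by_contra hcon
    rw [not_or] at hcon
    have hg2 : g ^ 2 = 1 := sq_eq_one_of_mem_sylow hall P g hg
    have hgs2 : (s * g) ^ 2 = 1 :=
      sq_eq_one_of_mem_sylow hall P (s * g) ((P : Subgroup G).mul_mem hsP hg)
    have hgi : g⁻¹ = g := inv_eq_of_mul_eq_one_right (by rw [← pow_two]; exact hg2)
    have hcomm : s * g = g * s := by
      calc s * g = (s * g)⁻¹ := eq_inv_of_sq _ hgs2
        _ = g⁻¹ * s⁻¹ := mul_inv_rev s g
        _ = g * s := by rw [hgi, hsi]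
    exact lemX hall s g (s * u) hs2 hg2 hy3 hy1 hs1 hyinv hcomm hcon.2 hcon.1
  intro t x ht2 ht1 hx3
  by_contra hne
  obtain ⟨a, ha⟩ := Helper20.exists_conj_mem_sylow 2 P (Subgroup.zpowers t)
    (Helper20.isPGroup_zpowers_of_pow_eq_one 2 t 1 (by rw [pow_one]; exact ht2))
  have hta := ha t (Subgroup.mem_zpowers t)
  have hts : a⁻¹ * t * a = s := by
    rcases hPel _ hta with h | h
    · exfalso; apply ht1
      calc t = a * (a⁻¹ * t * a) * a⁻¹ := by group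
        _ = 1 := by rw [h]; group
    · exact h
  have htinv : t * (a * (s * u) * a⁻¹) * t⁻¹ = (a * (s * u) * a⁻¹)⁻¹ := by
    have e : t = a * s * a⁻¹ := by rw [← hts]; group
    rw [e]
    calc a * s * a⁻¹ * (a * (s * u) * a⁻¹) * (a * s * a⁻¹)⁻¹
        = a * (s * (s * u) * s⁻¹) * a⁻¹ := by group
      _ = a * (s * u)⁻¹ * a⁻¹ := by rw [hyinv]
      _ = (a * (s * u) * a⁻¹)⁻¹ := by group
  have hy3' : (a * (s * u) * a⁻¹) ^ 3 = 1 := by rw [conj_pow, hy3]; group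
  have hy1' : a * (s * u) * a⁻¹ ≠ 1 := by
    intro h1; apply hy1
    calc s * u = a⁻¹ * (a * (s * u) * a⁻¹) * a := by group
      _ = 1 := by rw [h1]; group
  have hti : t⁻¹ = t := inv_eq_of_mul_eq_one_right (by rw [← pow_two]; exact ht2)
  have htt : t * t = 1 := by rw [← pow_two]; exact ht2
  have hxxx : x * x * x = 1 := by
    have := hx3
    rw [pow_succ, pow_two] at this
    exact this
  have hxi : x⁻¹ = x * x := inv_eq_of_mul_eq_one_right (by rw [← mul_assoc]; exact hxxx)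
  have htx3 := mul_cube_of_not_inverts hall t x ht2 hne
  have hF := flip_of_cube t x ht2 htx3
  have htw : t * (x⁻¹ * t * x) = x * t * x⁻¹ := by
    calc t * (x⁻¹ * t * x) = (t * x⁻¹ * t) * x := by group
      _ = (x * t * x) * x := by rw [hF]
      _ = x * t * (x * x) := by group
      _ = x * t * x⁻¹ := by rw [hxi]
  have hw2 : (x⁻¹ * t * x) ^ 2 = 1 := by
    rw [pow_two]
    calc x⁻¹ * t * x * (x⁻¹ * t * x) = x⁻¹ * (t * t) * x := by group
      _ = 1 := by rw [htt]; group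
  have hwi : (x⁻¹ * t * x)⁻¹ = x⁻¹ * t * x :=
    inv_eq_of_mul_eq_one_right (by rw [← pow_two]; exact hw2)
  have htw2 : (t * (x⁻¹ * t * x)) ^ 2 = 1 := by
    rw [htw, pow_two]
    calc x * t * x⁻¹ * (x * t * x⁻¹) = x * (t * t) * x⁻¹ := by group
      _ = 1 := by rw [htt]; group
  have hcomm : t * (x⁻¹ * t * x) = (x⁻¹ * t * x) * t := by
    calc t * (x⁻¹ * t * x) = (t * (x⁻¹ * t * x))⁻¹ := eq_inv_of_sq _ htw2
      _ = (x⁻¹ * t * x)⁻¹ * t⁻¹ := mul_inv_rev _ _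
      _ = (x⁻¹ * t * x) * t := by rw [hwi, hti]
  have hwt : x⁻¹ * t * x ≠ t := by
    intro h
    have hc : t * x = x * t := by
      calc t * x = x * (x⁻¹ * t * x) := by group
        _ = x * t := by rw [h]
    have hc' : Commute t x := hc
    have h3 : (t * x) ^ 3 = 1 := by rw [pow_succ, pow_two]; exact htx3
    rw [hc'.mul_pow, hx3, mul_one] at h3
    exact ht1 (eq_one_of_sq_cube t ht2 h3)
  have hw1 : x⁻¹ * t * x ≠ 1 := by
    intro h; apply ht1
    calc t = x * (x⁻¹ * t * x) * x⁻¹ := by group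
      _ = 1 := by rw [h]; group
  exact lemX hall t (x⁻¹ * t * x) (a * (s * u) * a⁻¹) ht2 hw2 hy3' hy1' ht1 htinv hcomm hwt hw1

theorem caseB {G : Type*} [Group G] [Finite G] (hall : ∀ g : G, g ^ 2 = 1 ∨ g ^ 3 = 1)
    (t₀ x₀ : G) (ht₀2 : t₀ ^ 2 = 1) (ht₀1 : t₀ ≠ 1) (hx₀3 : x₀ ^ 3 = 1) (hx₀1 : x₀ ≠ 1)
    (hB : ∀ t x : G, t ^ 2 = 1 → t ≠ 1 → x ^ 3 = 1 → t * x * t⁻¹ = x⁻¹) :
    ∃ N : Subgroup G, N.Normal ∧ Cfsg.IsElementaryAbelian 3 N ∧ N.index = 2 := by
  have hmul : ∀ x y : G, x ^ 3 = 1 → y ^ 3 = 1 → (x * y) ^ 3 = 1 := by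
    intro x y hx hy
    by_contra hne
    have h2 : (x * y) ^ 2 = 1 := (hall (x * y)).resolve_right hne
    have hxy1 : x * y ≠ 1 := by intro h1; apply hne; rw [h1, one_pow]
    have hs := hB (x * y) x h2 hxy1 hx
    have hy' : y * x * y⁻¹ = x⁻¹ := by
      calc y * x * y⁻¹ = x⁻¹ * (x * y * x * (x * y)⁻¹) * x := by group
        _ = x⁻¹ * x⁻¹ * x := by rw [hs]
        _ = x⁻¹ := by group
    have h3 := Helper20.conj_odd_pow_of_inverts y x hy' 3 ⟨1, rfl⟩
    rw [hy] at h3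
    have hx' : x = x⁻¹ := by
      calc x = 1 * x * 1⁻¹ := by group
        _ = x⁻¹ := h3
    have hx2 : x ^ 2 = 1 := by
      rw [pow_two]; nth_rewrite 2 [hx']; exact mul_inv_cancel x
    have hx1 : x = 1 := eq_one_of_sq_cube x hx2 hx
    apply hne
    rw [hx1, one_mul]; exact hy
  let M : Subgroup G :=
    { carrier := {x | x ^ 3 = 1}
      mul_mem' := fun {a b} ha hb => hmul a b ha hb
      one_mem' := one_pow 3
      inv_mem' := fun {a} ha => by
        show (a⁻¹) ^ 3 = 1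
        rw [inv_pow, show a ^ 3 = 1 from ha, inv_one] }
  have hM : ∀ x : G, x ∈ M ↔ x ^ 3 = 1 := fun x => Iff.rfl
  have hcomm : ∀ x y : G, x ^ 3 = 1 → y ^ 3 = 1 → x * y = y * x := by
    intro x y hx hy
    have e1 := hB t₀ x ht₀2 ht₀1 hx
    have e2 := hB t₀ y ht₀2 ht₀1 hy
    have e3 := hB t₀ (x * y) ht₀2 ht₀1 (hmul x y hx hy)
    have e : (x * y)⁻¹ = x⁻¹ * y⁻¹ := by
      rw [← e3, ← e1, ← e2]; group
    have e' : (x * y)⁻¹ = (y * x)⁻¹ := by rw [e, mul_inv_rev]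
    exact inv_injective e'
  refine ⟨M, ?_, ⟨⟨⟨fun a b => Subtype.ext (hcomm a b a.2 b.2)⟩⟩, fun a ha => ha⟩, ?_⟩
  · constructor
    intro n hn g
    rw [hM] at hn ⊢
    rw [conj_pow, hn]; group
  · rw [Subgroup.index_eq_two_iff]
    refine ⟨t₀, fun b => ?_⟩
    by_cases hb : b ∈ M
    · right
      refine ⟨hb, fun hbt => ?_⟩
      have ht : t₀ ∈ M := by
        have := M.mul_mem (M.inv_mem hb) hbt
        have e : b⁻¹ * (b * t₀) = t₀ := by group
        rw [e] at this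
        exact this
      exact ht₀1 (eq_one_of_sq_cube t₀ ht₀2 ((hM t₀).mp ht))
    · left
      refine ⟨?_, hb⟩
      rw [hM] at hb ⊢
      by_contra hne
      have hb2 : b ^ 2 = 1 := (hall b).resolve_right hb
      have hb1 : b ≠ 1 := by intro h1; apply hb; rw [h1, one_pow]
      have hbt2 : (b * t₀) ^ 2 = 1 := (hall (b * t₀)).resolve_right hne
      have hbi : b⁻¹ = b := inv_eq_of_mul_eq_one_right (by rw [← pow_two]; exact hb2)
      have hti : t₀⁻¹ = t₀ := inv_eq_of_mul_eq_one_right (by rw [← pow_two]; exact ht₀2)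
      have hc : t₀ * b = b * t₀ := by
        calc t₀ * b = (b * t₀)⁻¹ := by rw [mul_inv_rev, hbi, hti]
          _ = b * t₀ := (eq_inv_of_sq _ hbt2).symm
      have hbt : b ≠ t₀ := by
        intro h; apply hne
        rw [h, ← pow_two, ht₀2, one_pow]
      exact lemX hall t₀ b x₀ ht₀2 hb2 hx₀3 hx₀1 ht₀1 (hB t₀ x₀ ht₀2 ht₀1 hx₀3) hc hbt hb1

theorem caseI {G : Type*} [Group G] [Finite G] (hall : ∀ g : G, g ^ 2 = 1 ∨ g ^ 3 = 1)
    (t₀ x₀ : G) (ht₀2 : t₀ ^ 2 = 1) (ht₀1 : t₀ ≠ 1) (hx₀3 : x₀ ^ 3 = 1) (hx₀1 : x₀ ≠ 1)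
    (hcomm : ∀ s u : G, s ^ 2 = 1 → u ^ 2 = 1 → s * u = u * s) :
    ∃ N : Subgroup G, N.Normal ∧ Cfsg.IsElementaryAbelian 2 N ∧ N.index = 3 := by
  let V : Subgroup G :=
    { carrier := {x | x ^ 2 = 1}
      mul_mem' := fun {a b} ha hb => by
        show (a * b) ^ 2 = 1
        have hc : Commute a b := hcomm a b ha hb
        rw [hc.mul_pow, show a ^ 2 = 1 from ha, show b ^ 2 = 1 from hb, one_mul]
      one_mem' := one_pow 2
      inv_mem' := fun {a} ha => by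
        show (a⁻¹) ^ 2 = 1
        rw [inv_pow, show a ^ 2 = 1 from ha, inv_one] }
  have hV : ∀ x : G, x ∈ V ↔ x ^ 2 = 1 := fun x => Iff.rfl
  haveI hVn : V.Normal := by
    constructor
    intro n hn g
    rw [hV] at hn ⊢
    rw [conj_pow, hn]; group
  refine ⟨V, hVn, ⟨⟨⟨fun a b => Subtype.ext (hcomm a b a.2 b.2)⟩⟩, fun a ha => ha⟩, ?_⟩
  have hnorm : ∀ c : G, c ^ 3 = 1 → c ≠ 1 → ∀ w : G, w ^ 2 = 1 →
      c ^ 2 * w * (c ^ 2)⁻¹ = w * (c * w * c⁻¹) := by
    intro c hc3 hc1 w hw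
    have hcw : (c * w * c⁻¹) ^ 2 = 1 := by rw [conj_pow, hw]; group
    have hccw : (c ^ 2 * w * (c ^ 2)⁻¹) ^ 2 = 1 := by rw [conj_pow, hw]; group
    have hyz : ((c * w * c⁻¹) * (c ^ 2 * w * (c ^ 2)⁻¹)) ^ 2 = 1 :=
      (hV _).mp (V.mul_mem ((hV _).mpr hcw) ((hV _).mpr hccw))
    have hz2 : (w * (c * w * c⁻¹) * (c ^ 2 * w * (c ^ 2)⁻¹)) ^ 2 = 1 :=
      (hV _).mp (V.mul_mem (V.mul_mem ((hV _).mpr hw) ((hV _).mpr hcw)) ((hV _).mpr hccw))
    have hzc : (w * (c * w * c⁻¹) * (c ^ 2 * w * (c ^ 2)⁻¹)) * c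
        = c * (w * (c * w * c⁻¹) * (c ^ 2 * w * (c ^ 2)⁻¹)) := by
      have h1 : c * (w * (c * w * c⁻¹) * (c ^ 2 * w * (c ^ 2)⁻¹))
          = (c * w * c⁻¹) * (c ^ 2 * w * (c ^ 2)⁻¹) * (c ^ 3 * w * (c ^ 3)⁻¹) * c := by group
      rw [h1, hc3]
      have h2 : (c * w * c⁻¹) * (c ^ 2 * w * (c ^ 2)⁻¹) * (1 * w * 1⁻¹)
          = w * ((c * w * c⁻¹) * (c ^ 2 * w * (c ^ 2)⁻¹)) := by
        rw [one_mul, inv_one, mul_one]
        exact hcomm _ _ hyz hw
      rw [h2]; group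
    rcases no_six hall _ c hz2 hc3 hzc with h | h
    · have hwc2 : (w * (c * w * c⁻¹)) ^ 2 = 1 :=
        (hV _).mp (V.mul_mem ((hV _).mpr hw) ((hV _).mpr hcw))
      have hinv : (w * (c * w * c⁻¹))⁻¹ = w * (c * w * c⁻¹) :=
        inv_eq_of_mul_eq_one_right (by rw [← pow_two]; exact hwc2)
      calc c ^ 2 * w * (c ^ 2)⁻¹
          = (w * (c * w * c⁻¹))⁻¹ * (w * (c * w * c⁻¹) * (c ^ 2 * w * (c ^ 2)⁻¹)) := by group
        _ = w * (c * w * c⁻¹) := by rw [h, mul_one, hinv]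
    · exact absurd h hc1
  have hkey : ∀ a b : G, a ^ 3 = 1 → b ^ 3 = 1 → a * b = b * a → a ≠ 1 → b ≠ 1 → a * b ≠ 1 →
      a ≠ b → False := by
    intro a b ha3 hb3 hab ha1 hb1 hab1 hne
    have hc : Commute a b := hab
    have hab3 : (a * b) ^ 3 = 1 := by rw [hc.mul_pow, ha3, hb3, one_mul]
    have e1 := hnorm a ha3 ha1
    have e2 := hnorm b hb3 hb1
    have e3 := hnorm (a * b) hab3 hab1
    have hbw : (b * t₀ * b⁻¹) ^ 2 = 1 := by rw [conj_pow, ht₀2]; group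
    have hL : (a * b) ^ 2 * t₀ * ((a * b) ^ 2)⁻¹
        = t₀ * (a * t₀ * a⁻¹) * ((b * t₀ * b⁻¹) * (a * b * t₀ * (a * b)⁻¹)) := by
      calc (a * b) ^ 2 * t₀ * ((a * b) ^ 2)⁻¹
          = a ^ 2 * (b ^ 2 * t₀ * (b ^ 2)⁻¹) * (a ^ 2)⁻¹ := by rw [hc.mul_pow]; group
        _ = a ^ 2 * (t₀ * (b * t₀ * b⁻¹)) * (a ^ 2)⁻¹ := by rw [e2 t₀ ht₀2]
        _ = (a ^ 2 * t₀ * (a ^ 2)⁻¹) * (a ^ 2 * (b * t₀ * b⁻¹) * (a ^ 2)⁻¹) := by group
        _ = (t₀ * (a * t₀ * a⁻¹)) * ((b * t₀ * b⁻¹) * (a * (b * t₀ * b⁻¹) * a⁻¹)) := by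
            rw [e1 t₀ ht₀2, e1 _ hbw]
        _ = t₀ * (a * t₀ * a⁻¹) * ((b * t₀ * b⁻¹) * (a * b * t₀ * (a * b)⁻¹)) := by group
    have hR := e3 t₀ ht₀2
    rw [hL] at hR
    have h4 : (a * t₀ * a⁻¹) * (b * t₀ * b⁻¹) = 1 := by
      have h5 : t₀ * ((a * t₀ * a⁻¹) * (b * t₀ * b⁻¹)) * (a * b * t₀ * (a * b)⁻¹)
          = t₀ * 1 * (a * b * t₀ * (a * b)⁻¹) := by
        rw [mul_one, ← hR]; group
      exact mul_left_cancel (mul_right_cancel h5)
    have hbinv : (b * t₀ * b⁻¹)⁻¹ = b * t₀ * b⁻¹ :=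
      inv_eq_of_mul_eq_one_right (by rw [← pow_two]; exact hbw)
    have h6 : a * t₀ * a⁻¹ = b * t₀ * b⁻¹ := by
      rw [← hbinv]; exact eq_inv_of_mul_eq_one_left h4
    have h7 : t₀ * (b⁻¹ * a) = (b⁻¹ * a) * t₀ := by
      calc t₀ * (b⁻¹ * a) = b⁻¹ * (b * t₀ * b⁻¹) * a := by group
        _ = b⁻¹ * (a * t₀ * a⁻¹) * a := by rw [h6]
        _ = (b⁻¹ * a) * t₀ := by group
    have h8 : (b⁻¹ * a) ^ 3 = 1 := by
      have hc' : Commute b⁻¹ a := hc.symm.inv_left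
      rw [hc'.mul_pow, inv_pow, hb3, ha3, inv_one, one_mul]
    rcases no_six hall t₀ (b⁻¹ * a) ht₀2 h8 h7 with h | h
    · exact ht₀1 h
    · apply hne
      calc a = b * (b⁻¹ * a) := by group
        _ = b := by rw [h, mul_one]
  have hq3 : ∀ q : G ⧸ V, q ^ 3 = 1 := by
    intro q
    obtain ⟨g, rfl⟩ := QuotientGroup.mk_surjective q
    rcases hall g with h | h
    · have h1 : (g : G ⧸ V) = 1 := (QuotientGroup.eq_one_iff g).mpr ((hV g).mpr h)
      rw [h1, one_pow]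
    · rw [← QuotientGroup.mk_pow, h, QuotientGroup.mk_one]
  haveI : Fact (Nat.Prime 3) := ⟨Nat.prime_three⟩
  have hpg : IsPGroup 3 (G ⧸ V) := fun q => ⟨1, by rw [pow_one]; exact hq3 q⟩
  obtain ⟨n, hn⟩ := IsPGroup.iff_card.mp hpg
  have hidx : V.index = 3 ^ n := by rw [Subgroup.index_eq_card]; exact hn
  have hn0 : n ≠ 0 := by
    rintro rfl
    rw [pow_zero] at hidx
    have hVtop : V = ⊤ := Subgroup.index_eq_one.mp hidx
    have hx : x₀ ∈ V := by rw [hVtop]; trivial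
    exact hx₀1 (eq_one_of_sq_cube x₀ ((hV x₀).mp hx) hx₀3)
  have hn2 : n < 2 := by
    by_contra hge
    rw [not_lt] at hge
    have h9 : 3 ^ 2 ∣ Nat.card G := by
      have h10 : 3 ^ 2 ∣ 3 ^ n := pow_dvd_pow 3 hge
      rw [← hidx] at h10
      exact h10.trans V.index_dvd_card
    obtain ⟨E, hE⟩ := Sylow.exists_subgroup_card_pow_prime 3 h9
    have hEcomm := (IsPGroup.isMulCommutative_of_card_eq_prime_sq hE).is_comm.comm
    have hE3 : ∀ e ∈ E, e ^ 3 = 1 := by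
      intro e he
      rcases hall e with h | h
      · have h1 : orderOf e ∣ 2 := orderOf_dvd_of_pow_eq_one h
        have h2 : orderOf e ∣ 3 ^ 2 := by
          rw [← hE]; exact Subgroup.orderOf_dvd_natCard E he
        have h3 : orderOf e ∣ Nat.gcd 2 (3 ^ 2) := Nat.dvd_gcd h1 h2
        have h4 : Nat.gcd 2 (3 ^ 2) = 1 := by norm_num
        rw [h4, Nat.dvd_one, orderOf_eq_one_iff] at h3
        rw [h3, one_pow]
      · exact h
    rcases E.bot_or_exists_ne_one with hbot | ⟨a, haE, ha1⟩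
    · rw [hbot, Subgroup.card_bot] at hE
      norm_num at hE
    · have hexb : ∃ b ∈ E, b ∉ Subgroup.zpowers a := by
        by_contra hcon
        have hle : E ≤ Subgroup.zpowers a := by
          intro b hb
          by_contra hb'
          exact hcon ⟨b, hb, hb'⟩
        have hcard := Subgroup.card_le_of_le hle
        rw [hE, Nat.card_zpowers] at hcard
        have h3 : orderOf a ≤ 3 := orderOf_le_of_pow_eq_one (by norm_num) (hE3 a haE)
        norm_num at hcard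
        omega
      obtain ⟨b, hbE, hbz⟩ := hexb
      have hab : a * b = b * a := congrArg Subtype.val (hEcomm ⟨a, haE⟩ ⟨b, hbE⟩)
      refine hkey a b (hE3 a haE) (hE3 b hbE) hab ha1 ?_ ?_ ?_
      · rintro rfl; exact hbz (Subgroup.one_mem _)
      · intro h1; apply hbz
        have hb : b = a⁻¹ := by
          calc b = a⁻¹ * (a * b) := by group
            _ = a⁻¹ := by rw [h1, mul_one]
        rw [hb]; exact Subgroup.inv_mem _ (Subgroup.mem_zpowers a)
      · rintro rfl; exact hbz (Subgroup.mem_zpowers a)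
  have hn1 : n = 1 := by omega
  rw [hidx, hn1, pow_one]

/-- A finite group whose set of element orders is exactly {1, 2, 3} has either a normal elementary abelian 3-subgroup of index 2 or a normal elementary abelian 2-subgroup of index 3. -/
theorem result {G : Type*} [Group G] [Finite G] (h : Set.range (orderOf : G → ℕ) = {k : ℕ | 1 ≤ k ∧ k ≤ 3}) :
    (∃ N : Subgroup G, N.Normal ∧ Cfsg.IsElementaryAbelian 3 N ∧ N.index = 2) ∨
      (∃ N : Subgroup G, N.Normal ∧ Cfsg.IsElementaryAbelian 2 N ∧ N.index = 3) := by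
  have hord : ∀ g : G, orderOf g = 1 ∨ orderOf g = 2 ∨ orderOf g = 3 := by
    intro g
    have hg : orderOf g ∈ Set.range (orderOf : G → ℕ) := ⟨g, rfl⟩
    rw [h] at hg
    obtain ⟨h1, h3⟩ := hg
    omega
  have hall : ∀ g : G, g ^ 2 = 1 ∨ g ^ 3 = 1 := by
    intro g
    rcases hord g with h1 | h2 | h3
    · left; rw [orderOf_eq_one_iff] at h1; rw [h1, one_pow]
    · left; rw [← h2]; exact pow_orderOf_eq_one g
    · right; rw [← h3]; exact pow_orderOf_eq_one g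
  obtain ⟨t₀, ht₀⟩ : ∃ t : G, orderOf t = 2 := by
    have h2 : (2 : ℕ) ∈ Set.range (orderOf : G → ℕ) := by
      rw [h]; exact ⟨by norm_num, by norm_num⟩
    exact h2
  obtain ⟨x₀, hx₀⟩ : ∃ x : G, orderOf x = 3 := by
    have h3 : (3 : ℕ) ∈ Set.range (orderOf : G → ℕ) := by
      rw [h]; exact ⟨by norm_num, by norm_num⟩
    exact h3
  have ht₀2 : t₀ ^ 2 = 1 := by rw [← ht₀]; exact pow_orderOf_eq_one t₀
  have ht₀1 : t₀ ≠ 1 := by
    intro h1; rw [h1, orderOf_one] at ht₀; norm_num at ht₀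
  have hx₀3 : x₀ ^ 3 = 1 := by rw [← hx₀]; exact pow_orderOf_eq_one x₀
  have hx₀1 : x₀ ≠ 1 := by
    intro h1; rw [h1, orderOf_one] at hx₀; norm_num at hx₀
  by_cases hB : ∀ t x : G, t ^ 2 = 1 → t ≠ 1 → x ^ 3 = 1 → t * x * t⁻¹ = x⁻¹
  · left
    exact caseB hall t₀ x₀ ht₀2 ht₀1 hx₀3 hx₀1 hB
  · by_cases hcomm : ∀ s u : G, s ^ 2 = 1 → u ^ 2 = 1 → s * u = u * s
    · right
      exact caseI hall t₀ x₀ ht₀2 ht₀1 hx₀3 hx₀1 hcomm
    · exfalso
      apply hB
      by_contra hcon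
      apply hcomm
      intro s u hs2 hu2
      by_contra hsu
      exact hcon (claimY hall s u hs2 hu2 hsu)

end Cfsg.Agent.S4005
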