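import Cfsg.Statements.S4198
import Mathlib

set_option autoImplicit false
open Cfsg

namespace Cfsg.Agent.S4198

open Equiv

/-! ### partitions: `p(n+2) ≤ p(n+1) + p(n)` -/

theorem exists_mem_parts (n : ℕ) (l : Nat.Partition (n + 2)) : ∃ m, m ∈ l.parts := by
  by_contra h
  have h0 : l.parts = 0 := Multiset.eq_zero_of_forall_notMem (fun x hx => h ⟨x, hx⟩)
  have hs := l.parts_sum
  rw [h0, Multiset.sum_zero] at hs
  omega

noncomputable def pk (n : ℕ) (l : Nat.Partition (n + 2)) : ℕ := (exists_mem_parts n l).choose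

theorem pk_mem (n : ℕ) (l : Nat.Partition (n + 2)) : pk n l ∈ l.parts :=
  (exists_mem_parts n l).choose_spec

theorem two_le_pk (n : ℕ) (l : Nat.Partition (n + 2)) (h1 : 1 ∉ l.parts) : 2 ≤ pk n l := by
  have hp := l.parts_pos (pk_mem n l)
  have hne : pk n l ≠ 1 := fun h => h1 (by rw [← h]; exact pk_mem n l)
  omega

noncomputable def f (n : ℕ) (l : Nat.Partition (n + 2)) :
    Nat.Partition (n + 1) ⊕ Nat.Partition n :=
  if h1 : 1 ∈ l.parts then
    Sum.inl
      { parts := l.parts.erase 1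
        parts_pos := fun {i} hi => l.parts_pos (Multiset.mem_of_mem_erase hi)
        parts_sum := by
          have h := Multiset.sum_erase h1
          have hs := l.parts_sum
          omega }
  else
    Sum.inr
      { parts := l.parts.erase (pk n l) + Multiset.replicate (pk n l - 2) 1
        parts_pos := fun {i} hi => by
          rcases Multiset.mem_add.mp hi with hi | hi
          · exact l.parts_pos (Multiset.mem_of_mem_erase hi)
          · rw [Multiset.eq_of_mem_replicate hi]; exact Nat.one_pos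
        parts_sum := by
          have h2 := two_le_pk n l h1
          have h := Multiset.sum_erase (pk_mem n l)
          have hs := l.parts_sum
          rw [Multiset.sum_add, Multiset.sum_replicate, smul_eq_mul, mul_one]
          omega }

theorem f_inj (n : ℕ) : Function.Injective (f n) := by
  intro l l' h
  unfold f at h
  by_cases h1 : 1 ∈ l.parts
  · by_cases h1' : 1 ∈ l'.parts
    · rw [dif_pos h1, dif_pos h1'] at h
      have e : l.parts.erase 1 = l'.parts.erase 1 :=
        congrArg Nat.Partition.parts (Sum.inl.inj h)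
      apply Nat.Partition.ext
      calc l.parts = 1 ::ₘ l.parts.erase 1 := (Multiset.cons_erase h1).symm
        _ = 1 ::ₘ l'.parts.erase 1 := by rw [e]
        _ = l'.parts := Multiset.cons_erase h1'
    · rw [dif_pos h1, dif_neg h1'] at h
      exact absurd h Sum.inl_ne_inr
  · by_cases h1' : 1 ∈ l'.parts
    · rw [dif_neg h1, dif_pos h1'] at h
      exact absurd h Sum.inr_ne_inl
    · rw [dif_neg h1, dif_neg h1'] at h
      have e : l.parts.erase (pk n l) + Multiset.replicate (pk n l - 2) 1 =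
          l'.parts.erase (pk n l') + Multiset.replicate (pk n l' - 2) 1 :=
        congrArg Nat.Partition.parts (Sum.inr.inj h)
      have hc : ∀ l : Nat.Partition (n + 2), 1 ∉ l.parts →
          Multiset.count 1 (l.parts.erase (pk n l) + Multiset.replicate (pk n l - 2) 1) =
            pk n l - 2 := by
        intro l hl
        rw [Multiset.count_add, Multiset.count_replicate_self,
          Multiset.count_eq_zero_of_notMem (s := l.parts.erase (pk n l))
            (fun hh => hl (Multiset.mem_of_mem_erase hh)), zero_add]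
      have ek : pk n l = pk n l' := by
        have c1 := hc l h1
        have c2 := hc l' h1'
        rw [e] at c1
        have t1 := two_le_pk n l h1
        have t2 := two_le_pk n l' h1'
        omega
      have ee : l.parts.erase (pk n l') = l'.parts.erase (pk n l') := by
        rw [ek] at e
        exact add_right_cancel e
      apply Nat.Partition.ext
      calc l.parts = pk n l ::ₘ l.parts.erase (pk n l) :=
            (Multiset.cons_erase (pk_mem n l)).symm
        _ = pk n l' ::ₘ l'.parts.erase (pk n l') := by rw [ek, ee]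
        _ = l'.parts := Multiset.cons_erase (pk_mem n l')

theorem card_le_fib : ∀ n : ℕ, Fintype.card (Nat.Partition n) ≤ Nat.fib (n + 1)
  | 0 => by rw [Fintype.card_unique]; simp
  | 1 => by rw [Fintype.card_unique]; simp
  | (n + 2) => by
      have h := Fintype.card_le_of_injective (f n) (f_inj n)
      rw [Fintype.card_sum] at h
      have h1 := card_le_fib (n + 1)
      have h0 := card_le_fib n
      have hf : Nat.fib (n + 2 + 1) = Nat.fib (n + 1) + Nat.fib (n + 1 + 1) :=
        Nat.fib_add_two (n := n + 1)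
      omega

theorem fib_le_pow : ∀ k : ℕ, Nat.fib (k + 6) ≤ 2 ^ (k + 3)
  | 0 => by first | decide | norm_num
  | 1 => by first | decide | norm_num
  | (k + 2) => by
      have h0 := fib_le_pow k
      have h1 := fib_le_pow (k + 1)
      have hf : Nat.fib (k + 2 + 6) = Nat.fib (k + 6) + Nat.fib (k + 1 + 6) :=
        Nat.fib_add_two (n := k + 6)
      have e1 : 2 ^ (k + 1 + 3) = 2 * 2 ^ (k + 3) := by ring
      have e2 : 2 ^ (k + 2 + 3) = 4 * 2 ^ (k + 3) := by ring
      omega

theorem classes_le (n : ℕ) :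
    Nat.card (ConjClasses (Perm (Fin n))) ≤ Fintype.card (Nat.Partition n) := by
  classical
  have h : Nat.card (ConjClasses (Perm (Fin n))) ≤
      Nat.card (Nat.Partition (Fintype.card (Fin n))) := by
    refine Nat.card_le_card_of_injective
      (fun x : ConjClasses (Perm (Fin n)) => (ConjClasses.exists_rep x).choose.partition) ?_
    intro x y hxy
    have hc : IsConj (ConjClasses.exists_rep x).choose (ConjClasses.exists_rep y).choose :=
      Equiv.Perm.partition_eq_of_isConj.mpr hxy
    calc x = ConjClasses.mk (ConjClasses.exists_rep x).choose :=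
          (ConjClasses.exists_rep x).choose_spec.symm
      _ = ConjClasses.mk (ConjClasses.exists_rep y).choose :=
          ConjClasses.mk_eq_mk_iff_isConj.mpr hc
      _ = y := (ConjClasses.exists_rep y).choose_spec
  rw [Nat.card_eq_fintype_card (α := Nat.Partition (Fintype.card (Fin n))), Fintype.card_fin] at h
  exact h

/-! ### Part (a) -/

abbrev Φ (n : ℕ) : ConjClasses (alternatingGroup (Fin n)) → ConjClasses (Perm (Fin n)) :=
  ConjClasses.map (alternatingGroup (Fin n)).subtype

theorem Φ_mk (n : ℕ) (a : alternatingGroup (Fin n)) :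
    Φ n (ConjClasses.mk a) = ConjClasses.mk (a : Perm (Fin n)) := rfl

theorem sign_of_not_mem {n : ℕ} {u : Perm (Fin n)} (hu : u ∉ alternatingGroup (Fin n)) :
    Equiv.Perm.sign u = -1 := by
  rcases Int.units_eq_one_or (Equiv.Perm.sign u) with h | h
  · exact absurd (Equiv.Perm.mem_alternatingGroup.mpr h) hu
  · exact h

theorem alt_mul_inv {n : ℕ} {u v : Perm (Fin n)} (hv : v ∉ alternatingGroup (Fin n))
    (hu : u ∉ alternatingGroup (Fin n)) : v * u⁻¹ ∈ alternatingGroup (Fin n) := by
  rw [Equiv.Perm.mem_alternatingGroup, map_mul, map_inv, sign_of_not_mem hv, sign_of_not_mem hu]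
  decide

theorem alt_mul {n : ℕ} {u v : Perm (Fin n)} (hv : v ∉ alternatingGroup (Fin n))
    (hu : u ∉ alternatingGroup (Fin n)) : v * u ∈ alternatingGroup (Fin n) := by
  rw [Equiv.Perm.mem_alternatingGroup, map_mul, sign_of_not_mem hv, sign_of_not_mem hu]
  decide

theorem three (n : ℕ) (x y w : ConjClasses (alternatingGroup (Fin n)))
    (hxy : Φ n x = Φ n y) (hxw : Φ n x = Φ n w) : x = y ∨ x = w ∨ y = w := by
  obtain ⟨a, rfl⟩ := ConjClasses.exists_rep x
  obtain ⟨b, rfl⟩ := ConjClasses.exists_rep y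
  obtain ⟨c, rfl⟩ := ConjClasses.exists_rep w
  rw [Φ_mk, Φ_mk] at hxy hxw
  have h1 : IsConj (a : Perm (Fin n)) (b : Perm (Fin n)) :=
    ConjClasses.mk_eq_mk_iff_isConj.mp hxy
  have h2 : IsConj (a : Perm (Fin n)) (c : Perm (Fin n)) :=
    ConjClasses.mk_eq_mk_iff_isConj.mp hxw
  obtain ⟨u, hu⟩ := isConj_iff.mp h1
  obtain ⟨v, hv⟩ := isConj_iff.mp h2
  by_cases hua : u ∈ alternatingGroup (Fin n)
  · left
    exact ConjClasses.mk_eq_mk_iff_isConj.mpr (isConj_iff.mpr ⟨⟨u, hua⟩, Subtype.ext hu⟩)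
  by_cases hva : v ∈ alternatingGroup (Fin n)
  · right; left
    exact ConjClasses.mk_eq_mk_iff_isConj.mpr (isConj_iff.mpr ⟨⟨v, hva⟩, Subtype.ext hv⟩)
  right; right
  have hm : v * u⁻¹ ∈ alternatingGroup (Fin n) := alt_mul_inv hva hua
  refine ConjClasses.mk_eq_mk_iff_isConj.mpr (isConj_iff.mpr ⟨⟨v * u⁻¹, hm⟩, Subtype.ext ?_⟩)
  show v * u⁻¹ * (b : Perm (Fin n)) * (v * u⁻¹)⁻¹ = c
  rw [← hu, ← hv]
  group

theorem fiber_single (n : ℕ) (a : alternatingGroup (Fin n))
    (y : ConjClasses (alternatingGroup (Fin n))) (h : Φ n (ConjClasses.mk a) = Φ n y)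
    (z : Perm (Fin n)) (hz : z * (a : Perm (Fin n)) = (a : Perm (Fin n)) * z)
    (hza : z ∉ alternatingGroup (Fin n)) : ConjClasses.mk a = y := by
  obtain ⟨b, rfl⟩ := ConjClasses.exists_rep y
  rw [Φ_mk, Φ_mk] at h
  have h1 : IsConj (a : Perm (Fin n)) (b : Perm (Fin n)) :=
    ConjClasses.mk_eq_mk_iff_isConj.mp h
  obtain ⟨u, hu⟩ := isConj_iff.mp h1
  by_cases hua : u ∈ alternatingGroup (Fin n)
  · exact ConjClasses.mk_eq_mk_iff_isConj.mpr (isConj_iff.mpr ⟨⟨u, hua⟩, Subtype.ext hu⟩)
  · have hm : u * z ∈ alternatingGroup (Fin n) := alt_mul hua hza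
    refine ConjClasses.mk_eq_mk_iff_isConj.mpr (isConj_iff.mpr ⟨⟨u * z, hm⟩, Subtype.ext ?_⟩)
    show u * z * (a : Perm (Fin n)) * (u * z)⁻¹ = b
    rw [← hu, mul_assoc u z, hz]
    group

open Classical in
noncomputable def sec (n : ℕ) (D : ConjClasses (Perm (Fin n))) :
    ConjClasses (alternatingGroup (Fin n)) :=
  if h : ∃ x, Φ n x = D then h.choose else ConjClasses.mk 1

theorem sec_spec (n : ℕ) (x : ConjClasses (alternatingGroup (Fin n))) :
    Φ n (sec n (Φ n x)) = Φ n x := by
  have h : ∃ y, Φ n y = Φ n x := ⟨x, rfl⟩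
  unfold sec
  rw [dif_pos h]
  exact h.choose_spec

abbrev EE (n : ℕ) : Type := {D : ConjClasses (Perm (Fin n)) // D ∈ Set.range (Φ n)}

abbrev OO (n : ℕ) : Type := {D : ConjClasses (Perm (Fin n)) // D ∉ Set.range (Φ n)}

abbrev S2 (n : ℕ) : Type := {D : ConjClasses (Perm (Fin n)) //
  ∃ x y : ConjClasses (alternatingGroup (Fin n)), x ≠ y ∧ Φ n x = D ∧ Φ n y = D}

open Classical in
noncomputable def ι (n : ℕ) (x : ConjClasses (alternatingGroup (Fin n))) : EE n ⊕ S2 n :=
  if h : x = sec n (Φ n x) then Sum.inl ⟨Φ n x, x, rfl⟩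
  else Sum.inr ⟨Φ n x, x, sec n (Φ n x), h, rfl, sec_spec n x⟩

theorem ι_inj (n : ℕ) : Function.Injective (ι n) := by
  intro x y h
  unfold ι at h
  by_cases hx : x = sec n (Φ n x)
  · by_cases hy : y = sec n (Φ n y)
    · rw [dif_pos hx, dif_pos hy] at h
      have e : Φ n x = Φ n y := congrArg Subtype.val (Sum.inl.inj h)
      calc x = sec n (Φ n x) := hx
        _ = sec n (Φ n y) := by rw [e]
        _ = y := hy.symm
    · rw [dif_pos hx, dif_neg hy] at h
      exact absurd h Sum.inl_ne_inr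
  · by_cases hy : y = sec n (Φ n y)
    · rw [dif_neg hx, dif_pos hy] at h
      exact absurd h Sum.inr_ne_inl
    · rw [dif_neg hx, dif_neg hy] at h
      have e : Φ n x = Φ n y := congrArg Subtype.val (Sum.inr.inj h)
      rcases three n x y (sec n (Φ n x)) e (sec_spec n x).symm with h1 | h1 | h1
      · exact h1
      · exact absurd h1 hx
      · exact absurd (h1.trans (by rw [e])) hy

/-! ### multisets -/

theorem even_sum_add_card (m : Multiset ℕ) (h : ∀ c ∈ m, Odd c) :
    Even (m.sum + Multiset.card m) := by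
  induction m using Multiset.induction_on with
  | empty => simp
  | cons a s ih =>
    have ha : Odd a := h a (Multiset.mem_cons_self a s)
    have hs := ih (fun c hc => h c (Multiset.mem_cons_of_mem hc))
    rw [Multiset.sum_cons, Multiset.card_cons]
    obtain ⟨k, hk⟩ := ha
    obtain ⟨t, ht⟩ := hs
    exact ⟨k + t + 1, by omega⟩

noncomputable def θ (m : Multiset ℕ) : Multiset ℕ :=
  if h : m = 0 then 0 else
    m.erase (Multiset.exists_mem_of_ne_zero h).choose +
      {(Multiset.exists_mem_of_ne_zero h).choose - 1}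

theorem θ_spec (m : Multiset ℕ) (h : m ≠ 0) : ∃ a ∈ m, θ m = m.erase a + {a - 1} := by
  refine ⟨(Multiset.exists_mem_of_ne_zero h).choose,
    (Multiset.exists_mem_of_ne_zero h).choose_spec, ?_⟩
  unfold θ
  rw [dif_neg h]

def SD (n : ℕ) (m : Multiset ℕ) : Prop :=
  (∀ c ∈ m, Odd c) ∧ n ≤ m.sum + 1 ∧ (∀ c ∈ m, 2 ≤ c) ∧ m.sum ≤ n

theorem SD_ne_zero {n : ℕ} (hn : 5 ≤ n) {m : Multiset ℕ} (h : SD n m) : m ≠ 0 := by
  rintro rfl
  have h1 := h.2.1
  rw [Multiset.sum_zero] at h1
  omega

theorem θ_facts {n : ℕ} (hn : 5 ≤ n) {m : Multiset ℕ} (h : SD n m) :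
    ∃ a ∈ m, 3 ≤ a ∧ Odd a ∧ θ m = m.erase a + {a - 1} := by
  obtain ⟨a, ha, e⟩ := θ_spec m (SD_ne_zero hn h)
  have ho := h.1 a ha
  have h2 := h.2.2.1 a ha
  refine ⟨a, ha, ?_, ho, e⟩
  obtain ⟨k, hk⟩ := ho
  omega

theorem θ_props {n : ℕ} (hn : 5 ≤ n) {m : Multiset ℕ} (h : SD n m) :
    (θ m).sum ≤ n ∧ (∀ c ∈ θ m, 2 ≤ c) ∧ Odd ((θ m).sum + Multiset.card (θ m)) := by
  obtain ⟨a, ha, h3, ho, e⟩ := θ_facts hn h
  have hs := Multiset.sum_erase ha
  have hc : Multiset.card (m.erase a) + 1 = Multiset.card m := by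
    have h1 := Multiset.card_erase_of_mem ha
    try rw [Nat.pred_eq_sub_one] at h1
    have hp : 0 < Multiset.card m := Multiset.card_pos_iff_exists_mem.mpr ⟨a, ha⟩
    omega
  have hev := even_sum_add_card m h.1
  have hle := h.2.2.2
  rw [e]
  refine ⟨?_, ?_, ?_⟩
  · rw [Multiset.sum_add, Multiset.sum_singleton]
    omega
  · intro c hc'
    rcases Multiset.mem_add.mp hc' with hc' | hc'
    · exact h.2.2.1 c (Multiset.mem_of_mem_erase hc')
    · rw [Multiset.mem_singleton.mp hc']; omega
  · rw [Multiset.sum_add, Multiset.sum_singleton, Multiset.card_add, Multiset.card_singleton]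
    obtain ⟨t, ht⟩ := hev
    exact ⟨t - 1, by omega⟩

theorem filter_even (m : Multiset ℕ) (a : ℕ) (hm : ∀ c ∈ m, Odd c) (ho : Odd a) :
    Multiset.filter (fun c => Even c) (m.erase a + {a - 1}) = {a - 1} := by
  have h1 : Multiset.filter (fun c => Even c) (m.erase a) = 0 :=
    Multiset.filter_eq_nil.mpr
      (fun c hc => Nat.not_even_iff_odd.mpr (hm c (Multiset.mem_of_mem_erase hc)))
  have h2 : Even (a - 1) := by
    obtain ⟨k, hk⟩ := ho
    exact ⟨k, by omega⟩
  rw [Multiset.filter_add, h1, zero_add, Multiset.filter_singleton, if_pos h2]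

theorem θ_inj {n : ℕ} (hn : 5 ≤ n) {m m' : Multiset ℕ} (h : SD n m) (h' : SD n m')
    (e : θ m = θ m') : m = m' := by
  obtain ⟨a, ha, h3, ho, ea⟩ := θ_facts hn h
  obtain ⟨a', ha', h3', ho', ea'⟩ := θ_facts hn h'
  have e2 : m.erase a + {a - 1} = m'.erase a' + {a' - 1} := by rw [← ea, ← ea', e]
  have k : ({a - 1} : Multiset ℕ) = {a' - 1} := by
    calc ({a - 1} : Multiset ℕ)
        = Multiset.filter (fun c => Even c) (m.erase a + {a - 1}) :=
          (filter_even m a h.1 ho).symm
      _ = Multiset.filter (fun c => Even c) (m'.erase a' + {a' - 1}) := by rw [e2]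
      _ = {a' - 1} := filter_even m' a' h'.1 ho'
  have haa : a = a' := by
    have h4 := Multiset.singleton_inj.mp k
    omega
  subst haa
  have e3 : m.erase a = m'.erase a := add_right_cancel e2
  calc m = a ::ₘ m.erase a := (Multiset.cons_erase ha).symm
    _ = a ::ₘ m'.erase a := by rw [e3]
    _ = m' := Multiset.cons_erase ha'

theorem θ_ne {n : ℕ} (hn : 5 ≤ n) {m : Multiset ℕ} (h : SD n m) : θ m ≠ {2} := by
  obtain ⟨a, ha, h3, ho, ea⟩ := θ_facts hn h
  intro e
  rw [ea] at e
  have hc := congrArg Multiset.card e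
  rw [Multiset.card_add, Multiset.card_singleton, Multiset.card_singleton] at hc
  have h0 : m.erase a = 0 := Multiset.card_eq_zero.mp (by omega)
  rw [h0, zero_add] at e
  have h2 := Multiset.singleton_inj.mp e
  have hs := Multiset.sum_erase ha
  rw [h0, Multiset.sum_zero] at hs
  have h5 := h.2.1
  omega

/-! ### permutations -/

noncomputable def rep (n : ℕ) (D : ConjClasses (Perm (Fin n))) : Perm (Fin n) :=
  (ConjClasses.exists_rep D).choose

theorem rep_spec (n : ℕ) (D : ConjClasses (Perm (Fin n))) : ConjClasses.mk (rep n D) = D :=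
  (ConjClasses.exists_rep D).choose_spec

noncomputable def ct (n : ℕ) (D : ConjClasses (Perm (Fin n))) : Multiset ℕ :=
  (rep n D).cycleType

open Classical in
noncomputable def rp (n : ℕ) (m : Multiset ℕ) : Perm (Fin n) :=
  if h : ∃ g : Perm (Fin n), g.cycleType = m then h.choose else 1

theorem rp_spec (n : ℕ) (m : Multiset ℕ) (h : ∃ g : Perm (Fin n), g.cycleType = m) :
    (rp n m).cycleType = m := by
  unfold rp
  rw [dif_pos h]
  exact h.choose_spec

theorem odd_not_range (n : ℕ) (g : Perm (Fin n)) (hg : Equiv.Perm.sign g = -1) :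
    ConjClasses.mk g ∉ Set.range (Φ n) := by
  rintro ⟨x, hx⟩
  obtain ⟨a, rfl⟩ := ConjClasses.exists_rep x
  rw [Φ_mk] at hx
  have hconj : IsConj (a : Perm (Fin n)) g := ConjClasses.mk_eq_mk_iff_isConj.mp hx
  have hct := Equiv.Perm.isConj_iff_cycleType_eq.mp hconj
  have hs : Equiv.Perm.sign (a : Perm (Fin n)) = Equiv.Perm.sign g := by
    rw [Equiv.Perm.sign_of_cycleType, Equiv.Perm.sign_of_cycleType, hct]
  rw [Equiv.Perm.mem_alternatingGroup.mp a.2, hg] at hs
  exact absurd hs (by decide)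

theorem s2_prop (n : ℕ) (D : S2 n) : SD n (ct n D.1) := by
  obtain ⟨D, x, y, hne, hx, hy⟩ := D
  obtain ⟨a, rfl⟩ := ConjClasses.exists_rep x
  have hcen : Subgroup.centralizer {(a : Perm (Fin n))} ≤ alternatingGroup (Fin n) := by
    intro z hz
    by_contra hza
    apply hne
    refine fiber_single n a y (hx.trans hy.symm) z ?_ hza
    exact (Subgroup.mem_centralizer_iff.mp hz (a : Perm (Fin n)) (Set.mem_singleton _)).symm
  have hc := Equiv.Perm.centralizer_le_alternating_iff.mp hcen
  have hconj : IsConj (a : Perm (Fin n)) (rep n D) := by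
    apply ConjClasses.mk_eq_mk_iff_isConj.mp
    rw [rep_spec, ← hx, Φ_mk]
  have hct : (a : Perm (Fin n)).cycleType = ct n D :=
    Equiv.Perm.isConj_iff_cycleType_eq.mp hconj
  rw [hct, Fintype.card_fin] at hc
  have hle := Equiv.Perm.sum_cycleType_le (rep n D)
  rw [Fintype.card_fin] at hle
  exact ⟨hc.1, hc.2.1, fun c hcm => Equiv.Perm.two_le_of_mem_cycleType hcm, hle⟩

theorem tau_facts (n : ℕ) (hn : 5 ≤ n) (D : S2 n) :
    (rp n (θ (ct n D.1))).cycleType = θ (ct n D.1) ∧
      ConjClasses.mk (rp n (θ (ct n D.1))) ∉ Set.range (Φ n) := by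
  have hSD := s2_prop n D
  obtain ⟨p1, p2, p3⟩ := θ_props hn hSD
  have hex : ∃ g : Perm (Fin n), g.cycleType = θ (ct n D.1) :=
    (Equiv.Perm.exists_with_cycleType_iff (Fin n)).mpr
      ⟨by rw [Fintype.card_fin]; exact p1, p2⟩
  have hrp := rp_spec n _ hex
  refine ⟨hrp, odd_not_range n _ ?_⟩
  rw [Equiv.Perm.sign_of_cycleType, hrp]
  exact Odd.neg_one_pow p3

noncomputable def τ (n : ℕ) (hn : 5 ≤ n) (D : S2 n) : OO n :=
  ⟨ConjClasses.mk (rp n (θ (ct n D.1))), (tau_facts n hn D).2⟩

theorem τ_inj (n : ℕ) (hn : 5 ≤ n) : Function.Injective (τ n hn) := by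
  intro D D' h
  have h1 : ConjClasses.mk (rp n (θ (ct n D.1))) = ConjClasses.mk (rp n (θ (ct n D'.1))) :=
    congrArg Subtype.val h
  have h2 := Equiv.Perm.isConj_iff_cycleType_eq.mp (ConjClasses.mk_eq_mk_iff_isConj.mp h1)
  rw [(tau_facts n hn D).1, (tau_facts n hn D').1] at h2
  have h3 : ct n D.1 = ct n D'.1 := θ_inj hn (s2_prop n D) (s2_prop n D') h2
  have h4 : IsConj (rep n D.1) (rep n D'.1) := Equiv.Perm.isConj_iff_cycleType_eq.mpr h3
  apply Subtype.ext
  calc D.1 = ConjClasses.mk (rep n D.1) := (rep_spec n D.1).symm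
    _ = ConjClasses.mk (rep n D'.1) := ConjClasses.mk_eq_mk_iff_isConj.mpr h4
    _ = D'.1 := rep_spec n D'.1

theorem part_a (n : ℕ) (hn : 5 ≤ n) :
    Nat.card (ConjClasses (alternatingGroup (Fin n))) <
      Nat.card (ConjClasses (Perm (Fin n))) := by
  classical
  letI : Fintype (S2 n) := Fintype.ofFinite _
  letI : Fintype (OO n) := Fintype.ofFinite _
  have h1 : Nat.card (ConjClasses (alternatingGroup (Fin n))) ≤
      Nat.card (EE n) + Nat.card (S2 n) := by
    have h := Nat.card_le_card_of_injective (ι n) (ι_inj n)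
    rwa [Nat.card_sum] at h
  have h2 : Nat.card (S2 n) < Nat.card (OO n) := by
    rw [Nat.card_eq_fintype_card, Nat.card_eq_fintype_card]
    have hex : ∃ t : Perm (Fin n), t.cycleType = {2} := by
      refine (Equiv.Perm.exists_with_cycleType_iff (Fin n)).mpr ⟨?_, ?_⟩
      · rw [Fintype.card_fin, Multiset.sum_singleton]; omega
      · intro a ha
        rw [Multiset.mem_singleton.mp ha]
    obtain ⟨t, ht⟩ := hex
    have htodd : ConjClasses.mk t ∉ Set.range (Φ n) := by
      refine odd_not_range n t ?_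
      rw [Equiv.Perm.sign_of_cycleType, ht, Multiset.sum_singleton, Multiset.card_singleton]
      exact Odd.neg_one_pow (by decide)
    refine Fintype.card_lt_of_injective_of_notMem (τ n hn) (τ_inj n hn)
      (b := ⟨ConjClasses.mk t, htodd⟩) ?_
    rintro ⟨D, hD⟩
    have h1 : ConjClasses.mk (rp n (θ (ct n D.1))) = ConjClasses.mk t :=
      congrArg Subtype.val hD
    have h2 := Equiv.Perm.isConj_iff_cycleType_eq.mp (ConjClasses.mk_eq_mk_iff_isConj.mp h1)
    rw [(tau_facts n hn D).1, ht] at h2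
    exact θ_ne hn (s2_prop n D) h2
  have h3 : Nat.card (ConjClasses (Perm (Fin n))) = Nat.card (EE n) + Nat.card (OO n) := by
    rw [← Nat.card_sum]
    exact Nat.card_congr (Equiv.sumCompl (fun D => D ∈ Set.range (Φ n))).symm
  omega

/-- For n ≥ 5 the alternating group of degree n has strictly fewer conjugacy classes than the symmetric group of degree n, and the symmetric group of degree n (whose classes correspond to the partitions of n) has at most 2^(n−2) conjugacy classes. -/
theorem result (n : ℕ) (hn : 5 ≤ n) : Nat.card (ConjClasses (alternatingGroup (Fin n))) < Nat.card (ConjClasses (Equiv.Perm (Fin n))) ∧ Nat.card (ConjClasses (Equiv.Perm (Fin n))) ≤ 2 ^ (n - 2) := by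
  refine ⟨part_a n hn, ?_⟩
  obtain ⟨k, rfl⟩ : ∃ k, n = k + 5 := ⟨n - 5, by omega⟩
  have h1 := classes_le (k + 5)
  have h2 := card_le_fib (k + 5)
  have h3 := fib_le_pow k
  have e : k + 5 - 2 = k + 3 := by omega
  rw [e]
  exact h1.trans (h2.trans h3)

end Cfsg.Agent.S4198
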