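import Cfsg.Statements.S4200
import Mathlib
-- import your own Cfsg.Agent.* helpers here

set_option autoImplicit false
open Cfsg

namespace Cfsg.Agent.S4200

theorem pairs_inj {X : Type*} [Group X] (Y : Subgroup X) :
    ∃ (mm nn : {p : X × X // Commute p.1 p.2} → Y),
      (∀ t, Commute (mm t) (nn t)) ∧
      (∀ t, ∃ x₀ : X, Commute x₀ (nn t : X) ∧ (x₀ : X ⧸ Y) = (t.1.1 : X ⧸ Y)) ∧
      Function.Injective (fun t : {p : X × X // Commute p.1 p.2} =>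
        (((t.1.1 : X ⧸ Y), (t.1.2 : X ⧸ Y)), (mm t, nn t))) := by
  classical
  have hch : ∀ (x : X) (r : X ⧸ Y), ∃ w₀ : X, (∃ w' : X, Commute x w' ∧ (w' : X ⧸ Y) = r) →
      (Commute x w₀ ∧ (w₀ : X ⧸ Y) = r) := by
    intro x r
    by_cases h : ∃ w' : X, Commute x w' ∧ (w' : X ⧸ Y) = r
    · obtain ⟨w', hw'⟩ := h; exact ⟨w', fun _ => hw'⟩
    · exact ⟨1, fun h' => absurd h' h⟩
  choose ch hchs using hch
  have hch2 : ∀ (n : Y) (q : X ⧸ Y), ∃ x₀ : X,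
      (∃ x' : X, Commute x' (n : X) ∧ (x' : X ⧸ Y) = q) →
      (Commute x₀ (n : X) ∧ (x₀ : X ⧸ Y) = q) := by
    intro n q
    by_cases h : ∃ x' : X, Commute x' (n : X) ∧ (x' : X ⧸ Y) = q
    · obtain ⟨x', hx'⟩ := h; exact ⟨x', fun _ => hx'⟩
    · exact ⟨1, fun h' => absurd h' h⟩
  choose ch2 hch2s using hch2
  have hn : ∀ t : {p : X × X // Commute p.1 p.2},
      (ch t.1.1 (t.1.2 : X ⧸ Y))⁻¹ * t.1.2 ∈ Y := by
    intro t
    exact QuotientGroup.eq.mp (hchs t.1.1 (t.1.2 : X ⧸ Y) ⟨t.1.2, t.2, rfl⟩).2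
  have hnc : ∀ t : {p : X × X // Commute p.1 p.2},
      Commute t.1.1 ((ch t.1.1 (t.1.2 : X ⧸ Y))⁻¹ * t.1.2) := by
    intro t
    exact (hchs t.1.1 (t.1.2 : X ⧸ Y) ⟨t.1.2, t.2, rfl⟩).1.inv_right.mul_right t.2
  let nn : {p : X × X // Commute p.1 p.2} → Y :=
    fun t => ⟨(ch t.1.1 (t.1.2 : X ⧸ Y))⁻¹ * t.1.2, hn t⟩
  have hx0 : ∀ t : {p : X × X // Commute p.1 p.2},
      Commute (ch2 (nn t) (t.1.1 : X ⧸ Y)) (nn t : X) ∧
      ((ch2 (nn t) (t.1.1 : X ⧸ Y) : X) : X ⧸ Y) = (t.1.1 : X ⧸ Y) :=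
    fun t => hch2s (nn t) _ ⟨t.1.1, hnc t, rfl⟩
  have hm : ∀ t : {p : X × X // Commute p.1 p.2},
      (ch2 (nn t) (t.1.1 : X ⧸ Y))⁻¹ * t.1.1 ∈ Y := fun t => QuotientGroup.eq.mp (hx0 t).2
  let mm : {p : X × X // Commute p.1 p.2} → Y :=
    fun t => ⟨(ch2 (nn t) (t.1.1 : X ⧸ Y))⁻¹ * t.1.1, hm t⟩
  refine ⟨mm, nn, ?_, ?_, ?_⟩
  · intro t
    have h1 : Commute ((ch2 (nn t) (t.1.1 : X ⧸ Y))⁻¹ * t.1.1) (nn t : X) :=
      (hx0 t).1.inv_left.mul_left (hnc t)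
    show mm t * nn t = nn t * mm t
    exact Subtype.ext h1.eq
  · intro t
    exact ⟨_, hx0 t⟩
  · intro t t' h
    have h1 : (t.1.1 : X ⧸ Y) = (t'.1.1 : X ⧸ Y) := congrArg (fun z => z.1.1) h
    have h2 : (t.1.2 : X ⧸ Y) = (t'.1.2 : X ⧸ Y) := congrArg (fun z => z.1.2) h
    have h3 : mm t = mm t' := congrArg (fun z => z.2.1) h
    have h4 : nn t = nn t' := congrArg (fun z => z.2.2) h
    have h5 : (ch2 (nn t) (t.1.1 : X ⧸ Y))⁻¹ * t.1.1 =
        (ch2 (nn t') (t'.1.1 : X ⧸ Y))⁻¹ * t'.1.1 := congrArg Subtype.val h3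
    rw [h4, h1] at h5
    have hx : t.1.1 = t'.1.1 := mul_left_cancel h5
    have h6 : (ch t.1.1 (t.1.2 : X ⧸ Y))⁻¹ * t.1.2 =
        (ch t'.1.1 (t'.1.2 : X ⧸ Y))⁻¹ * t'.1.2 := congrArg Subtype.val h4
    rw [hx, h2] at h6
    have hw : t.1.2 = t'.1.2 := mul_left_cancel h6
    exact Subtype.ext (Prod.ext hx hw)


/-- Let Y be a subgroup of the finite group X, of index m. Then the numbers of conjugacy classes satisfy k(Y) ≤ m·k(X) and k(X) ≤ m·k(Y), and the second inequality is strict unless Y is normal in X. -/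
theorem result {X : Type*} [Group X] [Finite X] (Y : Subgroup X) : Nat.card (ConjClasses Y) ≤ Y.index * Nat.card (ConjClasses X) ∧ Nat.card (ConjClasses X) ≤ Y.index * Nat.card (ConjClasses Y) ∧ (¬ Y.Normal → Nat.card (ConjClasses X) < Y.index * Nat.card (ConjClasses Y)) := by
  classical
  obtain ⟨mm, nn, hcomm, hx0, hinj⟩ := pairs_inj Y
  have hX := card_comm_eq_card_conjClasses_mul_card X
  have hY := card_comm_eq_card_conjClasses_mul_card Y
  have hidx : Nat.card Y * Y.index = Nat.card X := Y.card_mul_index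
  have hYpos : 0 < Nat.card Y := Nat.card_pos
  have hmpos : 0 < Y.index := Nat.pos_of_ne_zero Subgroup.index_ne_zero_of_finite
  let Φ : {p : X × X // Commute p.1 p.2} →
      ((X ⧸ Y) × (X ⧸ Y)) × {p : Y × Y // Commute p.1 p.2} :=
    fun t => (((t.1.1 : X ⧸ Y), (t.1.2 : X ⧸ Y)), ⟨(mm t, nn t), hcomm t⟩)
  have hΦ : Function.Injective Φ := by
    intro t t' h
    apply hinj
    have h1 : ((t.1.1 : X ⧸ Y), (t.1.2 : X ⧸ Y)) = ((t'.1.1 : X ⧸ Y), (t'.1.2 : X ⧸ Y)) :=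
      congrArg (fun z => z.1) h
    have h2 : (mm t, nn t) = (mm t', nn t') := congrArg (fun z => z.2.1) h
    exact Prod.ext h1 h2
  have hcardΦ : Nat.card (((X ⧸ Y) × (X ⧸ Y)) × {p : Y × Y // Commute p.1 p.2}) =
      Y.index * Y.index * (Nat.card (ConjClasses Y) * Nat.card Y) := by
    rw [Nat.card_prod, Nat.card_prod, hY]; rfl
  have h1 : Nat.card {p : Y × Y // Commute p.1 p.2} ≤
      Nat.card {p : X × X // Commute p.1 p.2} := by
    refine Nat.card_le_card_of_injective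
      (fun p ↦ ⟨⟨p.1.1, p.1.2⟩, Subtype.ext_iff.mp p.2⟩) ?_
    exact fun p q h ↦ by simpa only [Subtype.ext_iff, Prod.ext_iff] using h
  have h2 : Nat.card {p : X × X // Commute p.1 p.2} ≤
      Nat.card (((X ⧸ Y) × (X ⧸ Y)) × {p : Y × Y // Commute p.1 p.2}) :=
    Nat.card_le_card_of_injective Φ hΦ
  refine ⟨?_, ?_, ?_⟩
  · rw [hX, hY, ← hidx] at h1
    apply Nat.le_of_mul_le_mul_right _ hYpos
    calc Nat.card (ConjClasses Y) * Nat.card Y
        ≤ Nat.card (ConjClasses X) * (Nat.card Y * Y.index) := h1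
      _ = Y.index * Nat.card (ConjClasses X) * Nat.card Y := by ring
  · rw [hX, hcardΦ, ← hidx] at h2
    apply Nat.le_of_mul_le_mul_right _ (Nat.mul_pos hYpos hmpos)
    calc Nat.card (ConjClasses X) * (Nat.card Y * Y.index)
        ≤ Y.index * Y.index * (Nat.card (ConjClasses Y) * Nat.card Y) := h2
      _ = Y.index * Nat.card (ConjClasses Y) * (Nat.card Y * Y.index) := by ring
  · intro hnn
    have hex : ∃ y ∈ Y, ∃ g : X, g * y * g⁻¹ ∉ Y := by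
      by_contra hcon
      push Not at hcon
      exact hnn ⟨fun n hn g => hcon n hn g⟩
    obtain ⟨y, hy, g, hg⟩ := hex
    have hnot : ((((g⁻¹ : X) : X ⧸ Y), ((1 : X) : X ⧸ Y)),
        (⟨((1 : Y), (⟨y, hy⟩ : Y)), Commute.one_left _⟩ : {p : Y × Y // Commute p.1 p.2})) ∉
        Set.range Φ := by
      rintro ⟨t, ht⟩
      have e1 : (t.1.1 : X ⧸ Y) = ((g⁻¹ : X) : X ⧸ Y) := congrArg (fun z => z.1.1) ht
      have e2 : nn t = ⟨y, hy⟩ := congrArg (fun z => z.2.1.2) ht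
      obtain ⟨x₀, hx₀c, hx₀q⟩ := hx0 t
      rw [e2] at hx₀c
      rw [e1] at hx₀q
      have hc' : x₀ * y = y * x₀ := hx₀c.eq
      have hY' : x₀⁻¹ * g⁻¹ ∈ Y := QuotientGroup.eq.mp hx₀q
      apply hg
      have e3 : g * y * g⁻¹ = (x₀⁻¹ * g⁻¹)⁻¹ * y * (x₀⁻¹ * g⁻¹) := by
        have e4 : x₀ * y * x₀⁻¹ = y := by rw [hc']; group
        calc g * y * g⁻¹ = g * (x₀ * y * x₀⁻¹) * g⁻¹ := by rw [e4]
          _ = (x₀⁻¹ * g⁻¹)⁻¹ * y * (x₀⁻¹ * g⁻¹) := by group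
      rw [e3]
      exact Y.mul_mem (Y.mul_mem (Y.inv_mem hY') hy) hY'
    have h3 : Nat.card {p : X × X // Commute p.1 p.2} <
        Nat.card (((X ⧸ Y) × (X ⧸ Y)) × {p : Y × Y // Commute p.1 p.2}) := by
      haveI : Fintype {p : X × X // Commute p.1 p.2} := Fintype.ofFinite _
      haveI : Fintype (((X ⧸ Y) × (X ⧸ Y)) × {p : Y × Y // Commute p.1 p.2}) :=
        Fintype.ofFinite _
      rw [Nat.card_eq_fintype_card, Nat.card_eq_fintype_card]
      exact Fintype.card_lt_of_injective_of_notMem Φ hΦ hnot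
    rw [hX, hcardΦ, ← hidx] at h3
    apply Nat.lt_of_mul_lt_mul_right (a := Nat.card Y * Y.index)
    calc Nat.card (ConjClasses X) * (Nat.card Y * Y.index)
        < Y.index * Y.index * (Nat.card (ConjClasses Y) * Nat.card Y) := h3
      _ = Y.index * Nat.card (ConjClasses Y) * (Nat.card Y * Y.index) := by ring

end Cfsg.Agent.S4200
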