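import Cfsg.Statements.S4201
import Mathlib
import Cfsg.Agent.S4200
-- import your own Cfsg.Agent.* helpers here

set_option autoImplicit false
open Cfsg

namespace Cfsg.Agent.S4201

/-- If N is a normal subgroup of the finite group X then k(X) ≤ k(N)·k(X ⧸ N), where k denotes the number of conjugacy classes. -/
theorem result {X : Type*} [Group X] [Finite X] (N : Subgroup X) [N.Normal] : Nat.card (ConjClasses X) ≤ Nat.card (ConjClasses N) * Nat.card (ConjClasses (X ⧸ N)) := by
  classical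
  obtain ⟨mm, nn, hcomm, hx0, hinj⟩ := Cfsg.Agent.S4200.pairs_inj N
  have hX := card_comm_eq_card_conjClasses_mul_card X
  have hN := card_comm_eq_card_conjClasses_mul_card N
  have hQ := card_comm_eq_card_conjClasses_mul_card (X ⧸ N)
  let Φ : {p : X × X // Commute p.1 p.2} →
      {p : (X ⧸ N) × (X ⧸ N) // Commute p.1 p.2} × {p : N × N // Commute p.1 p.2} :=
    fun t => (⟨((t.1.1 : X ⧸ N), (t.1.2 : X ⧸ N)), (t.2.map (QuotientGroup.mk' N) : _)⟩,
      ⟨(mm t, nn t), hcomm t⟩)
  have hΦ : Function.Injective Φ := by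
    intro t t' h
    apply hinj
    have h1 : ((t.1.1 : X ⧸ N), (t.1.2 : X ⧸ N)) = ((t'.1.1 : X ⧸ N), (t'.1.2 : X ⧸ N)) :=
      congrArg (fun z => z.1.1) h
    have h2 : (mm t, nn t) = (mm t', nn t') := congrArg (fun z => z.2.1) h
    exact Prod.ext h1 h2
  have h1 := Nat.card_le_card_of_injective Φ hΦ
  rw [Nat.card_prod, hX, hQ, hN, Subgroup.card_eq_card_quotient_mul_card_subgroup N] at h1
  have hpos : 0 < Nat.card (X ⧸ N) * Nat.card N := Nat.mul_pos Nat.card_pos Nat.card_pos
  apply Nat.le_of_mul_le_mul_right _ hpos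
  calc Nat.card (ConjClasses X) * (Nat.card (X ⧸ N) * Nat.card N)
      ≤ Nat.card (ConjClasses (X ⧸ N)) * Nat.card (X ⧸ N) *
        (Nat.card (ConjClasses N) * Nat.card N) := h1
    _ = Nat.card (ConjClasses N) * Nat.card (ConjClasses (X ⧸ N)) *
        (Nat.card (X ⧸ N) * Nat.card N) := by ring

end Cfsg.Agent.S4201
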