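import Cfsg.Statements.S4203
import Mathlib
import Cfsg.Agent.Helper24.CharBurnside
-- import your own Cfsg.Agent.* helpers here

set_option autoImplicit false
open Cfsg

namespace Cfsg.Agent.S4203

universe u

theorem aux : ∀ (n : ℕ) (G : Type u) [Group G] [Finite G], Nat.card G = n →
    (∀ M : Subgroup G, IsCoatom M → ∃ p : ℕ, p.Prime ∧ (M.index = p ∨ M.index = p ^ 2)) →
    Group.IsSolvable G := by
  intro n
  induction n using Nat.strong_induction_on with
  | _ n ih =>
    intro G _ _ hn h
    have hG0 : Nat.card G ≠ 0 := (Nat.card_pos (α := G)).ne'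
    by_cases hbig : ∃ s : ℕ, s.Prime ∧ 5 ≤ s ∧ s ∣ Nat.card G
    · obtain ⟨s, hs, hs5, hsG⟩ := hbig
      have hne : (Nat.card G).primeFactors.Nonempty :=
        ⟨s, Nat.mem_primeFactors.mpr ⟨hs, hsG, hG0⟩⟩
      obtain ⟨p, hpmem, hpmax⟩ := Finset.exists_max_image (Nat.card G).primeFactors id hne
      have hp : p.Prime := (Nat.mem_primeFactors.mp hpmem).1
      have hpG : p ∣ Nat.card G := (Nat.mem_primeFactors.mp hpmem).2.1
      have hp5 : 5 ≤ p := le_trans hs5 (hpmax s (Nat.mem_primeFactors.mpr ⟨hs, hsG, hG0⟩))
      have hmax : ∀ q : ℕ, q.Prime → q ∣ Nat.card G → q ≤ p := fun q hq hqG =>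
        hpmax q (Nat.mem_primeFactors.mpr ⟨hq, hqG, hG0⟩)
      haveI : Fact p.Prime := ⟨hp⟩
      obtain ⟨P⟩ : Nonempty (Sylow p G) := inferInstance
      by_cases hPn : (P : Subgroup G).Normal
      · haveI := hPn
        have hPcard : 1 < Nat.card (P : Subgroup G) := by
          have h1 := P.dvd_card_of_dvd_card hpG
          exact lt_of_lt_of_le hp.one_lt (Nat.le_of_dvd Nat.card_pos h1)
        have hlt : Nat.card (G ⧸ (P : Subgroup G)) < Nat.card G := by
          rw [← Subgroup.index_eq_card, ← Subgroup.card_mul_index (P : Subgroup G)]
          have hi : 0 < (P : Subgroup G).index := Nat.pos_of_ne_zero Subgroup.index_ne_zero_of_finite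
          nlinarith
        have hQ : Group.IsSolvable (G ⧸ (P : Subgroup G)) := by
          apply ih _ (hn ▸ hlt) (G ⧸ (P : Subgroup G)) rfl
          intro M' hM'
          have hsurj := QuotientGroup.mk'_surjective (P : Subgroup G)
          obtain ⟨q, hq, hq'⟩ := h _ (Subgroup.isCoatom_comap_of_surjective hsurj hM')
          rw [Subgroup.index_comap_of_surjective _ hsurj] at hq'
          exact ⟨q, hq, hq'⟩
        haveI : Group.IsSolvable (P : Subgroup G) := by
          haveI := P.isPGroup'.isNilpotent
          infer_instance
        exact Group.isSolvable_of_ker_le_range (P : Subgroup G).subtype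
          (QuotientGroup.mk' (P : Subgroup G)) (by rw [QuotientGroup.ker_mk', Subgroup.range_subtype])
      · exfalso
        have hN : Subgroup.normalizer (P : Set G) ≠ ⊤ := fun h' =>
          hPn (Subgroup.normalizer_eq_top_iff.mp h')
        obtain ⟨M, hM, hNM⟩ := (eq_top_or_exists_le_coatom _).resolve_left hN
        have hPM : (P : Subgroup G) ≤ M := le_trans Subgroup.le_normalizer hNM
        obtain ⟨q, hq, hq'⟩ := h M hM
        have hqG : q ∣ Nat.card G := by
          have h1 : M.index ∣ Nat.card G := Subgroup.index_dvd_card M
          rcases hq' with h2 | h2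
          · rw [h2] at h1; exact h1
          · rw [h2] at h1; exact dvd_trans (dvd_pow_self q two_ne_zero) h1
        have hqp : q ≤ p := hmax q hq hqG
        have h1 : Nat.card (Sylow p G) ≡ 1 [MOD p] := card_sylow_modEq_one p G
        have h2 : Nat.card (Sylow p M) ≡ 1 [MOD p] := card_sylow_modEq_one p M
        rw [Sylow.card_eq_index_normalizer P] at h1
        rw [Sylow.card_eq_index_normalizer (P.subtype hPM)] at h2
        have h3 : (Subgroup.normalizer ((P.subtype hPM : Sylow p M) : Set M)).index
            = (Subgroup.normalizer (P : Set G)).relIndex M := by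
          have h' := Subgroup.subgroupOf_normalizer_eq hPM
          exact (congrArg Subgroup.index h').symm
        rw [h3] at h2
        rw [← Subgroup.relIndex_mul_index hNM] at h1
        have h4 : M.index ≡ 1 [MOD p] := by
          have h5 := (h2.mul_right M.index).symm.trans h1
          rw [one_mul] at h5
          exact h5
        have hq2 := hq.two_le
        rcases hq' with h5 | h5
        · rw [h5] at h4
          rcases Nat.lt_or_eq_of_le hqp with hlt | heq
          · have h6 : q % p = 1 % p := h4
            rw [Nat.mod_eq_of_lt hlt, Nat.mod_eq_of_lt (by omega)] at h6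
            omega
          · have h6 : q % p = 1 % p := h4
            rw [heq, Nat.mod_self, Nat.mod_eq_of_lt (by omega)] at h6
            omega
        · rw [h5] at h4
          obtain ⟨t, rfl⟩ : ∃ t, q = t + 1 := ⟨q - 1, by omega⟩
          have h6 : (t + 1) ^ 2 = t * (t + 2) + 1 := by ring
          rw [h6] at h4
          have h4' : t * (t + 2) + 1 ≡ 0 + 1 [MOD p] := by rw [zero_add]; exact h4
          have h7 : t * (t + 2) ≡ 0 [MOD p] := Nat.ModEq.add_right_cancel' 1 h4'
          have h8 : p ∣ t * (t + 2) := (Nat.modEq_zero_iff_dvd).mp h7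
          rcases (Nat.Prime.dvd_mul hp).mp h8 with h9 | h9
          · have h10 := Nat.le_of_dvd (by omega) h9
            omega
          · have hle := Nat.le_of_dvd (by omega) h9
            have hpt : p = t + 2 := by
              rcases Nat.lt_or_eq_of_le hle with hlt | heq
              · have h10 : t + 2 = p + 1 := by omega
                rw [h10] at h9
                have h11 : p ∣ 1 := (Nat.dvd_add_right (dvd_refl p)).mp h9
                have h12 := Nat.le_of_dvd one_pos h11
                omega
              · exact heq
            rcases Nat.even_or_odd (t + 1) with he | ho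
            · have h10 := (Nat.Prime.even_iff hq).mp he
              omega
            · have he : Even (t + 2) := by
                rcases ho with ⟨k, hk⟩
                exact ⟨k + 1, by omega⟩
              rw [← hpt] at he
              have h10 := (Nat.Prime.even_iff hp).mp he
              omega
    · push Not at hbig
      obtain ⟨a, m, hm, hGm⟩ := Nat.exists_eq_pow_mul_and_not_dvd hG0 2 (by norm_num)
      have hm0 : m ≠ 0 := by
        rintro rfl
        rw [mul_zero] at hGm
        exact hG0 hGm
      obtain ⟨b, m', hm', hmm'⟩ := Nat.exists_eq_pow_mul_and_not_dvd hm0 3 (by norm_num)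
      have hm'1 : m' = 1 := by
        by_contra hne
        obtain ⟨s, hs, hsm'⟩ := Nat.exists_prime_and_dvd hne
        have hsm : s ∣ m := by rw [hmm']; exact Dvd.dvd.mul_left hsm' _
        have hsG : s ∣ Nat.card G := by rw [hGm]; exact Dvd.dvd.mul_left hsm _
        have hs2 : s ≠ 2 := by rintro rfl; exact hm hsm
        have hs3 : s ≠ 3 := by rintro rfl; exact hm' hsm'
        have hs5 : 5 ≤ s := by
          by_contra hlt
          push Not at hlt
          have h2 := hs.two_le
          interval_cases s
          · exact hs2 rfl
          · exact hs3 rfl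
          · exact absurd hs (by norm_num)
        exact hbig s hs hs5 hsG
      subst hm'1
      rw [mul_one] at hmm'
      subst hmm'
      exact Cfsg.Agent.Helper24.isSolvable_of_card_prime_pow_mul 2 3 a b Nat.prime_two Nat.prime_three hGm



/-- A finite group in which every maximal subgroup has index a prime or the square of a prime is solvable. -/
theorem result {G : Type*} [Group G] [Finite G] (h : ∀ M : Subgroup G, IsCoatom M → ∃ p : ℕ, p.Prime ∧ (M.index = p ∨ M.index = p ^ 2)) : Group.IsSolvable G := by
  exact aux _ G rfl h

end Cfsg.Agent.S4203
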