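import Cfsg.Statements.S4212
import Mathlib
import Cfsg.Agent.Helper20.Frob

set_option autoImplicit false
open Cfsg

namespace Cfsg.Agent.S4212

universe u

/-- CRT exponents splitting an element of order dividing `q*s` into `q`- and `s`-parts. -/
theorem parts {G : Type*} [Group G] (q s : ℕ) (hqs : q.Coprime s) :
    ∃ e e' : ℕ, (∀ x : G, x ^ (q * s) = 1 →
        (x ^ e) ^ q = 1 ∧ (x ^ e') ^ s = 1 ∧ x ^ e * x ^ e' = x) ∧
      (∀ y z : G, y ^ q = 1 → z ^ s = 1 → Commute y z →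
        (y * z) ^ (q * s) = 1 ∧ (y * z) ^ e = y ∧ (y * z) ^ e' = z) := by
  obtain ⟨e, he1, he0⟩ := Nat.chineseRemainder hqs 1 0
  obtain ⟨e', he'0, he'1⟩ := Nat.chineseRemainder hqs 0 1
  have hsum : e + e' ≡ 1 [MOD q * s] := by
    apply (Nat.modEq_and_modEq_iff_modEq_mul hqs).mp
    constructor
    · simpa using he1.add he'0
    · simpa using he0.add he'1
  have hse : s ∣ e := (Nat.modEq_zero_iff_dvd).mp he0
  have hqe' : q ∣ e' := (Nat.modEq_zero_iff_dvd).mp he'0
  refine ⟨e, e', ?_, ?_⟩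
  · intro x hx
    refine ⟨?_, ?_, ?_⟩
    · obtain ⟨c, rfl⟩ := hse
      rw [← pow_mul, show s * c * q = q * s * c by ring, pow_mul, hx, one_pow]
    · obtain ⟨c, rfl⟩ := hqe'
      rw [← pow_mul, show q * c * s = q * s * c by ring, pow_mul, hx, one_pow]
    · rw [← pow_add]
      have h1 : x ^ (e + e') = x ^ 1 := by
        rw [pow_eq_pow_iff_modEq]
        exact hsum.of_dvd (orderOf_dvd_of_pow_eq_one hx)
      rw [h1, pow_one]
  · intro y z hy hz hc
    refine ⟨?_, ?_, ?_⟩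
    · rw [hc.mul_pow, pow_mul, hy, one_pow, mul_comm q s, pow_mul, hz, one_pow, one_mul]
    · rw [hc.mul_pow]
      have h1 : y ^ e = y ^ 1 := by
        rw [pow_eq_pow_iff_modEq]; exact he1.of_dvd (orderOf_dvd_of_pow_eq_one hy)
      have h2 : z ^ e = 1 := by
        obtain ⟨c, rfl⟩ := hse
        rw [pow_mul, hz, one_pow]
      rw [h1, h2, pow_one, mul_one]
    · rw [hc.mul_pow]
      have h1 : z ^ e' = z ^ 1 := by
        rw [pow_eq_pow_iff_modEq]; exact he'1.of_dvd (orderOf_dvd_of_pow_eq_one hz)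
      have h2 : y ^ e' = 1 := by
        obtain ⟨c, rfl⟩ := hqe'
        rw [pow_mul, hy, one_pow]
      rw [h1, h2, pow_one, one_mul]

theorem card_decomp2 {G : Type*} [Group G] [Fintype G] (q s e e' : ℕ)
    (key : ∀ x : G, x ^ (q * s) = 1 → (x ^ e) ^ q = 1 ∧ (x ^ e') ^ s = 1 ∧ x ^ e * x ^ e' = x)
    (key2 : ∀ y z : G, y ^ q = 1 → z ^ s = 1 → Commute y z →
        (y * z) ^ (q * s) = 1 ∧ (y * z) ^ e = y ∧ (y * z) ^ e' = z)
    (T : G → Prop) (R : G → G → Prop)
    (hT : ∀ y z : G, y ^ q = 1 → z ^ s = 1 → Commute y z → (T (y * z) ↔ R y z)) :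
    Nat.card {x : G // x ^ (q * s) = 1 ∧ T x} =
      ∑ y : G, Nat.card {z : G // y ^ q = 1 ∧ Commute y z ∧ z ^ s = 1 ∧ R y z} := by
  rw [← Nat.card_sigma]
  apply Nat.card_congr
  refine
    { toFun := fun x => ⟨x.1 ^ e, ⟨x.1 ^ e', ?_⟩⟩
      invFun := fun yz => ⟨yz.1 * yz.2.1, ?_⟩
      left_inv := ?_
      right_inv := ?_ }
  · obtain ⟨h1, h2, h3⟩ := key x.1 x.2.1
    have hc : Commute (x.1 ^ e) (x.1 ^ e') := Commute.pow_pow_self x.1 e e'
    refine ⟨h1, hc, h2, ?_⟩
    have h4 := hT _ _ h1 h2 hc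
    rw [h3] at h4
    exact h4.mp x.2.2
  · obtain ⟨hy, hc, hz, hR⟩ := yz.2.2
    exact ⟨(key2 _ _ hy hz hc).1, (hT _ _ hy hz hc).mpr hR⟩
  · intro x
    apply Subtype.ext
    exact (key x.1 x.2.1).2.2
  · rintro ⟨y, z, hy, hc, hz, hR⟩
    apply Sigma.subtype_ext
    · exact (key2 y z hy hz hc).2.1
    · exact (key2 y z hy hz hc).2.2

theorem card_fiber {α β : Type*} [Finite α] [Finite β] (f : α → β) (P : β → Prop) (N : ℕ)
    (h : ∀ b, P b → Nat.card {a : α // f a = b} = N) :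
    Nat.card {a : α // P (f a)} = Nat.card {b : β // P b} * N := by
  classical
  haveI : Fintype {b : β // P b} := Fintype.ofFinite _
  have e : {a : α // P (f a)} ≃ Σ b : {b : β // P b}, {a : α // f a = b.1} :=
    { toFun := fun a => ⟨⟨f a.1, a.2⟩, ⟨a.1, rfl⟩⟩
      invFun := fun ba => ⟨ba.2.1, by rw [ba.2.2]; exact ba.1.2⟩
      left_inv := fun a => rfl
      right_inv := by
        rintro ⟨⟨b, hb⟩, ⟨a, ha⟩⟩
        apply Sigma.subtype_ext
        · exact Subtype.ext ha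
        · rfl }
  rw [Nat.card_congr e, Nat.card_sigma, Finset.sum_congr rfl (fun b _ => h b.1 b.2),
    Finset.sum_const, Finset.card_univ, smul_eq_mul, Nat.card_eq_fintype_card]

theorem zpowers_normal {M : Type*} [Group M] (z : M) (hzc : ∀ g : M, g * z = z * g) :
    (Subgroup.zpowers z).Normal := by
  constructor
  intro n hn g
  obtain ⟨i, rfl⟩ := Subgroup.mem_zpowers_iff.mp hn
  have hc : Commute g (z ^ i) := Commute.zpow_right (hzc g) i
  rw [hc.eq, mul_inv_cancel_right]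
  exact Subgroup.zpow_mem_zpowers z i

theorem card_pow_mem {M : Type u} [Group M] [Finite M] (Z : Subgroup M) [Z.Normal] (k : ℕ) :
    Nat.card {u : M // u ^ k ∈ Z} = Nat.card Z * Nat.card {x : M ⧸ Z // x ^ k = 1} := by
  have e := QuotientGroup.preimageMkEquivSubgroupProdSet Z {x : M ⧸ Z | x ^ k = 1}
  have h1 : Nat.card {u : M // u ^ k ∈ Z} =
      Nat.card ((QuotientGroup.mk : M → M ⧸ Z) ⁻¹' {x : M ⧸ Z | x ^ k = 1}) := by
    apply Nat.card_congr
    apply Equiv.subtypeEquivRight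
    intro u
    simp only [Set.mem_preimage, Set.mem_ofPred_eq]
    rw [← QuotientGroup.mk_pow, QuotientGroup.eq_one_iff]
  rw [h1, Nat.card_congr e, Nat.card_prod]
  rfl

/-- core: `p^b`-th roots of a central `p`-element. -/
theorem central_pow {M : Type u} [Group M] [Finite M] (p : ℕ) (hp : p.Prime) (z : M)
    (hzc : ∀ g : M, g * z = z * g) (a : ℕ) (hza : z ^ (p ^ a) = 1) (b : ℕ) :
    Nat.gcd (p ^ b) (Nat.card M) ∣ Nat.card {u : M // u ^ (p ^ b) = z} := by
  classical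
  haveI : Fact p.Prime := ⟨hp⟩
  obtain ⟨e, -, he⟩ := (Nat.dvd_prime_pow hp).mp (orderOf_dvd_of_pow_eq_one hza)
  rcases Nat.eq_zero_or_pos e with he0 | hepos
  · have hz1 : z = 1 := by rw [← orderOf_eq_one_iff, he, he0, pow_zero]
    rw [hz1]
    exact Cfsg.Agent.Helper20.frobenius_gcd M (p ^ b)
  by_cases hemp : IsEmpty {u : M // u ^ (p ^ b) = z}
  · have h0 : Nat.card {u : M // u ^ (p ^ b) = z} = 0 := Nat.card_of_isEmpty
    rw [h0]; exact dvd_zero _
  rw [not_isEmpty_iff] at hemp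
  obtain ⟨⟨u₀, hu₀⟩⟩ := hemp
  obtain ⟨e₀, rfl⟩ : ∃ e₀, e = e₀ + 1 := ⟨e - 1, by omega⟩
  have hzne : z ^ (p ^ e₀) ≠ 1 := by
    intro h
    have h1 := orderOf_dvd_of_pow_eq_one h
    rw [he] at h1
    have h2 := (Nat.pow_dvd_pow_iff_le_right hp.one_lt).mp h1
    omega
  have hord : orderOf u₀ = p ^ (b + e₀ + 1) := by
    apply orderOf_eq_prime_pow
    · rw [pow_add, pow_mul, hu₀]; exact hzne
    · rw [show b + e₀ + 1 = b + (e₀ + 1) by ring, pow_add, pow_mul, hu₀, ← he, pow_orderOf_eq_one]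
  have hdvdM : p ^ (b + e₀ + 1) ∣ Nat.card M := hord ▸ orderOf_dvd_natCard u₀
  haveI hZ0 : (Subgroup.zpowers z).Normal := zpowers_normal z hzc
  have hzpc : ∀ g : M, g * z ^ p = z ^ p * g := fun g => Commute.pow_right (hzc g) p
  haveI hZ1 : (Subgroup.zpowers (z ^ p)).Normal := zpowers_normal (z ^ p) hzpc
  have hcZ0 : Nat.card (Subgroup.zpowers z) = p ^ (e₀ + 1) := by rw [Nat.card_zpowers, he]
  have hcZ1 : Nat.card (Subgroup.zpowers (z ^ p)) = p ^ e₀ := by
    rw [Nat.card_zpowers, orderOf_pow_of_dvd hp.ne_zero (by rw [he]; exact dvd_pow_self p (by omega)),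
      he, pow_succ, Nat.mul_div_cancel _ hp.pos]
  have hle : Subgroup.zpowers (z ^ p) ≤ Subgroup.zpowers z := by
    rw [Subgroup.zpowers_le]
    exact Subgroup.pow_mem _ (Subgroup.mem_zpowers z) p
  -- divisibility of the two preimage counts
  have hT0 : p ^ e₀ * p ^ b ∣ Nat.card {u : M // u ^ (p ^ b) ∈ Subgroup.zpowers z} := by
    rw [card_pow_mem, hcZ0]
    have h1 := Cfsg.Agent.Helper20.frobenius_gcd (M ⧸ Subgroup.zpowers z) (p ^ b)
    have h2 : Nat.card M = Nat.card (M ⧸ Subgroup.zpowers z) * Nat.card (Subgroup.zpowers z) :=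
      Subgroup.card_eq_card_quotient_mul_card_subgroup _
    rw [hcZ0] at h2
    have h3 : p ^ b ∣ Nat.card (M ⧸ Subgroup.zpowers z) := by
      apply Nat.dvd_of_mul_dvd_mul_right (pow_pos hp.pos (e₀ + 1))
      rw [← h2, ← pow_add, show b + (e₀ + 1) = b + e₀ + 1 by ring]
      exact hdvdM
    rw [Nat.gcd_eq_left h3] at h1
    exact Nat.mul_dvd_mul (pow_dvd_pow p (Nat.le_succ e₀)) h1
  have hT1 : p ^ e₀ * p ^ b ∣ Nat.card {u : M // u ^ (p ^ b) ∈ Subgroup.zpowers (z ^ p)} := by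
    rw [card_pow_mem, hcZ1]
    have h1 := Cfsg.Agent.Helper20.frobenius_gcd (M ⧸ Subgroup.zpowers (z ^ p)) (p ^ b)
    have h2 : Nat.card M = Nat.card (M ⧸ Subgroup.zpowers (z ^ p)) *
        Nat.card (Subgroup.zpowers (z ^ p)) :=
      Subgroup.card_eq_card_quotient_mul_card_subgroup _
    rw [hcZ1] at h2
    have h3 : p ^ b ∣ Nat.card (M ⧸ Subgroup.zpowers (z ^ p)) := by
      apply Nat.dvd_of_mul_dvd_mul_right (pow_pos hp.pos e₀)
      rw [← h2, ← pow_add]
      exact (pow_dvd_pow p (Nat.le_succ _)).trans hdvdM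
    rw [Nat.gcd_eq_left h3] at h1
    exact Nat.mul_dvd_mul_left _ h1
  have hsplit := Cfsg.Agent.Helper20.card_split (α := M)
    (fun u => u ^ (p ^ b) ∈ Subgroup.zpowers z) (fun u => u ^ (p ^ b) ∈ Subgroup.zpowers (z ^ p))
    (fun u hu => hle hu)
  have hX : p ^ e₀ * p ^ b ∣ Nat.card {u : M // u ^ (p ^ b) ∈ Subgroup.zpowers z ∧
      ¬ u ^ (p ^ b) ∈ Subgroup.zpowers (z ^ p)} := by
    rw [hsplit] at hT0
    exact (Nat.dvd_add_right hT1).mp hT0
  -- the generators
  have hgen := Cfsg.Agent.Helper20.card_split (α := M)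
    (fun g => g ∈ Subgroup.zpowers z) (fun g => g ∈ Subgroup.zpowers (z ^ p)) (fun g hg => hle hg)
  have hgen' : Nat.card {g : M // g ∈ Subgroup.zpowers z ∧ ¬ g ∈ Subgroup.zpowers (z ^ p)} =
      p ^ e₀ * (p - 1) := by
    have h1 : Nat.card {g : M // g ∈ Subgroup.zpowers z} = p ^ (e₀ + 1) := hcZ0
    have h2 : Nat.card {g : M // g ∈ Subgroup.zpowers (z ^ p)} = p ^ e₀ := hcZ1
    rw [h1, h2] at hgen
    have h3 : p ^ (e₀ + 1) = p ^ e₀ + p ^ e₀ * (p - 1) := by
      have h4 : 1 ≤ p := hp.pos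
      rw [pow_succ, Nat.mul_sub, mul_one]
      have h5 : p ^ e₀ ≤ p ^ e₀ * p := Nat.le_mul_of_pos_right _ hp.pos
      omega
    omega
  -- equal fibres
  obtain ⟨A, m₀, hm₀, hMA⟩ := Nat.exists_eq_pow_mul_and_not_dvd (Nat.card_pos (α := M)).ne' p
    hp.ne_one
  have hcopA : Nat.Coprime (p ^ A) m₀ :=
    Nat.Coprime.pow_left A ((Nat.Prime.coprime_iff_not_dvd hp).mpr hm₀)
  have hpA : p ^ (b + e₀ + 1) ∣ p ^ A := by
    have h1 : Nat.Coprime (p ^ (b + e₀ + 1)) m₀ :=
      Nat.Coprime.pow_left _ ((Nat.Prime.coprime_iff_not_dvd hp).mpr hm₀)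
    exact h1.dvd_of_dvd_mul_right (hMA ▸ hdvdM)
  have hA1 : 1 ≤ A := by
    have := (Nat.pow_dvd_pow_iff_le_right hp.one_lt).mp hpA
    omega
  have hfib : ∀ g : M, (g ∈ Subgroup.zpowers z ∧ ¬ g ∈ Subgroup.zpowers (z ^ p)) →
      Nat.card {u : M // u ^ (p ^ b) = g} = Nat.card {u : M // u ^ (p ^ b) = z} := by
    rintro g ⟨hg0, hg1⟩
    rw [← mem_powers_iff_mem_zpowers] at hg0
    obtain ⟨i, hi⟩ := (Submonoid.mem_powers_iff g z).mp hg0
    have hpi : ¬ p ∣ i := by
      rintro ⟨j, rfl⟩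
      apply hg1
      rw [← hi, pow_mul]
      exact Subgroup.pow_mem _ (Subgroup.mem_zpowers _) j
    obtain ⟨i', hi'1, hi'2⟩ := Nat.chineseRemainder hcopA i 1
    have hzi : z ^ i' = z ^ i := by
      rw [pow_eq_pow_iff_modEq, he]
      exact hi'1.of_dvd ((pow_dvd_pow p (by omega : e₀ + 1 ≤ b + e₀ + 1)).trans hpA)
    have hpi' : ¬ p ∣ i' := by
      intro h
      exact hpi ((Nat.ModEq.dvd_iff hi'1 (dvd_pow_self p (by omega))).mp h)
    have hcop : (Nat.card M).Coprime i' := by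
      rw [hMA]
      apply Nat.Coprime.mul_left
      · exact Nat.Coprime.pow_left A ((Nat.Prime.coprime_iff_not_dvd hp).mpr hpi')
      · have h1 := Nat.ModEq.gcd_eq hi'2
        rw [Nat.gcd_one_left] at h1
        exact (Nat.coprime_comm.mp h1)
    symm
    apply Nat.card_congr
    refine (powCoprime hcop).subtypeEquiv ?_
    intro u
    show u ^ (p ^ b) = z ↔ (u ^ i') ^ (p ^ b) = g
    rw [← pow_mul, mul_comm, pow_mul, ← hi, ← hzi]
    constructor
    · intro h; rw [h]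
    · intro h
      exact (powCoprime hcop).injective h
  have hXeq := card_fiber (α := M) (β := M) (fun u => u ^ (p ^ b))
    (fun g => g ∈ Subgroup.zpowers z ∧ ¬ g ∈ Subgroup.zpowers (z ^ p))
    (Nat.card {u : M // u ^ (p ^ b) = z}) hfib
  rw [hXeq, hgen', mul_assoc] at hX
  have h1 : p ^ b ∣ (p - 1) * Nat.card {u : M // u ^ (p ^ b) = z} :=
    Nat.dvd_of_mul_dvd_mul_left (pow_pos hp.pos e₀) hX
  have hcop1 : Nat.Coprime (p ^ b) (p - 1) := by
    apply Nat.Coprime.pow_left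
    have h2 : 2 ≤ p := hp.two_le
    exact Nat.coprime_of_lt_prime (by omega) (by omega) hp
  exact (Nat.gcd_dvd_left _ _).trans (hcop1.dvd_of_dvd_mul_left h1)

theorem central_pow2 {M : Type u} [Group M] [Finite M] (p : ℕ) (hp : p.Prime) (z : M)
    (hzc : ∀ g : M, g * z = z * g) (a : ℕ) (hza : z ^ (p ^ a) = 1)
    (hMa : ∀ (u : M) (i : ℕ), u ^ (p ^ i) = 1 → u ^ (p ^ a) = 1)
    (n : ℕ) (hn : n ≠ 0) (k : ℕ) (hk : p ^ k ∣ n) :
    Nat.gcd (p ^ k) (Nat.card M) ∣ Nat.card {u : M // u ^ (p ^ a) = 1 ∧ u ^ n = z} := by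
  obtain ⟨b, m, hm, hnm⟩ := Nat.exists_eq_pow_mul_and_not_dvd hn p hp.ne_one
  have hkb : k ≤ b := by
    have hcop : Nat.Coprime (p ^ k) m :=
      Nat.Coprime.pow_left k ((Nat.Prime.coprime_iff_not_dvd hp).mpr hm)
    have h1 : p ^ k ∣ p ^ b := hcop.dvd_of_dvd_mul_right (hnm ▸ hk)
    exact (Nat.pow_dvd_pow_iff_le_right hp.one_lt).mp h1
  have hcopm : Nat.Coprime m (p ^ a) :=
    (Nat.Coprime.pow_left a ((Nat.Prime.coprime_iff_not_dvd hp).mpr hm)).symm
  obtain ⟨m', hm'⟩ : ∃ m' : ℕ, m * m' ≡ 1 [MOD p ^ a] := by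
    refine ⟨m ^ (Nat.totient (p ^ a) - 1), ?_⟩
    have h1 := Nat.ModEq.pow_totient hcopm
    have h2 : m * m ^ (Nat.totient (p ^ a) - 1) = m ^ Nat.totient (p ^ a) := by
      have h3 : 0 < Nat.totient (p ^ a) := Nat.totient_pos.mpr (pow_pos hp.pos a)
      rw [← pow_succ', Nat.sub_add_cancel h3]
    rw [h2]; exact h1
  have hpow : ∀ u : M, u ^ (p ^ a) = 1 → u ^ (m * m') = u := by
    intro u hu
    have : u ^ (m * m') = u ^ 1 := by
      rw [pow_eq_pow_iff_modEq]
      exact hm'.of_dvd (orderOf_dvd_of_pow_eq_one hu)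
    rw [this, pow_one]
  have hvp : ∀ v : M, v ^ (p ^ b) = z → v ^ (p ^ a) = 1 := by
    intro v hv
    apply hMa v (b + a)
    rw [pow_add, pow_mul, hv, hza]
  have e : Nat.card {u : M // u ^ (p ^ a) = 1 ∧ u ^ n = z} =
      Nat.card {v : M // v ^ (p ^ b) = z} := by
    apply Nat.card_congr
    refine
      { toFun := fun u => ⟨u.1 ^ m, ?_⟩
        invFun := fun v => ⟨v.1 ^ m', ?_, ?_⟩
        left_inv := ?_
        right_inv := ?_ }
    · rw [← pow_mul, mul_comm, ← hnm]; exact u.2.2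
    · rw [← pow_mul, mul_comm, pow_mul, hvp v.1 v.2, one_pow]
    · rw [hnm, ← pow_mul, show m' * (p ^ b * m) = p ^ b * (m * m') by ring, pow_mul, v.2]
      exact hpow z hza
    · intro u
      apply Subtype.ext
      show (u.1 ^ m) ^ m' = u.1
      rw [← pow_mul]; exact hpow u.1 u.2.1
    · intro v
      apply Subtype.ext
      show (v.1 ^ m') ^ m = v.1
      rw [← pow_mul, mul_comm]; exact hpow v.1 (hvp v.1 v.2)
  rw [e]
  exact (Nat.gcd_dvd_gcd_of_dvd_left _ (pow_dvd_pow p hkb)).trans (central_pow p hp z hzc a hza b)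

theorem prime_pow_dvd {K : Type u} [Group K] [Finite K] (z : K) (hzc : ∀ g : K, g * z = z * g)
    (n : ℕ) (hn : n ≠ 0) (p k : ℕ) (hp : p.Prime) (hkn : p ^ k ∣ n) (hkK : p ^ k ∣ Nat.card K) :
    p ^ k ∣ Nat.card {x : K // x ^ n = z} := by
  classical
  haveI : Fintype K := Fintype.ofFinite K
  obtain ⟨a, q, hq, hK⟩ := Nat.exists_eq_pow_mul_and_not_dvd (Nat.card_pos (α := K)).ne' p
    hp.ne_one
  have hqs : Nat.Coprime q (p ^ a) :=
    (Nat.Coprime.pow_left a ((Nat.Prime.coprime_iff_not_dvd hp).mpr hq)).symm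
  obtain ⟨e, e', key, key2⟩ := parts (G := K) q (p ^ a) hqs
  have hall : ∀ x : K, x ^ (q * p ^ a) = 1 := by
    intro x; rw [mul_comm, ← hK]; exact pow_card_eq_one'
  have e1 : Nat.card {x : K // x ^ n = z} =
      Nat.card {x : K // x ^ (q * p ^ a) = 1 ∧ x ^ n = z} :=
    Nat.card_congr (Equiv.subtypeEquivRight (fun x => ⟨fun h => ⟨hall x, h⟩, fun h => h.2⟩))
  have hz1c : ∀ g : K, g * z ^ e = z ^ e * g := fun g => Commute.pow_right (hzc g) e
  have hz2c : ∀ g : K, g * z ^ e' = z ^ e' * g := fun g => Commute.pow_right (hzc g) e'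
  have hKa : ∀ (u : K) (i : ℕ), u ^ (p ^ i) = 1 → u ^ (p ^ a) = 1 := by
    intro u i hu
    have h1 : orderOf u ∣ p ^ i := orderOf_dvd_of_pow_eq_one hu
    have h2 : orderOf u ∣ p ^ a * q := hK ▸ orderOf_dvd_natCard u
    have h3 : Nat.Coprime (orderOf u) q :=
      Nat.Coprime.coprime_dvd_left h1
        (Nat.Coprime.pow_left i ((Nat.Prime.coprime_iff_not_dvd hp).mpr hq))
    exact orderOf_dvd_iff_pow_eq_one.mp (h3.dvd_of_dvd_mul_right h2)
  have hT : ∀ y w : K, y ^ q = 1 → w ^ (p ^ a) = 1 → Commute y w →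
      ((y * w) ^ n = z ↔ (y ^ n = z ^ e ∧ w ^ n = z ^ e')) := by
    intro y w hy hw hc
    have hyn : (y ^ n) ^ q = 1 := by rw [← pow_mul, mul_comm, pow_mul, hy, one_pow]
    have hwn : (w ^ n) ^ (p ^ a) = 1 := by rw [← pow_mul, mul_comm, pow_mul, hw, one_pow]
    have hcn : Commute (y ^ n) (w ^ n) := Commute.pow_pow hc n n
    have h2 := key2 _ _ hyn hwn hcn
    rw [hc.mul_pow]
    constructor
    · intro h
      rw [h] at h2
      exact ⟨h2.2.1.symm, h2.2.2.symm⟩
    · rintro ⟨h3, h4⟩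
      rw [h3, h4]
      exact (key z (hall z)).2.2
  rw [e1, card_decomp2 q (p ^ a) e e' key key2 (fun x => x ^ n = z)
    (fun y w => y ^ n = z ^ e ∧ w ^ n = z ^ e') hT]
  have hinv : ∀ c y w : K,
      (y ^ q = 1 ∧ Commute y w ∧ w ^ (p ^ a) = 1 ∧ (y ^ n = z ^ e ∧ w ^ n = z ^ e')) →
      ((c * y * c⁻¹) ^ q = 1 ∧ Commute (c * y * c⁻¹) (c * w * c⁻¹) ∧
        (c * w * c⁻¹) ^ (p ^ a) = 1 ∧
        ((c * y * c⁻¹) ^ n = z ^ e ∧ (c * w * c⁻¹) ^ n = z ^ e')) := by
    rintro c y w ⟨h1, h2, h3, h4, h5⟩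
    refine ⟨?_, ?_, ?_, ?_, ?_⟩
    · rw [conj_pow, h1, mul_one, mul_inv_cancel]
    · exact (Commute.conj_iff c).mpr h2
    · rw [conj_pow, h3, mul_one, mul_inv_cancel]
    · rw [conj_pow, h4, hz1c c, mul_inv_cancel_right]
    · rw [conj_pow, h5, hz2c c, mul_inv_cancel_right]
  apply Cfsg.Agent.Helper20.dvd_sum_of_orbit (G := ConjAct K)
    (fun y : K => Nat.card {w : K // y ^ q = 1 ∧ Commute y w ∧ w ^ (p ^ a) = 1 ∧
      (y ^ n = z ^ e ∧ w ^ n = z ^ e')})
  · intro g y
    symm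
    apply Nat.card_congr
    refine (MulAut.conj (ConjAct.ofConjAct g)).toEquiv.subtypeEquiv ?_
    intro w
    show (y ^ q = 1 ∧ Commute y w ∧ w ^ (p ^ a) = 1 ∧ (y ^ n = z ^ e ∧ w ^ n = z ^ e')) ↔
      ((g • y) ^ q = 1 ∧ Commute (g • y) (ConjAct.ofConjAct g * w * (ConjAct.ofConjAct g)⁻¹) ∧
      (ConjAct.ofConjAct g * w * (ConjAct.ofConjAct g)⁻¹) ^ (p ^ a) = 1 ∧
      ((g • y) ^ n = z ^ e ∧ (ConjAct.ofConjAct g * w * (ConjAct.ofConjAct g)⁻¹) ^ n = z ^ e'))
    rw [ConjAct.smul_def]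
    constructor
    · exact hinv _ y w
    · intro h
      have h3 := hinv (ConjAct.ofConjAct g)⁻¹ _ _ h
      have e2 : ∀ t : K, (ConjAct.ofConjAct g)⁻¹ *
          (ConjAct.ofConjAct g * t * (ConjAct.ofConjAct g)⁻¹) *
          (ConjAct.ofConjAct g)⁻¹⁻¹ = t := by intro t; group
      rw [e2, e2] at h3
      exact h3
  · intro y
    by_cases hy : y ^ q = 1 ∧ y ^ n = z ^ e
    · rw [ConjAct.orbit_eq_carrier_conjClasses, Cfsg.Agent.Helper20.ncard_carrier_eq]
      have hmem : z ^ e' ∈ Subgroup.centralizer ({y} : Set K) := by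
        rw [Subgroup.mem_centralizer_iff]
        intro h hh
        exact hz2c h
      have e3 : Nat.card {w : K // y ^ q = 1 ∧ Commute y w ∧ w ^ (p ^ a) = 1 ∧
          (y ^ n = z ^ e ∧ w ^ n = z ^ e')} =
          Nat.card {c : Subgroup.centralizer ({y} : Set K) //
            c ^ (p ^ a) = 1 ∧ c ^ n = ⟨z ^ e', hmem⟩} := by
        apply Nat.card_congr
        exact
          { toFun := fun w => ⟨⟨w.1, by
                rw [Subgroup.mem_centralizer_iff]
                intro h hh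
                rw [Set.mem_singleton_iff] at hh
                rw [hh]; exact w.2.2.1.eq⟩, Subtype.ext w.2.2.2.1, Subtype.ext w.2.2.2.2.2⟩
            invFun := fun c => ⟨c.1.1, hy.1, by
                have h1 := c.1.2
                rw [Subgroup.mem_centralizer_iff] at h1
                exact h1 y (Set.mem_singleton y), by
                have h2 := congrArg Subtype.val c.2.1
                rw [Subgroup.coe_pow] at h2
                exact h2, hy.2, by
                have h2 := congrArg Subtype.val c.2.2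
                rw [Subgroup.coe_pow] at h2
                exact h2⟩
            left_inv := fun w => rfl
            right_inv := fun c => rfl }
      rw [e3]
      have hC := central_pow2 (M := Subgroup.centralizer ({y} : Set K)) p hp ⟨z ^ e', hmem⟩
        (fun g => Subtype.ext (hz2c g.1)) a
        (Subtype.ext (by
          rw [Subgroup.coe_pow]
          exact (key z (hall z)).2.1))
        (fun u i hu => Subtype.ext (by
          rw [Subgroup.coe_pow]
          apply hKa u.1 i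
          have h2 := congrArg Subtype.val hu
          rw [Subgroup.coe_pow] at h2
          exact h2)) n hn k hkn
      have h1 : p ^ k ∣ Nat.gcd ((Subgroup.centralizer ({y} : Set K)).index * p ^ k)
          ((Subgroup.centralizer ({y} : Set K)).index *
            Nat.card (Subgroup.centralizer ({y} : Set K))) :=
        Nat.dvd_gcd (Dvd.intro_left _ rfl)
          (by rw [mul_comm, Subgroup.card_mul_index]; exact hkK)
      rw [Nat.gcd_mul_left] at h1
      exact h1.trans (Nat.mul_dvd_mul_left _ hC)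
    · haveI : IsEmpty {w : K // y ^ q = 1 ∧ Commute y w ∧ w ^ (p ^ a) = 1 ∧
          (y ^ n = z ^ e ∧ w ^ n = z ^ e')} := ⟨fun w => hy ⟨w.2.1, w.2.2.2.2.1⟩⟩
      rw [Nat.card_of_isEmpty, mul_zero]
      exact dvd_zero _

theorem central_dvd {K : Type u} [Group K] [Finite K] (z : K) (hzc : ∀ g : K, g * z = z * g)
    (n : ℕ) (hn : n ≠ 0) : Nat.gcd n (Nat.card K) ∣ Nat.card {x : K // x ^ n = z} := by
  rw [Nat.dvd_iff_prime_pow_dvd_dvd]
  intro p k hp hpk
  exact prime_pow_dvd z hzc n hn p k hp (hpk.trans (Nat.gcd_dvd_left _ _))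
    (hpk.trans (Nat.gcd_dvd_right _ _))

/-- Let `G` be a finite group of order `g`, `c` an element whose conjugacy class has `h` elements, and `n` a natural number. Then the number of elements `x` of `G` with `x^n` conjugate to `c` is a multiple of `gcd(hn, g)`. -/
theorem result {G : Type*} [Group G] [Finite G] (c : G) (n : ℕ) : Nat.gcd (Nat.card {y : G // IsConj c y} * n) (Nat.card G) ∣ Nat.card {x : G // IsConj c (x ^ n)} := by
  classical
  rcases Nat.eq_zero_or_pos n with rfl | hnpos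
  · simp only [mul_zero, Nat.gcd_zero_left, pow_zero]
    by_cases hc1 : c = 1
    · subst hc1
      have h1 : Nat.card {x : G // IsConj (1 : G) 1} = Nat.card G :=
        Nat.card_congr (Equiv.subtypeUnivEquiv (fun _ => IsConj.refl 1))
      rw [h1]
    · haveI : IsEmpty {x : G // IsConj c 1} := ⟨fun x => hc1 (isConj_one_left.mp x.2)⟩
      have h0 : Nat.card {x : G // IsConj c 1} = 0 := Nat.card_of_isEmpty
      rw [h0]
      exact dvd_zero _
  have hn : n ≠ 0 := hnpos.ne'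
  have hh : Nat.card {y : G // IsConj c y} = (Subgroup.centralizer ({c} : Set G)).index := by
    rw [← Cfsg.Agent.Helper20.ncard_carrier_eq c, ← Nat.card_coe_set_eq]
    apply Nat.card_congr
    apply Equiv.subtypeEquivRight
    intro y
    rw [ConjClasses.mem_carrier_iff_mk_eq, ConjClasses.mk_eq_mk_iff_isConj]
    exact isConj_comm
  have hfib : ∀ y : G, IsConj c y → Nat.card {x : G // x ^ n = y} = Nat.card {x : G // x ^ n = c} := by
    intro y hy
    obtain ⟨g, hg⟩ := isConj_iff.mp hy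
    symm
    apply Nat.card_congr
    refine (MulAut.conj g).toEquiv.subtypeEquiv ?_
    intro x
    show x ^ n = c ↔ (g * x * g⁻¹) ^ n = y
    rw [conj_pow, ← hg]
    constructor
    · intro h; rw [h]
    · intro h
      have h2 := congrArg (fun t => g⁻¹ * t * g) h
      simpa [mul_assoc] using h2
  have h1 := card_fiber (α := G) (β := G) (fun x => x ^ n) (fun y => IsConj c y)
    (Nat.card {x : G // x ^ n = c}) hfib
  have hcH : c ∈ Subgroup.centralizer ({c} : Set G) := by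
    rw [Subgroup.mem_centralizer_iff]
    intro h hh
    rw [Set.mem_singleton_iff] at hh
    rw [hh]
  have h2 : Nat.card {x : G // x ^ n = c} =
      Nat.card {x : Subgroup.centralizer ({c} : Set G) // x ^ n = ⟨c, hcH⟩} := by
    apply Nat.card_congr
    exact
      { toFun := fun x => ⟨⟨x.1, by
            rw [Subgroup.mem_centralizer_iff]
            intro h hh
            rw [Set.mem_singleton_iff] at hh
            rw [hh]
            have hx : x.1 ^ n = c := x.2
            calc c * x.1 = x.1 ^ n * x.1 := by rw [hx]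
              _ = x.1 * x.1 ^ n := by rw [← pow_succ, ← pow_succ']
              _ = x.1 * c := by rw [hx]⟩, Subtype.ext x.2⟩
        invFun := fun x => ⟨x.1.1, by
            have h3 := congrArg Subtype.val x.2
            rw [Subgroup.coe_pow] at h3
            exact h3⟩
        left_inv := fun x => rfl
        right_inv := fun x => rfl }
  have h3 := central_dvd (K := Subgroup.centralizer ({c} : Set G)) ⟨c, hcH⟩
    (fun g => by
      have h4 := g.2
      rw [Subgroup.mem_centralizer_iff] at h4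
      exact Subtype.ext (h4 c (Set.mem_singleton c)).symm) n hn
  show Nat.gcd (Nat.card {y : G // IsConj c y} * n) (Nat.card G) ∣
    Nat.card {x : G // IsConj c (x ^ n)}
  rw [h1, hh, h2]
  have h5 : Nat.card G = (Subgroup.centralizer ({c} : Set G)).index *
      Nat.card (Subgroup.centralizer ({c} : Set G)) := by
    rw [mul_comm, Subgroup.card_mul_index]
  rw [h5, Nat.gcd_mul_left]
  exact Nat.mul_dvd_mul_left _ h3

end Cfsg.Agent.S4212
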