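import Cfsg.Statements.S4217
import Cfsg.Agent.Helper15.Gaschutz2

set_option autoImplicit false
open Cfsg

namespace Cfsg.Agent.S4217




/-- Let `A` be an abelian normal subgroup of the finite group `G`. Then `A` has a complement in `G` if and only if, for every prime `p` dividing the index of `A`, there are a Sylow `p`-subgroup `S` of `G/A` and a subgroup `K` of `G` with `K ∩ A = 1` and `KA` equal to the preimage of `S` (that is, `A` has a complement in the preimage of a Sylow `p`-subgroup of `G/A`). -/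
theorem result {G : Type*} [Group G] [Finite G] (A : Subgroup G) [A.Normal] (hA : IsMulCommutative A) : (∃ K : Subgroup G, K.IsComplement' A) ↔ ∀ p : ℕ, p.Prime → p ∣ A.index → ∃ (S : Sylow p (G ⧸ A)) (K : Subgroup G), K ⊓ A = ⊥ ∧ K ⊔ A = (S : Subgroup (G ⧸ A)).comap (QuotientGroup.mk' A) := by
  classical
  haveI := hA
  constructor
  · rintro ⟨K, hK⟩ p hp hpd
    haveI : Fact p.Prime := ⟨hp⟩
    obtain ⟨S⟩ : Nonempty (Sylow p ↥K) := inferInstance
    have hφ : Function.Surjective ((QuotientGroup.mk' A).comp K.subtype) := by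
      intro q
      obtain ⟨g, rfl⟩ := QuotientGroup.mk'_surjective A q
      obtain ⟨⟨k, a⟩, hka, -⟩ := hK.existsUnique g
      refine ⟨k, ?_⟩
      have hka' : (k : G) * (a : G) = g := hka
      show QuotientGroup.mk' A (k : G) = QuotientGroup.mk' A g
      rw [← hka', map_mul]
      have e : QuotientGroup.mk' A (a : G) = 1 := (QuotientGroup.eq_one_iff _).mpr a.2
      rw [e, mul_one]
    refine ⟨S.mapSurjective hφ, (S : Subgroup ↥K).map K.subtype, ?_, ?_⟩
    · rw [eq_bot_iff]
      intro x hx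
      obtain ⟨hx1, hx2⟩ := Subgroup.mem_inf.mp hx
      have hxK : x ∈ K := Subgroup.map_subtype_le _ hx1
      exact Subgroup.mem_bot.mpr ((Subgroup.disjoint_def.mp hK.disjoint) hxK hx2)
    · rw [Sylow.coe_mapSurjective, ← Subgroup.map_map, Subgroup.comap_map_eq,
        QuotientGroup.ker_mk']
  · intro h
    by_cases hn : A.index = 1
    · have hAtop : A = ⊤ := Subgroup.index_eq_one.mp hn
      exact ⟨⊥, by rw [hAtop]; exact Subgroup.isComplement'_bot_top⟩
    apply Cfsg.Agent.Helper15.complement_of_one_mem A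
    apply Cfsg.Agent.Helper15.one_mem_of_primes (Cfsg.Agent.Helper15.crossedIdeal A) A.index hn
    intro p hp hpd
    haveI : Fact p.Prime := ⟨hp⟩
    obtain ⟨S, K, hKA, hKS⟩ := h p hp hpd
    refine ⟨((S : Subgroup (G ⧸ A)).comap (QuotientGroup.mk' A)).index, ?_, ?_, ?_, ?_⟩
    · rw [← hKS]
      have hAn : A.Normal := inferInstance
      have hdec : ∀ h ∈ K ⊔ A, ∃ k, k ∈ K ∧ k⁻¹ * h ∈ A := by
        intro h hh
        obtain ⟨y, hy, z, hz, rfl⟩ := Subgroup.mem_sup_of_normal_right.mp hh
        exact ⟨y, hy, by rw [inv_mul_cancel_left]; exact hz⟩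
      have huniq : ∀ h k k' : G, k ∈ K → k' ∈ K → k⁻¹ * h ∈ A → k'⁻¹ * h ∈ A → k = k' := by
        intro h k k' hk hk' h1 h2
        have h3 : k⁻¹ * k' ∈ K ⊓ A := by
          refine Subgroup.mem_inf.mpr ⟨K.mul_mem (K.inv_mem hk) hk', ?_⟩
          have e : k⁻¹ * k' = (k⁻¹ * h) * (k'⁻¹ * h)⁻¹ := by group
          rw [e]; exact A.mul_mem h1 (A.inv_mem h2)
        rw [hKA, Subgroup.mem_bot] at h3
        exact inv_mul_eq_one.mp h3
      obtain ⟨c, hc⟩ : ∃ c : G → G, ∀ h ∈ K ⊔ A, c h ∈ K ∧ (c h)⁻¹ * h ∈ A := by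
        refine ⟨fun h => if hh : h ∈ K ⊔ A then Classical.choose (hdec h hh) else 1,
          fun h hh => ?_⟩
        have e : (if hh' : h ∈ K ⊔ A then Classical.choose (hdec h hh') else 1) =
            Classical.choose (hdec h hh) := dif_pos hh
        show (if hh' : h ∈ K ⊔ A then Classical.choose (hdec h hh') else 1) ∈ K ∧
          (if hh' : h ∈ K ⊔ A then Classical.choose (hdec h hh') else 1)⁻¹ * h ∈ A
        rw [e]
        exact Classical.choose_spec (hdec h hh)
      apply Cfsg.Agent.Helper15.index_mem_crossedIdeal A (K ⊔ A) le_sup_right c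
      · intro h hh
        have e : h * (c h)⁻¹ = c h * ((c h)⁻¹ * h) * (c h)⁻¹ := by group
        rw [e]
        exact hAn.conj_mem _ (hc h hh).2 _
      · intro h hh h' hh'
        have hmul : h * h' ∈ K ⊔ A := (K ⊔ A).mul_mem hh hh'
        apply huniq (h * h') _ _ (hc _ hmul).1 (K.mul_mem (hc h hh).1 (hc h' hh').1) (hc _ hmul).2
        have e : (c h * c h')⁻¹ * (h * h') =
            ((c h')⁻¹ * ((c h)⁻¹ * h) * ((c h')⁻¹)⁻¹) * ((c h')⁻¹ * h') := by group
        rw [e]
        exact A.mul_mem (hAn.conj_mem _ (hc h hh).2 _) (hc h' hh').2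
      · intro a ha
        have haH : a ∈ K ⊔ A := (le_sup_right : A ≤ K ⊔ A) ha
        apply huniq a _ _ (hc a haH).1 K.one_mem (hc a haH).2
        rw [inv_one, one_mul]; exact ha
    · apply Subgroup.index_dvd_of_le
      rw [← hKS]; exact le_sup_right
    · rw [Subgroup.index_comap_of_surjective _ (QuotientGroup.mk'_surjective A)]
      exact S.not_dvd_index
    · exact Subgroup.index_ne_zero_of_finite

end Cfsg.Agent.S4217
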