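import Cfsg.Statements.S4223

set_option autoImplicit false
open Cfsg

namespace Cfsg.Agent.S4223

universe u v w w'

section cancel

variable {A : Type u} [Group A]

/-- number of homomorphisms `A → Y` whose kernel contains `N` -/
noncomputable def homN (N : Subgroup A) (Y : Type v) [Group Y] : ℕ :=
  Nat.card {f : A →* Y // N ≤ f.ker}

/-- number of homomorphisms `A → Y` whose kernel is `N` -/
noncomputable def injN (N : Subgroup A) (Y : Type v) [Group Y] : ℕ :=
  Nat.card {f : A →* Y // f.ker = N}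

theorem finHom [Finite A] (Y : Type v) [Group Y] [Finite Y] : Finite (A →* Y) :=
  Finite.of_injective (fun f : A →* Y => (f : A → Y)) DFunLike.coe_injective

theorem homN_eq_sum [Finite A] (N : Subgroup A) (Y : Type v) [Group Y] [Finite Y]
    [Fintype {M : Subgroup A // N ≤ M}] :
    homN N Y = ∑ M : {M : Subgroup A // N ≤ M}, injN M.1 Y := by
  haveI := finHom (A := A) Y
  unfold homN injN
  rw [← Nat.card_sigma]
  refine Nat.card_congr ⟨fun f => ⟨⟨f.1.ker, f.2⟩, ⟨f.1, rfl⟩⟩,
    fun p => ⟨p.2.1, p.1.2.trans (le_of_eq p.2.2.symm)⟩, fun f => rfl, ?_⟩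
  rintro ⟨⟨M, hM⟩, ⟨f, hf⟩⟩
  have hf' : f.ker = M := hf
  subst hf'
  rfl

theorem homN_prod (N : Subgroup A) (Y : Type v) (C : Type w) [Group Y] [Group C] :
    homN N (Y × C) = homN N Y * homN N C := by
  unfold homN
  rw [← Nat.card_prod]
  refine Nat.card_congr ⟨fun f => (⟨(MonoidHom.fst Y C).comp f.1, fun x hx => ?_⟩,
    ⟨(MonoidHom.snd Y C).comp f.1, fun x hx => ?_⟩),
    fun p => ⟨p.1.1.prod p.2.1, fun x hx => ?_⟩, fun f => ?_, fun p => ?_⟩
  · have := f.2 hx
    rw [MonoidHom.mem_ker] at this ⊢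
    show (f.1 x).1 = 1
    rw [this]; rfl
  · have := f.2 hx
    rw [MonoidHom.mem_ker] at this ⊢
    show (f.1 x).2 = 1
    rw [this]; rfl
  · have h1 := p.1.2 hx
    have h2 := p.2.2 hx
    rw [MonoidHom.mem_ker] at h1 h2 ⊢
    show (p.1.1 x, p.2.1 x) = 1
    rw [h1, h2]; rfl
  · apply Subtype.ext
    apply MonoidHom.ext
    intro x
    rfl
  · rfl

theorem homN_congr (N : Subgroup A) {Y : Type v} {Y' : Type w} [Group Y] [Group Y']
    (e : Y ≃* Y') : homN N Y = homN N Y' := by
  unfold homN
  refine Nat.card_congr ⟨fun f => ⟨e.toMonoidHom.comp f.1, fun x hx => ?_⟩,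
    fun f => ⟨e.symm.toMonoidHom.comp f.1, fun x hx => ?_⟩, fun f => ?_, fun f => ?_⟩
  · have := f.2 hx
    rw [MonoidHom.mem_ker] at this ⊢
    show e (f.1 x) = 1
    rw [this, map_one]
  · have := f.2 hx
    rw [MonoidHom.mem_ker] at this ⊢
    show e.symm (f.1 x) = 1
    rw [this, map_one]
  · apply Subtype.ext
    apply MonoidHom.ext
    intro x
    show e.symm (e (f.1 x)) = f.1 x
    simp
  · apply Subtype.ext
    apply MonoidHom.ext
    intro x
    show e (e.symm (f.1 x)) = f.1 x
    simp

/-- Lovász-type cancellation for finite groups. -/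
theorem cancel {B : Type v} {C : Type w} {C' : Type w'} [Group B] [Group C] [Group C']
    [Finite A] [Finite B] [Finite C] [Finite C']
    (e : A × C ≃* B × C') (eC : C ≃* C') : Nonempty (A ≃* B) := by
  classical
  have hh : ∀ N : Subgroup A, homN N A = homN N B := by
    intro N
    have h1 : homN N (A × C) = homN N (B × C') := homN_congr N e
    rw [homN_prod, homN_prod, ← homN_congr N eC] at h1
    have h2 : 0 < homN N C := by
      unfold homN
      haveI := finHom (A := A) C
      haveI : Nonempty {f : A →* C // N ≤ f.ker} :=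
        ⟨⟨1, fun x _ => by simp⟩⟩
      exact Nat.card_pos
    exact Nat.eq_of_mul_eq_mul_right h2 h1
  have hi : ∀ N : Subgroup A, injN N A = injN N B := by
    intro N
    induction N using WellFoundedGT.induction with
    | ind N ih =>
      letI := Fintype.ofFinite {M : Subgroup A // N ≤ M}
      have hA := homN_eq_sum N A
      have hB := homN_eq_sum N B
      rw [hh N] at hA
      rw [hA] at hB
      rw [← Finset.add_sum_erase Finset.univ (fun M : {M : Subgroup A // N ≤ M} => injN M.1 A)
        (Finset.mem_univ ⟨N, le_rfl⟩),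
        ← Finset.add_sum_erase Finset.univ (fun M : {M : Subgroup A // N ≤ M} => injN M.1 B)
        (Finset.mem_univ ⟨N, le_rfl⟩)] at hB
      have hs : ∑ x ∈ (Finset.univ : Finset {M : Subgroup A // N ≤ M}).erase ⟨N, le_rfl⟩,
          injN x.1 A
          = ∑ x ∈ (Finset.univ : Finset {M : Subgroup A // N ≤ M}).erase ⟨N, le_rfl⟩,
          injN x.1 B :=
        Finset.sum_congr rfl (fun M hM => ih M.1 (lt_of_le_of_ne M.2
          (fun h => (Finset.ne_of_mem_erase hM) (Subtype.ext h.symm))))
      rw [hs] at hB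
      exact Nat.add_right_cancel hB
  have h0 : injN (⊥ : Subgroup A) B ≠ 0 := by
    rw [← hi]
    unfold injN
    haveI := finHom (A := A) A
    haveI : Nonempty {f : A →* A // f.ker = ⊥} := ⟨⟨MonoidHom.id A, MonoidHom.ker_id⟩⟩
    exact Nat.card_pos.ne'
  obtain ⟨f, hf⟩ : Nonempty {f : A →* B // f.ker = ⊥} := by
    by_contra hne
    rw [not_nonempty_iff] at hne
    exact h0 Nat.card_of_isEmpty
  have hinj : Function.Injective f := (MonoidHom.ker_eq_bot_iff f).1 hf
  have hcard : Nat.card A = Nat.card B := by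
    have h1 := Nat.card_congr e.toEquiv
    rw [Nat.card_prod, Nat.card_prod, ← Nat.card_congr eC.toEquiv] at h1
    exact Nat.eq_of_mul_eq_mul_right Nat.card_pos h1
  have hbij : Function.Bijective f := (Nat.bijective_iff_injective_and_card f).2 ⟨hinj, hcard⟩
  exact ⟨MulEquiv.ofBijective f hbij⟩

end cancel

section fitting

variable {H : Type u} [Group H]

/-- iterates of an endomorphism -/
def itr (f : H →* H) : ℕ → (H →* H)
  | 0 => MonoidHom.id H
  | n + 1 => (itr f n).comp f

theorem itr_add (f : H →* H) (a b : ℕ) : itr f (a + b) = (itr f a).comp (itr f b) := by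
  induction b with
  | zero => rfl
  | succ b ih =>
    show (itr f (a + b)).comp f = (itr f a).comp ((itr f b).comp f)
    rw [ih, MonoidHom.comp_assoc]

/-- normal endomorphisms -/
def NormalEnd (f : H →* H) : Prop := ∀ a b, f (a * b * a⁻¹) = a * f b * a⁻¹

theorem itr_normal {f : H →* H} (hf : NormalEnd f) (n : ℕ) : NormalEnd (itr f n) := by
  induction n with
  | zero => intro a b; rfl
  | succ n ih =>
    intro a b
    show itr f n (f (a * b * a⁻¹)) = a * itr f n (f b) * a⁻¹
    rw [hf, ih]

theorem exists_idem [Finite H] (f : H →* H) :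
    ∃ n, 0 < n ∧ (itr f n).comp (itr f n) = itr f n := by
  haveI := finHom (A := H) H
  obtain ⟨a, b, hab, h⟩ := Finite.exists_ne_map_eq_of_infinite (itr f)
  wlog hlt : a < b generalizing a b
  · exact this b a hab.symm h.symm (lt_of_le_of_ne (not_lt.1 hlt) hab.symm)
  obtain ⟨d, rfl⟩ : ∃ d, b = a + d := ⟨b - a, by omega⟩
  have hd : 0 < d := by omega
  have P1 : ∀ c, itr f (c + a) = itr f (c + a + d) := by
    intro c
    rw [itr_add, h, ← itr_add, add_assoc]
  have P2 : ∀ k c, itr f (c + a) = itr f (c + a + k * d) := by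
    intro k
    induction k with
    | zero => intro c; simp
    | succ k ih =>
      intro c
      have h1 := P1 (c + k * d)
      rw [ih c]
      have e1 : c + a + (k + 1) * d = c + k * d + a + d := by ring
      have e2 : c + a + k * d = c + k * d + a := by ring
      rw [e1, e2]; exact h1
  have hn : a ≤ (a + 1) * d := by nlinarith
  obtain ⟨c, hc⟩ : ∃ c, (a + 1) * d = c + a := ⟨(a + 1) * d - a, by omega⟩
  refine ⟨(a + 1) * d, by positivity, ?_⟩
  rw [← itr_add]
  have h2 := P2 (a + 1) c
  rw [← hc] at h2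
  exact h2.symm

/-- direct indecomposability, in the form of the statement -/
def Indec (H : Type u) [Group H] : Prop :=
  ∀ K L : Subgroup H, K.Normal → L.Normal → K ⊓ L = ⊥ → K ⊔ L = ⊤ → K = ⊥ ∨ L = ⊥

theorem fitting [Finite H] (hH : Indec H) (f : H →* H) (hf : NormalEnd f) :
    Function.Bijective f ∨ ∃ n, ∀ x, itr f n x = 1 := by
  obtain ⟨n, hn, he⟩ := exists_idem f
  obtain ⟨e, he_def⟩ : ∃ e, e = itr f n := ⟨_, rfl⟩
  rw [← he_def] at he
  have hen : NormalEnd e := he_def ▸ itr_normal hf n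
  have hee : ∀ x, e (e x) = e x := fun x => DFunLike.congr_fun he x
  have hLn : e.range.Normal := by
    constructor
    rintro _ ⟨b, rfl⟩ a
    exact ⟨a * b * a⁻¹, hen a b⟩
  have hinf : e.ker ⊓ e.range = ⊥ := by
    rw [eq_bot_iff]
    rintro y ⟨hy1, ⟨x, rfl⟩⟩
    have hy1' : e x ∈ e.ker := hy1
    rw [MonoidHom.mem_ker, hee] at hy1'
    rw [Subgroup.mem_bot]; exact hy1'
  have hsup : e.ker ⊔ e.range = ⊤ := by
    rw [eq_top_iff]
    intro x _
    have h1 : x * (e x)⁻¹ ∈ e.ker := by
      rw [MonoidHom.mem_ker, map_mul, map_inv, hee, mul_inv_cancel]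
    have h2 : e x ∈ e.range := ⟨x, rfl⟩
    have := Subgroup.mul_mem_sup h1 h2
    simpa using this
  rcases hH e.ker e.range (MonoidHom.normal_ker e) hLn hinf hsup with h | h
  · left
    have hinj : Function.Injective e := (MonoidHom.ker_eq_bot_iff e).1 h
    have hfinj : Function.Injective f := by
      obtain ⟨m, rfl⟩ : ∃ m, n = m + 1 := ⟨n - 1, by omega⟩
      intro x y hxy
      apply hinj
      rw [he_def]
      show itr f m (f x) = itr f m (f y)
      rw [hxy]
    exact Finite.injective_iff_bijective.1 hfinj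
  · right
    refine ⟨n, fun x => ?_⟩
    have : e x ∈ e.range := ⟨x, rfl⟩
    rw [h, Subgroup.mem_bot] at this
    rw [← he_def]
    exact this

theorem fitting_mul [Finite H] (hH : Indec H) (f g k : H →* H) (hf : NormalEnd f)
    (hg : NormalEnd g) (hk : ∀ x, k x = f x * g x) (hkb : Function.Bijective k) :
    Function.Bijective f ∨ Function.Bijective g := by
  by_cases hfb : Function.Bijective f
  · exact Or.inl hfb
  right
  have hfi : ¬ Function.Injective f := fun h => hfb (Finite.injective_iff_bijective.1 h)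
  rw [injective_iff_map_eq_one] at hfi
  push Not at hfi
  obtain ⟨y, hy1, hy⟩ := hfi
  obtain ⟨h, hh_def⟩ : ∃ h, h = (MulEquiv.ofBijective k hkb).symm := ⟨_, rfl⟩
  have hkh : ∀ x, k (h x) = x := fun x => by
    rw [hh_def]; exact (MulEquiv.ofBijective k hkb).apply_symm_apply x
  have hhk : ∀ x, h (k x) = x := fun x => by
    rw [hh_def]; exact (MulEquiv.ofBijective k hkb).symm_apply_apply x
  have hkn : NormalEnd k := by
    intro a b; rw [hk, hk, hf, hg]; group
  have hhn : ∀ a b, h (a * b * a⁻¹) = a * h b * a⁻¹ := by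
    intro a b
    apply hkb.1
    rw [hkh, hkn, hkh]
  obtain ⟨g', hg'_def⟩ : ∃ g' : H →* H, g' = g.comp h.toMonoidHom := ⟨_, rfl⟩
  have hg'a : ∀ x, g' x = g (h x) := fun x => by rw [hg'_def]; rfl
  have hg'n : NormalEnd g' := by
    intro a b
    rw [hg'a, hg'a, hhn, hg]
  have hx : g' (k y) = k y := by
    rw [hg'a, hhk, hk, hy1, one_mul]
  have hky : k y ≠ 1 := fun h0 => hy (hkb.1 (h0.trans (map_one k).symm))
  rcases fitting hH g' hg'n with hb | ⟨n, hn⟩
  · have : (g : H → H) = g' ∘ k := by
      funext x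
      show g x = g' (k x)
      rw [hg'a, hhk]
    rw [this]; exact hb.comp hkb
  · exfalso
    have : ∀ m, itr g' m (k y) = k y := by
      intro m
      induction m with
      | zero => rfl
      | succ m ih =>
        show itr g' m (g' (k y)) = k y
        rw [hx, ih]
    exact hky ((this n).symm.trans (hn _))

end fitting

section prod

variable {n : ℕ} {B : Fin n → Type v} [∀ j, Group (B j)]

/-- truncation to a set of coordinates -/
def trunc (J : Finset (Fin n)) : (∀ j, B j) →* (∀ j, B j) where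
  toFun x := fun j => if j ∈ J then x j else 1
  map_one' := by funext j; simp
  map_mul' x y := by funext j; by_cases h : j ∈ J <;> simp [h]

theorem trunc_apply (J : Finset (Fin n)) (x : ∀ j, B j) (j : Fin n) :
    trunc J x j = if j ∈ J then x j else 1 := rfl

variable {H : Type u} [Group H]

theorem trunc_normal (ι : H →* (∀ j, B j)) (π : (∀ j, B j) →* H) (hπι : ∀ x, π (ι x) = x)
    (J : Finset (Fin n)) : NormalEnd (π.comp ((trunc J).comp ι)) := by
  intro a b
  show π (trunc J (ι (a * b * a⁻¹))) = a * π (trunc J (ι b)) * a⁻¹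
  have : trunc J (ι (a * b * a⁻¹)) = ι a * trunc J (ι b) * (ι a)⁻¹ := by
    funext j
    rw [map_mul, map_mul, map_inv]
    simp only [trunc_apply, Pi.mul_apply, Pi.inv_apply]
    by_cases h : j ∈ J <;> simp [h]
  rw [this, map_mul, map_mul, map_inv, hπι]

theorem exists_bij [Finite H] [Nontrivial H] (hH : Indec H) (ι : H →* (∀ j, B j))
    (π : (∀ j, B j) →* H) (hπι : ∀ x, π (ι x) = x) (J : Finset (Fin n))
    (hJ : Function.Bijective (π.comp ((trunc J).comp ι))) :
    ∃ j ∈ J, Function.Bijective (π.comp ((trunc {j}).comp ι)) := by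
  classical
  induction J using Finset.induction_on with
  | empty =>
    exfalso
    obtain ⟨x, hx⟩ := exists_ne (1 : H)
    apply hx
    apply hJ.1
    show π (trunc ∅ (ι x)) = π (trunc ∅ (ι 1))
    have : ∀ y : (∀ j, B j), trunc ∅ y = 1 := by intro y; funext j; simp [trunc_apply]
    rw [this, this]
  | insert j J hj ih =>
    have hk : ∀ x, (π.comp ((trunc (insert j J)).comp ι)) x
        = (π.comp ((trunc J).comp ι)) x * (π.comp ((trunc {j}).comp ι)) x := by
      intro x
      show π (trunc (insert j J) (ι x)) = π (trunc J (ι x)) * π (trunc {j} (ι x))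
      rw [← map_mul]
      congr 1
      funext i
      simp only [trunc_apply, Pi.mul_apply, Finset.mem_insert, Finset.mem_singleton]
      by_cases h1 : i = j
      · subst h1; simp [hj]
      · by_cases h2 : i ∈ J <;> simp [h1, h2]
    rcases fitting_mul hH _ _ _ (trunc_normal ι π hπι J) (trunc_normal ι π hπι {j}) hk hJ
      with h | h
    · obtain ⟨j', hj', h'⟩ := ih h
      exact ⟨j', Finset.mem_insert_of_mem hj', h'⟩
    · exact ⟨j, Finset.mem_insert_self j J, h⟩

theorem iso_of_bij [Finite H] [Nontrivial H] (ι : H →* (∀ j, B j)) (π : (∀ j, B j) →* H)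
    (hιn : ι.range.Normal) (j₀ : Fin n) (hB : Indec (B j₀))
    (hb : Function.Bijective (π.comp ((trunc {j₀}).comp ι))) :
    Nonempty (B j₀ ≃* H) := by
  classical
  obtain ⟨α, hα_def⟩ : ∃ α : H →* B j₀, α = (Pi.evalMonoidHom B j₀).comp ι := ⟨_, rfl⟩
  obtain ⟨β, hβ_def⟩ : ∃ β : B j₀ →* H, β = π.comp (MonoidHom.mulSingle B j₀) := ⟨_, rfl⟩
  have hβα : ∀ x, β (α x) = (π.comp ((trunc {j₀}).comp ι)) x := by
    intro x
    rw [hα_def, hβ_def]
    show π (Pi.mulSingle j₀ (ι x j₀)) = π (trunc {j₀} (ι x))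
    congr 1
    funext i
    by_cases h : i = j₀
    · subst h; simp [trunc_apply]
    · simp [trunc_apply, h]
  have hLn : α.range.Normal := by
    have : α.range = ι.range.map (Pi.evalMonoidHom B j₀) := by
      rw [hα_def]; exact (MonoidHom.map_range _ _).symm
    rw [this]
    exact Subgroup.Normal.map hιn _ (fun y => ⟨Pi.mulSingle j₀ y, by simp⟩)
  have hinf : β.ker ⊓ α.range = ⊥ := by
    rw [eq_bot_iff]
    rintro y ⟨hy1, ⟨x, rfl⟩⟩
    have hy1' : α x ∈ β.ker := hy1
    rw [MonoidHom.mem_ker, hβα] at hy1'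
    have : x = 1 := hb.1 (hy1'.trans (map_one _).symm)
    rw [Subgroup.mem_bot, this, map_one]
  have hsup : β.ker ⊔ α.range = ⊤ := by
    rw [eq_top_iff]
    intro y _
    obtain ⟨x, hx⟩ := hb.2 (β y)
    rw [← hβα] at hx
    have h1 : y * (α x)⁻¹ ∈ β.ker := by
      rw [MonoidHom.mem_ker, map_mul, map_inv, hx, mul_inv_cancel]
    have h2 : α x ∈ α.range := ⟨x, rfl⟩
    have := Subgroup.mul_mem_sup h1 h2
    simpa using this
  rcases hB β.ker α.range (MonoidHom.normal_ker β) hLn hinf hsup with h | h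
  · have hinj : Function.Injective β := (MonoidHom.ker_eq_bot_iff β).1 h
    have hsurj : Function.Surjective β := by
      intro z
      obtain ⟨x, hx⟩ := hb.2 z
      exact ⟨α x, (hβα x).trans hx⟩
    exact ⟨MulEquiv.ofBijective β ⟨hinj, hsurj⟩⟩
  · exfalso
    obtain ⟨x, hx⟩ := exists_ne (1 : H)
    apply hx
    apply hb.1
    rw [← hβα, ← hβα]
    have : α x ∈ α.range := ⟨x, rfl⟩
    rw [h, Subgroup.mem_bot] at this
    rw [this, map_one, map_one, map_one]

end prod

/-- splitting off one coordinate of a product -/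
def splitAt {n : ℕ} (B : Fin (n + 1) → Type v) [∀ j, Group (B j)] (j₀ : Fin (n + 1)) :
    (∀ j, B j) ≃* B j₀ × (∀ j : Fin n, B (j₀.succAbove j)) where
  toFun f := (f j₀, fun j => f (j₀.succAbove j))
  invFun p := Fin.insertNth j₀ p.1 p.2
  left_inv f := Fin.insertNth_eq_iff.2 ⟨rfl, rfl⟩
  right_inv p := by
    ext <;> simp
  map_mul' f g := rfl

theorem krs : ∀ (m : ℕ) {n : ℕ} {A : Fin m → Type u} {B : Fin n → Type v} [∀ i, Group (A i)]
    [∀ j, Group (B j)] [∀ i, Finite (A i)] [∀ j, Finite (B j)]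
    (hA : ∀ i, Nontrivial (A i) ∧ Indec (A i)) (hB : ∀ j, Nontrivial (B j) ∧ Indec (B j))
    (e : (∀ i, A i) ≃* (∀ j, B j)), ∃ σ : Fin m ≃ Fin n, ∀ i, Nonempty (A i ≃* B (σ i)) := by
  intro m
  induction m with
  | zero =>
    intro n A B _ _ _ _ hA hB e
    have hn : n = 0 := by
      by_contra hn
      obtain ⟨n', rfl⟩ := Nat.exists_eq_succ_of_ne_zero hn
      haveI := (hB 0).1
      obtain ⟨b, hb⟩ := exists_ne (1 : B 0)
      apply hb
      have h1 : e.symm (Pi.mulSingle 0 b) = e.symm 1 := Subsingleton.elim _ _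
      have h2 := e.symm.injective h1
      have h3 := congrFun h2 0
      simpa using h3
    subst hn
    exact ⟨Equiv.refl _, fun i => i.elim0⟩
  | succ m ih =>
    intro n A B _ _ _ _ hA hB e
    classical
    haveI := (hA 0).1
    obtain ⟨ι, hι_def⟩ : ∃ ι : A 0 →* (∀ j, B j),
      ι = e.toMonoidHom.comp (MonoidHom.mulSingle A 0) := ⟨_, rfl⟩
    obtain ⟨π, hπ_def⟩ : ∃ π : (∀ j, B j) →* A 0,
      π = (Pi.evalMonoidHom A 0).comp e.symm.toMonoidHom := ⟨_, rfl⟩
    have hιa : ∀ x, ι x = e (Pi.mulSingle 0 x) := fun x => by rw [hι_def]; rfl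
    have hπa : ∀ g, π g = (e.symm g) 0 := fun g => by rw [hπ_def]; rfl
    have hπι : ∀ x, π (ι x) = x := by
      intro x
      rw [hιa, hπa]
      simp
    have hιn : ι.range.Normal := by
      constructor
      rintro _ ⟨x, rfl⟩ g
      refine ⟨(e.symm g) 0 * x * ((e.symm g) 0)⁻¹, ?_⟩
      rw [hιa, hιa]
      have : (Pi.mulSingle 0 ((e.symm g) 0 * x * ((e.symm g) 0)⁻¹) : ∀ i, A i)
          = e.symm g * Pi.mulSingle 0 x * (e.symm g)⁻¹ := by
        funext i
        by_cases h : i = 0
        · subst h; simp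
        · simp [Pi.mulSingle_eq_of_ne h]
      rw [this, map_mul, map_mul, map_inv, e.apply_symm_apply]
    have huniv : Function.Bijective (π.comp ((trunc Finset.univ).comp ι)) := by
      have : (⇑(π.comp ((trunc Finset.univ).comp ι)) : A 0 → A 0) = id := by
        funext x
        show π (trunc Finset.univ (ι x)) = x
        have : trunc Finset.univ (ι x) = ι x := by funext j; simp [trunc_apply]
        rw [this, hπι]
      rw [this]; exact Function.bijective_id
    obtain ⟨j₀, -, hj₀⟩ := exists_bij (hA 0).2 ι π hπι Finset.univ huniv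
    obtain ⟨β⟩ := iso_of_bij ι π hιn j₀ (hB j₀).2 hj₀
    obtain ⟨n', rfl⟩ : ∃ n', n = n' + 1 := by
      cases n with
      | zero => exact j₀.elim0
      | succ n' => exact ⟨n', rfl⟩
    have e1 : (∀ i : Fin m, A (Fin.succAbove 0 i)) × A 0
        ≃* (∀ j : Fin n', B (j₀.succAbove j)) × B j₀ :=
      (MulEquiv.prodComm.trans (splitAt A 0).symm).trans
        (e.trans ((splitAt B j₀).trans MulEquiv.prodComm))
    obtain ⟨e'⟩ := cancel e1 β.symm
    obtain ⟨σ', hσ'⟩ := ih (A := fun i : Fin m => A (Fin.succAbove 0 i))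
      (B := fun j : Fin n' => B (j₀.succAbove j)) (fun i => hA _) (fun j => hB _) e'
    refine ⟨(finSuccEquiv' 0).trans ((Equiv.optionCongr σ').trans (finSuccEquiv' j₀).symm), ?_⟩
    intro i
    rcases Fin.eq_self_or_eq_succAbove 0 i with rfl | ⟨i', rfl⟩
    · have : ((finSuccEquiv' 0).trans ((Equiv.optionCongr σ').trans (finSuccEquiv' j₀).symm)) 0
          = j₀ := by
        simp
      rw [this]; exact ⟨β.symm⟩
    · have : ((finSuccEquiv' 0).trans ((Equiv.optionCongr σ').trans (finSuccEquiv' j₀).symm))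
          (Fin.succAbove 0 i') = j₀.succAbove (σ' i') := by
        simp only [Equiv.trans_apply, finSuccEquiv'_succAbove, Equiv.optionCongr_apply,
          Option.map_some, finSuccEquiv'_symm_some]
      rw [this]; exact hσ' i'



/-- If a finite group is isomorphic both to a direct product of `m` directly indecomposable nontrivial groups and to a direct product of `n` such groups (a group is directly indecomposable when it is not the internal direct product of two nontrivial normal subgroups), then `m = n` and the factors are isomorphic in pairs after a suitable matching. -/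
theorem result {m n : ℕ} {A : Fin m → Type*} {B : Fin n → Type*} [∀ i, Group (A i)] [∀ j, Group (B j)] [∀ i, Finite (A i)] [∀ j, Finite (B j)] (hA : ∀ i, Nontrivial (A i) ∧ ∀ H K : Subgroup (A i), H.Normal → K.Normal → H ⊓ K = ⊥ → H ⊔ K = ⊤ → H = ⊥ ∨ K = ⊥) (hB : ∀ j, Nontrivial (B j) ∧ ∀ H K : Subgroup (B j), H.Normal → K.Normal → H ⊓ K = ⊥ → H ⊔ K = ⊤ → H = ⊥ ∨ K = ⊥) (e : ((i : Fin m) → A i) ≃* ((j : Fin n) → B j)) : ∃ σ : Fin m ≃ Fin n, ∀ i, Nonempty (A i ≃* B (σ i)) := by
  exact krs m hA hB e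

end Cfsg.Agent.S4223
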