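import Cfsg.Statements.S4224
import Mathlib
import Cfsg.Agent.Helper1.Regular

set_option autoImplicit false
open Cfsg

namespace Cfsg.Agent.S4224

/-- In a regular `p`-group, for all elements `a`, `b` and every power `q = p^k`: `a^q` commutes with `b` if and only if the commutator `a⁻¹b⁻¹ab` has `q`-th power equal to `1`. -/
theorem result {G : Type*} [Group G] [Finite G] {p : ℕ} [Fact p.Prime] (hG : Cfsg.IsRegularPGroup p G) (a b : G) (k : ℕ) : a ^ p ^ k * b = b * a ^ p ^ k ↔ (a⁻¹ * b⁻¹ * a * b) ^ p ^ k = 1 := by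
  have e : a⁻¹ * b⁻¹ * a * b = a⁻¹ * (b⁻¹ * a * b) := by group
  have hconj : (b⁻¹ * a * b) ^ p ^ k = b⁻¹ * a ^ p ^ k * b := by
    have h1 := conj_pow (a := b⁻¹) (b := a) (i := p ^ k)
    rwa [inv_inv] at h1
  rw [e]
  constructor
  · intro h
    apply Helper1.regular_pow_mul_eq_one hG k
    rw [hconj, inv_pow, mul_assoc b⁻¹, h, inv_mul_cancel_left, inv_mul_cancel]
  · intro h
    have h2 : (b⁻¹ * a * b) ^ p ^ k = a ^ p ^ k := by
      apply Helper1.regular_pow_eq_of hG k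
      have e2 : b⁻¹ * a * b * a⁻¹ = a * (a⁻¹ * (b⁻¹ * a * b)) * a⁻¹ := by group
      rw [e2, conj_pow, h, mul_one, mul_inv_cancel]
    rw [hconj] at h2
    calc a ^ p ^ k * b = b * (b⁻¹ * a ^ p ^ k * b) := by rw [mul_assoc, mul_inv_cancel_left]
      _ = b * a ^ p ^ k := by rw [h2]

end Cfsg.Agent.S4224
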