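import Cfsg.Statements.S4275
import Mathlib
-- import your own Cfsg.Agent.* helpers here

set_option autoImplicit false
open Cfsg

namespace Cfsg.Agent.S4275

/-- Let G be a transitive group of permutations of a finite set Ω, let o ∈ Ω, and let α be an automorphism of G. Then α is induced by conjugation by a permutation of Ω normalizing G if and only if the image under α of the stabilizer of o fixes some point of Ω. -/
theorem result {Ω : Type*} [Fintype Ω] (G : Subgroup (Equiv.Perm Ω)) (htr : MulAction.IsPretransitive G Ω) (o : Ω) (α : G ≃* G) : (∃ σ : Equiv.Perm Ω, σ ∈ Subgroup.normalizer (G : Set (Equiv.Perm Ω)) ∧ ∀ g : G, ((α g : G) : Equiv.Perm Ω) = σ * (g : Equiv.Perm Ω) * σ⁻¹) ↔ ∃ ω : Ω, ∀ g ∈ (MulAction.stabilizer G o).map α.toMonoidHom, g • ω = ω := by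
  constructor
  · rintro ⟨σ, hσN, hσ⟩
    refine ⟨σ o, ?_⟩
    intro g hg
    obtain ⟨h, hh, rfl⟩ := Subgroup.mem_map.mp hg
    rw [MulAction.mem_stabilizer_iff] at hh
    show ((α h : G) : Equiv.Perm Ω) (σ o) = σ o
    rw [hσ h]
    simp only [Equiv.Perm.coe_mul, Function.comp_apply, Equiv.Perm.coe_inv, Equiv.symm_apply_apply]
    have h1 : (h : Equiv.Perm Ω) o = o := hh
    rw [h1]
  · rintro ⟨ω, hω⟩
    haveI := htr
    have hfix : ∀ h : G, h • o = o → α h • ω = ω := fun h hh =>
      hω (α h) (Subgroup.mem_map_of_mem _ (MulAction.mem_stabilizer_iff.mpr hh))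
    choose r hr using fun y : Ω => MulAction.exists_smul_eq G o y
    let σf : Ω → Ω := fun y => α (r y) • ω
    have hσ : ∀ g : G, σf (g • o) = α g • ω := by
      intro g
      show α (r (g • o)) • ω = α g • ω
      have h1 : (g⁻¹ * r (g • o)) • o = o := by rw [mul_smul, hr, inv_smul_smul]
      have h2 := hfix _ h1
      rw [map_mul, map_inv, mul_smul, inv_smul_eq_iff] at h2
      exact h2
    have hσ2 : ∀ (g : G) (y : Ω), σf (g • y) = α g • σf y := by
      intro g y
      obtain ⟨h, rfl⟩ := MulAction.exists_smul_eq G o y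
      rw [← mul_smul, hσ, hσ, map_mul, mul_smul]
    have hsurj : Function.Surjective σf := by
      intro y'
      obtain ⟨g', rfl⟩ := MulAction.exists_smul_eq G ω y'
      obtain ⟨g, rfl⟩ := α.surjective g'
      exact ⟨g • o, hσ g⟩
    let σ : Equiv.Perm Ω := Equiv.ofBijective σf ⟨Finite.injective_iff_surjective.mpr hsurj, hsurj⟩
    have hconj : ∀ g : G, ((α g : G) : Equiv.Perm Ω) = σ * (g : Equiv.Perm Ω) * σ⁻¹ := by
      intro g
      ext y
      obtain ⟨y₀, rfl⟩ := σ.surjective y
      simp only [Equiv.Perm.coe_mul, Function.comp_apply, Equiv.Perm.coe_inv, Equiv.symm_apply_apply]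
      exact (hσ2 g y₀).symm
    refine ⟨σ, ?_, hconj⟩
    rw [Subgroup.mem_normalizer_iff]
    intro h
    constructor
    · intro hh
      have h1 := hconj ⟨h, hh⟩
      have h2 : σ * h * σ⁻¹ = ((α ⟨h, hh⟩ : G) : Equiv.Perm Ω) := h1.symm
      rw [h2]; exact (α ⟨h, hh⟩).2
    · intro hh
      obtain ⟨g, hg⟩ := α.surjective ⟨_, hh⟩
      have h1 := hconj g
      rw [hg] at h1
      have h1' : σ * h * σ⁻¹ = σ * (g : Equiv.Perm Ω) * σ⁻¹ := h1
      have h2 : h = (g : Equiv.Perm Ω) := mul_left_cancel (mul_right_cancel h1')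
      rw [h2]; exact g.2

end Cfsg.Agent.S4275
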