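import Cfsg.Statements.S4283
import Mathlib
-- import your own Cfsg.Agent.* helpers here

set_option autoImplicit false
open Cfsg

namespace Cfsg.Agent.S4283

open scoped Pointwise

theorem frob_aux {Q : Type*} [Group Q] [Finite Q] (Hb Kb : Subgroup Q) (h1 : Hb ≠ ⊥)
    (h2 : Hb ≠ ⊤) (hF : ∀ g : Q, g ∉ Hb → Hb ⊓ (MulAut.conj g • Hb) = ⊥)
    (hker : ∀ y : Q, y ∈ Kb ↔ (y = 1 ∨ ∀ g : Q, y ∉ MulAut.conj g • Hb)) :
    Nat.card Kb = Hb.index ∧ (Nat.card Hb).Coprime (Nat.card Kb) ∧ Kb ≠ ⊥ ∧
    (∀ u v : Q, u ∈ Hb → u ≠ 1 → v * u * v⁻¹ ∈ Hb → v ∈ Hb) ∧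
    (∀ g y : Q, y ∈ MulAut.conj g • Hb ↔ g⁻¹ * y * g ∈ Hb) := by
  classical
  have hconj : ∀ g y : Q, y ∈ MulAut.conj g • Hb ↔ g⁻¹ * y * g ∈ Hb := by
    intro g y
    rw [Subgroup.mem_pointwise_smul_iff_inv_smul_mem]
    simp [MulAut.smul_def]
  have hFrob' : ∀ u v : Q, u ∈ Hb → u ≠ 1 → v * u * v⁻¹ ∈ Hb → v ∈ Hb := by
    intro u v hu hne hvu
    by_contra hv
    have hv' : v⁻¹ ∉ Hb := fun h => hv (by simpa using Hb.inv_mem h)
    have h3 := hF v⁻¹ hv'
    have hu' : u ∈ Hb ⊓ MulAut.conj v⁻¹ • Hb := ⟨hu, (hconj _ _).mpr (by simpa using hvu)⟩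
    rw [h3] at hu'
    exact hne (Subgroup.mem_bot.mp hu')
  have hKn : Kb.Normal := by
    refine ⟨fun k hk g => ?_⟩
    rw [hker] at hk ⊢
    rcases hk with rfl | hk
    · left; group
    · right
      intro g' hmem
      apply hk (g⁻¹ * g')
      rw [hconj] at hmem ⊢
      convert hmem using 1; group
  have hHK : ∀ y ∈ Hb, y ∈ Kb → y = 1 := by
    intro y hyH hyK
    rcases (hker y).mp hyK with h | h
    · exact h
    · exact absurd ((hconj 1 y).mpr (by simpa using hyH)) (h 1)
  have hub : Nat.card Kb ≤ Hb.index := by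
    refine Nat.card_le_card_of_injective (fun k : Kb => ((k : Q) : Q ⧸ Hb)) ?_
    intro k k' hkk
    have h3 : (k : Q)⁻¹ * (k' : Q) ∈ Hb := QuotientGroup.eq.mp hkk
    have h4 : (k : Q)⁻¹ * (k' : Q) = 1 := hHK _ h3 (Kb.mul_mem (Kb.inv_mem k.2) k'.2)
    exact Subtype.ext (inv_mul_eq_one.mp h4)
  have hlb : Hb.index ≤ Nat.card Kb := by
    let Ψ : Kb ⊕ ((Q ⧸ Hb) × Hb) → Q ⊕ (Q ⧸ Hb) := fun s =>
      Sum.elim (fun k : Kb => Sum.inl (k : Q))
        (fun qh : (Q ⧸ Hb) × Hb => if (qh.2 : Q) = 1 then Sum.inr qh.1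
          else Sum.inl (qh.1.out * (qh.2 : Q) * qh.1.out⁻¹)) s
    have hsurj : Function.Surjective Ψ := by
      rintro (x | q)
      · by_cases hx : x ∈ Kb
        · exact ⟨Sum.inl ⟨x, hx⟩, rfl⟩
        · rw [hker] at hx
          push Not at hx
          obtain ⟨hx1, g, hg⟩ := hx
          rw [hconj] at hg
          obtain ⟨h₀, hh₀⟩ := QuotientGroup.mk_out_eq_mul Hb g
          have hmem : ((g : Q ⧸ Hb).out)⁻¹ * x * (g : Q ⧸ Hb).out ∈ Hb := by
            rw [hh₀]
            have e : (g * (h₀ : Q))⁻¹ * x * (g * (h₀ : Q)) = (h₀ : Q)⁻¹ * (g⁻¹ * x * g) * h₀ := by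
              group
            rw [e]
            exact Hb.mul_mem (Hb.mul_mem (Hb.inv_mem h₀.2) hg) h₀.2
          have hne : ((g : Q ⧸ Hb).out)⁻¹ * x * (g : Q ⧸ Hb).out ≠ 1 := by
            intro h
            apply hx1
            have e : x = (g : Q ⧸ Hb).out * (((g : Q ⧸ Hb).out)⁻¹ * x * (g : Q ⧸ Hb).out) *
                ((g : Q ⧸ Hb).out)⁻¹ := by group
            rw [e, h]; group
          refine ⟨Sum.inr ((g : Q ⧸ Hb), ⟨_, hmem⟩), ?_⟩
          show (if ((g : Q ⧸ Hb).out)⁻¹ * x * (g : Q ⧸ Hb).out = 1 then Sum.inr (g : Q ⧸ Hb)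
            else Sum.inl ((g : Q ⧸ Hb).out * (((g : Q ⧸ Hb).out)⁻¹ * x * (g : Q ⧸ Hb).out) *
              ((g : Q ⧸ Hb).out)⁻¹)) = Sum.inl x
          rw [if_neg hne]
          congr 1
          group
      · refine ⟨Sum.inr (q, 1), ?_⟩
        show (if ((1 : Hb) : Q) = 1 then Sum.inr q else _) = Sum.inr q
        exact if_pos rfl
    have h3 := Nat.card_le_card_of_surjective Ψ hsurj
    rw [Nat.card_sum, Nat.card_sum, Nat.card_prod] at h3
    have h4 : Nat.card (Q ⧸ Hb) * Nat.card Hb = Nat.card Q := Hb.index_mul_card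
    rw [h4] at h3
    have h5 : Hb.index = Nat.card (Q ⧸ Hb) := rfl
    omega
  have hcard : Nat.card Kb = Hb.index := le_antisymm hub hlb
  refine ⟨hcard, ?_, ?_, hFrob', hconj⟩
  · by_contra hnc
    obtain ⟨p, hp, hpH, hpK⟩ := Nat.Prime.not_coprime_iff_dvd.mp hnc
    haveI : Fact p.Prime := ⟨hp⟩
    obtain ⟨x, hx⟩ := exists_prime_orderOf_dvd_card' (G := Hb) p hpH
    haveI := hKn
    have hxp : (x : Q) ^ p = 1 := by
      have h6 := pow_orderOf_eq_one x
      rw [hx] at h6
      exact_mod_cast congrArg Subtype.val h6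
    have hx1 : (x : Q) ≠ 1 := by
      intro h
      have h7 : x = 1 := Subtype.ext h
      rw [h7, orderOf_one] at hx
      exact hp.one_lt.ne hx
    haveI : Fintype Kb := Fintype.ofFinite Kb
    have hpK' : p ∣ Fintype.card Kb := by rwa [← Nat.card_eq_fintype_card]
    have hσ : (MulAut.toPerm Kb (MulAut.conjNormal (x : Q))) ^ p ^ 1 = 1 := by
      rw [pow_one, ← map_pow, ← map_pow, hxp, map_one, map_one]
    have hσ1 : (MulAut.toPerm Kb (MulAut.conjNormal (x : Q))) 1 = 1 :=
      map_one (MulAut.conjNormal (x : Q) : MulAut Kb)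
    obtain ⟨b, hb, hb1⟩ := Equiv.Perm.exists_fixed_point_of_prime' hpK' hσ hσ1
    have hb' : (x : Q) * (b : Q) * (x : Q)⁻¹ = b := by
      rw [← MulAut.conjNormal_apply]; exact congrArg Subtype.val hb
    have hbne : (b : Q) ≠ 1 := fun h => hb1 (Subtype.ext h)
    have hbK : ∀ g : Q, (b : Q) ∉ MulAut.conj g • Hb := by
      rcases (hker (b : Q)).mp b.2 with h | h
      · exact absurd h hbne
      · exact h
    have hbH : (b : Q)⁻¹ ∈ Hb := by
      apply hFrob' (x : Q) _ x.2 hx1
      have e : (b : Q)⁻¹ * (x : Q) * ((b : Q)⁻¹)⁻¹ = (x : Q) := by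
        have e2 : (x : Q) * (b : Q) = (b : Q) * (x : Q) := by
          calc (x : Q) * (b : Q) = ((x : Q) * (b : Q) * (x : Q)⁻¹) * (x : Q) := by group
            _ = (b : Q) * (x : Q) := by rw [hb']
        rw [inv_inv, mul_assoc, e2]; group
      rw [e]; exact x.2
    apply hbK 1
    rw [hconj]
    simpa using Hb.inv_mem hbH
  · intro h
    rw [h, Subgroup.card_bot] at hcard
    exact h2 (Subgroup.index_eq_one.mp hcard.symm)


/-- Let G be a finite group with centre Z and let K, H be abelian subgroups of G containing Z such that G/Z is a Frobenius group with complement H/Z and kernel K/Z. Then the conjugacy class sizes of G are exactly 1, [G : K] and [G : H], and these two indices are coprime. (This is the converse half of the characterization of finite groups whose conjugacy class sizes are exactly 1, m and n with m and n coprime.) -/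
theorem result {G : Type*} [Group G] [Finite G] (K H : Subgroup G) (hZK : Subgroup.center G ≤ K) (hZH : Subgroup.center G ≤ H) (hK : IsMulCommutative K) (hH : IsMulCommutative H) (hFrob : Cfsg.IsFrobeniusComplement (H.map (QuotientGroup.mk' (Subgroup.center G)))) (hker : Cfsg.frobeniusKernel (H.map (QuotientGroup.mk' (Subgroup.center G))) = (K.map (QuotientGroup.mk' (Subgroup.center G)) : Set (G ⧸ Subgroup.center G))) : Set.range (fun x : G => (Subgroup.centralizer ({x} : Set G)).index) = ({1, K.index, H.index} : Set ℕ) ∧ K.index.Coprime H.index := by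
  classical
  have hkerf : (QuotientGroup.mk' (Subgroup.center G)).ker = Subgroup.center G :=
    QuotientGroup.ker_mk' _
  have hsurj : Function.Surjective (QuotientGroup.mk' (Subgroup.center G)) :=
    QuotientGroup.mk'_surjective _
  obtain ⟨f, hf⟩ : ∃ f : G →* G ⧸ Subgroup.center G, f = QuotientGroup.mk' (Subgroup.center G) :=
    ⟨_, rfl⟩
  rw [← hf] at hFrob hker hkerf hsurj
  have hker' : ∀ y : G ⧸ Subgroup.center G,
      y ∈ K.map f ↔ (y = 1 ∨ ∀ g : G ⧸ Subgroup.center G, y ∉ MulAut.conj g • H.map f) := by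
    intro y
    exact (Set.ext_iff.mp hker y).symm
  obtain ⟨hcard, hcop, hKne, hFrob', hconj⟩ :=
    frob_aux (H.map f) (K.map f) hFrob.1 hFrob.2.1 hFrob.2.2 hker'
  have F1 : ∀ x : G, f x ∈ K.map f ↔ x ∈ K := by
    intro x
    constructor
    · intro hx
      obtain ⟨k, hk, hkx⟩ := Subgroup.mem_map.mp hx
      have h1 : k⁻¹ * x ∈ Subgroup.center G := by
        rw [← hkerf, MonoidHom.mem_ker, map_mul, map_inv, hkx, inv_mul_cancel]
      have h2 : x = k * (k⁻¹ * x) := by group
      rw [h2]; exact K.mul_mem hk (hZK h1)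
    · exact fun hx => Subgroup.mem_map_of_mem f hx
  have F2 : ∀ x : G, f x ∈ H.map f ↔ x ∈ H := by
    intro x
    constructor
    · intro hx
      obtain ⟨k, hk, hkx⟩ := Subgroup.mem_map.mp hx
      have h1 : k⁻¹ * x ∈ Subgroup.center G := by
        rw [← hkerf, MonoidHom.mem_ker, map_mul, map_inv, hkx, inv_mul_cancel]
      have h2 : x = k * (k⁻¹ * x) := by group
      rw [h2]; exact H.mul_mem hk (hZH h1)
    · exact fun hx => Subgroup.mem_map_of_mem f hx
  have F3 : ∀ x : G, f x = 1 ↔ x ∈ Subgroup.center G := fun x => by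
    rw [← MonoidHom.mem_ker, hkerf]
  have hKc : ∀ a ∈ K, ∀ b ∈ K, a * b = b * a := fun a ha b hb => setLike_mul_comm (s := K) ha hb
  have hHc : ∀ a ∈ H, ∀ b ∈ H, a * b = b * a := fun a ha b hb => setLike_mul_comm (s := H) ha hb
  have hcent : ∀ x y : G, y ∈ Subgroup.centralizer ({x} : Set G) ↔ x * y = y * x := by
    intro x y; rw [Subgroup.mem_centralizer_iff]; simp
  have caseA : ∀ x ∈ Subgroup.center G, (Subgroup.centralizer ({x} : Set G)).index = 1 := by
    intro x hx
    rw [Subgroup.index_eq_one, Subgroup.centralizer_eq_top_iff_subset]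
    intro y hy; rw [Set.mem_singleton_iff] at hy; rw [hy]; exact hx
  have caseB : ∀ x ∈ K, x ∉ Subgroup.center G → Subgroup.centralizer ({x} : Set G) = K := by
    intro x hxK hxZ
    ext y
    rw [hcent]
    constructor
    · intro hxy
      rw [← F1, hker']
      by_contra hcon
      push Not at hcon
      obtain ⟨hy1, g, hg⟩ := hcon
      rw [hconj] at hg
      have hu1 : g⁻¹ * f y * g ≠ 1 := by
        intro h; apply hy1
        have e : f y = g * (g⁻¹ * f y * g) * g⁻¹ := by group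
        rw [e, h]; group
      have hv : (g⁻¹ * f x * g) * (g⁻¹ * f y * g) * (g⁻¹ * f x * g)⁻¹ ∈ H.map f := by
        have e : (g⁻¹ * f x * g) * (g⁻¹ * f y * g) * (g⁻¹ * f x * g)⁻¹ =
            g⁻¹ * (f x * f y * (f x)⁻¹) * g := by group
        have e2 : f x * f y * (f x)⁻¹ = f y := by
          rw [← map_mul, hxy, map_mul]; group
        rw [e, e2]; exact hg
      have hvH := hFrob' _ _ hg hu1 hv
      have hfx : f x ∈ MulAut.conj g • H.map f := (hconj g (f x)).mpr hvH
      have hfxK : f x ∈ K.map f := (F1 x).mpr hxK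
      rcases (hker' (f x)).mp hfxK with h | h
      · exact hxZ ((F3 x).mp h)
      · exact h g hfx
    · intro hy
      exact hKc x hxK y hy
  have caseC : ∀ x ∉ K, (Subgroup.centralizer ({x} : Set G)).index = H.index := by
    intro x hxK
    have hfx : f x ∉ K.map f := fun h => hxK ((F1 x).mp h)
    rw [hker'] at hfx
    push Not at hfx
    obtain ⟨hx1, g, hg⟩ := hfx
    rw [hconj] at hg
    obtain ⟨g₀, rfl⟩ := hsurj g
    have hu1 : (f g₀)⁻¹ * f x * f g₀ ≠ 1 := by
      intro h; apply hx1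
      have e : f x = f g₀ * ((f g₀)⁻¹ * f x * f g₀) * (f g₀)⁻¹ := by group
      rw [e, h]; group
    have hxH : g₀⁻¹ * x * g₀ ∈ H := by
      rw [← F2, map_mul, map_mul, map_inv]; exact hg
    have heq : Subgroup.centralizer ({x} : Set G) = H.map (MulAut.conj g₀).toMonoidHom := by
      ext y
      rw [hcent, Subgroup.mem_map_equiv, MulAut.conj_symm_apply]
      constructor
      · intro hxy
        rw [← F2, map_mul, map_mul, map_inv]
        apply hFrob' _ _ hg hu1
        have e : ((f g₀)⁻¹ * f y * f g₀) * ((f g₀)⁻¹ * f x * f g₀) *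
            ((f g₀)⁻¹ * f y * f g₀)⁻¹ = (f g₀)⁻¹ * (f y * f x * (f y)⁻¹) * f g₀ := by group
        have e2 : f y * f x * (f y)⁻¹ = f x := by
          rw [← map_mul, ← hxy, map_mul]; group
        rw [e, e2]; exact hg
      · intro hy
        have h3 := hHc _ hxH _ hy
        have e1 : x * y = g₀ * ((g₀⁻¹ * x * g₀) * (g₀⁻¹ * y * g₀)) * g₀⁻¹ := by group
        have e2 : y * x = g₀ * ((g₀⁻¹ * y * g₀) * (g₀⁻¹ * x * g₀)) * g₀⁻¹ := by group
        rw [e1, e2, h3]
    rw [heq]
    exact Subgroup.index_map_equiv H (MulAut.conj g₀)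
  have hHidx : H.index = Nat.card (K.map f) := by
    rw [hcard]
    exact (Subgroup.index_map_eq H hsurj (by rw [hkerf]; exact hZH)).symm
  have hKidx : K.index = Nat.card (H.map f) := by
    have e1 : (K.map f).index = K.index :=
      Subgroup.index_map_eq K hsurj (by rw [hkerf]; exact hZK)
    have e2 := (K.map f).card_mul_index
    have e3 := (H.map f).card_mul_index
    rw [← hcard, ← e2, e1] at e3
    have hpos : 0 < Nat.card (K.map f) := Nat.card_pos
    have e4 : Nat.card (K.map f) * Nat.card (H.map f) = Nat.card (K.map f) * K.index := by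
      rw [← e3]; ring
    exact (Nat.eq_of_mul_eq_mul_left hpos e4).symm
  constructor
  · ext m
    simp only [Set.mem_range, Set.mem_insert_iff, Set.mem_singleton_iff]
    constructor
    · rintro ⟨x, rfl⟩
      by_cases hxZ : x ∈ Subgroup.center G
      · left; exact caseA x hxZ
      · by_cases hxK : x ∈ K
        · right; left; rw [caseB x hxK hxZ]
        · right; right; exact caseC x hxK
    · rintro (rfl | rfl | rfl)
      · exact ⟨1, caseA 1 (Subgroup.one_mem _)⟩
      · obtain ⟨kb, hkb, hkb1⟩ : ∃ kb ∈ K.map f, kb ≠ 1 := by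
          by_contra hcon; push Not at hcon
          exact hKne ((Subgroup.eq_bot_iff_forall _).mpr hcon)
        obtain ⟨k, hk, rfl⟩ := Subgroup.mem_map.mp hkb
        exact ⟨k, by rw [caseB k hk (fun h => hkb1 ((F3 k).mpr h))]⟩
      · obtain ⟨hb, hhb, hhb1⟩ : ∃ hb ∈ H.map f, hb ≠ 1 := by
          by_contra hcon; push Not at hcon
          exact hFrob.1 ((Subgroup.eq_bot_iff_forall _).mpr hcon)
        obtain ⟨h, hh, rfl⟩ := Subgroup.mem_map.mp hhb
        refine ⟨h, caseC h ?_⟩
        intro hK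
        rcases (hker' (f h)).mp ((F1 h).mpr hK) with h' | h'
        · exact hhb1 h'
        · exact h' 1 ((hconj 1 (f h)).mpr (by simpa using hhb))
  · rw [hKidx, hHidx]; exact hcop

end Cfsg.Agent.S4283
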