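import Cfsg.Statements.S4293
import Mathlib
import Cfsg.Agent.Helper21.FrobCons
-- import your own Cfsg.Agent.* helpers here

set_option autoImplicit false
open Cfsg

namespace Cfsg.Agent.S4293

open Cfsg.Agent.Helper21

theorem geom_trick {R : Type*} [Ring R] [NoZeroDivisors R] (g : R) (N : ℕ) (hg : g ^ N = 1)
    (hg1 : g ≠ 1) : (∑ i ∈ Finset.range N, i • g ^ i) * (g - 1) = (N : R) := by
  have key : ∀ n : ℕ, (∑ i ∈ Finset.range n, i • g ^ i) * (g - 1) =
      n • g ^ n - (∑ i ∈ Finset.range n, g ^ i) * g := by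
    intro n
    induction n with
    | zero => simp
    | succ n ih =>
      rw [Finset.sum_range_succ, Finset.sum_range_succ, add_mul, ih]
      simp only [nsmul_eq_mul, Nat.cast_add, Nat.cast_one]
      noncomm_ring
  have hsum : (∑ i ∈ Finset.range N, g ^ i) = 0 := by
    have h1 := mul_geom_sum g N
    rw [hg, sub_self] at h1
    rcases mul_eq_zero.mp h1 with h | h
    · exact absurd (sub_eq_zero.mp h) hg1
    · exact h
  rw [key, hsum, zero_mul, sub_zero, hg, nsmul_eq_mul, mul_one]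


/-- A nontrivial finite subgroup of the multiplicative group of a division ring occurs as a Frobenius complement of some finite Frobenius group. -/
theorem result {D : Type*} [DivisionRing D] (H : Subgroup Dˣ) [Finite H] (hH : H ≠ ⊥) :
    ∃ (L : Type) (_ : Group L) (_ : Finite L) (C : Subgroup L), Cfsg.IsFrobeniusComplement C ∧ Nonempty (H ≃* C) := by
  classical
  obtain ⟨M, hM⟩ : ∃ M : Submonoid D, M = H.toSubmonoid.map (Units.coeHom D) := ⟨_, rfl⟩
  have hMmem : ∀ x : D, x ∈ M ↔ ∃ h : H, ((h : Dˣ) : D) = x := by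
    intro x
    rw [hM, Submonoid.mem_map]
    constructor
    · rintro ⟨u, hu, rfl⟩
      exact ⟨⟨u, hu⟩, rfl⟩
    · rintro ⟨h, rfl⟩
      exact ⟨h, h.2, rfl⟩
  have hMfin : (M : Set D).Finite := by
    have : (M : Set D) ⊆ Set.range (fun h : H => ((h : Dˣ) : D)) := by
      intro x hx
      obtain ⟨h, rfl⟩ := (hMmem x).mp hx
      exact ⟨h, rfl⟩
    exact (Set.finite_range _).subset this
  obtain ⟨A, hA⟩ : ∃ A : Subring D, A = Subring.closure (M : Set D) := ⟨_, rfl⟩
  have hAgen : A.toAddSubgroup = AddSubgroup.closure (M : Set D) := by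
    ext x
    rw [Subring.mem_toAddSubgroup, hA, Subring.mem_closure_iff, Submonoid.closure_eq]
  haveI hAfin : Module.Finite ℤ A := by
    rw [Module.Finite.iff_addGroup_fg]
    exact (AddGroup.fg_iff_addSubgroup_fg A.toAddSubgroup).mpr
      ((AddSubgroup.fg_iff _).mpr ⟨M, hAgen.symm, hMfin⟩)
  have hmemA : ∀ h : H, ((h : Dˣ) : D) ∈ A := fun h => by
    rw [hA]; exact Subring.subset_closure ((hMmem _).mpr ⟨h, rfl⟩)
  obtain ⟨f₀, hf₀⟩ : ∃ f₀ : H →* A, ∀ h : H, ((f₀ h : A) : D) = ((h : Dˣ) : D) :=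
    ⟨{ toFun := fun h => ⟨((h : Dˣ) : D), hmemA h⟩
       map_one' := Subtype.ext (by simp)
       map_mul' := fun a b => Subtype.ext (by simp) }, fun h => rfl⟩
  have hf₀1 : ∀ h : H, h ≠ 1 → f₀ h ≠ 1 := by
    intro h hh h1
    apply hh
    have h2 : ((h : Dˣ) : D) = 1 := by rw [← hf₀, h1]; rfl
    exact Subtype.ext (Units.ext h2)
  haveI : Nontrivial H := (Subgroup.nontrivial_iff_ne_bot H).mpr hH
  have gen : ∀ q : ℕ, q ≠ 0 → (1 : A) ∉ Ideal.span {((q : ℕ) : A)} →
      (∀ h : H, h ≠ 1 → ∀ s : A, f₀ h * s - s ∈ Ideal.span {((q : ℕ) : A)} →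
        s ∈ Ideal.span {((q : ℕ) : A)}) →
      ∃ (L : Type) (_ : Group L) (_ : Finite L) (C : Subgroup L),
        Cfsg.IsFrobeniusComplement C ∧ Nonempty (H ≃* C) := by
    intro q hq N1 N2
    obtain ⟨I, hI⟩ : ∃ I : Ideal A, I = Ideal.span {((q : ℕ) : A)} := ⟨_, rfl⟩
    rw [← hI] at N1 N2
    have hqI : ∀ s : A, q • s ∈ I := by
      intro s
      rw [hI, Ideal.mem_span_singleton']
      exact ⟨s, by rw [nsmul_eq_mul, Nat.cast_comm]⟩
    have htors : Module.IsTorsion ℤ (A ⧸ I) := by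
      intro v
      obtain ⟨s, rfl⟩ := Submodule.Quotient.mk_surjective I v
      refine ⟨⟨(q : ℤ), mem_nonZeroDivisors_of_ne_zero (by exact_mod_cast hq)⟩, ?_⟩
      show ((q : ℤ)) • (Submodule.Quotient.mk s : A ⧸ I) = 0
      rw [← Submodule.Quotient.mk_smul, Submodule.Quotient.mk_eq_zero, natCast_zsmul]
      exact hqI s
    haveI : Finite (A ⧸ I) := Module.finite_of_fg_torsion _ htors
    haveI : Nontrivial (A ⧸ I) :=
      ⟨⟨Submodule.Quotient.mk 1, 0, fun h => N1 ((Submodule.Quotient.mk_eq_zero I).mp h)⟩⟩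
    letI : DistribMulAction H (A ⧸ I) := DistribMulAction.compHom (A ⧸ I) f₀.toHomUnits
    obtain ⟨L, iG, iF, C, hC, hiso, -⟩ := frob_of_fpf_add (V := A ⧸ I) (H := H) (by
      intro h hh v hv
      obtain ⟨s, rfl⟩ := Submodule.Quotient.mk_surjective I v
      have hv' : (Submodule.Quotient.mk (f₀ h * s) : A ⧸ I) = Submodule.Quotient.mk s := hv
      rw [Submodule.Quotient.eq] at hv'
      exact (Submodule.Quotient.mk_eq_zero I).mpr (N2 h hh s hv'))
    exact ⟨L, iG, iF, C, hC, hiso⟩
  obtain ⟨p, hp⟩ := CharP.exists D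
  rcases CharP.char_is_prime_or_zero D p with hpp | hp0
  · -- positive characteristic
    have hpA : ((p : ℕ) : A) = 0 := by
      apply Subtype.ext
      simp
    have hbot : Ideal.span {((p : ℕ) : A)} = ⊥ := Ideal.span_singleton_eq_bot.mpr hpA
    apply gen p hpp.ne_zero
    · rw [hbot, Ideal.mem_bot]
      exact one_ne_zero
    · intro h hh s hs
      rw [hbot, Ideal.mem_bot] at hs ⊢
      have h1 : (f₀ h - 1) * s = 0 := by rw [sub_mul, one_mul]; exact hs
      rcases mul_eq_zero.mp h1 with h2 | h2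
      · exact absurd (sub_eq_zero.mp h2) (hf₀1 h hh)
      · exact h2
  · -- characteristic zero
    subst hp0
    haveI : CharZero D := CharP.charP_to_charZero D
    obtain ⟨q, hqgt, hqp⟩ := Nat.exists_infinite_primes (Nat.card H + 1)
    apply gen q hqp.ne_zero
    · intro h1
      rw [Ideal.mem_span_singleton'] at h1
      obtain ⟨a₀, ha₀⟩ := h1
      have hle : (⊤ : Submodule ℤ A) ≤ (Ideal.span {(q : ℤ)}) • (⊤ : Submodule ℤ A) := by
        intro a _
        have : a = (q : ℤ) • (a * a₀) := by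
          rw [zsmul_eq_mul, Int.cast_natCast, Nat.cast_comm, mul_assoc, ha₀, mul_one]
        rw [this]
        exact Submodule.smul_mem_smul (Ideal.mem_span_singleton_self _) Submodule.mem_top
      obtain ⟨r, hr1, hr2⟩ :=
        Submodule.exists_sub_one_mem_and_smul_eq_zero_of_fg_of_le_smul _ _
          (Module.Finite.fg_top (R := ℤ) (M := A)) hle
      have hr0 : r = 0 := by
        have h3 := hr2 1 Submodule.mem_top
        have h2 : ((r : ℤ) : D) = 0 := by
          have := congrArg (Subtype.val : A → D) h3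
          simpa using this
        exact_mod_cast h2
      rw [hr0, zero_sub, Ideal.mem_span_singleton] at hr1
      have h4 : (q : ℤ) ∣ 1 := (dvd_neg).mp hr1
      have h5 : q ∣ 1 := by exact_mod_cast h4
      exact hqp.one_lt.ne' (Nat.dvd_one.mp h5)
    · intro h hh s hs
      obtain ⟨N, hN⟩ : ∃ N : ℕ, N = orderOf h := ⟨_, rfl⟩
      have hNpos : 0 < N := by rw [hN]; exact orderOf_pos h
      have hNle : N ≤ Nat.card H := by
        rw [hN]; exact Nat.le_of_dvd Nat.card_pos (orderOf_dvd_natCard h)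
      have hcop : Nat.Coprime N q := by
        rw [Nat.coprime_comm, Nat.Prime.coprime_iff_not_dvd hqp]
        intro hd
        have := Nat.le_of_dvd hNpos hd
        omega
      have hgN : (f₀ h) ^ N = 1 := by
        rw [← map_pow, hN, pow_orderOf_eq_one, map_one]
      have hid := geom_trick (f₀ h) N hgN (hf₀1 h hh)
      have h3 : (N : ℤ) • s ∈ Ideal.span {((q : ℕ) : A)} := by
        rw [natCast_zsmul, nsmul_eq_mul, ← hid, mul_assoc]
        apply Ideal.mul_mem_left
        rw [sub_mul, one_mul]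
        exact hs
      have h4 : (q : ℤ) • s ∈ Ideal.span {((q : ℕ) : A)} := by
        rw [natCast_zsmul, nsmul_eq_mul, Ideal.mem_span_singleton']
        exact ⟨s, (Nat.cast_comm q s).symm⟩
      have hb := Int.gcd_eq_gcd_ab N q
      have hg1 : Int.gcd (N : ℤ) (q : ℤ) = 1 := by
        rw [Int.gcd_natCast_natCast]; exact hcop
      rw [hg1] at hb
      have hs' : s = (Int.gcdA (N : ℤ) (q : ℤ)) • ((N : ℤ) • s) +
          (Int.gcdB (N : ℤ) (q : ℤ)) • ((q : ℤ) • s) := by
        rw [smul_smul, smul_smul, ← add_smul, mul_comm (Int.gcdA (N : ℤ) (q : ℤ)),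
          mul_comm (Int.gcdB (N : ℤ) (q : ℤ)), ← hb]
        simp
      rw [hs']
      exact add_mem (zsmul_mem h3 _) (zsmul_mem h4 _)

end Cfsg.Agent.S4293
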