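import Cfsg.Statements.S4297
import Mathlib
import Cfsg.Agent.Helper21.FrobCons
import Cfsg.Agent.S0261
-- import your own Cfsg.Agent.* helpers here

set_option autoImplicit false
open Cfsg

namespace Cfsg.Agent.S4297

open Cfsg.Agent.Helper21

/-- diagonal matrices `diag(ζ, ζ⁻¹)` -/
def dmat {F : Type*} [Field F] : Fˣ →* (Matrix (Fin 2) (Fin 2) F)ˣ where
  toFun ζ := ⟨Matrix.diagonal ![(ζ : F), ((ζ⁻¹ : Fˣ) : F)],
    Matrix.diagonal ![((ζ⁻¹ : Fˣ) : F), (ζ : F)], by
      rw [Matrix.diagonal_mul_diagonal, ← Matrix.diagonal_one]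
      congr 1
      funext i
      fin_cases i <;> simp, by
      rw [Matrix.diagonal_mul_diagonal, ← Matrix.diagonal_one]
      congr 1
      funext i
      fin_cases i <;> simp⟩
  map_one' := by
    apply Units.ext
    show Matrix.diagonal ![((1 : Fˣ) : F), (((1 : Fˣ)⁻¹ : Fˣ) : F)] = 1
    rw [← Matrix.diagonal_one]
    congr 1
    funext i
    fin_cases i <;> simp
  map_mul' a b := by
    apply Units.ext
    show Matrix.diagonal ![((a * b : Fˣ) : F), (((a * b)⁻¹ : Fˣ) : F)] =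
      Matrix.diagonal ![(a : F), ((a⁻¹ : Fˣ) : F)] * Matrix.diagonal ![(b : F), ((b⁻¹ : Fˣ) : F)]
    rw [Matrix.diagonal_mul_diagonal]
    congr 1
    funext i
    fin_cases i
    · simp
    · simp [mul_comm]

theorem dmat_val {F : Type*} [Field F] (ζ : Fˣ) :
    ((dmat ζ : (Matrix (Fin 2) (Fin 2) F)ˣ) : Matrix (Fin 2) (Fin 2) F) =
      Matrix.diagonal ![(ζ : F), ((ζ⁻¹ : Fˣ) : F)] := rfl

/-- the matrix `[[0, 1], [-1, 0]]` -/
def ymat {F : Type*} [Field F] : (Matrix (Fin 2) (Fin 2) F)ˣ :=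
  ⟨!![0, 1; -1, 0], !![0, -1; 1, 0], by
    ext i j
    fin_cases i <;> fin_cases j <;> simp [Matrix.mul_apply, Fin.sum_univ_two], by
    ext i j
    fin_cases i <;> fin_cases j <;> simp [Matrix.mul_apply, Fin.sum_univ_two]⟩

theorem ymat_val {F : Type*} [Field F] :
    ((ymat : (Matrix (Fin 2) (Fin 2) F)ˣ) : Matrix (Fin 2) (Fin 2) F) = !![0, 1; -1, 0] := rfl

theorem main {F : Type*} [Field F] (h2 : (2 : F) ≠ 0) (n : ℕ) [NeZero n] (ζ : Fˣ)
    (hζ : orderOf ζ = 2 * n) :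
    ∃ f : QuaternionGroup n →* (Matrix (Fin 2) (Fin 2) F)ˣ, ∀ h : QuaternionGroup n, h ≠ 1 →
      ∀ v : Fin 2 → F, Matrix.mulVec (f h : Matrix (Fin 2) (Fin 2) F) v = v → v = 0 := by
  have hn0 : n ≠ 0 := NeZero.ne n
  have hζ1 : ζ ^ (2 * n) = 1 := by rw [← hζ]; exact pow_orderOf_eq_one ζ
  have hζn : ((ζ ^ n : Fˣ) : F) = -1 := by
    have h1 : ((ζ ^ n : Fˣ) : F) ^ 2 = 1 := by
      rw [← Units.val_pow_eq_pow_val, ← pow_mul, mul_comm, hζ1, Units.val_one]
    have h3 : ((ζ ^ n : Fˣ) : F) ≠ 1 := by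
      intro h
      have h4 : ζ ^ n = 1 := Units.ext (by rw [h, Units.val_one])
      have h5 := orderOf_dvd_of_pow_eq_one h4
      rw [hζ] at h5
      have := Nat.le_of_dvd (by omega) h5
      omega
    rcases mul_self_eq_one_iff.mp ((pow_two _).symm.trans h1) with h | h
    · exact absurd h h3
    · exact h
  have hX : (dmat ζ) ^ (2 * n) = 1 := by rw [← map_pow, hζ1, map_one]
  have hY : (ymat : (Matrix (Fin 2) (Fin 2) F)ˣ) * ymat = (dmat ζ) ^ n := by
    rw [← map_pow]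
    apply Units.ext
    rw [Units.val_mul, ymat_val, dmat_val]
    have hinv : (((ζ ^ n)⁻¹ : Fˣ) : F) = -1 := by
      rw [Units.val_inv_eq_inv_val, hζn]
      simp
    rw [hζn, hinv]
    ext i j
    fin_cases i <;> fin_cases j <;> simp [Matrix.mul_apply, Fin.sum_univ_two]
  have hXY : (ymat : (Matrix (Fin 2) (Fin 2) F)ˣ) * dmat ζ * ymat⁻¹ = (dmat ζ)⁻¹ := by
    rw [mul_inv_eq_iff_eq_mul, ← map_inv]
    apply Units.ext
    rw [Units.val_mul, Units.val_mul, ymat_val, dmat_val, dmat_val]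
    ext i j
    fin_cases i <;> fin_cases j <;> simp [Matrix.mul_apply, Matrix.diagonal]
  refine ⟨Cfsg.Agent.S0261.quatHom n (dmat ζ) ymat hX hY hXY, ?_⟩
  have hpow : ∀ i : ZMod (2 * n), i ≠ 0 → ((ζ ^ i.val : Fˣ) : F) ≠ 1 ∧
      (((ζ ^ i.val)⁻¹ : Fˣ) : F) ≠ 1 := by
    intro i hi
    have h1 : ζ ^ i.val ≠ 1 := by
      intro h
      have h5 := orderOf_dvd_of_pow_eq_one h
      rw [hζ] at h5
      haveI : NeZero (2 * n) := ⟨by omega⟩
      have hlt : i.val < 2 * n := ZMod.val_lt i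
      have h0 : i.val = 0 := Nat.eq_zero_of_dvd_of_lt h5 hlt
      exact hi ((ZMod.val_eq_zero i).mp h0)
    constructor
    · intro h
      exact h1 (Units.ext (by rw [h, Units.val_one]))
    · intro h
      apply h1
      have : (ζ ^ i.val)⁻¹ = 1 := Units.ext (by rw [h, Units.val_one])
      exact inv_eq_one.mp this
  rintro (i | i) hne v hv
  · rw [Cfsg.Agent.S0261.quatHom_a, ← map_pow, dmat_val] at hv
    have hi : i ≠ 0 := by
      intro h
      apply hne
      rw [h]; rfl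
    obtain ⟨ha, hb⟩ := hpow i hi
    have e0 : ((ζ ^ i.val : Fˣ) : F) * v 0 = v 0 := by
      simpa [Matrix.mulVec, dotProduct, Fin.sum_univ_two, Matrix.diagonal] using congrFun hv 0
    have e1 : (((ζ ^ i.val)⁻¹ : Fˣ) : F) * v 1 = v 1 := by
      simpa [Matrix.mulVec, dotProduct, Fin.sum_univ_two, Matrix.diagonal] using congrFun hv 1
    have aux : ∀ a x : F, a ≠ 1 → a * x = x → x = 0 := by
      intro a x ha hax
      have h3 : (a - 1) * x = 0 := by rw [sub_mul, hax, one_mul, sub_self]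
      rcases mul_eq_zero.mp h3 with h | h
      · exact absurd (sub_eq_zero.mp h) ha
      · exact h
    funext j
    fin_cases j
    · exact aux _ _ ha e0
    · exact aux _ _ hb e1
  · rw [Cfsg.Agent.S0261.quatHom_xa, ← map_pow, Units.val_mul, ymat_val, dmat_val] at hv
    have e0 : (((ζ ^ i.val)⁻¹ : Fˣ) : F) * v 1 = v 0 := by
      simpa [Matrix.mulVec, dotProduct, Fin.sum_univ_two, Matrix.mul_apply, Matrix.diagonal]
        using congrFun hv 0
    have e1 : -(((ζ ^ i.val : Fˣ) : F) * v 0) = v 1 := by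
      simpa [Matrix.mulVec, dotProduct, Fin.sum_univ_two, Matrix.mul_apply, Matrix.diagonal]
        using congrFun hv 1
    have hu : (((ζ ^ i.val : Fˣ) : F)) * (((ζ ^ i.val)⁻¹ : Fˣ) : F) = 1 := by
      rw [← Units.val_mul, mul_inv_cancel, Units.val_one]
    have hw : v 1 = 0 := by
      have h3 : v 1 = -(v 1) := by
        calc v 1 = -(((ζ ^ i.val : Fˣ) : F) * v 0) := e1.symm
          _ = -(((ζ ^ i.val : Fˣ) : F) * ((((ζ ^ i.val)⁻¹ : Fˣ) : F) * v 1)) := by rw [e0]
          _ = -(v 1) := by rw [← mul_assoc, hu, one_mul]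
      have h4 : (2 : F) * v 1 = 0 := by linear_combination h3
      rcases mul_eq_zero.mp h4 with h | h
      · exact absurd h h2
      · exact h
    have hu0 : v 0 = 0 := by
      rw [← e0, hw, mul_zero]
    funext j
    fin_cases j
    · exact hu0
    · exact hw


/-- For every n ≥ 2 the dicyclic group of order 4n (generated by an element a of order 2n and an element x with x² = aⁿ and x a x⁻¹ = a⁻¹) occurs as a Frobenius complement of some finite Frobenius group. -/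
theorem result (n : ℕ) (hn : 2 ≤ n) :
    ∃ (L : Type) (_ : Group L) (_ : Finite L) (H : Subgroup L), Cfsg.IsFrobeniusComplement H ∧ Nonempty (H ≃* QuaternionGroup n) := by
  haveI : NeZero n := ⟨by omega⟩
  obtain ⟨p, hp, -, hpn⟩ := Nat.exists_prime_gt_modEq_one (k := 2 * n) 0 (by omega)
  haveI : Fact p.Prime := ⟨hp⟩
  have hdvd : 2 * n ∣ p - 1 := (Nat.modEq_iff_dvd' hp.one_le).mp hpn.symm
  obtain ⟨k, hk⟩ := hdvd
  obtain ⟨g0, hg0⟩ := IsCyclic.exists_generator (α := (ZMod p)ˣ)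
  have hog : orderOf g0 = p - 1 := by
    rw [orderOf_eq_card_of_forall_mem_zpowers hg0, Nat.card_units, Nat.card_zmod]
  have hp1 : 0 < p - 1 := by have := hp.two_le; omega
  have hk0 : k ≠ 0 := by
    rintro rfl
    rw [mul_zero] at hk
    omega
  have hkd : k ∣ orderOf g0 := by rw [hog, hk]; exact dvd_mul_left k _
  have hu : orderOf (g0 ^ k) = 2 * n := by
    rw [orderOf_pow_of_dvd hk0 hkd, hog, hk]
    exact Nat.mul_div_cancel _ (Nat.pos_of_ne_zero hk0)
  have hp5 : 5 ≤ p := by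
    have : 4 ≤ 2 * n * k := by
      have : 1 ≤ k := Nat.pos_of_ne_zero hk0
      nlinarith
    omega
  have h2 : (2 : ZMod p) ≠ 0 := by
    intro h
    have h3 : ((2 : ℕ) : ZMod p) = 0 := by exact_mod_cast h
    rw [ZMod.natCast_eq_zero_iff] at h3
    have := Nat.le_of_dvd (by omega) h3
    omega
  obtain ⟨f, hf⟩ := main h2 n (g0 ^ k) hu
  haveI : Nontrivial (QuaternionGroup n) := by
    refine ⟨⟨QuaternionGroup.a 1, 1, ?_⟩⟩
    intro h
    have h1 := congrArg orderOf h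
    rw [QuaternionGroup.orderOf_a_one, orderOf_one] at h1
    omega
  obtain ⟨L, iG, iF, C, hC, ⟨e⟩, -⟩ := frob_of_matrix f hf
  exact ⟨L, iG, iF, C, hC, ⟨e.symm⟩⟩

end Cfsg.Agent.S4297
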