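import Cfsg.Statements.S4298
import Mathlib
import Cfsg.Agent.Helper21.FrobCons
import Cfsg.Agent.Helper16.SL23
-- import your own Cfsg.Agent.* helpers here

set_option autoImplicit false
open Cfsg

namespace Cfsg.Agent.S4298

open Cfsg.Agent.Helper21 Cfsg.Agent.Helper16.SL23

abbrev T := Matrix.SpecialLinearGroup (Fin 2) (ZMod 5)

def A1 : T := ⟨!![0, 1; 4, 0], by decide⟩
def B1 : T := ⟨!![0, 2; 2, 0], by decide⟩
def C1 : T := ⟨!![1, 1; 2, 3], by decide⟩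

theorem rels1 : Cfsg.Agent.Helper16.SL23.Rel A1 B1 C1 := by
  unfold Cfsg.Agent.Helper16.SL23.Rel; decide

set_option maxRecDepth 100000 in
theorem fpf1 : ∀ i : Fin 4, ∀ j : Fin 2, ∀ k : Fin 3, ∀ v : Fin 2 → ZMod 5,
    Matrix.mulVec ((A1 ^ (i : ℕ) * B1 ^ (j : ℕ) * C1 ^ (k : ℕ) : T) :
      Matrix (Fin 2) (Fin 2) (ZMod 5)) v = v →
    v = 0 ∨ ((i : ℕ) = 0 ∧ (j : ℕ) = 0 ∧ (k : ℕ) = 0) := by
  decide +kernel


/-- The group SL(2,3) of order 24 (the binary tetrahedral group) occurs as a Frobenius complement of some finite Frobenius group. -/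
theorem result :
    ∃ (L : Type) (_ : Group L) (_ : Finite L) (H : Subgroup L), Cfsg.IsFrobeniusComplement H ∧ Nonempty (H ≃* Matrix.SpecialLinearGroup (Fin 2) (ZMod 3)) := by
  obtain ⟨f, fa, fb, fc⟩ := hom rels0 faithful0 gen0 rels1
  haveI : Nontrivial S := ⟨⟨X0, 1, by decide⟩⟩
  haveI : Fact (Nat.Prime 5) := ⟨by norm_num⟩
  have hfpf : ∀ h : S, h ≠ 1 → ∀ v : Fin 2 → ZMod 5,
      Matrix.mulVec ((Matrix.SpecialLinearGroup.toGL.comp f h : (Matrix (Fin 2) (Fin 2) (ZMod 5))ˣ) :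
        Matrix (Fin 2) (Fin 2) (ZMod 5)) v = v → v = 0 := by
    intro h hh v hv
    obtain ⟨i, j, k, rfl⟩ := gen0' h
    have e1 : ((Matrix.SpecialLinearGroup.toGL.comp f
        (X0 ^ (i : ℕ) * Y0 ^ (j : ℕ) * W0 ^ (k : ℕ)) : (Matrix (Fin 2) (Fin 2) (ZMod 5))ˣ) :
        Matrix (Fin 2) (Fin 2) (ZMod 5)) =
        ((A1 ^ (i : ℕ) * B1 ^ (j : ℕ) * C1 ^ (k : ℕ) : T) : Matrix (Fin 2) (Fin 2) (ZMod 5)) := by
      have e0 : f (X0 ^ (i : ℕ) * Y0 ^ (j : ℕ) * W0 ^ (k : ℕ)) =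
          A1 ^ (i : ℕ) * B1 ^ (j : ℕ) * C1 ^ (k : ℕ) := by
        rw [map_mul, map_mul, map_pow, map_pow, map_pow, fa, fb, fc]
      rw [MonoidHom.comp_apply, e0]
      rfl
    rw [e1] at hv
    rcases fpf1 i j k v hv with h0 | ⟨hi, hj, hk⟩
    · exact h0
    · exfalso
      apply hh
      rw [hi, hj, hk]
      simp
  obtain ⟨L, iG, iF, C, hC, ⟨e⟩, -⟩ := frob_of_matrix (Matrix.SpecialLinearGroup.toGL.comp f) hfpf
  exact ⟨L, iG, iF, C, hC, ⟨e.symm⟩⟩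

end Cfsg.Agent.S4298
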