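import Cfsg.Statements.S4299
import Cfsg.Agent.Helper12.Aff
import Mathlib

set_option autoImplicit false
open Cfsg

open Cfsg.Agent.Helper12
namespace Cfsg.Agent.S4299

/-- Every nontrivial finite cyclic group occurs as a Frobenius complement of some finite Frobenius group. -/
theorem result {C : Type*} [Group C] [Finite C] [IsCyclic C] [Nontrivial C] :
    ∃ (L : Type) (_ : Group L) (_ : Finite L) (H : Subgroup L), Cfsg.IsFrobeniusComplement H ∧ Nonempty (C ≃* H) := by
  classical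
  have hn2 : 2 ≤ Nat.card C := Finite.one_lt_card (α := C)
  obtain ⟨p, hp, -, hpn⟩ := Nat.exists_prime_gt_modEq_one (k := Nat.card C) 0 (by omega)
  haveI : Fact p.Prime := ⟨hp⟩
  have hdvd : Nat.card C ∣ p - 1 := (Nat.modEq_iff_dvd' hp.one_le).mp hpn.symm
  obtain ⟨k, hk⟩ := hdvd
  obtain ⟨g0, hg0⟩ := IsCyclic.exists_generator (α := (ZMod p)ˣ)
  have hog : orderOf g0 = p - 1 := by
    rw [orderOf_eq_card_of_forall_mem_zpowers hg0, Nat.card_units, Nat.card_zmod]
  have hp1 : 0 < p - 1 := by have := hp.two_le; omega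
  have hk0 : k ≠ 0 := by
    rintro rfl
    rw [mul_zero] at hk
    omega
  have hkd : k ∣ orderOf g0 := by rw [hog, hk]; exact dvd_mul_left k _
  have hu : orderOf (g0 ^ k) = Nat.card C := by
    rw [orderOf_pow_of_dvd hk0 hkd, hog, hk]
    exact Nat.mul_div_cancel _ (Nat.pos_of_ne_zero hk0)
  have hud : (g0 ^ k) ^ Nat.card C = 1 := by
    have := pow_orderOf_eq_one (g0 ^ k)
    rwa [hu] at this
  have hu1 : g0 ^ k ≠ 1 := by
    intro h
    rw [h, orderOf_one] at hu
    omega
  obtain ⟨a, ha⟩ : ∃ a : Aff (ZMod p) (Nat.card C), a = ⟨0, g0 ^ k, hud⟩ := ⟨_, rfl⟩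
  have hat0 : a.t = 0 := by rw [ha]
  have hau : a.u = g0 ^ k := by rw [ha]
  have hat : ∀ x ∈ Subgroup.zpowers a, x.t = 0 := by
    let T : Subgroup (Aff (ZMod p) (Nat.card C)) :=
      { carrier := {x | x.t = 0}
        mul_mem' := by
          intro x y hx hy
          have hx' : x.t = 0 := hx
          have hy' : y.t = 0 := hy
          show (x * y).t = 0
          rw [Aff.mul_t, hx', hy', mul_zero, add_zero]
        one_mem' := rfl
        inv_mem' := by
          intro x hx
          have hx' : x.t = 0 := hx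
          show -(((x.u⁻¹ : (ZMod p)ˣ) : ZMod p)) * x.t = 0
          rw [hx', mul_zero] }
    have hle : Subgroup.zpowers a ≤ T := (Subgroup.zpowers_le).mpr hat0
    exact fun x hx => hle hx
  have hT : ∀ x : Aff (ZMod p) (Nat.card C), x.t = 0 → x ∈ Subgroup.zpowers a := by
    intro x hx
    obtain ⟨j, hj⟩ := (Submonoid.mem_powers_iff x.u g0).mp (mem_powers_iff_mem_zpowers.mpr (hg0 x.u))
    have h1 : g0 ^ (j * Nat.card C) = 1 := by rw [pow_mul, hj]; exact x.hu
    have h2 : Nat.card C * k ∣ Nat.card C * j := by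
      rw [← hk, ← hog, mul_comm]
      exact orderOf_dvd_of_pow_eq_one h1
    obtain ⟨m, rfl⟩ := Nat.dvd_of_mul_dvd_mul_left (by omega) h2
    have hxa : x = a ^ m := by
      apply Aff.ext
      · rw [Aff.pow_t, hx, hat0, mul_zero]
      · rw [Aff.pow_u, ← hj, pow_mul, hau]
    rw [hxa]
    exact Subgroup.npow_mem_zpowers a m
  refine ⟨Aff (ZMod p) (Nat.card C), inferInstance, inferInstance, Subgroup.zpowers a, ⟨?_, ?_, ?_⟩, ?_⟩
  · intro h
    have ha1 : a ∈ Subgroup.zpowers a := Subgroup.mem_zpowers a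
    rw [h, Subgroup.mem_bot] at ha1
    have := ((Aff.eq_one_iff a).mp ha1).2
    rw [hau] at this
    exact hu1 this
  · intro h
    have hb : (⟨1, 1, one_pow _⟩ : Aff (ZMod p) (Nat.card C)) ∈ Subgroup.zpowers a := by
      rw [h]; exact Subgroup.mem_top _
    have h0 : (1 : ZMod p) = 0 := hat _ hb
    exact one_ne_zero h0
  · intro g hg
    have hgt : g.t ≠ 0 := fun h => hg (hT g h)
    rw [eq_bot_iff]
    intro x hx
    obtain ⟨hx1, hx2⟩ := Subgroup.mem_inf.mp hx
    obtain ⟨y, hy, hyx⟩ := (Subgroup.mem_smul_pointwise_iff_exists x (MulAut.conj g) _).mp hx2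
    have hyx' : g * y * g⁻¹ = x := hyx
    have hxg : x * g = g * y := by rw [← hyx']; group
    have h1 := congrArg Aff.t hxg
    rw [Aff.mul_t, Aff.mul_t, hat x hx1, hat y hy, mul_zero, add_zero, zero_add] at h1
    have h2 : ((x.u : (ZMod p)ˣ) : ZMod p) = 1 := by
      have h3 : ((x.u : (ZMod p)ˣ) : ZMod p) * g.t = 1 * g.t := by rw [h1, one_mul]
      exact mul_right_cancel₀ hgt h3
    rw [Subgroup.mem_bot]
    exact (Aff.eq_one_iff x).mpr ⟨hat x hx1, Units.ext (by rw [h2, Units.val_one])⟩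
  · refine ⟨mulEquivOfCyclicCardEq ?_⟩
    have hau1 : a.u ≠ 1 := by rw [hau]; exact hu1
    rw [Nat.card_zpowers, Aff.orderOf_of_ne a hau1, hau]
    exact hu.symm

end Cfsg.Agent.S4299
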