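import Cfsg.Statements.S4300
import Mathlib
-- import your own Cfsg.Agent.* helpers here

set_option autoImplicit false
open Cfsg

namespace Cfsg.Agent.S4300

/-- Let G act faithfully and primitively on a set X, and suppose the stabilizer of some point is a simple group. Then either G is simple, or G has a normal subgroup, neither trivial nor the whole group, that acts regularly on X (transitively with trivial point stabilizers). -/
theorem result {G : Type*} [Group G] {X : Type*} [MulAction G X] [FaithfulSMul G X]
    (hprim : MulAction.IsPreprimitive G X) (x : X) (hsimple : IsSimpleGroup (MulAction.stabilizer G x)) :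
    IsSimpleGroup G ∨ ∃ N : Subgroup G, N.Normal ∧ N ≠ ⊥ ∧ N ≠ ⊤ ∧
      MulAction.IsPretransitive N X ∧ ∀ y : X, MulAction.stabilizer N y = ⊥ := by
  by_cases hs : IsSimpleGroup G
  · exact Or.inl hs
  right
  haveI := hprim
  haveI : MulAction.IsPretransitive G X := hprim.toIsPretransitive
  haveI : Nontrivial G := by
    haveI := hsimple.toNontrivial
    exact Function.Injective.nontrivial (f := fun g : MulAction.stabilizer G x => (g : G)) Subtype.val_injective
  have hex : ∃ N : Subgroup G, N.Normal ∧ N ≠ ⊥ ∧ N ≠ ⊤ := by
    by_contra hcon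
    push Not at hcon
    exact hs { exists_pair_ne := exists_pair_ne G
               eq_bot_or_eq_top_of_normal := fun N hN => by
                by_cases h : N = ⊥
                · exact Or.inl h
                · exact Or.inr (hcon N hN h) }
  obtain ⟨N, hN, hbot, htop⟩ := hex
  haveI := hN
  have htr : MulAction.IsPretransitive N X := by
    apply MulAction.IsQuasiPreprimitive.isPretransitive_of_normal (G := G)
    intro hfix
    apply hbot
    rw [eq_bot_iff]
    intro n hn
    rw [Subgroup.mem_bot]
    apply FaithfulSMul.eq_of_smul_eq_smul (α := X)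
    intro y
    have : y ∈ MulAction.fixedPoints N X := by rw [hfix]; trivial
    rw [one_smul]
    exact this ⟨n, hn⟩
  haveI := htr
  refine ⟨N, hN, hbot, htop, htr, ?_⟩
  have hdisj : ∀ n ∈ N, n • x = x → n = 1 := by
    have hnorm : (N.subgroupOf (MulAction.stabilizer G x)).Normal := inferInstance
    rcases hsimple.eq_bot_or_eq_top_of_normal _ hnorm with h | h
    · rw [Subgroup.subgroupOf_eq_bot] at h
      intro n hn hnx
      exact Subgroup.disjoint_def.mp h hn (MulAction.mem_stabilizer_iff.mpr hnx)
    · exfalso
      rw [Subgroup.subgroupOf_eq_top] at h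
      apply htop
      rw [eq_top_iff]
      intro g _
      obtain ⟨n, hn⟩ := MulAction.exists_smul_eq N (g • x) x
      have h1 : (n : G) * g ∈ MulAction.stabilizer G x := by
        rw [MulAction.mem_stabilizer_iff, mul_smul]; exact hn
      have h2 := h h1
      have h3 : g = (n : G)⁻¹ * ((n : G) * g) := by group
      rw [h3]
      exact N.mul_mem (N.inv_mem n.2) h2
  intro y
  rw [eq_bot_iff]
  intro n hn
  rw [Subgroup.mem_bot]
  obtain ⟨g, rfl⟩ := MulAction.exists_smul_eq G x y
  rw [MulAction.mem_stabilizer_iff] at hn
  have h1 : (g⁻¹ * (n : G) * g) • x = x := by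
    rw [mul_smul, mul_smul]
    have h0 : (n : G) • g • x = g • x := hn
    rw [h0, inv_smul_smul]
  have h2 := hdisj _ (hN.conj_mem' _ n.2 g) h1
  have h3 : (n : G) = 1 := by
    calc (n : G) = g * (g⁻¹ * (n : G) * g) * g⁻¹ := by group
      _ = 1 := by rw [h2]; group
  exact Subtype.ext h3

end Cfsg.Agent.S4300
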