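import Cfsg.Statements.S4301
import Mathlib


set_option autoImplicit false
open Cfsg

namespace Cfsg.Agent.S4301

theorem result {X : Type*} (G : Subgroup (Equiv.Perm (Option X))) (hfix : ∀ f ∈ G, f none = none)
    (k : ℕ) (hk : 2 ≤ k) (hkX : Nonempty (Fin k ↪ X))
    (htrans : ∀ a b : Fin k ↪ X, ∃ f ∈ G, ∀ i, f (some (a i)) = some (b i))
    (h g : Equiv.Perm (Option X)) (hg : g ∈ G) (x y : X)
    (h1 : h none = some x) (h2 : h (some x) = none) (h3 : h (some y) = some y)
    (h4 : g (some x) = some y) (h5 : g (some y) = some x)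
    (h6 : (g * h) ^ 3 ∈ G) (h7 : h ^ 2 ∈ G)
    (h8 : ∀ f ∈ G, f (some x) = some x → h * f * h ∈ G ∧ (h * f * h) (some x) = some x) :
    (∀ f ∈ Subgroup.closure ((G : Set (Equiv.Perm (Option X))) ∪ {h}), f none = none ↔ f ∈ G) ∧
      MulAction.IsMultiplyPretransitive (Subgroup.closure ((G : Set (Equiv.Perm (Option X))) ∪ {h})) (Option X) (k + 1) := by
  classical
  set H := Subgroup.closure ((G : Set (Equiv.Perm (Option X))) ∪ {h}) with hH
  have hxy : x ≠ y := by
    intro hxy
    rw [hxy, h3] at h2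
    exact Option.some_ne_none _ h2
  obtain ⟨e⟩ := hkX
  have emb2 : ∀ p q : X, p ≠ q →
      ∃ a : Fin k ↪ X, a ⟨0, by omega⟩ = p ∧ a ⟨1, by omega⟩ = q := by
    intro p q hpq
    let i0 : Fin k := ⟨0, by omega⟩
    let i1 : Fin k := ⟨1, by omega⟩
    have hi : i0 ≠ i1 := by
      intro h'
      have := congrArg Fin.val h'
      simp [i0, i1] at this
    let e1 : Fin k ↪ X := e.trans (Equiv.swap (e i0) p).toEmbedding
    have he1 : e1 i0 = p := by simp [e1]
    let e2 : Fin k ↪ X := e1.trans (Equiv.swap (e1 i1) q).toEmbedding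
    refine ⟨e2, ?_, ?_⟩
    · show Equiv.swap (e1 i1) q (e1 i0) = p
      rw [he1]
      apply Equiv.swap_apply_of_ne_of_ne
      · rw [← he1]; exact fun h' => hi (e1.injective h')
      · exact hpq
    · show Equiv.swap (e1 i1) q (e1 i1) = q
      exact Equiv.swap_apply_left _ _
  have trans2 : ∀ p q p' q' : X, p ≠ q → p' ≠ q' →
      ∃ u ∈ G, u (some p) = some p' ∧ u (some q) = some q' := by
    intro p q p' q' hpq hpq'
    obtain ⟨a, ha0, ha1⟩ := emb2 p q hpq
    obtain ⟨b, hb0, hb1⟩ := emb2 p' q' hpq'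
    obtain ⟨u, hu, hub⟩ := htrans a b
    refine ⟨u, hu, ?_, ?_⟩
    · rw [← ha0, ← hb0]; exact hub _
    · rw [← ha1, ← hb1]; exact hub _
  have hsome : ∀ f ∈ G, ∀ z : X, ∃ z', f (some z) = some z' := by
    intro f hf z
    cases hfz : f (some z) with
    | none =>
      exfalso
      have := f.injective (hfz.trans (hfix f hf).symm)
      exact Option.some_ne_none _ this
    | some z' => exact ⟨z', rfl⟩
  have step2 : ∀ f ∈ G, f (some x) = some x ∨ ∃ u ∈ G, ∃ v ∈ G,
      u (some x) = some x ∧ v (some x) = some x ∧ f = u * g * v := by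
    intro f hf
    obtain ⟨z, hz⟩ := hsome f hf x
    by_cases hzx : z = x
    · left; rw [hz, hzx]
    · right
      obtain ⟨u, hu, hux, huy⟩ := trans2 x y x z hxy (Ne.symm hzx)
      refine ⟨u, hu, (u * g)⁻¹ * f, G.mul_mem (G.inv_mem (G.mul_mem hu hg)) hf, hux, ?_,
        by group⟩
      show (u * g)⁻¹ (f (some x)) = some x
      rw [hz, Equiv.Perm.inv_eq_iff_eq]
      show some z = u (g (some x))
      rw [h4, huy]
  let S : Set (Equiv.Perm (Option X)) := {f | f ∈ G ∨ ∃ a ∈ G, ∃ b ∈ G, f = a * h * b}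
  have step3 : ∀ f ∈ G, h * f * h ∈ S := by
    intro f hf
    rcases step2 f hf with hfx | ⟨u, hu, v, hv, hux, hvx, rfl⟩
    · exact Or.inl (h8 f hf hfx).1
    · right
      have e3 : (g * h) ^ 3 = g * h * (g * h) * (g * h) := by
        rw [pow_succ, pow_succ, pow_one]
      refine ⟨h * u * h * ((h ^ 2)⁻¹ * g⁻¹ * (g * h) ^ 3 * (h ^ 2)⁻¹), ?_,
        g⁻¹ * (h ^ 2)⁻¹ * (h * v * h), ?_, by rw [e3]; group⟩
      · exact G.mul_mem (h8 u hu hux).1 (G.mul_mem (G.mul_mem (G.mul_mem (G.inv_mem h7)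
          (G.inv_mem hg)) h6) (G.inv_mem h7))
      · exact G.mul_mem (G.mul_mem (G.inv_mem hg) (G.inv_mem h7)) (h8 v hv hvx).1
  have SG : ∀ f ∈ S, ∀ c ∈ G, f * c ∈ S := by
    rintro f (hf | ⟨a, ha, b, hb, rfl⟩) c hc
    · exact Or.inl (G.mul_mem hf hc)
    · exact Or.inr ⟨a, ha, b * c, G.mul_mem hb hc, by group⟩
  have Sh : ∀ f ∈ S, f * h ∈ S := by
    rintro f (hf | ⟨a, ha, b, hb, rfl⟩)
    · exact Or.inr ⟨f, hf, 1, G.one_mem, by group⟩
    · rcases step3 b hb with h' | ⟨a', ha', b', hb', he⟩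
      · left
        have : a * h * b * h = a * (h * b * h) := by group
        rw [this]; exact G.mul_mem ha h'
      · right
        refine ⟨a * a', G.mul_mem ha ha', b', hb', ?_⟩
        have : a * h * b * h = a * (h * b * h) := by group
        rw [this, he]; group
  have HS : ∀ f ∈ H, f ∈ S := by
    intro f hf
    induction hf using Subgroup.closure_induction_right with
    | one => exact Or.inl G.one_mem
    | mul_right x' hx' y' hy' ih =>
      rcases hy' with hy' | hy'
      · exact SG _ ih _ hy'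
      · rw [Set.mem_singleton_iff] at hy'; rw [hy']; exact Sh _ ih
    | mul_inv_cancel x' hx' y' hy' ih =>
      rcases hy' with hy' | hy'
      · exact SG _ ih _ (G.inv_mem hy')
      · rw [Set.mem_singleton_iff] at hy'
        rw [hy']
        have : x' * h⁻¹ = x' * h * (h ^ 2)⁻¹ := by group
        rw [this]
        exact SG _ (Sh _ ih) _ (G.inv_mem h7)
  have hGH : ∀ f ∈ G, f ∈ H := fun f hf => Subgroup.subset_closure (Or.inl hf)
  have hhH : h ∈ H := Subgroup.subset_closure (Or.inr rfl)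
  have part1 : ∀ f ∈ H, f none = none ↔ f ∈ G := by
    intro f hf
    constructor
    · intro hfn
      rcases HS f hf with h' | ⟨a, ha, b, hb, rfl⟩
      · exact h'
      · exfalso
        have h9 : a (h (b none)) = none := hfn
        rw [hfix b hb, h1] at h9
        obtain ⟨z', hz'⟩ := hsome a ha x
        rw [hz'] at h9
        exact Option.some_ne_none _ h9
    · exact hfix f
  refine ⟨part1, ?_⟩
  rw [MulAction.isMultiplyPretransitive_iff]
  have std : ∀ a : Fin (k + 1) ↪ Option X, ∃ f ∈ H, f (a 0) = none ∧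
      ∀ i : Fin k, f (a i.succ) = some (e i) := by
    intro a
    have hf1 : ∃ f1 ∈ H, f1 (a 0) = none := by
      cases ha0 : a 0 with
      | none => exact ⟨1, H.one_mem, rfl⟩
      | some z =>
        by_cases hzx : z = x
        · refine ⟨h, hhH, ?_⟩
          rw [hzx]; exact h2
        · obtain ⟨u, hu, huz, _⟩ := trans2 z x x z hzx (Ne.symm hzx)
          refine ⟨h * u, H.mul_mem hhH (hGH u hu), ?_⟩
          show h (u (some z)) = none
          rw [huz, h2]
    obtain ⟨f1, hf1H, hf1a⟩ := hf1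
    have hex : ∀ i : Fin k, ∃ z, f1 (a i.succ) = some z := by
      intro i
      cases hfi : f1 (a i.succ) with
      | none =>
        exfalso
        have := a.injective (f1.injective (hfi.trans hf1a.symm))
        exact Fin.succ_ne_zero i this
      | some z => exact ⟨z, rfl⟩
    choose a' ha' using hex
    have ha'inj : Function.Injective a' := by
      intro i j hij
      have : f1 (a i.succ) = f1 (a j.succ) := by rw [ha' i, ha' j, hij]
      exact Fin.succ_injective _ (a.injective (f1.injective this))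
    obtain ⟨f2, hf2, hf2s⟩ := htrans ⟨a', ha'inj⟩ e
    refine ⟨f2 * f1, H.mul_mem (hGH f2 hf2) hf1H, ?_, ?_⟩
    · show f2 (f1 (a 0)) = none
      rw [hf1a]; exact hfix f2 hf2
    · intro i
      show f2 (f1 (a i.succ)) = some (e i)
      rw [ha' i]; exact hf2s i
  intro a b
  obtain ⟨fa, hfa, hfa0, hfas⟩ := std a
  obtain ⟨fb, hfb, hfb0, hfbs⟩ := std b
  refine ⟨⟨fb⁻¹ * fa, H.mul_mem (H.inv_mem hfb) hfa⟩, ?_⟩
  ext j : 1
  show fb⁻¹ (fa (a j)) = b j
  rw [Equiv.Perm.inv_eq_iff_eq]
  refine Fin.cases ?_ ?_ j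
  · rw [hfa0, hfb0]
  · intro i; rw [hfas, hfbs]

end Cfsg.Agent.S4301
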