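import Cfsg.Statements.S4303
import Mathlib
import Cfsg.Agent.S0025
import Cfsg.Agent.Helper22.SylowCount

set_option autoImplicit false
universe u
open Cfsg

namespace Cfsg.Agent.S4303

def Good (p : ℕ) (m : ℕ) : Prop :=
  ∃ l : List ℕ, l.prod = m ∧ ∀ x ∈ l, (IsPrimePow x ∧ x % p = 1) ∨
    ∃ (S : Type u) (_ : Group S) (_ : Finite S), IsSimpleGroup S ∧ x = Nat.card (Sylow p S)

theorem good_one (p : ℕ) : Good.{u} p 1 := ⟨[], rfl, by simp⟩

theorem good_mul {p a b : ℕ} (ha : Good.{u} p a) (hb : Good.{u} p b) : Good.{u} p (a * b) := by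
  obtain ⟨l₁, h1, h1'⟩ := ha
  obtain ⟨l₂, h2, h2'⟩ := hb
  refine ⟨l₁ ++ l₂, by rw [List.prod_append, h1, h2], ?_⟩
  intro x hx
  rcases List.mem_append.mp hx with h | h
  · exact h1' x h
  · exact h2' x h

theorem good_of_pp (p : ℕ) (m : ℕ) (hm : m ≠ 0)
    (h : ∀ q : ℕ, q.Prime → q ∣ m → q ^ m.factorization q % p = 1) : Good.{u} p m := by
  refine ⟨m.primeFactors.toList.map (fun q => q ^ m.factorization q), ?_, ?_⟩
  · rw [Finset.prod_map_toList]
    have h' := Nat.prod_factorization_pow_eq_self hm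
    rw [Finsupp.prod, Nat.support_factorization] at h'
    exact h'
  · intro x hx
    obtain ⟨q, hq, rfl⟩ := List.mem_map.mp hx
    rw [Finset.mem_toList, Nat.mem_primeFactors] at hq
    exact Or.inl ⟨(hq.1.isPrimePow).pow (Nat.Prime.factorization_pos_of_dvd hq.1 hm hq.2.1).ne',
      h q hq.1 hq.2.1⟩

section
variable {G : Type u} [Group G] [Finite G] {p : ℕ} [Fact p.Prime]

theorem card_lt (H : Subgroup G) (h : H ≠ ⊤) : Nat.card H < Nat.card G :=
  lt_of_le_of_ne (Subgroup.card_le_card_group H) (fun e => h (Subgroup.eq_top_of_card_eq H e))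

theorem f1 (N : Subgroup G) [N.Normal] (P : Sylow p G) :
    Nat.card (Sylow p G) =
      Nat.card (Sylow p ↥((P : Subgroup G) ⊔ N)) * Nat.card (Sylow p (G ⧸ N)) := by
  rw [← Cfsg.Agent.Helper22.relIndex_normalizer_eq_card_sylow_sup N P]
  exact Cfsg.Agent.Helper22.card_sylow_eq_relIndex_mul N P

theorem f2 (N : Subgroup G) [hN : N.Normal] (P : Sylow p G) :
    Nat.card (Sylow p G) = Nat.card (Sylow p ↥N) *
      Nat.card (Sylow p ↥(Subgroup.normalizer (((P : Subgroup G) ⊓ N : Subgroup G) : Set G))) := by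
  obtain ⟨Q, hQ⟩ : ∃ Q : Subgroup G, Q = (P : Subgroup G) ⊓ N := ⟨_, rfl⟩
  rw [← hQ]
  have hQN : Q ≤ N := hQ ▸ inf_le_right
  have hQP : Q ≤ (P : Subgroup G) := hQ ▸ inf_le_left
  have hNN : Subgroup.normalizer ((P : Subgroup G) : Set G) ≤ Subgroup.normalizer (Q : Set G) := by
    intro x hx
    apply Subgroup.mem_normalizer_fintype
    intro y hy
    rw [hQ] at hy ⊢
    exact Subgroup.mem_inf.mpr ⟨((Subgroup.mem_normalizer_iff.mp hx) y).mp hy.1,
      hN.conj_mem y hy.2 x⟩
  have hPH : (P : Subgroup G) ≤ Subgroup.normalizer (Q : Set G) :=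
    le_trans Subgroup.le_normalizer hNN
  have h1 : IsPGroup p (Q.subgroupOf N) := (P.isPGroup'.to_le hQP).comap_subtype
  have h2 : ¬ p ∣ (Q.subgroupOf N).index := by
    intro h
    have e1 : (Q.subgroupOf N).index = (P : Subgroup G).relIndex N := by
      show Q.relIndex N = _
      rw [hQ, Subgroup.inf_relIndex_right]
    have e2 := Cfsg.Agent.Helper19.relIndex_sup_normal (P : Subgroup G) N
    rw [e1, ← e2] at h
    exact P.not_dvd_index (h.trans (Subgroup.relIndex_dvd_index_of_le le_sup_left))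
  obtain ⟨Q', hQ'⟩ : ∃ Q' : Sylow p N, (Q' : Subgroup N) = Q.subgroupOf N :=
    ⟨h1.toSylow h2, IsPGroup.toSylow_coe h1 h2⟩
  have hfr : Subgroup.normalizer (Q : Set G) ⊔ N = ⊤ := by
    have h3 := Sylow.normalizer_sup_eq_top Q'
    rw [hQ', Subgroup.subgroupOf_map_subtype, inf_of_le_left hQN] at h3
    exact h3
  have e0 : Nat.card (Sylow p G) = (Subgroup.normalizer ((P : Subgroup G) : Set G)).index :=
    Sylow.card_eq_index_normalizer P
  have e0' : Nat.card (Sylow p N) = (Subgroup.normalizer ((Q' : Subgroup N) : Set N)).index :=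
    Sylow.card_eq_index_normalizer Q'
  rw [e0, Cfsg.Agent.Helper22.card_sylow_subgroup_eq_relIndex P _ hPH, e0']
  have e3 : (Subgroup.normalizer ((Q' : Subgroup N) : Set N)).index =
      (Subgroup.normalizer (Q : Set G)).index := by
    rw [hQ', ← Subgroup.subgroupOf_normalizer_eq hQN]
    show (Subgroup.normalizer (Q : Set G)).relIndex N = _
    rw [← Cfsg.Agent.Helper19.relIndex_sup_normal, hfr, Subgroup.relIndex_top_right]
  rw [e3, mul_comm]
  exact (Subgroup.relIndex_mul_index hNN).symm

theorem fixed_congr (P S : Subgroup G) (hP : IsPGroup p P)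
    (hS : P ≤ Subgroup.normalizer (S : Set G)) :
    Nat.card S ≡ Nat.card ↥(S ⊓ Subgroup.centralizer (P : Set G)) [MOD p] := by
  letI act : MulAction P S :=
    { smul := fun x s => ⟨(x : G) * s * (x : G)⁻¹,
        ((Subgroup.mem_normalizer_iff.mp (hS x.2)) s).mp s.2⟩
      one_smul := fun s => Subtype.ext (by
        show ((1 : P) : G) * s * ((1 : P) : G)⁻¹ = s
        simp)
      mul_smul := fun x y s => Subtype.ext (by
        show ((x * y : P) : G) * s * ((x * y : P) : G)⁻¹ = (x : G) * ((y : G) * s * (y : G)⁻¹) * (x : G)⁻¹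
        simp [mul_assoc]) }
  have h := hP.card_modEq_card_fixedPoints (α := S)
  have e : Nat.card (MulAction.fixedPoints P S) =
      Nat.card ↥(S ⊓ Subgroup.centralizer (P : Set G)) := by
    apply Nat.card_congr
    refine ⟨fun s => ⟨s.1.1, ?_⟩, fun t => ⟨⟨t.1, t.2.1⟩, ?_⟩, fun s => rfl, fun t => rfl⟩
    · refine Subgroup.mem_inf.mpr ⟨s.1.2, ?_⟩
      rw [Subgroup.mem_centralizer_iff]
      intro x hx
      have h1 : x * (s.1 : G) * x⁻¹ = (s.1 : G) := congrArg Subtype.val (s.2 ⟨x, hx⟩)
      calc x * (s.1 : G) = x * (s.1 : G) * x⁻¹ * x := by group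
        _ = (s.1 : G) * x := by rw [h1]
    · intro x
      apply Subtype.ext
      show (x : G) * t.1 * (x : G)⁻¹ = t.1
      have h1 := (Subgroup.mem_centralizer_iff.mp t.2.2) x x.2
      rw [h1, mul_inv_cancel_right]
  rw [← e]; exact h

theorem f4 (N : Subgroup G) [hN : N.Normal] (P : Sylow p G)
    (hsup : (P : Subgroup G) ⊔ N = ⊤) (hinf : (P : Subgroup G) ⊓ N = ⊥) :
    Good.{u} p (Nat.card (Sylow p G)) := by
  have hp : p.Prime := Fact.out
  obtain ⟨C, hC⟩ : ∃ C : Subgroup G,
    C = N ⊓ Subgroup.centralizer ((P : Subgroup G) : Set G) := ⟨_, rfl⟩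
  have hCN : C ≤ N := hC ▸ inf_le_left
  have hCcent : ∀ t ∈ C, t ∈ Subgroup.centralizer ((P : Subgroup G) : Set G) := by
    intro t ht; rw [hC] at ht; exact ht.2
  have hn : Nat.card (Sylow p G) = C.relIndex N := by
    have e0 : Nat.card (Sylow p G) = (Subgroup.normalizer ((P : Subgroup G) : Set G)).index :=
      Sylow.card_eq_index_normalizer P
    rw [e0]
    have e1 : Subgroup.normalizer ((P : Subgroup G) : Set G) ⊔ N = ⊤ :=
      top_unique (hsup ▸ sup_le_sup_right Subgroup.le_normalizer N)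
    have e2 := Cfsg.Agent.Helper19.relIndex_sup_normal
      (Subgroup.normalizer ((P : Subgroup G) : Set G)) N
    rw [e1, Subgroup.relIndex_top_right] at e2
    rw [e2, ← Subgroup.inf_relIndex_right]
    congr 1
    rw [hC]
    apply le_antisymm
    · rintro x ⟨hx1, hx2⟩
      refine Subgroup.mem_inf.mpr ⟨hx2, ?_⟩
      rw [Subgroup.mem_centralizer_iff]
      intro y hy
      have h1 : x * y * x⁻¹ * y⁻¹ ∈ (P : Subgroup G) ⊓ N := by
        refine Subgroup.mem_inf.mpr ⟨?_, ?_⟩
        · exact mul_mem (((Subgroup.mem_normalizer_iff.mp hx1) y).mp hy) (inv_mem hy)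
        · have e : x * y * x⁻¹ * y⁻¹ = x * (y * x⁻¹ * y⁻¹) := by group
          rw [e]
          exact mul_mem hx2 (hN.conj_mem _ (inv_mem hx2) y)
      rw [hinf, Subgroup.mem_bot] at h1
      calc y * x = (x * y * x⁻¹ * y⁻¹)⁻¹ * (x * y) := by group
        _ = x * y := by rw [h1, inv_one, one_mul]
    · exact le_inf (inf_le_right.trans (Subgroup.centralizer_le_normalizer _)) inf_le_left
  rw [hn]
  have hcardN : Nat.card N = Nat.card C * C.relIndex N := by
    have h := Subgroup.relIndex_mul_relIndex (⊥ : Subgroup G) C N bot_le hCN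
    rw [Subgroup.relIndex_bot_left, Subgroup.relIndex_bot_left] at h
    exact h.symm
  have hpN : ¬ p ∣ Nat.card N := by
    have e1 : N.index = Nat.card (P : Subgroup G) := by
      have h := Subgroup.relIndex_sup_right (P : Subgroup G) N
      rw [hsup, Subgroup.relIndex_top_right] at h
      rw [h, ← Subgroup.inf_relIndex_left, hinf, Subgroup.relIndex_bot_left]
    have e2 := Subgroup.card_mul_index N
    have e3 := Subgroup.card_mul_index (P : Subgroup G)
    have e4 : Nat.card N = (P : Subgroup G).index := by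
      have h : Nat.card (P : Subgroup G) * Nat.card N =
          Nat.card (P : Subgroup G) * (P : Subgroup G).index := by
        rw [e3, ← e2, e1, mul_comm]
      exact Nat.eq_of_mul_eq_mul_left Nat.card_pos h
    rw [e4]; exact P.not_dvd_index
  have hrpos : C.relIndex N ≠ 0 := by
    intro h; rw [h, mul_zero] at hcardN; exact Nat.card_pos.ne' hcardN
  apply good_of_pp p _ hrpos
  intro q hq hqd
  haveI : Fact q.Prime := ⟨hq⟩
  obtain ⟨T₀⟩ : Nonempty (Sylow q C) := inferInstance
  obtain ⟨T, hT⟩ : ∃ T : Subgroup G, T = (T₀ : Subgroup C).map C.subtype := ⟨_, rfl⟩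
  have hTC : T ≤ C := hT ▸ Subgroup.map_subtype_le _
  have hTcard : Nat.card T = q ^ (Nat.card C).factorization q := by
    rw [hT, Subgroup.card_map_of_injective C.subtype_injective]
    exact T₀.card_eq_multiplicity
  have hTq : IsPGroup q T := IsPGroup.of_card hTcard
  have hPnorm : (P : Subgroup G) ≤ Subgroup.normalizer (N : Set G) := by
    rw [Subgroup.normalizer_eq_top]; exact le_top
  have hTP : (P : Subgroup G) ≤ Subgroup.normalizer (T : Set G) := by
    intro x hx
    apply Subgroup.mem_normalizer_fintype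
    intro t ht
    have h1 := (Subgroup.mem_centralizer_iff.mp (hCcent t (hTC ht))) x hx
    rw [h1, mul_inv_cancel_right]; exact ht
  have hcop : (Nat.card (P : Subgroup G)).Coprime (Nat.card N) := by
    obtain ⟨k, hk⟩ := IsPGroup.iff_card.mp P.isPGroup'
    rw [hk]; exact Nat.Coprime.pow_left k ((Nat.Prime.coprime_iff_not_dvd hp).mpr hpN)
  haveI hsolv : Group.IsSolvable (P : Subgroup G) := by
    haveI := P.isPGroup'.isNilpotent; infer_instance
  obtain ⟨S₀, hS1, hS2⟩ := Cfsg.Agent.S0025.result (P : Subgroup G) N hPnorm hcop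
    (Or.inl hsolv) q T (hTC.trans hCN) hTq hTP
  obtain ⟨S, hS⟩ : ∃ S : Subgroup G, S = (S₀ : Subgroup N).map N.subtype := ⟨_, rfl⟩
  rw [← hS] at hS1 hS2
  have hSN : S ≤ N := hS ▸ Subgroup.map_subtype_le _
  have hScard : Nat.card S = q ^ (Nat.card N).factorization q := by
    rw [hS, Subgroup.card_map_of_injective N.subtype_injective]
    exact S₀.card_eq_multiplicity
  obtain ⟨D, hD⟩ : ∃ D : Subgroup G,
    D = S ⊓ Subgroup.centralizer ((P : Subgroup G) : Set G) := ⟨_, rfl⟩
  have hmod : Nat.card S ≡ Nat.card D [MOD p] := by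
    rw [hD]; exact fixed_congr (P : Subgroup G) S P.isPGroup' hS2
  have hDcard : Nat.card D = q ^ (Nat.card C).factorization q := by
    have hTD : T ≤ D := by
      rw [hD]; exact le_inf hS1 (fun t ht => hCcent t (hTC ht))
    have hDC : D ≤ C := by rw [hD, hC]; exact inf_le_inf_right _ hSN
    have hDq : IsPGroup q D := (IsPGroup.of_card hScard).to_le (hD ▸ inf_le_left)
    obtain ⟨j, hj⟩ := IsPGroup.iff_card.mp hDq
    have h1 : q ^ j ∣ Nat.card C := hj ▸ Subgroup.card_dvd_of_le hDC
    have h2 : j ≤ (Nat.card C).factorization q :=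
      (hq.pow_dvd_iff_le_factorization Nat.card_pos.ne').mp h1
    have h3 : Nat.card T ≤ Nat.card D := Subgroup.card_le_of_le hTD
    rw [hTcard, hj] at h3
    have h4 : (Nat.card C).factorization q ≤ j := (Nat.pow_le_pow_iff_right hq.one_lt).mp h3
    rw [hj, le_antisymm h2 h4]
  rw [hScard, hDcard] at hmod
  have hfac : (Nat.card N).factorization q =
      (Nat.card C).factorization q + (C.relIndex N).factorization q := by
    rw [hcardN, Nat.factorization_mul Nat.card_pos.ne' hrpos]; rfl
  rw [hfac, pow_add] at hmod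
  have hqp : Nat.gcd p (q ^ (Nat.card C).factorization q) = 1 := by
    apply Nat.Coprime.pow_right
    rw [Nat.coprime_primes hp hq]
    rintro rfl
    exact hpN (hcardN ▸ (hqd.mul_left _))
  have h5 : q ^ (C.relIndex N).factorization q ≡ 1 [MOD p] := by
    apply Nat.ModEq.cancel_left_of_coprime hqp
    rw [mul_one]; exact hmod
  rw [Nat.ModEq, Nat.mod_eq_of_lt hp.one_lt] at h5
  exact h5

end

theorem main (p : ℕ) [Fact p.Prime] : ∀ n : ℕ, ∀ (G : Type u) [Group G] [Finite G],
    Nat.card G = n → Good.{u} p (Nat.card (Sylow p G)) := by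
  intro n
  induction n using Nat.strong_induction_on with
  | _ n ih =>
    intro G _ _ hn
    obtain ⟨P⟩ : Nonempty (Sylow p G) := inferInstance
    by_cases hPtop : (P : Subgroup G) = ⊤
    · have h1 : Nat.card (Sylow p G) = 1 := by
        have e0 : Nat.card (Sylow p G) = (Subgroup.normalizer ((P : Subgroup G) : Set G)).index :=
          Sylow.card_eq_index_normalizer P
        have e1 : Subgroup.normalizer ((P : Subgroup G) : Set G) = ⊤ := by
          apply top_unique
          rw [← hPtop]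
          exact Subgroup.le_normalizer
        rw [e0, e1, Subgroup.index_top]
      rw [h1]; exact good_one p
    by_cases hs : IsSimpleGroup G
    · exact ⟨[Nat.card (Sylow p G)], by simp, fun m hm =>
        Or.inr ⟨G, inferInstance, inferInstance, hs, by simpa using hm⟩⟩
    have hnt : Nontrivial G := by
      by_contra h
      rw [not_nontrivial_iff_subsingleton] at h
      exact hPtop (Subsingleton.elim _ _)
    obtain ⟨N, hNn, hN1, hN2⟩ : ∃ N : Subgroup G, N.Normal ∧ N ≠ ⊥ ∧ N ≠ ⊤ := by
      by_contra h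
      push_neg at h
      apply hs
      exact { toNontrivial := hnt
              eq_bot_or_eq_top_of_normal := fun N hN => by
                by_cases h' : N = ⊥
                · exact Or.inl h'
                · exact Or.inr (h N hN h') }
    haveI := hNn
    have ihG : ∀ (H : Type u) [Group H] [Finite H], Nat.card H < n →
        Good.{u} p (Nat.card (Sylow p H)) := fun H _ _ h => ih _ h H rfl
    have hq : ∀ (M : Subgroup G) [M.Normal], M ≠ ⊥ →
        Good.{u} p (Nat.card (Sylow p (G ⧸ M))) := by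
      intro M _ hM
      apply ihG
      rw [← hn, Subgroup.card_eq_card_quotient_mul_card_subgroup M]
      have h1 : 1 < Nat.card M := M.one_lt_card_iff_ne_bot.mpr hM
      have h2 : 0 < Nat.card (G ⧸ M) := Nat.card_pos
      nlinarith
    have hsub : ∀ (H : Subgroup G), H ≠ ⊤ → Good.{u} p (Nat.card (Sylow p H)) := by
      intro H hH
      apply ihG
      rw [← hn]; exact card_lt H hH
    by_cases h1 : (P : Subgroup G) ⊔ N = ⊤
    swap
    · rw [f1 N P]; exact good_mul (hsub _ h1) (hq N hN1)
    by_cases h2 : Subgroup.normalizer (((P : Subgroup G) ⊓ N : Subgroup G) : Set G) = ⊤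
    swap
    · rw [f2 N P]; exact good_mul (hsub N hN2) (hsub _ h2)
    by_cases h3 : (P : Subgroup G) ⊓ N = ⊥
    · exact f4 N P h1 h3
    · haveI : ((P : Subgroup G) ⊓ N).Normal := Subgroup.normalizer_eq_top_iff.mp h2
      rw [f1 ((P : Subgroup G) ⊓ N) P]
      refine good_mul ?_ (hq _ h3)
      apply hsub
      rw [sup_inf_self]; exact hPtop


/-- For a finite group `G` and a prime `p`, the number of Sylow `p`-subgroups of `G` is a product of natural numbers each of which is either a prime power congruent to 1 modulo `p` or the number of Sylow `p`-subgroups of some finite simple group. -/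
theorem result {G : Type u} [Group G] [Finite G]
    (p : ℕ) [Fact p.Prime] :
    ∃ l : List ℕ, l.prod = Nat.card (Sylow p G) ∧
      ∀ m ∈ l, (IsPrimePow m ∧ m % p = 1) ∨
        ∃ (S : Type u) (_ : Group S) (_ : Finite S), IsSimpleGroup S ∧ m = Nat.card (Sylow p S) := by
  obtain ⟨l, h1, h2⟩ := main.{u} p (Nat.card G) G rfl
  exact ⟨l, h1, h2⟩

end Cfsg.Agent.S4303
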