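import Cfsg.Statements.S4421

set_option autoImplicit false
open Cfsg

namespace Cfsg.Agent.S4421

theorem cm_mul {G : Type*} [Group G] (K : Subgroup G) (g h : G) :
    K.map (MulAut.conj (g * h)).toMonoidHom =
      (K.map (MulAut.conj h).toMonoidHom).map (MulAut.conj g).toMonoidHom := by
  rw [Subgroup.map_map]
  congr 1
  ext x
  simp [mul_assoc]

theorem cm_one {G : Type*} [Group G] (K : Subgroup G) :
    K.map (MulAut.conj (1 : G)).toMonoidHom = K := by
  ext x
  simp

theorem cm_normalizer {G : Type*} [Group G] (K : Subgroup G) (g : G) :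
    g ∈ Subgroup.normalizer (K : Set G) ↔ K.map (MulAut.conj g).toMonoidHom = K :=
  Subgroup.mem_normalizer_iff_map_conj_eq

theorem cm_mono {G : Type*} [Group G] {K L : Subgroup G} (g : G) (h : K ≤ L) :
    K.map (MulAut.conj g).toMonoidHom ≤ L.map (MulAut.conj g).toMonoidHom :=
  Subgroup.map_mono h

/-- A factorization of a normalizer from two-step control of fusion. Let `G` be a finite group and `A ≤ S ≤ H` subgroups of `G` such that: (i) `S` controls the `G`-fusion of `A` in the sense that every `G`-conjugate of `A` lying in `S` is an `S`-conjugate of `A`; (ii) `H` controls the `G`-fusion of `S` in the same sense; (iii) every conjugate of `S` by an element of the normalizer of `A` lies in `H`. Then `N_G(A) = N_H(A) · (N_G(S) ∩ N_G(A))`: every element of the normalizer of `A` is a product of an element of `H` normalizing `A` and an element normalizing both `S` and `A`. -/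
theorem result {G : Type*} [Group G] [Finite G] (A S H : Subgroup G)
    (hAS : A ≤ S) (hSH : S ≤ H)
    (h1 : ∀ g : G, A.map (MulAut.conj g).toMonoidHom ≤ S → ∃ s ∈ S, A.map (MulAut.conj g).toMonoidHom = A.map (MulAut.conj s).toMonoidHom)
    (h2 : ∀ g : G, S.map (MulAut.conj g).toMonoidHom ≤ H → ∃ y ∈ H, S.map (MulAut.conj g).toMonoidHom = S.map (MulAut.conj y).toMonoidHom)
    (h3 : ∀ x ∈ Subgroup.normalizer (A : Set G), S.map (MulAut.conj x).toMonoidHom ≤ H) :
    ∀ x ∈ Subgroup.normalizer (A : Set G), ∃ y ∈ H ⊓ Subgroup.normalizer (A : Set G),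
      ∃ z ∈ Subgroup.normalizer (S : Set G) ⊓ Subgroup.normalizer (A : Set G), x = y * z := by
  intro x hx
  have hxA : A.map (MulAut.conj x).toMonoidHom = A := (cm_normalizer A x).1 hx
  obtain ⟨y, hyH, hy⟩ := h2 x (h3 x hx)
  -- w = y⁻¹ * x normalizes S
  have hwS : S.map (MulAut.conj (y⁻¹ * x)).toMonoidHom = S := by
    rw [cm_mul, hy, ← cm_mul, inv_mul_cancel, cm_one]
  have hwN : y⁻¹ * x ∈ Subgroup.normalizer (S : Set G) := (cm_normalizer S _).2 hwS
  -- conj y⁻¹ A ≤ S
  have hyA : A.map (MulAut.conj y⁻¹).toMonoidHom ≤ S := by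
    have h : A.map (MulAut.conj (y⁻¹ * x)).toMonoidHom ≤ S.map (MulAut.conj (y⁻¹ * x)).toMonoidHom :=
      cm_mono _ hAS
    rw [hwS, cm_mul, hxA] at h
    exact h
  obtain ⟨s, hsS, hs⟩ := h1 y⁻¹ hyA
  have hysA : A.map (MulAut.conj (y * s)).toMonoidHom = A := by
    rw [cm_mul, ← hs, ← cm_mul, mul_inv_cancel, cm_one]
  have hysN : y * s ∈ Subgroup.normalizer (A : Set G) := (cm_normalizer A _).2 hysA
  refine ⟨y * s, ⟨H.mul_mem hyH (hSH hsS), hysN⟩, s⁻¹ * (y⁻¹ * x), ⟨?_, ?_⟩, ?_⟩
  · exact Subgroup.mul_mem _ (Subgroup.inv_mem _ (Subgroup.le_normalizer hsS)) hwN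
  · have : s⁻¹ * (y⁻¹ * x) = (y * s)⁻¹ * x := by group
    rw [this]
    exact Subgroup.mul_mem _ (Subgroup.inv_mem _ hysN) hx
  · group

end Cfsg.Agent.S4421
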