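import Cfsg.Statements.S4422

set_option autoImplicit false
open Cfsg

namespace Cfsg.Agent.S4422

theorem prime_case (q e m p : ℕ) (hq : 2 ≤ q) (he : 1 ≤ e) (hm : m ∣ q ^ e - 1)
    (hcop : ∀ i : ℕ, 1 ≤ i → i < e → Nat.Coprime m (q ^ i - 1)) (hp : p.Prime) (hpm : p ∣ m) :
    p ≡ 1 [MOD e] := by
  have := Fact.mk hp
  have hqe : 1 ≤ q ^ e := Nat.one_le_pow _ _ (by omega)
  have h1 : ((q : ZMod p)) ^ e = 1 := by
    have h : ((q ^ e - 1 : ℕ) : ZMod p) = 0 := (ZMod.natCast_eq_zero_iff _ _).2 (hpm.trans hm)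
    rw [Nat.cast_sub hqe] at h
    push_cast at h
    exact sub_eq_zero.1 h
  have hq0 : (q : ZMod p) ≠ 0 := by
    intro h
    rw [h, zero_pow (by omega)] at h1
    exact zero_ne_one h1
  have hde : orderOf (q : ZMod p) ∣ e := orderOf_dvd_of_pow_eq_one h1
  have hd1 : 1 ≤ orderOf (q : ZMod p) := Nat.pos_of_dvd_of_pos hde he
  have hdeq : orderOf (q : ZMod p) = e := by
    by_contra hne
    have hlt : orderOf (q : ZMod p) < e := lt_of_le_of_ne (Nat.le_of_dvd he hde) hne
    have hc := hcop _ hd1 hlt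
    have hqd : 1 ≤ q ^ orderOf (q : ZMod p) := Nat.one_le_pow _ _ (by omega)
    have h2 : p ∣ q ^ orderOf (q : ZMod p) - 1 := by
      rw [← ZMod.natCast_eq_zero_iff, Nat.cast_sub hqd]
      push_cast
      rw [pow_orderOf_eq_one]
      simp
    have h3 : p ∣ Nat.gcd m (q ^ orderOf (q : ZMod p) - 1) := Nat.dvd_gcd hpm h2
    rw [hc] at h3
    exact hp.one_lt.ne' (Nat.dvd_one.1 h3)
  have h4 : e ∣ p - 1 := by
    rw [← hdeq]
    exact ZMod.orderOf_dvd_card_sub_one hq0
  exact ((Nat.modEq_iff_dvd' hp.one_lt.le).2 h4).symm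

/-- Primitive divisors of `q^e - 1` are congruent to 1 modulo `e`. Let `q ≥ 2` and `e ≥ 1` be natural numbers and let `m` be a divisor of `q^e - 1` that is coprime to `q^i - 1` for every `1 ≤ i < e` (so `m` divides the primitive part of `q^e - 1`, the largest such divisor). Then `m ≡ 1 (mod e)`. -/
theorem result (q e m : ℕ) (hq : 2 ≤ q) (he : 1 ≤ e)
    (hm : m ∣ q ^ e - 1) (hcop : ∀ i : ℕ, 1 ≤ i → i < e → Nat.Coprime m (q ^ i - 1)) :
    m % e = 1 % e := by
  have hqe : 1 < q ^ e := Nat.one_lt_pow (by omega) (by omega)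
  have hm0 : m ≠ 0 := by
    rintro rfl
    have := Nat.eq_zero_of_zero_dvd hm
    omega
  have key : ∀ d, d ∣ m → d ≡ 1 [MOD e] := by
    intro d
    induction d using Nat.recOnMul with
    | zero => intro h; exact absurd (Nat.eq_zero_of_zero_dvd h) hm0
    | one => intro _; rfl
    | prime p hp => intro h; exact prime_case q e m p hq he hm hcop hp h
    | mul a b iha ihb =>
      intro h
      have ha := iha (Dvd.dvd.trans (Dvd.intro _ rfl) h)
      have hb := ihb (Dvd.dvd.trans (Dvd.intro_left _ rfl) h)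
      simpa using ha.mul hb
  exact key m dvd_rfl

end Cfsg.Agent.S4422
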