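import Cfsg.Statements.S4424
import Cfsg.Agent.Helper22.BlkCover
import Cfsg.Agent.S0961

set_option autoImplicit false
open Cfsg
open Cfsg.Agent.Helper5 Cfsg.Agent.Helper24 Cfsg.Agent.Helper22

namespace Cfsg.Agent.S4424

/-- Let χ be an irreducible character of the finite group G lying in the p-block B (relative to a maximal ideal M of the algebraic integers containing p), and let p^a be the p-part of the order of G. Then the class function that equals p^a · χ on the p-regular elements and vanishes on the p-singular elements is an integer combination of the irreducible characters in B: there are integers a_ψ, zero for ψ outside B, with that function equal to Σ a_ψ ψ. -/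
theorem result {G : Type*} [Group G] [Finite G] (p : ℕ) [Fact p.Prime] (M : Ideal Cfsg.AlgInt) (hM : Cfsg.IsPModular p M) (B : Set (Cfsg.IrrCharacter G)) (hB : Cfsg.IsPBlock M B) (χ : Cfsg.IrrCharacter G) (hχ : χ ∈ B) : ∃ a : Cfsg.IrrCharacter G → ℤ, (∀ ψ, ψ ∉ B → a ψ = 0) ∧ (fun x : G => if p ∣ orderOf x then (0 : ℂ) else ((p ^ (Nat.card G).factorization p : ℕ) : ℂ) * (χ : G → ℂ) x) = fun x => ∑ᶠ ψ : Cfsg.IrrCharacter G, (a ψ : ℂ) * (ψ : G → ℂ) x := by
  classical
  haveI := Fintype.ofFinite G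
  haveI hMp : M.IsPrime := hM.2.1.isPrime
  obtain ⟨χ₀, rfl⟩ := hB
  have hgen := Cfsg.Agent.S0961.result p χ
  obtain ⟨z, hz1, hz2⟩ := genChar_decomp hgen
  refine ⟨z, fun ψ hψ => ?_, ?_⟩
  · have hns : ¬ SameBlock M (χ : G → ℂ) (ψ : G → ℂ) := fun h => hψ (sameBlock_trans' hχ h)
    have h0 := block_reg_orth hM χ ψ hns
    have h1 : (Nat.card G : ℂ)⁻¹ * ∑ g : G, (if p ∣ orderOf g then (0:ℂ) else
        ((p ^ (Nat.card G).factorization p : ℕ) : ℂ) * (χ : G → ℂ) g) *
          starRingEnd ℂ ((ψ : G → ℂ) g) = (z ψ : ℂ) := hz1 ψ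
    have h2 : ∑ g : G, (if p ∣ orderOf g then (0:ℂ) else
        ((p ^ (Nat.card G).factorization p : ℕ) : ℂ) * (χ : G → ℂ) g) *
          starRingEnd ℂ ((ψ : G → ℂ) g) = 0 := by
      rw [finsum_setOf_eq_sum'] at h0
      have e : ∀ g : G, (if p ∣ orderOf g then (0:ℂ) else
          ((p ^ (Nat.card G).factorization p : ℕ) : ℂ) * (χ : G → ℂ) g) *
            starRingEnd ℂ ((ψ : G → ℂ) g) =
          ((p ^ (Nat.card G).factorization p : ℕ) : ℂ) *
            (if ¬ p ∣ orderOf g then (χ : G → ℂ) g * starRingEnd ℂ ((ψ : G → ℂ) g) else 0) := by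
        intro g
        by_cases hg : p ∣ orderOf g
        · rw [if_pos hg, if_neg (not_not.mpr hg), zero_mul, mul_zero]
        · rw [if_neg hg, if_pos hg, mul_assoc]
      rw [Finset.sum_congr rfl (fun g _ => e g), ← Finset.mul_sum, h0, mul_zero]
    rw [h2, mul_zero] at h1
    exact_mod_cast h1.symm
  · refine hz2.trans ?_
    funext x
    rw [finsum_eq_sum_of_fintype, Finset.sum_apply]
    exact Finset.sum_congr rfl (fun ψ _ => rfl)

end Cfsg.Agent.S4424
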