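import Cfsg.Statements.S4426
import Cfsg.Agent.Helper22.BlkHtZero

set_option autoImplicit false
open Cfsg
open Cfsg.Agent.Helper5 Cfsg.Agent.Helper24 Cfsg.Agent.Helper22

namespace Cfsg.Agent.S4426

/-- Let χ be an irreducible character in the p-block B of the finite group G (relative to a maximal ideal M of the algebraic integers containing p), let p^a be the p-part of the order of G, and let χ̃ be the class function equal to p^a · χ on p-regular elements and zero elsewhere. For ξ ∈ B the inner product [χ̃, ξ] is an integer. The following are equivalent: (a) χ has height zero in B; (b) for some ξ ∈ B the integer [χ̃, ξ] is nonzero and the exact power of p dividing it equals the exact power of p dividing ξ(1); (c) the same holds for every ξ ∈ B. -/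
theorem result {G : Type*} [Group G] [Fintype G] (p : ℕ) [Fact p.Prime] (M : Ideal Cfsg.AlgInt) (hM : Cfsg.IsPModular p M) (B : Set (Cfsg.IrrCharacter G)) (hB : Cfsg.IsPBlock M B) (χ : Cfsg.IrrCharacter G) (hχ : χ ∈ B) : (Cfsg.blockHeight p B (χ : G → ℂ) = 0 ↔ ∃ ξ ∈ B, ∃ n : ℤ, Cfsg.classInner (fun x : G => if p ∣ orderOf x then (0 : ℂ) else ((p ^ (Nat.card G).factorization p : ℕ) : ℂ) * (χ : G → ℂ) x) (ξ : G → ℂ) = (n : ℂ) ∧ n ≠ 0 ∧ padicValInt p n = (Cfsg.charDegree (ξ : G → ℂ)).factorization p) ∧ (Cfsg.blockHeight p B (χ : G → ℂ) = 0 ↔ ∀ ξ ∈ B, ∃ n : ℤ, Cfsg.classInner (fun x : G => if p ∣ orderOf x then (0 : ℂ) else ((p ^ (Nat.card G).factorization p : ℕ) : ℂ) * (χ : G → ℂ) x) (ξ : G → ℂ) = (n : ℂ) ∧ n ≠ 0 ∧ padicValInt p n = (Cfsg.charDegree (ξ : G → ℂ)).factorization p) := by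
  classical
  haveI hMp : M.IsPrime := hM.2.1.isPrime
  obtain ⟨χ₀, rfl⟩ := hB
  have hχ' : SameBlock M (χ₀ : G → ℂ) (χ : G → ℂ) := hχ
  have hmain := height_zero_iff hM χ₀ χ hχ'
  have hall : ∀ ξ : IrrCharacter G, SameBlock M (χ₀ : G → ℂ) (ξ : G → ℂ) →
      (¬ MemLocalIdeal M (tildeC p (χ : G → ℂ) ξ) ↔
        ¬ MemLocalIdeal M (tildeC p (χ : G → ℂ) χ)) := by
    intro ξ hξ
    have hcong := tildeC_congr (p := p) χ (sameBlock_trans' (sameBlock_symm hχ') hξ)
    refine not_congr ⟨fun h => ?_, fun h => ?_⟩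
    · have h1 := memLocalIdeal_add hMp hcong h
      rwa [sub_add_cancel] at h1
    · have h1 := memLocalIdeal_sub h hcong
      rwa [sub_sub_cancel] at h1
  have hE : ∀ ξ : IrrCharacter G, (∃ n : ℤ, classInner (fun x : G => if p ∣ orderOf x then (0 : ℂ)
      else ((p ^ (Nat.card G).factorization p : ℕ) : ℂ) * (χ : G → ℂ) x) (ξ : G → ℂ) = (n : ℂ) ∧
      n ≠ 0 ∧ padicValInt p n = (charDegree (ξ : G → ℂ)).factorization p) ↔
      ¬ MemLocalIdeal M (tildeC p (χ : G → ℂ) ξ) := fun ξ => tilde_E_iff hM χ ξ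
  rw [hmain]
  refine ⟨⟨fun h => ⟨χ, hχ, (hE χ).mpr h⟩, ?_⟩,
    ⟨fun h ξ hξ => (hE ξ).mpr ((hall ξ hξ).mpr h), fun h => (hE χ).mp (h χ hχ)⟩⟩
  rintro ⟨ξ, hξ, hex⟩
  exact (hall ξ hξ).mp ((hE ξ).mp hex)

end Cfsg.Agent.S4426
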