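import Cfsg.Statements.S4428
import Cfsg.Agent.Helper22.BlkHtZero2

set_option autoImplicit false
open Cfsg
open Cfsg.Agent.Helper5 Cfsg.Agent.Helper24 Cfsg.Agent.Helper22

namespace Cfsg.Agent.S4428

/-- Let χ be an irreducible character of height zero in the p-block B of the finite group G (relative to a maximal ideal M of the algebraic integers containing p). Let x be a p-element of G with centralizer C, and let b be a block of C that induces B. Form the class function ϑ(c) = χ(x c) on C and its b-part (the sum over ψ ∈ b of the inner product of ϑ with ψ, times ψ). Then the b-part of ϑ does not vanish identically on the p-regular elements of C. (Compare the second main Theorem, which gives vanishing when b does not induce B.) -/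
theorem result {G : Type*} [Group G] [Finite G] (p : ℕ) [Fact p.Prime] (M : Ideal Cfsg.AlgInt) (hM : Cfsg.IsPModular p M) (B : Set (Cfsg.IrrCharacter G)) (hB : Cfsg.IsPBlock M B) (χ : Cfsg.IrrCharacter G) (hχ : χ ∈ B) (h0 : Cfsg.blockHeight p B (χ : G → ℂ) = 0) (x : G) (hx : ∃ k : ℕ, orderOf x = p ^ k) (b : Set (Cfsg.IrrCharacter (Subgroup.centralizer ({x} : Set G)))) (hb : Cfsg.IsInducedBlock M (Subgroup.centralizer ({x} : Set G)) b B) : ∃ y : Subgroup.centralizer ({x} : Set G), ¬ p ∣ orderOf y ∧ Cfsg.blockPart b (fun c : Subgroup.centralizer ({x} : Set G) => (χ : G → ℂ) (x * (c : G))) y ≠ 0 := by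
  classical
  haveI := Fintype.ofFinite G
  haveI : Fintype (Subgroup.centralizer ({x} : Set G)) := Fintype.ofFinite _
  haveI hMp : M.IsPrime := hM.2.1.isPrime
  obtain ⟨k, hk⟩ := hx
  obtain ⟨⟨ψ, rfl⟩, ⟨χ₀, rfl⟩, hcong⟩ := hb
  have hψ : ψ ∈ blockOf M (ψ : Subgroup.centralizer ({x} : Set G) → ℂ) := sameBlock_refl _
  have hu := unit_of_height_zero hM χ₀ χ hχ h0
  have key := tildeC_induced_congr (p := p) (Subgroup.centralizer ({x} : Set G)) ψ χ
    (hcong ψ hψ χ hχ) χ
  have hH : ¬ MemLocalIdeal M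
      (tildeC p (fun h : Subgroup.centralizer ({x} : Set G) => (χ : G → ℂ) h) ψ) := by
    intro h
    apply hu
    have h2 := memLocalIdeal_sub h key
    rwa [sub_sub_cancel] at h2
  obtain ⟨f, hf⟩ : ∃ f : Subgroup.centralizer ({x} : Set G) → ℂ,
      f = fun c : Subgroup.centralizer ({x} : Set G) => (χ : G → ℂ) (x * (c : G)) := ⟨_, rfl⟩
  rw [← hf]
  have hcomm : ∀ h : Subgroup.centralizer ({x} : Set G), x * (h : G) = (h : G) * x :=
    fun h => Subgroup.mem_centralizer_iff.mp h.2 x (Set.mem_singleton x)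
  have hfcl : IsClassFunction (Subgroup.centralizer ({x} : Set G)) f := by
    intro g h
    rw [hf]
    show (χ : G → ℂ) (x * ((h : G) * (g : G) * (h : G)⁻¹)) = (χ : G → ℂ) (x * (g : G))
    have e : x * ((h : G) * (g : G) * (h : G)⁻¹) = (h : G) * (x * (g : G)) * (h : G)⁻¹ := by
      calc x * ((h : G) * (g : G) * (h : G)⁻¹) = (x * (h : G)) * (g : G) * (h : G)⁻¹ := by group
        _ = ((h : G) * x) * (g : G) * (h : G)⁻¹ := by rw [hcomm h]
        _ = (h : G) * (x * (g : G)) * (h : G)⁻¹ := by group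
    rw [e]
    exact irr_isClassFunction χ _ _
  have hgcl : IsClassFunction (Subgroup.centralizer ({x} : Set G))
      (fun h : Subgroup.centralizer ({x} : Set G) => (χ : G → ℂ) h) :=
    fun g h => irr_isClassFunction χ (g : G) (h : G)
  obtain ⟨n, ρ, hρ, hχρ⟩ := χ.2
  have hdiff : ∀ y : Subgroup.centralizer ({x} : Set G), MemLocalIdeal M
      ((f - fun h : Subgroup.centralizer ({x} : Set G) => (χ : G → ℂ) h) y) := by
    intro y
    obtain ⟨z, hz, hzv⟩ := char_sub_mem_of_ppart hM ρ (x * (y : G)) x (y : G) rfl (hcomm y) hk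
    have h1 := memLocalIdeal_of_mem hMp.ne_top hz
    rw [hzv, hχρ] at h1
    rw [hf]
    exact h1
  have hsubcl : IsClassFunction (Subgroup.centralizer ({x} : Set G))
      (f - fun h : Subgroup.centralizer ({x} : Set G) => (χ : G → ℂ) h) := by
    intro g h
    have h1 := hfcl g h
    have h2 := hgcl g h
    show f (h * g * h⁻¹) - (χ : G → ℂ) ((h * g * h⁻¹ : Subgroup.centralizer ({x} : Set G)) : G) =
      f g - (χ : G → ℂ) (g : G)
    rw [h1]
    exact congrArg (fun t => f g - t) h2
  have hT2 : MemLocalIdeal M (tildeC p f ψ -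
      tildeC p (fun h : Subgroup.centralizer ({x} : Set G) => (χ : G → ℂ) h) ψ) := by
    rw [← tildeC_sub]
    exact tildeC_memIdeal p _ hsubcl hdiff ψ
  have hfu : ¬ MemLocalIdeal M (tildeC p f ψ) := by
    intro h
    apply hH
    have h2 := memLocalIdeal_sub h hT2
    rwa [sub_sub_cancel] at h2
  by_contra hcon
  apply hfu
  have hv : ∀ y : Subgroup.centralizer ({x} : Set G), ¬ p ∣ orderOf y →
      blockPart (blockOf M (ψ : Subgroup.centralizer ({x} : Set G) → ℂ)) f y = 0 := by
    intro y hy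
    by_contra hne
    exact hcon ⟨y, hy, hne⟩
  rw [← tildeC_blockPart hM f hfcl ψ, tildeC_eq_zero_of_vanish p _ ψ hv]
  exact memLocalIdeal_zero hMp.ne_top

end Cfsg.Agent.S4428
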