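import Cfsg.Statements.S4430
import Cfsg.Agent.Helper22.BlkIndPart

set_option autoImplicit false
open Cfsg
open Cfsg.Agent.Helper5 Cfsg.Agent.Helper24 Cfsg.Agent.Helper22

namespace Cfsg.Agent.S4430

/-- Let H be a subgroup of the finite group G, b a block of H whose induced block B₀ in G is defined (relative to a maximal ideal M of the algebraic integers containing p), and ξ ∈ b. For a block B of G let n_B be the value at 1 of the B-part of the induced character ξ^G (a natural number: the sum over χ ∈ B of the multiplicity of χ in ξ^G times χ(1)). Then for B = B₀ the exact power of p dividing n_B equals the exact power of p dividing ξ^G(1), while for every other block B either n_B = 0 or n_B is divisible by a strictly higher power of p than ξ^G(1). -/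
theorem result {G : Type*} [Group G] [Fintype G] (p : ℕ) [Fact p.Prime] (M : Ideal Cfsg.AlgInt) (hM : Cfsg.IsPModular p M) (H : Subgroup G) [Fintype H] (b : Set (Cfsg.IrrCharacter H)) (B₀ : Set (Cfsg.IrrCharacter G)) (hind : Cfsg.IsInducedBlock M H b B₀) (ξ : Cfsg.IrrCharacter H) (hξ : ξ ∈ b) : (∃ n : ℕ, Cfsg.blockPart B₀ (Cfsg.indFun H (ξ : H → ℂ)) 1 = (n : ℂ) ∧ n ≠ 0 ∧ n.factorization p = (Cfsg.charDegree (Cfsg.indFun H (ξ : H → ℂ))).factorization p) ∧ ∀ B : Set (Cfsg.IrrCharacter G), Cfsg.IsPBlock M B → B ≠ B₀ → ∃ n : ℕ, Cfsg.blockPart B (Cfsg.indFun H (ξ : H → ℂ)) 1 = (n : ℂ) ∧ (n = 0 ∨ (Cfsg.charDegree (Cfsg.indFun H (ξ : H → ℂ))).factorization p < n.factorization p) := by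
  classical
  haveI hMp : M.IsPrime := hM.2.1.isPrime
  have hp : p.Prime := Fact.out
  obtain ⟨hb, ⟨χ₀, rfl⟩, hcong⟩ := hind
  obtain ⟨hd1, hd0, -⟩ := irr_charDegree_spec ξ
  have hidx0 : H.index ≠ 0 := Subgroup.index_ne_zero_of_finite
  obtain ⟨D, hD⟩ : ∃ D : ℕ, D = H.index * charDegree (ξ : H → ℂ) := ⟨_, rfl⟩
  have hD0 : D ≠ 0 := by rw [hD]; exact mul_ne_zero hidx0 hd0
  have hind1 : indFun H (ξ : H → ℂ) 1 = (D : ℂ) := by
    rw [Cfsg.Agent.Helper24.indFun_one, hd1, hD, Nat.cast_mul]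
  have hdeg : charDegree (indFun H (ξ : H → ℂ)) = D :=
    Cfsg.Agent.Helper24.charDegree_of_eq hind1
  rw [hdeg]
  obtain ⟨a, ha1, -⟩ := isCharacter_decomp
    (isCharacter_induced H _ (isCharacter_of_isIrrCharacter ξ.2))
  have hkey : ∀ χ₁ : IrrCharacter G, MemLocalIdeal M (((∑ χ : IrrCharacter G,
      if χ ∈ blockOf M (χ₁ : G → ℂ) then a χ * charDegree (χ : G → ℂ) else 0 : ℕ) : ℂ) / (D : ℂ) -
      (if χ₀ ∈ blockOf M (χ₁ : G → ℂ) then (1 : ℂ) else 0)) := by
    intro χ₁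
    have h1 := indPart_congr H ξ χ₀ χ₁ (hcong ξ hξ χ₀ (sameBlock_refl _)) a ha1
    rw [hind1] at h1
    exact h1
  have hpart : ∀ χ₁ : IrrCharacter G,
      blockPart (blockOf M (χ₁ : G → ℂ)) (indFun H (ξ : H → ℂ)) 1 = ((∑ χ : IrrCharacter G,
        if χ ∈ blockOf M (χ₁ : G → ℂ) then a χ * charDegree (χ : G → ℂ) else 0 : ℕ) : ℂ) :=
    fun χ₁ => blockPart_one_natCast _ _ a ha1
  refine ⟨?_, ?_⟩
  · have hmem : χ₀ ∈ blockOf M (χ₀ : G → ℂ) := sameBlock_refl _
    have h1 := hkey χ₀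
    rw [if_pos hmem] at h1
    obtain ⟨n, hn⟩ : ∃ n : ℕ, n = ∑ χ : IrrCharacter G,
        if χ ∈ blockOf M (χ₀ : G → ℂ) then a χ * charDegree (χ : G → ℂ) else 0 := ⟨_, rfl⟩
    rw [← hn] at h1
    have hn0 : n ≠ 0 := by
      intro h0
      rw [h0, Nat.cast_zero, zero_div, zero_sub] at h1
      exact not_memLocalIdeal_one (memLocalIdeal_neg_iff.mp h1)
    have hnotI : ¬ MemLocalIdeal M ((n : ℂ) / (D : ℂ)) := by
      intro h
      have h2 := memLocalIdeal_sub h h1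
      rw [sub_sub_cancel] at h2
      exact not_memLocalIdeal_one h2
    have hR : MemLocalRing M ((n : ℂ) / (D : ℂ)) := by
      have h2 := (locRing M).add_mem (mem_locRing.mpr (memLocalIdeal_memLocalRing h1))
        (locRing M).one_mem
      rw [sub_add_cancel] at h2
      exact mem_locRing.mp h2
    have hnd := nat_div_mem hM hn0 hD0
    refine ⟨n, ?_, hn0, ?_⟩
    · rw [hpart χ₀, hn]
    · have h3 := hnd.1.mp hR
      have h4 : ¬ (D.factorization p < n.factorization p) := fun h => hnotI (hnd.2.mpr h)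
      omega
  · rintro B ⟨χ₁, rfl⟩ hne
    have hns : χ₀ ∉ blockOf M (χ₁ : G → ℂ) := fun h =>
      hne (blockOf_eq_of_sameBlock (h : SameBlock M (χ₁ : G → ℂ) (χ₀ : G → ℂ)))
    have h1 := hkey χ₁
    rw [if_neg hns, sub_zero] at h1
    obtain ⟨n, hn⟩ : ∃ n : ℕ, n = ∑ χ : IrrCharacter G,
        if χ ∈ blockOf M (χ₁ : G → ℂ) then a χ * charDegree (χ : G → ℂ) else 0 := ⟨_, rfl⟩
    rw [← hn] at h1
    refine ⟨n, by rw [hpart χ₁, hn], ?_⟩
    by_cases hn0 : n = 0
    · exact Or.inl hn0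
    · exact Or.inr ((nat_div_mem hM hn0 hD0).2.mp h1)

end Cfsg.Agent.S4430
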