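import Cfsg.Statements.S4431
import Cfsg.Agent.Helper22.BlkHtZero

set_option autoImplicit false
open Cfsg
open Cfsg.Agent.Helper5 Cfsg.Agent.Helper24 Cfsg.Agent.Helper22

namespace Cfsg.Agent.S4431

/-- Let H be a subgroup of the finite group G and b a block of H whose induced block B₀ in G is defined (relative to a maximal ideal M of the algebraic integers containing p). Let χ be an irreducible character of G, ψ ∈ b, and let η be the class function on H equal to p^a · χ on the p-regular elements of H and zero elsewhere, p^a being the p-part of the order of H. Then (a) if χ ∉ B₀, the number [η, ψ]/ψ(1) lies in the local ideal at M; (b) if χ ∈ B₀ has height zero, it does not. -/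
theorem result {G : Type*} [Group G] [Fintype G] (p : ℕ) [Fact p.Prime] (M : Ideal Cfsg.AlgInt) (hM : Cfsg.IsPModular p M) (H : Subgroup G) [Fintype H] (b : Set (Cfsg.IrrCharacter H)) (B₀ : Set (Cfsg.IrrCharacter G)) (hind : Cfsg.IsInducedBlock M H b B₀) (χ : Cfsg.IrrCharacter G) (ψ : Cfsg.IrrCharacter H) (hψ : ψ ∈ b) : (χ ∉ B₀ → Cfsg.MemLocalIdeal M (Cfsg.classInner (fun h : H => if p ∣ orderOf h then (0 : ℂ) else ((p ^ (Nat.card H).factorization p : ℕ) : ℂ) * (χ : G → ℂ) h) (ψ : H → ℂ) / (ψ : H → ℂ) 1)) ∧ (χ ∈ B₀ → Cfsg.blockHeight p B₀ (χ : G → ℂ) = 0 → ¬ Cfsg.MemLocalIdeal M (Cfsg.classInner (fun h : H => if p ∣ orderOf h then (0 : ℂ) else ((p ^ (Nat.card H).factorization p : ℕ) : ℂ) * (χ : G → ℂ) h) (ψ : H → ℂ) / (ψ : H → ℂ) 1)) := by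
  classical
  haveI hMp : M.IsPrime := hM.2.1.isPrime
  obtain ⟨hb, ⟨χ₀, rfl⟩, hcong⟩ := hind
  have hQH : ∀ χ' : IrrCharacter G, χ' ∈ blockOf M (χ₀ : G → ℂ) →
      MemLocalIdeal M (tildeC p (fun h : H => (χ : G → ℂ) h) ψ - tildeC p (χ : G → ℂ) χ') :=
    fun χ' hχ' => tildeC_induced_congr H ψ χ' (hcong ψ hψ χ' hχ') χ
  have hiffH : MemLocalIdeal M (classInner (fun h : H => if p ∣ orderOf h then (0 : ℂ) else
      ((p ^ (Nat.card H).factorization p : ℕ) : ℂ) * (χ : G → ℂ) h) (ψ : H → ℂ) / (ψ : H → ℂ) 1) ↔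
      MemLocalIdeal M (tildeC p (fun h : H => (χ : G → ℂ) h) ψ) :=
    tilde_Q_ideal_iff hM (fun h : H => (χ : G → ℂ) h) ψ
  refine ⟨fun hχ => ?_, fun hχ h0 hmem => ?_⟩
  · have h0 : tildeC p (χ : G → ℂ) χ₀ = 0 :=
      tildeC_eq_zero hM χ χ₀ (fun h => hχ (sameBlock_symm h))
    have h1 := hQH χ₀ (sameBlock_refl _)
    rw [h0, sub_zero] at h1
    exact hiffH.mpr h1
  · have h1 := hiffH.mp hmem
    have h2 := hQH χ hχ
    have h3 : MemLocalIdeal M (tildeC p (χ : G → ℂ) χ) := by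
      have h4 := memLocalIdeal_sub h1 h2
      rwa [sub_sub_cancel] at h4
    exact unit_of_height_zero hM χ₀ χ hχ h0 h3

end Cfsg.Agent.S4431
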