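import Cfsg.Statements.S4438
import Cfsg.Agent.Helper5.KnGen

set_option autoImplicit false
open Cfsg

namespace Cfsg.Agent.S4438

/-- Let N be a normal subgroup of the finite group G, b a block of N with defect group Q, and B a block of G covering b (some member of B has a constituent in b on restriction to N), all relative to a maximal ideal M of the algebraic integers containing p. Then B has a defect group P with P ⊓ N = Q. -/
theorem result {G : Type*} [Group G] [Fintype G] (p : ℕ) [Fact p.Prime] (M : Ideal Cfsg.AlgInt) (hM : Cfsg.IsPModular p M) (N : Subgroup G) [hN : N.Normal] [Fintype N] (b : Set (Cfsg.IrrCharacter N)) (hb : Cfsg.IsPBlock M b) (Q : Subgroup G) (hQN : Q ≤ N) (hQ : Cfsg.IsDefectGroup p M b (Q.subgroupOf N)) (B : Set (Cfsg.IrrCharacter G)) (hB : Cfsg.IsPBlock M B) (hcov : (∃ χ ∈ B, ∃ θ ∈ b, Cfsg.classInner (fun n : N => (χ : G → ℂ) n) (θ : N → ℂ) ≠ 0)) : ∃ P : Subgroup G, Cfsg.IsDefectGroup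 p M B P ∧ P ⊓ N = Q := by
  classical
  haveI : M.IsPrime := hM.2.1.isPrime
  obtain ⟨θ₀, rfl⟩ := hb
  obtain ⟨χ₀, rfl⟩ := hB
  obtain ⟨D, hD, -, hDN⟩ := Cfsg.Agent.Helper5.knorr_general N hM θ₀ χ₀ hcov
  obtain ⟨n, hn⟩ := Cfsg.Agent.Helper5.defect_groups_conj hM θ₀ _ _ hDN hQ
  refine ⟨D.map (MulAut.conj (n : G)).toMonoidHom,
    Cfsg.Agent.Helper5.isDefectGroup_conj hM χ₀ D hD (n : G), ?_⟩
  ext g
  constructor
  · rintro ⟨⟨d, hd, rfl⟩, hgN⟩
    have hgN' : (n : G) * d * (n : G)⁻¹ ∈ N := hgN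
    have hdN : d ∈ N := by
      have h := hN.conj_mem _ hgN' (n : G)⁻¹
      have e : (n : G)⁻¹ * ((n : G) * d * (n : G)⁻¹) * (n : G)⁻¹⁻¹ = d := by group
      rwa [e] at h
    have h1 : (⟨(n : G) * d * (n : G)⁻¹, hgN'⟩ : N) ∈ Q.subgroupOf N := by
      rw [hn]
      exact ⟨⟨d, hdN⟩, Subgroup.mem_subgroupOf.mpr ⟨hd, hdN⟩, Subtype.ext rfl⟩
    exact Subgroup.mem_subgroupOf.mp h1
  · intro hg
    have hgN : g ∈ N := hQN hg
    have h1 : (⟨g, hgN⟩ : N) ∈ Q.subgroupOf N := Subgroup.mem_subgroupOf.mpr hg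
    rw [hn] at h1
    obtain ⟨m, hm, hmg⟩ := h1
    have hm' : (m : G) ∈ D ⊓ N := Subgroup.mem_subgroupOf.mp hm
    have hmg' : (n : G) * m * (n : G)⁻¹ = g := congrArg Subtype.val hmg
    exact ⟨⟨m, hm'.1, hmg'⟩, hgN⟩

end Cfsg.Agent.S4438
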