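import Cfsg.Statements.S4447
import Mathlib
import Cfsg.Agent.Helper5.GlaubTr

set_option autoImplicit false
open Cfsg

namespace Cfsg.Agent.S4447

/-- Inside a finite group Γ let S normalise G and also normalise a normal subgroup N of G, with the order of S coprime to the index of N in G and S or G/N solvable. Then for every S-invariant irreducible character χ of G, the restriction of χ to N has an S-invariant irreducible constituent. -/
theorem result {Γ : Type*} [Group Γ] [Fintype Γ] (G S N : Subgroup Γ) [Fintype G] [Fintype N] (hnorm : ∀ s ∈ S, ∀ g ∈ G, s * g * s⁻¹ ∈ G) (hNG : N ≤ G) [hNn : (N.subgroupOf G).Normal] (hNS : ∀ s ∈ S, ∀ n ∈ N, s * n * s⁻¹ ∈ N) (hcop : (N.relIndex G).Coprime (Nat.card S)) (hsolv : Group.IsSolvable S ∨ Group.IsSolvable (G ⧸ N.subgroupOf G)) (χ : Cfsg.IrrCharacter G) (hinv : (∀ s ∈ S, ∀ g g' : G, (g' : Γ) = s * g * s⁻¹ → (χ : G → ℂ) g' = (χ : G → ℂ) g)) : ∃ θ : Cfsg.IrrCharacter N, Cfsg.classInner (fun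 n : N => (χ : G → ℂ) ⟨n, hNG n.2⟩) (θ : N → ℂ) ≠ 0 ∧ (∀ s ∈ S, ∀ g g' : N, (g' : Γ) = s * g * s⁻¹ → (θ : N → ℂ) g' = (θ : N → ℂ) g) := by
  classical
  obtain ⟨L, hGL, hSL, hLG, hLN⟩ := Cfsg.Agent.Helper5.setup_L G S N hnorm hNG hNS
  have hNL : N ≤ L := hNG.trans hGL
  have hG' : (G.subgroupOf L).Normal :=
    (Subgroup.normal_subgroupOf_iff_le_normalizer hGL).mpr hLG
  have hN' : (N.subgroupOf L).Normal :=
    (Subgroup.normal_subgroupOf_iff_le_normalizer hNL).mpr hLN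
  have hNG' : N.subgroupOf L ≤ G.subgroupOf L := fun x hx => hNG hx
  have : Fintype (G.subgroupOf L) := Fintype.ofFinite _
  have : Fintype (N.subgroupOf L) := Fintype.ofFinite _
  have : Fintype L := Fintype.ofFinite _
  have hcop' : ((N.subgroupOf L).relIndex (G.subgroupOf L)).Coprime
      (Nat.card (S.subgroupOf L)) := by
    rw [Subgroup.relIndex_subgroupOf hGL,
      Nat.card_congr (Subgroup.subgroupOfEquivOfLe hSL).toEquiv]
    exact hcop
  have hsolv' : Group.IsSolvable (S.subgroupOf L) ∨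
      Group.IsSolvable ((G.subgroupOf L) ⧸ (N.subgroupOf L).subgroupOf (G.subgroupOf L)) := by
    rcases hsolv with h | h
    · exact Or.inl (Cfsg.Agent.Helper5.solvable_sub_down hSL h)
    · exact Or.inr (Cfsg.Agent.Helper5.solvable_quot_down hGL h)
  obtain ⟨θ', hθ', hθinv'⟩ := Cfsg.Agent.Helper5.exists_invariant_constituent
    (G.subgroupOf L) (N.subgroupOf L) (S.subgroupOf L) hNG' hcop' hsolv'
    ⟨Cfsg.Agent.Helper5.resSub G L (χ : G → ℂ),
      Cfsg.Agent.Helper5.isIrrCharacter_resSub hGL _ χ.2⟩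
    (Cfsg.Agent.Helper5.inv_down _ hinv)
  obtain ⟨θ, hθ⟩ := Cfsg.Agent.Helper5.exists_irr_up hNL θ'
  refine ⟨θ, ?_, Cfsg.Agent.Helper5.inv_up hNL hSL _ (by rw [hθ]; exact hθinv')⟩
  rw [← hθ] at hθ'
  rw [← Cfsg.Agent.Helper5.classInner_resSub hNL]
  exact hθ'

end Cfsg.Agent.S4447
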