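import Mathlib
import Cfsg.Statements.S4455
import Cfsg.Agent.Helper5.PRes2

set_option autoImplicit false
open Cfsg

namespace Cfsg.Agent.S4455

open Cfsg.Agent.Helper5

/-- Fix a prime p and a finite group G. Let s be the sum of χ(1)² over the irreducible characters χ of G whose degree is not divisible by p and whose determinantal order o(χ) is not divisible by p. Then the order of O^p(G), the subgroup generated by the elements of order prime to p, is congruent to s modulo p. -/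
theorem result {G : Type*} [Group G] [Finite G] (p : ℕ) (hp : p.Prime) : (Nat.card (Cfsg.pResidual p G) : ℤ) ≡ (∑ᶠ χ ∈ {χ : Cfsg.IrrCharacter G | ¬ p ∣ Cfsg.charDegree (χ : G → ℂ) ∧ ¬ p ∣ Cfsg.detOrder (χ : G → ℂ)}, (Cfsg.charDegree (χ : G → ℂ) : ℤ) ^ 2) [ZMOD p] := by
  classical
  haveI : Fact p.Prime := ⟨hp⟩
  have hN := Cfsg.Agent.Helper6.pResidual_normal p G
  have hpg : IsPGroup p (G ⧸ pResidual p G) :=
    Cfsg.Agent.Helper6.isPGroup_quotient_pResidual p _ le_rfl
  obtain ⟨k, hk⟩ := IsPGroup.iff_card.mp hpg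
  have hidx : ∃ k : ℕ, (pResidual p G).index = p ^ k :=
    ⟨k, by rw [Subgroup.index_eq_card]; exact hk⟩
  obtain ⟨S, hS⟩ : ∃ S : Finset (IrrCharacter G), ∀ χ : IrrCharacter G, χ ∈ S ↔
      ¬ p ∣ charDegree (χ : G → ℂ) ∧ ¬ p ∣ detOrder (χ : G → ℂ) :=
    ⟨Finset.univ.filter (fun χ : IrrCharacter G =>
        ¬ p ∣ charDegree (χ : G → ℂ) ∧ ¬ p ∣ detOrder (χ : G → ℂ)),
      fun χ => by rw [Finset.mem_filter]; exact ⟨fun h => h.2, fun h => ⟨Finset.mem_univ _, h⟩⟩⟩
  have h := card_modEq_sum_degree_sq p (pResidual p G) hidx (pResidual_pResidual p G) S hS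
  have hset : {χ : Cfsg.IrrCharacter G | ¬ p ∣ Cfsg.charDegree (χ : G → ℂ) ∧
      ¬ p ∣ Cfsg.detOrder (χ : G → ℂ)} = ↑S := by
    ext χ
    rw [Finset.mem_coe, hS]
    rfl
  rw [hset, finsum_mem_coe_finset]
  have h2 := (Int.natCast_modEq_iff).mpr h
  push_cast at h2
  exact h2

end Cfsg.Agent.S4455
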