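import Mathlib
import Cfsg.Statements.S4456
import Cfsg.Agent.Helper5.PRes

set_option autoImplicit false
open Cfsg

namespace Cfsg.Agent.S4456

open Cfsg.Agent.Helper5

/-- Let p be a prime and G a finite group such that p divides the degree of every irreducible character of G of degree greater than one. Then G has a normal p-complement: a normal subgroup of order prime to p whose index is a power of p. -/
theorem result {G : Type*} [Group G] [Finite G] (p : ℕ) (hp : p.Prime) (hdeg : ∀ χ : Cfsg.IrrCharacter G, Cfsg.charDegree (χ : G → ℂ) ≠ 1 → p ∣ Cfsg.charDegree (χ : G → ℂ)) : ∃ N : Subgroup G, N.Normal ∧ (Nat.card N).Coprime p ∧ ∃ k : ℕ, N.index = p ^ k := by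
  haveI : Fact p.Prime := ⟨hp⟩
  have hN := Cfsg.Agent.Helper6.pResidual_normal p G
  have hpg : IsPGroup p (G ⧸ pResidual p G) :=
    Cfsg.Agent.Helper6.isPGroup_quotient_pResidual p _ le_rfl
  obtain ⟨k, hk⟩ := IsPGroup.iff_card.mp hpg
  have hidx : ∃ k : ℕ, (pResidual p G).index = p ^ k :=
    ⟨k, by rw [Subgroup.index_eq_card]; exact hk⟩
  refine ⟨pResidual p G, hN, ?_, hidx⟩
  have h := not_dvd_card_of_degrees p (pResidual p G) hidx (pResidual_pResidual p G) hdeg
  exact ((Nat.Prime.coprime_iff_not_dvd hp).mpr h).symm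

end Cfsg.Agent.S4456
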