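import Mathlib
import Cfsg.Statements.S4464
import Cfsg.Agent.Helper5.SylDeg

set_option autoImplicit false
open Cfsg

namespace Cfsg.Agent.S4464

open Cfsg.Agent.Helper5 Cfsg.Agent.Helper24

/-- Let p be a prime and G a finite group all of whose irreducible character degrees are less than p. Then G has a normal abelian Sylow p-subgroup. -/
theorem result {G : Type*} [Group G] [Finite G] (p : ℕ) (hp : p.Prime) (hb : ∀ χ : Cfsg.IrrCharacter G, Cfsg.charDegree (χ : G → ℂ) < p) : ∃ P : Subgroup G, P.Normal ∧ (∀ x ∈ P, ∀ y ∈ P, x * y = y * x) ∧ IsPGroup p P ∧ ¬ p ∣ P.index := by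
  classical
  haveI : Fact p.Prime := ⟨hp⟩
  have : Fintype G := Fintype.ofFinite G
  obtain ⟨P⟩ : Nonempty (Sylow p G) := inferInstance
  have hPn : (P : Subgroup G).Normal := sylow_normal_of_degree_lt p hb P
  refine ⟨(P : Subgroup G), hPn, ?_, P.isPGroup', P.not_dvd_index⟩
  have : Fintype ↥(P : Subgroup G) := Fintype.ofFinite _
  have hlin : ∀ ψ : IrrCharacter ↥(P : Subgroup G), (ψ : ↥(P : Subgroup G) → ℂ) 1 = 1 := by
    intro ψ
    obtain ⟨χ, hχ⟩ := exists_irr_over (P : Subgroup G) (ψ : ↥(P : Subgroup G) → ℂ) ψ.2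
    obtain ⟨n, ρ, hρ, hρψ⟩ := ψ.2
    have hψ1 : (ψ : ↥(P : Subgroup G) → ℂ) 1 = n := by rw [← hρψ, char_one_fin]
    have hc := (Cfsg.Agent.Helper22.charDegree_irr χ).1
    have hS := Cfsg.Agent.S0887.result (P : Subgroup G) (χ : G → ℂ) χ.2
      (ψ : ↥(P : Subgroup G) → ℂ) ψ.2 hχ _ n hc.symm hψ1
    have hnlt : n < p :=
      lt_of_le_of_lt (Nat.le_of_dvd (Cfsg.Agent.Helper22.charDegree_irr χ).2 hS.1) (hb χ)
    have : ρ.IsIrreducible := hρ
    have hdvd := degree_dvd_card ρ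
    rw [Module.finrank_fin_fun] at hdvd
    obtain ⟨k, hk⟩ := (IsPGroup.iff_card.mp P.isPGroup')
    rw [hk] at hdvd
    obtain ⟨i, -, hi⟩ := (Nat.dvd_prime_pow hp).mp hdvd
    rcases Nat.eq_zero_or_pos i with h0 | h0
    · rw [hψ1, hi, h0]; simp
    · exfalso
      have h1 : p ≤ n := by rw [hi]; exact Nat.le_self_pow h0.ne' p
      omega
  intro x hx y hy
  exact congrArg Subtype.val (comm_of_forall_irr_one hlin ⟨x, hx⟩ ⟨y, hy⟩)

end Cfsg.Agent.S4464
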