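import Cfsg.Statements.S4473
import Cfsg.Agent.Helper12.Deg2C

set_option autoImplicit false
open Cfsg

namespace Cfsg.Agent.S4473

/-- Let the finite group G have a faithful irreducible character χ of degree 2 that is primitive: χ is not induced from a character of any proper subgroup. Then the centre of G has index 12, 24 or 60. -/
theorem result {G : Type*} [Group G] [Fintype G] (χ : Cfsg.IrrCharacter G) (hfaith : ∀ g : G, (χ : G → ℂ) g = (χ : G → ℂ) 1 → g = 1) (h2 : Cfsg.charDegree (χ : G → ℂ) = 2) (hprim : ∀ H : Subgroup G, H ≠ ⊤ → ∀ θ : H → ℂ, Cfsg.IsCharacter H θ → (χ : G → ℂ) ≠ Cfsg.indFun H θ) : (Subgroup.center G).index = 12 ∨ (Subgroup.center G).index = 24 ∨ (Subgroup.center G).index = 60 := by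
  obtain ⟨χ, n, ρ, hirr, rfl⟩ := χ
  have hfaith' : ∀ g : G, ρ.character g = ρ.character 1 → g = 1 := hfaith
  have h2' : Cfsg.charDegree ρ.character = 2 := h2
  have hprim' : ∀ H : Subgroup G, H ≠ ⊤ → ∀ θ : H → ℂ, Cfsg.IsCharacter H θ →
      ρ.character ≠ Cfsg.indFun H θ := hprim
  have hχ1 : ρ.character 1 = (n : ℂ) := by
    show LinearMap.trace ℂ (Fin n → ℂ) (ρ 1) = n
    rw [map_one, LinearMap.trace_one]
    simp
  have hn : n = 2 := by
    unfold Cfsg.charDegree at h2'
    rw [hχ1] at h2'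
    simpa using h2'
  subst hn
  haveI := hirr
  have hinj : Function.Injective ρ := by
    intro a b hab
    have h3 : ρ (a * b⁻¹) = 1 := by rw [map_mul, hab, ← map_mul, mul_inv_cancel, map_one]
    have h4 : ρ.character (a * b⁻¹) = ρ.character 1 := by
      show LinearMap.trace ℂ _ (ρ (a * b⁻¹)) = LinearMap.trace ℂ _ (ρ 1)
      rw [h3, map_one ρ]
    exact mul_inv_eq_one.mp (hfaith' _ h4)
  exact Cfsg.Agent.Helper12.D2.main ρ hinj hprim'

end Cfsg.Agent.S4473
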