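import Cfsg.Statements.S4476
import Cfsg.Agent.Helper22.FrobSchur2

set_option autoImplicit false
open Cfsg

namespace Cfsg.Agent.S4476

/-- Let G be a finite group of even order g with exactly t involutions, and put α = (g − 1)/t (a rational number). Then (a) some non-identity element x of G has at most α² conjugates; and (b) some non-principal real-valued irreducible character of G has degree at most α. -/
theorem result {G : Type*} [Group G] [Fintype G] (heven : Even (Nat.card G)) (t : ℕ) (ht : Nat.card {x : G // orderOf x = 2} = t) : (∃ x : G, x ≠ 1 ∧ ((Subgroup.centralizer ({x} : Set G)).index : ℚ) ≤ (((Nat.card G : ℚ) - 1) / t) ^ 2) ∧ ∃ χ : Cfsg.IrrCharacter G, (χ : G → ℂ) ≠ (fun _ => 1) ∧ (∀ g : G, ((χ : G → ℂ) g).im = 0) ∧ (Cfsg.charDegree (χ : G → ℂ) : ℚ) ≤ ((Nat.card G : ℚ) - 1) / t := by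
  classical
  have hg2 : 2 ≤ Nat.card G := by
    obtain ⟨m, hm⟩ := heven
    have := Nat.card_pos (α := G)
    omega
  have ht1 : 1 ≤ t := by
    have := Fact.mk Nat.prime_two
    obtain ⟨x, hx⟩ := exists_prime_orderOf_dvd_card' (G := G) 2 (even_iff_two_dvd.mp heven)
    rw [← ht]
    have : Nonempty {x : G // orderOf x = 2} := ⟨⟨x, hx⟩⟩
    exact Nat.card_pos
  set g : ℚ := (Nat.card G : ℚ) with hgdef
  have hgq : (2 : ℚ) ≤ g := by rw [hgdef]; exact_mod_cast hg2
  have htq : (1 : ℚ) ≤ t := by exact_mod_cast ht1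
  set α : ℚ := (g - 1) / t with hα
  have hαpos : 0 < α := div_pos (by linarith) (by linarith)
  let d : IrrCharacter G → ℚ := fun χ => (Cfsg.charDegree (χ : G → ℂ) : ℚ)
  let ε : IrrCharacter G → ℚ := fun χ => (Cfsg.Agent.Helper22.fsInt χ : ℚ)
  have hdpos : ∀ χ, 0 < d χ := fun χ => by
    have := (Cfsg.Agent.Helper22.charDegree_irr χ).2
    show (0 : ℚ) < (Cfsg.charDegree (χ : G → ℂ) : ℚ)
    exact_mod_cast this
  have hεle : ∀ χ, ε χ ≤ 1 := fun χ => by
    have := Cfsg.Agent.Helper22.fsInt_le_one χ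
    show ((Cfsg.Agent.Helper22.fsInt χ : ℤ) : ℚ) ≤ 1
    exact_mod_cast this
  let χ0 : IrrCharacter G := Cfsg.Agent.Helper22.trivIrr G
  have hE1 : ∑ χ : IrrCharacter G, ε χ * d χ = 1 + t := by
    have h := Cfsg.Agent.Helper22.sum_fsInt_mul_deg (G := G)
    rw [ht] at h
    have h2 := congrArg (Int.cast : ℤ → ℚ) h
    push_cast at h2
    exact h2
  have hE2 : ∑ χ : IrrCharacter G, d χ ^ 2 = g := by
    have h := Cfsg.Agent.Helper22.sum_deg_sq (G := G)
    have h2 := congrArg (Nat.cast : ℕ → ℚ) h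
    push_cast at h2
    exact h2
  have hE1' : ∑ χ ∈ Finset.univ.erase χ0, ε χ * d χ = t := by
    have h := Finset.add_sum_erase Finset.univ (fun χ => ε χ * d χ) (Finset.mem_univ χ0)
    have h0 : ε χ0 * d χ0 = 1 := by
      simp [ε, d, χ0, Cfsg.Agent.Helper22.fsInt_trivIrr, Cfsg.Agent.Helper22.charDegree_trivIrr]
    linarith
  have hE2' : ∑ χ ∈ Finset.univ.erase χ0, d χ ^ 2 = g - 1 := by
    have h := Finset.add_sum_erase Finset.univ (fun χ => d χ ^ 2) (Finset.mem_univ χ0)
    have h0 : d χ0 ^ 2 = 1 := by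
      simp [d, χ0, Cfsg.Agent.Helper22.charDegree_trivIrr]
    linarith
  let R := (Finset.univ.erase χ0).filter (fun χ => Cfsg.Agent.Helper22.fsInt χ ≠ 0)
  have hR : (t : ℚ) ≤ ∑ χ ∈ R, d χ := by
    rw [← hE1']
    rw [← Finset.sum_filter_add_sum_filter_not (Finset.univ.erase χ0)
      (fun χ => Cfsg.Agent.Helper22.fsInt χ ≠ 0)]
    have hz : ∑ χ ∈ (Finset.univ.erase χ0).filter (fun χ => ¬ Cfsg.Agent.Helper22.fsInt χ ≠ 0),
        ε χ * d χ = 0 := by
      apply Finset.sum_eq_zero
      intro χ hχ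
      have h0 : Cfsg.Agent.Helper22.fsInt χ = 0 := not_not.mp (Finset.mem_filter.mp hχ).2
      simp [ε, h0]
    rw [hz, add_zero]
    apply Finset.sum_le_sum
    intro χ _
    have h1 := hεle χ
    have h2 := hdpos χ
    nlinarith
  have hRprop : ∀ χ ∈ R, (χ : G → ℂ) ≠ (fun _ => 1) ∧ ∀ x : G, ((χ : G → ℂ) x).im = 0 := by
    intro χ hχ
    have h1 := Finset.mem_filter.mp hχ
    have h2 : χ ≠ χ0 := Finset.ne_of_mem_erase h1.1
    exact ⟨fun h => h2 (Subtype.ext h), Cfsg.Agent.Helper22.fsInt_real χ h1.2⟩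
  refine ⟨?_, ?_⟩
  · by_contra hcon
    push Not at hcon
    set k : ℚ := (Fintype.card (IrrCharacter G) : ℚ) with hkdef
    have hk : ((Finset.univ.erase χ0).card : ℚ) = k - 1 := by
      rw [Finset.card_erase_of_mem (Finset.mem_univ _), Finset.card_univ]
      have h1 : 1 ≤ Fintype.card (IrrCharacter G) := Fintype.card_pos_iff.mpr ⟨χ0⟩
      rw [Nat.cast_sub h1]
      simp [hkdef]
    have hCS := sq_sum_le_card_mul_sum_sq (s := Finset.univ.erase χ0) (f := d)
    rw [hE2', hk] at hCS
    have hRd : (t : ℚ) ≤ ∑ χ ∈ Finset.univ.erase χ0, d χ := by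
      refine le_trans hR ?_
      apply Finset.sum_le_sum_of_subset_of_nonneg (Finset.filter_subset _ _)
      intro χ _ _
      exact (hdpos χ).le
    have ht2 : (t : ℚ) ^ 2 ≤ (k - 1) * (g - 1) := by
      have h0 : (0 : ℚ) ≤ t := by linarith
      calc (t : ℚ) ^ 2 ≤ (∑ χ ∈ Finset.univ.erase χ0, d χ) ^ 2 := by gcongr
        _ ≤ _ := hCS
    have hcent := Cfsg.Agent.Helper22.sum_card_centralizer (G := G)
    have hcent' : ∑ x : G, (Nat.card (Subgroup.centralizer ({x} : Set G)) : ℚ) = k * g := by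
      have h2 := congrArg (Nat.cast : ℕ → ℚ) hcent
      push_cast at h2
      exact h2
    have h1c : (Nat.card (Subgroup.centralizer ({1} : Set G)) : ℚ) = g := by
      have hc : Subgroup.centralizer ({1} : Set G) = ⊤ := by
        ext x; simp [Subgroup.mem_centralizer_singleton_iff]
      rw [hc, Subgroup.card_top]
    have hsplit := Finset.add_sum_erase Finset.univ
      (fun x : G => (Nat.card (Subgroup.centralizer ({x} : Set G)) : ℚ)) (Finset.mem_univ 1)
    have hbound : ∀ x ∈ Finset.univ.erase (1 : G),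
        (Nat.card (Subgroup.centralizer ({x} : Set G)) : ℚ) < g / α ^ 2 := by
      intro x hx
      have hx1 : x ≠ 1 := Finset.ne_of_mem_erase hx
      have h2 := hcon x hx1
      have h3 : (Nat.card (Subgroup.centralizer ({x} : Set G)) : ℚ) *
          ((Subgroup.centralizer ({x} : Set G)).index : ℚ) = g := by
        have := (Subgroup.centralizer ({x} : Set G)).card_mul_index
        rw [hgdef, ← this]
        push_cast
        rfl
      have hcpos : (0 : ℚ) < Nat.card (Subgroup.centralizer ({x} : Set G)) := by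
        exact_mod_cast Nat.card_pos
      rw [lt_div_iff₀ (by positivity)]
      nlinarith
    have hne : (Finset.univ.erase (1 : G)).Nonempty := by
      rw [← Finset.card_pos, Finset.card_erase_of_mem (Finset.mem_univ _), Finset.card_univ,
        ← Nat.card_eq_fintype_card]
      omega
    have hsum := Finset.sum_lt_sum_of_nonempty hne hbound
    rw [Finset.sum_const, Finset.card_erase_of_mem (Finset.mem_univ _), Finset.card_univ,
      nsmul_eq_mul] at hsum
    have hcard1 : ((Fintype.card G - 1 : ℕ) : ℚ) = g - 1 := by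
      have h1 : 1 ≤ Fintype.card G := Fintype.card_pos
      rw [Nat.cast_sub h1, hgdef, Nat.card_eq_fintype_card]
      simp
    rw [hcard1] at hsum
    have hα2 : (g - 1) * (g / α ^ 2) = g * t ^ 2 / (g - 1) := by
      have hg1 : g - 1 ≠ 0 := by linarith
      have ht0 : (t : ℚ) ≠ 0 := by linarith
      rw [hα]
      field_simp
    have hgpos : 0 < g := by linarith
    have hg1 : 0 < g - 1 := by linarith
    have h5 : k * g - g < g * t ^ 2 / (g - 1) := by linarith
    rw [lt_div_iff₀ hg1] at h5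
    nlinarith
  · by_contra hcon
    push Not at hcon
    have hRne : R.Nonempty := by
      by_contra hemp
      rw [Finset.not_nonempty_iff_eq_empty] at hemp
      rw [hemp, Finset.sum_empty] at hR
      linarith
    have h1 : ∑ χ ∈ R, α * d χ < ∑ χ ∈ R, d χ ^ 2 := by
      apply Finset.sum_lt_sum_of_nonempty hRne
      intro χ hχ
      have h2 := hcon χ (hRprop χ hχ).1 (hRprop χ hχ).2
      have h3 := hdpos χ
      have h4 : α < d χ := h2
      nlinarith
    have h2 : ∑ χ ∈ R, d χ ^ 2 ≤ g - 1 := by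
      rw [← hE2']
      apply Finset.sum_le_sum_of_subset_of_nonneg (Finset.filter_subset _ _)
      intro χ _ _
      positivity
    have h3 : α * t ≤ ∑ χ ∈ R, α * d χ := by
      rw [← Finset.mul_sum]
      exact mul_le_mul_of_nonneg_left hR hαpos.le
    have h4 : α * t = g - 1 := by
      have ht0 : (t : ℚ) ≠ 0 := by linarith
      rw [hα]
      field_simp
    linarith

end Cfsg.Agent.S4476
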