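import Cfsg.Statements.S4477
import Cfsg.Agent.Helper22.InvCount2
import Cfsg.Agent.Helper22.Brauer3
import Cfsg.Agent.Helper24.CharLinear


set_option autoImplicit false
open Cfsg
open Cfsg.Agent.Helper22 Cfsg.Agent.Helper24 Cfsg.Agent.Helper5

namespace Cfsg.Agent.S4477

/-- Let G be a finite 2-group whose number of involutions is congruent to 1 modulo 4. Then G is cyclic or its commutator subgroup has index 4. -/
theorem result {G : Type*} [Group G] [Finite G] (hG : IsPGroup 2 G) (ht : Nat.card {x : G // orderOf x = 2} % 4 = 1) : IsCyclic G ∨ (commutator G).index = 4 := by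
  classical
  haveI := Fintype.ofFinite G
  haveI : Fact (Nat.Prime 2) := ⟨Nat.prime_two⟩
  by_cases hcyc : IsCyclic G
  · exact Or.inl hcyc
  right
  obtain ⟨d, hd⟩ := IsPGroup.iff_card.mp (hG.to_quotient (frattini G))
  obtain ⟨n, hn⟩ := IsPGroup.iff_card.mp hG
  have hd2 : 2 ≤ d := by
    by_contra hlt
    apply hcyc
    have hQc : IsCyclic (G ⧸ frattini G) := by
      have hd' : d = 0 ∨ d = 1 := by omega
      rcases hd' with rfl | rfl
      · haveI : Subsingleton (G ⧸ frattini G) :=
          (Nat.card_eq_one_iff_unique.mp (by rw [hd, pow_zero])).1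
        infer_instance
      · exact isCyclic_of_prime_card (p := 2) (by rw [hd, pow_one])
    obtain ⟨q, hq⟩ := isCyclic_iff_exists_zpowers_eq_top.mp hQc
    obtain ⟨g, rfl⟩ := QuotientGroup.mk_surjective q
    have htop : Subgroup.zpowers g ⊔ frattini G = ⊤ := by
      rw [eq_top_iff]
      intro x _
      have hx : (QuotientGroup.mk x : G ⧸ frattini G) ∈
          Subgroup.zpowers (QuotientGroup.mk g : G ⧸ frattini G) := by rw [hq]; trivial
      obtain ⟨i, hi⟩ := Subgroup.mem_zpowers_iff.mp hx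
      have h1 : (g ^ i)⁻¹ * x ∈ frattini G := by
        rw [← QuotientGroup.eq, QuotientGroup.mk_zpow]
        exact hi
      have h2 : x = g ^ i * ((g ^ i)⁻¹ * x) := by group
      rw [h2]
      exact Subgroup.mul_mem_sup (Subgroup.zpow_mem_zpowers g i) h1
    have h3 := frattini_nongenerating htop
    exact isCyclic_iff_exists_zpowers_eq_top.mpr ⟨g, h3⟩
  have h4d : (4 : ℕ) ∣ 2 ^ d := by
    have : (2 : ℕ) ^ 2 ∣ 2 ^ d := pow_dvd_pow 2 hd2
    simpa using this
  letI act : MulAction ((G ⧸ frattini G) →* ℂˣ) (IrrCharacter G) := frattTwistAction G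
  have hL : Nat.card ((G ⧸ frattini G) →* ℂˣ) = 2 ^ d := (card_hom_quot_frattini hG).trans hd
  have hdeg2 : ∀ χ : IrrCharacter G, ∃ j, charDegree (χ : G → ℂ) = 2 ^ j := by
    intro χ
    obtain ⟨-, -, hdvd⟩ := irr_charDegree_spec χ
    rw [hn] at hdvd
    obtain ⟨j, -, hj⟩ := (Nat.dvd_prime_pow Nat.prime_two).mp hdvd
    exact ⟨j, hj⟩
  have hC : (4 : ℤ) ∣ ∑ χ : IrrCharacter G,
      (if charDegree (χ : G → ℂ) = 1 then fsInt χ else 0) := by
    refine dvd_sum_of_orbit (L := (G ⧸ frattini G) →* ℂˣ) (X := IrrCharacter G)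
      (fun χ : IrrCharacter G => if charDegree (χ : G → ℂ) = 1 then fsInt χ else 0) _ ?_ ?_
    · intro lam χ
      show (if charDegree ((frattTwist lam χ : IrrCharacter G) : G → ℂ) = 1
        then fsInt (frattTwist lam χ) else 0) = _
      rw [fsInt_frattTwist hG, charDegree_frattTwist]
    · intro χ
      show (4 : ℤ) ∣ (Nat.card (MulAction.orbit ((G ⧸ frattini G) →* ℂˣ) χ) : ℤ) *
        (if charDegree (χ : G → ℂ) = 1 then fsInt χ else 0)
      by_cases h1 : charDegree (χ : G → ℂ) = 1
      · rw [if_pos h1]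
        apply Dvd.dvd.mul_right
        haveI : Fintype ((G ⧸ frattini G) →* ℂˣ) := Fintype.ofFinite _
        haveI : Fintype (MulAction.orbit ((G ⧸ frattini G) →* ℂˣ) χ) := Fintype.ofFinite _
        haveI : Fintype (MulAction.stabilizer ((G ⧸ frattini G) →* ℂˣ) χ) := Fintype.ofFinite _
        have hos := MulAction.card_orbit_mul_card_stabilizer_eq_card_group
          ((G ⧸ frattini G) →* ℂˣ) χ
        rw [← Nat.card_eq_fintype_card, ← Nat.card_eq_fintype_card, ← Nat.card_eq_fintype_card,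
          hL] at hos
        have hbound : Nat.card (MulAction.stabilizer ((G ⧸ frattini G) →* ℂˣ) χ) ≤
            charDegree (χ : G → ℂ) ^ 2 := by
          rw [Nat.subtype_card (Finset.univ.filter
            (fun lam : (G ⧸ frattini G) →* ℂˣ => lam • χ = χ))
            (fun lam => by
              rw [Finset.mem_filter, MulAction.mem_stabilizer_iff]; simp)]
          exact card_fixing_le χ _ (fun lam hlam => (Finset.mem_filter.mp hlam).2)
        rw [h1, one_pow] at hbound
        have hst : Nat.card (MulAction.stabilizer ((G ⧸ frattini G) →* ℂˣ) χ) = 1 :=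
          le_antisymm hbound Nat.card_pos
        rw [hst, mul_one] at hos
        rw [hos]
        exact_mod_cast h4d
      · rw [if_neg h1, mul_zero]; exact dvd_zero _
  have hsum := sum_fsInt_mul_deg (G := G)
  have hsplit : ∀ χ : IrrCharacter G, (4 : ℤ) ∣ fsInt χ * (charDegree (χ : G → ℂ) : ℤ)
      - (if charDegree (χ : G → ℂ) = 1 then fsInt χ else 0)
      - 2 * (if charDegree (χ : G → ℂ) = 2 then fsInt χ else 0) := by
    intro χ
    obtain ⟨j, hj⟩ := hdeg2 χ
    by_cases h1 : charDegree (χ : G → ℂ) = 1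
    · have h2 : ¬ charDegree (χ : G → ℂ) = 2 := by omega
      rw [if_pos h1, if_neg h2, h1]
      simp
    · by_cases h2 : charDegree (χ : G → ℂ) = 2
      · rw [if_neg h1, if_pos h2, h2]
        have : fsInt χ * ((2 : ℕ) : ℤ) - 0 - 2 * fsInt χ = 0 := by push_cast; ring
        rw [this]; exact dvd_zero _
      · rw [if_neg h1, if_neg h2]
        have hj2 : 2 ≤ j := by
          by_contra hlt
          have hj' : j = 0 ∨ j = 1 := by omega
          rcases hj' with rfl | rfl
          · exact h1 (by rw [hj, pow_zero])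
          · exact h2 (by rw [hj, pow_one])
        have h4 : (4 : ℕ) ∣ charDegree (χ : G → ℂ) := by
          rw [hj]
          have : (2 : ℕ) ^ 2 ∣ 2 ^ j := pow_dvd_pow 2 hj2
          simpa using this
        have h4' : (4 : ℤ) ∣ (charDegree (χ : G → ℂ) : ℤ) := by exact_mod_cast h4
        have h5 : fsInt χ * (charDegree (χ : G → ℂ) : ℤ) - 0 - 2 * 0 =
            fsInt χ * (charDegree (χ : G → ℂ) : ℤ) := by ring
        rw [h5]
        exact Dvd.dvd.mul_left h4' (fsInt χ)
  have hdiv : (4 : ℤ) ∣ (1 + (Nat.card {x : G // orderOf x = 2} : ℤ)) -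
      2 * ∑ χ : IrrCharacter G, (if charDegree (χ : G → ℂ) = 2 then fsInt χ else 0) := by
    have e : (1 + (Nat.card {x : G // orderOf x = 2} : ℤ)) -
        2 * ∑ χ : IrrCharacter G, (if charDegree (χ : G → ℂ) = 2 then fsInt χ else 0)
        = ∑ χ : IrrCharacter G, (fsInt χ * (charDegree (χ : G → ℂ) : ℤ)
            - (if charDegree (χ : G → ℂ) = 1 then fsInt χ else 0)
            - 2 * (if charDegree (χ : G → ℂ) = 2 then fsInt χ else 0))
          + ∑ χ : IrrCharacter G, (if charDegree (χ : G → ℂ) = 1 then fsInt χ else 0) := by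
      rw [← hsum, Finset.sum_sub_distrib, Finset.sum_sub_distrib, ← Finset.mul_sum]
      ring
    rw [e]
    exact dvd_add (Finset.dvd_sum (fun χ _ => hsplit χ)) hC
  have hodd : Odd (∑ χ : IrrCharacter G,
      (if charDegree (χ : G → ℂ) = 2 then fsInt χ else 0)) := by
    have ht' : ((Nat.card {x : G // orderOf x = 2} : ℕ) : ℤ) % 4 = 1 := by exact_mod_cast ht
    obtain ⟨c, hc⟩ := hdiv
    rw [Int.odd_iff]
    omega
  -- parity of the number of characters of degree 2
  obtain ⟨Y, hYdef⟩ : ∃ Y : Finset (IrrCharacter G), ∀ χ, χ ∈ Y ↔ charDegree (χ : G → ℂ) = 2 :=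
    ⟨Finset.univ.filter (fun χ => charDegree (χ : G → ℂ) = 2), fun χ => by simp⟩
  have hSig : ∑ χ : IrrCharacter G, (if charDegree (χ : G → ℂ) = 2 then fsInt χ else 0) =
      ∑ χ ∈ Y, fsInt χ := by
    rw [← Finset.sum_filter]
    congr 1
    ext χ
    rw [Finset.mem_filter, hYdef]
    simp
  have hpar : ∑ χ ∈ Y, ((fsInt χ : ZMod 2) + 1) = 0 := by
    refine Finset.sum_involution (fun χ _ => conjIrr χ) ?_ ?_ ?_ ?_
    · intro χ _
      show ((fsInt χ : ZMod 2) + 1) + ((fsInt (conjIrr χ) : ZMod 2) + 1) = 0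
      rw [fsInt_conjIrr]
      exact CharTwo.add_self_eq_zero _
    · intro χ _ hne hfix
      apply hne
      have hr : ∀ g : G, ((χ : G → ℂ) g).im = 0 := fun g => by
        have h1 : starRingEnd ℂ ((χ : G → ℂ) g) = (χ : G → ℂ) g :=
          congrFun (congrArg Subtype.val hfix) g
        exact Complex.conj_eq_iff_im.mp h1
      have hne0 := (fsInt_ne_zero_iff_real χ).mpr hr
      rcases fsInt_cases χ with h | h | h
      · exact absurd h hne0
      · rw [h, Int.cast_one]; rfl
      · rw [h, Int.cast_neg, Int.cast_one, neg_add_cancel]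
    · intro χ hχ
      rw [hYdef] at hχ ⊢
      rw [charDegree_conjIrr]; exact hχ
    · intro χ _
      exact conjIrr_conjIrr χ
  have hYodd : Odd Y.card := by
    rw [Finset.sum_add_distrib, Finset.sum_const, nsmul_eq_mul, mul_one, ← Int.cast_sum,
      ← hSig] at hpar
    obtain ⟨c, hc⟩ := hodd
    rw [hc] at hpar
    have h2 : (2 : ZMod 2) = 0 := rfl
    have h3 : ((2 * c + 1 : ℤ) : ZMod 2) = 1 := by push_cast; rw [h2, zero_mul, zero_add]
    rw [h3] at hpar
    rw [← Nat.not_even_iff_odd]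
    intro hev
    have h0 : ((Y.card : ℕ) : ZMod 2) = 0 := (ZMod.natCast_eq_zero_iff_even).mpr hev
    rw [h0, add_zero] at hpar
    exact one_ne_zero hpar
  -- a character of degree 2 fixed by all linear characters
  letI actA : MulAction (G →* ℂˣ) (IrrCharacter G) := linTwistAction G
  have hA : IsPGroup 2 (G →* ℂˣ) := by
    intro lam
    refine ⟨n, MonoidHom.ext fun g => ?_⟩
    rw [MonoidHom.pow_apply, MonoidHom.one_apply, ← map_pow, ← hn, pow_card_eq_one', map_one]
  let Ysub : SubMulAction (G →* ℂˣ) (IrrCharacter G) :=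
    { carrier := {χ | charDegree (χ : G → ℂ) = 2}
      smul_mem' := fun lam χ hχ => by
        show charDegree ((linTwist lam χ : IrrCharacter G) : G → ℂ) = 2
        rw [charDegree_linTwist]; exact hχ }
  have hcardY : Nat.card Ysub = Y.card :=
    Nat.subtype_card Y (fun χ => (hYdef χ))
  have hmod := hA.card_modEq_card_fixedPoints (α := Ysub)
  have hfp : Nat.card (MulAction.fixedPoints (G →* ℂˣ) Ysub) ≠ 0 := by
    intro h0
    rw [hcardY, h0] at hmod
    have h1 : Y.card % 2 = 1 := Nat.odd_iff.mp hYodd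
    have h2 : Y.card % 2 = 0 % 2 := hmod
    omega
  obtain ⟨⟨⟨⟨χ₀, hχ₀deg⟩, hfix⟩⟩, -⟩ := Nat.card_ne_zero.mp hfp
  have hχ₀deg' : charDegree (χ₀ : G → ℂ) = 2 := hχ₀deg
  have hfix' : ∀ lam : G →* ℂˣ, linTwist lam χ₀ = χ₀ := fun lam =>
    congrArg Subtype.val (hfix lam)
  have hle4 : Nat.card {ψ : IrrCharacter G // (ψ : G → ℂ) 1 = 1} ≤ 4 := by
    rw [Nat.subtype_card (Finset.univ.filter (fun ψ : IrrCharacter G => (ψ : G → ℂ) 1 = 1))
      (fun ψ => by simp)]
    have h1 := card_le_of_inner_one χ₀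
      (Finset.univ.filter (fun ψ : IrrCharacter G => (ψ : G → ℂ) 1 = 1)) (fun ψ hψ => by
        have hψ1 := (Finset.mem_filter.mp hψ).2
        obtain ⟨lam, hlam⟩ := linChar_exists_hom (isCharacter_of_isIrrCharacter ψ.2) hψ1
        exact inner_mul_star_of_fixed χ₀ lam ψ hlam (hfix' lam))
    rw [hχ₀deg'] at h1
    exact h1
  have hge4 : 4 ≤ Nat.card {ψ : IrrCharacter G // (ψ : G → ℂ) 1 = 1} := by
    have hinj : Function.Injective (fun lam : (G ⧸ frattini G) →* ℂˣ =>
        (⟨frattLin lam, by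
          show ((lam (QuotientGroup.mk (1 : G)) : ℂˣ) : ℂ) = 1
          rw [QuotientGroup.mk_one, map_one, Units.val_one]⟩ :
          {ψ : IrrCharacter G // (ψ : G → ℂ) 1 = 1})) := by
      intro a b hab
      exact frattLin_injective (congrArg Subtype.val hab)
    have h1 := Nat.card_le_card_of_injective _ hinj
    rw [hL] at h1
    have h2 : 4 ≤ 2 ^ d := Nat.le_of_dvd (pow_pos two_pos d) h4d
    exact h2.trans h1
  rw [← card_linear_irr]
  omega

end Cfsg.Agent.S4477
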