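import Cfsg.Statements.S4486
import Cfsg.Agent.Helper24.BL9

set_option autoImplicit false
open Cfsg

namespace Cfsg.Agent.S4486

/-- Let G be a finite group and p a prime dividing its order such that every non-identity element of a Sylow p-subgroup P has the same centralizer as P; let p^n be the order of P. If G has a non-principal irreducible character χ of degree x with x² < p^n − 1, then either G has a proper normal subgroup containing P, or G has a normal subgroup of index p^n and x = 1. -/
theorem result {G : Type*} [Group G] [Finite G] (p : ℕ) (hp : p.Prime) (hpG : p ∣ Nat.card G) (P : Sylow p G) (hstar : ∀ x ∈ (P : Subgroup G), x ≠ 1 → Subgroup.centralizer ({x} : Set G) = Subgroup.centralizer ((P : Subgroup G) : Set G)) (n : ℕ) (hn : Nat.card P = p ^ n) (χ : Cfsg.IrrCharacter G) (h1 : (χ : G → ℂ) ≠ fun _ => 1) (hdeg : Cfsg.charDegree (χ : G → ℂ) ^ 2 + 1 < p ^ n) : (∃ K : Subgroup G, K.Normal ∧ K ≠ ⊤ ∧ (P : Subgroup G) ≤ K) ∨ ((∃ N : Subgroup G, N.Normal ∧ N.index = p ^ n) ∧ Cfsg.charDegree (χ : G → ℂ) = 1)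 := by
  haveI : Fact p.Prime := ⟨hp⟩
  haveI := Fintype.ofFinite G
  rw [← hn] at hdeg ⊢
  by_cases hM : Subgroup.normalClosure ((P : Subgroup G) : Set G) = ⊤
  · right
    by_cases hNe : ∃ x ∈ Cfsg.Agent.Helper24.blN (Cfsg.Agent.Helper24.blCP P),
        x ∉ Cfsg.Agent.Helper24.blCP P
    · exact (Cfsg.Agent.Helper24.bl_concrete p P hstar hM hNe χ h1 hdeg).elim
    · push Not at hNe
      have hNCle : Subgroup.normalizer ((P : Subgroup G) : Set G) ≤
          Subgroup.centralizer ((P : Subgroup G) : Set G) :=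
        fun x hx => hNe x (Cfsg.Agent.Helper24.blc_norm_le p P hx)
      refine ⟨⟨(MonoidHom.transferSylow P hNCle).ker, MonoidHom.normal_ker _, ?_⟩, ?_⟩
      · exact (MonoidHom.ker_transferSylow_isComplement' P hNCle).symm.index_eq_card
      · exact Cfsg.Agent.Helper24.bl_linear_of_e1 p P hstar hM hNe χ h1 hdeg
  · left
    exact ⟨Subgroup.normalClosure ((P : Subgroup G) : Set G), Subgroup.normalClosure_normal, hM,
      Subgroup.subset_normalClosure⟩

end Cfsg.Agent.S4486
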