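import Cfsg.Statements.S4494
import Cfsg.Agent.Helper22.BlkContrib

set_option autoImplicit false
open Cfsg
open Cfsg.Agent.Helper5 Cfsg.Agent.Helper24 Cfsg.Agent.Helper22

namespace Cfsg.Agent.S4494

/-- The Brauer–Feit bound. Let B be a p-block of the finite group G (relative to a maximal ideal M of the algebraic integers containing p) and let d be its defect. Then the number k(B) of irreducible characters in B satisfies k(B) ≤ p^(2d)/4 + 1, stated here as 4·k(B) ≤ p^(2d) + 4. -/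
theorem result {G : Type*} [Group G] [Finite G] (p : ℕ) [Fact p.Prime] (M : Ideal Cfsg.AlgInt) (hM : Cfsg.IsPModular p M) (B : Set (Cfsg.IrrCharacter G)) (hB : Cfsg.IsPBlock M B) : 4 * Nat.card B ≤ p ^ (2 * Cfsg.blockDefect p B) + 4 := by
  classical
  haveI := Fintype.ofFinite G
  haveI hMp : M.IsPrime := hM.2.1.isPrime
  have hp : p.Prime := Fact.out
  obtain ⟨χ₀, rfl⟩ := hB
  obtain ⟨χ₁, hχ₁, h0⟩ := exists_height_zero (M := M) p χ₀
  have hmem : χ₁ ∈ (Set.toFinite (blockOf M (χ₀ : G → ℂ))).toFinset :=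
    (Set.Finite.mem_toFinset _).mpr hχ₁
  have hcardB : Nat.card (blockOf M (χ₀ : G → ℂ)) =
      (Set.toFinite (blockOf M (χ₀ : G → ℂ))).toFinset.card := by
    rw [Nat.card_coe_set_eq, Set.ncard_eq_toFinset_card _ (Set.toFinite _)]
  rw [hcardB, ← Finset.card_erase_add_one hmem]
  have h1 := bf_row_zero hM χ₀ χ₁ hχ₁ h0
    ((Set.toFinite (blockOf M (χ₀ : G → ℂ))).toFinset.erase χ₁)
    (fun ψ hψ => ⟨(Set.Finite.mem_toFinset _).mp (Finset.mem_of_mem_erase hψ),
      Finset.ne_of_mem_erase hψ⟩)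
  have h2 : ((Set.toFinite (blockOf M (χ₀ : G → ℂ))).toFinset.erase χ₁).card ≤
      ∑ ψ ∈ (Set.toFinite (blockOf M (χ₀ : G → ℂ))).toFinset.erase χ₁,
        p ^ (2 * blockHeight p (blockOf M (χ₀ : G → ℂ)) (ψ : G → ℂ)) := by
    rw [Finset.card_eq_sum_ones]
    exact Finset.sum_le_sum fun ψ _ => Nat.one_le_pow _ _ hp.pos
  linarith

end Cfsg.Agent.S4494
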