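import Cfsg.Statements.S4497
import Cfsg.Agent.Helper22.SelfCent3

set_option autoImplicit false
open Cfsg

namespace Cfsg.Agent.S4497

/-- Let the finite group G contain an element x of prime order p with C_G(x) = ⟨x⟩, let t be the number of conjugacy classes of elements of order p, and let S* = O_{p′}(G) be the largest normal subgroup of order prime to p. Then S* ≤ G′; if t ≠ p − 1 the quotient G′/S* is simple (in particular non-trivial); if t = p − 1 then G′ = S*. -/
theorem result {G : Type*} [Group G] [Finite G] (p : ℕ) (hp : p.Prime) (x : G) (hx : orderOf x = p) (hC : Subgroup.centralizer ({x} : Set G) = Subgroup.zpowers x) (t : ℕ) (ht : Nat.card {C : ConjClasses G // ∃ g ∈ C.carrier, orderOf g = p} = t) : Cfsg.pPrimeCore p G ≤ commutator G ∧ (t ≠ p - 1 → ∀ h : ((Cfsg.pPrimeCore p G).subgroupOf (commutator G)).Normal, IsSimpleGroup (↥(commutator G) ⧸ (Cfsg.pPrimeCore p G).subgroupOf (commutator G))) ∧ (t = p - 1 → commutator G = Cfsg.pPrimeCore p G) := by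
  subst ht
  have hSn : (Cfsg.pPrimeCore p G).Normal := Cfsg.Agent.Helper22.ppc_normal p
  have hS : ¬ p ∣ Nat.card (Cfsg.pPrimeCore p G) := Cfsg.Agent.Helper22.ppc_not_dvd hp
  have h1 : Cfsg.pPrimeCore p G ≤ commutator G :=
    Cfsg.Agent.Helper22.sc_le_commutator hp hx hC _ hS
  refine ⟨h1, ?_, ?_⟩
  · intro ht h
    have he : (Subgroup.zpowers x).relIndex
        (Subgroup.normalizer (Subgroup.zpowers x : Set G)) ≠ 1 := fun he =>
      ht ((Cfsg.Agent.Helper22.sc_relIndex_eq_one_iff hp hx hC).1 he)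
    have hxD : x ∈ commutator G :=
      (Cfsg.Agent.Helper22.sc_case_ne_one hp hx hC he).1 (Subgroup.mem_zpowers x)
    have hxS : x ∉ Cfsg.pPrimeCore p G := Cfsg.Agent.Helper22.sc_not_mem_of_not_dvd hx _ hS
    have hnt : Nontrivial (↥(commutator G) ⧸ (Cfsg.pPrimeCore p G).subgroupOf (commutator G)) := by
      refine ⟨⟨((⟨x, hxD⟩ : ↥(commutator G)) : _ ⧸ _), 1, ?_⟩⟩
      intro h2
      rw [QuotientGroup.eq_one_iff, Subgroup.mem_subgroupOf] at h2
      exact hxS h2
    refine { exists_pair_ne := hnt.exists_pair_ne, eq_bot_or_eq_top_of_normal := ?_ }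
    intro H hH
    let T : Subgroup ↥(commutator G) := H.comap (QuotientGroup.mk' _)
    have hTn : T.Normal := Subgroup.Normal.comap hH _
    by_cases hdvd : p ∣ Nat.card T
    · right
      have hT := Cfsg.Agent.Helper22.sc_normal_sub_eq_top hp hx hC T hdvd
      rw [eq_top_iff]
      intro q _
      obtain ⟨a, rfl⟩ := QuotientGroup.mk_surjective q
      have ha : a ∈ T := by rw [hT]; trivial
      exact ha
    · left
      have hT := Cfsg.Agent.Helper22.sc_normal_sub_le_ppc hp T hdvd
      rw [eq_bot_iff]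
      intro q hq
      obtain ⟨a, rfl⟩ := QuotientGroup.mk_surjective q
      have ha : a ∈ T := hq
      rw [Subgroup.mem_bot, QuotientGroup.eq_one_iff]
      exact hT ha
  · intro ht
    have he := (Cfsg.Agent.Helper22.sc_relIndex_eq_one_iff hp hx hC).2 ht
    have h2 := (Cfsg.Agent.Helper22.sc_case_one hp hx hC he).1
    exact le_antisymm (Cfsg.Agent.Helper22.le_ppc' hp _ inferInstance h2) h1

end Cfsg.Agent.S4497
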