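import Cfsg.Statements.S4498
import Cfsg.Agent.S0952
import Cfsg.Agent.Helper24.CharComplete
import Cfsg.Agent.Helper24.CharDecomp

set_option autoImplicit false
open Cfsg
open scoped ComplexConjugate

namespace Cfsg.Agent.S4498

theorem h22_finsum_setOf_eq_sum {α : Type*} [Fintype α] (P : α → Prop) [DecidablePred P]
    (f : α → ℂ) : ∑ᶠ x ∈ {x : α | P x}, f x = ∑ x : α, if P x then f x else 0 := by
  rw [finsum_mem_eq_finite_toFinset_sum _ (Set.toFinite _), ← Finset.sum_filter]
  refine Finset.sum_congr ?_ (fun _ _ => rfl)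
  ext x; simp

theorem h22_orderOf_conj {G : Type*} [Group G] (a g : G) : orderOf (a * g * a⁻¹) = orderOf g := by
  have h := MulEquiv.orderOf_eq (MulAut.conj a) g
  simpa using h

/-- The sum of an irreducible character outside the principal `p`-block over the `p`-singular
elements vanishes. -/
theorem h22_sing_sum_eq_zero {G : Type*} [Group G] [Fintype G] (p : ℕ) [Fact p.Prime]
    (M : Ideal Cfsg.AlgInt) (hM : Cfsg.IsPModular p M) (χ : Cfsg.IrrCharacter G)
    (h : χ ∉ Cfsg.principalBlock M G) :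
    ∑ x : G, (if p ∣ orderOf x then (χ : G → ℂ) x else 0) = 0 := by
  classical
  have h1 := Cfsg.Agent.S0952.result p M hM
    (⟨fun _ => 1, Cfsg.Agent.Helper24.isIrrCharacter_one⟩ : Cfsg.IrrCharacter G) χ h
  rw [h22_finsum_setOf_eq_sum] at h1
  have hne : (χ : G → ℂ) ≠ fun _ => 1 := by
    intro he
    apply h
    show Cfsg.SameBlock M (fun _ => 1) (χ : G → ℂ)
    rw [he]
    intro g
    refine ⟨0, 1, M.zero_mem, ?_, ?_⟩
    · exact fun h1 => hM.2.1.ne_top ((Ideal.eq_top_iff_one M).mpr h1)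
    · simp
  have h2 := Cfsg.Agent.Helper24.sum_irr_eq_zero χ hne
  have h3 : ∑ x : G, (if ¬ p ∣ orderOf x then (χ : G → ℂ) x else 0) = 0 := by
    have h5 : starRingEnd ℂ (∑ x : G, (if ¬ p ∣ orderOf x then (χ : G → ℂ) x else 0)) = 0 := by
      rw [map_sum]
      refine Eq.trans (Finset.sum_congr rfl (fun x _ => ?_)) h1
      split_ifs <;> simp
    exact (map_eq_zero_iff (starRingEnd ℂ) (RingHom.injective _)).mp h5
  have h4 : ∀ x : G, (if p ∣ orderOf x then (χ : G → ℂ) x else 0) =
      (χ : G → ℂ) x - (if ¬ p ∣ orderOf x then (χ : G → ℂ) x else 0) := by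
    intro x; split_ifs <;> simp
  rw [Finset.sum_congr rfl (fun x _ => h4 x), Finset.sum_sub_distrib, h2, h3, sub_zero]


/-- Let p and q be distinct primes dividing the order of the finite group G, and suppose G has no element of order p·q. Fix maximal ideals M_p over p and M_q over q of the algebraic integers. Then the principal p-block and the principal q-block of G have a non-principal irreducible character in common. -/
theorem result {G : Type*} [Group G] [Finite G] (p q : ℕ) [Fact p.Prime] [Fact q.Prime] (hpq : p ≠ q) (hp : p ∣ Nat.card G) (hq : q ∣ Nat.card G) (hno : ∀ g : G, orderOf g ≠ p * q) (Mp Mq : Ideal Cfsg.AlgInt) (hMp : Cfsg.IsPModular p Mp) (hMq : Cfsg.IsPModular q Mq) : ∃ χ : Cfsg.IrrCharacter G, (χ : G → ℂ) ≠ (fun _ => 1) ∧ χ ∈ Cfsg.principalBlock Mp G ∧ χ ∈ Cfsg.principalBlock Mq G := by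
  classical
  have := Fintype.ofFinite G
  by_contra hcon
  push Not at hcon
  have hno' : ∀ x : G, p ∣ orderOf x → q ∣ orderOf x → False := by
    intro x hpx hqx
    have hcop : Nat.Coprime p q := (Nat.coprime_primes Fact.out Fact.out).mpr hpq
    have hd : p * q ∣ orderOf x := hcop.mul_dvd_of_dvd_of_dvd hpx hqx
    have hpos : 0 < orderOf x := orderOf_pos x
    have hpq0 : p * q ≠ 0 :=
      Nat.mul_ne_zero (Fact.out : p.Prime).ne_zero (Fact.out : q.Prime).ne_zero
    apply hno (x ^ (orderOf x / (p * q)))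
    rw [orderOf_pow_of_dvd ?_ (Nat.div_dvd_of_dvd hd), Nat.div_div_self hd hpos.ne']
    exact (Nat.div_pos (Nat.le_of_dvd hpos hd) (Nat.pos_of_ne_zero hpq0)).ne'
  let triv : Cfsg.IrrCharacter G := ⟨fun _ => 1, Cfsg.Agent.Helper24.isIrrCharacter_one⟩
  let a : Cfsg.IrrCharacter G → ℂ :=
    fun χ => ∑ x : G, (if p ∣ orderOf x then (χ : G → ℂ) x else 0)
  let b : Cfsg.IrrCharacter G → ℂ :=
    fun χ => ∑ x : G, (if q ∣ orderOf x then (χ : G → ℂ) x else 0)
  have hab : ∀ χ : Cfsg.IrrCharacter G, χ ≠ triv → a χ * starRingEnd ℂ (b χ) = 0 := by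
    intro χ hχ
    have hne : (χ : G → ℂ) ≠ fun _ => 1 := fun he => hχ (Subtype.ext he)
    by_cases hin : χ ∈ Cfsg.principalBlock Mp G
    · have hb : b χ = 0 := h22_sing_sum_eq_zero q Mq hMq χ (hcon χ hne hin)
      rw [hb]; simp
    · have ha : a χ = 0 := h22_sing_sum_eq_zero p Mp hMp χ hin
      rw [ha]; simp
  have hsum : ∑ χ : Cfsg.IrrCharacter G, a χ * starRingEnd ℂ (b χ) = 0 := by
    have h1 : ∀ χ : Cfsg.IrrCharacter G, a χ * starRingEnd ℂ (b χ) =
        ∑ x : G, ∑ y : G, (if p ∣ orderOf x then (1:ℂ) else 0) *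
          (if q ∣ orderOf y then (1:ℂ) else 0) *
          ((χ : G → ℂ) x * starRingEnd ℂ ((χ : G → ℂ) y)) := by
      intro χ
      show (∑ x : G, (if p ∣ orderOf x then (χ : G → ℂ) x else 0)) *
        starRingEnd ℂ (∑ x : G, (if q ∣ orderOf x then (χ : G → ℂ) x else 0)) = _
      rw [map_sum, Finset.sum_mul_sum]
      refine Finset.sum_congr rfl (fun x _ => Finset.sum_congr rfl (fun y _ => ?_))
      split_ifs <;> simp
    rw [Finset.sum_congr rfl (fun χ _ => h1 χ), Finset.sum_comm]
    refine Finset.sum_eq_zero (fun x _ => ?_)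
    rw [Finset.sum_comm]
    refine Finset.sum_eq_zero (fun y _ => ?_)
    rw [← Finset.mul_sum]
    by_cases hxy : IsConj x y
    · have ho : orderOf y = orderOf x := by
        obtain ⟨c, hc⟩ := isConj_iff.mp hxy
        rw [← hc]; exact h22_orderOf_conj c x
      by_cases hpx : p ∣ orderOf x
      · have hqy : ¬ q ∣ orderOf y := by
          rw [ho]; exact fun hq' => hno' x hpx hq'
        rw [if_neg hqy]; simp
      · rw [if_neg hpx]; simp
    · rw [(Cfsg.Agent.Helper24.sum_irr_mul_conj x y).2 hxy, mul_zero]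
  have hfin : a triv * starRingEnd ℂ (b triv) = 0 := by
    rw [← hsum]
    symm
    exact Finset.sum_eq_single triv (fun χ _ hχ => hab χ hχ)
      (fun h => absurd (Finset.mem_univ _) h)
  have ha : a triv = ((Finset.univ.filter (fun x : G => p ∣ orderOf x)).card : ℂ) := by
    show ∑ x : G, (if p ∣ orderOf x then (1:ℂ) else 0) = _
    rw [Finset.sum_boole]
  have hb : b triv = ((Finset.univ.filter (fun x : G => q ∣ orderOf x)).card : ℂ) := by
    show ∑ x : G, (if q ∣ orderOf x then (1:ℂ) else 0) = _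
    rw [Finset.sum_boole]
  rw [ha, hb, Complex.conj_natCast] at hfin
  obtain ⟨x, hx⟩ := exists_prime_orderOf_dvd_card' p hp
  obtain ⟨y, hy⟩ := exists_prime_orderOf_dvd_card' q hq
  have h1 : (Finset.univ.filter (fun x : G => p ∣ orderOf x)).card ≠ 0 :=
    Finset.card_ne_zero.mpr ⟨x, by simp [hx]⟩
  have h2 : (Finset.univ.filter (fun x : G => q ∣ orderOf x)).card ≠ 0 :=
    Finset.card_ne_zero.mpr ⟨y, by simp [hy]⟩
  rcases mul_eq_zero.mp hfin with h | h
  · exact h1 (by exact_mod_cast h)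
  · exact h2 (by exact_mod_cast h)

end Cfsg.Agent.S4498
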