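import Cfsg.Statements.S4505
import Cfsg.Agent.Helper22.BlkExact


set_option autoImplicit false
open Cfsg
open Cfsg.Agent.Helper22 Cfsg.Agent.Helper5 Cfsg.Agent.Helper24

namespace Cfsg.Agent.S4505

/-- Let G be a finite group, p a prime and M a maximal ideal of the algebraic integers containing p. For every σ, the number of p-blocks of defect exactly σ is at most the number of conjugacy classes of p-regular elements whose centralizer has order divisible by p^σ but not by p^(σ+1). -/
theorem result {G : Type*} [Group G] [Finite G] (p : ℕ) [Fact p.Prime] (M : Ideal Cfsg.AlgInt) (hM : Cfsg.IsPModular p M) (σ : ℕ) : Nat.card {B : Set (Cfsg.IrrCharacter G) // Cfsg.IsPBlock M B ∧ Cfsg.blockDefect p B = σ} ≤ Nat.card {C : ConjClasses G // ∃ g : G, ConjClasses.mk g = C ∧ ¬ p ∣ orderOf g ∧ (Nat.card (Subgroup.centralizer ({g} : Set G))).factorization p = σ} := by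
  classical
  haveI := Fintype.ofFinite G
  haveI hMp : M.IsPrime := hM.2.1.isPrime
  have : Fintype {B : Set (IrrCharacter G) // IsPBlock M B ∧ blockDefect p B = σ} :=
    Fintype.ofFinite _
  have : Fintype {C : ConjClasses G // ∃ g : G, ConjClasses.mk g = C ∧ ¬ p ∣ orderOf g ∧
      (Nat.card (Subgroup.centralizer ({g} : Set G))).factorization p = σ} :=
    Fintype.ofFinite _
  choose χf hχf using fun B : {B : Set (IrrCharacter G) // IsPBlock M B ∧
    blockDefect p B = σ} => B.2.1
  obtain ⟨W, hW⟩ : ∃ W : Matrix {B : Set (IrrCharacter G) // IsPBlock M B ∧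
      blockDefect p B = σ} {C : ConjClasses G // ∃ g : G, ConjClasses.mk g = C ∧
      ¬ p ∣ orderOf g ∧ (Nat.card (Subgroup.centralizer ({g} : Set G))).factorization p = σ} ℂ,
      W = fun B C => centralChar (χf B : G → ℂ) C.1.out := ⟨_, rfl⟩
  obtain ⟨A, hA⟩ : ∃ A : Matrix {C : ConjClasses G // ∃ g : G, ConjClasses.mk g = C ∧
      ¬ p ∣ orderOf g ∧ (Nat.card (Subgroup.centralizer ({g} : Set G))).factorization p = σ}
      {B : Set (IrrCharacter G) // IsPBlock M B ∧ blockDefect p B = σ} ℂ,
      A = fun C B => blockCoeff B.1 C.1.out := ⟨_, rfl⟩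
  have key : ∀ B B' : {B : Set (IrrCharacter G) // IsPBlock M B ∧ blockDefect p B = σ},
      MemLocalRing M ((W * A) B B') ∧
        MemLocalIdeal M ((W * A) B B' - if B = B' then 1 else 0) := by
    intro B B'
    obtain ⟨c, hc, hcv⟩ := osima (M := M) (χf B')
    have hcoef : ∀ g : G, blockCoeff B'.1 g = specFun c g := by
      intro g
      rw [hχf B']
      exact blockCoeff_eq_specFun (blockOf M (χf B' : G → ℂ)) c (fun ψ hψ => (hcv ψ).1 hψ)
        (fun ψ hψ => (hcv ψ).2 hψ) g
    have hentry : (W * A) B B' = ∑ C : {C : ConjClasses G // ∃ g : G, ConjClasses.mk g = C ∧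
        ¬ p ∣ orderOf g ∧ (Nat.card (Subgroup.centralizer ({g} : Set G))).factorization p = σ},
        specFun c C.1.out * centralChar (χf B : G → ℂ) C.1.out := by
      rw [Matrix.mul_apply]
      refine Finset.sum_congr rfl fun C _ => ?_
      rw [hW, hA]
      show centralChar (χf B : G → ℂ) C.1.out * blockCoeff B'.1 C.1.out = _
      rw [hcoef, mul_comm]
    constructor
    · rw [hentry]
      exact (locRing M).sum_mem fun C _ =>
        (locRing M).mul_mem (hc _) (centralChar_memLocalRing _ _)
    · have hcval : c (χf B) = if B = B' then 1 else 0 := by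
        by_cases hBB : B = B'
        · rw [if_pos hBB, hBB]
          exact (hcv _).1 (sameBlock_refl _)
        · rw [if_neg hBB]
          refine (hcv _).2 fun hsb => hBB ?_
          apply Subtype.ext
          rw [hχf B, hχf B']
          ext ψ
          exact ⟨fun hψ => sameBlock_trans' hsb hψ,
            fun hψ => sameBlock_trans' (sameBlock_symm hsb) hψ⟩
      have hsub : ∑ C ∈ Finset.univ.filter (fun C : ConjClasses G => ∃ g : G,
          ConjClasses.mk g = C ∧ ¬ p ∣ orderOf g ∧
          (Nat.card (Subgroup.centralizer ({g} : Set G))).factorization p = σ),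
          specFun c C.out * centralChar (χf B : G → ℂ) C.out = (W * A) B B' := by
        rw [hentry]
        refine Finset.sum_subtype _ (fun C => ?_) _
        simp
      have k := exact_defect_congr hM σ (χf B) (χf B')
        (by rw [← hχf B]; exact B.2.2) (by rw [← hχf B']; exact B'.2.2) c hc hcv
      rw [hsub, hcval] at k
      have k' := memLocalIdeal_neg k
      rwa [neg_sub] at k'
  have hdet : (W * A).det ≠ 0 :=
    det_ne_zero_of_congr_one (M := M) (W * A) (fun i j => (key i j).1) (fun i j => (key i j).2)
  have hunit : IsUnit (W * A) := (Matrix.isUnit_iff_isUnit_det _).mpr (isUnit_iff_ne_zero.mpr hdet)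
  have hrank := Matrix.rank_of_isUnit (W * A) hunit
  have h1 := Matrix.rank_mul_le_left W A
  have h2 := Matrix.rank_le_card_width W
  rw [Nat.card_eq_fintype_card, Nat.card_eq_fintype_card]
  omega

end Cfsg.Agent.S4505
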