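import Cfsg.Statements.S4509
import Cfsg.Agent.Helper22.SelfCent3

set_option autoImplicit false
open Cfsg

namespace Cfsg.Agent.S4509

/-- Let the finite group G contain an element x of prime order p with C_G(x) = ⟨x⟩; let t be the number of conjugacy classes of elements of order p and 1 + n·p the number of subgroups of order p. Then G has a normal subgroup of order 1 + n·p if and only if either t = p − 1, or t < p − 1 and G″ ≠ G′. Moreover, if t = p − 1 then G′ has order 1 + n·p and G/G′ is cyclic of order p; and if t < p − 1 and G″ ≠ G′ then G″ has order 1 + n·p and G′ has order p·(1 + n·p). -/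
theorem result {G : Type*} [Group G] [Finite G] (p : ℕ) (hp : p.Prime) (x : G) (hx : orderOf x = p) (hC : Subgroup.centralizer ({x} : Set G) = Subgroup.zpowers x) (t : ℕ) (ht : Nat.card {C : ConjClasses G // ∃ g ∈ C.carrier, orderOf g = p} = t) (n : ℕ) (hn : Nat.card {H : Subgroup G // Nat.card H = p} = 1 + n * p) : ((∃ S : Subgroup G, S.Normal ∧ Nat.card S = 1 + n * p) ↔ (t = p - 1 ∨ (t < p - 1 ∧ derivedSeries G 2 ≠ derivedSeries G 1))) ∧ (t = p - 1 → Nat.card (commutator G) = 1 + n * p ∧ IsCyclic (G ⧸ commutator G) ∧ (commutator G).index = p) ∧ (t < p - 1 → derivedSeries G 2 ≠ derivedSeries G 1 → Nat.card (derivedSeries G 2) = 1 + n * p ∧ Nat.card (commutator G) = p * (1 + n * p)) := by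
  subst ht
  have hidx : (Subgroup.normalizer (Subgroup.zpowers x : Set G)).index = 1 + n * p := by
    rw [← Cfsg.Agent.Helper22.sc_card_subgroups hp hx hC, hn]
  have hnd : ¬ p ∣ 1 + n * p := by
    intro h
    have h2 : p ∣ 1 := (Nat.dvd_add_left (Dvd.intro_left n rfl)).1 h
    exact hp.one_lt.ne' (Nat.dvd_one.1 h2)
  have key2 : Nat.card {C : ConjClasses G // ∃ g ∈ C.carrier, orderOf g = p} = p - 1 →
      Nat.card (commutator G) = 1 + n * p ∧ IsCyclic (G ⧸ commutator G) ∧
        (commutator G).index = p := by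
    intro ht
    have he := (Cfsg.Agent.Helper22.sc_relIndex_eq_one_iff hp hx hC).2 ht
    obtain ⟨_, h2, h3⟩ := Cfsg.Agent.Helper22.sc_case_one hp hx hC he
    refine ⟨by rw [h3, hidx], ?_, h2⟩
    have := Fact.mk hp
    have hcard : Nat.card (G ⧸ commutator G) = p := by
      rw [← Subgroup.index_eq_card, h2]
    exact isCyclic_of_prime_card hcard
  have key3 : Nat.card {C : ConjClasses G // ∃ g ∈ C.carrier, orderOf g = p} < p - 1 →
      derivedSeries G 2 ≠ derivedSeries G 1 →
      Nat.card (derivedSeries G 2) = 1 + n * p ∧ Nat.card (commutator G) = p * (1 + n * p) := by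
    intro ht hne
    have he : (Subgroup.zpowers x).relIndex
        (Subgroup.normalizer (Subgroup.zpowers x : Set G)) ≠ 1 := fun he =>
      ht.ne ((Cfsg.Agent.Helper22.sc_relIndex_eq_one_iff hp hx hC).1 he)
    have h := Cfsg.Agent.Helper22.sc_derived_card hp hx hC he hne
    rw [hidx] at h
    exact h
  refine ⟨⟨?_, ?_⟩, key2, key3⟩
  · rintro ⟨S, hSn, hS⟩
    by_cases ht : Nat.card {C : ConjClasses G // ∃ g ∈ C.carrier, orderOf g = p} = p - 1
    · exact Or.inl ht
    · right
      have hlt := lt_of_le_of_ne (Cfsg.Agent.Helper22.sc_class_count_le hp hx hC) ht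
      refine ⟨hlt, ?_⟩
      have he : (Subgroup.zpowers x).relIndex
          (Subgroup.normalizer (Subgroup.zpowers x : Set G)) ≠ 1 := fun he =>
        ht ((Cfsg.Agent.Helper22.sc_relIndex_eq_one_iff hp hx hC).1 he)
      exact Cfsg.Agent.Helper22.sc_derived_ne hp hx hC he S (by rw [hS]; exact hnd)
        (by rw [hS, hidx])
  · rintro (ht | ⟨ht, hne⟩)
    · exact ⟨commutator G, inferInstance, (key2 ht).1⟩
    · exact ⟨derivedSeries G 2, derivedSeries_normal G 2, (key3 ht hne).1⟩

end Cfsg.Agent.S4509
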