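import Cfsg.Statements.S4510
import Cfsg.Agent.Helper22.BlkExact


set_option autoImplicit false
open Cfsg
open Cfsg.Agent.Helper22 Cfsg.Agent.Helper5 Cfsg.Agent.Helper24

namespace Cfsg.Agent.S4510

/-- Let G be a finite group, p a prime, M a maximal ideal of the algebraic integers containing p, and call the defect of a conjugacy class the exponent of p in the order of the centralizer of its elements. Two irreducible characters lying in p-blocks of defect exactly d lie in the same block if and only if their central characters (class size times χ(x)/χ(1)) agree modulo the local ideal at M at every p-regular element x whose class has defect exactly d. -/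
theorem result {G : Type*} [Group G] [Finite G] (p : ℕ) [Fact p.Prime] (M : Ideal Cfsg.AlgInt) (hM : Cfsg.IsPModular p M) (d : ℕ) (χ ψ : Cfsg.IrrCharacter G) (hχ : Cfsg.blockDefect p (Cfsg.blockOf M (χ : G → ℂ)) = d) (hψ : Cfsg.blockDefect p (Cfsg.blockOf M (ψ : G → ℂ)) = d) : Cfsg.SameBlock M (χ : G → ℂ) (ψ : G → ℂ) ↔ ∀ x : G, ¬ p ∣ orderOf x → (Nat.card (Subgroup.centralizer ({x} : Set G))).factorization p = d → Cfsg.MemLocalIdeal M (Cfsg.centralChar (χ : G → ℂ) x - Cfsg.centralChar (ψ : G → ℂ) x) := by
  classical
  haveI := Fintype.ofFinite G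
  haveI hMp : M.IsPrime := hM.2.1.isPrime
  constructor
  · intro h x _ _
    exact h x
  · intro h
    obtain ⟨c, hc, hcv⟩ := osima (M := M) χ
    have k1 := exact_defect_congr hM d χ χ hχ hχ c hc hcv
    have k2 := exact_defect_congr hM d ψ χ hψ hχ c hc hcv
    have hc1 : c χ = 1 := (hcv χ).1 (sameBlock_refl _)
    by_contra hns
    have hc0 : c ψ = 0 := (hcv ψ).2 hns
    rw [hc1] at k1
    rw [hc0] at k2
    have k3 : MemLocalIdeal M
        (∑ C ∈ Finset.univ.filter (fun C : ConjClasses G => ∃ g : G,
          ConjClasses.mk g = C ∧ ¬ p ∣ orderOf g ∧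
          (Nat.card (Subgroup.centralizer ({g} : Set G))).factorization p = d),
          specFun c C.out * centralChar (χ : G → ℂ) C.out
        - ∑ C ∈ Finset.univ.filter (fun C : ConjClasses G => ∃ g : G,
          ConjClasses.mk g = C ∧ ¬ p ∣ orderOf g ∧
          (Nat.card (Subgroup.centralizer ({g} : Set G))).factorization p = d),
          specFun c C.out * centralChar (ψ : G → ℂ) C.out) := by
      rw [← Finset.sum_sub_distrib]
      refine memLocalIdeal_sum _ _ fun C hC => ?_
      obtain ⟨g, hg, hreg, hdef⟩ := (Finset.mem_filter.mp hC).2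
      rw [← mul_sub]
      have hmk : ConjClasses.mk C.out = C := Quotient.out_eq _
      have hconj : IsConj g C.out := ConjClasses.mk_eq_mk_iff_isConj.mp (hg.trans hmk.symm)
      obtain ⟨t, ht⟩ := isConj_iff.mp hconj
      have hreg' : ¬ p ∣ orderOf C.out := by
        rw [← ht, orderOf_conj']
        exact hreg
      have hdef' : (Nat.card (Subgroup.centralizer ({C.out} : Set G))).factorization p = d := by
        rw [← ht, card_centralizer_conj]
        exact hdef
      exact memLocalIdeal_mul_left (hc _) (h C.out hreg' hdef')
    have k4 := memLocalIdeal_add hMp (memLocalIdeal_add hMp k1 k3) (memLocalIdeal_neg k2)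
    have e : ∀ a b : ℂ, (1 - a) + (a - b) + -(0 - b) = 1 := fun a b => by ring
    rw [e] at k4
    exact not_memLocalIdeal_one k4

end Cfsg.Agent.S4510
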