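import Cfsg.Statements.S4512
import Cfsg.Agent.Helper5.Klein3

set_option autoImplicit false
open Cfsg

namespace Cfsg.Agent.S4512

/-- If G is a finite group with a Sylow 2-subgroup that is a Klein four-group and a single conjugacy class of involutions, then its principal 2-block (relative to a maximal ideal M of the algebraic integers containing 2) has 2-regular rank 3: the restrictions of its irreducible characters to the elements of odd order span a space of dimension 3 (it has three irreducible Brauer characters). -/
theorem result {G : Type*} [Group G] [Finite G] (M : Ideal Cfsg.AlgInt) (hM : Cfsg.IsPModular 2 M) (P : Sylow 2 G)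
    (hP : Nat.card P = 4) (hexp : ∀ x : P, x * x = 1)
    (hone : ∀ s t : G, orderOf s = 2 → orderOf t = 2 → IsConj s t) :
    Cfsg.blockRank 2 (Cfsg.principalBlock M G) = 3 := by
  classical
  have := Fintype.ofFinite G
  have : M.IsPrime := hM.2.1.isPrime
  have hK : IsKleinFour (P : Subgroup G) := by
    refine ⟨hP, ?_⟩
    have hdvd : Monoid.exponent (P : Subgroup G) ∣ 2 :=
      Monoid.exponent_dvd_of_forall_pow_eq_one (fun x => by rw [pow_two]; exact hexp x)
    rcases (Nat.dvd_prime Nat.prime_two).mp hdvd with h | h
    · exfalso
      have hsub := Monoid.exp_eq_one_iff.mp h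
      have hle := Finite.card_le_one_iff_subsingleton.mpr hsub
      have hP' : Nat.card (P : Subgroup G) = 4 := hP
      omega
    · exact h
  exact Cfsg.Agent.Helper5.klein_blockRank hM P hK hone

end Cfsg.Agent.S4512
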