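import Cfsg.Statements.S4636

set_option autoImplicit false
open scoped Pointwise
open Cfsg

namespace Cfsg.Agent.S4636

theorem mem_zpowers_of_orderOf_eq {C : Type*} [Group C] [Finite C] [IsCyclic C] {p : ℕ}
    (hp : p.Prime) {a b : C} (ha : orderOf a = p) (hb : orderOf b = p) :
    b ∈ Subgroup.zpowers a := by
  classical
  have := Fintype.ofFinite C
  have h1 : (Finset.univ.filter (fun c : C => c ^ p = 1)).card ≤ p :=
    IsCyclic.card_pow_eq_one_le hp.pos
  have h2 : ((Subgroup.zpowers a : Set C).toFinset) ⊆ Finset.univ.filter (fun c : C => c ^ p = 1) := by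
    intro c hc
    simp only [Set.mem_toFinset, SetLike.mem_coe] at hc
    obtain ⟨k, rfl⟩ := hc
    simp only [Finset.mem_filter, Finset.mem_univ, true_and]
    rw [← zpow_natCast, ← zpow_mul, mul_comm, zpow_mul, zpow_natCast, ← ha, pow_orderOf_eq_one,
      one_zpow]
  have h3 : ((Subgroup.zpowers a : Set C).toFinset).card = p := by
    rw [Set.toFinset_card, ← Nat.card_eq_fintype_card]
    exact (Nat.card_zpowers a).trans ha
  have h4 := Finset.eq_of_subset_of_card_le h2 (by rw [h3]; exact h1)
  have h5 : b ∈ Finset.univ.filter (fun c : C => c ^ p = 1) := by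
    simp [← hb, pow_orderOf_eq_one]
  rw [← h4] at h5
  simpa using h5

/-- Let P be a nontrivial cyclic p-subgroup of the finite group G and Z its subgroup of order p. For every x outside N_G(Z), P meets its conjugate xPx⁻¹ trivially; consequently N_G(Q) ≤ N_G(Z) for every nontrivial subgroup Q of P. -/
theorem result {G : Type*} [Group G] [Finite G] (p : ℕ) [Fact p.Prime] (P : Subgroup G) (hP : IsPGroup p P) (hP1 : P ≠ ⊥) (hcyc : IsCyclic P) (Z : Subgroup G) (hZ : Z ≤ P) (hZcard : Nat.card Z = p) : (∀ x : G, x ∉ Subgroup.normalizer (Z : Set G) → P ⊓ MulAut.conj x • P = ⊥) ∧ ∀ Q : Subgroup G, Q ≤ P → Q ≠ ⊥ → Subgroup.normalizer (Q : Set G) ≤ Subgroup.normalizer (Z : Set G) := by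
  have hp := (Fact.out : p.Prime)
  have hZnt : Nontrivial Z := by
    rw [← Finite.one_lt_card_iff_nontrivial, hZcard]; exact hp.one_lt
  obtain ⟨z, hz1⟩ := exists_ne (1 : Z)
  have hzord : orderOf z = p := by
    have := orderOf_dvd_natCard z
    rw [hZcard] at this
    rcases (Nat.dvd_prime hp).mp this with h | h
    · exact absurd (orderOf_eq_one_iff.mp h) hz1
    · exact h
  have hzord' : orderOf (z : G) = p := by
    rw [Subgroup.orderOf_coe]; exact hzord
  -- any element of P of order p lies in Z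
  have key : ∀ s : G, s ∈ P → orderOf s = p → s ∈ Z := by
    intro s hs hsord
    have h := mem_zpowers_of_orderOf_eq (C := P) hp (a := ⟨z, hZ z.2⟩) (b := ⟨s, hs⟩)
      (by rw [Subgroup.orderOf_mk]; exact hzord') (by rw [Subgroup.orderOf_mk]; exact hsord)
    obtain ⟨k, hk⟩ := h
    have h2 : s = (z : G) ^ k := by
      have := congrArg Subtype.val hk
      simpa using this.symm
    rw [h2]; exact zpow_mem z.2 k
  -- Z = zpowers of any of its elements of order p
  have key2 : ∀ t : G, t ∈ Z → orderOf t = p → ∀ n ∈ Z, n ∈ Subgroup.zpowers t := by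
    intro t ht htord n hn
    have hle : Subgroup.zpowers t ≤ Z := (Subgroup.zpowers_le).mpr ht
    have heq : Subgroup.zpowers t = Z := by
      apply Subgroup.eq_of_le_of_card_ge hle
      rw [hZcard, Nat.card_zpowers, htord]
    rw [heq]; exact hn
  have part1 : ∀ x : G, x ∉ Subgroup.normalizer (Z : Set G) → P ⊓ MulAut.conj x • P = ⊥ := by
    intro x hx
    by_contra hne
    obtain ⟨⟨r, hrmem⟩, hr1⟩ := (Subgroup.ne_bot_iff_exists_ne_one).mp hne
    have hr1' : r ≠ 1 := by
      intro h; apply hr1; exact Subtype.ext h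
    obtain ⟨hrP, hrxP⟩ := Subgroup.mem_inf.mp hrmem
    obtain ⟨k, hk⟩ := hP ⟨r, hrP⟩
    have hk' : r ^ p ^ k = 1 := by
      have := congrArg Subtype.val hk
      simpa using this
    obtain ⟨j, hjk, hj⟩ := (Nat.dvd_prime_pow hp).mp (orderOf_dvd_of_pow_eq_one hk')
    have hj0 : j ≠ 0 := by
      intro h0; rw [h0, pow_zero, orderOf_eq_one_iff] at hj; exact hr1' hj
    set s := r ^ p ^ (j - 1) with hs
    have hsord : orderOf s = p := by
      rw [hs, orderOf_pow_of_dvd (pow_ne_zero _ hp.ne_zero) (by rw [hj]; exact pow_dvd_pow p (Nat.sub_le j 1)), hj]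
      rw [Nat.pow_div (Nat.sub_le j 1) hp.pos]
      have : j - (j - 1) = 1 := by omega
      rw [this, pow_one]
    have hsP : s ∈ P := pow_mem hrP _
    have hsZ : s ∈ Z := key s hsP hsord
    set t := x⁻¹ * s * x with ht
    have htP : t ∈ P := by
      have h1 : s ∈ MulAut.conj x • P := pow_mem hrxP _
      rw [Subgroup.mem_pointwise_smul_iff_inv_smul_mem] at h1
      simpa [MulAut.smul_def, ht] using h1
    have htord : orderOf t = p := by
      rw [ht, ← hsord]
      have := orderOf_injective (MulAut.conj x⁻¹).toMonoidHom (MulAut.conj x⁻¹).injective s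
      simpa using this
    have htZ : t ∈ Z := key t htP htord
    apply hx
    apply Subgroup.mem_normalizer_fintype
    intro n hn
    obtain ⟨m, hm⟩ := key2 t htZ htord n hn
    have : x * n * x⁻¹ = s ^ m := by
      rw [← hm, ht]
      simp only at *
      have h3 : x⁻¹ * s * x = MulAut.conj x⁻¹ s := by simp
      rw [h3, ← map_zpow]
      simp [mul_assoc]
    rw [SetLike.mem_coe, this]
    exact zpow_mem hsZ m
  refine ⟨part1, ?_⟩
  intro Q hQ hQ1 g hg
  by_contra hgn
  have h1 := part1 g hgn
  have h2 : MulAut.conj g • Q ≤ MulAut.conj g • P :=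
    Subgroup.pointwise_smul_le_pointwise_smul_iff.mpr hQ
  have h3 : MulAut.conj g • Q = Q := by
    rw [Subgroup.pointwise_smul_def]
    exact Subgroup.mem_normalizer_iff_map_conj_eq.mp hg
  rw [h3] at h2
  have h4 : Q ≤ P ⊓ MulAut.conj g • P := le_inf hQ h2
  rw [h1] at h4
  exact hQ1 (le_bot_iff.mp h4)

end Cfsg.Agent.S4636
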