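import Cfsg.Statements.S4652
import Cfsg.Agent.Helper22.BlkPrin

set_option autoImplicit false
open Cfsg
open Cfsg.Agent.Helper5 Cfsg.Agent.Helper24 Cfsg.Agent.Helper22

namespace Cfsg.Agent.S4652

/-- Fix a prime p and a maximal ideal M of the algebraic integers containing p. The defect groups of the principal p-block of a finite group G are exactly the Sylow p-subgroups of G: a subgroup D is a defect group of the principal block if and only if D is a Sylow p-subgroup. -/
theorem result {G : Type*} [Group G] [Fintype G] (p : ℕ) [Fact p.Prime] (M : Ideal Cfsg.AlgInt) (hM : Cfsg.IsPModular p M) (D : Subgroup G) : Cfsg.IsDefectGroup p M (Cfsg.principalBlock M G) D ↔ ∃ S : Sylow p G, (S : Subgroup G) = D := by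
  classical
  haveI hMp : M.IsPrime := hM.2.1.isPrime
  have hp : p.Prime := Fact.out
  let triv : IrrCharacter G := ⟨fun _ => 1, Cfsg.Agent.Helper24.isIrrCharacter_one⟩
  have htriv : triv ∈ principalBlock M G := sameBlock_refl (M := M) (fun _ : G => (1:ℂ))
  have key : ∀ g : G, IsDefectClass M (principalBlock M G) g →
      ¬ p ∣ (Subgroup.centralizer ({g} : Set G)).index := by
    intro g hdc hdvd
    apply hdc.2.2 triv htriv
    obtain ⟨k, hk⟩ := hdvd
    show MemLocalIdeal M (((Subgroup.centralizer ({g} : Set G)).index : ℂ) * 1 / 1)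
    rw [mul_one, div_one, hk]
    push_cast
    rw [mul_comm]
    exact memLocalIdeal_mul_left (natCast_memLocalRing k) (prime_memLocalIdeal hM)
  have hfac : ∀ g : G, ¬ p ∣ (Subgroup.centralizer ({g} : Set G)).index →
      (Nat.card (Subgroup.centralizer ({g} : Set G))).factorization p =
        (Nat.card G).factorization p := by
    intro g hg
    have h1 := Subgroup.card_mul_index (Subgroup.centralizer ({g} : Set G))
    rw [← h1, Nat.factorization_mul Nat.card_pos.ne' Subgroup.index_ne_zero_of_finite,
      Finsupp.add_apply, Nat.factorization_eq_zero_of_not_dvd hg, add_zero]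
  constructor
  · rintro ⟨g, hdc, P, rfl⟩
    have hidx := key g hdc
    have hcard : Nat.card ((P : Subgroup (Subgroup.centralizer ({g} : Set G))).map
        (Subgroup.centralizer ({g} : Set G)).subtype) = p ^ (Nat.card G).factorization p := by
      rw [Subgroup.card_map_of_injective (Subgroup.subtype_injective _),
        Sylow.card_eq_multiplicity, hfac g hidx]
    exact ⟨Sylow.ofCard _ hcard, Sylow.coe_ofCard _ _⟩
  · rintro ⟨S, rfl⟩
    obtain ⟨g₀, hg₀⟩ := exists_defect_class (M := M) triv
    have hg₀' : IsDefectClass M (principalBlock M G) g₀ := hg₀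
    obtain ⟨x, hx⟩ := exists_conj_comm_of_not_dvd_index (S : Subgroup G) S.isPGroup' g₀
      (key g₀ hg₀')
    have hdc : IsDefectClass M (principalBlock M G) (x * g₀ * x⁻¹) :=
      isDefectClass_conj _ hg₀' x
    have hle : (S : Subgroup G) ≤ Subgroup.centralizer ({x * g₀ * x⁻¹} : Set G) := by
      intro s hs
      rw [Subgroup.mem_centralizer_singleton_iff]
      exact hx s hs
    have hcard : Nat.card ((S : Subgroup G).subgroupOf
        (Subgroup.centralizer ({x * g₀ * x⁻¹} : Set G))) =
        p ^ (Nat.card (Subgroup.centralizer ({x * g₀ * x⁻¹} : Set G))).factorization p := by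
      rw [Nat.card_congr (Subgroup.subgroupOfEquivOfLe hle).toEquiv,
        Sylow.card_eq_multiplicity, hfac _ (key _ hdc)]
    refine ⟨x * g₀ * x⁻¹, hdc, Sylow.ofCard _ hcard, ?_⟩
    rw [Sylow.coe_ofCard, Subgroup.map_subgroupOf_eq_of_le hle]

end Cfsg.Agent.S4652
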