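import Cfsg.Statements.S4664
import Cfsg.Agent.Helper22.BlkRank

set_option autoImplicit false
open Cfsg
open Cfsg.Agent.Helper5 Cfsg.Agent.Helper24 Cfsg.Agent.Helper22

namespace Cfsg.Agent.S4664

/-- Fix a prime p and a maximal ideal M of the algebraic integers containing p, and let B be a p-block of the finite group G. Let m be the p'-part of the order of G and η = exp(2πi/m). Then every coefficient of the idempotent of B lies in the cyclotomic field ℚ(η). -/
theorem result {G : Type*} [Group G] [Fintype G] (p : ℕ) [Fact p.Prime] (M : Ideal Cfsg.AlgInt) (hM : Cfsg.IsPModular p M) (B : Set (Cfsg.IrrCharacter G)) (hB : Cfsg.IsPBlock M B) (g : G) : Cfsg.blockCoeff B g ∈ IntermediateField.adjoin ℚ ({Complex.exp (2 * Real.pi * Complex.I / ((Nat.card G / p ^ (Nat.card G).factorization p : ℕ) : ℂ))} : Set ℂ) := by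
  classical
  haveI hMp : M.IsPrime := hM.2.1.isPrime
  have hp : p.Prime := Fact.out
  obtain ⟨χ₀, rfl⟩ := hB
  obtain ⟨m, hm⟩ : ∃ m : ℕ, m = Nat.card G / p ^ (Nat.card G).factorization p := ⟨_, rfl⟩
  rw [← hm]
  have hmul : m * p ^ (Nat.card G).factorization p = Nat.card G := by
    rw [hm]; exact Nat.div_mul_cancel (Nat.ordProj_dvd _ p)
  have hm0 : 0 < m := by
    rcases Nat.eq_zero_or_pos m with h | h
    · rw [h, zero_mul] at hmul; exact absurd hmul.symm Nat.card_pos.ne'
    · exact h
  unfold blockCoeff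
  by_cases hg : p ∣ orderOf g
  · have hw := weak_block_orth hM χ₀ 1 g (by rw [orderOf_one]; exact hp.not_dvd_one) hg
    rw [hw, mul_zero]
    exact zero_mem _
  · have hgm : g ^ m = 1 := by
      apply orderOf_dvd_iff_pow_eq_one.mp
      have hcop : Nat.Coprime (orderOf g) (p ^ (Nat.card G).factorization p) :=
        Nat.Coprime.pow_right _ ((Nat.Prime.coprime_iff_not_dvd hp).mpr hg).symm
      exact hcop.dvd_of_dvd_mul_right (by rw [hmul]; exact orderOf_dvd_natCard g)
    refine mul_mem (inv_mem (natCast_mem _ _)) ?_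
    rw [finsum_mem_eq_finite_toFinset_sum _ (Set.toFinite _)]
    refine sum_mem (fun χ _ => mul_mem ?_ ?_)
    · obtain ⟨d, hd⟩ := irr_one_eq_natCast χ
      rw [hd]; exact natCast_mem _ _
    · rw [← irr_inv]
      exact irr_mem_adjoin χ g⁻¹ m hm0 (by rw [inv_pow, hgm, inv_one])

end Cfsg.Agent.S4664
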