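import Cfsg.Statements.S4668
import Cfsg.Agent.Helper22.BlkNil
import Cfsg.Agent.Helper23.Thompson
import Cfsg.Agent.Helper5.BlkOrth


set_option autoImplicit false
open Cfsg

namespace Cfsg.Agent.S4668

/-- Fix a prime p and a maximal ideal M of the algebraic integers containing p. Let Q₀ < Q₁ < ⋯ < Q_m be a strictly increasing chain of p-subgroups of the finite group G and N the intersection of their normalizers. Then every block idempotent of N is supported on C_G(Q_m): for every p-block E of N, the idempotent coefficient of E vanishes at every element of N outside C_G(Q_m). -/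
theorem result {G : Type*} [Group G] [Fintype G] (p : ℕ) [Fact p.Prime] (M : Ideal Cfsg.AlgInt) (hM : Cfsg.IsPModular p M) (m : ℕ) (Q : Fin (m + 1) → Subgroup G) (hQ : StrictMono Q) (hQp : ∀ i, IsPGroup p (Q i)) (N : Subgroup G) (hN : ∀ g : G, g ∈ N ↔ ∀ i, g ∈ Subgroup.normalizer (Q i : Set G)) (E : Set (Cfsg.IrrCharacter N)) (hE : Cfsg.IsPBlock M E) (n : N) (hn : (n : G) ∉ Subgroup.centralizer (Q (Fin.last m) : Set G)) : Cfsg.blockCoeff E n = 0 := by
  classical
  haveI hMp : M.IsPrime := hM.2.1.isPrime
  have hp : p.Prime := hM.1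
  obtain ⟨χ₀, rfl⟩ := hE
  by_cases hsing : p ∣ orderOf n
  · have h := Cfsg.Agent.Helper5.weak_block_orth hM χ₀ (1 : N) n
      (by rw [orderOf_one]; exact hp.not_dvd_one) hsing
    unfold Cfsg.blockCoeff
    rw [h, mul_zero]
  · have hsingG : ¬ p ∣ orderOf (n : G) := by rwa [Subgroup.orderOf_coe]
    have hNnorm : ∀ i, ∀ x ∈ N, ∀ q ∈ Q i, x * q * x⁻¹ ∈ Q i := by
      intro i x hx q hq
      have h1 := (hN x).mp hx i
      exact (Subgroup.mem_normalizer_iff.mp h1 q).mp hq
    obtain ⟨R, hR⟩ : ∃ R : Subgroup N, R = (Q (Fin.last m)).subgroupOf N := ⟨_, rfl⟩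
    haveI hRn : R.Normal := by
      constructor
      intro x hx y
      rw [hR, Subgroup.mem_subgroupOf] at hx ⊢
      have h1 := hNnorm (Fin.last m) y y.2 x hx
      simpa using h1
    have hRp : IsPGroup p R := by
      rw [hR]
      exact (hQp (Fin.last m)).comap_subtype
    by_contra hne
    have hcent : n ∈ Subgroup.centralizer (R : Set N) := by
      by_contra hnot
      exact hne (Cfsg.Agent.Helper22.blockCoeff_eq_zero_of_normal hM R hRp χ₀ n hnot)
    have hcomm : ∀ w : G, w ∈ Q (Fin.last m) → w ∈ N → w * (n : G) = (n : G) * w := by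
      intro w hw hwN
      have hwR : (⟨w, hwN⟩ : N) ∈ R := by
        rw [hR, Subgroup.mem_subgroupOf]
        exact hw
      have h1 := (Subgroup.mem_centralizer_iff.mp hcent) ⟨w, hwN⟩ hwR
      exact congrArg Subtype.val h1
    have hmono : Monotone Q := hQ.monotone
    have hzpN : Subgroup.zpowers (n : G) ≤ N := (Subgroup.zpowers_le).mpr n.2
    have key : ∀ i : Fin (m + 1), ∀ z ∈ Q i, (n : G) * z = z * (n : G) := by
      intro i
      induction i using Fin.induction with
      | zero =>
        intro z hz
        have hzN : z ∈ N := by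
          rw [hN]
          intro j
          exact Subgroup.le_normalizer (hmono (Fin.zero_le j) hz)
        exact (hcomm z (hmono (Fin.zero_le _) hz) hzN).symm
      | succ i ih =>
        haveI : Finite (Q i.succ) := inferInstance
        have hK : Group.IsNilpotent (Q i.succ) := (hQp i.succ).isNilpotent
        obtain ⟨k, hk⟩ := (IsPGroup.iff_card.mp (hQp i.succ))
        have hle : Q i.castSucc ≤ Q i.succ := hmono (Fin.castSucc_le_succ i)
        have hBV : ∀ b ∈ Subgroup.zpowers (n : G), ∀ v ∈ Q i.succ, b * v * b⁻¹ ∈ Q i.succ :=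
          fun b hb v hv => hNnorm i.succ b (hzpN hb) v hv
        have hCV : ∀ c ∈ Q i.castSucc, ∀ v ∈ Q i.succ, c * v * c⁻¹ ∈ Q i.succ :=
          fun c hc v hv => (Q i.succ).mul_mem ((Q i.succ).mul_mem (hle hc) hv)
            ((Q i.succ).inv_mem (hle hc))
        have hCB : ∀ c ∈ Q i.castSucc, ∀ b ∈ Subgroup.zpowers (n : G), c * b = b * c := by
          intro c hc b hb
          obtain ⟨j, rfl⟩ := Subgroup.mem_zpowers_iff.mp hb
          have h1 : Commute (n : G) c := ih c hc
          exact ((h1.zpow_left j).eq).symm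
        have hmn : (orderOf (n : G)).Coprime (p ^ k) :=
          Nat.Coprime.pow_right k ((Nat.Prime.coprime_iff_not_dvd hp).mpr hsingG).symm
        have hBm : ∀ b ∈ Subgroup.zpowers (n : G), b ^ orderOf (n : G) = 1 := by
          intro b hb
          obtain ⟨j, rfl⟩ := Subgroup.mem_zpowers_iff.mp hb
          rw [← zpow_natCast, ← zpow_mul, mul_comm, zpow_mul, zpow_natCast, pow_orderOf_eq_one,
            one_zpow]
        have hVn : ∀ v ∈ Q i.succ, v ^ (p ^ k) = 1 := by
          intro v hv
          have h1 : (⟨v, hv⟩ : Q i.succ) ^ Nat.card (Q i.succ) = 1 := pow_card_eq_one'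
          rw [hk] at h1
          have h2 := congrArg Subtype.val h1
          simpa using h2
        have hyp : ∀ w ∈ Q i.succ, (∀ c ∈ Q i.castSucc, c * w = w * c) →
            ∀ b ∈ Subgroup.zpowers (n : G), b * w = w * b := by
          intro w hw hwc b hb
          have hwN : w ∈ N := by
            rw [hN]
            intro j
            by_cases hj : i.succ ≤ j
            · exact Subgroup.le_normalizer (hmono hj hw)
            · have hj' : j ≤ i.castSucc := Fin.le_castSucc_iff.mpr (not_le.mp hj)
              refine Subgroup.centralizer_le_normalizer _ ?_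
              rw [Subgroup.mem_centralizer_iff]
              intro c hc
              exact hwc c (hmono hj' hc)
          have h1 : Commute (n : G) w := (hcomm w (hmono (Fin.le_last _) hw) hwN).symm
          obtain ⟨j, rfl⟩ := Subgroup.mem_zpowers_iff.mp hb
          exact (h1.zpow_left j).eq
        intro z hz
        exact Cfsg.Agent.Helper23.thompson_gen (Q i.succ) hK (Q i.succ) (Q i.castSucc)
          (Subgroup.zpowers (n : G)) le_rfl hle hBV hCV hCB hmn hBm hVn hyp z hz (n : G)
          (Subgroup.mem_zpowers _)
    apply hn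
    rw [Subgroup.mem_centralizer_iff]
    intro h hh
    exact (key (Fin.last m) h hh).symm

end Cfsg.Agent.S4668
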