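import Cfsg.Statements.S4671
import Cfsg.Agent.Helper5.KnStb

set_option autoImplicit false
open Cfsg

namespace Cfsg.Agent.S4671

/-- Fix a prime p and a maximal ideal M of the algebraic integers containing p. Let N be a normal subgroup of the finite group G, B a p-block of G and P a defect group of B. Then there is a p-block c of N, stable under conjugation by P and covered by B (some member of B has a constituent in c on restriction to N), such that P ∩ N is a defect group of c. -/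
theorem result {G : Type*} [Group G] [Fintype G] (p : ℕ) [Fact p.Prime] (M : Ideal Cfsg.AlgInt) (hM : Cfsg.IsPModular p M) (N : Subgroup G) [N.Normal] [Fintype N] (B : Set (Cfsg.IrrCharacter G)) (hB : Cfsg.IsPBlock M B) (P : Subgroup G) (hP : Cfsg.IsDefectGroup p M B P) : ∃ c : Set (Cfsg.IrrCharacter N), Cfsg.IsPBlock M c ∧ (∀ x ∈ P, Cfsg.StabilizesBlock N c x) ∧ (∃ χ ∈ B, ∃ θ ∈ c, Cfsg.classInner (fun n : N => (χ : G → ℂ) n) (θ : N → ℂ) ≠ 0) ∧ Cfsg.IsDefectGroup p M c ((P ⊓ N).subgroupOf N) := by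
  classical
  haveI : M.IsPrime := hM.2.1.isPrime
  obtain ⟨χ₀, rfl⟩ := hB
  obtain ⟨θ₁, hst, hne, hdef⟩ := Cfsg.Agent.Helper5.knorr_defect N hM χ₀ P hP
  exact ⟨blockOf M (θ₁ : N → ℂ), ⟨θ₁, rfl⟩,
    fun x hx => Cfsg.Agent.Helper5.stabilizesBlock_of_mem_knStab N _ x (hst hx),
    ⟨χ₀, Cfsg.Agent.Helper5.sameBlock_refl _, θ₁, Cfsg.Agent.Helper5.sameBlock_refl _, hne⟩, hdef⟩

end Cfsg.Agent.S4671
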