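import Cfsg.Statements.S4672
import Cfsg.Agent.Helper5.BlkStab

set_option autoImplicit false
open Cfsg

namespace Cfsg.Agent.S4672

/-- Fix a prime p and a maximal ideal M of the algebraic integers containing p. Let N be a normal subgroup of the finite group G of p-power index and c a p-block of N stable under conjugation by G. Then the idempotent of c is a block idempotent of G: there is a p-block B of G whose idempotent coefficients agree with those of c on N and vanish off N; and for every defect group P of such a block B, G = NP and P ∩ N is a defect group of c. -/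
theorem result {G : Type*} [Group G] [Fintype G] (p : ℕ) [Fact p.Prime] (M : Ideal Cfsg.AlgInt) (hM : Cfsg.IsPModular p M) (N : Subgroup G) [N.Normal] (hN : ∃ k : ℕ, N.index = p ^ k) (c : Set (Cfsg.IrrCharacter N)) (hc : Cfsg.IsPBlock M c) (hst : ∀ x : G, Cfsg.StabilizesBlock N c x) : (∃ B : Set (Cfsg.IrrCharacter G), Cfsg.IsPBlock M B ∧ ∀ g : G, Cfsg.blockCoeff B g = Cfsg.subgroupBlockCoeff N c g) ∧ ∀ B : Set (Cfsg.IrrCharacter G), Cfsg.IsPBlock M B → (∀ g : G, Cfsg.blockCoeff B g = Cfsg.subgroupBlockCoeff N c g) → ∀ P : Subgroup G, Cfsg.IsDefectGroup p M B P → N ⊔ P = ⊤ ∧ Cfsg.IsDefectGroup p M c ((P ⊓ N).subgroupOf N) := by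
  classical
  haveI : Fintype N := Fintype.ofFinite N
  have : M.IsPrime := hM.2.1.isPrime
  obtain ⟨θ₀, rfl⟩ := hc
  obtain ⟨h1, h2⟩ := Cfsg.Agent.Helper5.stable_block_main N hM hN θ₀ hst
  refine ⟨?_, ?_⟩
  · obtain ⟨χ₁, hχ₁⟩ := h1
    exact ⟨blockOf M (χ₁ : G → ℂ), ⟨χ₁, rfl⟩, hχ₁⟩
  · rintro B ⟨χ₁, rfl⟩ hco P hP
    exact h2 χ₁ hco P hP

end Cfsg.Agent.S4672
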