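import Cfsg.Statements.S4676
import Cfsg.Agent.Helper22.BlkContrib

set_option autoImplicit false
open Cfsg
open Cfsg.Agent.Helper5 Cfsg.Agent.Helper24 Cfsg.Agent.Helper22

namespace Cfsg.Agent.S4676

/-- Fix a prime p and a maximal ideal M of the algebraic integers containing p. Let B be a p-block of the finite group G with defect group P. For χ in B, let the height of χ be the exponent of p in the degree of χ minus the least such exponent over the members of B. Then the sum over χ in B of p raised to twice the height of χ is at most the integer part of (order of P)²/4, plus 1; in particular B has at most that many irreducible characters. -/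
theorem result {G : Type*} [Group G] [Fintype G] (p : ℕ) [Fact p.Prime] (M : Ideal Cfsg.AlgInt) (hM : Cfsg.IsPModular p M) (B : Set (Cfsg.IrrCharacter G)) (hB : Cfsg.IsPBlock M B) (P : Subgroup G) (hP : Cfsg.IsDefectGroup p M B P) : ∑ᶠ χ ∈ B, p ^ (2 * Cfsg.blockHeight p B (χ : G → ℂ)) ≤ Nat.card P ^ 2 / 4 + 1 := by
  classical
  haveI hMp : M.IsPrime := hM.2.1.isPrime
  have hp : p.Prime := Fact.out
  obtain ⟨χ₀, rfl⟩ := hB
  have hcard := card_defect_group hM χ₀ P hP
  obtain ⟨χ₁, hχ₁, h0⟩ := exists_height_zero (M := M) p χ₀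
  rw [finsum_mem_eq_finite_toFinset_sum _ (Set.toFinite _)]
  have hmem : χ₁ ∈ (Set.toFinite (blockOf M (χ₀ : G → ℂ))).toFinset :=
    (Set.Finite.mem_toFinset _).mpr hχ₁
  have hsplit := Finset.add_sum_erase (Set.toFinite (blockOf M (χ₀ : G → ℂ))).toFinset
    (fun ψ : IrrCharacter G => p ^ (2 * blockHeight p (blockOf M (χ₀ : G → ℂ)) (ψ : G → ℂ))) hmem
  beta_reduce at hsplit
  rw [← hsplit, h0, mul_zero, pow_zero]
  have h1 := bf_row_zero hM χ₀ χ₁ hχ₁ h0
    ((Set.toFinite (blockOf M (χ₀ : G → ℂ))).toFinset.erase χ₁)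
    (fun ψ hψ => ⟨(Set.Finite.mem_toFinset _).mp (Finset.mem_of_mem_erase hψ),
      Finset.ne_of_mem_erase hψ⟩)
  rw [hcard]
  have h2 : (p ^ blockDefect p (blockOf M (χ₀ : G → ℂ))) ^ 2 =
      p ^ (2 * blockDefect p (blockOf M (χ₀ : G → ℂ))) := by ring
  rw [h2]
  have h3 : ∑ ψ ∈ (Set.toFinite (blockOf M (χ₀ : G → ℂ))).toFinset.erase χ₁,
      p ^ (2 * blockHeight p (blockOf M (χ₀ : G → ℂ)) (ψ : G → ℂ)) ≤
      p ^ (2 * blockDefect p (blockOf M (χ₀ : G → ℂ))) / 4 :=
    (Nat.le_div_iff_mul_le (by norm_num)).mpr (by linarith)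
  linarith

end Cfsg.Agent.S4676
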