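import Cfsg.Statements.S4710
import Cfsg.Agent.Helper22.BlkContrib

set_option autoImplicit false
open Cfsg
open Cfsg.Agent.Helper5 Cfsg.Agent.Helper24 Cfsg.Agent.Helper22

namespace Cfsg.Agent.S4710

/-- Let p be a prime, M a maximal ideal of the algebraic integers containing p, and B a p-block of defect d of the finite group G containing k irreducible characters. If B contains a character of positive height then 2k ≤ p^(2d − 2); and every character in B has height 0 when d ≤ 1 and height at most d − 2 when d ≥ 2. -/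
theorem result {G : Type*} [Group G] [Finite G] (p : ℕ) [Fact p.Prime] (M : Ideal Cfsg.AlgInt) (hM : Cfsg.IsPModular p M) (B : Set (Cfsg.IrrCharacter G)) (hB : Cfsg.IsPBlock M B) (d : ℕ) (hd : Cfsg.blockDefect p B = d) : ((∃ χ ∈ B, 0 < Cfsg.blockHeight p B (χ : G → ℂ)) → 2 * Nat.card B ≤ p ^ (2 * d - 2)) ∧ ∀ χ ∈ B, (d ≤ 1 → Cfsg.blockHeight p B (χ : G → ℂ) = 0) ∧ (2 ≤ d → Cfsg.blockHeight p B (χ : G → ℂ) ≤ d - 2) := by
  classical
  haveI := Fintype.ofFinite G
  haveI hMp : M.IsPrime := hM.2.1.isPrime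
  have hp : p.Prime := Fact.out
  obtain ⟨χ₀, rfl⟩ := hB
  subst hd
  refine ⟨?_, ?_⟩
  · rintro ⟨χ, hχ, hχpos⟩
    have hpos : blockHeight p (blockOf M (χ₀ : G → ℂ)) (χ : G → ℂ) ≠ 0 := hχpos.ne'
    have hle := bf_height_le hM χ₀ χ hχ hpos
    obtain ⟨χ₁, hχ₁, h0⟩ := exists_height_zero (M := M) p χ₀
    obtain ⟨FB, hFB⟩ : ∃ FB : Finset (IrrCharacter G),
        FB = (Set.toFinite (blockOf M (χ₀ : G → ℂ))).toFinset := ⟨_, rfl⟩
    have hFBmem : ∀ ψ : IrrCharacter G, ψ ∈ FB ↔ ψ ∈ blockOf M (χ₀ : G → ℂ) := fun ψ => by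
      rw [hFB]; exact Set.Finite.mem_toFinset _
    have hcardB : Nat.card (blockOf M (χ₀ : G → ℂ)) = FB.card := by
      rw [hFB, Nat.card_coe_set_eq, Set.ncard_eq_toFinset_card _ (Set.toFinite _)]
    have hsplit := Finset.card_filter_add_card_filter_not (s := FB)
      (fun ψ : IrrCharacter G => blockHeight p (blockOf M (χ₀ : G → ℂ)) (ψ : G → ℂ) = 0)
    have h1 := bf_row_pos hM χ₀ χ hχ hpos
      (FB.filter (fun ψ : IrrCharacter G =>
        blockHeight p (blockOf M (χ₀ : G → ℂ)) (ψ : G → ℂ) = 0))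
      (fun ψ hψ => ⟨(hFBmem ψ).mp (Finset.mem_filter.mp hψ).1, (Finset.mem_filter.mp hψ).2⟩)
    have h2 := bf_row_zero hM χ₀ χ₁ hχ₁ h0
      (FB.filter (fun ψ : IrrCharacter G =>
        ¬ blockHeight p (blockOf M (χ₀ : G → ℂ)) (ψ : G → ℂ) = 0))
      (fun ψ hψ => ⟨(hFBmem ψ).mp (Finset.mem_filter.mp hψ).1,
        fun heq => (Finset.mem_filter.mp hψ).2 (by rw [heq]; exact h0)⟩)
    have h3 : p ^ 2 * (FB.filter (fun ψ : IrrCharacter G =>
        ¬ blockHeight p (blockOf M (χ₀ : G → ℂ)) (ψ : G → ℂ) = 0)).card ≤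
        ∑ ψ ∈ FB.filter (fun ψ : IrrCharacter G =>
          ¬ blockHeight p (blockOf M (χ₀ : G → ℂ)) (ψ : G → ℂ) = 0),
          p ^ (2 * blockHeight p (blockOf M (χ₀ : G → ℂ)) (ψ : G → ℂ)) := by
      rw [mul_comm, ← smul_eq_mul, ← Finset.sum_const]
      refine Finset.sum_le_sum fun ψ hψ => ?_
      have hne := (Finset.mem_filter.mp hψ).2
      exact Nat.pow_le_pow_right hp.pos (by omega)
    rw [hcardB, ← hsplit]
    have hd1 : p ^ (2 * blockDefect p (blockOf M (χ₀ : G → ℂ))) =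
        p ^ (2 * blockDefect p (blockOf M (χ₀ : G → ℂ)) - 2) * p ^ 2 := by
      rw [← pow_add]; congr 1; omega
    have hp2 : 0 < p ^ 2 := pow_pos hp.pos 2
    refine Nat.le_of_mul_le_mul_right ?_ hp2
    rw [← hd1]
    nlinarith [h1, h2, h3]
  · intro χ hχ
    by_cases hh : blockHeight p (blockOf M (χ₀ : G → ℂ)) (χ : G → ℂ) = 0
    · rw [hh]
      exact ⟨fun _ => rfl, fun _ => Nat.zero_le _⟩
    · have hle := bf_height_le hM χ₀ χ hχ hh
      exact ⟨fun h => by omega, fun _ => by omega⟩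

end Cfsg.Agent.S4710
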