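import Cfsg.Statements.S4714
import Cfsg.Agent.Helper5.BlkPC

set_option autoImplicit false
open Cfsg

namespace Cfsg.Agent.S4714

/-- Let p be a prime, M a maximal ideal of the algebraic integers containing p, D a p-subgroup of the finite group G with G = D·C_G(D), and B a p-block with defect group D. Let χ be a member of B having D in its kernel (there is exactly one, the canonical character of B). Then the irreducible characters in B are exactly the functions θ on G for which there is an irreducible character ζ of D such that θ(yx) = ζ(y)χ(x) whenever y ∈ D, x has order prime to p and x commutes with y, and θ(z) = 0 whenever the p-part of z does not lie in D. -/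
theorem result {G : Type*} [Group G] [Finite G] (p : ℕ) [Fact p.Prime] (M : Ideal Cfsg.AlgInt) (hM : Cfsg.IsPModular p M) (D : Subgroup G) (hD : IsPGroup p D) (hG : D ⊔ Subgroup.centralizer (D : Set G) = ⊤) (B : Set (Cfsg.IrrCharacter G)) (hB : Cfsg.IsPBlock M B) (hBD : Cfsg.IsDefectGroup p M B D) (χ : Cfsg.IrrCharacter G) (hχ : χ ∈ B) (hχD : ∀ y ∈ D, (χ : G → ℂ) y = (χ : G → ℂ) 1) : (∀ θ : Cfsg.IrrCharacter G, θ ∈ B ↔ ∃ ζ : Cfsg.IrrCharacter D, (∀ (y : D) (x : G), ¬ p ∣ orderOf x → Commute (y : G) x → (θ : G → ℂ) ((y : G) * x) = (ζ : D → ℂ) y * (χ : G → ℂ) x) ∧ (∀ z : G, (∀ y : G, Cfsg.IsPPart p z y → y ∉ D) → (θ : G → ℂ) z = 0)) ∧ ∀ ζ : Cfsg.IrrCharacter D, ∃ θ ∈ B, (∀ (y : D) (x : G), ¬ p ∣ orderOf x → Commute (y : G) x → (θ : G → ℂ) ((y : G) * x) = (ζ : D → ℂ) y * (χ : G → ℂ) x) ∧ (∀ z : G, (∀ y : G, Cfsg.IsPPart p z y → y ∉ D) → (θ : G → ℂ) z = 0) := by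
  classical
  have := Fintype.ofFinite G
  have hMp : M.IsPrime := hM.2.1.isPrime
  have hp : p.Prime := Fact.out
  obtain ⟨χ₀, rfl⟩ := hB
  haveI : Fintype D := Fintype.ofFinite D
  obtain ⟨-, -, hun⟩ := Cfsg.Agent.Helper5.pc_theta hM D hD hG χ₀ hBD
  obtain ⟨zet, hform, hex, hinj⟩ := Cfsg.Agent.Helper5.pc_block_struct hM D hD hG χ₀ hBD χ hχ hχD
    (fun θ' hθ' hθ'P => hun θ' hθ' χ hχ hθ'P hχD)
  haveI hPn := Cfsg.Agent.Helper5.pc_normal D hG
  have hdefP : ∀ D' : Subgroup G,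
      Cfsg.IsDefectGroup p M (Cfsg.blockOf M (χ₀ : G → ℂ)) D' → D' = D := by
    intro D' hD'
    have h1 := Cfsg.Agent.Helper5.normal_pGroup_le_defect hM χ₀ D hD D' hD'
    have h2 := Cfsg.Agent.Helper5.card_defect_group hM χ₀ D' hD'
    have h3 := Cfsg.Agent.Helper5.card_defect_group hM χ₀ D hBD
    exact (Subgroup.eq_of_le_of_card_ge h1 (by rw [h2, h3])).symm
  have hvan : ∀ θ ∈ Cfsg.blockOf M (χ₀ : G → ℂ), ∀ z : G,
      (∀ y : G, Cfsg.IsPPart p z y → y ∉ D) → (θ : G → ℂ) z = 0 := by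
    intro θ hθ z hz
    obtain ⟨x, hx⟩ := Cfsg.Agent.Helper5.exists_isPPart hp z
    refine Cfsg.Agent.Helper5.vanish_of_ppart hM θ z x hx fun D' hD' => ?_
    have e : Cfsg.blockOf M (χ₀ : G → ℂ) = Cfsg.blockOf M (θ : G → ℂ) :=
      Cfsg.Agent.Helper22.blockOf_eq_of_sameBlock hθ
    rw [← e] at hD'
    rw [hdefP D' hD']
    exact hz x hx
  refine ⟨fun θ => ⟨fun hθ => ⟨zet θ, fun y x hx _ => hform θ hθ y x hx, hvan θ hθ⟩, ?_⟩,
    fun ζ => ?_⟩
  · rintro ⟨ζ, hζ, -⟩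
    have hreg : ∀ x : G, ¬ p ∣ orderOf x →
        (θ : G → ℂ) x = (ζ : D → ℂ) 1 * (χ : G → ℂ) x := by
      intro x hx
      have h := hζ 1 x hx (by rw [Subgroup.coe_one]; exact Commute.one_left x)
      rwa [Subgroup.coe_one, one_mul] at h
    have h1reg : ¬ p ∣ orderOf (1 : G) := by
      rw [orderOf_one]
      exact hp.one_lt.ne' ∘ Nat.dvd_one.mp
    have hζ10 := Cfsg.Agent.Helper5.irr_one_ne_zero ζ
    have hsame : Cfsg.SameBlock M (χ : G → ℂ) (θ : G → ℂ) := by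
      refine Cfsg.Agent.Helper5.sameBlock_of_congr_regular hM χ θ fun g hg => ?_
      have e : Cfsg.centralChar (θ : G → ℂ) g = Cfsg.centralChar (χ : G → ℂ) g := by
        unfold Cfsg.centralChar
        rw [hreg g hg, hreg 1 h1reg]
        have := Cfsg.Agent.Helper5.irr_one_ne_zero χ
        field_simp
      rw [e, sub_self]
      exact Cfsg.Agent.Helper22.memLocalIdeal_zero hMp.ne_top
    exact Cfsg.Agent.Helper5.sameBlock_trans hχ hsame
  · obtain ⟨θ, hθ, hz⟩ := hex ζ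
    exact ⟨θ, hθ, fun y x hx _ => by rw [← hz]; exact hform θ hθ y x hx, hvan θ hθ⟩

end Cfsg.Agent.S4714
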