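import Cfsg.Statements.S4718
import Cfsg.Agent.Helper22.Landau
import Cfsg.Agent.S4494
import Cfsg.Agent.Helper24.CharComplete
import Cfsg.Agent.Helper5.BlkOsima

set_option autoImplicit false
universe u
open Cfsg
open Cfsg.Agent.Helper5 Cfsg.Agent.Helper24 Cfsg.Agent.Helper22

namespace Cfsg.Agent.S4718

/-- Let p be a prime and a a natural number. There is a bound N such that every finite group whose Sylow p-subgroups have order p^a and whose only p-block (relative to a maximal ideal of the algebraic integers containing p) is the principal block has order at most N. -/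
theorem result (p : ℕ) [Fact p.Prime] (a : ℕ) : ∃ N : ℕ, ∀ (G : Type u) [Group G] [Finite G] (M : Ideal Cfsg.AlgInt), Cfsg.IsPModular p M → (Nat.card G).factorization p = a → (∀ B : Set (Cfsg.IrrCharacter G), Cfsg.IsPBlock M B → B = Cfsg.principalBlock M G) → Nat.card G ≤ N := by
  obtain ⟨N, hN⟩ := Cfsg.Agent.Helper22.landau_classes.{u} (p ^ (2 * a) + 4)
  refine ⟨N, ?_⟩
  intro G _ _ M hM ha hone
  haveI hMp : M.IsPrime := hM.2.1.isPrime
  haveI := Fintype.ofFinite G
  apply hN G
  rw [← Cfsg.Agent.Helper24.card_irr_eq_card_conjClasses]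
  rcases isEmpty_or_nonempty (IrrCharacter G) with hemp | ⟨⟨χ⟩⟩
  · rw [Nat.card_of_isEmpty]; exact Nat.zero_le _
  · have h1 := hone (blockOf M (χ : G → ℂ)) ⟨χ, rfl⟩
    have hbf := Cfsg.Agent.S4494.result p M hM (blockOf M (χ : G → ℂ)) ⟨χ, rfl⟩
    have huniv : blockOf M (χ : G → ℂ) = Set.univ := by
      ext ψ
      simp only [Set.mem_univ, iff_true]
      have h2 := hone (blockOf M (ψ : G → ℂ)) ⟨ψ, rfl⟩
      rw [h1, ← h2]
      exact sameBlock_refl _
    have hcard : Nat.card ↥(blockOf M (χ : G → ℂ)) = Nat.card (IrrCharacter G) := by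
      rw [huniv]; exact Nat.card_congr (Equiv.Set.univ _)
    have hd : blockDefect p (blockOf M (χ : G → ℂ)) ≤ a := by
      unfold blockDefect; rw [ha]; exact Nat.sub_le _ _
    have hpow : p ^ (2 * blockDefect p (blockOf M (χ : G → ℂ))) ≤ p ^ (2 * a) :=
      Nat.pow_le_pow_right (Fact.out : p.Prime).pos (by omega)
    rw [hcard] at hbf
    omega

end Cfsg.Agent.S4718
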