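import Cfsg.Statements.S4723
import Cfsg.Agent.Helper5.BlkHtStab

set_option autoImplicit false
open Cfsg

namespace Cfsg.Agent.S4723

/-- Let p be a prime, M a maximal ideal of the algebraic integers containing p, H a normal subgroup of the finite group G and b a p-block of H. Let T be the stabilizer of b in G. Then b contains a character θ of height zero whose own stabilizer in G (the elements g with θ(g h g⁻¹) = θ(h) for all h ∈ H) has index prime to p in T, i.e. contains a Sylow p-subgroup of T. -/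
theorem result {G : Type*} [Group G] [Finite G] (p : ℕ) [Fact p.Prime] (M : Ideal Cfsg.AlgInt) (hM : Cfsg.IsPModular p M) (H : Subgroup G) [H.Normal] (b : Set (Cfsg.IrrCharacter ↥H)) (hb : Cfsg.IsPBlock M b) (T : Subgroup G) (hT : (∀ g : G, g ∈ T ↔ ∀ θ ∈ b, ∀ θ' : Cfsg.IrrCharacter ↥H, (∀ h h' : ↥H, (h' : G) = g * h * g⁻¹ → (θ' : ↥H → ℂ) h' = (θ : ↥H → ℂ) h) → θ' ∈ b)) : ∃ θ ∈ b, Cfsg.blockHeight p b (θ : ↥H → ℂ) = 0 ∧ ∃ S : Subgroup G, S ≤ T ∧ (∀ g : G, g ∈ S ↔ (g ∈ T ∧ ∀ h h' : ↥H, (h' : G) = g * h * g⁻¹ → (θ : ↥H → ℂ) h' = (θ : ↥H → ℂ) h)) ∧ ¬ p ∣ S.relIndex T := by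
  classical
  have : M.IsPrime := hM.2.1.isPrime
  haveI : Fintype G := Fintype.ofFinite G
  haveI : Fintype H := Fintype.ofFinite H
  obtain ⟨θ₀, rfl⟩ := hb
  have hTinv : ∀ g : G, g ∈ T ↔ ∀ θ ∈ blockOf M (θ₀ : H → ℂ),
      Cfsg.Agent.Helper22.twIrr H g⁻¹ θ ∈ blockOf M (θ₀ : H → ℂ) := by
    intro g
    rw [hT g]
    constructor
    · intro h θ hθ
      refine h θ hθ _ ?_
      intro k k' hk
      show (θ : H → ℂ) ⟨g⁻¹ * (k' : G) * g⁻¹⁻¹, _⟩ = (θ : H → ℂ) k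
      refine congrArg _ (Subtype.ext ?_)
      show g⁻¹ * (k' : G) * g⁻¹⁻¹ = (k : G)
      rw [hk]
      group
    · intro h θ hθ θ' hθ'
      have e : θ' = Cfsg.Agent.Helper22.twIrr H g⁻¹ θ := by
        apply Subtype.ext
        funext k'
        have hmem : g⁻¹ * (k' : G) * g⁻¹⁻¹ ∈ H := ‹H.Normal›.conj_mem k' k'.2 g⁻¹
        exact hθ' ⟨g⁻¹ * (k' : G) * g⁻¹⁻¹, hmem⟩ k'
          (by show (k' : G) = g * (g⁻¹ * (k' : G) * g⁻¹⁻¹) * g⁻¹; group)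
      rw [e]
      exact h θ hθ
  have hT' : ∀ g : G, g ∈ T ↔ ∀ θ ∈ blockOf M (θ₀ : H → ℂ),
      Cfsg.Agent.Helper22.twIrr H g θ ∈ blockOf M (θ₀ : H → ℂ) := by
    intro g
    rw [← T.inv_mem_iff, hTinv g⁻¹, inv_inv]
  obtain ⟨θ, hθb, hht, S, hST, hS, hidx⟩ :=
    Cfsg.Agent.Helper5.exists_height_zero_sylow_stable H hM θ₀ T hT'
  refine ⟨θ, hθb, hht, S, hST, ?_, hidx⟩
  intro g
  rw [hS g]
  constructor
  · rintro ⟨hgT, e⟩
    refine ⟨hgT, ?_⟩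
    intro k k' hk
    have h1 := congrFun e k
    rw [← h1]
    show (θ : H → ℂ) k' = (θ : H → ℂ) ⟨g * (k : G) * g⁻¹, _⟩
    exact congrArg _ (Subtype.ext hk)
  · rintro ⟨hgT, hc⟩
    refine ⟨hgT, ?_⟩
    funext k
    exact hc k ⟨g * (k : G) * g⁻¹, ‹H.Normal›.conj_mem k k.2 g⟩ rfl

end Cfsg.Agent.S4723
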