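import Cfsg.Statements.S4725
import Cfsg.Agent.Helper22.BlkIndPart
import Cfsg.Agent.S4430

set_option autoImplicit false
open Cfsg
open Cfsg.Agent.Helper5 Cfsg.Agent.Helper24 Cfsg.Agent.Helper22

namespace Cfsg.Agent.S4725

/-- Let p be a prime, M a maximal ideal of the algebraic integers containing p, H a subgroup of the finite group G, and b a p-block of H inducing the p-block B of G, with b and B of the same defect. Then for every height-zero ζ ∈ b there is a height-zero χ ∈ B whose multiplicity in the character induced from ζ is not divisible by p. -/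
theorem result {G : Type*} [Group G] [Fintype G] (p : ℕ) [Fact p.Prime] (M : Ideal Cfsg.AlgInt) (hM : Cfsg.IsPModular p M) (H : Subgroup G) (b : Set (Cfsg.IrrCharacter ↥H)) (B : Set (Cfsg.IrrCharacter G)) (hind : Cfsg.IsInducedBlock M H b B) (hdef : Cfsg.blockDefect p b = Cfsg.blockDefect p B) (ζ : Cfsg.IrrCharacter ↥H) (hζ : ζ ∈ b) (hζ0 : Cfsg.blockHeight p b (ζ : ↥H → ℂ) = 0) : ∃ χ ∈ B, Cfsg.blockHeight p B (χ : G → ℂ) = 0 ∧ ∃ a : ℕ, Cfsg.classInner (Cfsg.indFun H (ζ : ↥H → ℂ)) (χ : G → ℂ) = (a : ℂ) ∧ ¬ p ∣ a := by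
  classical
  haveI : Fintype H := Fintype.ofFinite H
  haveI hMp : M.IsPrime := hM.2.1.isPrime
  have hp : p.Prime := Fact.out
  obtain ⟨⟨n, hn1, hn0, hnν⟩, -⟩ := Cfsg.Agent.S4430.result p M hM H b B hind ζ hζ
  obtain ⟨⟨ζ₀, rfl⟩, ⟨χ₀, rfl⟩, hcong⟩ := hind
  obtain ⟨hd1, hd0, hddvd⟩ := irr_charDegree_spec ζ
  have hidx0 : H.index ≠ 0 := Subgroup.index_ne_zero_of_finite
  have hind1 : indFun H (ζ : H → ℂ) 1 = ((H.index * charDegree (ζ : H → ℂ) : ℕ) : ℂ) := by
    rw [Cfsg.Agent.Helper24.indFun_one, hd1, Nat.cast_mul]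
  have hdeg : charDegree (indFun H (ζ : H → ℂ)) = H.index * charDegree (ζ : H → ℂ) :=
    Cfsg.Agent.Helper24.charDegree_of_eq hind1
  rw [hdeg, Nat.factorization_mul hidx0 hd0, Finsupp.add_apply] at hnν
  obtain ⟨sb, hsb⟩ : ∃ s : ℕ, s = sInf ((fun ψ : IrrCharacter H =>
      (charDegree (ψ : H → ℂ)).factorization p) '' blockOf M (ζ₀ : H → ℂ)) := ⟨_, rfl⟩
  obtain ⟨sB, hsB⟩ : ∃ s : ℕ, s = sInf ((fun ψ : IrrCharacter G =>
      (charDegree (ψ : G → ℂ)).factorization p) '' blockOf M (χ₀ : G → ℂ)) := ⟨_, rfl⟩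
  unfold blockDefect at hdef
  rw [← hsb, ← hsB] at hdef
  have hζs : (charDegree (ζ : H → ℂ)).factorization p = sb := by
    unfold blockHeight at hζ0
    rw [← hsb] at hζ0
    have h1 : sb ≤ (charDegree (ζ : H → ℂ)).factorization p := by
      rw [hsb]; exact Nat.sInf_le ⟨ζ, hζ, rfl⟩
    omega
  have hsbH : sb ≤ (Nat.card H).factorization p := by
    rw [← hζs]
    exact (Nat.factorization_le_iff_dvd hd0 Nat.card_pos.ne').mpr hddvd p
  have hsBG : sB ≤ (Nat.card G).factorization p := by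
    obtain ⟨-, hc0, hcdvd⟩ := irr_charDegree_spec χ₀
    have h1 : sB ≤ (charDegree (χ₀ : G → ℂ)).factorization p := by
      rw [hsB]; exact Nat.sInf_le ⟨χ₀, sameBlock_refl _, rfl⟩
    exact h1.trans ((Nat.factorization_le_iff_dvd hc0 Nat.card_pos.ne').mpr hcdvd p)
  have hGH : (Nat.card G).factorization p =
      (Nat.card H).factorization p + H.index.factorization p := by
    rw [← Subgroup.card_mul_index H, Nat.factorization_mul Nat.card_pos.ne' hidx0,
      Finsupp.add_apply]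
  have hnsB : n.factorization p = sB := by omega
  obtain ⟨a, ha1, -⟩ := isCharacter_decomp
    (isCharacter_induced H _ (isCharacter_of_isIrrCharacter ζ.2))
  have hpart : blockPart (blockOf M (χ₀ : G → ℂ)) (indFun H (ζ : H → ℂ)) 1 =
      ((∑ χ : IrrCharacter G,
        if χ ∈ blockOf M (χ₀ : G → ℂ) then a χ * charDegree (χ : G → ℂ) else 0 : ℕ) : ℂ) :=
    blockPart_one_natCast _ _ a ha1
  have hn2 : n = ∑ χ : IrrCharacter G,
      if χ ∈ blockOf M (χ₀ : G → ℂ) then a χ * charDegree (χ : G → ℂ) else 0 :=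
    Nat.cast_injective (R := ℂ) (hn1.symm.trans hpart)
  have hex : ∃ χ : IrrCharacter G, χ ∈ blockOf M (χ₀ : G → ℂ) ∧
      blockHeight p (blockOf M (χ₀ : G → ℂ)) (χ : G → ℂ) = 0 ∧ ¬ p ∣ a χ := by
    by_contra hcon
    have hdvd : p ^ (sB + 1) ∣ n := by
      rw [hn2]
      refine Finset.dvd_sum fun χ _ => ?_
      by_cases hχ : χ ∈ blockOf M (χ₀ : G → ℂ)
      · rw [if_pos hχ]
        obtain ⟨-, hc0, -⟩ := irr_charDegree_spec χ
        have hle : sB ≤ (charDegree (χ : G → ℂ)).factorization p := by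
          rw [hsB]; exact Nat.sInf_le ⟨χ, hχ, rfl⟩
        by_cases hht : blockHeight p (blockOf M (χ₀ : G → ℂ)) (χ : G → ℂ) = 0
        · have hpa : p ∣ a χ := by
            by_contra hnd
            exact hcon ⟨χ, hχ, hht, hnd⟩
          have h2 : p ^ sB ∣ charDegree (χ : G → ℂ) :=
            (hp.pow_dvd_iff_le_factorization hc0).mpr hle
          rw [pow_succ, mul_comm (p ^ sB) p]
          exact mul_dvd_mul hpa h2
        · have hht' : (charDegree (χ : G → ℂ)).factorization p - sB ≠ 0 := by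
            rw [hsB]; exact hht
          have h2 : p ^ (sB + 1) ∣ charDegree (χ : G → ℂ) :=
            (hp.pow_dvd_iff_le_factorization hc0).mpr (by omega)
          exact h2.mul_left _
      · rw [if_neg hχ]; exact dvd_zero _
    have h3 := (hp.pow_dvd_iff_le_factorization hn0).mp hdvd
    omega
  obtain ⟨χ, hχ, hht, hnd⟩ := hex
  exact ⟨χ, hχ, hht, a χ, ha1 χ, hnd⟩

end Cfsg.Agent.S4725
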