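import Cfsg.Statements.S4730
import Cfsg.Agent.Helper5.BlkLoc
import Cfsg.Agent.Helper5.BlkOsima
import Cfsg.Agent.Helper24.CharBurnside
import Cfsg.Agent.Helper24.CharInd
import Cfsg.Agent.Helper24.CharDecomp
import Cfsg.Agent.Helper22.Brauer3

set_option autoImplicit false
open Cfsg

namespace Cfsg.Agent.S4730

theorem faithful_vanish {G : Type*} [Group G] [Finite G] (p : ℕ) [Fact p.Prime]
    (hZ : Subgroup.center G = ⊥) (χ : Cfsg.IrrCharacter G)
    (hfaith : ∀ g : G, (χ : G → ℂ) g = (χ : G → ℂ) 1 → g = 1) (n : ℕ)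
    (hdeg : Cfsg.charDegree (χ : G → ℂ) = p ^ n) (z : G) (hz : z ≠ 1)
    (hidx : ¬ p ∣ (Subgroup.centralizer ({z} : Set G)).index) : (χ : G → ℂ) z = 0 := by
  classical
  haveI := Fintype.ofFinite G
  obtain ⟨h1, h2, h3⟩ := Cfsg.Agent.Helper22.irr_charDegree_spec χ
  obtain ⟨m, ρ, hρ, hρχ⟩ := χ.2
  haveI hirr : ρ.IsIrreducible := hρ
  have hn : (χ : G → ℂ) 1 = (Module.finrank ℂ (Fin m → ℂ) : ℂ) := by
    rw [← hρχ, Representation.char_one]
  have hfr : Module.finrank ℂ (Fin m → ℂ) = p ^ n := by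
    have h4 : ((Module.finrank ℂ (Fin m → ℂ) : ℕ) : ℂ) = ((p ^ n : ℕ) : ℂ) := by
      rw [← hn, h1, hdeg]
    exact_mod_cast h4
  have hcop : Nat.Coprime (Module.finrank ℂ (Fin m → ℂ))
      (Subgroup.centralizer ({z} : Set G)).index := by
    rw [hfr]
    exact Nat.Coprime.pow_left n ((Nat.Prime.coprime_iff_not_dvd (Fact.out : p.Prime)).mpr hidx)
  rcases Cfsg.Agent.Helper24.char_eq_zero_or_norm_eq ρ z hcop with h0 | h1'
  · rw [← hρχ]; exact h0
  · exfalso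
    obtain ⟨ω, hω⟩ := (Cfsg.Agent.Helper24.norm_char_eq_finrank_iff ρ z).mp h1'
    have hker : ∀ x : G, ρ x = 1 → x = 1 := by
      intro x hx
      apply hfaith
      rw [← hρχ]
      show LinearMap.trace ℂ _ (ρ x) = LinearMap.trace ℂ _ (ρ 1)
      have hone : ρ 1 = 1 := map_one ρ
      rw [hx, hone]
    have hzc : z ∈ Subgroup.center G := by
      rw [Subgroup.mem_center_iff]
      intro x
      have h3' : ρ (x * z) = ρ (z * x) := by
        rw [map_mul, map_mul, hω]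
        ext v; simp
      have h4 : ρ ((x * z) * (z * x)⁻¹) = 1 := by
        rw [map_mul, h3', ← map_mul, mul_inv_cancel, map_one]
      exact mul_inv_eq_one.mp (hker _ h4)
    rw [hZ, Subgroup.mem_bot] at hzc
    exact hz hzc

theorem pow_dvd_degree {G : Type*} [Group G] [Finite G] (p : ℕ) [Fact p.Prime]
    (M : Ideal Cfsg.AlgInt) (hM : Cfsg.IsPModular p M) (Z : Subgroup G) (b : ℕ)
    (hZc : Nat.card Z = p ^ b) (χ ψ : Cfsg.IrrCharacter G)
    (hvan : ∀ z ∈ Z, z ≠ 1 → (χ : G → ℂ) z = 0)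
    (hidx : ∀ z ∈ Z, ¬ p ∣ (Subgroup.centralizer ({z} : Set G)).index)
    (hsame : Cfsg.SameBlock M (χ : G → ℂ) (ψ : G → ℂ)) :
    p ^ b ∣ Cfsg.charDegree (ψ : G → ℂ) := by
  classical
  haveI := Fintype.ofFinite G
  haveI : Fintype ↥Z := Fintype.ofFinite _
  haveI hMp : M.IsPrime := hM.2.1.isPrime
  have hp : p.Prime := Fact.out
  obtain ⟨hψ1, hψ0, -⟩ := Cfsg.Agent.Helper22.irr_charDegree_spec ψ
  obtain ⟨d, hd⟩ : ∃ d : ℕ, d = Cfsg.charDegree (ψ : G → ℂ) := ⟨_, rfl⟩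
  rw [← hd] at hψ1 hψ0 ⊢
  have hd0 : (d : ℂ) ≠ 0 := Nat.cast_ne_zero.mpr hψ0
  have hloc : ∀ z ∈ Z, z ≠ 1 → Cfsg.MemLocalIdeal M ((ψ : G → ℂ) z / (d : ℂ)) := by
    intro z hz hz1
    have h1 := hsame z
    unfold Cfsg.centralChar at h1
    rw [hvan z hz hz1, mul_zero, zero_div, zero_sub, hψ1] at h1
    have h2 := Cfsg.Agent.Helper5.memLocalIdeal_neg h1
    rw [neg_neg] at h2
    have h3 := Cfsg.Agent.Helper5.memLocalIdeal_mul_left
      (Cfsg.Agent.Helper5.natCast_inv_memLocalRing hM (hidx z hz)) h2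
    have hi0 : ((Subgroup.centralizer ({z} : Set G)).index : ℂ) ≠ 0 := by
      have h0' : (Subgroup.centralizer ({z} : Set G)).index ≠ 0 :=
        fun h0 => hidx z hz (h0 ▸ dvd_zero p)
      exact Nat.cast_ne_zero.mpr h0'
    have h4 : ((Subgroup.centralizer ({z} : Set G)).index : ℂ)⁻¹ *
        (((Subgroup.centralizer ({z} : Set G)).index : ℂ) * (ψ : G → ℂ) z / (d : ℂ)) =
        (ψ : G → ℂ) z / (d : ℂ) := by
      field_simp
    rwa [h4] at h3
  obtain ⟨m, hm⟩ := Cfsg.Agent.Helper24.classInner_isCharacter_natCast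
    (Cfsg.Agent.Helper24.isCharacter_restrict Z
      (Cfsg.Agent.Helper24.isCharacter_of_isIrrCharacter ψ.2))
    (Cfsg.Agent.Helper24.isCharacter_of_isIrrCharacter
      (Cfsg.Agent.Helper24.isIrrCharacter_one : Cfsg.IsIrrCharacter ↥Z (fun _ => (1 : ℂ))))
  rw [Cfsg.Agent.Helper24.classInner_def'] at hm
  simp only [map_one, mul_one] at hm
  rw [hZc] at hm
  have hpb : ((p ^ b : ℕ) : ℂ) ≠ 0 := Nat.cast_ne_zero.mpr (pow_pos hp.pos b).ne'
  have hsum : ∑ g : ↥Z, (ψ : G → ℂ) g = ((p ^ b : ℕ) : ℂ) * (m : ℂ) := by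
    rw [← hm, ← mul_assoc, mul_inv_cancel₀ hpb, one_mul]
  have hsplit : (ψ : G → ℂ) 1 + ∑ g ∈ Finset.univ.erase (1 : ↥Z), (ψ : G → ℂ) g =
      ∑ g : ↥Z, (ψ : G → ℂ) g :=
    Finset.add_sum_erase Finset.univ (fun g : ↥Z => (ψ : G → ℂ) g) (Finset.mem_univ (1 : ↥Z))
  obtain ⟨t, ht⟩ : ∃ t : ℂ, t = ∑ g ∈ Finset.univ.erase (1 : ↥Z), (ψ : G → ℂ) g / (d : ℂ) :=
    ⟨_, rfl⟩
  have htloc : Cfsg.MemLocalIdeal M t := by
    rw [ht]
    refine Cfsg.Agent.Helper5.memLocalIdeal_sum _ _ fun g hg => ?_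
    exact hloc g g.2 fun h => (Finset.ne_of_mem_erase hg) (OneMemClass.coe_eq_one.mp h)
  have heq : (d : ℂ) * (1 + t) = ((p ^ b : ℕ) : ℂ) * (m : ℂ) := by
    rw [← hsum, ← hsplit, hψ1, ht, mul_add, mul_one, Finset.mul_sum]
    congr 1
    exact Finset.sum_congr rfl fun g _ => by field_simp
  obtain ⟨c, r, hr, hdr⟩ := Nat.exists_eq_pow_mul_and_not_dvd hψ0 p hp.ne_one
  by_cases hcb : b ≤ c
  · rw [hdr]; exact Dvd.dvd.mul_right (pow_dvd_pow p hcb) r
  · exfalso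
    obtain ⟨k, hk⟩ := Nat.exists_eq_add_of_lt (not_le.mp hcb)
    have hpc : ((p ^ c : ℕ) : ℂ) ≠ 0 := Nat.cast_ne_zero.mpr (pow_pos hp.pos c).ne'
    have h7 : (d : ℂ) = ((p ^ c : ℕ) : ℂ) * (r : ℂ) := by rw [hdr, Nat.cast_mul]
    have h8 : ((p ^ b : ℕ) : ℂ) = ((p ^ c : ℕ) : ℂ) * ((p : ℂ) * ((p ^ k : ℕ) : ℂ)) := by
      rw [hk]; push_cast; ring
    have h6 : ((p ^ c : ℕ) : ℂ) * ((r : ℂ) * (1 + t)) =
        ((p ^ c : ℕ) : ℂ) * (((p ^ k * m : ℕ) : ℂ) * (p : ℂ)) := by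
      calc ((p ^ c : ℕ) : ℂ) * ((r : ℂ) * (1 + t)) = (d : ℂ) * (1 + t) := by rw [h7]; ring
        _ = ((p ^ b : ℕ) : ℂ) * (m : ℂ) := heq
        _ = _ := by rw [h8]; push_cast; ring
    have h5 : (r : ℂ) * (1 + t) = ((p ^ k * m : ℕ) : ℂ) * (p : ℂ) := mul_left_cancel₀ hpc h6
    have h9 : Cfsg.MemLocalIdeal M ((r : ℂ) * (1 + t)) := by
      rw [h5]
      exact Cfsg.Agent.Helper5.memLocalIdeal_mul_left
        (Cfsg.Agent.Helper5.natCast_memLocalRing _) (Cfsg.Agent.Helper5.prime_memLocalIdeal hM)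
    have h10 : ¬ Cfsg.MemLocalIdeal M (1 + t) := by
      intro h
      have h11 := Cfsg.Agent.Helper5.memLocalIdeal_sub h htloc
      rw [add_sub_cancel_right] at h11
      exact Cfsg.Agent.Helper5.not_memLocalIdeal_one h11
    exact Cfsg.Agent.Helper5.not_memLocalIdeal_mul (Cfsg.Agent.Helper5.natCast_memLocalRing r)
      (Cfsg.Agent.Helper22.not_memLocalIdeal_natCast hM
        ((Nat.Prime.coprime_iff_not_dvd hp).mpr hr).symm) h10 h9

/-- Let p be a prime, M a maximal ideal of the algebraic integers containing p, and G a finite group with trivial centre, Sylow p-subgroup P of order p^a and centre Z(P) of order p^b. If χ is a faithful irreducible character of G whose degree is a power of p, then the p-block of χ has defect at most a − b; in particular, if P is abelian then χ lies in a block of defect zero. -/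
theorem result {G : Type*} [Group G] [Finite G] (p : ℕ) [Fact p.Prime] (M : Ideal Cfsg.AlgInt) (hM : Cfsg.IsPModular p M) (hZ : Subgroup.center G = ⊥) (P : Sylow p G) (a b : ℕ) (ha : Nat.card P = p ^ a) (hb : Nat.card (Subgroup.center ↥(P : Subgroup G)) = p ^ b) (χ : Cfsg.IrrCharacter G) (hfaith : ∀ g : G, (χ : G → ℂ) g = (χ : G → ℂ) 1 → g = 1) (n : ℕ) (hdeg : Cfsg.charDegree (χ : G → ℂ) = p ^ n) : Cfsg.blockDefect p (Cfsg.blockOf M (χ : G → ℂ)) ≤ a - b ∧ (IsMulCommutative ↥(P : Subgroup G) → Cfsg.blockDefect p (Cfsg.blockOf M (χ : G → ℂ)) = 0) := by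
  classical
  haveI := Fintype.ofFinite G
  haveI hMp : M.IsPrime := hM.2.1.isPrime
  have hp : p.Prime := Fact.out
  have hafac : (Nat.card G).factorization p = a := by
    have h1 := P.card_eq_multiplicity
    rw [ha] at h1
    exact (Nat.pow_right_injective hp.two_le h1).symm
  obtain ⟨Z, hZdef⟩ : ∃ Z : Subgroup G,
      Z = (Subgroup.center ↥(P : Subgroup G)).map (P : Subgroup G).subtype := ⟨_, rfl⟩
  have hZcard : Nat.card Z = p ^ b := by
    rw [← hb, hZdef]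
    exact Subgroup.card_map_of_injective (Subgroup.subtype_injective _)
  have hZmem : ∀ z ∈ Z, ∀ x ∈ (P : Subgroup G), x * z = z * x := by
    intro z hz x hx
    rw [hZdef] at hz
    obtain ⟨y, hy, rfl⟩ := hz
    have h1 := Subgroup.mem_center_iff.mp hy ⟨x, hx⟩
    exact congrArg Subtype.val h1
  have hidx : ∀ z ∈ Z, ¬ p ∣ (Subgroup.centralizer ({z} : Set G)).index := by
    intro z hz hdvd
    have hle : (P : Subgroup G) ≤ Subgroup.centralizer ({z} : Set G) := by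
      intro x hx
      rw [Subgroup.mem_centralizer_iff]
      intro h hh
      rw [Set.mem_singleton_iff] at hh
      rw [hh]
      exact (hZmem z hz x hx).symm
    exact P.not_dvd_index (dvd_trans hdvd (Subgroup.index_dvd_of_le hle))
  have hvan : ∀ z ∈ Z, z ≠ 1 → (χ : G → ℂ) z = 0 := fun z hz hz1 =>
    faithful_vanish p hZ χ hfaith n hdeg z hz1 (hidx z hz)
  have hdvd : ∀ ψ : Cfsg.IrrCharacter G, ψ ∈ Cfsg.blockOf M (χ : G → ℂ) →
      p ^ b ∣ Cfsg.charDegree (ψ : G → ℂ) :=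
    fun ψ hψ => pow_dvd_degree p M hM Z b hZcard χ ψ hvan hidx hψ
  have hinf : b ≤ sInf ((fun ψ : Cfsg.IrrCharacter G =>
      (Cfsg.charDegree (ψ : G → ℂ)).factorization p) '' Cfsg.blockOf M (χ : G → ℂ)) := by
    apply le_csInf
    · exact ⟨_, χ, Cfsg.Agent.Helper5.sameBlock_refl _, rfl⟩
    · rintro _ ⟨ψ, hψ, rfl⟩
      exact (hp.pow_dvd_iff_le_factorization
        (Cfsg.Agent.Helper22.irr_charDegree_spec ψ).2.1).mp (hdvd ψ hψ)
  have hdef : Cfsg.blockDefect p (Cfsg.blockOf M (χ : G → ℂ)) ≤ a - b := by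
    unfold Cfsg.blockDefect
    rw [hafac]
    exact Nat.sub_le_sub_left hinf a
  refine ⟨hdef, fun hcomm => ?_⟩
  have hab : b = a := by
    have hcen : Subgroup.center ↥(P : Subgroup G) = ⊤ := by
      ext x
      simp only [Subgroup.mem_center_iff, Subgroup.mem_top, iff_true]
      intro g
      exact hcomm.is_comm.comm g x
    have h1 : Nat.card (Subgroup.center ↥(P : Subgroup G)) = Nat.card ↥(P : Subgroup G) := by
      rw [hcen]; exact Subgroup.card_top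
    rw [hb, ha] at h1
    exact Nat.pow_right_injective hp.two_le h1
  rw [hab, Nat.sub_self] at hdef
  exact Nat.le_zero.mp hdef

end Cfsg.Agent.S4730
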