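import Cfsg.Statements.S4733
import Cfsg.Agent.Helper22.BlkRank
import Cfsg.Agent.S0914

set_option autoImplicit false
open Cfsg
open Cfsg.Agent.Helper5 Cfsg.Agent.Helper24 Cfsg.Agent.Helper22

namespace Cfsg.Agent.S4733

/-- Let p be a prime, M a maximal ideal of the algebraic integers containing p, and B a p-block of the finite group G with k irreducible characters and p-regular rank l (the number of irreducible Brauer characters). Then l ≤ k, and the following are equivalent: B has defect 0; k = l = 1; k = l. -/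
theorem result {G : Type*} [Group G] [Finite G] (p : ℕ) [Fact p.Prime] (M : Ideal Cfsg.AlgInt) (hM : Cfsg.IsPModular p M) (B : Set (Cfsg.IrrCharacter G)) (hB : Cfsg.IsPBlock M B) : Cfsg.blockRank p B ≤ Nat.card B ∧ (Cfsg.blockDefect p B = 0 ↔ (Nat.card B = 1 ∧ Cfsg.blockRank p B = 1)) ∧ (Cfsg.blockDefect p B = 0 ↔ Nat.card B = Cfsg.blockRank p B) := by
  classical
  haveI := Fintype.ofFinite G
  haveI hMp : M.IsPrime := hM.2.1.isPrime
  have hp : p.Prime := Fact.out
  obtain ⟨χ₀, rfl⟩ := hB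
  haveI : Fintype ↥(blockOf M (χ₀ : G → ℂ)) := Fintype.ofFinite _
  obtain ⟨b, hbdef⟩ : ∃ b : ↥(blockOf M (χ₀ : G → ℂ)) → (G → ℂ),
      b = fun χ : ↥(blockOf M (χ₀ : G → ℂ)) => pRegularPart p ((χ.1 : IrrCharacter G) : G → ℂ) :=
      ⟨_, rfl⟩
  have hrange : Set.range b = (fun χ : IrrCharacter G => pRegularPart p (χ : G → ℂ)) ''
      (blockOf M (χ₀ : G → ℂ)) := by
    rw [hbdef]
    ext f; constructor
    · rintro ⟨χ, rfl⟩; exact ⟨χ.1, χ.2, rfl⟩
    · rintro ⟨χ, hχ, rfl⟩; exact ⟨⟨χ, hχ⟩, rfl⟩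
  have hrank : blockRank p (blockOf M (χ₀ : G → ℂ)) = (Set.range b).finrank ℂ := by
    rw [hrange]; rfl
  have hle : blockRank p (blockOf M (χ₀ : G → ℂ)) ≤ Nat.card ↥(blockOf M (χ₀ : G → ℂ)) := by
    rw [hrank, Nat.card_eq_fintype_card]
    exact finrank_range_le_card b
  have hmem₀ : χ₀ ∈ blockOf M (χ₀ : G → ℂ) := sameBlock_refl _
  obtain ⟨S, hSdef⟩ : ∃ S : Set ℕ, S = (fun χ : IrrCharacter G =>
      (charDegree (χ : G → ℂ)).factorization p) '' (blockOf M (χ₀ : G → ℂ)) := ⟨_, rfl⟩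
  have hdef : blockDefect p (blockOf M (χ₀ : G → ℂ)) =
      (Nat.card G).factorization p - sInf S := by rw [hSdef]; rfl
  have hS₀ : (charDegree (χ₀ : G → ℂ)).factorization p ∈ S := by
    rw [hSdef]; exact ⟨χ₀, hmem₀, rfl⟩
  have hSne : S.Nonempty := ⟨_, hS₀⟩
  have hSle : ∀ s ∈ S, s ≤ (Nat.card G).factorization p := by
    intro s hs
    rw [hSdef] at hs
    obtain ⟨χ, -, rfl⟩ := hs
    obtain ⟨-, hd0, hdvd⟩ := irr_charDegree_spec χ
    exact (Nat.factorization_le_iff_dvd hd0 Nat.card_pos.ne').mpr hdvd p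
  have hinfmem : sInf S ∈ S := Nat.sInf_mem hSne
  have hC : Nat.card ↥(blockOf M (χ₀ : G → ℂ)) = blockRank p (blockOf M (χ₀ : G → ℂ)) →
      blockDefect p (blockOf M (χ₀ : G → ℂ)) = 0 := by
    intro hcard
    rw [hrank, Nat.card_eq_fintype_card] at hcard
    have hli : LinearIndependent ℂ b := linearIndependent_iff_card_eq_finrank_span.mpr hcard
    rw [Fintype.linearIndependent_iff] at hli
    have hvan : ∀ χ ∈ blockOf M (χ₀ : G → ℂ), ∀ y : G, p ∣ orderOf y →
        (χ : G → ℂ) y = 0 := by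
      intro χ hχ y hy
      have hrel : ∑ ψ : ↥(blockOf M (χ₀ : G → ℂ)),
          starRingEnd ℂ (((ψ : IrrCharacter G) : G → ℂ) y) • b ψ = 0 := by
        funext x
        rw [Finset.sum_apply, Pi.zero_apply]
        by_cases hx : p ∣ orderOf x
        · refine Finset.sum_eq_zero (fun ψ _ => ?_)
          rw [Pi.smul_apply, hbdef]
          show _ • pRegularPart p ((ψ : IrrCharacter G) : G → ℂ) x = 0
          rw [pRegularPart_of_sing p _ hx, smul_zero]
        · have hw := weak_block_orth hM χ₀ x y hx hy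
          rw [← finsum_set_coe_eq_finsum_mem, finsum_eq_sum_of_fintype] at hw
          refine Eq.trans (Finset.sum_congr rfl (fun ψ _ => ?_)) hw
          rw [Pi.smul_apply, hbdef]
          show _ • pRegularPart p ((ψ : IrrCharacter G) : G → ℂ) x = _
          rw [pRegularPart_of_reg p _ hx, smul_eq_mul, mul_comm]
      have h0 := hli _ hrel ⟨χ, hχ⟩
      exact (map_eq_zero_iff (starRingEnd ℂ) (RingHom.injective _)).mp h0
    rw [hdef]
    apply Nat.sub_eq_zero_of_le
    refine le_csInf hSne (fun s hs => ?_)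
    rw [hSdef] at hs
    obtain ⟨χ, hχ, rfl⟩ := hs
    obtain ⟨-, hd0, -⟩ := irr_charDegree_spec χ
    exact (Nat.Prime.pow_dvd_iff_le_factorization hp hd0).mp
      (pow_dvd_degree_of_vanish p χ (hvan χ hχ))
  have hA : blockDefect p (blockOf M (χ₀ : G → ℂ)) = 0 →
      Nat.card ↥(blockOf M (χ₀ : G → ℂ)) = 1 ∧ blockRank p (blockOf M (χ₀ : G → ℂ)) = 1 := by
    intro h0
    rw [hdef] at h0
    have hinf : sInf S = (Nat.card G).factorization p :=
      le_antisymm (hSle _ hinfmem) (Nat.sub_eq_zero_iff_le.mp h0)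
    have h1 : (charDegree (χ₀ : G → ℂ)).factorization p = (Nat.card G).factorization p := by
      apply le_antisymm (hSle _ hS₀)
      rw [← hinf]
      exact Nat.sInf_le hS₀
    obtain ⟨-, hd0, hdvd⟩ := irr_charDegree_spec χ₀
    have hnd : ¬ p ∣ Nat.card G / charDegree (χ₀ : G → ℂ) := by
      intro hdiv
      have h2 := Nat.mul_dvd_of_dvd_div hdvd hdiv
      have h5 : p ^ (Nat.card G).factorization p ∣ charDegree (χ₀ : G → ℂ) := by
        rw [← h1]; exact Nat.ordProj_dvd _ p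
      have h3 : p ^ ((Nat.card G).factorization p + 1) ∣ Nat.card G := by
        rw [pow_succ]
        exact (Nat.mul_dvd_mul_right h5 p).trans h2
      exact Nat.pow_succ_factorization_not_dvd Nat.card_pos.ne' hp h3
    have hB1 : blockOf M (χ₀ : G → ℂ) = {χ₀} := (Cfsg.Agent.S0914.result p M hM χ₀).mp hnd
    constructor
    · rw [hB1, Nat.card_coe_set_eq, Set.ncard_singleton]
    · have hv : pRegularPart p (χ₀ : G → ℂ) ≠ 0 := by
        intro hz
        have h4 := congrFun hz 1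
        rw [pRegularPart_of_reg p _ (by rw [orderOf_one]; exact hp.not_dvd_one)] at h4
        exact Cfsg.Agent.Helper5.irr_one_ne_zero χ₀ h4
      unfold blockRank
      rw [hB1, Set.image_singleton]
      exact finrank_span_singleton hv
  refine ⟨hle, ⟨hA, fun h => hC (h.1.trans h.2.symm)⟩, ⟨fun h => ?_, hC⟩⟩
  obtain ⟨h1, h2⟩ := hA h
  rw [h1, h2]

end Cfsg.Agent.S4733
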