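import Cfsg.Statements.S4955
import Cfsg.Agent.Helper22.IrrKer
import Cfsg.Agent.Helper22.Ito
import Cfsg.Agent.Helper22.PVal
import Cfsg.Agent.Helper22.GalChar2


set_option autoImplicit false
open Cfsg
open Cfsg.Agent.Helper24 Cfsg.Agent.Helper22

namespace Cfsg.Agent.S4955

/-- Let X be a finite group with an abelian normal Sylow p-subgroup V (a normal p-subgroup of index prime to p in which any two elements commute), and let G be a complement to V in X. Then for every v in V, writing C for the centralizer of v in G, the number k(X) of conjugacy classes of X satisfies k(X) ≤ (order of C)·(order of V) − ((order of G) − k(G)); the statement is written with the subtracted term moved to the left. In particular, if some v in V is centralized by no nonidentity element of G, then k(X) is at most the order of V. -/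
theorem result {X : Type*} [Group X] [Finite X] (p : ℕ) [Fact p.Prime] (V : Subgroup X) [V.Normal] (hVp : IsPGroup p V) (hidx : ¬ p ∣ V.index) (hab : ∀ a ∈ V, ∀ b ∈ V, a * b = b * a) (G : Subgroup X) (hGV : Subgroup.IsComplement' V G) (v : X) (hv : v ∈ V) : Nat.card (ConjClasses X) + Nat.card G ≤ Nat.card ↥(G ⊓ Subgroup.centralizer ({v} : Set X)) * Nat.card V + Nat.card (ConjClasses G) := by
  classical
  obtain ⟨r, hr, hker⟩ : ∃ r : X →* ↥G, Function.Surjective r ∧ ∀ u : X, r u = 1 ↔ u ∈ V := by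
    refine ⟨(hGV.symm.QuotientMulEquiv).toMonoidHom.comp (QuotientGroup.mk' V),
      (MulEquiv.surjective (hGV.symm.QuotientMulEquiv)).comp (QuotientGroup.mk'_surjective V),
      fun u => ?_⟩
    show hGV.symm.QuotientMulEquiv (QuotientGroup.mk u) = 1 ↔ u ∈ V
    rw [MulEquiv.map_eq_one_iff, QuotientGroup.eq_one_iff]
  have hnz : ∀ (χ : IrrCharacter X) (w : X), w ∈ V → (χ : X → ℂ) w ≠ 0 := by
    intro χ w hw
    obtain ⟨d, hd1, hd2⟩ := ito χ.2 V hab
    obtain ⟨m, ρ, hρ, hχ⟩ := χ.2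
    obtain ⟨a, ha⟩ := hVp ⟨w, hw⟩
    have ha' : w ^ (p ^ a) = 1 := by
      have := congrArg Subtype.val ha
      simpa using this
    have hm : ¬ p ∣ Module.finrank ℂ (Fin m → ℂ) := by
      intro hpm
      apply hidx
      have hdm : (d : ℂ) = (Module.finrank ℂ (Fin m → ℂ) : ℂ) := by
        rw [← hd1, ← hχ, Representation.char_one]
      rw [Nat.cast_inj] at hdm
      rw [← hdm] at hpm
      exact dvd_trans hpm hd2
    rw [← hχ]
    exact char_ne_zero_of_pow_prime ρ p a w ha' hm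
  obtain ⟨N, hN⟩ : ∃ N : IrrCharacter X → (ZMod (Nat.card X))ˣ → ℝ,
      ∀ χ k, N χ k = ‖(χ : X → ℂ) (v ^ (k : ZMod (Nat.card X)).val)‖ ^ 2 := ⟨_, fun _ _ => rfl⟩
  have hvk : ∀ k : (ZMod (Nat.card X))ˣ, v ^ (k : ZMod (Nat.card X)).val ∈ V :=
    fun k => V.pow_mem hv _
  have hlow : ∀ χ : IrrCharacter X,
      (Fintype.card (ZMod (Nat.card X))ˣ : ℝ) ≤ ∑ k, N χ k := by
    intro χ
    simp_rw [hN]
    exact sum_units_normSq_ge (isCharacter_of_isIrrCharacter χ.2) (hnz χ v hv)
  have hcent : ∀ k : (ZMod (Nat.card X))ˣ,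
      Nat.card (Subgroup.centralizer ({v ^ (k : ZMod (Nat.card X)).val} : Set X)) ≤
        Nat.card (Subgroup.centralizer ({v} : Set X)) := by
    intro k
    apply Subgroup.card_le_of_le
    intro x hx
    rw [Subgroup.mem_centralizer_singleton_iff] at hx ⊢
    have h1 : Commute x (v ^ (k : ZMod (Nat.card X)).val) := hx
    have h2 := h1.pow_right ((k⁻¹ : (ZMod (Nat.card X))ˣ) : ZMod (Nat.card X)).val
    rw [pow_unit_inv] at h2
    exact h2
  have htot : ∑ χ : IrrCharacter X, ∑ k, N χ k ≤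
      (Fintype.card (ZMod (Nat.card X))ˣ : ℝ) *
        (Nat.card (Subgroup.centralizer ({v} : Set X)) : ℝ) := by
    rw [Finset.sum_comm]
    calc ∑ k : (ZMod (Nat.card X))ˣ, ∑ χ : IrrCharacter X, N χ k
        ≤ ∑ k : (ZMod (Nat.card X))ˣ, (Nat.card (Subgroup.centralizer ({v} : Set X)) : ℝ) := by
          refine Finset.sum_le_sum fun k _ => ?_
          simp_rw [hN]
          rw [sum_irr_normSq]
          exact_mod_cast hcent k
      _ = _ := by rw [Finset.sum_const, Finset.card_univ, nsmul_eq_mul]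
  obtain ⟨S, hS⟩ : ∃ S : Finset (IrrCharacter X), S = Finset.univ.filter
      (fun χ : IrrCharacter X => ∀ u : X, r u = 1 → (χ : X → ℂ) u = (χ : X → ℂ) 1) := ⟨_, rfl⟩
  obtain ⟨T, hT⟩ : ∃ T : Finset (IrrCharacter X), T = Finset.univ.filter
      (fun χ : IrrCharacter X => ¬ ∀ u : X, r u = 1 → (χ : X → ℂ) u = (χ : X → ℂ) 1) := ⟨_, rfl⟩
  have hSimg : S = Finset.univ.image (inflIrr r hr) := by
    rw [hS]
    ext χ
    simp only [Finset.mem_filter, Finset.mem_univ, true_and, Finset.mem_image]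
    constructor
    · intro hK
      obtain ⟨ψ, hψ⟩ := exists_irr_of_ker r hr χ hK
      exact ⟨ψ, Subtype.ext (funext fun g => (hψ g).symm)⟩
    · rintro ⟨ψ, rfl⟩ u hu
      show (ψ : ↥G → ℂ) (r u) = (ψ : ↥G → ℂ) (r 1)
      rw [hu, map_one]
  have hScard : S.card = Nat.card (ConjClasses G) := by
    rw [hSimg, Finset.card_image_of_injective _ (inflIrr_injective r hr), Finset.card_univ,
      ← Nat.card_eq_fintype_card, card_irr_eq_card_conjClasses]
  have hSsum : ∑ χ ∈ S, ‖(χ : X → ℂ) 1‖ ^ 2 = (Nat.card G : ℝ) := by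
    rw [hSimg, Finset.sum_image (fun a _ b _ h => inflIrr_injective r hr h),
      ← sum_irr_one_normSq]
    refine Finset.sum_congr rfl fun ψ _ => ?_
    show ‖(ψ : ↥G → ℂ) (r 1)‖ ^ 2 = _
    rw [map_one]
  have hST : S.card + T.card = Nat.card (ConjClasses X) := by
    rw [hS, hT, Finset.card_filter_add_card_filter_not, Finset.card_univ,
      ← Nat.card_eq_fintype_card, card_irr_eq_card_conjClasses]
  have hSf : ∑ χ ∈ S, ∑ k, N χ k =
      (Fintype.card (ZMod (Nat.card X))ˣ : ℝ) * (Nat.card G : ℝ) := by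
    rw [← hSsum, Finset.mul_sum]
    refine Finset.sum_congr rfl fun χ hχ => ?_
    rw [hS, Finset.mem_filter] at hχ
    have : ∀ k : (ZMod (Nat.card X))ˣ, N χ k = ‖(χ : X → ℂ) 1‖ ^ 2 := by
      intro k
      rw [hN, hχ.2 _ ((hker _).2 (hvk k))]
    rw [Finset.sum_congr rfl fun k _ => this k, Finset.sum_const, Finset.card_univ, nsmul_eq_mul]
  have hTf : (T.card : ℝ) * (Fintype.card (ZMod (Nat.card X))ˣ : ℝ) ≤ ∑ χ ∈ T, ∑ k, N χ k := by
    have := Finset.card_nsmul_le_sum T (fun χ => ∑ k, N χ k)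
      (Fintype.card (ZMod (Nat.card X))ˣ : ℝ) (fun χ _ => hlow χ)
    rwa [nsmul_eq_mul] at this
  have hsplit : ∑ χ : IrrCharacter X, ∑ k, N χ k =
      ∑ χ ∈ S, ∑ k, N χ k + ∑ χ ∈ T, ∑ k, N χ k := by
    rw [hS, hT, Finset.sum_filter_add_sum_filter_not]
  have hφ : (0 : ℝ) < (Fintype.card (ZMod (Nat.card X))ˣ : ℝ) := by
    exact_mod_cast Fintype.card_pos
  have hreal : (T.card : ℝ) + (Nat.card G : ℝ) ≤
      (Nat.card (Subgroup.centralizer ({v} : Set X)) : ℝ) := by
    have h2 : (Fintype.card (ZMod (Nat.card X))ˣ : ℝ) * ((T.card : ℝ) + (Nat.card G : ℝ)) ≤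
        (Fintype.card (ZMod (Nat.card X))ˣ : ℝ) *
          (Nat.card (Subgroup.centralizer ({v} : Set X)) : ℝ) := by
      rw [hsplit, hSf] at htot
      linarith [htot, hTf]
    exact le_of_mul_le_mul_left h2 hφ
  have hnat : T.card + Nat.card G ≤ Nat.card (Subgroup.centralizer ({v} : Set X)) := by
    exact_mod_cast hreal
  have hF : Nat.card (Subgroup.centralizer ({v} : Set X)) ≤
      Nat.card ↥(G ⊓ Subgroup.centralizer ({v} : Set X)) * Nat.card V := by
    rw [← Nat.card_prod]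
    refine Nat.card_le_card_of_surjective
      (fun q : ↥(G ⊓ Subgroup.centralizer ({v} : Set X)) × ↥V =>
        (⟨(q.2 : X) * (q.1 : X), ?_⟩ : ↥(Subgroup.centralizer ({v} : Set X)))) ?_
    · exact Subgroup.mul_mem _ (Subgroup.mem_centralizer_singleton_iff.2 (hab _ q.2.2 _ hv))
        (Subgroup.mem_inf.1 q.1.2).2
    · rintro ⟨x, hx⟩
      obtain ⟨⟨u, g⟩, hug⟩ := hGV.2 x
      have hug' : (u : X) * (g : X) = x := hug
      have hu : (u : X) ∈ Subgroup.centralizer ({v} : Set X) :=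
        Subgroup.mem_centralizer_singleton_iff.2 (hab _ u.2 _ hv)
      have hg : (g : X) ∈ Subgroup.centralizer ({v} : Set X) := by
        have : (g : X) = (u : X)⁻¹ * x := by rw [← hug']; group
        rw [this]
        exact Subgroup.mul_mem _ (Subgroup.inv_mem _ hu) hx
      exact ⟨(⟨g, Subgroup.mem_inf.2 ⟨g.2, hg⟩⟩, ⟨u, u.2⟩), Subtype.ext hug'⟩
  rw [← hST]
  generalize Nat.card ↥(G ⊓ Subgroup.centralizer ({v} : Set X)) * Nat.card V = M at hF ⊢
  omega

end Cfsg.Agent.S4955
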