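import Cfsg.Statements.S4964
import Cfsg.Agent.Helper22.BlkQuot2


set_option autoImplicit false
open Cfsg
open Cfsg.Agent.Helper22 Cfsg.Agent.Helper5 Cfsg.Agent.Helper24

namespace Cfsg.Agent.S4964

/-- Let D be a normal p-subgroup of the finite group G, let D′ be its commutator subgroup (normal in G), and fix a maximal ideal M of the algebraic integers containing p. Then (i) two irreducible characters of G ⧸ D′ lie in the same p-block if and only if their inflations to G do, and (ii) every p-block of G contains the inflation of some irreducible character of G ⧸ D′; so inflation induces a bijection between the p-blocks of G ⧸ D′ and the p-blocks of G. -/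
theorem result {G : Type*} [Group G] [Finite G] (p : ℕ) [Fact p.Prime] (M : Ideal Cfsg.AlgInt) (hM : Cfsg.IsPModular p M) (D : Subgroup G) [D.Normal] (hD : IsPGroup p D) : (∀ χ ψ : Cfsg.IrrCharacter (G ⧸ ⁅D, D⁆), Cfsg.SameBlock M (χ : G ⧸ ⁅D, D⁆ → ℂ) (ψ : G ⧸ ⁅D, D⁆ → ℂ) ↔ Cfsg.SameBlock M ((χ : G ⧸ ⁅D, D⁆ → ℂ) ∘ QuotientGroup.mk) ((ψ : G ⧸ ⁅D, D⁆ → ℂ) ∘ QuotientGroup.mk)) ∧ ∀ B : Set (Cfsg.IrrCharacter G), Cfsg.IsPBlock M B → ∃ χ : Cfsg.IrrCharacter (G ⧸ ⁅D, D⁆), ∃ θ ∈ B, (θ : G → ℂ) = (χ : G ⧸ ⁅D, D⁆ → ℂ) ∘ QuotientGroup.mk := by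
  classical
  haveI := Fintype.ofFinite G
  haveI hMp : M.IsPrime := hM.2.1.isPrime
  have hp := hM.1
  haveI : Fintype (G ⧸ ⁅D, D⁆) := Fintype.ofFinite _
  have hNle : ⁅D, D⁆ ≤ D := Subgroup.commutator_le_right D D
  have hNp : IsPGroup p (⁅D, D⁆ : Subgroup G) := hD.to_le hNle
  constructor
  · intro χ ψ
    constructor
    · intro h g
      obtain ⟨T, hT⟩ : ∃ T : Subgroup G, T = (Subgroup.centralizer
          ({(QuotientGroup.mk g : G ⧸ ⁅D, D⁆)} : Set (G ⧸ ⁅D, D⁆))).comap
            (QuotientGroup.mk' ⁅D, D⁆) := ⟨_, rfl⟩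
      have hTidx : T.index
          = (Subgroup.centralizer ({(QuotientGroup.mk g : G ⧸ ⁅D, D⁆)} :
              Set (G ⧸ ⁅D, D⁆))).index := by
        rw [hT]
        exact Subgroup.index_comap_of_surjective _ (QuotientGroup.mk'_surjective ⁅D, D⁆)
      have hCT : Subgroup.centralizer ({g} : Set G) ≤ T := by
        intro x hx
        rw [hT, Subgroup.mem_comap, Subgroup.mem_centralizer_singleton_iff]
        show (QuotientGroup.mk x : G ⧸ ⁅D, D⁆) * QuotientGroup.mk g
          = QuotientGroup.mk g * QuotientGroup.mk x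
        rw [← QuotientGroup.mk_mul, ← QuotientGroup.mk_mul,
          Subgroup.mem_centralizer_singleton_iff.mp hx]
      have hrel := Subgroup.relIndex_mul_index hCT
      have e : centralChar ((χ : G ⧸ ⁅D, D⁆ → ℂ) ∘ QuotientGroup.mk) g
          - centralChar ((ψ : G ⧸ ⁅D, D⁆ → ℂ) ∘ QuotientGroup.mk) g
          = (((Subgroup.centralizer ({g} : Set G)).relIndex T : ℕ) : ℂ)
            * (centralChar (χ : G ⧸ ⁅D, D⁆ → ℂ) (QuotientGroup.mk g)
              - centralChar (ψ : G ⧸ ⁅D, D⁆ → ℂ) (QuotientGroup.mk g)) := by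
        unfold centralChar
        rw [← hrel, hTidx]
        simp only [Function.comp_apply, QuotientGroup.mk_one]
        push_cast
        ring
      rw [e]
      exact memLocalIdeal_mul_left (natCast_memLocalRing _) (h _)
    · intro h
      refine sameBlock_of_congr_regular hM χ ψ fun q hq => ?_
      obtain ⟨g, rfl, hg⟩ := exists_regular_lift hp ⁅D, D⁆ q hq
      by_cases hgC : g ∈ Subgroup.centralizer ((⁅D, D⁆ : Subgroup G) : Set G)
      · have hgP : ∀ u ∈ ⁅D, D⁆, u * g = g * u :=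
          fun u hu => Subgroup.mem_centralizer_iff.mp hgC u hu
        rw [← centralChar_infl_regular ⁅D, D⁆ hNp χ g hg hgP,
          ← centralChar_infl_regular ⁅D, D⁆ hNp ψ g hg hgP]
        exact h g
      · have hq' : (QuotientGroup.mk g : G ⧸ ⁅D, D⁆) ∉ Subgroup.centralizer
            ((D.map (QuotientGroup.mk' ⁅D, D⁆) : Subgroup (G ⧸ ⁅D, D⁆)) :
              Set (G ⧸ ⁅D, D⁆)) := by
          intro hc
          apply hgC
          have h1 := centralizes_of_quot D hD g hg hc
          rw [Subgroup.mem_centralizer_iff] at h1 ⊢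
          exact fun u hu => h1 u (hNle hu)
        haveI : (D.map (QuotientGroup.mk' ⁅D, D⁆)).Normal :=
          Subgroup.Normal.map inferInstance _ (QuotientGroup.mk'_surjective _)
        have hDp : IsPGroup p (D.map (QuotientGroup.mk' ⁅D, D⁆)) := hD.map _
        exact memLocalIdeal_sub
          (centralChar_memLocalIdeal_of_normal hM _ hDp χ _ hq')
          (centralChar_memLocalIdeal_of_normal hM _ hDp ψ _ hq')
  · intro B hB
    obtain ⟨χ₀, rfl⟩ := hB
    obtain ⟨θ, hθB, hθ⟩ := exists_ker_in_block hM χ₀ D hD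
    obtain ⟨χ, hχ⟩ := exists_irr_of_ker (QuotientGroup.mk' ⁅D, D⁆)
      (QuotientGroup.mk'_surjective _) θ
      (fun u hu => hθ u (hNle ((QuotientGroup.eq_one_iff u).mp hu)))
    refine ⟨χ, θ, hθB, ?_⟩
    funext g
    exact hχ g

end Cfsg.Agent.S4964
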