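import Cfsg.Statements.S4967
import Cfsg.Agent.Helper12.SelfDual

set_option autoImplicit false
open Cfsg

namespace Cfsg.Agent.S4967

/-- Let F be a finite field with r elements and of characteristic p, H a finite abelian group of order prime to p, and V a faithful irreducible representation of H over F of dimension n (faithful: distinct elements act differently; irreducible: the only H-invariant subspaces are 0 and V). Call V self-dual when it carries a nondegenerate H-invariant bilinear form. If n = 1 and V is self-dual then H has order at most 2. If n ≥ 2 then V is self-dual if and only if n is even and the order of H divides r^(n/2) + 1. -/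
theorem result {F : Type*} [Field F] [Fintype F] (p : ℕ) [Fact p.Prime] [CharP F p] {H : Type*} [CommGroup H] [Finite H] (hcop : ¬ p ∣ Nat.card H) {V : Type*} [AddCommGroup V] [Module F V] [FiniteDimensional F V] (ρ : Representation F H V) (hfaith : Function.Injective ρ) (hirr : ∀ U : Submodule F V, (∀ h : H, ∀ u ∈ U, ρ h u ∈ U) → U = ⊥ ∨ U = ⊤) : (Module.finrank F V = 1 → (∃ B : LinearMap.BilinForm F V, B.Nondegenerate ∧ ∀ h : H, ∀ x y : V, B (ρ h x) (ρ h y) = B x y) → Nat.card H ≤ 2) ∧ (2 ≤ Module.finrank F V → ((∃ B : LinearMap.BilinForm F V, B.Nondegenerate ∧ ∀ h : H, ∀ x y : V, B (ρ h x) (ρ h y) = B x y) ↔ (Even (Module.finrank F V) ∧ Nat.card H ∣ Fintype.card F ^ (Module.finrank F V / 2) + 1))) := by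
  constructor
  · rintro h1 ⟨B, hB, hinv⟩
    exact Cfsg.Agent.Helper12.SD.part1 ρ hfaith h1 B hB hinv
  · intro h2
    haveI : Nontrivial V := Module.nontrivial_of_finrank_pos (R := F) (by omega)
    obtain ⟨A, fA, aA, finA, ι, u, e, hι, hu, hgen, he⟩ :=
      Cfsg.Agent.Helper12.SD.package ρ hirr
    have hfr : Module.finrank F A = Module.finrank F V := LinearEquiv.finrank_eq e
    have huinj : Function.Injective u := fun a b hab => hfaith (by rw [← hu, ← hu, hab])
    constructor
    · rintro ⟨B, hB, hinv⟩
      obtain ⟨τ, hτ⟩ := Cfsg.Agent.Helper12.SD.exists_tau ρ ι u hι hu hgen B hB hinv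
      obtain ⟨hev, hpow⟩ := Cfsg.Agent.Helper12.SD.fwd_abs τ (Set.range u) hgen
        (by rintro _ ⟨h, rfl⟩; exact hτ h) (by omega)
      rw [hfr] at hev hpow
      refine ⟨hev, ?_⟩
      haveI : IsCyclic H := isCyclic_of_injective_ringHom u huinj
      rw [← IsCyclic.exponent_eq_card]
      apply Monoid.exponent_dvd_of_forall_pow_eq_one
      intro h
      apply huinj
      rw [map_pow, map_one]
      exact hpow (u h) ⟨h, rfl⟩
    · rintro ⟨hev, hdvd⟩
      obtain ⟨BA, hBA, hBAinv⟩ :=
        Cfsg.Agent.Helper12.SD.bwd_abs (F := F) (A := A) (Module.finrank F V / 2)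
      refine ⟨LinearMap.BilinForm.congr e BA, LinearMap.BilinForm.Nondegenerate.congr e hBA, ?_⟩
      intro h x y
      have hsymm : ∀ z, e.symm (ρ h z) = u h * e.symm z := by
        intro z
        apply e.injective
        rw [LinearEquiv.apply_symm_apply, he, hu, LinearEquiv.apply_symm_apply]
      rw [LinearMap.BilinForm.congr_apply, LinearMap.BilinForm.congr_apply, hsymm, hsymm]
      apply hBAinv
      obtain ⟨c, hc⟩ := hdvd
      rw [← map_pow, hc, pow_mul, pow_card_eq_one', one_pow, map_one]

end Cfsg.Agent.S4967
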