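import Cfsg.Statements.S5013
import Cfsg.Agent.Helper25.RankOne

set_option autoImplicit false
open Cfsg

namespace Cfsg.Agent.S5013

open Cfsg.Agent.Helper25

/-- In a rank one group with unipotent subgroups A and B (conjugation written g H g⁻¹), for every non-identity a in A the non-identity b in B with b⁻¹ A b = a⁻¹ B a is unique, every non-identity b in B arises in this way from exactly one such a (so a ↦ b(a) is a bijection between the non-identity elements of A and of B), and no non-identity element of A normalizes B (and vice versa). -/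
theorem result {G : Type*} [Group G] {A B : Subgroup G} (h : Cfsg.IsRankOnePair A B) :
    (∀ a ∈ A, a ≠ 1 → ∃! b : G, b ∈ B ∧ b ≠ 1 ∧ Cfsg.conjBy A b⁻¹ = Cfsg.conjBy B a⁻¹) ∧
    (∀ b ∈ B, b ≠ 1 → ∃! a : G, a ∈ A ∧ a ≠ 1 ∧ Cfsg.conjBy A b⁻¹ = Cfsg.conjBy B a⁻¹) ∧
    A ⊓ Subgroup.normalizer (B : Set G) = ⊥ ∧ B ⊓ Subgroup.normalizer (A : Set G) = ⊥ := by
  refine ⟨?_, ?_, IsRankOnePair.inf_normalizer_right h, IsRankOnePair.inf_normalizer_left h⟩
  · intro a ha ha1
    obtain ⟨b, hbB, hb1, hb⟩ := h.cond_left a ha ha1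
    refine ⟨b, ⟨hbB, hb1, hb⟩, ?_⟩
    rintro b' ⟨hb'B, -, hb'⟩
    have h1 : conjBy A (b' * b⁻¹) = A := by
      rw [← conjBy_conjBy, hb, ← hb', conjBy_conjBy, mul_inv_cancel, conjBy_one]
    have h2 := IsRankOnePair.eq_one_of_normalizes_left h (B.mul_mem hb'B (B.inv_mem hbB)) h1
    exact (mul_inv_eq_one.mp h2)
  · intro b hb hb1
    obtain ⟨a, haA, ha1, ha⟩ := h.cond_right b hb hb1
    refine ⟨a, ⟨haA, ha1, ha.symm⟩, ?_⟩
    rintro a' ⟨ha'A, -, ha'⟩
    have h1 : conjBy B (a' * a⁻¹) = B := by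
      rw [← conjBy_conjBy, ha, ha', conjBy_conjBy, mul_inv_cancel, conjBy_one]
    have h2 := IsRankOnePair.eq_one_of_normalizes_right h (A.mul_mem ha'A (A.inv_mem haA)) h1
    exact (mul_inv_eq_one.mp h2)

end Cfsg.Agent.S5013
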