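import Cfsg.Statements.S5014
import Cfsg.Agent.Helper25.RankOne

set_option autoImplicit false
open Cfsg

namespace Cfsg.Agent.S5014

open Cfsg.Agent.Helper25

/-- Let X = ⟨A, B⟩ be a rank one group with unipotent subgroups A and B and let Ω be the set of conjugates of A under X. Then Ω has at least three members, X acts doubly transitively on Ω by conjugation (any two ordered pairs of distinct members are carried to one another by a single element of X), and A acts regularly on Ω with A removed: for C, D in Ω different from A there is exactly one element of A conjugating C to D. -/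
theorem result {G : Type*} [Group G] {A B : Subgroup G} (h : Cfsg.IsRankOnePair A B) :
    (∃ C₁ ∈ Cfsg.unipotentSubgroups A B, ∃ C₂ ∈ Cfsg.unipotentSubgroups A B, ∃ C₃ ∈ Cfsg.unipotentSubgroups A B,
      C₁ ≠ C₂ ∧ C₁ ≠ C₃ ∧ C₂ ≠ C₃) ∧
    (∀ C₁ ∈ Cfsg.unipotentSubgroups A B, ∀ C₂ ∈ Cfsg.unipotentSubgroups A B, ∀ D₁ ∈ Cfsg.unipotentSubgroups A B,
      ∀ D₂ ∈ Cfsg.unipotentSubgroups A B, C₁ ≠ C₂ → D₁ ≠ D₂ →
        ∃ x ∈ A ⊔ B, Cfsg.conjBy C₁ x = D₁ ∧ Cfsg.conjBy C₂ x = D₂) ∧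
    (∀ C ∈ Cfsg.unipotentSubgroups A B, ∀ D ∈ Cfsg.unipotentSubgroups A B, C ≠ A → D ≠ A →
      ∃! a : G, a ∈ A ∧ Cfsg.conjBy C a = D) := by
  have hBΩ := IsRankOnePair.right_mem_unipotentSubgroups h
  refine ⟨?_, ?_, ?_⟩
  · obtain ⟨a, ha, ha1⟩ := IsRankOnePair.exists_ne_one_left h
    refine ⟨A, unipotentSubgroups_self_mem A B, B, hBΩ, conjBy B a,
      unipotentSubgroups_conj_mem hBΩ ((le_sup_left : A ≤ A ⊔ B) ha), h.ne, ?_, ?_⟩
    · intro h1
      have h2 : conjBy A a⁻¹ = B := by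
        rw [h1, conjBy_conjBy, inv_mul_cancel, conjBy_one]
      rw [conjBy_of_mem (A.inv_mem ha)] at h2
      exact h.ne h2
    · intro h1
      exact ha1 (IsRankOnePair.eq_one_of_normalizes_right h ha h1.symm)
  · intro C₁ hC₁ C₂ hC₂ D₁ hD₁ D₂ hD₂ hC hD
    obtain ⟨x, hx, hx1, hx2⟩ := IsRankOnePair.exists_conj_to_pair h hC₁ hC₂ hC
    obtain ⟨y, hy, hy1, hy2⟩ := IsRankOnePair.exists_conj_to_pair h hD₁ hD₂ hD
    refine ⟨y⁻¹ * x, Subgroup.mul_mem _ (Subgroup.inv_mem _ hy) hx, ?_, ?_⟩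
    · rw [← conjBy_conjBy, hx1, ← hy1, conjBy_conjBy, inv_mul_cancel, conjBy_one]
    · rw [← conjBy_conjBy, hx2, ← hy2, conjBy_conjBy, inv_mul_cancel, conjBy_one]
  · intro C hC D hD hCA hDA
    obtain ⟨a₁, ha₁, rfl⟩ := (IsRankOnePair.unipotent_eq_or h hC).resolve_left hCA
    obtain ⟨a₂, ha₂, rfl⟩ := (IsRankOnePair.unipotent_eq_or h hD).resolve_left hDA
    refine ⟨a₂ * a₁⁻¹, ⟨A.mul_mem ha₂ (A.inv_mem ha₁), ?_⟩, ?_⟩
    · rw [conjBy_conjBy, inv_mul_cancel_right]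
    · rintro a ⟨ha, haD⟩
      have h1 : conjBy (conjBy B a₁) ((a₂ * a₁⁻¹)⁻¹ * a) = conjBy B a₁ := by
        rw [← conjBy_conjBy, haD, conjBy_conjBy]
        have : (a₂ * a₁⁻¹)⁻¹ * a₂ = a₁ := by group
        rw [this]
      have h2 := IsRankOnePair.eq_one_of_normalizes_conj h
        (A.mul_mem (A.inv_mem (A.mul_mem ha₂ (A.inv_mem ha₁))) ha) ha₁ h1
      exact (inv_mul_eq_one.mp h2).symm

end Cfsg.Agent.S5014
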