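import Cfsg.Statements.S5015
import Cfsg.Agent.Helper25.RankOne

set_option autoImplicit false
open Cfsg

namespace Cfsg.Agent.S5015

open Cfsg.Agent.Helper25

/-- Let a group Y act doubly transitively on a set Ω with at least three points, and suppose that the stabilizer of a point α contains a nilpotent subgroup A, normalized by that stabilizer, which acts regularly on the points other than α. Then for any y in Y moving α, the subgroups A and y A y⁻¹ are the unipotent subgroups of a rank one group, and the normal closure of A in Y (the subgroup generated by all conjugates of A) is generated by A and y A y⁻¹ alone. -/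
theorem result {Y Ω : Type*} [Group Y] [MulAction Y Ω]
    (h2 : MulAction.IsMultiplyPretransitive Y Ω 2) (hΩ : 3 ≤ ENat.card Ω) (α : Ω) (A : Subgroup Y)
    (hA : A ≤ MulAction.stabilizer Y α) (hAn : ∀ y ∈ MulAction.stabilizer Y α, Cfsg.conjBy A y = A)
    (hnil : Group.IsNilpotent A) (hreg : ∀ β γ : Ω, β ≠ α → γ ≠ α → ∃! a : Y, a ∈ A ∧ a • β = γ)
    (y : Y) (hy : y ∉ MulAction.stabilizer Y α) :
    Cfsg.IsRankOnePair A (Cfsg.conjBy A y) ∧ Subgroup.normalClosure (A : Set Y) = A ⊔ Cfsg.conjBy A y := by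
  have hAfix : ∀ a ∈ A, a • α = α := fun a ha => MulAction.mem_stabilizer_iff.mp (hA ha)
  have hyα : y • α ≠ α := fun h => hy (MulAction.mem_stabilizer_iff.mpr h)
  have hyα' : y⁻¹ • α ≠ α := by
    intro h
    apply hyα
    calc y • α = y • (y⁻¹ • α) := by rw [h]
      _ = α := by rw [smul_inv_smul]
  -- conjugates of `A` depend only on the image of `α`
  have hconj : ∀ g g' : Y, g • α = g' • α → conjBy A g = conjBy A g' := by
    intro g g' hgg
    have h1 : g'⁻¹ * g ∈ MulAction.stabilizer Y α := by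
      rw [MulAction.mem_stabilizer_iff, mul_smul, hgg, inv_smul_smul]
    have h2 := hAn _ h1
    calc conjBy A g = conjBy A (g' * (g'⁻¹ * g)) := by rw [mul_inv_cancel_left]
      _ = conjBy (conjBy A (g'⁻¹ * g)) g' := (conjBy_conjBy A _ _).symm
      _ = conjBy A g' := by rw [h2]
  -- only the identity of `A` fixes a point other than `α`
  have hA1 : ∀ a ∈ A, ∀ β : Ω, β ≠ α → a • β = β → a = 1 := by
    intro a ha β hβ hfix
    obtain ⟨a₀, -, huniq⟩ := hreg β β hβ hβ
    rw [huniq a ⟨ha, hfix⟩, huniq 1 ⟨A.one_mem, one_smul _ _⟩]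
  -- elements of `B = conjBy A y`
  have hBmem : ∀ b : Y, b ∈ conjBy A y ↔ y⁻¹ * b * y ∈ A := fun b => mem_conjBy
  have hBfix : ∀ b ∈ conjBy A y, b • (y • α) = y • α := by
    intro b hb
    have h1 := hAfix _ ((hBmem b).mp hb)
    rw [mul_smul, mul_smul] at h1
    calc b • y • α = y • (y⁻¹ • b • y • α) := by rw [smul_inv_smul]
      _ = y • α := by rw [h1]
  have hB1 : ∀ b ∈ conjBy A y, b • α = α → b = 1 := by
    intro b hb hfix
    have h1 : (y⁻¹ * b * y) • (y⁻¹ • α) = y⁻¹ • α := by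
      rw [mul_smul, mul_smul, smul_inv_smul, hfix]
    have h2 := hA1 _ ((hBmem b).mp hb) _ hyα' h1
    calc b = y * (y⁻¹ * b * y) * y⁻¹ := by group
      _ = 1 := by rw [h2]; group
  have hBex : ∀ δ : Ω, δ ≠ y • α → ∃ b ∈ conjBy A y, b • α = δ := by
    intro δ hδ
    have hδ' : y⁻¹ • δ ≠ α := by
      intro h
      apply hδ
      rw [← h, smul_inv_smul]
    obtain ⟨a, ⟨ha, haδ⟩, -⟩ := hreg (y⁻¹ • α) (y⁻¹ • δ) hyα' hδ'
    refine ⟨y * a * y⁻¹, conj_mem_conjBy ha, ?_⟩
    rw [mul_smul, mul_smul, haδ, smul_inv_smul]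
  have hAex : ∀ δ : Ω, δ ≠ α → ∃ a ∈ A, a • (y • α) = δ := by
    intro δ hδ
    obtain ⟨a, ⟨ha, haδ⟩, -⟩ := hreg (y • α) δ hyα hδ
    exact ⟨a, ha, haδ⟩
  have hne : A ≠ conjBy A y := by
    intro h
    obtain ⟨δ, hδα, hδβ⟩ := ENat.exists_ne_ne_of_three_le hΩ α (y • α)
    obtain ⟨a, ha, haδ⟩ := hAex δ hδα
    have h1 : a ∈ conjBy A y := by rw [← h]; exact ha
    rw [hBfix a h1] at haδ
    exact hδβ haδ.symm
  have hrank : IsRankOnePair A (conjBy A y) := by
    refine ⟨hne, hnil, ?_, ?_, ?_⟩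
    · haveI := hnil
      exact Group.nilpotent_of_mulEquiv
        (A.equivMapOfInjective (MulAut.conj y).toMonoidHom (MulAut.conj y).injective)
    · intro a ha ha1
      have hδβ : a⁻¹ • (y • α) ≠ y • α := by
        intro h
        have := hA1 a⁻¹ (A.inv_mem ha) _ hyα h
        exact ha1 (inv_eq_one.mp this)
      have hδα : a⁻¹ • (y • α) ≠ α := by
        intro h
        apply hyα
        calc y • α = a • (a⁻¹ • (y • α)) := by rw [smul_inv_smul]
          _ = α := by rw [h, hAfix a ha]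
      obtain ⟨b', hb', hb'δ⟩ := hBex _ hδβ
      refine ⟨b'⁻¹, Subgroup.inv_mem _ hb', ?_, ?_⟩
      · intro h
        rw [inv_eq_one] at h
        rw [h, one_smul] at hb'δ
        exact hδα hb'δ.symm
      · rw [inv_inv, conjBy_conjBy]
        apply hconj
        rw [hb'δ, mul_smul]
    · intro b hb hb1
      have hδα : b⁻¹ • α ≠ α := by
        intro h
        have := hB1 b⁻¹ (Subgroup.inv_mem _ hb) h
        exact hb1 (inv_eq_one.mp this)
      have hδβ : b⁻¹ • α ≠ y • α := by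
        intro h
        apply hyα
        calc y • α = b • (b⁻¹ • α) := by rw [h, hBfix b hb]
          _ = α := by rw [smul_inv_smul]
      obtain ⟨a', ha', ha'δ⟩ := hAex _ hδα
      refine ⟨a'⁻¹, A.inv_mem ha', ?_, ?_⟩
      · intro h
        rw [inv_eq_one] at h
        rw [h, one_smul] at ha'δ
        exact hδβ ha'δ.symm
      · rw [inv_inv, conjBy_conjBy]
        apply hconj
        rw [mul_smul, ha'δ]
  refine ⟨hrank, ?_⟩
  -- `A ⊔ B` is transitive on `Ω`
  have htrans : ∀ ω : Ω, ∃ x ∈ A ⊔ conjBy A y, x • α = ω := by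
    intro ω
    by_cases hω : ω = y • α
    · obtain ⟨δ, hδα, hδβ⟩ := ENat.exists_ne_ne_of_three_le hΩ α (y • α)
      obtain ⟨b, hb, hbδ⟩ := hBex δ hδβ
      obtain ⟨a, ⟨ha, haδ⟩, -⟩ := hreg δ (y • α) hδα hyα
      refine ⟨a * b, Subgroup.mul_mem _ ((le_sup_left : A ≤ A ⊔ conjBy A y) ha)
        ((le_sup_right : conjBy A y ≤ A ⊔ conjBy A y) hb), ?_⟩
      rw [mul_smul, hbδ, haδ, hω]
    · obtain ⟨b, hb, hbδ⟩ := hBex ω hω
      exact ⟨b, (le_sup_right : conjBy A y ≤ A ⊔ conjBy A y) hb, hbδ⟩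
  have hconjle : ∀ g : Y, conjBy A g ≤ A ⊔ conjBy A y := by
    intro g
    obtain ⟨x, hx, hxg⟩ := htrans (g • α)
    rw [hconj g x hxg.symm]
    intro z hz
    rw [mem_conjBy] at hz
    have h3 := Subgroup.mul_mem _ (Subgroup.mul_mem _ hx ((le_sup_left : A ≤ A ⊔ conjBy A y) hz))
      (Subgroup.inv_mem _ hx)
    have h4 : x * (x⁻¹ * z * x) * x⁻¹ = z := by group
    rwa [h4] at h3
  have hnormal : (A ⊔ conjBy A y).Normal := by
    constructor
    intro n hn g
    have h1 : g * n * g⁻¹ ∈ conjBy (A ⊔ conjBy A y) g := conj_mem_conjBy hn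
    have h2 : conjBy (A ⊔ conjBy A y) g ≤ A ⊔ conjBy A y := by
      show (A ⊔ conjBy A y).map (MulAut.conj g).toMonoidHom ≤ _
      rw [Subgroup.map_sup]
      refine sup_le (hconjle g) ?_
      show conjBy (conjBy A y) g ≤ _
      rw [conjBy_conjBy]
      exact hconjle _
    exact h2 h1
  apply le_antisymm
  · exact Subgroup.normalClosure_le_normal (le_sup_left : A ≤ A ⊔ conjBy A y)
  · refine sup_le Subgroup.le_normalClosure ?_
    intro z hz
    rw [mem_conjBy] at hz
    have h1 : y * (y⁻¹ * z * y) * y⁻¹ ∈ Subgroup.normalClosure (A : Set Y) :=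
      Subgroup.normalClosure_normal.conj_mem _ (Subgroup.le_normalClosure hz) y
    have h4 : y * (y⁻¹ * z * y) * y⁻¹ = z := by group
    rwa [h4] at h1

end Cfsg.Agent.S5015
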