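import Cfsg.Statements.S5017
import Cfsg.Agent.Helper25.RankOneGroup

set_option autoImplicit false
open Cfsg

namespace Cfsg.Agent.S5017

open Cfsg.Agent.Helper25

theorem commute_of_normalizes {X : Type*} [Group X] {A B : Subgroup X} (hAB : IsRankOnePair A B)
    (N : Subgroup X) (hN : N.Normal) (hNA : ∀ n ∈ N, conjBy A n = A) (hNB : ∀ n ∈ N, conjBy B n = B) :
    ∀ n ∈ N, ∀ a ∈ A, n * a = a * n := by
  intro n hn a ha
  have hc1 : a⁻¹ * n⁻¹ * a * n ∈ N := by
    have h1 := hN.conj_mem n⁻¹ (N.inv_mem hn) a⁻¹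
    rw [inv_inv] at h1
    exact N.mul_mem h1 hn
  have hc2 : a⁻¹ * n⁻¹ * a * n ∈ A := by
    have h1 : n⁻¹ * a * n ∈ A := by
      have h2 : a ∈ conjBy A n := by rw [hNA n hn]; exact ha
      exact mem_conjBy.mp h2
    have := A.mul_mem (A.inv_mem ha) h1
    have h2 : a⁻¹ * (n⁻¹ * a * n) = a⁻¹ * n⁻¹ * a * n := by group
    rwa [h2] at this
  have hc3 := IsRankOnePair.eq_one_of_normalizes_right hAB hc2 (hNB _ hc1)
  calc n * a = a * n * (a⁻¹ * n⁻¹ * a * n)⁻¹ := by group
    _ = a * n := by rw [hc3, inv_one, mul_one]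

theorem normal_dichotomy {X : Type*} [Group X] {A B : Subgroup X} (h : Cfsg.IsRankOneGroup X A B)
    (N : Subgroup X) (hN : N.Normal) : N ⊔ A = ⊤ ∨ N ≤ Subgroup.center X := by
  obtain ⟨htop, hAB⟩ := h
  by_cases hk : ∀ C ∈ unipotentSubgroups A B, ∀ n ∈ N, conjBy C n = C
  · right
    intro n hn
    have hNA := hk A (unipotentSubgroups_self_mem A B)
    have hNB := hk B (IsRankOnePair.right_mem_unipotentSubgroups hAB)
    have h1 := commute_of_normalizes hAB N hN hNA hNB n hn
    have h2 := commute_of_normalizes (RankOnePair_symm hAB) N hN hNB hNA n hn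
    have hcent : A ⊔ B ≤ Subgroup.centralizer ({n} : Set X) := by
      refine sup_le ?_ ?_
      · intro a ha
        rw [Subgroup.mem_centralizer_iff]
        intro y hy
        rw [Set.mem_singleton_iff] at hy
        subst hy
        exact h1 a ha
      · intro a ha
        rw [Subgroup.mem_centralizer_iff]
        intro y hy
        rw [Set.mem_singleton_iff] at hy
        subst hy
        exact h2 a ha
    rw [htop] at hcent
    rw [Subgroup.mem_center_iff]
    intro g
    have := hcent (Subgroup.mem_top g)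
    exact (Subgroup.mem_centralizer_iff.mp this n (Set.mem_singleton n)).symm
  · left
    push Not at hk
    obtain ⟨C, ⟨x, hx, rfl⟩, n, hn, hne⟩ := hk
    have hn' : x⁻¹ * n * x ∈ N := by
      have := hN.conj_mem n hn x⁻¹
      rwa [inv_inv] at this
    have hne' : conjBy A (x⁻¹ * n * x) ≠ A := by
      intro h1
      apply hne
      have h2 : conjBy (conjBy (conjBy A x) n) x⁻¹ = A := by
        rw [conjBy_conjBy, conjBy_conjBy]
        exact h1
      rw [conjBy_eq_iff, inv_inv] at h2
      exact h2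
    have hΩ : conjBy A (x⁻¹ * n * x) ∈ unipotentSubgroups A B :=
      unipotentSubgroups_conj_mem (unipotentSubgroups_self_mem A B) (by rw [htop]; exact Subgroup.mem_top _)
    obtain ⟨α, hα, hαeq⟩ := (IsRankOnePair.unipotent_eq_or hAB hΩ).resolve_left hne'
    have hB : B = conjBy A (α⁻¹ * (x⁻¹ * n * x)) := by
      rw [← conjBy_conjBy, hαeq, conjBy_conjBy, inv_mul_cancel, conjBy_one]
    rw [eq_top_iff, ← htop]
    have hg : α⁻¹ * (x⁻¹ * n * x) ∈ N ⊔ A :=
      Subgroup.mul_mem _ ((le_sup_right : A ≤ N ⊔ A) (A.inv_mem hα)) ((le_sup_left : N ≤ N ⊔ A) hn')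
    refine sup_le le_sup_right ?_
    intro b hb
    rw [hB, mem_conjBy] at hb
    have h3 := Subgroup.mul_mem _ (Subgroup.mul_mem _ hg ((le_sup_right : A ≤ N ⊔ A) hb))
      (Subgroup.inv_mem _ hg)
    have h4 : α⁻¹ * (x⁻¹ * n * x) * ((α⁻¹ * (x⁻¹ * n * x))⁻¹ * b * (α⁻¹ * (x⁻¹ * n * x))) *
        (α⁻¹ * (x⁻¹ * n * x))⁻¹ = b := by group
    rwa [h4] at h3

/-- Let X be a rank one group with unipotent subgroups A and B and N a normal subgroup of X. Then either X = N A or N lies in the centre of X. Consequently a perfect rank one group is quasisimple. -/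
theorem result {X : Type*} [Group X] {A B : Subgroup X} (h : Cfsg.IsRankOneGroup X A B) :
    (∀ N : Subgroup X, N.Normal → N ⊔ A = ⊤ ∨ N ≤ Subgroup.center X) ∧
    (Group.IsPerfect X → Cfsg.IsQuasisimple X) := by
  refine ⟨fun N hN => normal_dichotomy h N hN, ?_⟩
  intro hperf
  refine ⟨hperf, ?_⟩
  have hZne : Subgroup.center X ≠ ⊤ := by
    intro hc
    obtain ⟨a, ha, ha1⟩ := IsRankOnePair.exists_ne_one_left h.2
    apply ha1
    refine IsRankOnePair.eq_one_of_normalizes_right h.2 ha (conjBy_eq_of_commute ?_)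
    intro x _
    have : a ∈ Subgroup.center X := by rw [hc]; exact Subgroup.mem_top a
    exact (Subgroup.mem_center_iff.mp this x).symm
  have hnt : Nontrivial (X ⧸ Subgroup.center X) := by
    by_contra hnt
    rw [not_nontrivial_iff_subsingleton] at hnt
    exact hZne (QuotientGroup.subgroup_eq_top_of_subsingleton _ hnt)
  refine { exists_pair_ne := hnt.exists_pair_ne, eq_bot_or_eq_top_of_normal := ?_ }
  intro N' hN'
  have hNn : (N'.comap (QuotientGroup.mk' (Subgroup.center X))).Normal := hN'.comap _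
  rcases normal_dichotomy h _ hNn with h1 | h1
  · right
    have hsurj : Function.Surjective
        ((QuotientGroup.mk' (N'.comap (QuotientGroup.mk' (Subgroup.center X)))).comp A.subtype) := by
      intro y
      obtain ⟨x, rfl⟩ := QuotientGroup.mk_surjective y
      have hx : x ∈ N'.comap (QuotientGroup.mk' (Subgroup.center X)) ⊔ A := by
        rw [h1]; exact Subgroup.mem_top x
      obtain ⟨u, hu, z, hz, rfl⟩ := Subgroup.mem_sup_of_normal_left.mp hx
      refine ⟨⟨z, hz⟩, ?_⟩
      show (QuotientGroup.mk' _) z = (QuotientGroup.mk' _) (u * z)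
      have hu1 : (QuotientGroup.mk' (N'.comap (QuotientGroup.mk' (Subgroup.center X)))) u = 1 :=
        (QuotientGroup.eq_one_iff u).mpr hu
      rw [map_mul, hu1, one_mul]
    haveI := h.2.nilpotent_left
    have hnil : Group.IsNilpotent (X ⧸ N'.comap (QuotientGroup.mk' (Subgroup.center X))) :=
      nilpotent_of_surjective _ hsurj
    haveI := hperf
    have hsub : Subsingleton (X ⧸ N'.comap (QuotientGroup.mk' (Subgroup.center X))) := by
      by_contra hns
      rw [not_subsingleton_iff_nontrivial] at hns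
      exact Group.IsPerfect.not_isNilpotent (G := X ⧸ N'.comap (QuotientGroup.mk' (Subgroup.center X))) hnil
    have htop := QuotientGroup.subgroup_eq_top_of_subsingleton _ hsub
    rw [eq_top_iff]
    intro y _
    obtain ⟨x, rfl⟩ := QuotientGroup.mk_surjective y
    have hx : x ∈ N'.comap (QuotientGroup.mk' (Subgroup.center X)) := by
      rw [htop]; exact Subgroup.mem_top x
    exact hx
  · left
    rw [eq_bot_iff]
    intro y hy
    obtain ⟨x, rfl⟩ := QuotientGroup.mk_surjective y
    have hx : x ∈ N'.comap (QuotientGroup.mk' (Subgroup.center X)) := hy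
    rw [Subgroup.mem_bot]
    exact (QuotientGroup.eq_one_iff x).mpr (h1 hx)

end Cfsg.Agent.S5017
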