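import Cfsg.Statements.S5018
import Cfsg.Agent.Helper25.RankOneGroup

set_option autoImplicit false
open Cfsg

namespace Cfsg.Agent.S5018

open Cfsg.Agent.Helper25

/-- A rank one group is not nilpotent, and its second centre equals its centre. -/
theorem result {X : Type*} [Group X] {A B : Subgroup X} (h : Cfsg.IsRankOneGroup X A B) :
    Subgroup.upperCentralSeries X 2 = Subgroup.center X ∧ ¬ Group.IsNilpotent X := by
  obtain ⟨htop, hAB⟩ := h
  have hZ2 : Subgroup.upperCentralSeries X 2 = Subgroup.center X := by
    apply le_antisymm
    · intro z hz
      have hz' : ∀ y : X, z * y * z⁻¹ * y⁻¹ ∈ Subgroup.center X := by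
        intro y
        have := (Subgroup.mem_upperCentralSeries_succ_iff (n := 1)).mp hz y
        rwa [Subgroup.upperCentralSeries_one] at this
      have hnA : ∀ (A B : Subgroup X), IsRankOnePair A B → A ⊔ B = ⊤ → (∀ a ∈ A, z * a = a * z) := by
        intro A B hAB htop a ha
        have hconj : conjBy A z = A := by
          apply IsRankOnePair.conjBy_eq_of_conj_normalizes hAB (by rw [htop]; exact Subgroup.mem_top z)
          intro a ha
          have hζ := hz' a
          have : z * a * z⁻¹ = (z * a * z⁻¹ * a⁻¹) * a := by group
          rw [this, ← conjBy_conjBy, conjBy_of_mem ha]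
          apply conjBy_eq_of_commute
          intro x _
          exact (Subgroup.mem_center_iff.mp hζ x).symm
        have hζ := hz' a
        have hζA : z * a * z⁻¹ * a⁻¹ ∈ A := by
          have h1 : z * a * z⁻¹ ∈ conjBy A z := conj_mem_conjBy ha
          rw [hconj] at h1
          exact A.mul_mem h1 (A.inv_mem ha)
        have hζ1 : z * a * z⁻¹ * a⁻¹ = 1 := by
          refine IsRankOnePair.eq_one_of_normalizes_right hAB hζA (conjBy_eq_of_commute ?_)
          intro x _
          exact (Subgroup.mem_center_iff.mp hζ x).symm
        calc z * a = (z * a * z⁻¹ * a⁻¹) * a * z := by group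
          _ = a * z := by rw [hζ1, one_mul]
      have h1 := hnA A B hAB htop
      have h2 := hnA B A (RankOnePair_symm hAB) (by rw [sup_comm]; exact htop)
      have hcent : A ⊔ B ≤ Subgroup.centralizer ({z} : Set X) := by
        refine sup_le ?_ ?_
        · intro a ha
          rw [Subgroup.mem_centralizer_iff]
          intro y hy
          rw [Set.mem_singleton_iff] at hy
          subst hy
          exact h1 a ha
        · intro a ha
          rw [Subgroup.mem_centralizer_iff]
          intro y hy
          rw [Set.mem_singleton_iff] at hy
          subst hy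
          exact h2 a ha
      rw [htop] at hcent
      rw [Subgroup.mem_center_iff]
      intro g
      have := hcent (Subgroup.mem_top g)
      exact (Subgroup.mem_centralizer_iff.mp this z (Set.mem_singleton z)).symm
    · rw [← Subgroup.upperCentralSeries_one]
      exact Subgroup.upperCentralSeries_mono X (by norm_num)
  refine ⟨hZ2, ?_⟩
  intro hnil
  obtain ⟨n, hn⟩ := hnil.nilpotent'
  have hle : ∀ n, Subgroup.upperCentralSeries X n ≤ Subgroup.center X := by
    intro n
    induction n with
    | zero => rw [Subgroup.upperCentralSeries_zero]; exact bot_le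
    | succ k ih =>
      intro x hx
      rw [Subgroup.mem_upperCentralSeries_succ_iff] at hx
      rw [← hZ2, Subgroup.mem_upperCentralSeries_succ_iff (n := 1), Subgroup.upperCentralSeries_one]
      exact fun y => ih (hx y)
  have hc : Subgroup.center X = ⊤ := top_le_iff.mp (hn ▸ hle n)
  obtain ⟨a, ha, ha1⟩ := IsRankOnePair.exists_ne_one_left hAB
  apply ha1
  refine IsRankOnePair.eq_one_of_normalizes_right hAB ha (conjBy_eq_of_commute ?_)
  intro x _
  have : a ∈ Subgroup.center X := by rw [hc]; exact Subgroup.mem_top a
  exact (Subgroup.mem_center_iff.mp this x).symm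

end Cfsg.Agent.S5018
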