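import Cfsg.Statements.S5019

set_option autoImplicit false
open Cfsg

namespace Cfsg.Agent.S5019

/-- Let X be a rank one group with abelian unipotent subgroups A and B, and suppose X acts on an abelian group N (written additively) in such a way that A acts quadratically, meaning a' • (a • n − n) = a • n − n for all a, a' in A and n in N, while X as a whole does not: y • (x • n − n) ≠ x • n − n for some x, y in X and n in N. Then X is a special rank one group. -/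
theorem result {X : Type*} [Group X] {A B : Subgroup X} (h : Cfsg.IsRankOneGroup X A B)
    (hab : Cfsg.HasAbelianUnipotents A B) {N : Type*} [AddCommGroup N] [DistribMulAction X N]
    (hq : ∀ a ∈ A, ∀ a' ∈ A, ∀ n : N, a' • (a • n - n) = a • n - n)
    (hX : ∃ x y : X, ∃ n : N, y • (x • n - n) ≠ x • n - n) : Cfsg.IsSpecialRankOnePair A B := by
  obtain ⟨hsup, hpair⟩ := h
  refine ⟨hpair, ?_⟩
  intro a ha ha1 b hb hb1 hconj
  have mem_conj : ∀ (S : Subgroup X) (g x : X), x ∈ Cfsg.conjBy S g ↔ g⁻¹ * x * g ∈ S := by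
    intro S g x
    constructor
    · intro hx
      obtain ⟨y, hy, rfl⟩ := Subgroup.mem_map.mp hx
      have e : g⁻¹ * ((MulAut.conj g).toMonoidHom y) * g = y := by
        show g⁻¹ * (g * y * g⁻¹) * g = y
        group
      rw [e]; exact hy
    · intro hx
      refine Subgroup.mem_map.mpr ⟨g⁻¹ * x * g, hx, ?_⟩
      show g * (g⁻¹ * x * g) * g⁻¹ = x
      group
  have hc : ∀ x : X, b * x * b⁻¹ ∈ A ↔ a * x * a⁻¹ ∈ B := by
    intro x
    have h1 := mem_conj A b⁻¹ x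
    have h2 := mem_conj B a⁻¹ x
    rw [inv_inv] at h1 h2
    rw [← h1, hconj, h2]
  have hfix : ∀ n : N, (∀ a₁ ∈ A, a₁ • n = n) → (∀ y₁ ∈ B, y₁ • n = n) → ∀ x : X, x • n = n := by
    intro n hA hB x
    have h1 : A ⊔ B ≤ MulAction.stabilizer X n :=
      sup_le (fun a₁ h => MulAction.mem_stabilizer_iff.mpr (hA a₁ h))
        (fun y₁ h => MulAction.mem_stabilizer_iff.mpr (hB y₁ h))
    rw [hsup] at h1
    exact MulAction.mem_stabilizer_iff.mp (h1 (Subgroup.mem_top x))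
  have htr : ∀ g x₁ x₂ : X, (∀ n : N, x₂ • (x₁ • n - n) = x₁ • n - n) →
      ∀ n : N, (g * x₂ * g⁻¹) • ((g * x₁ * g⁻¹) • n - n) = (g * x₁ * g⁻¹) • n - n := by
    intro g x₁ x₂ hx n
    have e1 : (g * x₁ * g⁻¹) • n - n = g • (x₁ • (g⁻¹ • n) - g⁻¹ • n) := by
      rw [smul_sub, mul_smul, mul_smul, smul_inv_smul]
    rw [e1, mul_smul, mul_smul, inv_smul_smul, hx]
  have hqB : ∀ y₁ ∈ B, ∀ y₂ ∈ B, ∀ n : N, y₂ • (y₁ • n - n) = y₁ • n - n := by
    intro y₁ hy₁ y₂ hy₂ n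
    have h1 : b * (a⁻¹ * y₁ * a) * b⁻¹ ∈ A := (hc _).mpr (by
      have e : a * (a⁻¹ * y₁ * a) * a⁻¹ = y₁ := by group
      rw [e]; exact hy₁)
    have h2 : b * (a⁻¹ * y₂ * a) * b⁻¹ ∈ A := (hc _).mpr (by
      have e : a * (a⁻¹ * y₂ * a) * a⁻¹ = y₂ := by group
      rw [e]; exact hy₂)
    have e1 : (a * b⁻¹) * (b * (a⁻¹ * y₁ * a) * b⁻¹) * (a * b⁻¹)⁻¹ = y₁ := by group
    have e2 : (a * b⁻¹) * (b * (a⁻¹ * y₂ * a) * b⁻¹) * (a * b⁻¹)⁻¹ = y₂ := by group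
    have h3 := htr (a * b⁻¹) _ _ (hq _ h1 _ h2) n
    rw [e1, e2] at h3
    exact h3
  by_contra hne
  obtain ⟨y, hy⟩ : ∃ y, y = a * (b⁻¹ * a * b) * a⁻¹ := ⟨_, rfl⟩
  have hyB : y ∈ B := by
    rw [hy]
    exact (hc _).mp (by
      have e : b * (b⁻¹ * a * b) * b⁻¹ = a := by group
      rw [e]; exact ha)
  have hrel : b⁻¹ * a * b = a⁻¹ * y * a := by rw [hy]; group
  have hzB : y * b ∈ B := B.mul_mem hyB hb
  have hz1 : y * b ≠ 1 := by
    intro h1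
    apply hne
    have e : y = b⁻¹ := eq_inv_of_mul_eq_one_left h1
    rw [hrel, e]
  have S1 : ∀ p : N, (∀ a₂ ∈ A, a₂ • p = p) →
      ∀ y₁ ∈ B, y₁ • ((a * b⁻¹) • p) = (a * b⁻¹) • p := by
    intro p hp y₁ hy₁
    have h1 : b * (a⁻¹ * y₁ * a) * b⁻¹ ∈ A := (hc _).mpr (by
      have e : a * (a⁻¹ * y₁ * a) * a⁻¹ = y₁ := by group
      rw [e]; exact hy₁)
    have h2 := hp _ h1
    have e : y₁ * (a * b⁻¹) = (a * b⁻¹) * (b * (a⁻¹ * y₁ * a) * b⁻¹) := by group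
    rw [← mul_smul, e, mul_smul, h2]
  have SC : ∀ p : N, (∀ a₂ ∈ A, a₂ • p = p) →
      ∀ x : X, x • (p + (a • (b⁻¹ • p - p) - (b⁻¹ • p - p)))
        = p + (a • (b⁻¹ • p - p) - (b⁻¹ • p - p)) := by
    intro p hp
    apply hfix
    · intro a₂ ha₂
      rw [smul_add, hp a₂ ha₂, hq a ha a₂ ha₂]
    · intro y₁ hy₁
      have h1 := S1 p hp y₁ hy₁
      have h2 := hqB b⁻¹ (B.inv_mem hb) y₁ hy₁ p
      have e : p + (a • (b⁻¹ • p - p) - (b⁻¹ • p - p)) = (a * b⁻¹) • p - (b⁻¹ • p - p) := by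
        have e3 : a • b⁻¹ • p = a • (b⁻¹ • p - p) + a • p := by rw [← smul_add, sub_add_cancel]
        rw [mul_smul, e3, hp a ha]; abel
      rw [e, smul_sub, h1, h2]
  have SK : ∀ p : N, (∀ a₂ ∈ A, a₂ • p = p) →
      ∀ x : X, x • (y • p - b⁻¹ • p) = y • p - b⁻¹ • p := by
    intro p hp
    obtain ⟨E, hE⟩ : ∃ E, E = b⁻¹ • p - p := ⟨_, rfl⟩
    obtain ⟨F, hF⟩ : ∃ F, F = a • E - E := ⟨_, rfl⟩
    obtain ⟨Et, hEt⟩ : ∃ Et, Et = y • p - p := ⟨_, rfl⟩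
    obtain ⟨G, hG⟩ : ∃ G, G = a • Et - Et := ⟨_, rfl⟩
    have hbE : ∀ y₁ ∈ B, y₁ • E = E := fun y₁ h1 => by
      rw [hE]; exact hqB b⁻¹ (B.inv_mem hb) y₁ h1 p
    have hbEt : ∀ y₁ ∈ B, y₁ • Et = Et := fun y₁ h1 => by
      rw [hEt]; exact hqB y hyB y₁ h1 p
    have haF : ∀ a₂ ∈ A, a₂ • F = F := fun a₂ h2 => by
      rw [hF]; exact hq a ha a₂ h2 E
    have haG : ∀ a₂ ∈ A, a₂ • G = G := fun a₂ h2 => by
      rw [hG]; exact hq a ha a₂ h2 Et
    have hPt : ∀ x : X, x • (p + F) = p + F := by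
      have h0 := SC p hp
      rw [← hE, ← hF] at h0
      exact h0
    have e1 : b⁻¹ • p = p + E := by rw [hE]; abel
    have e2 : b • p = p - E := by
      have h1 : b • (b⁻¹ • p) = p := smul_inv_smul b p
      rw [e1, smul_add, hbE b hb] at h1
      have h2 : b • p = (b • p + E) - E := by abel
      rw [h2, h1]
    have e3 : a • E = E + F := by rw [hF]; abel
    have e4 : b⁻¹ • F = F - E := by
      have h1 := hPt b⁻¹
      rw [smul_add, e1] at h1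
      have h2 : b⁻¹ • F = (p + E + b⁻¹ • F) - (p + E) := by abel
      rw [h2, h1]; abel
    have e5 : y • p = p + Et := by rw [hEt]; abel
    have e6 : a⁻¹ • Et = Et - G := by
      have h1 : a⁻¹ • (a • Et) = Et := inv_smul_smul a Et
      have h2 : a • Et = Et + G := by rw [hG]; abel
      rw [h2, smul_add, haG a⁻¹ (A.inv_mem ha)] at h1
      have h3 : a⁻¹ • Et = (a⁻¹ • Et + G) - G := by abel
      rw [h3, h1]
    have h1 : (b⁻¹ * a * b) • p = p - F + E := by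
      rw [mul_smul, mul_smul, e2, smul_sub, hp a ha, e3, smul_sub, e1, smul_add,
        hbE b⁻¹ (B.inv_mem hb), e4]
      abel
    have h2 : (a⁻¹ * y * a) • p = p + Et - G := by
      rw [mul_smul, mul_smul, hp a ha, e5, smul_add, hp a⁻¹ (A.inv_mem ha), e6]
      abel
    rw [hrel, h2] at h1
    have e7 : y • p - b⁻¹ • p = G - F := by
      rw [e5, e1]
      have h3 : p + Et - (p + E) = (p + Et - G) - (p - F + E) + (G - F) := by abel
      rw [h3, h1]; abel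
    have e8 : G - F = Et - E := by
      rw [← e7, e5, e1]; abel
    rw [e7]
    apply hfix
    · intro a₂ h2
      rw [smul_sub, haG a₂ h2, haF a₂ h2]
    · intro y₁ hy₁
      rw [e8, smul_sub, hbEt y₁ hy₁, hbE y₁ hy₁]
  have SZ : ∀ p : N, (∀ a₂ ∈ A, a₂ • p = p) →
      (y * b)⁻¹ • p = p - (y • p - b⁻¹ • p) := by
    intro p hp
    have hv := SK p hp
    have e1 : (y * b) • p = p + (y • p - b⁻¹ • p) := by
      have h1 : b • (b⁻¹ • p) = p := smul_inv_smul b p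
      have h2 := hqB b⁻¹ (B.inv_mem hb) b hb p
      have h3 := hqB b⁻¹ (B.inv_mem hb) y hyB p
      rw [smul_sub, h1] at h2
      have h4 : b • p = p - (b⁻¹ • p - p) := by
        have h5 : b • p = p - (p - b • p) := by abel
        rw [h5, h2]
      rw [mul_smul, h4, smul_sub, h3]; abel
    have h6 : (y * b)⁻¹ • ((y * b) • p) = p := inv_smul_smul _ p
    rw [e1, smul_add, hv] at h6
    have h7 : (y * b)⁻¹ • p
        = ((y * b)⁻¹ • p + (y • p - b⁻¹ • p)) - (y • p - b⁻¹ • p) := by abel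
    rw [h7, h6]
  obtain ⟨a', ha', -, hz⟩ := hpair.cond_right (y * b) hzB hz1
  have hc2 : ∀ x : X, a' * x * a'⁻¹ ∈ B ↔ (y * b) * x * (y * b)⁻¹ ∈ A := by
    intro x
    have h1 := mem_conj B a'⁻¹ x
    have h2 := mem_conj A (y * b)⁻¹ x
    rw [inv_inv] at h1 h2
    rw [← h1, hz, h2]
  have ZQ : ∀ y₁ ∈ B, ∀ (n : N) (x : X), x • (y₁ • n - n) = y₁ • n - n := by
    intro y₁ hy₁ n
    have h1 : (y * b) * (a'⁻¹ * y₁ * a') * (y * b)⁻¹ ∈ A := (hc2 _).mp (by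
      have e : a' * (a'⁻¹ * y₁ * a') * a'⁻¹ = y₁ := by group
      rw [e]; exact hy₁)
    obtain ⟨a₁, ha₁e⟩ : ∃ a₁, a₁ = (y * b) * (a'⁻¹ * y₁ * a') * (y * b)⁻¹ := ⟨_, rfl⟩
    rw [← ha₁e] at h1
    obtain ⟨g, hg⟩ : ∃ g, g = a' * (y * b)⁻¹ := ⟨_, rfl⟩
    have e1 : y₁ = g * a₁ * g⁻¹ := by rw [hg, ha₁e]; group
    obtain ⟨p, hp⟩ : ∃ p, p = a₁ • (g⁻¹ • n) - g⁻¹ • n := ⟨_, rfl⟩
    have hpA : ∀ a₂ ∈ A, a₂ • p = p := fun a₂ h2 => by
      rw [hp]; exact hq a₁ h1 a₂ h2 _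
    have e2 : y₁ • n - n = g • p := by
      rw [e1, hp, smul_sub, mul_smul, mul_smul, smul_inv_smul]
    have e3 : g • p = p - (y • p - b⁻¹ • p) := by
      rw [hg, mul_smul, SZ p hpA, smul_sub, hpA a' ha', SK p hpA a']
    have h3 : ∀ y₂ ∈ B, y₂ • (p - (y • p - b⁻¹ • p)) = p - (y • p - b⁻¹ • p) := by
      intro y₂ hy₂
      have h4 := hqB y₁ hy₁ y₂ hy₂ n
      rw [e2, e3] at h4
      exact h4
    rw [e2, e3]
    apply hfix
    · intro a₂ h2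
      rw [smul_sub, hpA a₂ h2, SK p hpA a₂]
    · exact h3
  have ZP : ∀ a₁ ∈ A, ∀ (n : N) (x : X), x • (a₁ • n - n) = a₁ • n - n := by
    intro a₁ ha₁ n
    have h1 : a' * ((y * b)⁻¹ * a₁ * (y * b)) * a'⁻¹ ∈ B := (hc2 _).mpr (by
      have e : (y * b) * ((y * b)⁻¹ * a₁ * (y * b)) * (y * b)⁻¹ = a₁ := by group
      rw [e]; exact ha₁)
    obtain ⟨y₁, hy₁e⟩ : ∃ y₁, y₁ = a' * ((y * b)⁻¹ * a₁ * (y * b)) * a'⁻¹ := ⟨_, rfl⟩
    rw [← hy₁e] at h1
    obtain ⟨g, hg⟩ : ∃ g, g = (y * b) * a'⁻¹ := ⟨_, rfl⟩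
    have e1 : a₁ = g * y₁ * g⁻¹ := by rw [hg, hy₁e]; group
    have e2 : a₁ • n - n = g • (y₁ • (g⁻¹ • n) - g⁻¹ • n) := by
      rw [e1, smul_sub, mul_smul, mul_smul, smul_inv_smul]
    have e3 : g • (y₁ • (g⁻¹ • n) - g⁻¹ • n) = y₁ • (g⁻¹ • n) - g⁻¹ • n := ZQ y₁ h1 _ g
    rw [e2, e3]
    exact ZQ y₁ h1 _
  obtain ⟨T, hT⟩ : ∃ T : Subgroup X, ∀ x : X, x ∈ T ↔
      ∀ (n : N) (w : X), w • (x • n - n) = x • n - n :=
    ⟨{ carrier := {x | ∀ (n : N) (w : X), w • (x • n - n) = x • n - n}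
       mul_mem' := by
         intro x₁ x₂ h1 h2
         show ∀ (n : N) (w : X), w • ((x₁ * x₂) • n - n) = (x₁ * x₂) • n - n
         intro n w
         have e : (x₁ * x₂) • n - n = (x₂ • n - n) + (x₁ • n - n) := by
           have e0 : (x₁ * x₂) • n - n = x₁ • (x₂ • n - n) + (x₁ • n - n) := by
             rw [mul_smul, smul_sub]; abel
           rw [e0, h2 n x₁]
         rw [e, smul_add, h2 n w, h1 n w]
       one_mem' := by
         show ∀ (n : N) (w : X), w • ((1 : X) • n - n) = (1 : X) • n - n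
         intro n w
         rw [one_smul, sub_self, smul_zero]
       inv_mem' := by
         intro x₁ h1
         show ∀ (n : N) (w : X), w • (x₁⁻¹ • n - n) = x₁⁻¹ • n - n
         intro n w
         have e : x₁⁻¹ • n - n = -(x₁ • (x₁⁻¹ • n) - x₁⁻¹ • n) := by
           rw [smul_inv_smul]; abel
         rw [e, smul_neg, h1 (x₁⁻¹ • n) w] }, fun x => Iff.rfl⟩
  have hAT : A ≤ T := fun a₁ h1 => (hT a₁).mpr (fun n w => ZP a₁ h1 n w)
  have hBT : B ≤ T := fun y₁ h1 => (hT y₁).mpr (fun n w => ZQ y₁ h1 n w)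
  have hall : (⊤ : Subgroup X) ≤ T := by rw [← hsup]; exact sup_le hAT hBT
  obtain ⟨x, w, n, hxw⟩ := hX
  exact hxw ((hT x).mp (hall (Subgroup.mem_top x)) n w)

end Cfsg.Agent.S5019
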