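import Cfsg.Statements.S5023

set_option autoImplicit false
open Cfsg

namespace Cfsg.Agent.S5023

/-- Let X be a rank one group with unipotent subgroups A and B that acts faithfully on an abelian group V (written additively) with A acting quadratically: a' • (a • v − v) = a • v − v for all a, a' in A and v in V. Then A is either torsion-free or an elementary abelian p-group for some prime p. -/
theorem result {X : Type*} [Group X] {A B : Subgroup X} (h : Cfsg.IsRankOneGroup X A B)
    {V : Type*} [AddCommGroup V] [DistribMulAction X V] (hf : ∀ x : X, (∀ v : V, x • v = v) → x = 1)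
    (hq : ∀ a ∈ A, ∀ a' ∈ A, ∀ v : V, a' • (a • v - v) = a • v - v) :
    (∀ a ∈ A, a ≠ 1 → ¬ IsOfFinOrder a) ∨ ∃ p : ℕ, p.Prime ∧ Cfsg.IsElementaryAbelian p A := by
  obtain ⟨-, hpair⟩ := h
  have hpow : ∀ x : X, (∀ v : V, x • (x • v - v) = x • v - v) →
      ∀ (n : ℕ) (v : V), x ^ n • v = v + n • (x • v - v) := by
    intro x hx n
    induction n with
    | zero => intro v; simp
    | succ n ih =>
      intro v
      have e1 : x ^ (n + 1) • v = x ^ n • (x • v) := by rw [pow_succ, mul_smul]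
      have e2 : x • (x • v) - x • v = x • v - v := by rw [← smul_sub]; exact hx v
      rw [e1, ih (x • v), e2, succ_nsmul]
      abel
  have hconj : ∀ x g : X, (∀ v : V, x • (x • v - v) = x • v - v) →
      ∀ v : V, (g * x * g⁻¹) • ((g * x * g⁻¹) • v - v) = (g * x * g⁻¹) • v - v := by
    intro x g hx v
    have e1 : (g * x * g⁻¹) • v - v = g • (x • (g⁻¹ • v) - g⁻¹ • v) := by
      rw [smul_sub, mul_smul, mul_smul, smul_inv_smul]
    rw [e1, mul_smul, mul_smul, inv_smul_smul, hx]
  have hQA : ∀ a ∈ A, ∀ v : V, a • (a • v - v) = a • v - v := fun a ha v => hq a ha a ha v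
  have mem_conj : ∀ (S : Subgroup X) (g x : X), x ∈ Cfsg.conjBy S g ↔ g⁻¹ * x * g ∈ S := by
    intro S g x
    constructor
    · intro hx
      obtain ⟨y, hy, rfl⟩ := Subgroup.mem_map.mp hx
      have e : g⁻¹ * ((MulAut.conj g).toMonoidHom y) * g = y := by
        show g⁻¹ * (g * y * g⁻¹) * g = y
        group
      rw [e]; exact hy
    · intro hx
      refine Subgroup.mem_map.mpr ⟨g⁻¹ * x * g, hx, ?_⟩
      show g * (g⁻¹ * x * g) * g⁻¹ = x
      group
  have hAB : ∀ z : X, z ∈ A → z ∈ B → z = 1 := by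
    intro z hzA hzB
    by_contra hz
    obtain ⟨b, hbB, -, hb⟩ := hpair.cond_left z hzA hz
    apply hpair.ne
    have key : ∀ x : X, b * x * b⁻¹ ∈ A ↔ x ∈ B := by
      intro x
      have h1 := mem_conj A b⁻¹ x
      have h2 := mem_conj B z⁻¹ x
      rw [inv_inv] at h1 h2
      rw [← h1, hb, h2]
      constructor
      · intro hx
        have e : x = z⁻¹ * (z * x * z⁻¹) * z := by group
        rw [e]; exact B.mul_mem (B.mul_mem (B.inv_mem hzB) hx) hzB
      · intro hx
        exact B.mul_mem (B.mul_mem hzB hx) (B.inv_mem hzB)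
    ext x
    have e : x = b * (b⁻¹ * x * b) * b⁻¹ := by group
    constructor
    · intro hx
      rw [e] at hx
      have h3 := (key _).mp hx
      rw [e]; exact B.mul_mem (B.mul_mem hbB h3) (B.inv_mem hbB)
    · intro hx
      rw [e]
      exact (key _).mpr (B.mul_mem (B.mul_mem (B.inv_mem hbB) hx) hbB)
  have main : ∀ (a₁ : X) (p : ℕ), a₁ ∈ A → a₁ ≠ 1 → a₁ ^ p = 1 → ∀ a ∈ A, a ^ p = 1 := by
    intro a₁ p ha₁ hne hp a ha
    obtain ⟨b₁, hb₁, -, hb⟩ := hpair.cond_left a₁ ha₁ hne
    have hp0 : ∀ v : V, p • (a₁ • v - v) = 0 := by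
      intro v
      have h1 := hpow a₁ (hQA a₁ ha₁) p v
      rw [hp, one_smul] at h1
      have h2 : v + p • (a₁ • v - v) = v + 0 := by rw [add_zero]; exact h1.symm
      exact add_left_cancel h2
    have hinv : ∀ w : V, p • (a₁⁻¹ • w) = p • w := by
      intro w
      have h1 := hp0 (a₁⁻¹ • w)
      rw [smul_inv_smul, nsmul_sub, sub_eq_zero] at h1
      exact h1.symm
    obtain ⟨c, hc⟩ : ∃ c, c = b₁⁻¹ * a * b₁ := ⟨_, rfl⟩
    have ea : a = b₁ * c * b₁⁻¹ := by rw [hc]; group
    have hcA : c ∈ Cfsg.conjBy A b₁⁻¹ := by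
      rw [mem_conj, inv_inv, ← ea]; exact ha
    rw [hb, mem_conj, inv_inv] at hcA
    obtain ⟨y, hy⟩ : ∃ y, y = a₁ * c * a₁⁻¹ := ⟨_, rfl⟩
    rw [← hy] at hcA
    have hQc : ∀ v : V, c • (c • v - v) = c • v - v := by
      have h1 := hconj a b₁⁻¹ (hQA a ha)
      rw [inv_inv, ← hc] at h1
      exact h1
    have hQy : ∀ v : V, y • (y • v - v) = y • v - v := by
      rw [hy]; exact hconj c a₁ hQc
    have hcy : ∀ v : V, p • (c • v - v) = p • (y • v - v) := by
      intro v
      have ec : c = a₁⁻¹ * y * a₁ := by rw [hy]; group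
      have e1 : c • v - v = a₁⁻¹ • (y • (a₁ • v) - a₁ • v) := by
        rw [ec, smul_sub, mul_smul, mul_smul, inv_smul_smul]
      have e2 : y • (a₁ • v) - a₁ • v = (y • v - v) + (y • (a₁ • v - v) - (a₁ • v - v)) := by
        rw [smul_sub]; abel
      have e3 : p • (y • (a₁ • v - v) - (a₁ • v - v)) = 0 := by
        rw [nsmul_sub, smul_comm p y, hp0 v, smul_zero, sub_zero]
      rw [e1, hinv, e2, nsmul_add, e3, add_zero]
    have hcp : c ^ p = y ^ p := by
      have h1 : ∀ v : V, (c ^ p * (y ^ p)⁻¹) • v = v := by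
        intro v
        rw [mul_smul, hpow c hQc p, hcy, ← hpow y hQy p, smul_inv_smul]
      exact mul_inv_eq_one.mp (hf _ h1)
    have e1 : a ^ p = b₁ * c ^ p * b₁⁻¹ := by rw [ea, conj_pow]
    have haB : a ^ p ∈ B := by
      rw [e1, hcp]
      exact B.mul_mem (B.mul_mem hb₁ (B.pow_mem hcA p)) (B.inv_mem hb₁)
    exact hAB _ (A.pow_mem ha p) haB
  have hcomm : ∀ a ∈ A, ∀ a' ∈ A, a * a' = a' * a := by
    intro a ha a' ha'
    have key : ∀ w : V, (a * a') • w = (a' * a) • w := by
      intro w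
      have e1 : (a * a') • w = a • w + (a' • w - w) := by
        have h1 := hq a' ha' a ha w
        have e : a • a' • w = a • w + a • (a' • w - w) := by rw [smul_sub]; abel
        rw [mul_smul, e, h1]
      have e2 : (a' * a) • w = a' • w + (a • w - w) := by
        have h1 := hq a ha a' ha' w
        have e : a' • a • w = a' • w + a' • (a • w - w) := by rw [smul_sub]; abel
        rw [mul_smul, e, h1]
      rw [e1, e2]; abel
    have h1 : ∀ v : V, (a * a' * (a' * a)⁻¹) • v = v := by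
      intro v
      rw [mul_smul, key, smul_inv_smul]
    exact mul_inv_eq_one.mp (hf _ h1)
  by_cases htf : ∀ a ∈ A, a ≠ 1 → ¬ IsOfFinOrder a
  · exact Or.inl htf
  · right
    push_neg at htf
    obtain ⟨a₀, ha₀, hne₀, hfin⟩ := htf
    have hn1 : orderOf a₀ ≠ 1 := fun h1 => hne₀ (orderOf_eq_one_iff.mp h1)
    have hnpos : 0 < orderOf a₀ := hfin.orderOf_pos
    have hpp : (orderOf a₀).minFac.Prime := Nat.minFac_prime hn1
    have hdvd : (orderOf a₀).minFac ∣ orderOf a₀ := Nat.minFac_dvd _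
    refine ⟨(orderOf a₀).minFac, hpp,
      ⟨⟨⟨fun x y => Subtype.ext (hcomm x.1 x.2 y.1 y.2)⟩⟩, ?_⟩⟩
    apply main (a₀ ^ (orderOf a₀ / (orderOf a₀).minFac)) _ (A.pow_mem ha₀ _)
    · intro h1
      have h2 := orderOf_dvd_of_pow_eq_one h1
      have h3 := Nat.le_of_dvd (Nat.div_pos (Nat.le_of_dvd hnpos hdvd) hpp.pos) h2
      have h4 := Nat.div_lt_self hnpos hpp.one_lt
      omega
    · rw [← pow_mul, Nat.div_mul_cancel hdvd, pow_orderOf_eq_one]

end Cfsg.Agent.S5023
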