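import Cfsg.Statements.S5024
import Cfsg.Agent.Helper25.RootSets2

set_option autoImplicit false
open Cfsg

namespace Cfsg.Agent.S5024

open Cfsg.Agent.Helper25 in
/-- Let S be a set of abstract root subgroups of G, A and C members of S, B a rank one partner of A in S and D a rank one partner of C in S. If the rank one group ⟨A, B⟩ is contained in ⟨C, D⟩ then the two coincide, and C and D are conjugates of A inside ⟨A, B⟩. -/
theorem result {G : Type*} [Group G] {S : Set (Subgroup G)} (hS : Cfsg.IsRootSubgroupSet S)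
    {A B C D : Subgroup G} (hA : A ∈ S) (hC : C ∈ S) (hB : B ∈ Cfsg.rankOnePartners S A) (hD : D ∈ Cfsg.rankOnePartners S C)
    (hle : A ⊔ B ≤ C ⊔ D) : A ⊔ B = C ⊔ D ∧ C ∈ Cfsg.unipotentSubgroups A B ∧ D ∈ Cfsg.unipotentSubgroups A B := by
  have hAΩ := root_mem_unipotent_of_le hS hA hC hB.2 hD.2 hle
  have hBΩ := root_mem_unipotent_of_le hS hB.1 hC (RankOnePair_symm hB.2) hD.2
    (by rw [sup_comm]; exact hle)
  obtain ⟨y, hy, hy1, hy2⟩ := IsRankOnePair.exists_conj_to_pair hD.2 hAΩ hBΩ hB.2.ne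
  have h1 : conjBy (A ⊔ B) y = C ⊔ D := by rw [conjBy_sup, hy1, hy2]
  have h2 : A ⊔ B = C ⊔ D := by
    rw [conjBy_eq_iff] at h1
    rw [h1]
    exact conjBy_of_mem (Subgroup.inv_mem _ hy)
  have hy' : y ∈ A ⊔ B := by rw [h2]; exact hy
  refine ⟨h2, ⟨y, hy', hy1.symm⟩, ?_⟩
  rw [← hy2]
  exact unipotentSubgroups_conj_mem (IsRankOnePair.right_mem_unipotentSubgroups hB.2) hy'

end Cfsg.Agent.S5024
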