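import Cfsg.Statements.S5026
import Cfsg.Agent.Helper25.RootSets3
import Cfsg.Agent.S5025

set_option autoImplicit false
open Cfsg

namespace Cfsg.Agent.S5026

open Cfsg.Agent.Helper25

theorem aux_comm {G : Type*} [Group G] {S : Set (Subgroup G)} (hS : Cfsg.IsRootSubgroupSet S)
    (hdeg : Cfsg.IsDegenerateRootSet S) {A B E : Subgroup G} (hA : A ∈ S) (hB : B ∈ S) (hE : E ∈ S)
    {a b : G} (ha : a ∈ A) (ha1 : a ≠ 1) (hb : b ∈ B) (hb1 : b ≠ 1) (hab : a * b = b * a)
    (hab1 : a * b ≠ 1) (hAB : ∀ x ∈ A, ∀ y ∈ B, x * y = y * x)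
    (hEz : ∀ e ∈ E, e * (a * b) = (a * b) * e) : ∀ e ∈ E, e * a = a * e := by
  rcases hS.pair E hE A hA with h | h | h
  · intro e he
    exact comm_of_commutator_eq_bot h e he a ha
  · exfalso
    have hAE := RankOnePair_symm h
    have hsup : A ⊔ E ≤ Subgroup.centralizer ({a * b} : Set G) := by
      refine sup_le ?_ ?_
      · intro x hx
        rw [Subgroup.mem_centralizer_iff]
        intro y hy
        rw [Set.mem_singleton_iff] at hy
        subst hy
        calc a * b * x = a * (b * x) := by group
          _ = a * (x * b) := by rw [hAB x hx b hb]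
          _ = (a * x) * b := by group
          _ = (x * a) * b := by rw [root_comm hS hA a ha x hx]
          _ = x * (a * b) := by group
      · intro x hx
        rw [Subgroup.mem_centralizer_iff]
        intro y hy
        rw [Set.mem_singleton_iff] at hy
        subst hy
        exact (hEz x hx).symm
    have hz : a * b ∈ Subgroup.centralizer ((A ⊔ E : Subgroup G) : Set G) :=
      Subgroup.mem_centralizer_iff.mpr
        (fun x hx => (Subgroup.mem_centralizer_iff.mp (hsup hx) (a * b) rfl).symm)
    have hE' : E ∈ rankOnePartners S A := And.intro hE hAE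
    have h5 := Cfsg.Agent.S5025.result hS hA hE' hz hab1 a⁻¹ (A.inv_mem ha) (inv_ne_one.mpr ha1)
    apply h5
    have e1 : a * b * a⁻¹ = b := by rw [hab]; group
    rw [e1]
    exact ⟨hb1, B, hB, hb⟩
  · exact absurd h (hdeg E hE A hA)

/-- Let S be a degenerate set of abstract root subgroups of G (a set of abstract transvection groups) and let a, b be commuting non-identity elements of members of S with a b ≠ 1. Then the members of S centralizing a b are exactly those centralizing both a and b. -/
theorem result {G : Type*} [Group G] {S : Set (Subgroup G)} (hS : Cfsg.IsRootSubgroupSet S) (hdeg : Cfsg.IsDegenerateRootSet S)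
    {a b : G} (ha : a ∈ Cfsg.rootElements S) (hb : b ∈ Cfsg.rootElements S) (hab : a * b = b * a) (hab1 : a * b ≠ 1) :
    Cfsg.centralizingMembers S (Subgroup.zpowers (a * b)) =
      Cfsg.centralizingMembers S (Subgroup.zpowers a) ∩ Cfsg.centralizingMembers S (Subgroup.zpowers b) := by
  obtain ⟨ha1, A, hA, haA⟩ := ha
  obtain ⟨hb1, B, hB, hbB⟩ := hb
  have hAB : ∀ x ∈ A, ∀ y ∈ B, x * y = y * x := by
    rcases hS.pair A hA B hB with h | h | h
    · exact comm_of_commutator_eq_bot h
    · exact absurd hab (IsRankOnePair.not_commute_elements h haA ha1 hbB hb1)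
    · exact absurd h (hdeg A hA B hB)
  ext E
  simp only [centralizingMembers, Set.mem_inter_iff, Set.mem_setOf_eq]
  constructor
  · rintro ⟨hE, hEz⟩
    rw [le_centralizer_zpowers_iff] at hEz
    refine ⟨⟨hE, ?_⟩, ⟨hE, ?_⟩⟩
    · rw [le_centralizer_zpowers_iff]
      exact aux_comm hS hdeg hA hB hE haA ha1 hbB hb1 hab hab1 hAB hEz
    · rw [le_centralizer_zpowers_iff]
      have hEz' : ∀ e ∈ E, e * (b * a) = (b * a) * e := by rw [← hab]; exact hEz
      exact aux_comm hS hdeg hB hA hE hbB hb1 haA ha1 hab.symm (by rw [← hab]; exact hab1)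
        (fun x hx y hy => (hAB y hy x hx).symm) hEz'
  · rintro ⟨⟨hE, h1⟩, ⟨-, h2⟩⟩
    rw [le_centralizer_zpowers_iff] at h1 h2 ⊢
    refine ⟨hE, ?_⟩
    intro e he
    calc e * (a * b) = (e * a) * b := by group
      _ = (a * e) * b := by rw [h1 e he]
      _ = a * (e * b) := by group
      _ = a * (b * e) := by rw [h2 e he]
      _ = a * b * e := by group

end Cfsg.Agent.S5026
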