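import Cfsg.Statements.S5027
import Cfsg.Agent.Helper25.RootSets

set_option autoImplicit false
open Cfsg

namespace Cfsg.Agent.S5027

open Cfsg.Agent.Helper25

/-- Let S be a set of abstract root subgroups of G such that every member of S has a rank one partner in S (the graph of rank one pairs on S has no isolated vertex). Then the second centre of G equals its centre. -/
theorem result {G : Type*} [Group G] {S : Set (Subgroup G)} (hS : Cfsg.IsRootSubgroupSet S)
    (hF : ∀ A ∈ S, ¬ Cfsg.IsIsolatedIn (Cfsg.FAdj S) S A) : Subgroup.upperCentralSeries G 2 = Subgroup.center G := by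
  apply le_antisymm
  · intro z hz
    have hz' : ∀ y : G, z * y * z⁻¹ * y⁻¹ ∈ Subgroup.center G := by
      intro y
      have := (Subgroup.mem_upperCentralSeries_succ_iff (n := 1)).mp hz y
      rwa [Subgroup.upperCentralSeries_one] at this
    -- `z` centralizes every member of `S`
    have hcent : (⨆ A ∈ S, A) ≤ Subgroup.centralizer ({z} : Set G) := by
      refine iSup₂_le ?_
      intro A hA a ha
      rw [Subgroup.mem_centralizer_iff]
      intro y hy
      rw [Set.mem_singleton_iff] at hy
      subst hy
      by_cases ha1 : a = 1
      · rw [ha1, mul_one, one_mul]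
      · obtain ⟨B, hB, hAB⟩ := exists_partner_of_not_isolated (hF A hA) hA
        have hζ := hz' a
        have hζcent : y * a * y⁻¹ * a⁻¹ ∈ Subgroup.centralizer ((A ⊔ B : Subgroup G) : Set G) := by
          rw [Subgroup.mem_centralizer_iff]
          intro x _
          exact (Subgroup.mem_center_iff.mp hζ x)
        have hmem : (y * a * y⁻¹ * a⁻¹) * a ∈ conjBy A y := by
          have : (y * a * y⁻¹ * a⁻¹) * a = y * a * y⁻¹ := by group
          rw [this]
          exact conj_mem_conjBy ha
        have hCA := root_key hS hA hB hAB (hS.conj_mem A hA y) hζcent ha ha1 hmem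
        rw [hCA] at hmem
        have hζA : y * a * y⁻¹ * a⁻¹ ∈ A := by
          have := A.mul_mem hmem (A.inv_mem ha)
          rwa [mul_inv_cancel_right] at this
        have hζ1 : y * a * y⁻¹ * a⁻¹ = 1 := by
          refine IsRankOnePair.eq_one_of_normalizes_right hAB hζA (conjBy_eq_of_commute ?_)
          intro x _
          exact (Subgroup.mem_center_iff.mp hζ x).symm
        calc y * a = (y * a * y⁻¹ * a⁻¹) * a * y := by group
          _ = a * y := by rw [hζ1, one_mul]
    rw [hS.generates] at hcent
    rw [Subgroup.mem_center_iff]
    intro g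
    have := hcent (Subgroup.mem_top g)
    exact (Subgroup.mem_centralizer_iff.mp this z (Set.mem_singleton z)).symm
  · rw [← Subgroup.upperCentralSeries_one]
    exact Subgroup.upperCentralSeries_mono G (by norm_num)

end Cfsg.Agent.S5027
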