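import Cfsg.Statements.S5029
import Cfsg.Agent.Helper25.RootSets3
import Cfsg.Agent.S5028
import Cfsg.Agent.Helper6.S5029a
import Cfsg.Agent.Helper25.S5029x
import Cfsg.Agent.Helper25.S5029d
import Cfsg.Agent.Helper25.S5029e

set_option autoImplicit false
open Cfsg

namespace Cfsg.Agent.S5029

open Cfsg.Agent.Helper25 Cfsg.Agent.Helper25.S5029x Cfsg.Agent.Helper6.S5029a Cfsg.Agent.Helper25.S5029d

/-- Let S be a set of abstract root subgroups of G, A ∈ S having a rank one partner in S, and B ∈ S with C = ⁅A, B⁆ ∈ S. Then the members of S contained in AC are the conjugates of A by elements of B together with C, they partition AC, the members of S inside AC partition AC so that A is a line partner of C, and for every non-identity a ∈ A the map b ↦ a⁻¹ b⁻¹ a b is an isomorphism from B onto C. -/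
theorem result {G : Type*} [Group G] {S : Set (Subgroup G)} (hS : Cfsg.IsRootSubgroupSet S)
    {A B : Subgroup G} (hA : ¬ Cfsg.IsIsolatedIn (Cfsg.FAdj S) S A) (hAS : A ∈ S) (hB : B ∈ S) (hC : ⁅A, B⁆ ∈ S) :
    Cfsg.membersIn S (A ⊔ ⁅A, B⁆) = (fun b : G => Cfsg.conjBy A b) '' (B : Set G) ∪ {⁅A, B⁆} ∧
    Cfsg.IsSubgroupPartition (A ⊔ ⁅A, B⁆) (Cfsg.membersIn S (A ⊔ ⁅A, B⁆)) ∧
    A ∈ Cfsg.linePartners S ⁅A, B⁆ ∧
    ∀ a ∈ A, a ≠ 1 → ∃ φ : ↥B ≃* ↥⁅A, B⁆, ∀ b : ↥B, (φ b : G) = a⁻¹ * (b : G)⁻¹ * a * b := by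
  have hcc : RootCommutatorCase S A B := by
    rcases hS.pair A hAS B hB with h | h | h
    · exact absurd h (hS.ne_bot _ hC)
    · exact absurd h (not_rank_one hS hAS hB hC)
    · exact h
  have hsub := Cfsg.Agent.Helper25.S5029e.sub_eq hS hA hAS hB hcc
  have hmem : ∀ a ∈ A, ∀ b ∈ B, a * b * a⁻¹ * b⁻¹ ∈ ⁅A, B⁆ := by
    intro a ha b hb
    have := Subgroup.commutator_mem_commutator ha hb
    rwa [commutatorElement_def] at this
  obtain ⟨hCS, hcen, hgenB, hgenA⟩ := hcc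
  clear hC
  generalize hCdef : ⁅A, B⁆ = C at *
  have hCne := hS.ne_bot C hCS
  obtain ⟨a₀, ha₀, ha₀1⟩ : ∃ a ∈ A, a ≠ 1 := by
    by_contra hcon
    apply hS.ne_bot A hAS
    rw [Subgroup.eq_bot_iff_forall]
    intro x hx
    by_contra hx1
    exact hcon ⟨x, hx, hx1⟩
  have hcA : ∀ c ∈ C, ∀ a ∈ A, c * a = a * c := fun c hc a ha =>
    hcen c hc a (Subgroup.mem_sup_left ha)
  have hcB : ∀ c ∈ C, ∀ b ∈ B, c * b = b * c := fun c hc b hb =>
    hcen c hc b (Subgroup.mem_sup_right hb)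
  have hAC : A ≠ C := by
    intro hEq
    apply hCne
    rw [← hgenB a₀ ha₀ ha₀1]
    apply closure_image_eq_bot
    intro b hb
    have h1 := hcB a₀ (hEq ▸ ha₀) b hb
    rw [h1]
    group
  have hAiC : A ⊓ C = ⊥ := (Cfsg.Agent.S5028.result hS hA hAS C hCS).resolve_right hAC
  have hsurj : ∀ a ∈ A, a ≠ 1 → ∀ c ∈ C, ∃ b ∈ B, a * b * a⁻¹ * b⁻¹ = c :=
    fun a ha ha1 => comm_image A B C hmem hcen a ha (hgenB a ha ha1)
  have hneB : ∀ b ∈ B, b ≠ 1 → ∃ a ∈ A, a * b ≠ b * a := by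
    intro b hb hb1
    by_contra hcon
    apply hCne
    rw [← hgenA b hb hb1]
    apply closure_image_eq_bot
    intro a ha
    have h1 : a * b = b * a := by
      by_contra h5
      exact hcon ⟨a, ha, h5⟩
    rw [h1]
    group
  have hinj : ∀ a ∈ A, a ≠ 1 → ∀ b ∈ B, a * b = b * a → b = 1 :=
    comm_inj hS hA hAS hCS hAC hmem hneB
  -- conjugates of `A` by elements of `B` lie in `A ⊔ C`
  have hconj_le : ∀ b ∈ B, conjBy A b ≤ A ⊔ C := by
    intro b hb x hx
    rw [mem_conjBy] at hx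
    have h1 : x = (b⁻¹ * x * b * b * (b⁻¹ * x * b)⁻¹ * b⁻¹)⁻¹ * (b⁻¹ * x * b) := by group
    rw [h1]
    exact Subgroup.mul_mem _ (Subgroup.mem_sup_right (C.inv_mem (hmem _ hx b hb)))
      (Subgroup.mem_sup_left hx)
  -- every element of `A ⊔ C` outside `C` lies in such a conjugate
  have hcover : ∀ x ∈ A ⊔ C, x ∉ C → ∃ b ∈ B, x ∈ conjBy A b := by
    intro x hx hxC
    obtain ⟨a, ha, c, hc, rfl⟩ := mem_sup_comm A C (fun a ha c hc => (hcA c hc a ha).symm) x hx
    have ha1 : a ≠ 1 := by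
      intro h0
      apply hxC
      rw [h0, one_mul]
      exact hc
    obtain ⟨b, hb, hbc⟩ := hsurj a ha ha1 c⁻¹ (C.inv_mem hc)
    refine ⟨b, hb, ?_⟩
    have h1 : c = (a * b * a⁻¹ * b⁻¹)⁻¹ := by rw [hbc, inv_inv]
    have h2 : a * c = b * a * b⁻¹ := by
      rw [← hcA c hc a ha, h1]
      group
    rw [h2]
    exact conj_mem_conjBy ha
  -- conjugates of `A` meet other members trivially
  have hTI : ∀ g : G, ∀ M ∈ S, conjBy A g ⊓ M = ⊥ ∨ conjBy A g = M := by
    intro g M hM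
    rcases Cfsg.Agent.S5028.result hS hA hAS (conjBy M g⁻¹) (hS.conj_mem M hM g⁻¹) with h | h
    · left
      rw [eq_bot_iff]
      intro x hx
      rw [Subgroup.mem_bot]
      have h1 : g⁻¹ * x * g ∈ A ⊓ conjBy M g⁻¹ := by
        rw [Subgroup.mem_inf]
        refine ⟨mem_conjBy.1 hx.1, mem_conjBy.2 ?_⟩
        have h2 : g⁻¹⁻¹ * (g⁻¹ * x * g) * g⁻¹ = x := by group
        rw [h2]
        exact hx.2
      rw [h, Subgroup.mem_bot] at h1
      have h3 : x = g * (g⁻¹ * x * g) * g⁻¹ := by group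
      rw [h3, h1]
      group
    · right
      exact conjBy_eq_iff.2 h
  have hconjC : ∀ b ∈ B, conjBy A b ≠ C := by
    intro b hb hEq
    apply hAC
    rw [conjBy_eq_iff] at hEq
    rw [hEq]
    exact conjBy_eq_of_commute (fun x hx => (hcB x hx b⁻¹ (B.inv_mem hb)).symm)
  have hmembers : membersIn S (A ⊔ C) = (fun b : G => conjBy A b) '' (B : Set G) ∪ {C} := by
    ext M
    constructor
    · rintro ⟨hMS, hMle⟩
      by_cases hMC : M ≤ C
      · right
        rw [Set.mem_singleton_iff]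
        exact hsub M hMS hMC
      · left
        obtain ⟨x, hxM, hxC⟩ := SetLike.not_le_iff_exists.1 hMC
        obtain ⟨b, hb, hxb⟩ := hcover x (hMle hxM) hxC
        refine ⟨b, hb, ?_⟩
        rcases hTI b M hMS with h | h
        · exfalso
          have h1 : x ∈ conjBy A b ⊓ M := ⟨hxb, hxM⟩
          rw [h, Subgroup.mem_bot] at h1
          apply hxC
          rw [h1]
          exact C.one_mem
        · exact h
    · rintro (⟨b, hb, rfl⟩ | hMC)
      · exact ⟨hS.conj_mem A hAS b, hconj_le b hb⟩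
      · rw [Set.mem_singleton_iff] at hMC
        rw [hMC]
        exact ⟨hCS, le_sup_right⟩
  have hpart : IsSubgroupPartition (A ⊔ C) (membersIn S (A ⊔ C)) := by
    refine ⟨fun M hM => hM.2, ?_, ?_⟩
    · intro x hx hx1
      by_cases hxC : x ∈ C
      · exact ⟨C, ⟨hCS, le_sup_right⟩, hxC⟩
      · obtain ⟨b, hb, hxb⟩ := hcover x hx hxC
        exact ⟨conjBy A b, ⟨hS.conj_mem A hAS b, hconj_le b hb⟩, hxb⟩
    · intro M hM M' hM' hne
      have hMS := hM.1
      have hM'S := hM'.1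
      rw [hmembers] at hM hM'
      rcases hM with ⟨b, hb, rfl⟩ | hM
      · exact (hTI b M' hM'S).resolve_right hne
      · rw [Set.mem_singleton_iff] at hM
        rcases hM' with ⟨b', hb', rfl⟩ | hM'
        · rw [inf_comm]
          exact (hTI b' M hMS).resolve_right (fun h => hne h.symm)
        · rw [Set.mem_singleton_iff] at hM'
          exact absurd (hM.trans hM'.symm) hne
  refine ⟨hmembers, hpart, ?_, ?_⟩
  · refine ⟨⟨hAS, hAC, ?_⟩, ?_⟩
    · rw [Subgroup.commutator_eq_bot_iff_le_centralizer]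
      intro c hc
      rw [Subgroup.mem_centralizer_iff]
      intro a ha
      exact (hcA c hc a ha).symm
    · rw [sup_comm]
      exact hpart
  · intro a ha ha1
    have hval : ∀ b : ↥B, a⁻¹ * (b : G)⁻¹ * a * (b : G) ∈ C := by
      intro b
      have h1 := hmem a⁻¹ (A.inv_mem ha) (b : G)⁻¹ (B.inv_mem b.2)
      rwa [inv_inv, inv_inv] at h1
    have hmul : ∀ b b' : ↥B, (⟨a⁻¹ * ((b * b' : ↥B) : G)⁻¹ * a * ((b * b' : ↥B) : G), hval (b * b')⟩ : ↥C)
        = ⟨a⁻¹ * (b : G)⁻¹ * a * (b : G), hval b⟩ * ⟨a⁻¹ * (b' : G)⁻¹ * a * (b' : G), hval b'⟩ := by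
      intro b b'
      apply Subtype.ext
      show a⁻¹ * ((b : G) * (b' : G))⁻¹ * a * ((b : G) * (b' : G))
        = (a⁻¹ * (b : G)⁻¹ * a * (b : G)) * (a⁻¹ * (b' : G)⁻¹ * a * (b' : G))
      have h1 := hcB _ (hval b) (b' : G) b'.2
      have h2 := hcen _ (hval b) (a⁻¹ * (b' : G)⁻¹ * a * (b' : G))
        (Subgroup.mul_mem _ (Subgroup.mul_mem _ (Subgroup.mul_mem _
          (Subgroup.mem_sup_left (A.inv_mem ha)) (Subgroup.mem_sup_right (B.inv_mem b'.2)))
          (Subgroup.mem_sup_left ha)) (Subgroup.mem_sup_right b'.2))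
      rw [h2]
      have h3 : a⁻¹ * ((b : G) * (b' : G))⁻¹ * a * ((b : G) * (b' : G))
          = a⁻¹ * (b' : G)⁻¹ * a * ((a⁻¹ * (b : G)⁻¹ * a * (b : G)) * (b' : G)) := by group
      rw [h3, h1]
      group
    let f : ↥B →* ↥C := MonoidHom.mk' (fun b => ⟨a⁻¹ * (b : G)⁻¹ * a * (b : G), hval b⟩) hmul
    have hfinj : Function.Injective f := by
      rw [injective_iff_map_eq_one]
      intro b hb
      have h1 : a⁻¹ * (b : G)⁻¹ * a * (b : G) = 1 := congrArg Subtype.val hb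
      have h2 : a * (b : G) = (b : G) * a := by
        have h3 : a * (b : G) = (b : G) * a * (a⁻¹ * (b : G)⁻¹ * a * (b : G)) := by group
        rw [h3, h1, mul_one]
      apply Subtype.ext
      exact hinj a ha ha1 (b : G) b.2 h2
    have hfsurj : Function.Surjective f := by
      intro c
      obtain ⟨b', hb', hbc⟩ := hsurj a⁻¹ (A.inv_mem ha) (inv_ne_one.2 ha1) (c : G) c.2
      refine ⟨⟨b'⁻¹, B.inv_mem hb'⟩, ?_⟩
      apply Subtype.ext
      show a⁻¹ * (b'⁻¹)⁻¹ * a * b'⁻¹ = (c : G)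
      rw [← hbc, inv_inv, inv_inv]
    exact ⟨MulEquiv.ofBijective f ⟨hfinj, hfsurj⟩, fun b => rfl⟩

end Cfsg.Agent.S5029
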