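import Cfsg.Statements.S5045
import Mathlib
import Cfsg.Agent.Helper1.BaerSuzuki
import Cfsg.Agent.Helper16.BaerSuzuki

set_option autoImplicit false
open Cfsg
namespace Cfsg.Agent.S5045

theorem ri_sq {G : Type*} [Group G] {D : Set G} (hD : IsRootInvolutionSet D) {d : G} (hd : d ∈ D) :
    d * d = 1 := by
  have h := pow_orderOf_eq_one d
  rw [hD.orderOf_eq d hd, pow_two] at h
  exact h

theorem ri_ne_one {G : Type*} [Group G] {D : Set G} (hD : IsRootInvolutionSet D) {d : G} (hd : d ∈ D) :
    d ≠ 1 := by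
  intro h
  have h2 := hD.orderOf_eq d hd
  rw [h, orderOf_one] at h2
  exact absurd h2 (by norm_num)

theorem orderOf_swap {G : Type*} [Group G] (x y : G) : orderOf (x * y) = orderOf (y * x) := by
  have h := MulEquiv.orderOf_eq (MulAut.conj y) (x * y)
  rw [MulAut.conj_apply] at h
  rw [← h]
  congr 1
  group

theorem orderOf_cj {G : Type*} [Group G] (g x : G) : orderOf (g * x * g⁻¹) = orderOf x := by
  have h := MulEquiv.orderOf_eq (MulAut.conj g) x
  rwa [MulAut.conj_apply] at h

theorem adj_symm {G : Type*} [Group G] {D : Set G} {a b : G} (h : OddAdj D a b) : OddAdj D b a :=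
  ⟨h.2.1, h.1, h.2.2.1.symm, by rw [orderOf_swap]; exact h.2.2.2⟩

theorem adj_conj {G : Type*} [Group G] {D : Set G} (hD : IsRootInvolutionSet D) {a b : G} (g : G)
    (h : OddAdj D a b) : OddAdj D (g * a * g⁻¹) (g * b * g⁻¹) := by
  refine ⟨hD.conj_mem a h.1 g, hD.conj_mem b h.2.1 g, ?_, ?_⟩
  · intro h1
    exact h.2.2.1 (mul_left_cancel (mul_right_cancel h1))
  · have e : g * a * g⁻¹ * (g * b * g⁻¹) = g * (a * b) * g⁻¹ := by group
    rw [e, orderOf_cj]
    exact h.2.2.2

theorem iso_conj {G : Type*} [Group G] {D : Set G} (hD : IsRootInvolutionSet D) {w : G}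
    (hw : IsIsolatedElem (OddAdj D) D w) (g : G) : IsIsolatedElem (OddAdj D) D (g * w * g⁻¹) := by
  refine ⟨hD.conj_mem w hw.1 g, fun b => ⟨fun h => ?_, fun h => ?_⟩⟩
  · have h1 := adj_conj hD g⁻¹ h
    have e : g⁻¹ * (g * w * g⁻¹) * g⁻¹⁻¹ = w := by group
    rw [e] at h1
    exact (hw.2 _).1 h1
  · have h1 := adj_conj hD g⁻¹ h
    have e : g⁻¹ * (g * w * g⁻¹) * g⁻¹⁻¹ = w := by group
    rw [e] at h1
    exact (hw.2 _).2 h1

theorem dih2 {G : Type*} [Group G] {u v : G} (huu : u * u = 1) (hvv : v * v = 1) {k : ℕ}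
    (hk : (u * v) ^ (2 ^ k) = 1) : IsPGroup 2 (Subgroup.closure ({u, v} : Set G)) := by
  have hui : u⁻¹ = u := inv_eq_of_mul_eq_one_left huu
  have hvi : v⁻¹ = v := inv_eq_of_mul_eq_one_left hvv
  have hur : u * (u * v) * u⁻¹ = (u * v)⁻¹ := by
    rw [mul_inv_rev, hui, hvi, ← mul_assoc, huu, one_mul]
  have h1 : IsPGroup 2 (Subgroup.zpowers (u * v)) :=
    Cfsg.Agent.Helper16.isPGroup_zpowers_of_pow_eq_one hk
  have h2 : IsPGroup 2 (Subgroup.zpowers u) :=
    Cfsg.Agent.Helper16.isPGroup_zpowers_of_pow_eq_one (k := 1) (by rw [pow_one, pow_two]; exact huu)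
  have h3 : Subgroup.zpowers u ≤
      Subgroup.normalizer ((Subgroup.zpowers (u * v) : Subgroup G) : Set G) := by
    apply Cfsg.Agent.Helper16.le_normalizer_of_conj_mem
    intro w hw x hx
    rcases Cfsg.Agent.Helper16.eq_one_or_eq_of_mem_zpowers_of_sq (by rw [pow_two]; exact huu) hw
      with rfl | rfl
    · simpa using hx
    · obtain ⟨i, rfl⟩ := Subgroup.mem_zpowers_iff.1 hx
      rw [← conj_zpow, hur]
      exact Subgroup.zpow_mem _ (Subgroup.inv_mem _ (Subgroup.mem_zpowers _)) i
  have hsup : IsPGroup 2 (Subgroup.zpowers u ⊔ Subgroup.zpowers (u * v) : Subgroup G) :=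
    IsPGroup.to_sup_of_normal_right' h2 h1 h3
  apply hsup.to_le
  rw [Subgroup.closure_le]
  rintro z (rfl | rfl)
  · exact Subgroup.mem_sup_left (Subgroup.mem_zpowers _)
  · have hz := Subgroup.mul_mem (Subgroup.zpowers u ⊔ Subgroup.zpowers (u * z))
      (Subgroup.mem_sup_left (Subgroup.inv_mem _ (Subgroup.mem_zpowers u)))
      (Subgroup.mem_sup_right (Subgroup.mem_zpowers (u * z)))
    rwa [inv_mul_cancel_left] at hz

theorem pair2 {G : Type*} [Group G] {D : Set G} (hD : IsRootInvolutionSet D) {w w' : G}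
    (hw : IsIsolatedElem (OddAdj D) D w) (hw' : IsIsolatedElem (OddAdj D) D w') :
    IsPGroup 2 (Subgroup.closure ({w, w'} : Set G)) := by
  have h1 := ri_sq hD hw.1
  have h2 := ri_sq hD hw'.1
  rcases hD.pair w hw.1 w' hw'.1 with h | h | h
  · refine dih2 h1 h2 (k := 1) ?_
    rw [pow_one, pow_two]
    calc w * w' * (w * w') = w * (w' * w) * w' := by group
      _ = w * (w * w') * w' := by rw [h]
      _ = (w * w) * (w' * w') := by group
      _ = 1 := by rw [h1, h2, one_mul]
  · by_cases he : w = w'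
    · refine dih2 h1 h2 (k := 0) ?_
      rw [pow_zero, pow_one, ← he, h1]
    · exact absurd ⟨hw.1, hw'.1, he, h⟩ (hw.2 w').1
  · refine dih2 h1 h2 (k := 2) ?_
    have h3 := pow_orderOf_eq_one (w * w')
    rw [h.1] at h3
    rw [show (2:ℕ) ^ 2 = 4 from rfl]
    exact h3

theorem pW {G : Type*} [Group G] [Finite G] {D : Set G} (hD : IsRootInvolutionSet D) :
    IsPGroup 2 (Subgroup.closure {w | IsIsolatedElem (OddAdj D) D w}) := by
  have : Fact (Nat.Prime 2) := ⟨Nat.prime_two⟩
  exact Cfsg.Agent.Helper1.baer_suzuki 2 _ (fun a ha g => iso_conj hD ha g)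
    (fun a ha b hb => pair2 hD ha hb)

theorem odd2 {G : Type*} [Group G] {r : G} (hodd : Odd (orderOf r)) {i : ℕ}
    (h : r ^ (2 ^ i) = 1) : r = 1 := by
  have hdvd : orderOf r ∣ 2 ^ i := orderOf_dvd_of_pow_eq_one h
  obtain ⟨j, -, hj⟩ := (Nat.dvd_prime_pow Nat.prime_two).mp hdvd
  rcases Nat.eq_zero_or_pos j with h0 | h0
  · rw [h0, pow_zero] at hj
    exact orderOf_eq_one_iff.mp hj
  · exfalso
    have h2 : 2 ∣ orderOf r := by rw [hj]; exact dvd_pow_self 2 h0.ne'
    exact (Nat.not_even_iff_odd.mpr hodd) (even_iff_two_dvd.mpr h2)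

theorem pow_odd_inv {G : Type*} [Group G] {x : G} (hx : x * x = 1) {k : ℕ} (hk : Odd k) :
    x ^ k = x := by
  obtain ⟨j, rfl⟩ := hk
  rw [pow_succ, pow_mul, pow_two, hx, one_pow, one_mul]

theorem inter_eq {G : Type*} [Group G] [Finite G] {D : Set G} (hD : IsRootInvolutionSet D) :
    (Subgroup.closure {w | IsIsolatedElem (OddAdj D) D w} : Set G) ∩ D =
      {w | IsIsolatedElem (OddAdj D) D w} := by
  have hN := Cfsg.Agent.Helper1.closure_normal_of_conj {w | IsIsolatedElem (OddAdj D) D w}
    (fun a ha g => iso_conj hD ha g)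
  have hP := pW hD
  ext d
  constructor
  · rintro ⟨hdN, hdD⟩
    have key : ∀ b ∈ D, Odd (orderOf (d * b)) → d = b := by
      intro b hb hodd
      have hbb := ri_sq hD hb
      have hbi : b⁻¹ = b := inv_eq_of_mul_eq_one_left hbb
      have hmem : (d * b) ^ 2 ∈ Subgroup.closure {w | IsIsolatedElem (OddAdj D) D w} := by
        have h1 := hN.conj_mem d hdN b
        have h2 := Subgroup.mul_mem _ hdN h1
        have e : d * (b * d * b⁻¹) = (d * b) ^ 2 := by rw [hbi, pow_two]; group
        rwa [e] at h2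
      obtain ⟨k, hk⟩ := hP ⟨(d * b) ^ 2, hmem⟩
      have hk' : ((d * b) ^ 2) ^ (2 ^ k) = 1 := by
        have := congrArg Subtype.val hk
        simpa using this
      have hk2 : (d * b) ^ (2 ^ (k + 1)) = 1 := by
        rw [pow_succ, mul_comm (2 ^ k) 2, pow_mul]
        exact hk'
      have h2 : d * b = 1 := odd2 hodd hk2
      have h3 : d = b⁻¹ := eq_inv_of_mul_eq_one_left h2
      rw [h3, hbi]
    refine ⟨hdD, fun b => ⟨fun h => h.2.2.1 (key b h.2.1 h.2.2.2), fun h => h.2.2.1 ?_⟩⟩
    have h5 := key b h.1 (by rw [orderOf_swap]; exact h.2.2.2)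
    exact h5.symm
  · intro hw
    exact ⟨Subgroup.subset_closure hw, hw.1⟩

theorem core {G : Type*} [Group G] {D : Set G} (hD : IsRootInvolutionSet D) {p q x r : G}
    (hp : p ∈ D) (hq : q ∈ D) (hxx : x * x = 1) (hx1 : x ≠ 1) (hodd : Odd (orderOf r))
    (hr1 : r ≠ 1) (hcomm : Commute x r) (hpq : p * q = x * r) : False := by
  have hpow : ∀ n : ℕ, (p * q) ^ n = x ^ n * r ^ n := by
    intro n; rw [hpq]; exact hcomm.mul_pow n
  rcases hD.pair p hp q hq with h | h | h
  · have h2 : (p * q) ^ 2 = 1 := by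
      rw [pow_two]
      calc p * q * (p * q) = p * (q * p) * q := by group
        _ = p * (p * q) * q := by rw [h]
        _ = (p * p) * (q * q) := by group
        _ = 1 := by rw [ri_sq hD hp, ri_sq hD hq, one_mul]
    rw [hpow, pow_two x, hxx, one_mul] at h2
    exact hr1 (odd2 hodd (i := 1) (by rw [pow_one]; exact h2))
  · have h1 := pow_orderOf_eq_one (p * q)
    have h3 : (p * q) ^ (orderOf (p * q) * orderOf r) = 1 := by rw [pow_mul, h1, one_pow]
    rw [hpow, mul_comm (orderOf (p * q)) (orderOf r), pow_mul r, pow_orderOf_eq_one, one_pow,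
      mul_one, pow_odd_inv hxx (Odd.mul hodd h)] at h3
    exact hx1 h3
  · have h1 := pow_orderOf_eq_one (p * q)
    rw [h.1, hpow] at h1
    have hx4 : x ^ 4 = 1 := by
      have : x ^ 4 = (x * x) * (x * x) := by
        rw [show (4:ℕ) = 2 + 2 from rfl, pow_add, pow_two]
      rw [this, hxx, one_mul]
    rw [hx4, one_mul] at h1
    exact hr1 (odd2 hodd (i := 2) (by rw [show (2:ℕ) ^ 2 = 4 from rfl]; exact h1))

theorem d8 {G : Type*} [Group G] {c a : G} (hcc : c * c = 1) (haa : a * a = 1)
    (h4 : (c * a) ^ 4 = 1) :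
    c * (c * a) ^ 2 = (c * a) ^ 2 * c ∧ a * (c * a) ^ 2 = (c * a) ^ 2 * a ∧
      a * c * a = c * (c * a) ^ 2 := by
  have hci : c⁻¹ = c := inv_eq_of_mul_eq_one_left hcc
  have hai : a⁻¹ = a := inv_eq_of_mul_eq_one_left haa
  have hu : (c * a) ^ 2 = c * a * c * a := by rw [pow_two]; group
  have h5 : (c * a * c * a) * (c * a * c * a) = 1 := by
    have : (c * a) ^ 4 = (c * a * c * a) * (c * a * c * a) := by
      rw [show (4:ℕ) = 2 + 2 from rfl, pow_add, hu]
    rw [← this]; exact h4
  have K : c * a * c * a = a * c * a * c := by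
    have h6 := eq_inv_of_mul_eq_one_left h5
    rw [h6]
    simp only [mul_inv_rev, hci, hai, mul_assoc]
  rw [hu]
  refine ⟨?_, ?_, ?_⟩
  · calc c * (c * a * c * a) = (c * c) * a * c * a := by group
      _ = a * c * a := by rw [hcc, one_mul]
      _ = a * c * a * (c * c) := by rw [hcc, mul_one]
      _ = (a * c * a * c) * c := by group
      _ = c * a * c * a * c := by rw [← K]
  · calc a * (c * a * c * a) = a * (a * c * a * c) := by rw [K]
      _ = (a * a) * c * a * c := by group
      _ = c * a * c := by rw [haa, one_mul]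
      _ = c * a * c * (a * a) := by rw [haa, mul_one]
      _ = c * a * c * a * a := by group
  · calc a * c * a = (c * c) * a * c * a := by rw [hcc, one_mul]
      _ = c * (c * a * c * a) := by group

theorem nocomm {G : Type*} [Group G] {D : Set G} (hD : IsRootInvolutionSet D) {e x c : G}
    (he : e ∈ D) (hx : x ∈ D) (hc : c ∈ D) (hxe : x * e = e * x) (hy : e * x ∈ D)
    (hodd : Odd (orderOf (e * c))) (hne : c ≠ e) : c * x ≠ x * c := by
  intro hcx
  have hee := ri_sq hD he
  have hr1 : e * c ≠ 1 := by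
    intro h
    apply hne
    have h1 : c = e⁻¹ := eq_inv_of_mul_eq_one_right h
    rw [h1, inv_eq_of_mul_eq_one_left hee]
  have hcomm : Commute x (e * c) := by
    show x * (e * c) = e * c * x
    calc x * (e * c) = (x * e) * c := by group
      _ = e * x * c := by rw [hxe]
      _ = e * (x * c) := by group
      _ = e * (c * x) := by rw [hcx]
      _ = e * c * x := by group
  have hpq : e * x * c = x * (e * c) := by
    calc e * x * c = x * e * c := by rw [hxe]
      _ = x * (e * c) := mul_assoc _ _ _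
  exact core hD hy hc (ri_sq hD hx) (ri_ne_one hD hx) hodd hr1 hcomm hpq

theorem bothF_core {G : Type*} [Group G] {D : Set G} (hD : IsRootInvolutionSet D)
    {a f c u w : G} (ha : a ∈ D) (hc : c ∈ D) (hw : w ∈ D)
    (haf : a * f = f * a)
    (hcu : c * u = u * c) (hau : a * u = u * a) (hacu : a * c * a = c * u)
    (hcw : c * w = w * c) (hfcw : f * c * f = c * w)
    (hodd : Odd (orderOf (c * (a * f)))) (hne : c * (a * f) ≠ 1) : False := by
  have hcc := ri_sq hD hc
  have haa := ri_sq hD ha
  have hai : a⁻¹ = a := inv_eq_of_mul_eq_one_left haa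
  have hu : u = c * a * c * a := by
    calc u = (c * c) * u := by rw [hcc, one_mul]
      _ = c * (c * u) := by group
      _ = c * (a * c * a) := by rw [hacu]
      _ = c * a * c * a := by group
  have hE : (c * (a * f)) ^ 2 = u * (a * w * a) := by
    calc (c * (a * f)) ^ 2 = c * (a * f) * (c * (a * f)) := pow_two _
      _ = c * (a * f) * (c * (f * a)) := by rw [← haf]
      _ = c * a * (f * c * f) * a := by group
      _ = c * a * (c * w) * a := by rw [hfcw]
      _ = c * a * c * (a * a) * w * a := by rw [haa, mul_one]; group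
      _ = (c * a * c * a) * (a * w * a) := by group
      _ = u * (a * w * a) := by rw [← hu]
  have hconj : a * (c * (a * f)) ^ 2 * a⁻¹ = u * w := by
    rw [hE, hai]
    calc a * (u * (a * w * a)) * a = (a * u) * (a * w) * (a * a) := by group
      _ = (u * a) * (a * w) * 1 := by rw [hau, haa]
      _ = u * (a * a) * w := by group
      _ = u * w := by rw [haa, mul_one]
  have hodd2 : Odd (orderOf (u * w)) := by
    rw [← hconj, orderOf_cj]
    apply Odd.of_dvd_nat hodd
    apply orderOf_dvd_of_pow_eq_one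
    rw [← pow_mul, mul_comm 2 (orderOf (c * (a * f))), pow_mul, pow_orderOf_eq_one, one_pow]
  have hne2 : u * w ≠ 1 := by
    intro h
    rw [← hconj] at h
    have h2 : (c * (a * f)) ^ 2 = 1 := conj_eq_one_iff.mp h
    exact hne (odd2 hodd (i := 1) (by rw [pow_one]; exact h2))
  have hcuD : c * u ∈ D := by
    have h1 := hD.conj_mem c hc a
    rw [hai, hacu] at h1
    exact h1
  have hcomm : Commute c (u * w) := by
    show c * (u * w) = u * w * c
    calc c * (u * w) = (c * u) * w := by group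
      _ = (u * c) * w := by rw [hcu]
      _ = u * (c * w) := by group
      _ = u * (w * c) := by rw [hcw]
      _ = u * w * c := by group
  exact core hD hcuD hw hcc (ri_ne_one hD hc) hodd2 hne2 hcomm (mul_assoc c u w)

theorem vlem {G : Type*} [Group G] {D : Set G} (hD : IsRootInvolutionSet D) {a e c : G}
    (ha : a ∈ D) (he : e ∈ D) (hae : e * a = a * e) (hf : e * a ∈ D)
    (hc : OddAdj D c e) : OddAdj D c a ∨ OddAdj D c (e * a) := by
  obtain ⟨hcD, -, hce, hodd⟩ := hc
  have haa := ri_sq hD ha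
  have hee := ri_sq hD he
  have hcc := ri_sq hD hcD
  have hff := ri_sq hD hf
  have hodd' : Odd (orderOf (e * c)) := by rw [orderOf_swap]; exact hodd
  have hn1 : c * a ≠ a * c := nocomm hD he ha hcD hae.symm hf hodd' hce
  have hfe : e * a * e = e * (e * a) := by rw [mul_assoc, ← hae]
  have hea2 : e * (e * a) = a := by rw [← mul_assoc, hee, one_mul]
  have hn2 : c * (e * a) ≠ e * a * c :=
    nocomm hD he hf hcD hfe (by rw [hea2]; exact ha) hodd' hce
  rcases hD.pair c hcD a ha with h | h | h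
  · exact absurd h hn1
  · left
    refine ⟨hcD, ha, ?_, h⟩
    intro hca
    apply hn1
    rw [hca]
  · rcases hD.pair c hcD (e * a) hf with h' | h' | h'
    · exact absurd h' hn2
    · right
      refine ⟨hcD, hf, ?_, h'⟩
      intro hca
      apply hn2
      rw [hca]
    · exfalso
      have h4a : (c * a) ^ 4 = 1 := by
        have h0 := pow_orderOf_eq_one (c * a)
        rwa [h.1] at h0
      have h4f : (c * (e * a)) ^ 4 = 1 := by
        have h0 := pow_orderOf_eq_one (c * (e * a))
        rwa [h'.1] at h0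
      obtain ⟨hcu, hau, hacu⟩ := d8 hcc haa h4a
      obtain ⟨hcw, -, hfcw⟩ := d8 hcc hff h4f
      have haf : a * (e * a) = e * a * a := by rw [← mul_assoc, hae]
      have hafe : a * (e * a) = e := by rw [← mul_assoc, ← hae, mul_assoc, haa, mul_one]
      refine bothF_core hD ha hcD h'.2 haf hcu hau hacu hcw hfcw ?_ ?_
      · rw [hafe]; exact hodd
      · rw [hafe]
        intro h1
        apply hce
        have h2 : c = e⁻¹ := eq_inv_of_mul_eq_one_left h1
        rw [h2, inv_eq_of_mul_eq_one_left hee]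

theorem rtg_symm {G : Type*} [Group G] {D : Set G} {a b : G}
    (h : Relation.ReflTransGen (OddAdj D) a b) : Relation.ReflTransGen (OddAdj D) b a := by
  induction h with
  | refl => exact Relation.ReflTransGen.refl
  | tail _ hbc ih => exact Relation.ReflTransGen.head (adj_symm hbc) ih

theorem comp_eq {G : Type*} [Group G] {D : Set G} {a b : G}
    (hb : b ∈ elemComponentOf (OddAdj D) D a) :
    elemComponentOf (OddAdj D) D a = elemComponentOf (OddAdj D) D b := by
  have hba : Relation.ReflTransGen (OddAdj D) b a := rtg_symm hb.2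
  ext x
  constructor
  · rintro ⟨hx, h⟩; exact ⟨hx, hba.trans h⟩
  · rintro ⟨hx, h⟩; exact ⟨hx, hb.2.trans h⟩

theorem part6 {G : Type*} [Group G] {D : Set G} (hD : IsRootInvolutionSet D) {a : G} (ha : a ∈ D)
    (hnt : ∃ a' ∈ elemComponentOf (OddAdj D) D a, a' ≠ a) :
    productPartners D a ⊆
      elemComponentOf (OddAdj D) D a ∪ {w | IsIsolatedElem (OddAdj D) D w} := by
  intro e he
  obtain ⟨⟨heD, hea, hne⟩, hf⟩ := he
  by_cases hiso : IsIsolatedElem (OddAdj D) D e
  · right; exact hiso
  left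
  have hex : ∃ c, OddAdj D c e := by
    by_contra hcon
    push Not at hcon
    apply hiso
    exact ⟨heD, fun b => ⟨fun h => hcon b (adj_symm h), fun h => hcon b h⟩⟩
  obtain ⟨c, hc⟩ := hex
  obtain ⟨a', ha', hne'⟩ := hnt
  have hex2 : ∃ a1, OddAdj D a a1 := by
    rcases Relation.ReflTransGen.cases_head ha'.2 with h | ⟨a1, h1, -⟩
    · exact absurd h.symm hne'
    · exact ⟨a1, h1⟩
  obtain ⟨a1, ha1⟩ := hex2
  have h1 := vlem hD ha heD hea hf hc
  have h2 := vlem hD heD ha hea.symm (by rw [← hea]; exact hf) (adj_symm ha1)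
  refine ⟨heD, ?_⟩
  rcases h1 with h1 | h1
  · exact Relation.ReflTransGen.head (adj_symm h1) (Relation.ReflTransGen.single hc)
  · rcases h2 with h2 | h2
    · exact Relation.ReflTransGen.head ha1 (Relation.ReflTransGen.single h2)
    · rw [← hea] at h2
      exact Relation.ReflTransGen.head ha1 (Relation.ReflTransGen.head h2
        (Relation.ReflTransGen.head (adj_symm h1) (Relation.ReflTransGen.single hc)))

theorem part5 {G : Type*} [Group G] {D : Set G} (hD : IsRootInvolutionSet D)
    {a b : G} (ha : a ∈ D) (hb : b ∈ D)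
    (hnta : ∃ a' ∈ elemComponentOf (OddAdj D) D a, a' ≠ a)
    (hntb : ∃ b' ∈ elemComponentOf (OddAdj D) D b, b' ≠ b)
    (hne : elemComponentOf (OddAdj D) D a ≠ elemComponentOf (OddAdj D) D b) :
    a * b * a⁻¹ * b⁻¹ ∈ Subgroup.closure {w | IsIsolatedElem (OddAdj D) D w} := by
  have haa := ri_sq hD ha
  have hbb := ri_sq hD hb
  have hai : a⁻¹ = a := inv_eq_of_mul_eq_one_left haa
  have hbi : b⁻¹ = b := inv_eq_of_mul_eq_one_left hbb
  rcases hD.pair a ha b hb with h | h | h
  · have h0 : a * b * a⁻¹ * b⁻¹ = 1 := by rw [h]; group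
    rw [h0]; exact Subgroup.one_mem _
  · exfalso
    by_cases hab : a = b
    · exact hne (by rw [hab])
    · exact hne (comp_eq ⟨hb, Relation.ReflTransGen.single ⟨ha, hb, hab, h⟩⟩)
  · have hz : a * b * a⁻¹ * b⁻¹ = (a * b) ^ 2 := by rw [hai, hbi, pow_two]; group
    rw [hz]
    have h4 : (a * b) ^ 4 = 1 := by
      have h0 := pow_orderOf_eq_one (a * b)
      rwa [h.1] at h0
    obtain ⟨hau, hbu, hbab⟩ := d8 haa hbb h4
    have hza : (a * b) ^ 2 ∈ productPartners D a := by
      refine ⟨⟨h.2, hau.symm, ?_⟩, ?_⟩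
      · intro hza
        have h5 : b * a * b = 1 := by rw [hbab, hza, haa]
        apply ri_ne_one hD ha
        calc a = b⁻¹ * (b * a * b) * b⁻¹ := by group
          _ = b⁻¹ * 1 * b⁻¹ := by rw [h5]
          _ = 1 := by rw [hbi, mul_one, hbb]
      · have h5 := hD.conj_mem a ha b
        rw [hbi, hbab, hau] at h5
        exact h5
    have hub : (a * b) ^ 2 * b = a * b * a := by
      rw [pow_two]
      calc a * b * (a * b) * b = a * b * a * (b * b) := by group
        _ = a * b * a := by rw [hbb, mul_one]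
    have hzb : (a * b) ^ 2 ∈ productPartners D b := by
      refine ⟨⟨h.2, hbu.symm, ?_⟩, ?_⟩
      · intro hzb
        have h5 : a * b * a = 1 := by rw [← hub, hzb, hbb]
        apply ri_ne_one hD hb
        calc b = a⁻¹ * (a * b * a) * a⁻¹ := by group
          _ = a⁻¹ * 1 * a⁻¹ := by rw [h5]
          _ = 1 := by rw [hai, mul_one, haa]
      · have h5 := hD.conj_mem b hb a
        rw [hai, ← hub] at h5
        exact h5
    have h6a := part6 hD ha hnta hza
    have h6b := part6 hD hb hntb hzb
    rcases h6a with h6a | h6a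
    · rcases h6b with h6b | h6b
      · exact absurd ((comp_eq h6a).trans (comp_eq h6b).symm) hne
      · exact Subgroup.subset_closure h6b
    · exact Subgroup.subset_closure h6a

/-- Let G be a finite group generated by a set D of root involutions, and W the set of members of D whose product with every other member of D has even order or is trivial (the isolated vertices of the odd-order-product graph on D). Then W is conjugation-invariant and generates a normal 2-subgroup of G meeting D in exactly W; the commutator of two members of D lying in different connected components of that graph, each with more than one member, lies in the subgroup generated by W; and for a in such a component, every member of D commuting with a, different from a and with product with a in D, lies in that component or in W. -/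
theorem result {G : Type*} [Group G] [Finite G] {D : Set G} (hD : Cfsg.IsRootInvolutionSet D) :
    (∀ w ∈ {w | Cfsg.IsIsolatedElem (Cfsg.OddAdj D) D w}, ∀ g : G, g * w * g⁻¹ ∈ {w | Cfsg.IsIsolatedElem (Cfsg.OddAdj D) D w}) ∧
    (Subgroup.closure {w | Cfsg.IsIsolatedElem (Cfsg.OddAdj D) D w}).Normal ∧
    IsPGroup 2 ↥(Subgroup.closure {w | Cfsg.IsIsolatedElem (Cfsg.OddAdj D) D w}) ∧
    (Subgroup.closure {w | Cfsg.IsIsolatedElem (Cfsg.OddAdj D) D w} : Set G) ∩ D = {w | Cfsg.IsIsolatedElem (Cfsg.OddAdj D) D w} ∧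
    (∀ a ∈ D, ∀ b ∈ D, (∃ a' ∈ Cfsg.elemComponentOf (Cfsg.OddAdj D) D a, a' ≠ a) →
      (∃ b' ∈ Cfsg.elemComponentOf (Cfsg.OddAdj D) D b, b' ≠ b) →
      Cfsg.elemComponentOf (Cfsg.OddAdj D) D a ≠ Cfsg.elemComponentOf (Cfsg.OddAdj D) D b →
        a * b * a⁻¹ * b⁻¹ ∈ Subgroup.closure {w | Cfsg.IsIsolatedElem (Cfsg.OddAdj D) D w}) ∧
    (∀ a ∈ D, (∃ a' ∈ Cfsg.elemComponentOf (Cfsg.OddAdj D) D a, a' ≠ a) →
      Cfsg.productPartners D a ⊆ Cfsg.elemComponentOf (Cfsg.OddAdj D) D a ∪ {w | Cfsg.IsIsolatedElem (Cfsg.OddAdj D) D w}) := by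
  refine ⟨fun w hw g => iso_conj hD hw g,
    Cfsg.Agent.Helper1.closure_normal_of_conj _ (fun a ha g => iso_conj hD ha g),
    pW hD, inter_eq hD, ?_, ?_⟩
  · intro a ha b hb hnta hntb hne
    exact part5 hD ha hb hnta hntb hne
  · intro a ha hnt
    exact part6 hD ha hnt

end Cfsg.Agent.S5045
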