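import Cfsg.Statements.S5048
import Mathlib
import Cfsg.Agent.S5045
import Cfsg.Agent.Helper1.BaerSuzuki
import Cfsg.Agent.Helper1.Fitting

set_option autoImplicit false
open Cfsg
open Cfsg.Agent.S5045
namespace Cfsg.Agent.S5048

theorem mem_of_adj {G : Type*} [Group G] {N : Subgroup G} [hN : N.Normal] {x y : G}
    (hy : y * y = 1) (hodd : Odd (orderOf (x * y))) (hxN : x ∈ N) : y ∈ N := by
  have hyi : y⁻¹ = y := inv_eq_of_mul_eq_one_left hy
  have h2 : (x * y) ^ 2 ∈ N := by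
    have e : (x * y) ^ 2 = x * (y * x * y⁻¹) := by
      rw [pow_two, hyi]; group
    rw [e]
    exact N.mul_mem hxN (hN.conj_mem x hxN y)
  obtain ⟨k, hk⟩ := hodd
  have h3 : ((x * y) ^ 2) ^ (k + 1) = x * y := by
    rw [← pow_mul, show 2 * (k + 1) = (2 * k + 1) + 1 by ring, pow_succ, ← hk,
      pow_orderOf_eq_one, one_mul]
  have h4 : x * y ∈ N := by
    rw [← h3]
    exact N.pow_mem h2 _
  have e : y = x⁻¹ * (x * y) := by group
  rw [e]
  exact N.mul_mem (N.inv_mem hxN) h4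

theorem rtg_mem {G : Type*} [Group G] {D : Set G} (hD : IsRootInvolutionSet D)
    {N : Subgroup G} [N.Normal] {a b : G}
    (h : Relation.ReflTransGen (OddAdj D) a b) (ha : a ∈ N) : b ∈ N := by
  induction h with
  | refl => exact ha
  | tail _ hbc ih => exact mem_of_adj (ri_sq hD hbc.2.1) hbc.2.2.2 ih

theorem top_of_mem {G : Type*} [Group G] {D : Set G} (hD : IsRootInvolutionSet D)
    (hc : IsConnectedSet (OddAdj D) D) {N : Subgroup G} [N.Normal] {q : G}
    (hq : q ∈ D) (hqN : q ∈ N) : N = ⊤ := by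
  rw [eq_top_iff, ← hD.generates, Subgroup.closure_le]
  intro d hd
  exact rtg_mem hD (hc q hq d hd) hqN

theorem conj_of_odd {G : Type*} [Group G] {x y : G} (hx : x * x = 1) (hy : y * y = 1)
    (hodd : Odd (orderOf (x * y))) : ∃ g : G, y = g * x * g⁻¹ := by
  obtain ⟨k, hk⟩ := hodd
  have hxi : x⁻¹ = x := inv_eq_of_mul_eq_one_left hx
  have hyi : y⁻¹ = y := inv_eq_of_mul_eq_one_left hy
  have hs2 : (x * y) ^ (k + 1) * (x * y) ^ (k + 1) = x * y := by
    rw [← pow_add, show k + 1 + (k + 1) = (2 * k + 1) + 1 by ring, pow_succ, ← hk,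
      pow_orderOf_eq_one, one_mul]
  have hinv : x * (x * y) ^ (k + 1) * x⁻¹ = ((x * y) ^ (k + 1))⁻¹ := by
    rw [← conj_pow, ← inv_pow]
    congr 1
    rw [mul_inv_rev, hxi, hyi, ← mul_assoc x x y, hx, one_mul]
  refine ⟨((x * y) ^ (k + 1))⁻¹, ?_⟩
  rw [inv_inv]
  have h1 : x * (x * y) ^ (k + 1) = ((x * y) ^ (k + 1))⁻¹ * x := by
    rw [← hinv, inv_mul_cancel_right]
  rw [mul_assoc, h1, ← mul_assoc, ← mul_inv_rev, hs2, mul_inv_rev, inv_mul_cancel_right, hyi]

theorem conj_of_rtg {G : Type*} [Group G] {D : Set G} (hD : IsRootInvolutionSet D) {a b : G}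
    (h : Relation.ReflTransGen (OddAdj D) a b) : ∃ g : G, b = g * a * g⁻¹ := by
  induction h with
  | refl => exact ⟨1, by group⟩
  | tail _ hbc ih =>
    obtain ⟨g, hg⟩ := ih
    obtain ⟨g', hg'⟩ := conj_of_odd (ri_sq hD hbc.1) (ri_sq hD hbc.2.1) hbc.2.2.2
    exact ⟨g' * g, by rw [hg', hg]; group⟩

theorem exists_partner {G : Type*} [Group G] {D : Set G} (hD : IsRootInvolutionSet D)
    (hc : IsConnectedSet (OddAdj D) D) (hDD : (D ∩ commutingProducts D).Nonempty)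
    {d : G} (hd : d ∈ D) : ∃ e ∈ D, e * d = d * e ∧ e * d ∈ D := by
  obtain ⟨q, hqD, a, ha, b, hb, hab, -, rfl⟩ := hDD
  obtain ⟨g, rfl⟩ := conj_of_rtg hD (hc a ha d hd)
  refine ⟨g * b * g⁻¹, hD.conj_mem b hb g, ?_, ?_⟩
  · calc g * b * g⁻¹ * (g * a * g⁻¹) = g * (b * a) * g⁻¹ := by group
      _ = g * (a * b) * g⁻¹ := by rw [hab]
      _ = g * a * g⁻¹ * (g * b * g⁻¹) := by group
  · have e1 : g * b * g⁻¹ * (g * a * g⁻¹) = g * (a * b) * g⁻¹ := by
      rw [hab]; group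
    rw [e1]
    exact hD.conj_mem _ hqD g

theorem comm_conj {G : Type*} [Group G] {D : Set G} (hD : IsRootInvolutionSet D)
    (hc : IsConnectedSet (OddAdj D) D) (hDD : (D ∩ commutingProducts D).Nonempty)
    {N : Subgroup G} [hN : N.Normal] (hNtop : N ≠ ⊤) {d n : G} (hd : d ∈ D) (hn : n ∈ N) :
    d * (n * d * n⁻¹) = n * d * n⁻¹ * d := by
  have hxD : n * d * n⁻¹ ∈ D := hD.conj_mem d hd n
  have hdi : d⁻¹ = d := inv_eq_of_mul_eq_one_left (ri_sq hD hd)
  have key : ∀ e' ∈ D, d * e' ∈ D → OddAdj D (n * d * n⁻¹) e' → False := by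
    intro e' _ hq hadj
    apply hNtop
    refine top_of_mem hD hc hq ?_
    have h1 : ((n * d * n⁻¹ * e' : G) : G ⧸ N) = ((d * e' : G) : G ⧸ N) := by
      rw [QuotientGroup.eq]
      have e1 : (n * d * n⁻¹ * e')⁻¹ * (d * e') =
          e'⁻¹ * (n * (d⁻¹ * n⁻¹ * d⁻¹⁻¹)) * e'⁻¹⁻¹ := by group
      rw [e1]
      exact hN.conj_mem _ (N.mul_mem hn (hN.conj_mem _ (N.inv_mem hn) _)) _
    have h2 : ((d * e' : G) : G ⧸ N) ^ orderOf (n * d * n⁻¹ * e') = 1 := by
      rw [← h1, ← QuotientGroup.mk_pow, pow_orderOf_eq_one, QuotientGroup.mk_one]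
    have h3 : ((d * e' : G) : G ⧸ N) * ((d * e' : G) : G ⧸ N) = 1 := by
      rw [← QuotientGroup.mk_mul, ri_sq hD hq, QuotientGroup.mk_one]
    rw [pow_odd_inv h3 hadj.2.2.2] at h2
    exact (QuotientGroup.eq_one_iff _).mp h2
  rcases hD.pair d hd _ hxD with h | h | h
  · exact h
  · by_cases hxd : n * d * n⁻¹ = d
    · rw [hxd]
    · exfalso
      obtain ⟨e, he, hed, hedD⟩ := exists_partner hD hc hDD hd
      have hdeD : d * e ∈ D := by rw [← hed]; exact hedD
      have hadj : OddAdj D (n * d * n⁻¹) d :=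
        adj_symm (a := d) (b := n * d * n⁻¹) ⟨hd, hxD, fun h' => hxd h'.symm, h⟩
      rcases vlem hD he hd hed.symm hdeD hadj with h1 | h1
      · exact key e he hdeD h1
      · refine key (d * e) hdeD ?_ h1
        rw [← mul_assoc, ri_sq hD hd, one_mul]
        exact he
  · exfalso
    apply hNtop
    refine top_of_mem hD hc h.2 ?_
    apply N.pow_mem
    have e1 : d * (n * d * n⁻¹) = (d * n * d⁻¹) * n⁻¹ := by
      rw [hdi]; group
    rw [e1]
    exact N.mul_mem (hN.conj_mem n hn d) (N.inv_mem hn)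

theorem four {G : Type*} [Group G] {a b : G} (ha : a * a = 1) (hb : b * b = 1)
    (h : a * (b * a * b⁻¹) = b * a * b⁻¹ * a) : (a * b) ^ 4 = 1 := by
  have hbi : b⁻¹ = b := inv_eq_of_mul_eq_one_left hb
  rw [hbi] at h
  rw [show (4:ℕ) = 2 + 2 from rfl, pow_add, pow_two]
  calc a * b * (a * b) * (a * b * (a * b)) = a * ((b * a * b) * a) * (b * a * b) := by group
    _ = a * (a * (b * a * b)) * (b * a * b) := by rw [h]
    _ = (a * a) * b * a * (b * b) * a * b := by group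
    _ = b * a * a * b := by rw [ha, hb]; group
    _ = 1 := by rw [mul_assoc b a a, ha, mul_one, hb]

theorem stepA {G : Type*} [Group G] [Finite G] {D : Set G} (hD : IsRootInvolutionSet D)
    (hc : IsConnectedSet (OddAdj D) D) (hDD : (D ∩ commutingProducts D).Nonempty)
    {N : Subgroup G} [hN : N.Normal] (hNtop : N ≠ ⊤) : N ≤ twoZCore G := by
  have : Fact (Nat.Prime 2) := ⟨Nat.prime_two⟩
  have hcomm' : ∀ d ∈ D, ∀ m ∈ N, Commute d (m * d * m⁻¹) := by
    intro d hd m hm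
    exact comm_conj hD hc hDD hNtop hd hm
  have hcomm : ∀ d ∈ D, ∀ n ∈ N, ∀ m ∈ N, Commute (n * d * n⁻¹) (m * d * m⁻¹) := by
    intro d hd n hn m hm
    have h := comm_conj hD hc hDD hNtop (hD.conj_mem d hd n) (N.mul_mem hm (N.inv_mem hn))
    have e : m * n⁻¹ * (n * d * n⁻¹) * (m * n⁻¹)⁻¹ = m * d * m⁻¹ := by group
    rw [e] at h
    exact h
  have hCN : ∀ d ∈ D, ∀ n ∈ N, n * d * n⁻¹ * d ∈ N := by
    intro d hd n hn
    have e : n * d * n⁻¹ * d = n * (d * n⁻¹ * d⁻¹) := by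
      rw [inv_eq_of_mul_eq_one_left (ri_sq hD hd)]; group
    rw [e]
    exact N.mul_mem hn (hN.conj_mem _ (N.inv_mem hn) d)
  have hCsq : ∀ d ∈ D, ∀ n ∈ N, (n * d * n⁻¹ * d) * (n * d * n⁻¹ * d) = 1 := by
    intro d hd n hn
    have h1 := comm_conj hD hc hDD hNtop hd hn
    have h2 := ri_sq hD (hD.conj_mem d hd n)
    have h3 := ri_sq hD hd
    calc n * d * n⁻¹ * d * (n * d * n⁻¹ * d)
        = n * d * n⁻¹ * (d * (n * d * n⁻¹)) * d := by group
      _ = n * d * n⁻¹ * (n * d * n⁻¹ * d) * d := by rw [h1]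
      _ = (n * d * n⁻¹ * (n * d * n⁻¹)) * (d * d) := by group
      _ = 1 := by rw [h2, h3, one_mul]
  have hcc : ∀ d ∈ D, ∀ n ∈ N, ∀ c ∈ N,
      Commute (n * d * n⁻¹ * d) (c * (n * d * n⁻¹ * d) * c⁻¹) := by
    intro d hd n hn c hc'
    have e : c * (n * d * n⁻¹ * d) * c⁻¹ = (c * n) * d * (c * n)⁻¹ * (c * d * c⁻¹) := by group
    rw [e]
    have hcn := N.mul_mem hc' hn
    exact ((hcomm d hd n hn (c * n) hcn).mul_right (hcomm d hd n hn c hc')).mul_left
      ((hcomm' d hd (c * n) hcn).mul_right (hcomm' d hd c hc'))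
  have hpair : ∀ d₁ ∈ D, ∀ n₁ ∈ N, ∀ d₂ ∈ D, ∀ n₂ ∈ N,
      ((n₁ * d₁ * n₁⁻¹ * d₁) * (n₂ * d₂ * n₂⁻¹ * d₂)) ^ 4 = 1 := by
    intro d₁ hd₁ n₁ hn₁ d₂ hd₂ n₂ hn₂
    exact four (hCsq d₁ hd₁ n₁ hn₁) (hCsq d₂ hd₂ n₂ hn₂)
      (hcc d₁ hd₁ n₁ hn₁ _ (hCN d₂ hd₂ n₂ hn₂)).eq
  have hconj : ∀ a ∈ ({y : G | ∃ d ∈ D, ∃ n ∈ N, y = n * d * n⁻¹ * d} : Set G), ∀ g : G,
      g * a * g⁻¹ ∈ ({y : G | ∃ d ∈ D, ∃ n ∈ N, y = n * d * n⁻¹ * d} : Set G) := by
    rintro a ⟨d, hd, n, hn, rfl⟩ g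
    refine ⟨g * d * g⁻¹, hD.conj_mem d hd g, g * n * g⁻¹, hN.conj_mem n hn g, ?_⟩
    group
  have hP : IsPGroup 2
      (Subgroup.closure ({y : G | ∃ d ∈ D, ∃ n ∈ N, y = n * d * n⁻¹ * d} : Set G)) := by
    apply Cfsg.Agent.Helper1.baer_suzuki 2 _ hconj
    rintro a ⟨d₁, hd₁, n₁, hn₁, rfl⟩ b ⟨d₂, hd₂, n₂, hn₂, rfl⟩
    refine dih2 (hCsq d₁ hd₁ n₁ hn₁) (hCsq d₂ hd₂ n₂ hn₂) (k := 2) ?_
    rw [show (2:ℕ) ^ 2 = 4 from rfl]
    exact hpair d₁ hd₁ n₁ hn₁ d₂ hd₂ n₂ hn₂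
  have hPn : (Subgroup.closure
      ({y : G | ∃ d ∈ D, ∃ n ∈ N, y = n * d * n⁻¹ * d} : Set G)).Normal :=
    Cfsg.Agent.Helper1.closure_normal_of_conj _ hconj
  have hle : Subgroup.closure ({y : G | ∃ d ∈ D, ∃ n ∈ N, y = n * d * n⁻¹ * d} : Set G)
      ≤ pCore 2 G := Cfsg.Agent.Helper1.le_pCore hPn hP
  intro n hn
  have hZ : ∀ g : G, ((g : G) : G ⧸ pCore 2 G) * ((n : G) : G ⧸ pCore 2 G) =
      ((n : G) : G ⧸ pCore 2 G) * ((g : G) : G ⧸ pCore 2 G) := by
    have hcl : Subgroup.closure D ≤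
        (Subgroup.centralizer ({((n : G) : G ⧸ pCore 2 G)} : Set (G ⧸ pCore 2 G))).comap
          (QuotientGroup.mk' (pCore 2 G)) := by
      rw [Subgroup.closure_le]
      intro d hd
      have key : ((d * n : G) : G ⧸ pCore 2 G) = ((n * d : G) : G ⧸ pCore 2 G) := by
        rw [QuotientGroup.eq]
        apply hle
        apply Subgroup.subset_closure
        refine ⟨d, hd, n⁻¹, N.inv_mem hn, ?_⟩
        rw [inv_inv, mul_inv_rev, inv_eq_of_mul_eq_one_left (ri_sq hD hd)]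
        group
      rw [SetLike.mem_coe, Subgroup.mem_comap, Subgroup.mem_centralizer_iff]
      intro h hh
      rw [Set.mem_singleton_iff] at hh
      rw [hh]
      show ((n : G) : G ⧸ pCore 2 G) * ((d : G) : G ⧸ pCore 2 G) =
        ((d : G) : G ⧸ pCore 2 G) * ((n : G) : G ⧸ pCore 2 G)
      rw [← QuotientGroup.mk_mul, ← QuotientGroup.mk_mul]
      exact key.symm
    intro g
    have hg : g ∈ Subgroup.closure D := by
      rw [hD.generates]; exact Subgroup.mem_top g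
    have h1 := hcl hg
    rw [Subgroup.mem_comap, Subgroup.mem_centralizer_iff] at h1
    exact (h1 _ (Set.mem_singleton _)).symm
  show (QuotientGroup.mk' (pCore 2 G)) n ∈ Subgroup.center (G ⧸ pCore 2 G)
  rw [Subgroup.mem_center_iff]
  intro g
  obtain ⟨g, rfl⟩ := QuotientGroup.mk_surjective g
  exact hZ g

theorem not_comm {G : Type*} [Group G] [Finite G] {D : Set G} (hD : IsRootInvolutionSet D)
    (hc : IsConnectedSet (OddAdj D) D) (hDD : (D ∩ commutingProducts D).Nonempty) :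
    ¬ ∀ u v : G ⧸ twoZCore G, u * v = v * u := by
  intro hab
  obtain ⟨q, hqD, a, ha, b, hb, hcomm, hne1, rfl⟩ := hDD
  have hane : a ≠ b := by
    intro h
    apply hne1
    rw [← h]
    exact ri_sq hD ha
  obtain ⟨x, hax⟩ : ∃ x, OddAdj D a x := by
    rcases Relation.ReflTransGen.cases_head (hc a ha b hb) with h | ⟨c, h1, -⟩
    · exact absurd h hane
    · exact ⟨c, h1⟩
  obtain ⟨-, hx, hne, hodd⟩ := hax
  have haa := ri_sq hD ha
  have hxx := ri_sq hD hx
  have hai : a⁻¹ = a := inv_eq_of_mul_eq_one_left haa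
  have hxi : x⁻¹ = x := inv_eq_of_mul_eq_one_left hxx
  have hodd' : Odd (orderOf (x * a)) := by rw [orderOf_swap]; exact hodd
  have h1 : (x * a) ^ 2 ∈ twoZCore G := by
    have h := hab ((a : G) : G ⧸ twoZCore G) ((x : G) : G ⧸ twoZCore G)
    rw [← QuotientGroup.mk_mul, ← QuotientGroup.mk_mul, QuotientGroup.eq, mul_inv_rev,
      hai, hxi] at h
    rw [pow_two]
    exact h
  have h2 : x * a ∈ twoZCore G := by
    obtain ⟨k, hk⟩ := hodd'
    have h3 : ((x * a) ^ 2) ^ (k + 1) = x * a := by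
      rw [← pow_mul, show 2 * (k + 1) = (2 * k + 1) + 1 by ring, pow_succ, ← hk,
        pow_orderOf_eq_one, one_mul]
    rw [← h3]
    exact (twoZCore G).pow_mem h1 _
  have h4 : ((x * a : G) : G ⧸ pCore 2 G) ∈ Subgroup.center (G ⧸ pCore 2 G) := h2
  rw [Subgroup.mem_center_iff] at h4
  have h5 := h4 ((a : G) : G ⧸ pCore 2 G)
  rw [← QuotientGroup.mk_mul, ← QuotientGroup.mk_mul, QuotientGroup.eq] at h5
  have e5 : (a * (x * a))⁻¹ * (x * a * a) = (a * x) ^ 2 := by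
    rw [mul_inv_rev, mul_inv_rev, hai, hxi, pow_two, mul_assoc x a a, haa, mul_one]
    group
  rw [e5] at h5
  obtain ⟨j, hj⟩ := (Cfsg.Agent.Helper1.pCore_isPGroup 2 G) ⟨(a * x) ^ 2, h5⟩
  have hj' : ((a * x) ^ 2) ^ (2 ^ j) = 1 := by
    have h6 := congrArg Subtype.val hj
    simpa using h6
  have h6 : a * x = 1 := by
    apply odd2 hodd (i := j + 1)
    rw [pow_succ', pow_mul]
    exact hj'
  apply hne
  have h7 := eq_inv_of_mul_eq_one_left h6
  rw [hxi] at h7
  exact h7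

/-- Let G be a finite group generated by a set D of root involutions whose odd-order-product graph is connected, with some product of two different commuting members of D again in D. Then the largest solvable normal subgroup of G is the preimage of the centre of G/O₂(G), and the quotient of G by it is a simple group. -/
theorem result {G : Type*} [Group G] [Finite G] {D : Set G} (hD : Cfsg.IsRootInvolutionSet D)
    (hc : Cfsg.IsConnectedSet (Cfsg.OddAdj D) D) (hDD : (D ∩ Cfsg.commutingProducts D).Nonempty) :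
    Cfsg.solvableRadical G = Cfsg.twoZCore G ∧ IsSimpleGroup (G ⧸ Cfsg.twoZCore G) := by
  have hnc := not_comm hD hc hDD
  have hnt : Nontrivial (G ⧸ twoZCore G) := by
    by_contra hnt
    rw [not_nontrivial_iff_subsingleton] at hnt
    exact hnc (fun u v => by rw [@Subsingleton.elim _ hnt u v])
  have hsimple : IsSimpleGroup (G ⧸ twoZCore G) := by
    refine { toNontrivial := hnt, eq_bot_or_eq_top_of_normal := ?_ }
    intro H hH
    by_cases hK : H.comap (QuotientGroup.mk' (twoZCore G)) = ⊤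
    · right
      rw [eq_top_iff]
      intro u _
      obtain ⟨u, rfl⟩ := QuotientGroup.mk_surjective u
      have hu : u ∈ H.comap (QuotientGroup.mk' (twoZCore G)) := by
        rw [hK]; exact Subgroup.mem_top u
      exact hu
    · left
      have : (H.comap (QuotientGroup.mk' (twoZCore G))).Normal := hH.comap _
      have hle := stepA hD hc hDD hK
      rw [eq_bot_iff]
      intro u hu
      obtain ⟨u, rfl⟩ := QuotientGroup.mk_surjective u
      rw [Subgroup.mem_bot, QuotientGroup.eq_one_iff]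
      exact hle hu
  refine ⟨?_, hsimple⟩
  apply le_antisymm
  · apply sSup_le
    rintro N ⟨hN, hsolv⟩
    have := hN
    by_cases hNtop : N = ⊤
    · exfalso
      subst hNtop
      have := hsolv
      have hG : Group.IsSolvable G :=
        Group.isSolvable_of_surjective (f := (⊤ : Subgroup G).subtype)
          (fun g => ⟨⟨g, Subgroup.mem_top g⟩, rfl⟩)
      have hQ : Group.IsSolvable (G ⧸ twoZCore G) := inferInstance
      exact hnc (IsSimpleGroup.comm_iff_isSolvable.mpr hQ)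
    · exact stepA hD hc hDD hNtop
  · apply le_sSup
    refine ⟨inferInstance, ?_⟩
    have : Fact (Nat.Prime 2) := ⟨Nat.prime_two⟩
    obtain ⟨g', hg'⟩ : ∃ g' : ↥(twoZCore G) →* ↥(Subgroup.center (G ⧸ pCore 2 G)),
        ∀ m : ↥(twoZCore G), ((g' m : G ⧸ pCore 2 G)) = ((m : G) : G ⧸ pCore 2 G) :=
      ⟨((QuotientGroup.mk' (pCore 2 G)).comp (twoZCore G).subtype).codRestrict
        (Subgroup.center (G ⧸ pCore 2 G)) (fun m => m.2), fun m => rfl⟩
    have hker : IsPGroup 2 g'.ker := by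
      intro k
      have hk1 : g' k.1 = 1 := MonoidHom.mem_ker.mp k.2
      have hk2 : (((k.1 : ↥(twoZCore G)) : G) : G ⧸ pCore 2 G) = 1 := by
        rw [← hg', hk1]; rfl
      have hk3 : ((k.1 : ↥(twoZCore G)) : G) ∈ pCore 2 G := (QuotientGroup.eq_one_iff _).mp hk2
      obtain ⟨j, hj⟩ := (Cfsg.Agent.Helper1.pCore_isPGroup 2 G) ⟨_, hk3⟩
      refine ⟨j, ?_⟩
      have hj' : ((k.1 : ↥(twoZCore G)) : G) ^ 2 ^ j = 1 := by
        have h6 := congrArg Subtype.val hj
        simpa using h6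
      apply Subtype.ext
      apply Subtype.ext
      simpa using hj'
    have : Group.IsNilpotent g'.ker := hker.isNilpotent
    have : Group.IsSolvable ↥(Subgroup.center (G ⧸ pCore 2 G)) :=
      Group.isSolvable_of_comm
        (fun a b => Subtype.ext (Subgroup.mem_center_iff.mp b.2 a.1))
    exact Group.isSolvable_of_ker_le_range g'.ker.subtype g'
      (le_of_eq (Subgroup.range_subtype _).symm)

end Cfsg.Agent.S5048
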