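import Cfsg.Statements.S5049

set_option autoImplicit false
open Cfsg

namespace Cfsg.Agent.S5049

open scoped commutatorElement

variable {G : Type*} [Group G]

theorem pCore_normal : (pCore 2 G).Normal :=
  Subgroup.sSup_normal _ (fun _ hH => hH.1)

theorem odd_eq_one {x : G} (hx : x ∈ pCore 2 G) (hodd : Odd (orderOf x)) : x = 1 := by
  haveI : Fact (Nat.Prime 2) := ⟨Nat.prime_two⟩
  obtain ⟨R⟩ := (inferInstance : Nonempty (Sylow 2 G))
  have hR : pCore 2 G ≤ R := sSup_le fun N hN => by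
    haveI := hN.1
    exact hN.2.le_sylow_of_normal R
  obtain ⟨k, hk⟩ := R.isPGroup' ⟨x, hR hx⟩
  have h1 : x ^ 2 ^ k = 1 := congrArg Subtype.val hk
  obtain ⟨j, -, hj⟩ := (Nat.dvd_prime_pow Nat.prime_two).1 (orderOf_dvd_of_pow_eq_one h1)
  rw [hj] at hodd
  rcases Nat.eq_zero_or_pos j with h0 | h0
  · rw [h0, pow_zero] at hj
    exact orderOf_eq_one_iff.1 hj
  · exfalso
    have h2 : Even (2 ^ j) := (Nat.even_pow.2 ⟨even_two, h0.ne'⟩)
    exact (Nat.not_even_iff_odd.2 hodd) h2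

theorem inv_self_of {D : Set G} (hD : IsOddTranspositionSet D) {d : G} (hd : d ∈ D) :
    d * d = 1 := by
  have h := hD.1.orderOf_eq d hd
  have h1 := pow_orderOf_eq_one d
  rw [h, pow_two] at h1
  exact h1

/-- Two members of `D` whose product squares into `O₂(G)` commute. -/
theorem comm_of_sq_mem {D : Set G} (hD : IsOddTranspositionSet D) {e d : G} (he : e ∈ D)
    (hd : d ∈ D) (h : (e * d) ^ 2 ∈ pCore 2 G) : e * d = d * e := by
  rcases hD.1.pair e he d hd with h1 | h1 | h1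
  · exact h1
  · have h2 : Odd (orderOf ((e * d) ^ 2)) := Odd.of_dvd_nat h1 (orderOf_pow_dvd 2)
    have h3 := odd_eq_one h h2
    have h4 : orderOf (e * d) ∣ 2 := orderOf_dvd_of_pow_eq_one h3
    have h5 : orderOf (e * d) = 1 := by
      rcases (Nat.dvd_prime Nat.prime_two).1 h4 with h6 | h6
      · exact h6
      · rw [h6] at h1; exact absurd h1 (by decide)
    have h6 : e * d = 1 := orderOf_eq_one_iff.1 h5
    have h7 : d * e = 1 := by
      have e1 : d * e = e⁻¹ * (e * d) * e := by group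
      rw [e1, h6]; group
    rw [h6, h7]
  · exact absurd h1.1 (hD.2 e he d hd)

/-- A member of `D` commutes with its conjugates under `O₂(G)`. -/
theorem comm_conj {D : Set G} (hD : IsOddTranspositionSet D) {d q : G} (hd : d ∈ D)
    (hq : q ∈ pCore 2 G) : d * (q * d * q⁻¹) = (q * d * q⁻¹) * d := by
  haveI := pCore_normal (G := G)
  apply comm_of_sq_mem hD hd (hD.1.conj_mem d hd q)
  apply Subgroup.pow_mem
  have hdd := inv_self_of hD hd
  have hdi : d⁻¹ = d := inv_eq_of_mul_eq_one_left hdd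
  have e1 : d * (q * d * q⁻¹) = (d * q * d⁻¹) * q⁻¹ := by
    rw [hdi]; group
  rw [e1]
  exact Subgroup.mul_mem _ (Subgroup.Normal.conj_mem inferInstance q hq d) (Subgroup.inv_mem _ hq)

theorem part1 {D : Set G} (hD : IsOddTranspositionSet D) {a : G} (ha : a ∈ D) {e : G}
    (he : e ∈ commutingMembers D a) :
    ∀ q ∈ ⁅pCore 2 G, Subgroup.zpowers a⁆, e * q = q * e := by
  haveI hn := pCore_normal (G := G)
  obtain ⟨heD, hea⟩ := he
  have haa := inv_self_of hD ha
  have hai : a⁻¹ = a := inv_eq_of_mul_eq_one_left haa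
  have hee := inv_self_of hD heD
  have hei : e⁻¹ = e := inv_eq_of_mul_eq_one_left hee
  have hconj : ∀ q ∈ pCore 2 G, e * (q * a * q⁻¹) = (q * a * q⁻¹) * e := by
    intro q hq
    apply comm_of_sq_mem hD heD (hD.1.conj_mem a ha q)
    have e1 : (e * (q * a * q⁻¹)) ^ 2
        = (e * q * e⁻¹) * (a * (e * q * e⁻¹)⁻¹ * a⁻¹) * (a * q * a⁻¹) * q⁻¹ := by
      have e2 : (e * q * e⁻¹) * (a * (e * q * e⁻¹)⁻¹ * a⁻¹) * (a * q * a⁻¹) * q⁻¹
          = e * q * (e⁻¹ * a * e) * q⁻¹ * e⁻¹ * q * a⁻¹ * q⁻¹ := by group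
      have e3 : e⁻¹ * a * e = a := by
        rw [mul_assoc, ← hea, ← mul_assoc, inv_mul_cancel, one_mul]
      rw [e2, e3, hei, hai, pow_two]
      group
    rw [e1]
    have hu : e * q * e⁻¹ ∈ pCore 2 G := hn.conj_mem q hq e
    exact Subgroup.mul_mem _ (Subgroup.mul_mem _ (Subgroup.mul_mem _ hu
      (hn.conj_mem _ (Subgroup.inv_mem _ hu) a)) (hn.conj_mem q hq a)) (Subgroup.inv_mem _ hq)
  have hle : ⁅pCore 2 G, Subgroup.zpowers a⁆ ≤ Subgroup.centralizer {e} := by
    rw [Subgroup.commutator_le]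
    intro q hq g hg
    obtain ⟨k, rfl⟩ := Subgroup.mem_zpowers_iff.1 hg
    have h1 : a ^ k ∈ Subgroup.centralizer {e} := by
      refine Subgroup.zpow_mem _ ?_ k
      rw [Subgroup.mem_centralizer_iff]
      intro h hh
      rw [Set.mem_singleton_iff.1 hh]; exact hea
    have h2 : q * a ^ k * q⁻¹ ∈ Subgroup.centralizer {e} := by
      rw [← conj_zpow]
      refine Subgroup.zpow_mem _ ?_ k
      rw [Subgroup.mem_centralizer_iff]
      intro h hh
      rw [Set.mem_singleton_iff.1 hh]; exact hconj q hq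
    rw [commutatorElement_def]
    exact Subgroup.mul_mem _ h2 (Subgroup.inv_mem _ h1)
  intro q hq
  have h3 := hle hq
  rw [Subgroup.mem_centralizer_iff] at h3
  exact h3 e rfl

theorem part2 {D : Set G} (hD : IsOddTranspositionSet D) {a : G} (ha : a ∈ D) {b : G}
    (hb : b ∈ oddPartners D a) {q : G} (hq : q ∈ pCore 2 G)
    (hqx : (a * b) * q = q * (a * b)) : a * q = q * a ∧ b * q = q * b := by
  obtain ⟨hbD, hba, hodd⟩ := hb
  have haa := inv_self_of hD ha
  have hai : a⁻¹ = a := inv_eq_of_mul_eq_one_left haa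
  have hbb := inv_self_of hD hbD
  have hbi : b⁻¹ = b := inv_eq_of_mul_eq_one_left hbb
  have ha'D : q * a * q⁻¹ ∈ D := hD.1.conj_mem a ha q
  have hb'D : q * b * q⁻¹ ∈ D := hD.1.conj_mem b hbD q
  have hcomm := comm_conj hD ha hq
  have ha'a' := inv_self_of hD ha'D
  have hb'b' := inv_self_of hD hb'D
  -- t = a * (q a q⁻¹)
  have ht2 : (a * (q * a * q⁻¹)) * (a * (q * a * q⁻¹)) = 1 := by
    have e1 : (a * (q * a * q⁻¹)) * (a * (q * a * q⁻¹))
        = a * ((q * a * q⁻¹) * a) * (q * a * q⁻¹) := by group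
    rw [e1, ← hcomm]
    have e2 : a * (a * (q * a * q⁻¹)) * (q * a * q⁻¹)
        = (a * a) * ((q * a * q⁻¹) * (q * a * q⁻¹)) := by group
    rw [e2, haa, ha'a', one_mul]
  have hqx' : q⁻¹ * (a * b) = (a * b) * q⁻¹ := by
    have e1 : q⁻¹ * (a * b) = q⁻¹ * ((a * b) * q) * q⁻¹ := by group
    rw [e1, hqx]; group
  have hqy : (b * a) * q = q * (b * a) := by
    have e1 : b * a = (a * b)⁻¹ := by rw [mul_inv_rev, hai, hbi]
    rw [e1]
    have e2 : (a * b)⁻¹ * q = (a * b)⁻¹ * (q * (a * b)) * (a * b)⁻¹ := by group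
    rw [e2, ← hqx]; group
  have key1 : a * (q * b * q⁻¹) = (a * (q * a * q⁻¹)) * (a * b) := by
    have e1 : (a * (q * a * q⁻¹)) * (a * b) = a * q * a * (q⁻¹ * (a * b)) := by group
    rw [e1, hqx']
    have e2 : a * q * a * (a * b * q⁻¹) = a * q * (a * a) * b * q⁻¹ := by group
    rw [e2, haa]; group
  have key2 : a * (q * b * q⁻¹) = (a * b) * (a * (q * a * q⁻¹)) := by
    have e1 : (a * b) * (a * (q * a * q⁻¹)) = a * ((b * a) * q) * a * q⁻¹ := by group
    rw [e1, hqy]
    have e2 : a * (q * (b * a)) * a * q⁻¹ = a * q * b * (a * a) * q⁻¹ := by group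
    rw [e2, haa]; group
  have hcm : Commute (a * (q * a * q⁻¹)) (a * b) := by
    show (a * (q * a * q⁻¹)) * (a * b) = (a * b) * (a * (q * a * q⁻¹))
    rw [← key1, ← key2]
  have ht1 : a * (q * a * q⁻¹) = 1 := by
    rcases hD.1.pair a ha _ hb'D with h1 | h1 | h1
    · exfalso
      have h2 : (a * (q * b * q⁻¹)) * (a * (q * b * q⁻¹)) = 1 := by
        have e1 : (a * (q * b * q⁻¹)) * (a * (q * b * q⁻¹))
            = a * ((q * b * q⁻¹) * a) * (q * b * q⁻¹) := by group
        rw [e1, ← h1]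
        have e2 : a * (a * (q * b * q⁻¹)) * (q * b * q⁻¹)
            = (a * a) * ((q * b * q⁻¹) * (q * b * q⁻¹)) := by group
        rw [e2, haa, hb'b', one_mul]
      have h3 : (a * b) ^ 2 = 1 := by
        have e1 : (a * (q * b * q⁻¹)) * (a * (q * b * q⁻¹))
            = (a * (q * a * q⁻¹)) * ((a * b) * (a * b)) * (a * (q * a * q⁻¹)) := by
          nth_rewrite 1 [key1]
          nth_rewrite 1 [key2]
          group
        rw [e1] at h2
        have e2 : (a * b) * (a * b)
            = (a * (q * a * q⁻¹))⁻¹ * ((a * (q * a * q⁻¹)) * ((a * b) * (a * b))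
              * (a * (q * a * q⁻¹))) * (a * (q * a * q⁻¹))⁻¹ := by group
        rw [pow_two, e2, h2, mul_one, ← mul_inv_rev, ht2, inv_one]
      have h4 : orderOf (a * b) ∣ 2 := orderOf_dvd_of_pow_eq_one h3
      have h5 : orderOf (a * b) = 1 := by
        rcases (Nat.dvd_prime Nat.prime_two).1 h4 with h6 | h6
        · exact h6
        · rw [h6] at hodd; exact absurd hodd (by decide)
      have h6 : a * b = 1 := orderOf_eq_one_iff.1 h5
      exact hba (by rw [eq_inv_of_mul_eq_one_right h6, hai])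
    · obtain ⟨k, hk⟩ := Odd.mul h1 hodd
      have h2 : (a * (q * b * q⁻¹)) ^ (orderOf (a * (q * b * q⁻¹)) * orderOf (a * b)) = 1 := by
        rw [pow_mul, pow_orderOf_eq_one, one_pow]
      rw [key1, hcm.mul_pow] at h2
      have h3 : (a * b) ^ (orderOf ((a * (q * a * q⁻¹)) * (a * b)) * orderOf (a * b)) = 1 := by
        rw [mul_comm, pow_mul, pow_orderOf_eq_one, one_pow]
      rw [← key1] at h3
      rw [← key1, h3, mul_one, hk, pow_succ, pow_mul, pow_two, ht2, one_pow, one_mul] at h2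
      exact h2
    · exact absurd h1.1 (hD.2 a ha _ hb'D)
  have haq : a * q = q * a := by
    have e1 : q * a * q⁻¹ = a⁻¹ := (inv_eq_of_mul_eq_one_right ht1).symm
    rw [hai] at e1
    have e2 : q * a = (q * a * q⁻¹) * q := by group
    rw [e2, e1]
  refine ⟨haq, ?_⟩
  have e1 : b = a * (a * b) := by rw [← mul_assoc, haa, one_mul]
  have e2 : b * q = a * ((a * b) * q) := by
    nth_rewrite 1 [e1]; group
  rw [e2, hqx, ← mul_assoc, haq, mul_assoc, ← e1]

/-- Let G be a finite group generated by a set D of odd transpositions (root involutions with no product of order 4), Q = O₂(G), and for a ∈ D let Q_a be the commutator subgroup of Q with a. Then every member of D commuting with a centralizes Q_a; and for b ∈ D with ab of odd order greater than 1, the centralizer of ab in Q is the intersection of the centralizers of a and b in Q. -/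
theorem result {G : Type*} [Group G] [Finite G] {D : Set G} (hD : Cfsg.IsOddTranspositionSet D) {a : G} (ha : a ∈ D) :
    (∀ e ∈ Cfsg.commutingMembers D a, ∀ q ∈ ⁅Cfsg.pCore 2 G, Subgroup.zpowers a⁆, e * q = q * e) ∧
    (∀ b ∈ Cfsg.oddPartners D a,
      Cfsg.pCore 2 G ⊓ Subgroup.centralizer {a * b} = Cfsg.pCore 2 G ⊓ Subgroup.centralizer {a} ⊓ Subgroup.centralizer {b}) := by
  refine ⟨fun e he => part1 hD ha he, fun b hb => ?_⟩
  ext q
  simp only [Subgroup.mem_inf, Subgroup.mem_centralizer_iff, Set.mem_singleton_iff, forall_eq]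
  constructor
  · rintro ⟨hq, hqx⟩
    obtain ⟨h1, h2⟩ := part2 hD ha hb hq hqx
    exact ⟨⟨hq, h1⟩, h2⟩
  · rintro ⟨⟨hq, h1⟩, h2⟩
    refine ⟨hq, ?_⟩
    rw [mul_assoc, h2, ← mul_assoc, h1, mul_assoc]

end Cfsg.Agent.S5049
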