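import Cfsg.Statements.S5057

set_option autoImplicit false
open Cfsg

namespace Cfsg.Agent.S5057

open Equiv

def a0 : Perm (Fin 6) := swap 0 1 * swap 2 3

set_option maxRecDepth 1000000 in
theorem F1 : ∀ g : Perm (Fin 6), Perm.sign g = 1 → (g ^ 3 = 1 ∨ g ^ 4 = 1 ∨ g ^ 5 = 1) := by
  decide +kernel

set_option maxRecDepth 1000000 in
theorem F2 : ∀ b : Perm (Fin 6), Perm.sign b = 1 → b ≠ 1 → b ^ 2 = 1 →
    ∃ g : Perm (Fin 6), Perm.sign g = 1 ∧ b = g * a0 * g⁻¹ := by
  decide +kernel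

set_option maxRecDepth 1000000 in
theorem F3 : ∀ g : Perm (Fin 6), Perm.sign g = 1 →
    ∃ a : Perm (Fin 6), Perm.sign a = 1 ∧ a ≠ 1 ∧ a ^ 2 = 1 ∧ a * g ≠ 1 ∧ (a * g) ^ 2 = 1 := by
  decide +kernel

theorem inv_iff (d : ↥(alternatingGroup (Fin 6))) :
    orderOf d = 2 ↔ (d : Perm (Fin 6)) ≠ 1 ∧ (d : Perm (Fin 6)) ^ 2 = 1 := by
  rw [← Subgroup.orderOf_coe, orderOf_eq_prime_iff]
  exact and_comm

theorem sign_eq (d : ↥(alternatingGroup (Fin 6))) : Perm.sign (d : Perm (Fin 6)) = 1 :=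
  Perm.mem_alternatingGroup.1 d.2

theorem pow_cases (g : ↥(alternatingGroup (Fin 6))) : g ^ 3 = 1 ∨ g ^ 4 = 1 ∨ g ^ 5 = 1 := by
  rcases F1 g (sign_eq g) with h | h | h
  · exact Or.inl (Subtype.ext h)
  · exact Or.inr (Or.inl (Subtype.ext h))
  · exact Or.inr (Or.inr (Subtype.ext h))

theorem order_le (g : ↥(alternatingGroup (Fin 6))) : orderOf g ≤ 5 := by
  rcases pow_cases g with h | h | h
  · exact (Nat.le_of_dvd (by norm_num) (orderOf_dvd_of_pow_eq_one h)).trans (by norm_num)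
  · exact (Nat.le_of_dvd (by norm_num) (orderOf_dvd_of_pow_eq_one h)).trans (by norm_num)
  · exact Nat.le_of_dvd (by norm_num) (orderOf_dvd_of_pow_eq_one h)

theorem pair (a b : ↥(alternatingGroup (Fin 6))) (ha : orderOf a = 2) (hb : orderOf b = 2) :
    a * b = b * a ∨ Odd (orderOf (a * b)) ∨
      (orderOf (a * b) = 4 ∧ orderOf ((a * b) ^ 2) = 2) := by
  have ha2 : a ^ 2 = 1 := by rw [← ha]; exact pow_orderOf_eq_one a
  have hb2 : b ^ 2 = 1 := by rw [← hb]; exact pow_orderOf_eq_one b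
  rcases pow_cases (a * b) with h | h | h
  · exact Or.inr (Or.inl (Odd.of_dvd_nat (by decide) (orderOf_dvd_of_pow_eq_one h)))
  · have h1 : orderOf (a * b) ∣ 2 ^ 2 := orderOf_dvd_of_pow_eq_one h
    obtain ⟨m, hm, hm'⟩ := (Nat.dvd_prime_pow Nat.prime_two).1 h1
    interval_cases m
    · exact Or.inr (Or.inl (by rw [hm']; decide))
    · left
      have h2 : (a * b) ^ 2 = 1 := by
        have h0 := pow_orderOf_eq_one (a * b)
        rw [hm', pow_one] at h0
        exact h0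
      have h3 : a * b = a * (a * b) ^ 2 * b := by rw [h2, mul_one]
      have h4 : a * (a * b) ^ 2 * b = a ^ 2 * (b * a) * b ^ 2 := by
        rw [pow_two, pow_two, pow_two]; group
      rw [h3, h4, ha2, hb2, one_mul, mul_one]
    · right; right
      refine ⟨hm', ?_⟩
      rw [orderOf_pow' _ (by norm_num), hm']
      norm_num
  · exact Or.inr (Or.inl (Odd.of_dvd_nat (by decide) (orderOf_dvd_of_pow_eq_one h)))

theorem conj_a0 (b : ↥(alternatingGroup (Fin 6))) (hb : orderOf b = 2) :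
    ∃ g : ↥(alternatingGroup (Fin 6)), (b : Perm (Fin 6)) = g * a0 * (g : Perm (Fin 6))⁻¹ := by
  obtain ⟨hb1, hb2⟩ := (inv_iff b).1 hb
  obtain ⟨g, hg, hbg⟩ := F2 b (sign_eq b) hb1 hb2
  exact ⟨⟨g, Perm.mem_alternatingGroup.2 hg⟩, hbg⟩

/-- The involutions of the alternating group of degree 6 form a class of root involutions (a single conjugacy class of involutions generating the group, any two of which commute, have product of odd order, or have product of order 4 whose square is again an involution of the class), and the product of any two of them has order at most 5. -/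
theorem result :
    Cfsg.IsRootInvolutionClass {g : ↥(alternatingGroup (Fin 6)) | orderOf g = 2} ∧
    ∀ d ∈ {g : ↥(alternatingGroup (Fin 6)) | orderOf g = 2}, ∀ e ∈ {g : ↥(alternatingGroup (Fin 6)) | orderOf g = 2},
      orderOf (d * e) ≤ 5 := by
  refine ⟨⟨⟨fun d hd => hd, ?_, ?_, ?_⟩, ?_, ?_⟩, fun d _ e _ => order_le (d * e)⟩
  · rw [eq_top_iff]
    intro g _
    obtain ⟨a, ha, ha1, ha2, hag1, hag2⟩ := F3 g (sign_eq g)
    have hA : (⟨a, Perm.mem_alternatingGroup.2 ha⟩ : ↥(alternatingGroup (Fin 6)))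
        ∈ {g : ↥(alternatingGroup (Fin 6)) | orderOf g = 2} :=
      (inv_iff _).2 ⟨ha1, ha2⟩
    have hB : (⟨a, Perm.mem_alternatingGroup.2 ha⟩ : ↥(alternatingGroup (Fin 6))) * g
        ∈ {g : ↥(alternatingGroup (Fin 6)) | orderOf g = 2} :=
      (inv_iff _).2 ⟨hag1, hag2⟩
    have hg : g = (⟨a, Perm.mem_alternatingGroup.2 ha⟩ : ↥(alternatingGroup (Fin 6)))
        * ((⟨a, Perm.mem_alternatingGroup.2 ha⟩ : ↥(alternatingGroup (Fin 6))) * g) := by
      apply Subtype.ext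
      show (g : Perm (Fin 6)) = a * (a * g)
      rw [← mul_assoc, ← pow_two, ha2, one_mul]
    rw [hg]
    exact Subgroup.mul_mem _ (Subgroup.subset_closure hA) (Subgroup.subset_closure hB)
  · intro d hd g
    show orderOf (g * d * g⁻¹) = 2
    have h1 := MulEquiv.orderOf_eq (MulAut.conj g) d
    rw [MulAut.conj_apply] at h1
    rw [h1]; exact hd
  · intro a ha b hb
    rcases pair a b ha hb with h | h | h
    · exact Or.inl h
    · exact Or.inr (Or.inl h)
    · exact Or.inr (Or.inr h)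
  · refine ⟨⟨a0, Perm.mem_alternatingGroup.2 (by decide)⟩, ?_⟩
    show orderOf (⟨a0, _⟩ : ↥(alternatingGroup (Fin 6))) = 2
    rw [inv_iff]
    exact ⟨by decide, by decide⟩
  · intro a ha b hb
    obtain ⟨ga, hga⟩ := conj_a0 a ha
    obtain ⟨gb, hgb⟩ := conj_a0 b hb
    refine ⟨gb * ga⁻¹, Subtype.ext ?_⟩
    show (b : Perm (Fin 6)) = gb * (ga : Perm (Fin 6))⁻¹ * a * (gb * (ga : Perm (Fin 6))⁻¹)⁻¹
    rw [hgb, hga]
    group

end Cfsg.Agent.S5057
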