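import Cfsg.Statements.S5059

set_option autoImplicit false
universe u
open Cfsg

namespace Cfsg.Agent.S5059

variable {k : Type*} [Field k] {M : Type*} [AddCommGroup M] [Module k M]

theorem range_le_ker {N : M →ₗ[k] M} (h : N * N = 0) : LinearMap.range N ≤ LinearMap.ker N := by
  rintro _ ⟨y, rfl⟩
  rw [LinearMap.mem_ker]
  have h1 := congrArg (fun f : M →ₗ[k] M => f y) h
  exact h1

theorem mul_zero_of {N N' R : M →ₗ[k] M} (h : N * N = 0)
    (hr : LinearMap.range N = LinearMap.range R) (hr' : LinearMap.range N' = LinearMap.range R) :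
    N * N' = 0 := by
  apply LinearMap.ext
  intro m
  show N (N' m) = 0
  have h1 : N' m ∈ LinearMap.range N := by rw [hr, ← hr']; exact ⟨m, rfl⟩
  exact LinearMap.mem_ker.1 (range_le_ker h h1)

/-- The unit `1 + c N` for `N² = 0`. -/
def unitOf (N : M →ₗ[k] M) (h : N * N = 0) (c : k) : LinearMap.GeneralLinearGroup k M where
  val := 1 + c • N
  inv := 1 - c • N
  val_inv := by
    have h1 : (c • N) * (c • N) = 0 := by rw [smul_mul_smul_comm, h, smul_zero]
    have h2 : ∀ A : M →ₗ[k] M, (1 + A) * (1 - A) = 1 - A * A := fun A => by noncomm_ring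
    rw [h2, h1, sub_zero]
  inv_val := by
    have h1 : (c • N) * (c • N) = 0 := by rw [smul_mul_smul_comm, h, smul_zero]
    have h2 : ∀ A : M →ₗ[k] M, (1 - A) * (1 + A) = 1 - A * A := fun A => by noncomm_ring
    rw [h2, h1, sub_zero]

theorem one_add_pow {N : M →ₗ[k] M} (h : N * N = 0) (m : ℕ) :
    (1 + N) ^ m = 1 + (m : k) • N := by
  induction m with
  | zero => rw [pow_zero, Nat.cast_zero, zero_smul, add_zero]
  | succ m ih =>
    rw [pow_succ, ih]
    have h1 : (1 + (m : k) • N) * (1 + N) = 1 + N + (m : k) • N + (m : k) • (N * N) := by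
      rw [add_mul, one_mul, mul_add, mul_one, smul_mul_assoc]
      abel
    rw [h1, h, smul_zero, add_zero, Nat.cast_succ, add_smul, one_smul]
    abel

variable [FiniteDimensional k M]

theorem inv_mem_class {G : Subgroup (LinearMap.GeneralLinearGroup k M)}
    {σ τ : LinearMap.GeneralLinearGroup k M} (hτ : τ ∈ sameActionClass G σ) :
    τ⁻¹ ∈ sameActionClass G σ := by
  obtain ⟨⟨⟨hτG, ⟨hτq, hτne⟩, hτs⟩, hτmin⟩, hτk, hτr⟩ := hτ
  have hinv : ((τ⁻¹ : LinearMap.GeneralLinearGroup k M) : M →ₗ[k] M) - 1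
      = -((τ : M →ₗ[k] M) - 1) := by
    have h1 : (τ : M →ₗ[k] M) * (1 - ((τ : M →ₗ[k] M) - 1)) = 1 := by
      have h2 : (τ : M →ₗ[k] M) * (1 - ((τ : M →ₗ[k] M) - 1))
          = 1 - ((τ : M →ₗ[k] M) - 1) * ((τ : M →ₗ[k] M) - 1) := by noncomm_ring
      rw [h2, hτq, sub_zero]
    rw [Units.inv_eq_of_mul_eq_one_right h1]
    abel
  refine ⟨⟨⟨G.inv_mem hτG, ⟨?_, ?_⟩, ?_⟩, ?_⟩, ?_, ?_⟩
  · rw [hinv, neg_mul_neg, hτq]
  · rw [hinv]
    exact neg_ne_zero.2 hτne
  · rintro ρ ⟨c, hc⟩
    apply hτs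
    refine ⟨-c, ?_⟩
    rw [hc, hinv, smul_neg, neg_smul]
  · intro τ'' hτ''
    have h1 : commutatorRank τ⁻¹ = commutatorRank τ := by
      unfold commutatorRank
      rw [hinv, LinearMap.range_neg]
    rw [h1]
    exact hτmin τ'' hτ''
  · rw [hinv, LinearMap.ker_neg, hτk]
  · rw [hinv, LinearMap.range_neg, hτr]

theorem mul_mem_class {G : Subgroup (LinearMap.GeneralLinearGroup k M)}
    {σ τ τ' : LinearMap.GeneralLinearGroup k M} (hσ : σ ∈ minimalQuadraticElements G)
    (hτ : τ ∈ sameActionClass G σ) (hτ' : τ' ∈ sameActionClass G σ) (hne : τ * τ' ≠ 1) :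
    τ * τ' ∈ sameActionClass G σ := by
  obtain ⟨⟨⟨hτG, ⟨hτq, hτne⟩, hτs⟩, hτmin⟩, hτk, hτr⟩ := hτ
  obtain ⟨⟨⟨hτG', ⟨hτq', hτne'⟩, hτs'⟩, hτmin'⟩, hτk', hτr'⟩ := hτ'
  have h1 := mul_zero_of hτq hτr hτr'
  have h2 := mul_zero_of hτq' hτr' hτr
  have hprod : ((τ * τ' : LinearMap.GeneralLinearGroup k M) : M →ₗ[k] M) - 1
      = ((τ : M →ₗ[k] M) - 1) + ((τ' : M →ₗ[k] M) - 1) := by
    have h3 : (τ : M →ₗ[k] M) * (τ' : M →ₗ[k] M) - 1
        = ((τ : M →ₗ[k] M) - 1) + ((τ' : M →ₗ[k] M) - 1)
          + ((τ : M →ₗ[k] M) - 1) * ((τ' : M →ₗ[k] M) - 1) := by noncomm_ring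
    rw [Units.val_mul, h3, h1, add_zero]
  have hne' : ((τ : M →ₗ[k] M) - 1) + ((τ' : M →ₗ[k] M) - 1) ≠ 0 := by
    intro h0
    apply hne
    apply Units.ext
    have h4 := hprod
    rw [h0, sub_eq_zero] at h4
    rw [h4]; rfl
  have hq : τ * τ' ∈ quadraticElements G := by
    refine ⟨G.mul_mem hτG hτG', ⟨?_, ?_⟩, ?_⟩
    · rw [hprod, add_mul, mul_add, mul_add, hτq, hτq', h1, h2]
      simp
    · rw [hprod]; exact hne'
    · rintro ρ ⟨c, hc⟩
      have h5 : ρ = unitOf _ hτq c * unitOf _ hτq' c := by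
        apply Units.ext
        rw [hc, hprod, Units.val_mul]
        show 1 + c • (((τ : M →ₗ[k] M) - 1) + ((τ' : M →ₗ[k] M) - 1))
          = (1 + c • ((τ : M →ₗ[k] M) - 1)) * (1 + c • ((τ' : M →ₗ[k] M) - 1))
        have h6 : (c • ((τ : M →ₗ[k] M) - 1)) * (c • ((τ' : M →ₗ[k] M) - 1)) = 0 := by
          rw [smul_mul_smul_comm, h1, smul_zero]
        have h7 : ∀ A B : M →ₗ[k] M, (1 + A) * (1 + B) = 1 + A + B + A * B :=
          fun A B => by noncomm_ring
        rw [h7, h6, add_zero, smul_add, add_assoc]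
      rw [h5]
      exact G.mul_mem (hτs ⟨c, rfl⟩) (hτs' ⟨c, rfl⟩)
  have hle : LinearMap.range (((τ * τ' : LinearMap.GeneralLinearGroup k M) : M →ₗ[k] M) - 1)
      ≤ LinearMap.range ((σ : M →ₗ[k] M) - 1) := by
    rw [hprod]
    rintro _ ⟨m, rfl⟩
    rw [LinearMap.add_apply]
    refine Submodule.add_mem _ ?_ ?_
    · rw [← hτr]; exact ⟨m, rfl⟩
    · rw [← hτr']; exact ⟨m, rfl⟩
  have hσmin := hσ.2 (τ * τ') hq
  have heq : LinearMap.range (((τ * τ' : LinearMap.GeneralLinearGroup k M) : M →ₗ[k] M) - 1)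
      = LinearMap.range ((σ : M →ₗ[k] M) - 1) :=
    Submodule.eq_of_le_of_finrank_le hle hσmin
  refine ⟨⟨hq, ?_⟩, ?_, heq⟩
  · intro τ'' hτ''
    have h8 : commutatorRank (τ * τ') = commutatorRank σ := by
      unfold commutatorRank
      rw [heq]
    rw [h8]
    exact hσ.2 τ'' hτ''
  · have hkle : LinearMap.ker ((σ : M →ₗ[k] M) - 1)
        ≤ LinearMap.ker (((τ * τ' : LinearMap.GeneralLinearGroup k M) : M →ₗ[k] M) - 1) := by
      intro m hm
      rw [hprod, LinearMap.mem_ker, LinearMap.add_apply]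
      have e1 : ((τ : M →ₗ[k] M) - 1) m = 0 := by
        rw [← LinearMap.mem_ker, hτk]; exact hm
      have e2 : ((τ' : M →ₗ[k] M) - 1) m = 0 := by
        rw [← LinearMap.mem_ker, hτk']; exact hm
      rw [e1, e2, add_zero]
    have hf1 := LinearMap.finrank_range_add_finrank_ker ((σ : M →ₗ[k] M) - 1)
    have hf2 := LinearMap.finrank_range_add_finrank_ker
      (((τ * τ' : LinearMap.GeneralLinearGroup k M) : M →ₗ[k] M) - 1)
    rw [heq] at hf2
    exact (Submodule.eq_of_le_of_finrank_eq hkle (by omega)).symm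

theorem subgroup_eq {G : Subgroup (LinearMap.GeneralLinearGroup k M)}
    {σ : LinearMap.GeneralLinearGroup k M} (hσ : σ ∈ minimalQuadraticElements G) :
    (sameActionSubgroup G σ : Set (LinearMap.GeneralLinearGroup k M))
      = sameActionClass G σ ∪ {1} := by
  ext x
  constructor
  · intro hx
    have hx' : x ∈ Subgroup.closure (sameActionClass G σ) := hx
    refine Subgroup.closure_induction (p := fun x _ => x ∈ sameActionClass G σ ∪ {1})
      ?_ ?_ ?_ ?_ hx'
    · intro y hy; exact Or.inl hy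
    · exact Or.inr rfl
    · intro y z _ _ hy hz
      rcases hy with hy | hy
      · rcases hz with hz | hz
        · by_cases h1 : y * z = 1
          · exact Or.inr h1
          · exact Or.inl (mul_mem_class hσ hy hz h1)
        · have hz' : z = 1 := hz
          rw [hz', mul_one]; exact Or.inl hy
      · have hy' : y = 1 := hy
        rw [hy', one_mul]; exact hz
    · intro y _ hy
      rcases hy with hy | hy
      · exact Or.inl (inv_mem_class hy)
      · have hy' : y = 1 := hy
        rw [hy', inv_one]; exact Or.inr rfl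
  · rintro (hx | hx)
    · exact Subgroup.subset_closure hx
    · have hx' : x = 1 := hx
      rw [hx']; exact Subgroup.one_mem _

/-- Let k be a field of characteristic not 2 with k not of order 3, M a finite-dimensional k-vector space and G ≤ GL(M) such that (G, M) is a quadratic pair (M irreducible for G, and G generated by its quadratically acting elements σ whose scalar family 1 + c(σ − 1), c ∈ k, lies in G). Write 𝒬_d for the quadratic elements of G of minimal commutator rank, E(σ) for the subgroup generated by the members of 𝒬_d with the same fixed space and commutator space as σ, and Σ for the set of these subgroups. Then for σ ∈ 𝒬_d the subgroup E(σ) consists exactly of those members together with the identity, it is abelian, and if k has prime characteristic p every element of E(σ) has order dividing p. -/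
theorem result {k : Type u} [Field k] (hk2 : ringChar k ≠ 2) (hk3 : Nat.card k ≠ 3)
    {M : Type u} [AddCommGroup M] [Module k M] [FiniteDimensional k M]
    {G : Subgroup (LinearMap.GeneralLinearGroup k M)} (hG : Cfsg.IsQuadraticPair G)
    {σ : LinearMap.GeneralLinearGroup k M} (hσ : σ ∈ Cfsg.minimalQuadraticElements G) :
    (Cfsg.sameActionSubgroup G σ : Set (LinearMap.GeneralLinearGroup k M)) = Cfsg.sameActionClass G σ ∪ {1} ∧
    IsMulCommutative ↥(Cfsg.sameActionSubgroup G σ) ∧
    (∀ p : ℕ, p.Prime → ringChar k = p → ∀ x ∈ Cfsg.sameActionSubgroup G σ, x ^ p = 1) := by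
  have hmem : ∀ x ∈ sameActionSubgroup G σ, x ∈ sameActionClass G σ ∪ {1} := by
    intro x hx
    rw [← subgroup_eq hσ]
    exact hx
  refine ⟨subgroup_eq hσ, ⟨⟨fun a b => Subtype.ext ?_⟩⟩, ?_⟩
  · show (a : LinearMap.GeneralLinearGroup k M) * b = b * a
    rcases hmem a.1 a.2 with ha | ha
    · rcases hmem b.1 b.2 with hb | hb
      · have h1 := mul_zero_of ha.1.1.2.1.1 ha.2.2 hb.2.2
        have h2 := mul_zero_of hb.1.1.2.1.1 hb.2.2 ha.2.2
        apply Units.ext
        rw [Units.val_mul, Units.val_mul]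
        have h3 : ((a : LinearMap.GeneralLinearGroup k M) : M →ₗ[k] M)
              * ((b : LinearMap.GeneralLinearGroup k M) : M →ₗ[k] M)
            - ((b : LinearMap.GeneralLinearGroup k M) : M →ₗ[k] M)
              * ((a : LinearMap.GeneralLinearGroup k M) : M →ₗ[k] M)
            = (((a : LinearMap.GeneralLinearGroup k M) : M →ₗ[k] M) - 1)
                * (((b : LinearMap.GeneralLinearGroup k M) : M →ₗ[k] M) - 1)
              - (((b : LinearMap.GeneralLinearGroup k M) : M →ₗ[k] M) - 1)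
                * (((a : LinearMap.GeneralLinearGroup k M) : M →ₗ[k] M) - 1) := by noncomm_ring
        rw [h1, h2, sub_zero] at h3
        exact sub_eq_zero.1 h3
      · have hb' : (b : LinearMap.GeneralLinearGroup k M) = 1 := hb
        rw [hb', mul_one, one_mul]
    · have ha' : (a : LinearMap.GeneralLinearGroup k M) = 1 := ha
      rw [ha', mul_one, one_mul]
  · intro p _ hchar x hx
    subst hchar
    rcases hmem x hx with hx | hx
    · apply Units.ext
      rw [Units.val_pow_eq_pow_val, Units.val_one]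
      have h1 : (x : M →ₗ[k] M) = 1 + ((x : M →ₗ[k] M) - 1) := by abel
      rw [h1, one_add_pow hx.1.1.2.1.1, CharP.cast_eq_zero k (ringChar k), zero_smul, add_zero]
    · have hx' : x = 1 := hx
      rw [hx', one_pow]

end Cfsg.Agent.S5059
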