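import Cfsg.Statements.S5067

set_option autoImplicit false
open Cfsg

namespace Cfsg.Agent.S5067

open scoped commutatorElement

/-- For an abelian subgroup `A`, the subgroup `A ⊔ [P,P]` has commutator subgroup inside `γ₃(P)`. -/
theorem comm_sup_le {P : Type*} [Group P] {A : Subgroup P} (hA : IsMulCommutative ↥A) :
    ⁅A ⊔ (⊤ : Subgroup P).lowerCentralSeries 1, A ⊔ (⊤ : Subgroup P).lowerCentralSeries 1⁆
      ≤ (⊤ : Subgroup P).lowerCentralSeries 2 := by
  haveI hLn : ((⊤ : Subgroup P).lowerCentralSeries 2).Normal := inferInstance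
  have hker : (QuotientGroup.mk' ((⊤ : Subgroup P).lowerCentralSeries 2)).ker
      = (⊤ : Subgroup P).lowerCentralSeries 2 := QuotientGroup.ker_mk' _
  rw [← hker, ← Subgroup.map_eq_bot_iff, Subgroup.map_commutator, Subgroup.map_sup,
    Subgroup.commutator_eq_bot_iff_le_centralizer]
  have hZ : ((⊤ : Subgroup P).lowerCentralSeries 1).map
      (QuotientGroup.mk' ((⊤ : Subgroup P).lowerCentralSeries 2))
      ≤ Subgroup.center (P ⧸ (⊤ : Subgroup P).lowerCentralSeries 2) := by
    rintro _ ⟨c, hc, rfl⟩
    rw [Subgroup.mem_center_iff]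
    intro y
    obtain ⟨g, rfl⟩ := QuotientGroup.mk'_surjective _ y
    rw [← map_mul, ← map_mul]
    have h1 : ⁅c, g⁆ ∈ (⊤ : Subgroup P).lowerCentralSeries 2 :=
      Subgroup.commutator_mem_commutator hc (Subgroup.mem_top g)
    have h2 : g * c = (⁅c, g⁆)⁻¹ * (c * g) := by
      rw [commutatorElement_def]; group
    rw [h2, map_mul, map_inv]
    have h3 : (QuotientGroup.mk' ((⊤ : Subgroup P).lowerCentralSeries 2)) ⁅c, g⁆ = 1 := by
      rw [← MonoidHom.mem_ker, hker]; exact h1
    rw [h3, inv_one, one_mul]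
  have hX : A.map (QuotientGroup.mk' ((⊤ : Subgroup P).lowerCentralSeries 2))
      ≤ Subgroup.centralizer ((A.map (QuotientGroup.mk' ((⊤ : Subgroup P).lowerCentralSeries 2))
        : Subgroup _) : Set _) := by
    rintro _ ⟨a, ha, rfl⟩
    rw [Subgroup.mem_centralizer_iff]
    rintro _ ⟨b, hb, rfl⟩
    have h1 := hA.is_comm.comm ⟨a, ha⟩ ⟨b, hb⟩
    have h2 : a * b = b * a := congrArg Subtype.val h1
    rw [← map_mul, ← map_mul, h2]
  refine sup_le ?_ (hZ.trans (Subgroup.center_le_centralizer _))
  rw [Subgroup.le_centralizer_iff]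
  exact sup_le hX (hZ.trans (Subgroup.center_le_centralizer _))

theorem sup_normal {P : Type*} [Group P] (A : Subgroup P) :
    (A ⊔ (⊤ : Subgroup P).lowerCentralSeries 1).Normal := by
  constructor
  intro m hm g
  have h1 : g * m * g⁻¹ = ⁅g, m⁆ * m := by
    rw [commutatorElement_def]; group
  rw [h1]
  refine Subgroup.mul_mem _ (le_sup_right (a := A) ?_) hm
  exact Subgroup.commutator_mem_commutator (Subgroup.mem_top g) (Subgroup.mem_top m)

theorem lcs_le {P : Type*} [Group P] {A : Subgroup P} (hA : IsMulCommutative ↥A) (i : ℕ) :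
    (Subgroup.normalClosure (A : Set P)).lowerCentralSeries (i + 1)
      ≤ (⊤ : Subgroup P).lowerCentralSeries (i + 2) := by
  induction i with
  | zero =>
    haveI := sup_normal A
    have h1 : Subgroup.normalClosure (A : Set P) ≤ A ⊔ (⊤ : Subgroup P).lowerCentralSeries 1 :=
      Subgroup.normalClosure_le_normal (fun x hx => le_sup_left (a := A) hx)
    exact (Subgroup.commutator_mono h1 h1).trans (comm_sup_le hA)
  | succ i ih =>
    exact Subgroup.commutator_mono ih le_top

theorem class_lt {P : Type*} [Group P] [Group.IsNilpotent P] (hna : ¬ IsMulCommutative P)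
    {A : Subgroup P} (hA : IsMulCommutative ↥A) :
    Group.nilpotencyClass ↥(Subgroup.normalClosure (A : Set P)) < Group.nilpotencyClass P := by
  have h2 : 2 ≤ Group.nilpotencyClass P := by
    by_contra hcon
    have h1 : Group.nilpotencyClass P ≤ 1 := by omega
    have h3 := (Subgroup.lowerCentralSeries_eq_bot_iff_nilpotencyClass_le (G := P)).2 h1
    apply hna
    refine ⟨⟨fun a b => ?_⟩⟩
    have h4 : ⁅a, b⁆ ∈ (⊤ : Subgroup P).lowerCentralSeries 1 :=
      Subgroup.commutator_mem_commutator (Subgroup.mem_top a) (Subgroup.mem_top b)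
    rw [h3, Subgroup.mem_bot, commutatorElement_def] at h4
    have h5 : a * b = a * b * a⁻¹ * b⁻¹ * (b * a) := by group
    rw [h5, h4, one_mul]
  obtain ⟨k, hk⟩ : ∃ k, Group.nilpotencyClass P = k + 2 := ⟨Group.nilpotencyClass P - 2, by omega⟩
  have h3 := lcs_le hA k
  have h4 : (⊤ : Subgroup P).lowerCentralSeries (k + 2) = ⊥ := by
    rw [← hk]; exact Subgroup.lowerCentralSeries_nilpotencyClass
  rw [h4, le_bot_iff, ← Subgroup.top_subtype_lowerCentralSeries,
    Subgroup.map_eq_bot_iff_of_injective _ (Subgroup.subtype_injective _),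
    Subgroup.lowerCentralSeries_eq_bot_iff_nilpotencyClass_le] at h3
  omega

/-- Let P be a non-abelian nilpotent p-group (every element of p-power order; P possibly infinite) generated by two abelian subgroups E and F. Then the normal closure of E in P, and likewise that of F, has nilpotency class strictly smaller than that of P. -/
theorem result {P : Type*} [Group P] {p : ℕ} [Fact p.Prime] (hP : IsPGroup p P) [Group.IsNilpotent P]
    (hna : ¬ IsMulCommutative P) {E F : Subgroup P} (hE : IsMulCommutative ↥E) (hF : IsMulCommutative ↥F) (hgen : E ⊔ F = ⊤) :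
    Group.nilpotencyClass ↥(Subgroup.normalClosure (E : Set P)) < Group.nilpotencyClass P ∧
    Group.nilpotencyClass ↥(Subgroup.normalClosure (F : Set P)) < Group.nilpotencyClass P := by
  exact ⟨class_lt hna hE, class_lt hna hF⟩

end Cfsg.Agent.S5067
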