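import Cfsg.Statements.S5078
import Mathlib

set_option autoImplicit false
open Cfsg

namespace Cfsg.Agent.S5078

/-- In any fusion system over a finite subgroup S, a receptive subgroup is fully centralized. -/
theorem result {Ω : Type*} [Group Ω] {S : Subgroup Ω} [Finite S] (F : Cfsg.FusionSystem S) (P : Subgroup Ω) (hP : F.IsReceptive P) : F.IsFullyCentralized P := by
  refine ⟨hP.1, ?_⟩
  rintro Q ⟨φ, hφ, rfl⟩
  obtain ⟨χ, hχ, hχφ⟩ := F.inv_mem hφ
  have hQS : φ.range ≤ S := (F.le_of_mem hχ).1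
  have hχS : ∀ x, χ x ∈ S := (F.le_of_mem hχ).2
  have hχrange : χ.range = P := by
    ext y
    constructor
    · rintro ⟨⟨_, x, rfl⟩, rfl⟩
      rw [hχφ x]
      exact x.2
    · intro hy
      exact ⟨⟨φ ⟨y, hy⟩, ⟨⟨y, hy⟩, rfl⟩⟩, hχφ ⟨y, hy⟩⟩
  obtain ⟨ψ, hψ, hψχ⟩ := hP.2 φ.range χ hχ hχrange
  have hψS : ∀ x, ψ x ∈ S := (F.le_of_mem hψ).2
  have hψinj := F.injective_of_mem hψ
  -- the centralizer of Q in S lies in the extender
  have hCN : FusionSystem.centralizerIn S φ.range ≤ FusionSystem.extender S φ.range χ := by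
    intro c hc
    apply Subgroup.subset_closure
    refine ⟨hc.1, Subgroup.centralizer_le_normalizer _ hc.2, 1, S.one_mem, ?_⟩
    intro x hx
    have : (⟨c * (x : Ω) * c⁻¹, hx⟩ : φ.range) = x := by
      apply Subtype.ext
      show c * (x : Ω) * c⁻¹ = x
      have h1 := Subgroup.mem_centralizer_iff.mp hc.2 x x.2
      rw [← h1, mul_inv_cancel_right]
    rw [this]
    simp
  have hQN : φ.range ≤ FusionSystem.extender S φ.range χ := by
    intro q hq
    apply Subgroup.subset_closure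
    refine ⟨hQS hq, Subgroup.le_normalizer hq, χ ⟨q, hq⟩, hχS _, ?_⟩
    intro x hx
    have : (⟨q * (x : Ω) * q⁻¹, hx⟩ : φ.range) = ⟨q, hq⟩ * x * ⟨q, hq⟩⁻¹ := by
      apply Subtype.ext
      rfl
    rw [this, map_mul, map_mul, map_inv]
  -- the injection of centralizers
  have hmem : ∀ c : FusionSystem.centralizerIn S φ.range,
      ψ ⟨c, hCN c.2⟩ ∈ FusionSystem.centralizerIn S P := by
    intro c
    refine ⟨hψS _, ?_⟩
    show ψ ⟨c, hCN c.2⟩ ∈ Subgroup.centralizer (P : Set Ω)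
    rw [Subgroup.mem_centralizer_iff]
    intro y hy
    -- y = χ q = ψ q
    have hy' : y = ψ ⟨φ ⟨y, hy⟩, hQN ⟨⟨y, hy⟩, rfl⟩⟩ := by
      rw [hψχ _ ⟨⟨y, hy⟩, rfl⟩ _]
      exact (hχφ ⟨y, hy⟩).symm
    rw [hy', ← map_mul, ← map_mul]
    congr 1
    apply Subtype.ext
    show φ ⟨y, hy⟩ * (c : Ω) = (c : Ω) * φ ⟨y, hy⟩
    exact Subgroup.mem_centralizer_iff.mp c.2.2 _ ⟨⟨y, hy⟩, rfl⟩
  have : Finite (FusionSystem.centralizerIn S P) :=
    Finite.of_injective (Subgroup.inclusion (inf_le_left : FusionSystem.centralizerIn S P ≤ S))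
      (Subgroup.inclusion_injective _)
  refine Nat.card_le_card_of_injective
    (fun c : FusionSystem.centralizerIn S φ.range =>
      (⟨ψ ⟨c, hCN c.2⟩, hmem c⟩ : FusionSystem.centralizerIn S P)) ?_
  intro c d hcd
  have h1 : ψ ⟨c, hCN c.2⟩ = ψ ⟨d, hCN d.2⟩ := congrArg Subtype.val hcd
  have h2 := hψinj h1
  exact Subtype.ext (congrArg (fun z : FusionSystem.extender S φ.range χ => (z : Ω)) h2)

end Cfsg.Agent.S5078
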