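import Mathlib
import Cfsg.Statements.S5079
import Cfsg.Agent.Helper26.FusSat
-- import your own Cfsg.Agent.* helpers here

set_option autoImplicit false
open Cfsg

namespace Cfsg.Agent.S5079

/-- In any fusion system over a finite p-group S: if P is fully automized and receptive and Q is conjugate to P in the system, then there is a map of the system with source N_S(Q) and values in N_S(P) carrying Q onto P. -/
theorem result {Ω : Type*} [Group Ω] {S : Subgroup Ω} [Finite S] (p : ℕ) [Fact p.Prime] (hS : IsPGroup p S) (F : Cfsg.FusionSystem S) (P Q : Subgroup Ω) (h₁ : F.IsFullyAutomized p P) (h₂ : F.IsReceptive P) (hQ : F.IsConj Q P) : ∃ φ ∈ F.Hom (Cfsg.FusionSystem.normalizerIn S Q), (∀ x, φ x ∈ Cfsg.FusionSystem.normalizerIn S P) ∧ (Q.subgroupOf (Cfsg.FusionSystem.normalizerIn S Q)).map φ = P := by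
  obtain ⟨φ, hφ, e, he, hφe, hφN⟩ := Helper26.exists_normalizer_map hS F h₁ h₂ hQ
  refine ⟨φ, hφ, hφN, ?_⟩
  have hQS : Q ≤ S := he.le_left
  ext y
  constructor
  · rintro ⟨x, hx, rfl⟩
    have hx' : (x : Ω) ∈ Q := Subgroup.mem_subgroupOf.1 hx
    have h : φ x = ((e ⟨x, hx'⟩ : P) : Ω) := hφe ⟨x, hx'⟩ x.2
    rw [h]; exact (e ⟨x, hx'⟩).2
  · intro hy
    refine ⟨⟨e.symm ⟨y, hy⟩, Helper26.le_normalizerIn hQS (e.symm ⟨y, hy⟩).2⟩,
      Subgroup.mem_subgroupOf.2 (e.symm ⟨y, hy⟩).2, ?_⟩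
    rw [hφe]; simp

end Cfsg.Agent.S5079
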