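import Cfsg.Statements.S5080
import Mathlib

set_option autoImplicit false
open Cfsg

namespace Cfsg.Agent.S5080

theorem not_pRankLE_zero_of_ne_bot {X : Type*} [Group X] [Finite X] {p : ℕ} [Fact p.Prime]
    {N : Subgroup X} (hN : IsPGroup p N) (hne : N ≠ ⊥) : ¬ Cfsg.PRankLE p 0 N := by
  intro h
  have hdvd : p ∣ Nat.card N := by
    rcases hN.card_eq_or_dvd with h1 | h1
    · exact absurd (Subgroup.card_eq_one.mp h1) hne
    · exact h1
  obtain ⟨x, hx⟩ := exists_prime_orderOf_dvd_card' p hdvd
  have h1 := h (Subgroup.zpowers x) inferInstance (by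
    intro a ha
    obtain ⟨k, rfl⟩ := Subgroup.mem_zpowers_iff.mp ha
    have hx1 : x ^ p = 1 := by rw [← hx]; exact pow_orderOf_eq_one x
    rw [← zpow_natCast, ← zpow_mul, mul_comm, zpow_mul, zpow_natCast, hx1, one_zpow])
  rw [Nat.card_zpowers, hx, pow_zero] at h1
  exact absurd h1 (not_le.mpr (Fact.out : p.Prime).one_lt)

/-- In a saturated fusion system over a finite p-group, every essential subgroup is radical (it is centric and fully normalized by definition, so it is centric-radical and fully normalized). -/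
theorem result {Ω : Type*} [Group Ω] {S : Subgroup Ω} [Finite S] (p : ℕ) [Fact p.Prime] (hS : IsPGroup p S) (F : Cfsg.FusionSystem S) (hF : F.IsSaturated p) (P : Subgroup Ω) (hP : F.IsEssential p P) : F.IsRadical p P := by
  obtain ⟨hcen, -, hnorm, E, hdvd, hEtop, R, hR⟩ := hP
  have hPS : P ≤ S := hcen.1
  haveI : Finite P := Finite.of_injective (Subgroup.inclusion hPS) (Subgroup.inclusion_injective _)
  refine ⟨hPS, ?_⟩
  have hInnA : Inn P ≤ F.autGroup P := by
    rintro _ ⟨x, rfl⟩
    refine Subgroup.subset_closure ?_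
    show P.subtype.comp (MulAut.conj x).toMonoidHom ∈ F.Hom P
    have e : P.subtype.comp (MulAut.conj x).toMonoidHom = conjHom P (x : Ω) :=
      MonoidHom.ext (fun y => rfl)
    rw [e]
    exact F.conj_mem hPS (hPS x.2)
  have hPp : IsPGroup p P := hS.to_le hPS
  have hInnp : IsPGroup p (Inn P) :=
    hPp.of_surjective (MulAut.conj : P →* MulAut P).rangeRestrict
      (MonoidHom.rangeRestrict_surjective _)
  have hIp : IsPGroup p ((Inn P).subgroupOf (F.autGroup P)) :=
    hInnp.comap_of_injective (F.autGroup P).subtype Subtype.coe_injective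
  haveI := hnorm
  have hX : pCore p (F.autGroup P ⧸ (Inn P).subgroupOf (F.autGroup P)) = ⊥ := by
    by_contra hne
    haveI hNn : (pCore p (F.autGroup P ⧸ (Inn P).subgroupOf (F.autGroup P))).Normal :=
      Subgroup.sSup_normal _ (fun _ hH => hH.1)
    have hNp : IsPGroup p (pCore p (F.autGroup P ⧸ (Inn P).subgroupOf (F.autGroup P))) :=
      Sylow.sSup_of_normal _ (fun _ hH => hH.2) (fun _ hH => hH.1)
    have hNR : pCore p (F.autGroup P ⧸ (Inn P).subgroupOf (F.autGroup P)) ≤ R :=
      hNp.le_sylow_of_normal R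
    apply hEtop
    rw [eq_top_iff, ← Subgroup.normalizer_eq_top
      (pCore p (F.autGroup P ⧸ (Inn P).subgroupOf (F.autGroup P)))]
    refine le_trans ?_ hR
    exact le_iSup_of_le (⟨_, hNR, not_pRankLE_zero_of_ne_bot hNp hne⟩ :
      {Q : Subgroup (F.autGroup P ⧸ (Inn P).subgroupOf (F.autGroup P)) //
        Q ≤ (R : Subgroup _) ∧ ¬ PRankLE p (1 - 1) Q}) le_rfl
  have hcore : pCore p (F.autGroup P) = (Inn P).subgroupOf (F.autGroup P) := by
    apply le_antisymm
    · have hNn : (pCore p (F.autGroup P)).Normal := Subgroup.sSup_normal _ (fun _ hH => hH.1)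
      have hNp : IsPGroup p (pCore p (F.autGroup P)) :=
        Sylow.sSup_of_normal _ (fun _ hH => hH.2) (fun _ hH => hH.1)
      have h1 : (pCore p (F.autGroup P)).map
          (QuotientGroup.mk' ((Inn P).subgroupOf (F.autGroup P))) ≤
          pCore p (F.autGroup P ⧸ (Inn P).subgroupOf (F.autGroup P)) :=
        le_sSup ⟨hNn.map _ (QuotientGroup.mk'_surjective _), hNp.map _⟩
      rw [hX, le_bot_iff, Subgroup.map_eq_bot_iff, QuotientGroup.ker_mk'] at h1
      exact h1
    · exact le_sSup ⟨hnorm, hIp⟩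
  rw [hcore]
  exact Subgroup.map_subgroupOf_eq_of_le hInnA

end Cfsg.Agent.S5080
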