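import Cfsg.Statements.S5085
import Cfsg.Agent.Helper25.Fusion

set_option autoImplicit false
open Cfsg

namespace Cfsg.Agent.S5085

open Cfsg.Agent.Helper25

/-- In any fusion system, a characteristic subgroup of a subgroup that is normal in the system is itself normal in the system. -/
theorem result {Ω : Type*} [Group Ω] {S : Subgroup Ω} (F : Cfsg.FusionSystem S) (Q U : Subgroup Ω) (hQ : F.IsNormal Q) (hUQ : U ≤ Q) (hU : (U.subgroupOf Q).Characteristic) : F.IsNormal U := by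
  refine ⟨hUQ.trans hQ.1, ?_⟩
  intro P φ hφ
  obtain ⟨ψ₀, hψ₀, hψ₀φ, hψ₀Q⟩ := hQ.2 P φ hφ
  have hle : P ⊔ U ≤ P ⊔ Q := sup_le_sup_left hUQ P
  have hinj := F.injective_of_mem hψ₀
  -- the automorphism of `Q` induced by `ψ₀`
  have hθmem : ∀ x : Q, ψ₀ (Subgroup.inclusion (le_sup_right : Q ≤ P ⊔ Q) x) ∈ Q := by
    intro x
    exact hψ₀Q.le ⟨_, Subgroup.mem_subgroupOf.mpr x.2, rfl⟩
  let θ : Q →* Q := (ψ₀.comp (Subgroup.inclusion (le_sup_right : Q ≤ P ⊔ Q))).codRestrict Q hθmem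
  have hθbij : Function.Bijective θ := by
    constructor
    · intro x y hxy
      have h1 : ψ₀ (Subgroup.inclusion (le_sup_right : Q ≤ P ⊔ Q) x) =
          ψ₀ (Subgroup.inclusion (le_sup_right : Q ≤ P ⊔ Q) y) := congrArg Subtype.val hxy
      exact Subgroup.inclusion_injective _ (hinj h1)
    · intro y
      have hy : (y : Ω) ∈ (Q.subgroupOf (P ⊔ Q)).map ψ₀ := by rw [hψ₀Q]; exact y.2
      obtain ⟨x, hx, hxy⟩ := hy
      refine ⟨⟨x, Subgroup.mem_subgroupOf.mp hx⟩, ?_⟩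
      apply Subtype.ext
      show ψ₀ _ = y
      rw [← hxy]
      congr 1
  have hθU : (U.subgroupOf Q).map (MulEquiv.ofBijective θ hθbij).toMonoidHom = U.subgroupOf Q :=
    Subgroup.characteristic_iff_map_eq.mp hU (MulEquiv.ofBijective θ hθbij)
  refine ⟨ψ₀.comp (Subgroup.inclusion hle), fus_restrict_mem F hle hψ₀, ?_, ?_⟩
  · intro x
    rw [← hψ₀φ x]
    rfl
  · ext y
    constructor
    · rintro ⟨x, hx, rfl⟩
      have hxU : (x : Ω) ∈ U := Subgroup.mem_subgroupOf.mp hx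
      have h1 : θ ⟨x, hUQ hxU⟩ ∈ (U.subgroupOf Q).map (MulEquiv.ofBijective θ hθbij).toMonoidHom :=
        ⟨⟨x, hUQ hxU⟩, Subgroup.mem_subgroupOf.mpr hxU, rfl⟩
      rw [hθU] at h1
      exact Subgroup.mem_subgroupOf.mp h1
    · intro hy
      have h1 : (⟨y, hUQ hy⟩ : Q) ∈ (U.subgroupOf Q).map (MulEquiv.ofBijective θ hθbij).toMonoidHom := by
        rw [hθU]
        exact Subgroup.mem_subgroupOf.mpr hy
      obtain ⟨u, hu, huy⟩ := h1
      have huU : (u : Ω) ∈ U := Subgroup.mem_subgroupOf.mp hu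
      refine ⟨⟨u, (le_sup_right : U ≤ P ⊔ U) huU⟩, Subgroup.mem_subgroupOf.mpr huU, ?_⟩
      exact congrArg Subtype.val huy

end Cfsg.Agent.S5085
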