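import Cfsg.Statements.S5087
import Cfsg.Agent.S5082
import Cfsg.Agent.S5080
import Cfsg.Agent.Helper26.FusNormal2

set_option autoImplicit false
open Cfsg

namespace Cfsg.Agent.S5087

open Cfsg.FusionSystem Cfsg.Agent.Helper26

/-- In a saturated fusion system over a finite p-group S, a subgroup Q is normal in the system if and only if every subgroup P that equals S or is essential contains Q and every element of Aut_F(P) maps Q onto itself. -/
theorem result {Ω : Type*} [Group Ω] {S : Subgroup Ω} [Finite S] (p : ℕ) [Fact p.Prime] (hS : IsPGroup p S) (F : Cfsg.FusionSystem S) (hF : F.IsSaturated p) (Q : Subgroup Ω) : F.IsNormal Q ↔ ∀ P : Subgroup Ω, (P = S ∨ F.IsEssential p P) → (Q ≤ P ∧ ∀ α ∈ F.autGroup P, (Q.subgroupOf P).map α.toMonoidHom = Q.subgroupOf P) := by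
  constructor
  · intro hN P hP
    have hsc := stronglyClosed_of_normal F hN
    have hPS : P ≤ S := by
      rcases hP with rfl | hess
      · exact le_rfl
      · exact hess.1.1
    have hQP : Q ≤ P := by
      rcases hP with rfl | hess
      · exact hN.1
      · exact normal_le_centric_radical hS F hN hess.1 (Cfsg.Agent.S5080.result p hS F hF P hess)
    refine ⟨hQP, fun α hα => ?_⟩
    have he : IsIso F α := (mem_autGroup_iff F hPS α).1 hα
    apply le_antisymm
    · rintro _ ⟨x, hx, rfl⟩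
      exact Subgroup.mem_subgroupOf.2 (stronglyClosed_iso F hsc he x (Subgroup.mem_subgroupOf.1 hx))
    · intro y hy
      refine ⟨α.symm y, Subgroup.mem_subgroupOf.2
        (stronglyClosed_iso F hsc he.symm y (Subgroup.mem_subgroupOf.1 hy)), ?_⟩
      exact α.apply_symm_apply y
  · intro H'
    have hQS : Q ≤ S := (H' S (Or.inl rfl)).1
    have hQn : ∀ g ∈ S, ∀ x ∈ Q, g * x * g⁻¹ ∈ Q := by
      intro g hg x hx
      have hgN : g ∈ Subgroup.normalizer (S : Set Ω) := Subgroup.le_normalizer hg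
      have hα : conjAut S g hgN ∈ F.autGroup S :=
        autInducedBy_le_autGroup F le_rfl (conjAut_mem S S g hg hgN)
      have h1 := (H' S (Or.inl rfl)).2 _ hα
      have h2 : (conjAut S g hgN).toMonoidHom ⟨x, hQS hx⟩ ∈
          (Q.subgroupOf S).map (conjAut S g hgN).toMonoidHom :=
        ⟨⟨x, hQS hx⟩, Subgroup.mem_subgroupOf.2 hx, rfl⟩
      rw [h1] at h2
      exact Subgroup.mem_subgroupOf.1 h2
    rw [isNormal_iff F hQS hQn]
    apply Cfsg.Agent.S5082.result p hS F hF
    intro P hP α hα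
    obtain ⟨hQP, hα'⟩ := H' P hP
    have hPS : P ≤ S := by
      rcases hP with rfl | hess
      · exact le_rfl
      · exact hess.1.1
    have he : IsIso F α := (mem_autGroup_iff F hPS α).1 hα
    have hαQ := hα' α hα
    apply Subgroup.subset_closure
    show P.subtype.comp α.toMonoidHom ∈ F.Hom P ∧ NormExt F Q P (P.subtype.comp α.toMonoidHom)
    refine ⟨he, (P.subtype.comp α.toMonoidHom).comp (Subgroup.inclusion (sup_le le_rfl hQP)),
      fs_restrict F (sup_le le_rfl hQP) he, fun x => rfl, ?_⟩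
    ext y
    constructor
    · rintro ⟨z, hz, rfl⟩
      have hzQ : (z : Ω) ∈ Q := Subgroup.mem_subgroupOf.1 hz
      have h2 : α.toMonoidHom ⟨z, hQP hzQ⟩ ∈ (Q.subgroupOf P).map α.toMonoidHom :=
        ⟨⟨z, hQP hzQ⟩, Subgroup.mem_subgroupOf.2 hzQ, rfl⟩
      rw [hαQ] at h2
      exact Subgroup.mem_subgroupOf.1 h2
    · intro hy
      have h2 : (⟨y, hQP hy⟩ : P) ∈ (Q.subgroupOf P).map α.toMonoidHom := by
        rw [hαQ]; exact Subgroup.mem_subgroupOf.2 hy
      obtain ⟨w, hw, hwy⟩ := h2
      have hwQ : (w : Ω) ∈ Q := Subgroup.mem_subgroupOf.1 hw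
      refine ⟨⟨w, Subgroup.mem_sup_left w.2⟩, Subgroup.mem_subgroupOf.2 hwQ, ?_⟩
      exact congrArg Subtype.val hwy

end Cfsg.Agent.S5087
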