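import Mathlib
import Cfsg.Statements.S5088
import Cfsg.Agent.Helper26.FusNormal2
-- import your own Cfsg.Agent.* helpers here

set_option autoImplicit false
open Cfsg

namespace Cfsg.Agent.S5088

/-- In a saturated fusion system over a finite p-group, a subgroup Q is normal in the system if and only if there is a chain of subgroups 1 = Q₀ ≤ Q₁ ≤ ⋯ ≤ Qₙ = Q such that each Qᵢ with i ≥ 1 is strongly closed in the system and [Q, Qᵢ] ≤ Qᵢ₋₁. -/
theorem result {Ω : Type*} [Group Ω] {S : Subgroup Ω} [Finite S] (p : ℕ) [Fact p.Prime] (hS : IsPGroup p S) (F : Cfsg.FusionSystem S) (hF : F.IsSaturated p) (Q : Subgroup Ω) : F.IsNormal Q ↔ ∃ (n : ℕ) (Qs : Fin (n + 1) → Subgroup Ω), Qs 0 = ⊥ ∧ Qs (Fin.last n) = Q ∧ Monotone Qs ∧ ∀ i : Fin n, F.StronglyClosed (Qs i.succ) ∧ ⁅Q, Qs i.succ⁆ ≤ Qs (Fin.castSucc i) := by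
  constructor
  · intro hQ
    obtain ⟨n, C, h0, hn, hmono, hcomm, hsc⟩ := Helper26.exists_central_chain hS F hQ
    refine ⟨n, C, h0, hn, hmono, fun i => ⟨hsc i.succ, ?_⟩⟩
    rw [Subgroup.commutator_comm]; exact hcomm i
  · rintro ⟨n, Qs, h0, hn, hmono, h⟩
    have hall : ∀ j : Fin (n + 1), F.StronglyClosed (Qs j) := by
      intro j
      induction j using Fin.cases with
      | zero => rw [h0]; exact Helper26.stronglyClosed_bot F
      | succ i => exact (h i).1
    have hQ : F.StronglyClosed Q := hn ▸ hall (Fin.last n)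
    refine Helper26.normal_of_chain hS F hF hQ n Qs h0 hn hmono (fun i => ?_)
      (fun i => Helper26.weaklyClosed_of_stronglyClosed F (hall i.castSucc))
    rw [Subgroup.commutator_comm]; exact (h i).2

end Cfsg.Agent.S5088
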