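import Cfsg.Statements.S5089
import Cfsg.Agent.Helper26.FusNormal2

set_option autoImplicit false
open Cfsg

namespace Cfsg.Agent.S5089

open Cfsg.FusionSystem Cfsg.Agent.Helper26

variable {Ω : Type*} [Group Ω] {S : Subgroup Ω}

/-- AKO I.4.7: an abelian strongly closed subgroup of a saturated system is normal in it. -/
theorem normal_of_abelian {p : ℕ} [Fact p.Prime] [Finite S] (hS : IsPGroup p S)
    (F : Cfsg.FusionSystem S) (hF : F.IsSaturated p) {Q : Subgroup Ω} (hQ : F.StronglyClosed Q)
    (hab : ⁅Q, Q⁆ = ⊥) : F.IsNormal Q := by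
  refine normal_of_chain hS F hF hQ 1 ![⊥, Q] rfl rfl ?_ ?_ ?_
  · rw [Fin.monotone_iff_le_succ]
    intro i
    have hi : i = 0 := Subsingleton.elim _ _
    subst hi
    show (⊥ : Subgroup Ω) ≤ Q
    exact bot_le
  · intro i
    have hi : i = 0 := Subsingleton.elim _ _
    subst hi
    show ⁅Q, Q⁆ ≤ ⊥
    exact hab.le
  · intro i
    have hi : i = 0 := Subsingleton.elim _ _
    subst hi
    show F.WeaklyClosed ⊥
    exact weaklyClosed_of_stronglyClosed F (stronglyClosed_bot F)

theorem commutator_eq_bot_of_comm {Q : Subgroup Ω} (h : IsMulCommutative Q) : ⁅Q, Q⁆ = ⊥ := by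
  rw [Subgroup.commutator_eq_bot_iff_le_centralizer]
  intro x hx
  rw [Subgroup.mem_centralizer_iff]
  intro y hy
  have := h.is_comm.comm (⟨y, hy⟩ : Q) ⟨x, hx⟩
  exact congrArg Subtype.val this

/-- A saturated fusion system over a finite p-group has a nontrivial subgroup that is normal in the system (O_p(F) ≠ 1) if and only if some nontrivial abelian subgroup is strongly closed in the system. -/
theorem result {Ω : Type*} [Group Ω] {S : Subgroup Ω} [Finite S] (p : ℕ) [Fact p.Prime] (hS : IsPGroup p S) (F : Cfsg.FusionSystem S) (hF : F.IsSaturated p) : F.core ≠ ⊥ ↔ ∃ Q : Subgroup Ω, Q ≠ ⊥ ∧ IsMulCommutative Q ∧ F.StronglyClosed Q := by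
  constructor
  · intro hcore
    have hex : ∃ Q : Subgroup Ω, F.IsNormal Q ∧ Q ≠ ⊥ := by
      by_contra hcon
      apply hcore
      show sSup {Q : Subgroup Ω | F.IsNormal Q} = ⊥
      rw [sSup_eq_bot]
      intro Q hQ
      by_contra hne
      exact hcon ⟨Q, hQ, hne⟩
    obtain ⟨Q, hQ, hne⟩ := hex
    have hQS := hQ.1
    have : Finite Q := finite_of_le hQS
    have hQp : IsPGroup p Q := isPGroup_of_le hS hQS
    have hnt : Nontrivial Q := (Subgroup.nontrivial_iff_ne_bot Q).2 hne
    have hcn : Nontrivial (Subgroup.center Q) := hQp.center_nontrivial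
    refine ⟨(Subgroup.center Q).map Q.subtype, ?_, ?_, stronglyClosed_of_char F hQ (Subgroup.center Q)⟩
    · intro h
      rw [Subgroup.map_eq_bot_iff_of_injective _ (Subgroup.subtype_injective Q)] at h
      exact (Subgroup.nontrivial_iff_ne_bot _).1 hcn h
    · refine ⟨⟨fun a b => ?_⟩⟩
      obtain ⟨a, u, hu, rfl⟩ := a
      obtain ⟨b, v, hv, rfl⟩ := b
      apply Subtype.ext
      show (u : Ω) * (v : Ω) = (v : Ω) * (u : Ω)
      have := Subgroup.mem_center_iff.1 hu v
      exact (congrArg Subtype.val this).symm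
  · rintro ⟨Q, hne, hcomm, hQ⟩
    have hN : F.IsNormal Q := normal_of_abelian hS F hF hQ (commutator_eq_bot_of_comm hcomm)
    intro hcore
    apply hne
    rw [eq_bot_iff, ← hcore]
    exact le_sSup hN

end Cfsg.Agent.S5089
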