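import Mathlib
import Cfsg.Statements.S5092
import Cfsg.Agent.Helper26.FusNormal3
-- import your own Cfsg.Agent.* helpers here

set_option autoImplicit false
open Cfsg
open scoped commutatorElement

namespace Cfsg.Agent.S5092

open scoped commutatorElement in
/-- The subsystem of maps moving every element by an element of `hyp(F)·[S,S]`. -/
def hypSys {Ω : Type*} [Group Ω] {S : Subgroup Ω} (F : Cfsg.FusionSystem S) (p : ℕ) :
    Cfsg.FusionSystem S :=
  Helper26.subSys F (fun P φ => ∀ x : P, (x : Ω)⁻¹ * φ x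
      ∈ F.hyperfocalSubgroup p ⊔ ⁅(S : Subgroup Ω), (S : Subgroup Ω)⁆)
    (by
      intro P g hP hg x
      apply Subgroup.mem_sup_right
      have : (x : Ω)⁻¹ * (Cfsg.conjHom P g x) = ⁅(x : Ω)⁻¹, g⁆ := by
        show (x : Ω)⁻¹ * (g * x * g⁻¹) = _
        rw [commutatorElement_def]; group
      rw [this]
      exact Subgroup.commutator_mem_commutator (S.inv_mem (hP x.2)) hg)
    (by
      intro P Q φ ψ hφ hψ h1 h2 h x
      have : (x : Ω)⁻¹ * (ψ.comp (φ.codRestrict Q h)) x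
          = ((x : Ω)⁻¹ * φ x) * ((φ x)⁻¹ * ψ ⟨φ x, h x⟩) := by
        show (x : Ω)⁻¹ * ψ ⟨φ x, h x⟩ = _
        group
      rw [this]
      exact Subgroup.mul_mem _ (h1 x) (h2 ⟨φ x, h x⟩))
    (by
      rintro P φ hφ h1 ψ hψ hψx ⟨_, x, rfl⟩
      rw [hψx x]
      have : (φ x)⁻¹ * (x : Ω) = ((x : Ω)⁻¹ * φ x)⁻¹ := by group
      show (φ x)⁻¹ * (x : Ω) ∈ _
      rw [this]
      exact Subgroup.inv_mem _ (h1 x))

/-- For a saturated fusion system over a finite p-group S, the focal subgroup is the product of the hyperfocal subgroup and the derived subgroup of S. -/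
theorem result {Ω : Type*} [Group Ω] {S : Subgroup Ω} [Finite S] (p : ℕ) [Fact p.Prime] (hS : IsPGroup p S) (F : Cfsg.FusionSystem S) (hF : F.IsSaturated p) : F.focalSubgroup = F.hyperfocalSubgroup p ⊔ ⁅(S : Subgroup Ω), (S : Subgroup Ω)⁆ := by
  have hgen : ∀ Q : Subgroup Ω, F.IsFullyNormalized Q → F.IsFullyAutomized p Q → F.IsReceptive Q →
      F.IsCentric Q → F.IsRadical p Q → F.autGroup Q ≤ (hypSys F p).autGroup Q := by
    intro Q _ hQa hQr _ _ α hα
    have hQS := hQr.1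
    have hα' := (Helper26.mem_autGroup_iff F hQS α).1 hα
    rw [Helper26.mem_autGroup_iff _ hQS]
    refine ⟨hα', fun x => ?_⟩
    obtain ⟨-, R, hR⟩ := hQa
    have : Finite Q := Helper26.finite_of_le hQS
    obtain ⟨β, hβ, γ, hγ, hαβγ⟩ := Helper26.exists_mul_pResidual_sylow R (⟨α, hα⟩ : F.autGroup Q)
    rw [hR] at hγ
    obtain ⟨s, hs, hγs⟩ := (Helper26.mem_autInducedBy_iff S Q _).1 (Subgroup.mem_subgroupOf.1 hγ)
    have e1 : ((α x : Q) : Ω) = (((β : MulAut Q) ((γ : MulAut Q) x) : Q) : Ω) := by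
      have : α = (β : MulAut Q) * (γ : MulAut Q) := congrArg Subtype.val hαβγ
      rw [this]; rfl
    show (x : Ω)⁻¹ * ((α x : Q) : Ω) ∈ _
    have e2 : (x : Ω)⁻¹ * ((α x : Q) : Ω) = ((x : Ω)⁻¹ * (((γ : MulAut Q) x : Q) : Ω))
        * ((((γ : MulAut Q) x : Q) : Ω)⁻¹ * (((β : MulAut Q) ((γ : MulAut Q) x) : Q) : Ω)) := by
      rw [e1]; group
    rw [e2]
    refine Subgroup.mul_mem _ (Subgroup.mem_sup_right ?_) (Subgroup.mem_sup_left ?_)
    · rw [hγs x]
      have : (x : Ω)⁻¹ * (s * x * s⁻¹) = ⁅(x : Ω)⁻¹, s⁆ := by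
        rw [commutatorElement_def]; group
      rw [this]
      exact Subgroup.commutator_mem_commutator (S.inv_mem (hQS x.2)) hs
    · apply Subgroup.subset_closure
      exact ⟨Q, β, (γ : MulAut Q) x, hQS, hβ, rfl⟩
  apply le_antisymm
  · unfold FusionSystem.focalSubgroup
    rw [Subgroup.closure_le]
    rintro y ⟨P, φ, x, hφ, rfl⟩
    have hle := Helper26.alperin hS F hF (hypSys F p) hgen
    exact (show φ ∈ F.Hom P ∧ ∀ x : P, (x : Ω)⁻¹ * φ x
      ∈ F.hyperfocalSubgroup p ⊔ ⁅(S : Subgroup Ω), (S : Subgroup Ω)⁆ from hle P hφ).2 x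
  · refine sup_le ?_ ?_
    · unfold FusionSystem.hyperfocalSubgroup
      rw [Subgroup.closure_le]
      rintro y ⟨P, α, x, hP, hα, rfl⟩
      apply Subgroup.subset_closure
      exact ⟨P, P.subtype.comp (α : MulAut P).toMonoidHom, x,
        (Helper26.mem_autGroup_iff F hP _).1 α.2, rfl⟩
    · rw [Subgroup.commutator_le]
      intro g₁ hg₁ g₂ hg₂
      apply Subgroup.subset_closure
      refine ⟨S, Cfsg.conjHom S g₂, ⟨g₁⁻¹, S.inv_mem hg₁⟩, F.conj_mem le_rfl hg₂, ?_⟩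
      show ⁅g₁, g₂⁆ = (g₁⁻¹)⁻¹ * (g₂ * g₁⁻¹ * g₂⁻¹)
      rw [commutatorElement_def]; group

end Cfsg.Agent.S5092
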