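import Cfsg.Statements.S5099
import Cfsg.Agent.Helper25.KNorm3

set_option autoImplicit false
open Cfsg

namespace Cfsg.Agent.S5099

open Cfsg.FusionSystem Cfsg.Agent.Helper26

variable {Ω : Type*} [Group Ω] {S : Subgroup Ω}

theorem centralizerIn_eq_nK (Q : Subgroup Ω) :
    centralizerIn S Q = Helper25.nK S (⊥ : Subgroup (MulAut Q)) Q.subtype := by
  ext g
  constructor
  · rintro ⟨hgS, hgC⟩
    refine ⟨hgS, 1, Subgroup.one_mem _, fun x => ?_⟩
    have h1 := Subgroup.mem_centralizer_iff.1 hgC (x : Ω) x.2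
    show g * (x : Ω) * g⁻¹ = (x : Ω)
    rw [← h1]; group
  · rintro ⟨hgS, k, hk, hgk⟩
    refine ⟨hgS, Subgroup.mem_centralizer_iff.2 fun h hh => ?_⟩
    have hk1 : k = 1 := Subgroup.mem_bot.1 hk
    subst hk1
    have h1 := hgk ⟨h, hh⟩
    have h2 : g * h * g⁻¹ = h := h1
    have h3 : g * h = g * h * g⁻¹ * g := by group
    rw [h3, h2]

theorem nK_bot_le (Q : Subgroup Ω) (φ : Q →* Ω) :
    Helper25.nK S (⊥ : Subgroup (MulAut Q)) φ ≤ centralizerIn S φ.range := by
  rintro g ⟨hgS, k, hk, hgk⟩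
  refine ⟨hgS, Subgroup.mem_centralizer_iff.2 ?_⟩
  rintro h ⟨x, rfl⟩
  have hk1 : k = 1 := Subgroup.mem_bot.1 hk
  subst hk1
  have h1 := hgk x
  have h2 : g * φ x * g⁻¹ = φ x := h1
  have h3 : g * φ x = g * φ x * g⁻¹ * g := by group
  rw [h3, h2]

theorem fullK_bot [Finite S] (F : FusionSystem S) {Q : Subgroup Ω} (hQ : F.IsFullyCentralized Q) :
    Helper25.FullK F (⊥ : Subgroup (MulAut Q)) := by
  refine ⟨hQ.1, fun φ hφ => ?_⟩
  have h1 := hQ.2 φ.range ⟨φ, hφ, rfl⟩
  haveI : Finite ↥(centralizerIn S φ.range) :=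
    Finite.of_injective (Subgroup.inclusion (inf_le_left : centralizerIn S φ.range ≤ S))
      (Subgroup.inclusion_injective _)
  have h2 : Nat.card (Helper25.nK S (⊥ : Subgroup (MulAut Q)) φ)
      ≤ Nat.card (centralizerIn S φ.range) :=
    Nat.card_le_card_of_injective (Subgroup.inclusion (nK_bot_le Q φ))
      (Subgroup.inclusion_injective _)
  rw [← centralizerIn_eq_nK]
  exact h2.trans h1

theorem khom_iff (F : FusionSystem S) (Q P : Subgroup Ω) (φ : P →* Ω) :
    φ ∈ F.centralizerHom Q P ↔ Helper25.KHom F (⊥ : Subgroup (MulAut Q)) P φ := by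
  constructor
  · rintro ⟨hφ, hPN, hφN, ψ, hψ, hψP, hψQ⟩
    refine ⟨hφ, ?_, ?_, ψ, hψ, hψP, 1, Subgroup.one_mem _, fun x => hψQ x⟩
    · rw [← centralizerIn_eq_nK]; exact hPN
    · intro x; rw [← centralizerIn_eq_nK]; exact hφN x
  · rintro ⟨hφ, hPN, hφN, ψ, hψ, hψP, k, hk, hkQ⟩
    refine ⟨hφ, ?_, ?_, ψ, hψ, hψP, fun x => ?_⟩
    · rw [centralizerIn_eq_nK]; exact hPN
    · intro x; rw [centralizerIn_eq_nK]; exact hφN x
    · have hk1 : k = 1 := Subgroup.mem_bot.1 hk
      subst hk1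
      exact hkQ x

/-- If F is a saturated fusion system over a finite p-group S and Q is fully centralized in F, then the centralizer system C_F(Q) is a saturated fusion system over C_S(Q). -/
theorem result {Ω : Type*} [Group Ω] {S : Subgroup Ω} [Finite S] (p : ℕ) [Fact p.Prime] (hS : IsPGroup p S) (F : Cfsg.FusionSystem S) (hF : F.IsSaturated p) (Q : Subgroup Ω) (hQ : F.IsFullyCentralized Q) (E : Cfsg.FusionSystem (Cfsg.FusionSystem.centralizerIn S Q)) (hE : F.IsCentralizerSystem Q E) : E.IsSaturated p := by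
  refine Helper25.kNorm_saturated' hS F hF (⊥ : Subgroup (MulAut Q)) (fullK_bot F hQ)
    (centralizerIn S Q) (centralizerIn_eq_nK Q) E (fun P φ => ?_)
  rw [hE P]
  exact khom_iff F Q P φ

end Cfsg.Agent.S5099
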