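import Cfsg.Statements.S5102
import Mathlib

set_option autoImplicit false
open Cfsg

namespace Cfsg.Agent.S5102

/-- A normal p-subgroup of a finite group G is normal in the fusion system of G on a Sylow p-subgroup. -/
theorem result {G : Type*} [Group G] [Finite G] (p : ℕ) [Fact p.Prime] (S : Sylow p G) (R : Subgroup G) [R.Normal] (hR : IsPGroup p R) : (Cfsg.groupFusionSystem (S : Subgroup G)).IsNormal R := by
  have hRS : R ≤ (S : Subgroup G) := hR.le_sylow_of_normal S
  refine ⟨hRS, ?_⟩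
  rintro P φ ⟨hP, hφS, g, hg⟩
  have hgR : ∀ r ∈ R, g * r * g⁻¹ ∈ R := fun r hr => (inferInstance : R.Normal).conj_mem r hr g
  have hle : P ⊔ R ≤ (S : Subgroup G).comap (MulAut.conj g).toMonoidHom := by
    refine sup_le ?_ ?_
    · intro x hx
      show g * x * g⁻¹ ∈ (S : Subgroup G)
      have := hφS ⟨x, hx⟩
      rwa [hg] at this
    · intro r hr
      exact hRS (hgR r hr)
  refine ⟨conjHom (P ⊔ R) g, ⟨sup_le hP hRS, fun x => hle x.2, g, fun x => rfl⟩, fun x => (hg x).symm, ?_⟩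
  ext y
  constructor
  · rintro ⟨x, hx, rfl⟩
    exact hgR _ (Subgroup.mem_subgroupOf.mp hx)
  · intro hy
    have hy' : g⁻¹ * y * g ∈ R := by
      have := (inferInstance : R.Normal).conj_mem y hy g⁻¹
      simpa using this
    refine ⟨⟨g⁻¹ * y * g, (le_sup_right : R ≤ P ⊔ R) hy'⟩, Subgroup.mem_subgroupOf.mpr hy', ?_⟩
    show g * (g⁻¹ * y * g) * g⁻¹ = y
    group

end Cfsg.Agent.S5102
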