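import Cfsg.Statements.S5103
import Cfsg.Agent.Helper25.Realized2
import Cfsg.Agent.Helper25.FusExt

set_option autoImplicit false
open Cfsg

namespace Cfsg.Agent.S5103

open Cfsg.Agent.Helper25 in
/-- A fusion system over a finite p-group that has a model (a finite group realizing it on a Sylow p-subgroup with self-centralizing largest normal p-subgroup) is constrained. -/
theorem result {Ω : Type*} [Group Ω] {S : Subgroup Ω} [Finite S] (p : ℕ) [Fact p.Prime] (hS : IsPGroup p S) (F : Cfsg.FusionSystem S) {G : Type*} [Group G] (ι : S →* G) (hG : F.IsModel p G ι) : F.IsConstrained p := by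
  obtain ⟨hfin, hR, ⟨T, hT⟩, hcent⟩ := hG
  haveI := hfin
  refine ⟨realized_isSaturated hR T hT, ?_⟩
  have hinj := hR.1
  have hOn : (pCore p G).Normal := Subgroup.sSup_normal _ (fun _ hH => hH.1)
  have hOp : IsPGroup p (pCore p G) :=
    Sylow.sSup_of_normal _ (fun _ hH => hH.2) (fun _ hH => hH.1)
  have hOT : pCore p G ≤ ι.range := by
    rw [← hT]
    haveI := hOn
    exact hOp.le_sylow_of_normal T
  let Q₀ : Subgroup Ω := ((pCore p G).comap ι).map S.subtype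
  have hQ₀S : Q₀ ≤ S := by
    rintro _ ⟨s, -, rfl⟩
    exact s.2
  have hmemQ₀ : ∀ (x : Ω) (hx : x ∈ S), x ∈ Q₀ ↔ ι ⟨x, hx⟩ ∈ pCore p G := by
    intro x hx
    constructor
    · rintro ⟨s, hs, hsx⟩
      have hs' : s = ⟨x, hx⟩ := Subtype.ext hsx
      rw [← hs']
      exact hs
    · intro h
      exact ⟨⟨x, hx⟩, h, rfl⟩
  refine ⟨Q₀, ⟨hQ₀S, fun P φ hφ => ?_⟩, ⟨hQ₀S, fun R hR' => ?_⟩⟩
  · have hPS : P ≤ S := (F.le_of_mem hφ).1
    have hφS : ∀ x : P, φ x ∈ S := (F.le_of_mem hφ).2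
    obtain ⟨g, hg⟩ := (hR.2 P hPS φ hφS).mp hφ
    have hle : P ⊔ Q₀ ≤ S := sup_le hPS hQ₀S
    have hrange : ∀ x : ↥(P ⊔ Q₀), g * ι ⟨x, hle x.2⟩ * g⁻¹ ∈ ι.range := by
      refine forall_sup_of_le (ι.range.comap
        ((MulAut.conj g).toMonoidHom.comp (ι.comp (Subgroup.inclusion hle)))) ?_ ?_
      · intro x hx
        have hxP : (x : Ω) ∈ P := Subgroup.mem_subgroupOf.mp hx
        show g * ι ⟨x, hle x.2⟩ * g⁻¹ ∈ ι.range
        exact ⟨_, hg ⟨x, hxP⟩⟩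
      · intro x hx
        have hxQ : (x : Ω) ∈ Q₀ := Subgroup.mem_subgroupOf.mp hx
        show g * ι ⟨x, hle x.2⟩ * g⁻¹ ∈ ι.range
        exact hOT (hOn.conj_mem _ ((hmemQ₀ _ _).mp hxQ) g)
    obtain ⟨ψ, hψS, hψF, hψ⟩ := realized_hom_of_conj hR hle g hrange
    refine ⟨ψ, hψF, fun x => ?_, ?_⟩
    · have h1 : ι ⟨ψ (Subgroup.inclusion le_sup_left x), hψS _⟩ = ι ⟨φ x, hφS x⟩ :=
        (hψ _).trans (hg x).symm
      exact congrArg Subtype.val (hinj h1)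
    · ext y
      rw [mem_map_subgroupOf]
      constructor
      · rintro ⟨a, ha, hk, rfl⟩
        rw [hmemQ₀ _ (hψS _), hψ]
        exact hOn.conj_mem _ ((hmemQ₀ a (hle hk)).mp ha) g
      · intro hy
        have hyS : y ∈ S := hQ₀S hy
        have h1 : g⁻¹ * ι ⟨y, hyS⟩ * g ∈ pCore p G := by
          have h0 := hOn.conj_mem _ ((hmemQ₀ y hyS).mp hy) g⁻¹
          rwa [inv_inv] at h0
        obtain ⟨a, ha⟩ := hOT h1
        have haQ : (a : Ω) ∈ Q₀ := (hmemQ₀ a a.2).mpr (by rw [← ha] at h1; exact h1)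
        refine ⟨a, haQ, Subgroup.mem_sup_right haQ, ?_⟩
        have h2 : ι ⟨ψ ⟨a, Subgroup.mem_sup_right haQ⟩, hψS _⟩ = ι ⟨y, hyS⟩ := by
          rw [hψ]
          have h3 : ι ⟨((⟨(a : Ω), Subgroup.mem_sup_right haQ⟩ : ↥(P ⊔ Q₀)) : Ω),
              hle (Subgroup.mem_sup_right haQ)⟩ = g⁻¹ * ι ⟨y, hyS⟩ * g := ha
          rw [h3]
          group
        exact congrArg Subtype.val (hinj h2)
  · obtain ⟨φ, hφ, rfl⟩ := hR'
    have hφS : ∀ x : Q₀, φ x ∈ S := (F.le_of_mem hφ).2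
    obtain ⟨g, hg⟩ := (hR.2 Q₀ hQ₀S φ hφS).mp hφ
    have hrange : φ.range = Q₀ := by
      apply le_antisymm
      · rintro _ ⟨x, rfl⟩
        rw [hmemQ₀ _ (hφS x), hg]
        exact hOn.conj_mem _ ((hmemQ₀ x (hQ₀S x.2)).mp x.2) g
      · intro y hy
        have hyS : y ∈ S := hQ₀S hy
        have h1 : g⁻¹ * ι ⟨y, hyS⟩ * g ∈ pCore p G := by
          have h0 := hOn.conj_mem _ ((hmemQ₀ y hyS).mp hy) g⁻¹
          rwa [inv_inv] at h0
        obtain ⟨a, ha⟩ := hOT h1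
        have haQ : (a : Ω) ∈ Q₀ := (hmemQ₀ a a.2).mpr (by rw [← ha] at h1; exact h1)
        refine ⟨⟨a, haQ⟩, ?_⟩
        have h2 : ι ⟨φ ⟨a, haQ⟩, hφS _⟩ = ι ⟨y, hyS⟩ := by
          rw [hg]
          have h3 : ι ⟨((⟨(a : Ω), haQ⟩ : Q₀) : Ω), hQ₀S haQ⟩ = g⁻¹ * ι ⟨y, hyS⟩ * g := ha
          rw [h3]
          group
        exact congrArg Subtype.val (hinj h2)
    rw [hrange]
    intro c hc
    have hcS : c ∈ S := (Subgroup.mem_inf.mp hc).1
    have hcC : c ∈ Subgroup.centralizer (Q₀ : Set Ω) := (Subgroup.mem_inf.mp hc).2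
    rw [hmemQ₀ c hcS]
    apply hcent
    rw [Subgroup.mem_centralizer_iff]
    intro z hz
    obtain ⟨a, rfl⟩ := hOT hz
    have haQ : (a : Ω) ∈ Q₀ := (hmemQ₀ a a.2).mpr hz
    have h1 := Subgroup.mem_centralizer_iff.mp hcC a haQ
    have h2 : a * ⟨c, hcS⟩ = ⟨c, hcS⟩ * a := Subtype.ext h1
    rw [← map_mul, ← map_mul, h2]

end Cfsg.Agent.S5103
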