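import Cfsg.Statements.S5104
import Mathlib

set_option autoImplicit false
open Cfsg

namespace Cfsg.Agent.S5104

/-- In a saturated fusion system over a finite p-group S, a fully centralized subgroup U with C_S(U) ≤ U is centric. -/
theorem result {Ω : Type*} [Group Ω] {S : Subgroup Ω} [Finite S] (p : ℕ) [Fact p.Prime] (hS : IsPGroup p S) (F : Cfsg.FusionSystem S) (hF : F.IsSaturated p) (U : Subgroup Ω) (hU : F.IsFullyCentralized U) (hC : Cfsg.FusionSystem.centralizerIn S U ≤ U) : F.IsCentric U := by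
  refine ⟨hU.1, ?_⟩
  intro Q hQ
  have hcard := hU.2 Q hQ
  obtain ⟨φ, hφ, rfl⟩ := hQ
  have hQS : φ.range ≤ S := by
    rintro _ ⟨x, rfl⟩
    exact (F.le_of_mem hφ).2 x
  have hinj := F.injective_of_mem hφ
  have hfin : ∀ K : Subgroup Ω, K ≤ S → Finite K := fun K hK =>
    Finite.of_injective (Subgroup.inclusion hK) (Subgroup.inclusion_injective _)
  have hZU : FusionSystem.centralizerIn S U = U ⊓ Subgroup.centralizer (U : Set Ω) :=
    le_antisymm (le_inf hC inf_le_right) (inf_le_inf_right _ hU.1)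
  have hle : φ.range ⊓ Subgroup.centralizer (φ.range : Set Ω) ≤ FusionSystem.centralizerIn S φ.range :=
    inf_le_inf_right _ hQS
  have : Finite (FusionSystem.centralizerIn S φ.range) := hfin _ inf_le_left
  have : Finite ↥(φ.range ⊓ Subgroup.centralizer (φ.range : Set Ω)) := hfin _ (inf_le_left.trans hQS)
  have hmem : ∀ x : ↥(U ⊓ Subgroup.centralizer (U : Set Ω)),
      φ ⟨x, x.2.1⟩ ∈ φ.range ⊓ Subgroup.centralizer (φ.range : Set Ω) := by
    intro x
    refine ⟨⟨_, rfl⟩, ?_⟩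
    show φ ⟨x, x.2.1⟩ ∈ Subgroup.centralizer (φ.range : Set Ω)
    rw [Subgroup.mem_centralizer_iff]
    rintro _ ⟨u, rfl⟩
    rw [← map_mul, ← map_mul]
    congr 1
    apply Subtype.ext
    exact Subgroup.mem_centralizer_iff.mp x.2.2 u u.2
  have h1 : Nat.card ↥(U ⊓ Subgroup.centralizer (U : Set Ω)) ≤
      Nat.card ↥(φ.range ⊓ Subgroup.centralizer (φ.range : Set Ω)) := by
    refine Nat.card_le_card_of_injective
      (fun x => (⟨φ ⟨x, x.2.1⟩, hmem x⟩ : ↥(φ.range ⊓ Subgroup.centralizer (φ.range : Set Ω)))) ?_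
    intro x y hxy
    have h2 : φ ⟨x, x.2.1⟩ = φ ⟨y, y.2.1⟩ := congrArg Subtype.val hxy
    have h3 := hinj h2
    exact Subtype.ext (congrArg (fun z : U => (z : Ω)) h3)
  rw [hZU] at hcard
  have heq := Subgroup.eq_of_le_of_card_ge hle (hcard.trans h1)
  rw [← heq]
  exact inf_le_left

end Cfsg.Agent.S5104
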