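import Cfsg.Statements.S5105
import Cfsg.Agent.Helper26.Alperin

set_option autoImplicit false
open Cfsg

namespace Cfsg.Agent.S5105

open Cfsg.FusionSystem Cfsg.Agent.Helper26

/-- Averaging a cocycle that is constant on the left cosets of `S'`. -/
theorem avg {G A : Type*} [Group G] [Finite G] [CommGroup A] (S' : Subgroup G)
    (ρ : G →* MulAut A) (z : G → A) (hz : ∀ h g : G, z (h * g) = z h * ρ h (z g))
    (hzS : ∀ g : G, ∀ s ∈ S', z (g * s) = z g) :
    ∃ u : A, ∀ h : G, z h ^ S'.index = u * (ρ h u)⁻¹ := by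
  classical
  haveI : Fintype (G ⧸ S') := Fintype.ofFinite _
  have hout : ∀ g : G, z ((QuotientGroup.mk g : G ⧸ S').out) = z g := by
    intro g
    obtain ⟨s, hs⟩ := QuotientGroup.mk_out_eq_mul S' g
    rw [hs]; exact hzS g s s.2
  refine ⟨∏ q : G ⧸ S', z q.out, fun h => ?_⟩
  have h1 : ∏ q : G ⧸ S', z (h * q.out) = ∏ q : G ⧸ S', z q.out := by
    have h2 : ∀ q : G ⧸ S', z (h * q.out) = z ((MulAction.toPerm h q : G ⧸ S')).out := by
      intro q
      have h3 : (MulAction.toPerm h q : G ⧸ S') = QuotientGroup.mk (h * q.out) := by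
        show h • q = _
        conv_lhs => rw [← QuotientGroup.out_eq' q]
        rfl
      rw [h3, hout]
    rw [Finset.prod_congr rfl (fun q _ => h2 q)]
    exact Equiv.prod_comp (MulAction.toPerm h) (fun q : G ⧸ S' => z q.out)
  have h4 : ∏ q : G ⧸ S', z (h * q.out) = z h ^ S'.index * ρ h (∏ q : G ⧸ S', z q.out) := by
    rw [Finset.prod_congr rfl (fun q _ => hz h q.out), Finset.prod_mul_distrib,
      Finset.prod_const, map_prod, Finset.card_univ, Subgroup.index_eq_card,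
      Nat.card_eq_fintype_card]
  rw [h4] at h1
  exact eq_mul_inv_of_mul_eq h1

theorem avg' {G A : Type*} [Group G] [Finite G] [CommGroup A] [Finite A] (S' : Subgroup G)
    (ρ : G →* MulAut A) (z : G → A) (hz : ∀ h g : G, z (h * g) = z h * ρ h (z g))
    (hzS : ∀ g : G, ∀ s ∈ S', z (g * s) = z g)
    (hcop : Nat.Coprime S'.index (Nat.card A)) :
    ∃ w : A, ∀ h : G, z h = w * (ρ h w)⁻¹ := by
  obtain ⟨u, hu⟩ := avg S' ρ z hz hzS
  have hb := Nat.gcd_eq_gcd_ab S'.index (Nat.card A)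
  rw [hcop.gcd_eq_one, Nat.cast_one] at hb
  refine ⟨u ^ (Nat.gcdA S'.index (Nat.card A)), fun h => ?_⟩
  have h1 : z h = (z h ^ S'.index) ^ (Nat.gcdA S'.index (Nat.card A)) := by
    have h2 : z h ^ (1 : ℤ) = z h ^ ((S'.index : ℤ) * Nat.gcdA S'.index (Nat.card A) +
        (Nat.card A : ℤ) * Nat.gcdB S'.index (Nat.card A)) := by
      rw [← hb]
    rw [zpow_one, zpow_add, zpow_mul, zpow_mul, zpow_natCast, zpow_natCast, pow_card_eq_one',
      one_zpow, mul_one] at h2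
    exact h2
  rw [h1, hu h, mul_zpow, inv_zpow, map_zpow]

open scoped IsMulCommutative in
theorem rigid {G : Type*} [Group G] [Finite G] {p : ℕ} [Fact p.Prime] (T : Sylow p G)
    (Q : Subgroup G) [hQn : Q.Normal] (hQT : Q ≤ (T : Subgroup G))
    (hCQ : Subgroup.centralizer (Q : Set G) ≤ Q) (ψ : G ≃* G)
    (hψ : ∀ x ∈ (T : Subgroup G), ψ x = x) :
    ∃ w ∈ Q, ∀ g : G, ψ g = w * g * w⁻¹ := by
  have hconj : ∀ (g y : G), y ∈ Q → g⁻¹ * y * g ∈ Q := by
    intro g y hy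
    have h0 := hQn.conj_mem y hy g⁻¹
    rwa [inv_inv] at h0
  haveI hZn : (Subgroup.centralizer (Q : Set G)).Normal := ⟨fun x hx g => by
    rw [Subgroup.mem_centralizer_iff] at hx ⊢
    intro y hy
    have h1 := hx (g⁻¹ * y * g) (hconj g y hy)
    calc y * (g * x * g⁻¹) = g * ((g⁻¹ * y * g) * x) * g⁻¹ := by group
      _ = g * (x * (g⁻¹ * y * g)) * g⁻¹ := by rw [h1]
      _ = g * x * g⁻¹ * y := by group⟩
  haveI hZc : IsMulCommutative (Subgroup.centralizer (Q : Set G)) := ⟨⟨fun a b => by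
    apply Subtype.ext
    exact (Subgroup.mem_centralizer_iff.1 b.2) a (hCQ a.2)⟩⟩
  have hfix : ∀ x ∈ Q, ψ x = x := fun x hx => hψ x (hQT hx)
  have hzmem : ∀ g : G, ψ g * g⁻¹ ∈ Subgroup.centralizer (Q : Set G) := by
    intro g
    rw [Subgroup.mem_centralizer_iff]
    intro x hx
    have h1 := hfix _ (hconj g x hx)
    rw [map_mul, map_mul, map_inv, hfix x hx] at h1
    calc x * (ψ g * g⁻¹) = ψ g * ((ψ g)⁻¹ * x * ψ g) * g⁻¹ := by group
      _ = ψ g * (g⁻¹ * x * g) * g⁻¹ := by rw [h1]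
      _ = ψ g * g⁻¹ * x := by group
  have hz : ∀ h g : G, (⟨ψ (h * g) * (h * g)⁻¹, hzmem (h * g)⟩ :
      Subgroup.centralizer (Q : Set G)) =
      ⟨ψ h * h⁻¹, hzmem h⟩ * MulAut.conjNormal h ⟨ψ g * g⁻¹, hzmem g⟩ := by
    intro h g
    apply Subtype.ext
    show ψ (h * g) * (h * g)⁻¹ = ψ h * h⁻¹ * (h * (ψ g * g⁻¹) * h⁻¹)
    rw [map_mul]; group
  have hzS : ∀ g : G, ∀ s ∈ (T : Subgroup G), (⟨ψ (g * s) * (g * s)⁻¹, hzmem (g * s)⟩ :
      Subgroup.centralizer (Q : Set G)) = ⟨ψ g * g⁻¹, hzmem g⟩ := by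
    intro g s hs
    apply Subtype.ext
    show ψ (g * s) * (g * s)⁻¹ = ψ g * g⁻¹
    rw [map_mul, hψ s hs]; group
  have hZp : IsPGroup p (Subgroup.centralizer (Q : Set G)) := T.isPGroup'.to_le (hCQ.trans hQT)
  obtain ⟨k, hk⟩ := IsPGroup.iff_card.1 hZp
  have hcop : Nat.Coprime (T : Subgroup G).index
      (Nat.card (Subgroup.centralizer (Q : Set G))) := by
    rw [hk]
    exact Nat.Coprime.pow_right k
      ((Nat.Prime.coprime_iff_not_dvd (Fact.out)).2 T.not_dvd_index).symm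
  obtain ⟨w, hw⟩ := avg' (A := ↥(Subgroup.centralizer (Q : Set G))) (T : Subgroup G)
    MulAut.conjNormal (fun g => ⟨ψ g * g⁻¹, hzmem g⟩) hz hzS hcop
  refine ⟨w, hCQ w.2, fun g => ?_⟩
  have h1 := congrArg Subtype.val (hw g)
  have h2 : ψ g * g⁻¹ = (w : G) * (g * (w : G) * g⁻¹)⁻¹ := h1
  calc ψ g = ψ g * g⁻¹ * g := by group
    _ = (w : G) * (g * (w : G) * g⁻¹)⁻¹ * g := by rw [h2]
    _ = w * g * (w : G)⁻¹ := by group

/-- Model Theorem, rigidity: if G is a model of a constrained fusion system over a finite p-group S (through ι : S → G), then every automorphism of G fixing ι(S) elementwise is conjugation by ι(z) for some z in the centre of S. -/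
theorem result {Ω : Type*} [Group Ω] {S : Subgroup Ω} [Finite S] (p : ℕ) [Fact p.Prime] (hS : IsPGroup p S) (F : Cfsg.FusionSystem S) (hF : F.IsConstrained p) {G : Type*} [Group G] (ι : S →* G) (hG : F.IsModel p G ι) (ψ : G ≃* G) (hψ : ∀ x : S, ψ (ι x) = ι x) : ∃ z : S, z ∈ Subgroup.center S ∧ ∀ g : G, ψ g = ι z * g * (ι z)⁻¹ := by
  obtain ⟨hfin, hreal, ⟨T, hT⟩, hC⟩ := hG
  haveI := hfin
  haveI : (pCore p G).Normal := pCore_normal' p G
  obtain ⟨w, hwQ, hw⟩ := rigid T (pCore p G) (pCore_le_sylow' T) hC ψ (by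
    intro x hx
    rw [hT] at hx
    obtain ⟨s, rfl⟩ := hx
    exact hψ s)
  have hwR : w ∈ ι.range := by rw [← hT]; exact pCore_le_sylow' T hwQ
  obtain ⟨z₀, rfl⟩ := hwR
  refine ⟨z₀, ?_, hw⟩
  rw [Subgroup.mem_center_iff]
  intro s
  apply hreal.1
  rw [map_mul, map_mul]
  have h1 := hw (ι s)
  rw [hψ s] at h1
  calc ι s * ι z₀ = (ι z₀ * ι s * (ι z₀)⁻¹) * ι z₀ := by rw [← h1]
    _ = ι z₀ * ι s := by group

end Cfsg.Agent.S5105
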