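import Cfsg.Statements.S5106
import Cfsg.Agent.Helper26.FusNormal2

set_option autoImplicit false
open Cfsg

namespace Cfsg.Agent.S5106

open Cfsg.FusionSystem Cfsg.Agent.Helper26

theorem sc_char {Ω : Type*} [Group Ω] {S : Subgroup Ω} (F : Cfsg.FusionSystem S)
    {R : Subgroup Ω} (hRS : R ≤ S)
    (H : ∀ (P : Subgroup Ω) (hPR : P ≤ R) (φ : P →* Ω), φ ∈ F.Hom P →
      ∃ α ∈ F.autGroup R, ∀ x : P, ((α (Subgroup.inclusion hPR x) : R) : Ω) = φ x)
    (U : Subgroup R) [hU : U.Characteristic] : F.StronglyClosed (U.map R.subtype) := by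
  refine ⟨(Subgroup.map_subtype_le U).trans hRS, ?_⟩
  intro P hP φ hφ x
  obtain ⟨α, -, hα⟩ := H P (hP.trans (Subgroup.map_subtype_le U)) φ hφ
  obtain ⟨u, hu, hux⟩ := hP x.2
  have h1 : α u ∈ U := by
    have h1 := hU.fixed α
    rw [← h1] at hu
    exact Subgroup.mem_comap.1 hu
  have h2 : Subgroup.inclusion (hP.trans (Subgroup.map_subtype_le U)) x = u :=
    Subtype.ext hux.symm
  rw [← hα x, h2]
  exact ⟨α u, h1, rfl⟩

/-- In a saturated fusion system over a finite p-group S, a subgroup R ≤ S is normal in the system if and only if every map of the system whose source is a subgroup of R is the restriction of an element of Aut_F(R). -/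
theorem result {Ω : Type*} [Group Ω] {S : Subgroup Ω} [Finite S] (p : ℕ) [Fact p.Prime] (hS : IsPGroup p S) (F : Cfsg.FusionSystem S) (hF : F.IsSaturated p) (R : Subgroup Ω) (hRS : R ≤ S) : F.IsNormal R ↔ ∀ (P : Subgroup Ω) (hPR : P ≤ R) (φ : P →* Ω), φ ∈ F.Hom P → ∃ α ∈ F.autGroup R, ∀ x : P, ((α (Subgroup.inclusion hPR x) : R) : Ω) = φ x := by
  have : Finite R := finite_of_le hRS
  constructor
  · intro hN P hPR φ hφ
    obtain ⟨ψ, hψ, hψa, hψQ⟩ := hN.2 P φ hφ
    have hψ' : ψ.comp (Subgroup.inclusion (le_sup_right : R ≤ P ⊔ R)) ∈ F.Hom R :=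
      fs_restrict F le_sup_right hψ
    obtain ⟨e, he, hex⟩ := exists_iso_of_hom_of_card F hψ' (Q := R)
      (fun y => normExt_mem_Q hψQ _ y.2) le_rfl
    refine ⟨e, (mem_autGroup_iff F hRS e).2 he, fun x => ?_⟩
    exact (hex _).trans (hψa x)
  · intro H
    have hsc : F.StronglyClosed R := by
      refine ⟨hRS, fun P hP φ hφ x => ?_⟩
      obtain ⟨α, -, hα⟩ := H P hP φ hφ
      rw [← hα x]
      exact (α _).2
    have hnil : Group.IsNilpotent R := (isPGroup_of_le hS hRS).isNilpotent
    refine normal_of_chain hS F hF hsc (Group.nilpotencyClass R)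
      (fun i => (Subgroup.upperCentralSeries R (i : ℕ)).map R.subtype) ?_ ?_ ?_ ?_ ?_
    · show (Subgroup.upperCentralSeries R ((0 : Fin (Group.nilpotencyClass R + 1)) : ℕ)).map
        R.subtype = ⊥
      rw [Fin.val_zero, Subgroup.upperCentralSeries_zero, Subgroup.map_bot]
    · show (Subgroup.upperCentralSeries R ((Fin.last (Group.nilpotencyClass R)) : ℕ)).map
        R.subtype = R
      rw [Fin.val_last, Subgroup.upperCentralSeries_nilpotencyClass, ← MonoidHom.range_eq_map,
        Subgroup.range_subtype]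
    · intro i j hij
      exact Subgroup.map_mono (Subgroup.upperCentralSeries_mono R (Fin.le_def.1 hij))
    · intro i
      show ⁅(Subgroup.upperCentralSeries R ((i.succ : Fin (Group.nilpotencyClass R + 1)) : ℕ)).map
        R.subtype, R⁆ ≤ (Subgroup.upperCentralSeries R ((i.castSucc : Fin _) : ℕ)).map R.subtype
      rw [Fin.val_succ, Fin.val_castSucc]
      have h2 : ⁅(Subgroup.upperCentralSeries R ((i : ℕ) + 1)).map R.subtype, R⁆
          = Subgroup.map R.subtype
            ⁅Subgroup.upperCentralSeries R ((i : ℕ) + 1), (⊤ : Subgroup R)⁆ := by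
        rw [Subgroup.map_commutator, ← MonoidHom.range_eq_map, Subgroup.range_subtype]
      rw [h2]
      exact Subgroup.map_mono (Subgroup.commutator_upperCentralSeries_top_le R (i : ℕ))
    · intro i
      exact weaklyClosed_of_stronglyClosed F
        (sc_char F hRS H (Subgroup.upperCentralSeries R _))

end Cfsg.Agent.S5106
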