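import Cfsg.Statements.S5107
import Cfsg.Agent.Helper26.FusNormal2
import Cfsg.Agent.Helper25.GroupFusion2

set_option autoImplicit false
open Cfsg

namespace Cfsg.Agent.S5107

open Cfsg.FusionSystem Cfsg.Agent.Helper26

theorem mem_normalizer_of_conj_mem {G : Type*} [Group G] (T : Subgroup G) [Finite T] (g : G)
    (h : ∀ q ∈ T, g * q * g⁻¹ ∈ T) : g ∈ Subgroup.normalizer (T : Set G) := by
  rw [Subgroup.mem_normalizer_iff]
  intro x
  refine ⟨h x, fun hx => ?_⟩
  have hinj : Function.Injective (fun q : T => (⟨g * q * g⁻¹, h q q.2⟩ : T)) := by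
    intro a b hab
    have h1 : g * (a : G) * g⁻¹ = g * (b : G) * g⁻¹ := congrArg Subtype.val hab
    exact Subtype.ext (mul_left_cancel (mul_right_cancel h1))
  obtain ⟨q, hq⟩ := (Finite.injective_iff_surjective.1 hinj) ⟨g * x * g⁻¹, hx⟩
  have h2 : g * (q : G) * g⁻¹ = g * x * g⁻¹ := congrArg Subtype.val hq
  have h3 : (q : G) = x := mul_left_cancel (mul_right_cancel h2)
  rw [← h3]; exact q.2

/-- If a Sylow p-subgroup S of a finite group G has nilpotency class at most two and its centre is strongly closed in S with respect to G, then every map of the fusion system of G on S is conjugation by an element of N_G(S), and S is the largest subgroup normal in that fusion system. -/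
theorem result {G : Type*} [Group G] [Finite G] (p : ℕ) [Fact p.Prime] (S : Sylow p G) (hcl : ⁅(S : Subgroup G), (S : Subgroup G)⁆ ≤ (S : Subgroup G) ⊓ Subgroup.centralizer ((S : Subgroup G) : Set G)) (hZ : Cfsg.IsStronglyClosed ((S : Subgroup G) ⊓ Subgroup.centralizer ((S : Subgroup G) : Set G)) (S : Subgroup G)) : (∀ (P : Subgroup G) (φ : P →* G), φ ∈ (Cfsg.groupFusionSystem (S : Subgroup G)).Hom P → ∃ g ∈ Subgroup.normalizer ((S : Subgroup G) : Set G), ∀ x : P, φ x = g * (x : G) * g⁻¹) ∧ (Cfsg.groupFusionSystem (S : Subgroup G)).core = S := by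
  have hS : IsPGroup p (S : Subgroup G) := S.isPGroup'
  have hF : (Cfsg.groupFusionSystem (S : Subgroup G)).IsSaturated p :=
    Cfsg.Agent.Helper25.groupFusionSystem_isSaturated p S
  have hZsc : (Cfsg.groupFusionSystem (S : Subgroup G)).StronglyClosed
      ((S : Subgroup G) ⊓ Subgroup.centralizer ((S : Subgroup G) : Set G)) := by
    refine ⟨inf_le_left, fun R hR φ hφ x => ?_⟩
    obtain ⟨-, hφS, g, hg⟩ := hφ
    have h1 := hZ.2 x (hR x.2) g
    rw [← hg x] at h1
    exact h1 (hφS x)
  have hSsc : (Cfsg.groupFusionSystem (S : Subgroup G)).StronglyClosed (S : Subgroup G) :=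
    ⟨le_rfl, fun R _ φ hφ x => ((Cfsg.groupFusionSystem (S : Subgroup G)).le_of_mem hφ).2 x⟩
  have hN : (Cfsg.groupFusionSystem (S : Subgroup G)).IsNormal (S : Subgroup G) := by
    refine normal_of_chain hS _ hF hSsc 2
      ![⊥, (S : Subgroup G) ⊓ Subgroup.centralizer ((S : Subgroup G) : Set G), (S : Subgroup G)]
      rfl rfl ?_ ?_ ?_
    · rw [Fin.monotone_iff_le_succ]
      refine Fin.forall_fin_two.2 ⟨?_, ?_⟩
      · show (⊥ : Subgroup G) ≤ _
        exact bot_le
      · show (S : Subgroup G) ⊓ Subgroup.centralizer ((S : Subgroup G) : Set G) ≤ (S : Subgroup G)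
        exact inf_le_left
    · refine Fin.forall_fin_two.2 ⟨?_, ?_⟩
      · show ⁅(S : Subgroup G) ⊓ Subgroup.centralizer ((S : Subgroup G) : Set G),
          (S : Subgroup G)⁆ ≤ ⊥
        exact (Subgroup.commutator_eq_bot_iff_le_centralizer.2 inf_le_right).le
      · show ⁅(S : Subgroup G), (S : Subgroup G)⁆
          ≤ (S : Subgroup G) ⊓ Subgroup.centralizer ((S : Subgroup G) : Set G)
        exact hcl
    · refine Fin.forall_fin_two.2 ⟨?_, ?_⟩
      · show (Cfsg.groupFusionSystem (S : Subgroup G)).WeaklyClosed ⊥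
        exact weaklyClosed_of_stronglyClosed _ (stronglyClosed_bot _)
      · show (Cfsg.groupFusionSystem (S : Subgroup G)).WeaklyClosed
          ((S : Subgroup G) ⊓ Subgroup.centralizer ((S : Subgroup G) : Set G))
        exact weaklyClosed_of_stronglyClosed _ hZsc
  refine ⟨fun P φ hφ => ?_, ?_⟩
  · obtain ⟨ψ, hψ, hψa, -⟩ := hN.2 P φ hφ
    obtain ⟨-, hψS, g, hg⟩ := hψ
    refine ⟨g, mem_normalizer_of_conj_mem _ g (fun q hq => ?_), fun x => ?_⟩
    · have h1 := hψS ⟨q, Subgroup.mem_sup_right hq⟩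
      rw [hg] at h1
      exact h1
    · rw [← hψa x, hg]
      rfl
  · apply le_antisymm
    · exact sSup_le (fun Q hQ => hQ.1)
    · exact le_sSup hN

end Cfsg.Agent.S5107
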