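import Cfsg.Statements.S5111
import Cfsg.Agent.Helper25.FusAut

set_option autoImplicit false
open Cfsg

namespace Cfsg.Agent.S5111

open Cfsg.FusionSystem Cfsg.Agent.Helper26 Cfsg.Agent.Helper25

variable {Ω : Type*} [Group Ω] {S : Subgroup Ω}

/-- An automorphism in `Aut_F(Q)` normalizing `Aut_S(Q)`, with `Q` receptive, extends to an
automorphism of `N_S(Q)` in the system. -/
theorem exists_ext_aut (F : Cfsg.FusionSystem S) [Finite S] {Q : Subgroup Ω}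
    (hQr : F.IsReceptive Q) (α : MulAut Q) (hα : α ∈ F.autGroup Q)
    (hαn : ∀ c ∈ autInducedBy S Q, α * c * α⁻¹ ∈ autInducedBy S Q) :
    ∃ a : MulAut (normalizerIn S Q), IsIso F a ∧
      ∀ x : Q, a ⟨x, le_normalizerIn hQr.1 x.2⟩ = ⟨α x, le_normalizerIn hQr.1 (α x).2⟩ := by
  have hQS := hQr.1
  have hQN : Q ≤ normalizerIn S Q := le_normalizerIn hQS
  have he : IsIso F α := (mem_autGroup_iff F hQS α).1 hα
  have hNext : normalizerIn S Q ≤ extender S Q (Q.subtype.comp α.toMonoidHom) := by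
    intro g hg
    rw [mem_extender_iff']
    refine ⟨hg.1, hg.2, ?_⟩
    have h1 := hαn (conjAut Q g hg.2) (conjAut_mem S Q g hg.1 hg.2)
    obtain ⟨h, hhS, hh⟩ := (Helper26.mem_autInducedBy_iff S Q _).1 h1
    refine ⟨h, hhS, fun x y hy => ?_⟩
    have h2 := hh (α x)
    have h3 : (α * conjAut Q g hg.2 * α⁻¹) (α x) = α y := by
      show α (conjAut Q g hg.2 (α⁻¹ (α x))) = α y
      rw [MulAut.inv_apply_self]
      exact congrArg α (Subtype.ext hy.symm)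
    rw [h3] at h2
    exact h2
  obtain ⟨χ, hχ, hχe⟩ := receptive_ext F hQr he
  have hν : χ.comp (Subgroup.inclusion hNext) ∈ F.Hom (normalizerIn S Q) :=
    fs_restrict F hNext hχ
  have hνQ : ∀ x : Q, (χ.comp (Subgroup.inclusion hNext)) ⟨x, hQN x.2⟩ = α x :=
    fun x => hχe x (hNext (hQN x.2))
  have hνN : ∀ g : normalizerIn S Q,
      (χ.comp (Subgroup.inclusion hNext)) g ∈ normalizerIn S Q := by
    intro g
    refine hom_mem_normalizerIn F hν (Q := Q) (P := Q) ?_ ?_ g.2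
    · intro x hx
      have h : (χ.comp (Subgroup.inclusion hNext)) x = α ⟨x, hx⟩ := hνQ ⟨x, hx⟩
      rw [h]; exact (α _).2
    · intro y hy
      refine ⟨⟨α⁻¹ ⟨y, hy⟩, hQN (α⁻¹ ⟨y, hy⟩).2⟩, (α⁻¹ ⟨y, hy⟩).2, ?_⟩
      have h := hνQ (α⁻¹ ⟨y, hy⟩)
      rw [MulAut.apply_inv_self] at h
      exact h
  obtain ⟨a, ha, hax⟩ := exists_iso_of_hom_of_card F hν (Q := normalizerIn S Q) hνN le_rfl
  exact ⟨a, ha, fun x => Subtype.ext ((hax _).trans (hνQ x))⟩

/-- If `γ ∈ Aut_F(N_S(Q))` is a `p`-element restricting to `δ` on the fully normalized `Q`, and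
`N_S(Q)` has a fully automized conjugate, then `δ ∈ Aut_S(Q)`. -/
theorem induced_of_ext {p : ℕ} [Fact p.Prime] [Finite S] (F : Cfsg.FusionSystem S)
    {Q : Subgroup Ω} (hQn : F.IsFullyNormalized Q) {N' : Subgroup Ω}
    (hNN' : F.IsConj (normalizerIn S Q) N') (hN'a : F.IsFullyAutomized p N')
    (γ : MulAut (normalizerIn S Q)) (hγ : IsIso F γ) (k : ℕ) (hγk : γ ^ p ^ k = 1)
    (δ : MulAut Q)
    (hγQ : ∀ x : Q, γ ⟨x, le_normalizerIn hQn.1 x.2⟩ = ⟨δ x, le_normalizerIn hQn.1 (δ x).2⟩) :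
    δ ∈ autInducedBy S Q := by
  have hQS := hQn.1
  have hQN : Q ≤ normalizerIn S Q := le_normalizerIn hQS
  have hNS : normalizerIn S Q ≤ S := inf_le_left
  have hN'S := isConj_le_right F hNN'
  have : Finite N' := finite_of_le hN'S
  obtain ⟨θ, hθ, s, hsS, hstar⟩ := exists_conj_to_inner F hNN' hN'a γ hγ k hγk
  have hcard : Nat.card (normalizerIn S Q) = Nat.card N' := Nat.card_congr θ.toEquiv
  obtain ⟨Q', hmemQ', hconj⟩ := exists_image_conj F θ hθ hQN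
  have hcardle : Nat.card (normalizerIn S Q') ≤ Nat.card (normalizerIn S Q) := hQn.2 Q' hconj
  have hN'le : N' ≤ normalizerIn S Q' := by
    intro n' hn'
    have h1 := hom_mem_normalizerIn F (χ := N'.subtype.comp θ.toMonoidHom) hθ (Q := Q) (P := Q')
      (fun x hx => (hmemQ' _).2 ⟨x, hx, rfl⟩)
      (fun y hy => (hmemQ' y).1 hy) (g := θ.symm ⟨n', hn'⟩) (θ.symm ⟨n', hn'⟩).2
    have h2 : (N'.subtype.comp θ.toMonoidHom) (θ.symm ⟨n', hn'⟩) = n' :=
      congrArg Subtype.val (MulEquiv.apply_symm_apply θ ⟨n', hn'⟩)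
    rw [h2] at h1
    exact h1
  have hN'eq : N' = normalizerIn S Q' :=
    Subgroup.eq_of_le_of_card_ge hN'le (hcardle.trans hcard.le)
  have hγinv : ∀ x : Q, γ⁻¹ ⟨x, hQN x.2⟩ = ⟨δ⁻¹ x, hQN (δ⁻¹ x).2⟩ := by
    intro x
    have h1 : γ ⟨δ⁻¹ x, hQN (δ⁻¹ x).2⟩ = ⟨x, hQN x.2⟩ := by
      rw [hγQ]
      have h0 : δ (δ⁻¹ x) = x := by rw [MulAut.apply_inv_self]
      exact Subtype.ext (show ((δ (δ⁻¹ x) : Q) : Ω) = (x : Ω) from congrArg Subtype.val h0)
    have h2 : γ⁻¹ (γ ⟨δ⁻¹ x, hQN (δ⁻¹ x).2⟩) = γ⁻¹ ⟨x, hQN x.2⟩ := congrArg _ h1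
    rw [MulAut.inv_apply_self] at h2
    exact h2.symm
  have hsN : s ∈ normalizerIn S Q' := by
    rw [mem_normalizerIn_iff]
    refine ⟨hsS, fun y => ⟨fun hy => ?_, fun hy => ?_⟩⟩
    · obtain ⟨x, hx, rfl⟩ := (hmemQ' y).1 hy
      rw [← hstar x]
      refine (hmemQ' _).2 ⟨γ x, ?_, rfl⟩
      have h2 : γ x = ⟨δ ⟨x, hx⟩, hQN (δ ⟨x, hx⟩).2⟩ := hγQ ⟨x, hx⟩
      rw [h2]; exact (δ ⟨x, hx⟩).2
    · obtain ⟨x, hx, hxy⟩ := (hmemQ' _).1 hy
      have h1 := hstar (γ⁻¹ x)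
      rw [MulAut.apply_inv_self, hxy] at h1
      have h2 : y = ((θ (γ⁻¹ x) : N') : Ω) := mul_left_cancel (mul_right_cancel h1)
      rw [h2]
      refine (hmemQ' _).2 ⟨γ⁻¹ x, ?_, rfl⟩
      have h3 : γ⁻¹ x = ⟨δ⁻¹ ⟨x, hx⟩, hQN (δ⁻¹ ⟨x, hx⟩).2⟩ := hγinv ⟨x, hx⟩
      rw [h3]; exact (δ⁻¹ ⟨x, hx⟩).2
  have hsN' : s ∈ N' := hN'eq.ge hsN
  have hγc : ∀ n : normalizerIn S Q,
      γ n = θ.symm ⟨s, hsN'⟩ * n * (θ.symm ⟨s, hsN'⟩)⁻¹ := by
    intro n
    apply θ.injective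
    apply Subtype.ext
    have h1 : θ (θ.symm ⟨s, hsN'⟩ * n * (θ.symm ⟨s, hsN'⟩)⁻¹)
        = ⟨s, hsN'⟩ * θ n * (⟨s, hsN'⟩ : N')⁻¹ := by
      rw [map_mul, map_mul, map_inv, MulEquiv.apply_symm_apply]
    have h2 : ((θ (θ.symm ⟨s, hsN'⟩ * n * (θ.symm ⟨s, hsN'⟩)⁻¹) : N') : Ω)
        = s * ((θ n : N') : Ω) * s⁻¹ := congrArg Subtype.val h1
    exact (hstar n).trans h2.symm
  rw [Helper26.mem_autInducedBy_iff]
  refine ⟨(θ.symm ⟨s, hsN'⟩ : normalizerIn S Q), hNS (θ.symm ⟨s, hsN'⟩).2, fun x => ?_⟩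
  have h1 := hγQ x
  rw [hγc] at h1
  exact (congrArg Subtype.val h1).symm

/-- The key step: a `p`-element of `Aut_F(Q)` normalizing `Aut_S(Q)` lies in `Aut_S(Q)`. -/
theorem key {p : ℕ} [Fact p.Prime] [Finite S] (hS : IsPGroup p S) (F : Cfsg.FusionSystem S)
    {Q : Subgroup Ω} (hQn : F.IsFullyNormalized Q) (hQr : F.IsReceptive Q) (hne : Q ≠ S)
    (IH : ∀ N' : Subgroup Ω, F.IsFullyNormalized N' → Nat.card Q < Nat.card N' →
      F.IsFullyAutomized p N')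
    (α : MulAut Q) (hα : α ∈ F.autGroup Q)
    (hαn : ∀ c ∈ autInducedBy S Q, α * c * α⁻¹ ∈ autInducedBy S Q)
    (j : ℕ) (hαp : α ^ p ^ j = 1) : α ∈ autInducedBy S Q := by
  have hQS := hQn.1
  have hQN : Q ≤ normalizerIn S Q := le_normalizerIn hQS
  have hNS : normalizerIn S Q ≤ S := inf_le_left
  obtain ⟨a, ha, haQ⟩ := exists_ext_aut F hQr α hα hαn
  have ho : orderOf a ≠ 0 := (orderOf_pos a).ne'
  obtain ⟨k, m, hpm, hkm⟩ :=
    Nat.exists_eq_pow_mul_and_not_dvd ho p (Fact.out : p.Prime).ne_one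
  have hγk : (a ^ m) ^ p ^ k = 1 := by
    rw [← pow_mul, mul_comm, ← hkm]; exact pow_orderOf_eq_one a
  have hcop : Nat.Coprime m (orderOf α) := by
    have h1 : orderOf α ∣ p ^ j := orderOf_dvd_of_pow_eq_one hαp
    have h2 : Nat.Coprime p m := (Nat.Prime.coprime_iff_not_dvd Fact.out).2 hpm
    exact Nat.Coprime.coprime_dvd_right h1 (Nat.Coprime.pow_right j h2.symm)
  obtain ⟨c, hc⟩ := exists_pow_eq_self_of_coprime hcop
  have hδ : α ^ m ∈ autInducedBy S Q := by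
    obtain ⟨N', hNN', hN'n⟩ := exists_fullyNormalized_conj F hNS
    obtain ⟨e, he'⟩ := (isConj_iff F).1 hNN'
    have hcard : Nat.card (normalizerIn S Q) = Nat.card N' := Nat.card_congr e.toEquiv
    obtain ⟨g₀, hg₀N, hg₀Q⟩ := exists_normalizerIn_not_mem hS hQS hne
    have hlt : Nat.card Q < Nat.card N' := by
      rw [← hcard]; exact card_lt_of_mem_not_mem hNS hQN hg₀N hg₀Q
    exact induced_of_ext F hQn hNN' (IH N' hN'n hlt) (a ^ m)
      ((mem_autGroup_iff F hNS _).1 (pow_mem ((mem_autGroup_iff F hNS a).2 ha) m)) k hγk (α ^ m)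
      (pow_restrict hQN a α haQ m)
  have h := pow_mem hδ c
  rw [hc] at h
  exact h

theorem fa_of_fn {p : ℕ} [Fact p.Prime] [Finite S] (hS : IsPGroup p S) (F : Cfsg.FusionSystem S)
    (hSa : F.IsFullyAutomized p S)
    (hrec : ∀ P : Subgroup Ω, F.IsFullyNormalized P → F.IsReceptive P) :
    ∀ n : ℕ, ∀ Q : Subgroup Ω, F.IsFullyNormalized Q → Nat.card S - Nat.card Q = n →
      F.IsFullyAutomized p Q := by
  intro n
  induction n using Nat.strong_induction_on with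
  | _ n ih =>
    intro Q hQn hn
    have hQS := hQn.1
    by_cases hne : Q = S
    · rw [hne]; exact hSa
    have : Finite Q := finite_of_le hQS
    have hBp : IsPGroup p ((autInducedBy S Q).subgroupOf (F.autGroup Q)) :=
      (isPGroup_autInducedBy hS Q).comap_of_injective _ (Subgroup.subtype_injective _)
    obtain ⟨R, hBR⟩ := hBp.exists_le_sylow
    by_cases hBeq : (R : Subgroup (F.autGroup Q)) = (autInducedBy S Q).subgroupOf (F.autGroup Q)
    · exact ⟨hQS, R, hBeq⟩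
    exfalso
    have hRp : IsPGroup p (R : Subgroup (F.autGroup Q)) := R.isPGroup'
    obtain ⟨r, hrN, hrB⟩ := exists_normalizerIn_not_mem (S := (R : Subgroup (F.autGroup Q)))
      hRp hBR (fun h => hBeq h.symm)
    apply hrB
    rw [Subgroup.mem_subgroupOf]
    obtain ⟨j, hj⟩ := hRp ⟨r, hrN.1⟩
    have hj' : (r : MulAut Q) ^ p ^ j = 1 := congrArg Subtype.val (congrArg Subtype.val hj)
    refine key hS F hQn (hrec Q hQn) hne ?_ (r : MulAut Q) r.2 ?_ j hj'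
    · intro N' hN'n hlt
      have hle : Nat.card N' ≤ Nat.card S := Subgroup.card_le_of_le hN'n.1
      exact ih (Nat.card S - Nat.card N') (by omega) N' hN'n rfl
    · intro c hc
      have hcA : c ∈ F.autGroup Q := autInducedBy_le_autGroup F hQS hc
      have h1 : (⟨c, hcA⟩ : F.autGroup Q) ∈ (autInducedBy S Q).subgroupOf (F.autGroup Q) :=
        Subgroup.mem_subgroupOf.2 hc
      have h2 := (Subgroup.mem_normalizer_iff.1 hrN.2 ⟨c, hcA⟩).1 h1
      exact Subgroup.mem_subgroupOf.1 h2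

/-- A fusion system over a finite p-group S is saturated if and only if the inner automorphisms of S form a Sylow p-subgroup of Aut_F(S) and every fully normalized subgroup of S is receptive. -/
theorem result {Ω : Type*} [Group Ω] {S : Subgroup Ω} [Finite S] (p : ℕ) [Fact p.Prime] (hS : IsPGroup p S) (F : Cfsg.FusionSystem S) : F.IsSaturated p ↔ (F.IsFullyAutomized p S ∧ ∀ P : Subgroup Ω, F.IsFullyNormalized P → F.IsReceptive P) := by
  constructor
  · intro hF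
    have hSn : F.IsFullyNormalized S := by
      refine ⟨le_rfl, fun Q _ => ?_⟩
      apply Subgroup.card_le_of_le
      intro g hg
      exact ⟨hg.1, Subgroup.le_normalizer hg.1⟩
    exact ⟨(sat_of_fullyNormalized hS F hF hSn).2.1,
      fun P hP => (sat_of_fullyNormalized hS F hF hP).2.2⟩
  · rintro ⟨hSa, hrec⟩
    intro P hPS
    obtain ⟨Q, hPQ, hQn⟩ := exists_fullyNormalized_conj F hPS
    exact ⟨Q, hPQ, fa_of_fn hS F hSa hrec _ Q hQn rfl, hrec Q hQn⟩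

end Cfsg.Agent.S5111
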