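import Mathlib
import Cfsg.Statements.S5112
import Cfsg.Agent.Helper26.DihAut
import Cfsg.Agent.Helper26.Alperin
-- import your own Cfsg.Agent.* helpers here

set_option autoImplicit false
open Cfsg

namespace Cfsg.Agent.S5112

/-- If S is a dihedral or generalized quaternion 2-group of order at least 16, then in every saturated fusion system over S (at the prime 2) the automorphism group Aut_F(S) consists of the inner automorphisms of S. -/
theorem result {Ω : Type*} [Group Ω] {S : Subgroup Ω} [Finite S] (n : ℕ) (hn : 4 ≤ n) (hshape : Nonempty (S ≃* DihedralGroup (2 ^ (n - 1))) ∨ Nonempty (S ≃* QuaternionGroup (2 ^ (n - 2)))) (F : Cfsg.FusionSystem S) (hF : F.IsSaturated 2) : F.autGroup S = Cfsg.Inn S := by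
  haveI : Fact (Nat.Prime 2) := ⟨Nat.prime_two⟩
  have hodd : ∀ (φ : MulAut S) (N : ℕ), Odd N → φ ^ N = 1 → φ = 1 := by
    rcases hshape with ⟨⟨e⟩⟩ | ⟨⟨e⟩⟩
    · exact Helper26.aut_eq_one_of_equiv e (Helper26.dihedral_aut_odd (n - 1) (by omega))
    · exact Helper26.aut_eq_one_of_equiv e (Helper26.quaternion_aut_odd (n - 2) (by omega))
  have hS : IsPGroup 2 S := by
    rcases hshape with ⟨⟨e⟩⟩ | ⟨⟨e⟩⟩
    · apply IsPGroup.of_card (n := n)
      rw [Nat.card_congr e.toEquiv, DihedralGroup.nat_card, ← pow_succ']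
      congr 1; omega
    · haveI : NeZero (2 ^ (n - 2)) := ⟨by positivity⟩
      apply IsPGroup.of_card (n := n)
      rw [Nat.card_congr e.toEquiv, Nat.card_eq_fintype_card, QuaternionGroup.card]
      have hn2 : n = (n - 2) + 2 := by omega
      conv_rhs => rw [hn2, pow_add]
      ring
  have hAp : IsPGroup 2 (F.autGroup S) :=
    (Helper26.isPGroup_two_of_odd_trivial hodd).to_subgroup _
  obtain ⟨-, hfa, -⟩ := Helper26.sat_of_fullyNormalized hS F hF (Helper26.fullyNormalized_self F)
  obtain ⟨-, R, hR⟩ := hfa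
  have htop : (⊤ : Subgroup (F.autGroup S)) = R := R.is_maximal' (hAp.to_subgroup ⊤) le_top
  apply le_antisymm
  · intro α hα
    have h1 : (⟨α, hα⟩ : F.autGroup S) ∈ (R : Subgroup (F.autGroup S)) := by
      rw [← htop]; exact Subgroup.mem_top _
    rw [hR, Subgroup.mem_subgroupOf] at h1
    obtain ⟨g, hg, hgx⟩ := (Helper26.mem_autInducedBy_iff S S α).1 h1
    refine ⟨⟨g, hg⟩, ?_⟩
    apply MulEquiv.ext
    intro x
    apply Subtype.ext
    rw [hgx x]
    rfl
  · exact Helper26.inn_le_autGroup F le_rfl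

end Cfsg.Agent.S5112
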