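import Cfsg.Statements.S5114
import Cfsg.Agent.Helper25.FratEngine
import Cfsg.Agent.Helper25.FusAut

set_option autoImplicit false
open Cfsg

namespace Cfsg.Agent.S5114

open Cfsg.FusionSystem Cfsg.Agent.Helper26

variable {Ω : Type*} [Group Ω] {S : Subgroup Ω}

/-- `O^{p'}(Aut_F(P))` inside `Aut(P)`. -/
def Opp (F : FusionSystem S) (p : ℕ) (P : Subgroup Ω) : Subgroup (MulAut P) :=
  (Subgroup.closure {α : ↥(F.autGroup P) | ∃ k : ℕ, orderOf α = p ^ k}).map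
    (F.autGroup P).subtype

theorem mem_opp {F : FusionSystem S} {p : ℕ} {P : Subgroup Ω} {γ : MulAut P}
    (hγ : γ ∈ F.autGroup P) {k : ℕ} (hk : orderOf γ = p ^ k) : γ ∈ Opp F p P :=
  ⟨⟨γ, hγ⟩, Subgroup.subset_closure ⟨k, by
    rw [← hk]; exact (Subgroup.orderOf_coe (⟨γ, hγ⟩ : F.autGroup P)).symm⟩, rfl⟩

theorem opp_le {F : FusionSystem S} {p : ℕ} {P : Subgroup Ω} {K : Subgroup (MulAut P)}
    (h : ∀ γ ∈ F.autGroup P, ∀ k : ℕ, orderOf γ = p ^ k → γ ∈ K) : Opp F p P ≤ K := by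
  show Subgroup.map _ _ ≤ K
  rw [Subgroup.map_le_iff_le_comap, Subgroup.closure_le]
  rintro α ⟨k, hk⟩
  exact h α.1 α.2 k (by rw [← hk]; exact Subgroup.orderOf_coe α)

theorem opp_le_autGroup (F : FusionSystem S) (p : ℕ) (P : Subgroup Ω) :
    Opp F p P ≤ F.autGroup P := by
  rintro _ ⟨a, -, rfl⟩; exact a.2

theorem opp_normal {F : FusionSystem S} {p : ℕ} {P : Subgroup Ω} :
    ∀ α ∈ F.autGroup P, ∀ κ ∈ Opp F p P, α * κ * α⁻¹ ∈ Opp F p P := by
  intro α hα κ hκ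
  have hle : Opp F p P ≤ (Opp F p P).comap (MulAut.conj α).toMonoidHom := by
    apply opp_le
    intro γ hγ k hk
    show α * γ * α⁻¹ ∈ Opp F p P
    refine mem_opp (Subgroup.mul_mem _ (Subgroup.mul_mem _ hα hγ) (Subgroup.inv_mem _ hα))
      (k := k) ?_
    rw [← hk]
    exact MulEquiv.orderOf_eq (MulAut.conj α) γ
  exact hle hκ

theorem autInducedBy_le_opp {p : ℕ} [Fact p.Prime] (hS : IsPGroup p S) (F : FusionSystem S)
    {P : Subgroup Ω} (hP : P ≤ S) : autInducedBy S P ≤ Opp F p P := by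
  intro a ha
  obtain ⟨k, hk⟩ := IsPGroup.iff_orderOf.1 (isPGroup_autInducedBy hS P) ⟨a, ha⟩
  exact mem_opp (autInducedBy_le_autGroup F hP ha) (k := k) (by
    rw [← hk]; exact Subgroup.orderOf_coe (⟨a, ha⟩ : autInducedBy S P))

theorem opp_transport {F : FusionSystem S} {p : ℕ} {P P' : Subgroup Ω} (hP'S : P' ≤ S)
    {e : P ≃* P'} (he : IsIso F e) {γ : MulAut P} (hγ : γ ∈ F.autGroup P) {k : ℕ}
    (hk : orderOf γ = p ^ k) : (e.symm.trans γ).trans e ∈ Opp F p P' := by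
  have hPS := he.le_left
  have hγ' : IsIso F γ := (mem_autGroup_iff F hPS γ).1 hγ
  refine mem_opp ((mem_autGroup_iff F hP'S _).2 ((he.symm.trans hγ').trans he)) (k := k) ?_
  have hc : (e.symm.trans γ).trans e = MulAut.congr e γ := MulEquiv.ext (fun _ => rfl)
  rw [hc, MulEquiv.orderOf_eq, hk]

theorem core {p : ℕ} [Fact p.Prime] [Finite S] (hS : IsPGroup p S) (F : FusionSystem S)
    (hF : F.IsSaturated p) (E : FusionSystem S)
    (h : ∀ P : Subgroup Ω, F.IsCentric P → Opp F p P ≤ E.autGroup P) :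
    ∀ (P : Subgroup Ω), P ≤ S → ∀ φ ∈ F.Hom P, Helper25.InD F (Helper25.invCore F E) φ := by
  have hInv := Helper25.invCore_autInv F E
  have hsc : F.StronglyClosed S := ⟨le_rfl, fun R _ φ hφ x => (F.le_of_mem hφ).2 x⟩
  have hB : ∀ P : Subgroup Ω, F.IsCentric P →
      Opp F p P ≤ (Helper25.invCore F E).autGroup P := by
    intro P hPc
    have hPS := hPc.1
    apply opp_le
    intro γ hγ k hk
    refine Helper25.mem_invCore_autGroup hPS (h P hPc (mem_opp hγ hk)) ?_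
    intro α hα Q' e he
    have hα' : S.subtype.comp α.toMonoidHom ∈ F.Hom S := (mem_autGroup_iff F le_rfl α).1 hα
    have heF : IsIso F e := fs_restrict' F hPS hα' (fun x => he x)
    have hQ'c : F.IsCentric Q' := Helper25.centric_conj F hPc heF.isConj
    exact h Q' hQ'c (opp_transport hQ'c.1 heF hγ hk)
  refine Helper25.frat_engine hS F hF (Helper25.invCore F E) hsc hInv ?_
  intro P' hPT hPne hP'n IH γ hγ
  obtain ⟨-, hPa, hPr⟩ := sat_of_fullyNormalized hS F hF hP'n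
  by_cases hc : centralizerIn S P' ≤ P'
  · have hPc : F.IsCentric P' := centric_of_receptive F hPr hc
    exact Helper25.inD_aut_of_normal hS le_rfl hInv hPa hPr hPT hPne (Opp F p P') (hB P' hPc)
      (opp_le_autGroup F p P') opp_normal (autInducedBy_le_opp hS F hPT) IH γ hγ
  · obtain ⟨u, hu, huP⟩ := SetLike.not_le_iff_exists.1 hc
    exact Helper25.inD_of_extend le_rfl hPr hPT hγ (centralizerIn_le_extender S P' _ hu)
      (mem_centralizerIn_iff.1 hu).1 huP IH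

theorem part1 {p : ℕ} [Fact p.Prime] [Finite S] (hS : IsPGroup p S) (F : FusionSystem S)
    (hF : F.IsSaturated p) (E' : FusionSystem S) (hInv : Helper25.AutInv F E')
    (hD : ∀ (P : Subgroup Ω), P ≤ S → ∀ φ ∈ F.Hom P, Helper25.InD F E' φ)
    {P : Subgroup Ω} (hPS : P ≤ S) {γ : MulAut P} (hγ : γ ∈ F.autGroup P) {k : ℕ}
    (hk : orderOf γ = p ^ k) : γ ∈ E'.autGroup P := by
  obtain ⟨P₁, hPP₁, hP₁n⟩ := exists_fullyNormalized_conj F hPS
  obtain ⟨-, hPa, -⟩ := sat_of_fullyNormalized hS F hF hP₁n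
  obtain ⟨e, he⟩ := (isConj_iff F).1 hPP₁
  have hP₁S : P₁ ≤ S := he.le_right
  have hγ' : IsIso F γ := (mem_autGroup_iff F hPS γ).1 hγ
  have hγ₁ : (e.symm.trans γ).trans e ∈ F.autGroup P₁ :=
    (mem_autGroup_iff F hP₁S _).2 ((he.symm.trans hγ').trans he)
  have hord : ((e.symm.trans γ).trans e) ^ p ^ k = 1 := by
    have hc : (e.symm.trans γ).trans e = MulAut.congr e γ := MulEquiv.ext (fun _ => rfl)
    rw [hc, ← map_pow, ← hk, pow_orderOf_eq_one, map_one]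
  obtain ⟨κ, hκ, hκA⟩ := frattini_aut F hPa (F.autGroup P₁)
    (Subgroup.zpowers ((e.symm.trans γ).trans e)) le_rfl
    (fun α hα κ hκ => Subgroup.mul_mem _ (Subgroup.mul_mem _ hα hκ) (Subgroup.inv_mem _ hα))
    ((Subgroup.zpowers_le (H := F.autGroup P₁)).2 hγ₁) (Helper25.isPGroup_zpowers_of_pow hord)
  have hδ : κ * ((e.symm.trans γ).trans e) * κ⁻¹ ∈ E'.autGroup P₁ :=
    autInducedBy_le_autGroup E' hP₁S (hκA _ (Subgroup.mem_zpowers _))
  have hκ' : IsIso F κ := (mem_autGroup_iff F hP₁S κ).1 hκ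
  have he₂ : IsIso F (e.trans κ) := he.trans hκ'
  have hD₂ := hD P hPS _ he₂
  have h3 := Helper25.conj_aut_mem hInv hP₁S (e.trans κ) hD₂ hδ
  have hfin : ((e.trans κ).trans (κ * ((e.symm.trans γ).trans e) * κ⁻¹)).trans
      (e.trans κ).symm = γ := by
    apply MulEquiv.ext
    intro x
    show (e.trans κ).symm ((κ * ((e.symm.trans γ).trans e) * κ⁻¹) ((e.trans κ) x)) = γ x
    rw [MulEquiv.symm_apply_eq]
    show κ (e (γ (e.symm (κ⁻¹ (κ (e x)))))) = κ (e (γ x))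
    rw [MulAut.inv_apply_self, MulEquiv.symm_apply_apply]
  rw [hfin] at h3
  exact h3

theorem part3 (F E : FusionSystem S) (hEF : E.IsSubsystemOf F)
    (h2 : ∀ (P : Subgroup Ω) (φ : P →* Ω), φ ∈ F.Hom P → ∃ α ∈ F.autGroup S, ∃ φ₀ ∈ E.Hom P,
      ∀ (x : P) (hx : φ₀ x ∈ S), φ x = ((α ⟨φ₀ x, hx⟩ : S) : Ω))
    (P : Subgroup Ω) : E.IsCentric P ↔ F.IsCentric P := by
  constructor
  · rintro ⟨hPS, hc⟩
    refine ⟨hPS, ?_⟩
    rintro Q ⟨φ, hφ, rfl⟩
    obtain ⟨α, hα, φ₀, hφ₀, heq⟩ := h2 P φ hφ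
    have hφ₀S := (E.le_of_mem hφ₀).2
    have hc₀ := hc φ₀.range ⟨φ₀, hφ₀, rfl⟩
    intro c hcC
    obtain ⟨hcS, hcc⟩ := mem_centralizerIn_iff.1 hcC
    have hc₀mem : ((α⁻¹ ⟨c, hcS⟩ : S) : Ω) ∈ centralizerIn S φ₀.range := by
      rw [mem_centralizerIn_iff]
      refine ⟨(α⁻¹ ⟨c, hcS⟩).2, ?_⟩
      rintro _ ⟨x, rfl⟩
      have h3 := hcc (φ x) ⟨x, rfl⟩
      have h4 : (⟨φ₀ x, hφ₀S x⟩ : S) * α⁻¹ ⟨c, hcS⟩ = α⁻¹ ⟨c, hcS⟩ * ⟨φ₀ x, hφ₀S x⟩ := by
        apply α.injective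
        rw [map_mul, map_mul, MulAut.apply_inv_self]
        apply Subtype.ext
        show ((α ⟨φ₀ x, hφ₀S x⟩ : S) : Ω) * c = c * ((α ⟨φ₀ x, hφ₀S x⟩ : S) : Ω)
        rw [← heq x (hφ₀S x)]
        exact h3
      have h4' := congrArg Subtype.val h4
      exact h4'
    obtain ⟨x', hx'⟩ := hc₀ hc₀mem
    refine ⟨x', ?_⟩
    have h5 : (⟨φ₀ x', hφ₀S x'⟩ : S) = α⁻¹ ⟨c, hcS⟩ := Subtype.ext hx'
    rw [heq x' (hφ₀S x'), h5, MulAut.apply_inv_self]
  · rintro ⟨hPS, hc⟩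
    refine ⟨hPS, fun Q hQ => hc Q ?_⟩
    obtain ⟨φ, hφ, hr⟩ := hQ
    exact ⟨φ, hEF P hφ, hr⟩

/-- Let F be a saturated fusion system over a finite p-group S and E a fusion system over S contained in F. If Aut_E(P) contains the subgroup of Aut_F(P) generated by its elements of p-power order for every subgroup P that is centric in F, then the same holds for every subgroup of S (E has index prime to p in F), every map of F with source a subgroup P of S is an element of Aut_F(S) composed with a map of E, and a subgroup is centric in E exactly when it is centric in F. -/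
theorem result {Ω : Type*} [Group Ω] {S : Subgroup Ω} [Finite S] (p : ℕ) [Fact p.Prime] (hS : IsPGroup p S) (F : Cfsg.FusionSystem S) (hF : F.IsSaturated p) (E : Cfsg.FusionSystem S) (hEF : E.IsSubsystemOf F) (h : ∀ P : Subgroup Ω, F.IsCentric P → (Subgroup.closure {α : ↥(F.autGroup P) | ∃ k : ℕ, orderOf α = p ^ k}).map (F.autGroup P).subtype ≤ E.autGroup P) : E.HasPrimeToPIndexIn F p ∧ (∀ (P : Subgroup Ω) (φ : P →* Ω), φ ∈ F.Hom P → ∃ α ∈ F.autGroup S, ∃ φ₀ ∈ E.Hom P, ∀ (x : P) (hx : φ₀ x ∈ S), φ x = ((α ⟨φ₀ x, hx⟩ : S) : Ω)) ∧ ∀ P : Subgroup Ω, E.IsCentric P ↔ F.IsCentric P := by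
  have hD := core hS F hF E h
  have hInv := Helper25.invCore_autInv F E
  have h2 : ∀ (P : Subgroup Ω) (φ : P →* Ω), φ ∈ F.Hom P → ∃ α ∈ F.autGroup S,
      ∃ φ₀ ∈ E.Hom P, ∀ (x : P) (hx : φ₀ x ∈ S), φ x = ((α ⟨φ₀ x, hx⟩ : S) : Ω) := by
    intro P φ hφ
    obtain ⟨α, hα, φ₀, hφ₀, heq⟩ := hD P (F.le_of_mem hφ).1 φ hφ
    exact ⟨α, hα, φ₀, (Helper25.mem_invCore.1 hφ₀).1, heq⟩
  refine ⟨⟨hEF, ?_⟩, h2, part3 F E hEF h2⟩
  intro P hPS
  refine opp_le (K := E.autGroup P) ?_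
  intro γ hγ k hk
  have h1 := part1 hS F hF _ hInv hD hPS hγ hk
  exact (mem_autGroup_iff E hPS γ).2
    (Helper25.mem_invCore.1 ((mem_autGroup_iff (Helper25.invCore F E) hPS γ).1 h1)).1

end Cfsg.Agent.S5114
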