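import Cfsg.Statements.S5119
import Cfsg.Agent.Helper26.FusCover

set_option autoImplicit false
open Cfsg

namespace Cfsg.Agent.S5119

open Cfsg.FusionSystem Cfsg.Agent.Helper26

variable {Ω : Type*} [Group Ω] {S : Subgroup Ω}

/-- Strong invariance of the subsystem `E` over `T` in `F`. -/
def SI (F : FusionSystem S) {T : Subgroup Ω} (E : FusionSystem T) : Prop :=
  ∀ (P Q : Subgroup Ω) (hPQ : P ≤ Q) (_ : Q ≤ T) (φ : P →* Ω) (_ : φ ∈ E.Hom P)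
    (hφQ : ∀ x : P, φ x ∈ Q) (ψ : Q →* Ω) (_ : ψ ∈ F.Hom Q),
    ∃ χ ∈ E.Hom ((P.subgroupOf Q).map ψ),
      ∀ (x : P) (hx : ψ (Subgroup.inclusion hPQ x) ∈ (P.subgroupOf Q).map ψ),
        χ ⟨ψ (Subgroup.inclusion hPQ x), hx⟩ = ψ ⟨φ x, hφQ x⟩

/-- `φ` is a map of `E` followed by an `F`-automorphism of `T`. -/
def InD (F : FusionSystem S) {T : Subgroup Ω} (E : FusionSystem T) {P : Subgroup Ω}
    (φ : P →* Ω) : Prop :=
  ∃ α ∈ F.autGroup T, ∃ φ₀ ∈ E.Hom P,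
    ∀ (x : P) (hx : φ₀ x ∈ T), φ x = ((α ⟨φ₀ x, hx⟩ : T) : Ω)

theorem hom_transport {T : Subgroup Ω} (E : FusionSystem T) {A B : Subgroup Ω} (h : A = B)
    {χ : A →* Ω} (hχ : χ ∈ E.Hom A) :
    ∃ χ' ∈ E.Hom B, ∀ (x : Ω) (hA : x ∈ A) (hB : x ∈ B), χ' ⟨x, hB⟩ = χ ⟨x, hA⟩ := by
  subst h
  exact ⟨χ, hχ, fun _ _ _ => rfl⟩

theorem InD.congr {F : FusionSystem S} {T : Subgroup Ω} {E : FusionSystem T} {P : Subgroup Ω}
    {φ φ' : P →* Ω} (h : InD F E φ) (e : ∀ x, φ' x = φ x) : InD F E φ' := by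
  obtain ⟨α, hα, φ₀, hφ₀, h1⟩ := h
  exact ⟨α, hα, φ₀, hφ₀, fun x hx => (e x).trans (h1 x hx)⟩

theorem inD_of_mem {F : FusionSystem S} {T : Subgroup Ω} {E : FusionSystem T} {P : Subgroup Ω}
    {φ : P →* Ω} (hφ : φ ∈ E.Hom P) : InD F E φ :=
  ⟨1, Subgroup.one_mem _, φ, hφ, fun _ _ => rfl⟩

theorem inD_of_aut {F : FusionSystem S} {T : Subgroup Ω} {E : FusionSystem T} {P : Subgroup Ω}
    (hP : P ≤ T) {α : MulAut T} (hα : α ∈ F.autGroup T) {φ : P →* Ω}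
    (hφ : ∀ x : P, φ x = ((α ⟨x, hP x.2⟩ : T) : Ω)) : InD F E φ :=
  ⟨α, hα, P.subtype, fs_subtype E hP, fun x _ => hφ x⟩

theorem InD.restrict {F : FusionSystem S} {T : Subgroup Ω} {E : FusionSystem T}
    {P R : Subgroup Ω} {φ : P →* Ω} (h : InD F E φ) (hRP : R ≤ P) :
    InD F E (φ.comp (Subgroup.inclusion hRP)) := by
  obtain ⟨α, hα, φ₀, hφ₀, h1⟩ := h
  exact ⟨α, hα, φ₀.comp (Subgroup.inclusion hRP), fs_restrict E hRP hφ₀,
    fun x hx => h1 (Subgroup.inclusion hRP x) hx⟩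

theorem InD.comp {F : FusionSystem S} {T : Subgroup Ω} {E : FusionSystem T} (hTS : T ≤ S)
    (hSI : SI F E) {P Q : Subgroup Ω} (hQT : Q ≤ T) {φ : P →* Ω} {ψ : Q →* Ω}
    (hφ : InD F E φ) (hψ : InD F E ψ) (h : ∀ x : P, φ x ∈ Q) {χ : P →* Ω}
    (hχ : ∀ x : P, χ x = ψ ⟨φ x, h x⟩) : InD F E χ := by
  obtain ⟨α, hα, φ₀, hφ₀, e1⟩ := hφ
  obtain ⟨β, hβ, ψ₀, hψ₀, e2⟩ := hψ
  have hψ₀T : ∀ y : Q, ψ₀ y ∈ T := (E.le_of_mem hψ₀).2
  have hαinv : T.subtype.comp (α⁻¹).toMonoidHom ∈ F.Hom T :=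
    (mem_autGroup_iff F hTS α⁻¹).1 (Subgroup.inv_mem _ hα)
  obtain ⟨χ', hχ', hχ'eq⟩ := hSI Q T hQT le_rfl ψ₀ hψ₀ hψ₀T _ hαinv
  have key : ∀ x : P, ∃ hx' : φ₀ x ∈ T, (⟨φ₀ x, hx'⟩ : T) = α⁻¹ ⟨φ x, hQT (h x)⟩ := by
    intro x
    have hx' := (E.le_of_mem hφ₀).2 x
    refine ⟨hx', ?_⟩
    have h2 : (⟨φ x, hQT (h x)⟩ : T) = α ⟨φ₀ x, hx'⟩ := Subtype.ext (e1 x hx')
    rw [h2, MulAut.inv_apply_self]
  have h3 : ∀ x : P, ((α⁻¹ ⟨φ x, hQT (h x)⟩ : T) : Ω) = φ₀ x := by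
    intro x
    obtain ⟨hx', hk⟩ := key x
    rw [← hk]
  have hmem : ∀ x : P, φ₀ x ∈ (Q.subgroupOf T).map (T.subtype.comp (α⁻¹).toMonoidHom) := by
    intro x
    exact ⟨⟨φ x, hQT (h x)⟩, Subgroup.mem_subgroupOf.2 (h x), h3 x⟩
  refine ⟨β * α, Subgroup.mul_mem _ hβ hα, χ'.comp (φ₀.codRestrict _ hmem),
    E.comp_mem hφ₀ hχ' hmem, ?_⟩
  intro x hx
  have hmem' : ((α⁻¹ ⟨φ x, hQT (h x)⟩ : T) : Ω) ∈
      (Q.subgroupOf T).map (T.subtype.comp (α⁻¹).toMonoidHom) := by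
    rw [h3 x]; exact hmem x
  have h4 := hχ'eq ⟨φ x, h x⟩ hmem'
  have h5' : (⟨φ₀ x, hmem x⟩ : ↥((Q.subgroupOf T).map (T.subtype.comp (α⁻¹).toMonoidHom))) =
      ⟨((α⁻¹ ⟨φ x, hQT (h x)⟩ : T) : Ω), hmem'⟩ := Subtype.ext (h3 x).symm
  have h5 : χ' ⟨φ₀ x, hmem x⟩ = ((α⁻¹ ⟨ψ₀ ⟨φ x, h x⟩, hψ₀T _⟩ : T) : Ω) := by
    rw [h5']; exact h4
  have h7 : α ⟨(χ'.comp (φ₀.codRestrict _ hmem)) x, hx⟩ = ⟨ψ₀ ⟨φ x, h x⟩, hψ₀T _⟩ := by
    have h6 : (⟨(χ'.comp (φ₀.codRestrict _ hmem)) x, hx⟩ : T) =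
        α⁻¹ ⟨ψ₀ ⟨φ x, h x⟩, hψ₀T _⟩ := Subtype.ext h5
    rw [h6, MulAut.apply_inv_self]
  rw [hχ x, e2 ⟨φ x, h x⟩ (hψ₀T _)]
  show _ = ((β (α ⟨_, hx⟩) : T) : Ω)
  rw [h7]

theorem InD.symm {F : FusionSystem S} {T : Subgroup Ω} {E : FusionSystem T} (hTS : T ≤ S)
    (hSI : SI F E) {P R : Subgroup Ω} (hR : R ≤ T) {e : P ≃* R}
    (he : InD F E (R.subtype.comp e.toMonoidHom)) :
    InD F E (P.subtype.comp e.symm.toMonoidHom) := by
  obtain ⟨α, hα, φ₀, hφ₀, e1⟩ := he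
  obtain ⟨e₀, he₀, he₀φ⟩ := exists_iso_of_hom E hφ₀ rfl
  have hφ₀T : ∀ x : P, φ₀ x ∈ T := (E.le_of_mem hφ₀).2
  have hR₀T : φ₀.range ≤ T := by rintro _ ⟨x, rfl⟩; exact hφ₀T x
  have key : ∀ y : R, (α⁻¹ ⟨y, hR y.2⟩ : T) = ⟨φ₀ (e.symm y), hφ₀T _⟩ := by
    intro y
    have h1 := e1 (e.symm y) (hφ₀T _)
    have h2 : (⟨y, hR y.2⟩ : T) = α ⟨φ₀ (e.symm y), hφ₀T _⟩ := by
      apply Subtype.ext
      rw [← h1]
      show (y : Ω) = ((e (e.symm y) : R) : Ω)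
      rw [MulEquiv.apply_symm_apply]
    rw [h2, MulAut.inv_apply_self]
  have h1 : InD F E (T.subtype.comp ((α⁻¹).toMonoidHom.comp (Subgroup.inclusion hR))) :=
    inD_of_aut hR (Subgroup.inv_mem _ hα) (fun x => rfl)
  have h2 : InD F E (P.subtype.comp e₀.symm.toMonoidHom) := inD_of_mem he₀.symm
  have hmem : ∀ y : R,
      (T.subtype.comp ((α⁻¹).toMonoidHom.comp (Subgroup.inclusion hR))) y ∈ φ₀.range := by
    intro y
    exact ⟨e.symm y, (congrArg Subtype.val (key y)).symm⟩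
  refine InD.comp hTS hSI hR₀T h1 h2 hmem (fun y => ?_)
  show ((e.symm y : P) : Ω) = ((e₀.symm ⟨_, hmem y⟩ : P) : Ω)
  congr 1
  rw [MulEquiv.eq_symm_apply]
  apply Subtype.ext
  rw [he₀φ]
  exact (congrArg Subtype.val (key y)).symm

theorem inD_top {F : FusionSystem S} {T : Subgroup Ω} {E : FusionSystem T} [Finite S]
    (hT : F.StronglyClosed T) {φ : T →* Ω} (hφ : φ ∈ F.Hom T) : InD F E φ := by
  have hTS := hT.1
  have : Finite T := finite_of_le hTS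
  obtain ⟨e, he, heφ⟩ := exists_iso_of_hom_of_card F hφ (fun x => hT.2 T le_rfl φ hφ x) le_rfl
  exact inD_of_aut le_rfl ((mem_autGroup_iff F hTS e).2 he) (fun x => (heφ x).symm)

theorem inD_toFN {p : ℕ} [Fact p.Prime] [Finite S] (hS : IsPGroup p S) {F : FusionSystem S}
    {T : Subgroup Ω} {E : FusionSystem T} (hT : F.StronglyClosed T) {P' : Subgroup Ω}
    (hPa : F.IsFullyAutomized p P') (hPr : F.IsReceptive P') {Q : Subgroup Ω} (hQT : Q ≤ T)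
    (hQne : Q ≠ T) (hQ : F.IsConj Q P')
    (IH : ∀ (M : Subgroup Ω), M ≤ T → Nat.card Q < Nat.card M → ∀ ψ ∈ F.Hom M, InD F E ψ) :
    ∃ e : Q ≃* P', IsIso F e ∧ InD F E (P'.subtype.comp e.toMonoidHom) := by
  have hTS := hT.1
  have hfT : Finite T := finite_of_le hTS
  obtain ⟨ψ, hψ, e, he, hψe, -⟩ := exists_normalizer_map hS F hPa hPr hQ
  have hle : normalizerIn T Q ≤ normalizerIn S Q := inf_le_inf_right _ hTS
  have hNT : normalizerIn T Q ≤ T := inf_le_left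
  obtain ⟨g, hg, hgQ⟩ := exists_normalizerIn_not_mem (S := T) (isPGroup_of_le hS hTS) hQT hQne
  have hcard : Nat.card Q < Nat.card (normalizerIn T Q) :=
    card_lt_of_mem_not_mem (S := T) hNT (le_normalizerIn hQT) hg hgQ
  have h1 := IH _ hNT hcard _ (fs_restrict F hle hψ)
  have h2 := h1.restrict (le_normalizerIn hQT)
  exact ⟨e, he, h2.congr (fun x => (hψe x _).symm)⟩

theorem inD_aut {p : ℕ} [Fact p.Prime] [Finite S] (hS : IsPGroup p S) {F : FusionSystem S}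
    {T : Subgroup Ω} {E : FusionSystem T} (hE : E.IsSubsystemOf F) (hT : F.StronglyClosed T)
    (hSI : SI F E) {P' : Subgroup Ω} (hPa : F.IsFullyAutomized p P') (hPr : F.IsReceptive P')
    (hPT : P' ≤ T) (hPne : P' ≠ T)
    (IH : ∀ (M : Subgroup Ω), M ≤ T → Nat.card P' < Nat.card M → ∀ ψ ∈ F.Hom M, InD F E ψ)
    (γ : MulAut P') (hγ : γ ∈ F.autGroup P') : InD F E (P'.subtype.comp γ.toMonoidHom) := by
  have hTS := hT.1
  have hPS : P' ≤ S := hPT.trans hTS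
  have hfT : Finite T := finite_of_le hTS
  have hTp : IsPGroup p T := isPGroup_of_le hS hTS
  have hKG : E.autGroup P' ≤ F.autGroup P' := by
    intro κ hκ
    exact (mem_autGroup_iff F hPS κ).2 (hE P' ((mem_autGroup_iff E hPT κ).1 hκ))
  have hKn : ∀ α ∈ F.autGroup P', ∀ κ ∈ E.autGroup P', α * κ * α⁻¹ ∈ E.autGroup P' := by
    intro α hα κ hκ
    have hα' : P'.subtype.comp α.toMonoidHom ∈ F.Hom P' := (mem_autGroup_iff F hPS α).1 hα
    have hκ' : P'.subtype.comp κ.toMonoidHom ∈ E.Hom P' := (mem_autGroup_iff E hPT κ).1 hκ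
    obtain ⟨χ, hχ, hχeq⟩ := hSI P' P' le_rfl hPT _ hκ' (fun x => (κ x).2) _ hα'
    have hmap : (P'.subgroupOf P').map (P'.subtype.comp α.toMonoidHom) = P' := by
      ext y; constructor
      · rintro ⟨z, -, rfl⟩; exact (α z).2
      · intro hy
        refine ⟨α⁻¹ ⟨y, hy⟩, Subgroup.mem_subgroupOf.2 (α⁻¹ ⟨y, hy⟩).2, ?_⟩
        show ((α (α⁻¹ ⟨y, hy⟩) : P') : Ω) = y
        rw [MulAut.apply_inv_self]
    obtain ⟨χ', hχ', hχ'eq⟩ := hom_transport E hmap hχ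
    have hz : ∀ z : P', χ' (α z) = ((α (κ z) : P') : Ω) := by
      intro z
      have hz' : ((α z : P') : Ω) ∈ (P'.subgroupOf P').map (P'.subtype.comp α.toMonoidHom) := by
        rw [hmap]; exact (α z).2
      have h1 := hχeq z hz'
      have h2 := hχ'eq _ hz' (α z).2
      exact h2.trans h1
    rw [mem_autGroup_iff E hPT]
    refine fs_congr E hχ' (fun y => ?_)
    have h3 := hz (α⁻¹ y)
    rw [MulAut.apply_inv_self] at h3
    exact h3.symm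
  have hA : IsPGroup p ((autInducedBy T P').map (MulAut.conj γ).toMonoidHom) :=
    (isPGroup_autInducedBy hTp P').map _
  have hAK : (autInducedBy T P').map (MulAut.conj γ).toMonoidHom ≤ E.autGroup P' := by
    rintro _ ⟨a, ha, rfl⟩
    exact hKn γ hγ a (autInducedBy_le_autGroup E hPT ha)
  obtain ⟨κ, hκ, hκA⟩ := frattini_aut F hPa (E.autGroup P') _ hKG hKn hAK hA
  have hn : κ * γ ∈ F.autGroup P' := Subgroup.mul_mem _ (hKG hκ) hγ
  have hn' : IsIso F (κ * γ) := (mem_autGroup_iff F hPS _).1 hn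
  obtain ⟨ψ, hψ, hψeq⟩ := receptive_ext F hPr hn'
  have hext : normalizerIn T P' ≤ extender S P' (P'.subtype.comp (κ * γ).toMonoidHom) := by
    intro g hg
    obtain ⟨hgT, hgN⟩ := Subgroup.mem_inf.1 hg
    rw [mem_extender_iff']
    have hc : conjAut P' g hgN ∈ autInducedBy T P' := conjAut_mem T P' g hgT hgN
    have ha : κ * (γ * conjAut P' g hgN * γ⁻¹) * κ⁻¹ ∈ autInducedBy S P' :=
      hκA _ ⟨_, hc, rfl⟩
    obtain ⟨h, hh, hheq⟩ := (mem_autInducedBy_iff S P' _).1 ha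
    refine ⟨hTS hgT, hgN, h, hh, fun x y hy => ?_⟩
    have hy' : y = conjAut P' g hgN x := Subtype.ext hy
    have h1 := hheq ((κ * γ) x)
    show (((κ * γ) y : P') : Ω) = h * (((κ * γ) x : P') : Ω) * h⁻¹
    rw [← h1, hy']
    show ((κ (γ (conjAut P' g hgN x)) : P') : Ω) =
      ((κ (γ (conjAut P' g hgN (γ⁻¹ (κ⁻¹ (κ (γ x)))))) : P') : Ω)
    rw [MulAut.inv_apply_self, MulAut.inv_apply_self]
  obtain ⟨g, hg, hgP⟩ := exists_normalizerIn_not_mem (S := T) hTp hPT hPne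
  have hcard : Nat.card P' < Nat.card (normalizerIn T P') :=
    card_lt_of_mem_not_mem (S := T) inf_le_left (le_normalizerIn hPT) hg hgP
  have h1 := IH _ inf_le_left hcard _ (fs_restrict F hext hψ)
  have h2 := h1.restrict (le_normalizerIn hPT)
  have hnD : InD F E (P'.subtype.comp (κ * γ).toMonoidHom) :=
    h2.congr (fun x => (hψeq x _).symm)
  have hκinv : InD F E (P'.subtype.comp (κ⁻¹).toMonoidHom) :=
    inD_of_mem ((mem_autGroup_iff E hPT _).1 (Subgroup.inv_mem _ hκ))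
  refine InD.comp hTS hSI hPT hnD hκinv (fun x => ((κ * γ) x).2) (fun x => ?_)
  show ((γ x : P') : Ω) = ((κ⁻¹ (κ (γ x)) : P') : Ω)
  rw [MulAut.inv_apply_self]

theorem frat_of_si {p : ℕ} [Fact p.Prime] [Finite S] (hS : IsPGroup p S) (F : FusionSystem S)
    (hF : F.IsSaturated p) {T : Subgroup Ω} (E : FusionSystem T) (hE : E.IsSubsystemOf F)
    (hT : F.StronglyClosed T) (hSI : SI F E) :
    ∀ (n : ℕ) (P : Subgroup Ω), P ≤ T → Nat.card T ≤ Nat.card P + n →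
      ∀ φ ∈ F.Hom P, InD F E φ := by
  have hTS := hT.1
  have hfT : Finite T := finite_of_le hTS
  have htop : ∀ P : Subgroup Ω, P = T → ∀ φ ∈ F.Hom P, InD F E φ := by
    rintro P rfl φ hφ
    exact inD_top hT hφ
  intro n
  induction n with
  | zero =>
    intro P hPT hc φ hφ
    exact htop P (Subgroup.eq_of_le_of_card_ge hPT (by simpa using hc)) φ hφ
  | succ n ih =>
    intro P hPT hc φ hφ
    by_cases hPeq : P = T
    · exact htop P hPeq φ hφ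
    · have hPS : P ≤ S := hPT.trans hTS
      obtain ⟨P', hPP', hP'n⟩ := exists_fullyNormalized_conj F hPS
      obtain ⟨-, hPa, hPr⟩ := sat_of_fullyNormalized hS F hF hP'n
      obtain ⟨e_φ, he_φ, he_φeq⟩ := exists_iso_of_hom F hφ rfl
      have hRT : φ.range ≤ T := by
        rintro _ ⟨x, rfl⟩; exact hT.2 P hPT φ hφ x
      obtain ⟨e₁, he₁⟩ := (isConj_iff F).1 hPP'
      have hP'T : P' ≤ T := by
        intro y hy
        have h0 := hT.2 P hPT _ he₁ (e₁.symm ⟨y, hy⟩)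
        simpa using h0
      have hcR : Nat.card φ.range = Nat.card P := (Nat.card_congr e_φ.toEquiv).symm
      have hcP' : Nat.card P' = Nat.card P := (Nat.card_congr e₁.toEquiv).symm
      have hlt : Nat.card P < Nat.card T := by
        by_contra hcon
        exact hPeq (Subgroup.eq_of_le_of_card_ge hPT (not_lt.1 hcon))
      have hRne : φ.range ≠ T := by
        intro h0
        have h1 := hcR
        rw [h0] at h1
        omega
      have hP'ne : P' ≠ T := by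
        intro h0
        have h1 := hcP'
        rw [h0] at h1
        omega
      have IH : ∀ (c : ℕ), c = Nat.card P → ∀ (M : Subgroup Ω), M ≤ T → c < Nat.card M →
          ∀ ψ ∈ F.Hom M, InD F E ψ := by
        intro c hc' M hMT hcM ψ hψ
        exact ih M hMT (by omega) ψ hψ
      obtain ⟨e_P, he_P, hDP⟩ := inD_toFN hS hT hPa hPr hPT hPeq hPP' (IH _ rfl)
      have hRP' : F.IsConj φ.range P' := isConj_trans F (isConj_symm F ⟨φ, hφ, rfl⟩) hPP'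
      obtain ⟨e_R, he_R, hDR⟩ := inD_toFN hS hT hPa hPr hRT hRne hRP' (IH _ hcR)
      have hγ : IsIso F ((e_P.symm.trans e_φ).trans e_R) := (he_P.symm.trans he_φ).trans he_R
      have hDγ := inD_aut hS hE hT hSI hPa hPr hP'T hP'ne (IH _ hcP') _
        ((mem_autGroup_iff F (hP'T.trans hTS) _).2 hγ)
      have hDR' := InD.symm hTS hSI hP'T hDR
      have h1 : InD F E (P'.subtype.comp
          (((e_P.symm.trans e_φ).trans e_R).toMonoidHom.comp e_P.toMonoidHom)) :=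
        InD.comp hTS hSI hP'T hDP hDγ (fun x => (e_P x).2) (fun x => rfl)
      refine InD.comp hTS hSI hP'T h1 hDR'
        (fun x => (((e_P.symm.trans e_φ).trans e_R) (e_P x)).2) (fun x => ?_)
      rw [← he_φeq x]
      show ((e_φ x : φ.range) : Ω) =
        ((e_R.symm (e_R (e_φ (e_P.symm (e_P x)))) : φ.range) : Ω)
      rw [MulEquiv.symm_apply_apply, MulEquiv.symm_apply_apply]

theorem si_of_inv {F : FusionSystem S} {T : Subgroup Ω} {E : FusionSystem T}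
    (h : E.IsInvariantIn F) : SI F E := by
  obtain ⟨-, hT, hinv, hfrat⟩ := h
  intro P Q hPQ hQT φ hφ hφQ ψ hψ
  obtain ⟨α, hα, ψ₀, hψ₀, hψeq⟩ := hfrat Q hQT ψ hψ
  have hψ₀T : ∀ y : Q, ψ₀ y ∈ T := (E.le_of_mem hψ₀).2
  obtain ⟨e₀, he₀, he₀eq⟩ := exists_iso_of_hom E (fs_restrict E hPQ hψ₀) rfl
  have hP₀T : (ψ₀.comp (Subgroup.inclusion hPQ)).range ≤ T := by
    rintro _ ⟨x, rfl⟩; exact hψ₀T _
  have h1 : (φ.comp e₀.symm.toMonoidHom) ∈ E.Hom (ψ₀.comp (Subgroup.inclusion hPQ)).range :=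
    he₀.symm.comp_hom hφ
  have hval : ∀ y, (φ.comp e₀.symm.toMonoidHom) y ∈ Q := fun y => hφQ _
  have h2 : ψ₀.comp ((φ.comp e₀.symm.toMonoidHom).codRestrict Q hval) ∈
      E.Hom (ψ₀.comp (Subgroup.inclusion hPQ)).range := E.comp_mem h1 hψ₀ hval
  obtain ⟨χ, hχ, hχeq⟩ := hinv _ hP₀T _ h2 α hα
  have hmap : ((ψ₀.comp (Subgroup.inclusion hPQ)).range.subgroupOf T).map
      (T.subtype.comp α.toMonoidHom) = (P.subgroupOf Q).map ψ := by
    ext y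
    constructor
    · rintro ⟨z, hz, rfl⟩
      obtain ⟨x, hx⟩ := Subgroup.mem_subgroupOf.1 hz
      refine ⟨Subgroup.inclusion hPQ x, Subgroup.mem_subgroupOf.2 x.2, ?_⟩
      rw [hψeq _ (hψ₀T _)]
      show ((α ⟨ψ₀ (Subgroup.inclusion hPQ x), _⟩ : T) : Ω) = ((α z : T) : Ω)
      congr 2
      exact Subtype.ext hx
    · rintro ⟨w, hw, rfl⟩
      refine ⟨⟨ψ₀ w, hψ₀T w⟩,
        Subgroup.mem_subgroupOf.2 ⟨⟨w, Subgroup.mem_subgroupOf.1 hw⟩, rfl⟩, ?_⟩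
      exact (hψeq w (hψ₀T w)).symm
  obtain ⟨χ', hχ', hχ'eq⟩ := hom_transport E hmap hχ
  refine ⟨χ', hχ', fun x hx => ?_⟩
  have hxT : ψ₀ (Subgroup.inclusion hPQ x) ∈ T := hψ₀T _
  have hx₀ : ψ₀ (Subgroup.inclusion hPQ x) ∈ (ψ₀.comp (Subgroup.inclusion hPQ)).range :=
    ⟨x, rfl⟩
  have e1 : ψ (Subgroup.inclusion hPQ x) =
      ((α ⟨ψ₀ (Subgroup.inclusion hPQ x), hxT⟩ : T) : Ω) := hψeq _ hxT
  have hxB : ((α ⟨ψ₀ (Subgroup.inclusion hPQ x), hxT⟩ : T) : Ω) ∈ (P.subgroupOf Q).map ψ := by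
    rw [← e1]; exact hx
  have hx' : ((α ⟨ψ₀ (Subgroup.inclusion hPQ x), hxT⟩ : T) : Ω) ∈
      ((ψ₀.comp (Subgroup.inclusion hPQ)).range.subgroupOf T).map
        (T.subtype.comp α.toMonoidHom) := by
    rw [hmap]; exact hxB
  have h3 := hχ'eq _ hx' hxB
  have h4 := hχeq ⟨ψ₀ (Subgroup.inclusion hPQ x), hx₀⟩ ((E.le_of_mem h2).2 _) hx'
  have h5 : (⟨ψ (Subgroup.inclusion hPQ x), hx⟩ : ↥((P.subgroupOf Q).map ψ)) =
      ⟨((α ⟨ψ₀ (Subgroup.inclusion hPQ x), hxT⟩ : T) : Ω), hxB⟩ := Subtype.ext e1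
  rw [h5, h3, hψeq ⟨φ x, hφQ x⟩ (hψ₀T _)]
  refine h4.trans ?_
  have h6 : e₀.symm ⟨ψ₀ (Subgroup.inclusion hPQ x), hx₀⟩ = x := by
    rw [MulEquiv.symm_apply_eq]
    exact Subtype.ext (he₀eq x).symm
  have h7' : ((φ.comp e₀.symm.toMonoidHom).codRestrict Q hval)
      ⟨ψ₀ (Subgroup.inclusion hPQ x), hx₀⟩ = ⟨φ x, hφQ x⟩ := by
    apply Subtype.ext
    show φ (e₀.symm ⟨ψ₀ (Subgroup.inclusion hPQ x), hx₀⟩) = φ x
    rw [h6]
  have h7 : (ψ₀.comp ((φ.comp e₀.symm.toMonoidHom).codRestrict Q hval))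
      ⟨ψ₀ (Subgroup.inclusion hPQ x), hx₀⟩ = ψ₀ ⟨φ x, hφQ x⟩ := by
    show ψ₀ (((φ.comp e₀.symm.toMonoidHom).codRestrict Q hval)
      ⟨ψ₀ (Subgroup.inclusion hPQ x), hx₀⟩) = ψ₀ ⟨φ x, hφQ x⟩
    rw [h7']
  exact congrArg (fun t : T => ((α t : T) : Ω)) (Subtype.ext h7)

theorem inv_of_si {p : ℕ} [Fact p.Prime] [Finite S] (hS : IsPGroup p S) (F : FusionSystem S)
    (hF : F.IsSaturated p) {T : Subgroup Ω} (E : FusionSystem T) (hE : E.IsSubsystemOf F)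
    (hT : F.StronglyClosed T) (hSI : SI F E) : E.IsInvariantIn F := by
  have hTS := hT.1
  refine ⟨hE, hT, ?_, ?_⟩
  · intro P hPT φ hφ α hα
    have hα' : T.subtype.comp α.toMonoidHom ∈ F.Hom T := (mem_autGroup_iff F hTS α).1 hα
    obtain ⟨χ, hχ, hχeq⟩ := hSI P T hPT le_rfl φ hφ (E.le_of_mem hφ).2 _ hα'
    exact ⟨χ, hχ, fun x hφx hαx => hχeq x hαx⟩
  · intro P hPT φ hφ
    exact frat_of_si hS F hF E hE hT hSI (Nat.card T) P hPT (Nat.le_add_left _ _) φ hφ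

/-- Let F be a saturated fusion system over a finite p-group S and E a subsystem of F over a subgroup T that is strongly closed in F. Then E is invariant in F (invariance under Aut_F(T) plus the Frattini condition) if and only if the strong invariance condition holds: for P ≤ Q ≤ T, every map φ of E from P into Q and every map ψ of F with source Q, the transported map ψ φ ψ⁻¹ on ψ(P) is a map of E. -/
theorem result {Ω : Type*} [Group Ω] {S : Subgroup Ω} [Finite S] (p : ℕ) [Fact p.Prime] (hS : IsPGroup p S) (F : Cfsg.FusionSystem S) (hF : F.IsSaturated p) {T : Subgroup Ω} (E : Cfsg.FusionSystem T) (hE : E.IsSubsystemOf F) (hT : F.StronglyClosed T) : E.IsInvariantIn F ↔ ∀ (P Q : Subgroup Ω) (hPQ : P ≤ Q) (_ : Q ≤ T) (φ : P →* Ω) (_ : φ ∈ E.Hom P) (hφQ : ∀ x : P, φ x ∈ Q) (ψ : Q →* Ω) (_ : ψ ∈ F.Hom Q), ∃ χ ∈ E.Hom ((P.subgroupOf Q).map ψ), ∀ (x : P) (hx : ψ (Subgroup.inclusion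 hPQ x) ∈ (P.subgroupOf Q).map ψ), χ ⟨ψ (Subgroup.inclusion hPQ x), hx⟩ = ψ ⟨φ x, hφQ x⟩ := by
  constructor
  · intro h; exact si_of_inv h
  · intro h; exact inv_of_si hS F hF E hE hT h

end Cfsg.Agent.S5119
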