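import Mathlib
import Cfsg.Statements.S5128
import Cfsg.Agent.Helper26.FusCover
-- import your own Cfsg.Agent.* helpers here

set_option autoImplicit false
open Cfsg

namespace Cfsg.Agent.S5128

/-- In a saturated fusion system over a finite p-group S, the product of two strongly closed subgroups is strongly closed. -/
theorem result {Ω : Type*} [Group Ω] {S : Subgroup Ω} [Finite S] (p : ℕ) [Fact p.Prime] (hS : IsPGroup p S) (F : Cfsg.FusionSystem S) (hF : F.IsSaturated p) (T₁ T₂ : Subgroup Ω) (h₁ : F.StronglyClosed T₁) (h₂ : F.StronglyClosed T₂) : F.StronglyClosed (T₁ ⊔ T₂) := by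
  have hn₁ := Helper26.stronglyClosed_conj F h₁
  refine ⟨sup_le h₁.1 h₂.1, fun R hR φ hφ x => ?_⟩
  obtain ⟨ψ, hψ, hc⟩ := Helper26.cover hS F hF h₁ hφ
  have hx21 : (x : Ω) ∈ T₂ ⊔ T₁ := by rw [sup_comm]; exact hR x.2
  obtain ⟨a, ha, q, hq, hx⟩ := Helper26.mem_sup_of_normalizes (P := T₂) (Q := T₁)
    (fun y hy q hq => hn₁ y (h₂.1 hy) q hq) hx21
  have haM : a ∈ R ⊔ T₁ := by
    have : a = x * q⁻¹ := by rw [hx]; group
    rw [this]
    exact Subgroup.mul_mem _ (Subgroup.mem_sup_left x.2) (Subgroup.mem_sup_right (T₁.inv_mem hq))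
  have h1 : ψ ⟨a, haM⟩ ∈ T₂ :=
    h₂.2 ((R ⊔ T₁) ⊓ T₂) inf_le_right _ (Helper26.fs_restrict F inf_le_left hψ) ⟨a, haM, ha⟩
  have h2 : ψ ⟨q, Subgroup.mem_sup_right hq⟩ ∈ T₁ := Helper26.sc_map_mem F h₁ hψ _ hq
  have h3 : ψ (Subgroup.inclusion le_sup_left x) =
      ψ ⟨a, haM⟩ * ψ ⟨q, Subgroup.mem_sup_right hq⟩ := by
    rw [← map_mul]; congr 1; exact Subtype.ext hx
  have h4 : φ x = ψ (Subgroup.inclusion le_sup_left x) *
      ((φ x)⁻¹ * ψ (Subgroup.inclusion le_sup_left x))⁻¹ := by group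
  rw [h4]
  refine Subgroup.mul_mem _ ?_ (Subgroup.mem_sup_left (T₁.inv_mem (hc x)))
  rw [h3]
  exact Subgroup.mul_mem _ (Subgroup.mem_sup_right h1) (Subgroup.mem_sup_left h2)

end Cfsg.Agent.S5128
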