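import Cfsg.Statements.S5164

set_option autoImplicit false
open Cfsg

namespace Cfsg.Agent.S5164

open scoped commutatorElement
open Equiv

theorem comm_of_lt (n p : ℕ) [Fact p.Prime] (S : Sylow p (alternatingGroup (Fin n)))
    (h : n < p ^ 2) : IsMulCommutative S := by
  have hp := (Fact.out : p.Prime)
  have hT : IsPGroup p ↥S := S.isPGroup'
  have key : ∀ (x : Fin n), commutator ↥S ≤ MulAction.stabilizer ↥S x := by
    intro x
    obtain ⟨j, hj⟩ := hT.index (MulAction.stabilizer ↥S x)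
    have h1 : (MulAction.stabilizer ↥S x).index ≤ n := by
      rw [MulAction.index_stabilizer]
      have h2 := Set.ncard_le_card (MulAction.orbit ↥S x)
      rwa [Nat.card_fin] at h2
    rw [hj] at h1
    have hj1 : j < 2 := by
      by_contra hcon
      have h3 : p ^ 2 ≤ p ^ j := Nat.pow_le_pow_right hp.pos (by omega)
      omega
    interval_cases j
    · rw [pow_zero, Subgroup.index_eq_one] at hj
      rw [hj]; exact le_top
    · rw [pow_one] at hj
      obtain ⟨k, hk⟩ := IsPGroup.iff_card.1 hT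
      have hk0 : k ≠ 0 := by
        rintro rfl
        have h4 : (MulAction.stabilizer ↥S x).index ∣ Nat.card ↥S := Subgroup.index_dvd_card _
        rw [hj, hk, pow_zero] at h4
        exact hp.one_lt.ne' (Nat.dvd_one.1 h4)
      haveI : (MulAction.stabilizer ↥S x).Normal := by
        apply Subgroup.normal_of_index_eq_minFac_card
        rw [hj, hk, hp.pow_minFac hk0]
      have hc : Nat.card (↥S ⧸ MulAction.stabilizer ↥S x) = p := by
        rw [← Subgroup.index_eq_card, hj]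
      haveI := isCyclic_of_prime_card hc
      exact Subgroup.Normal.quotient_commutative_iff_commutator_le.1 IsCyclic.isMulCommutative
  refine ⟨⟨fun s t => ?_⟩⟩
  have hx : ∀ x : Fin n, (s * t) • x = (t * s) • x := by
    intro x
    have h1 : ⁅s⁻¹, t⁻¹⁆ ∈ commutator ↥S :=
      Subgroup.commutator_mem_commutator (Subgroup.mem_top _) (Subgroup.mem_top _)
    have h2 := key x h1
    rw [MulAction.mem_stabilizer_iff] at h2
    have h3 : (s * t) = (t * s) * ⁅s⁻¹, t⁻¹⁆ := by rw [commutatorElement_def]; group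
    rw [h3, mul_smul, h2]
  apply Subtype.ext
  apply Subtype.ext
  apply Equiv.ext
  intro x
  exact hx x

open scoped Pointwise in
theorem not_comm_of_pgroup (n p : ℕ) [Fact p.Prime] (S : Sylow p (alternatingGroup (Fin n)))
    (H : Subgroup (Perm (Fin n))) (hH : IsPGroup p H) (hA : H ≤ alternatingGroup (Fin n))
    {a b : Perm (Fin n)} (ha : a ∈ H) (hb : b ∈ H) (hab : a * b ≠ b * a) :
    ¬ IsMulCommutative S := by
  intro hc
  have hH' : IsPGroup p (H.subgroupOf (alternatingGroup (Fin n))) :=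
    hH.comap_of_injective _ (Subgroup.subtype_injective _)
  obtain ⟨Q, hQ⟩ := hH'.exists_le_sylow
  obtain ⟨g, hg⟩ := MulAction.exists_smul_eq (alternatingGroup (Fin n)) Q S
  have ha' : (⟨a, hA ha⟩ : alternatingGroup (Fin n)) ∈ (Q : Subgroup ↥(alternatingGroup (Fin n))) :=
    hQ (Subgroup.mem_subgroupOf.2 ha)
  have hb' : (⟨b, hA hb⟩ : alternatingGroup (Fin n)) ∈ (Q : Subgroup ↥(alternatingGroup (Fin n))) :=
    hQ (Subgroup.mem_subgroupOf.2 hb)
  have h1 := Subgroup.smul_mem_pointwise_smul _ (MulAut.conj g)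
    (Q : Subgroup ↥(alternatingGroup (Fin n))) ha'
  have h2 := Subgroup.smul_mem_pointwise_smul _ (MulAut.conj g)
    (Q : Subgroup ↥(alternatingGroup (Fin n))) hb'
  rw [← Sylow.coe_subgroup_smul, hg] at h1 h2
  rw [MulAut.smul_def, MulAut.conj_apply] at h1 h2
  have h3 := hc.is_comm.comm ⟨_, h1⟩ ⟨_, h2⟩
  have h4 : (g * ⟨a, hA ha⟩ * g⁻¹) * (g * ⟨b, hA hb⟩ * g⁻¹)
      = (g * ⟨b, hA hb⟩ * g⁻¹) * (g * ⟨a, hA ha⟩ * g⁻¹) := congrArg Subtype.val h3
  have h5 : (⟨a, hA ha⟩ : alternatingGroup (Fin n)) * ⟨b, hA hb⟩ = ⟨b, hA hb⟩ * ⟨a, hA ha⟩ := by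
    have e1 : (⟨a, hA ha⟩ : alternatingGroup (Fin n)) * ⟨b, hA hb⟩
        = g⁻¹ * ((g * ⟨a, hA ha⟩ * g⁻¹) * (g * ⟨b, hA hb⟩ * g⁻¹)) * g := by group
    rw [e1, h4]; group
  exact hab (congrArg Subtype.val h5)

theorem isPGroup_zpowers {G : Type*} [Group G] {p : ℕ} {g : G} {k : ℕ} (h : g ^ p ^ k = 1) :
    IsPGroup p (Subgroup.zpowers g) := by
  rintro ⟨x, hx⟩
  obtain ⟨m, rfl⟩ := Subgroup.mem_zpowers_iff.1 hx
  refine ⟨k, Subtype.ext ?_⟩
  show (g ^ m) ^ p ^ k = 1
  rw [← zpow_natCast, ← zpow_mul, mul_comm, zpow_mul, zpow_natCast, h, one_zpow]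

theorem mem_normalizer_zpowers {G : Type*} [Group G] {g x : G}
    (h1 : g * x * g⁻¹ ∈ Subgroup.zpowers x) (h2 : g⁻¹ * x * g ∈ Subgroup.zpowers x) :
    g ∈ Subgroup.normalizer ((Subgroup.zpowers x : Subgroup G) : Set G) := by
  refine Subgroup.mem_normalizer_iff.2 fun h => ⟨?_, ?_⟩
  · intro hh
    obtain ⟨m, rfl⟩ := Subgroup.mem_zpowers_iff.1 hh
    have e : g * x ^ m * g⁻¹ = (g * x * g⁻¹) ^ m := by
      have e0 := map_zpow (MulAut.conj g) x m
      rw [MulAut.conj_apply, MulAut.conj_apply] at e0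
      exact e0
    rw [e]
    exact Subgroup.zpow_mem _ h1 m
  · intro hh
    obtain ⟨m, hm⟩ := Subgroup.mem_zpowers_iff.1 hh
    have e : h = (g⁻¹ * x * g) ^ m := by
      have e1 := map_zpow (MulAut.conj g⁻¹) x m
      rw [MulAut.conj_apply, MulAut.conj_apply, inv_inv] at e1
      have e2 : g⁻¹ * x ^ m * g = (g⁻¹ * x * g) ^ m := e1
      rw [← e2, hm]; group
    rw [e]
    exact Subgroup.zpow_mem _ h2 m

/-! ### `p = 2`: a dihedral group of order 8 inside `A₆` -/

def x6 : Perm (Fin 6) := swap 0 1 * swap 1 2 * swap 2 3 * swap 4 5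
def y6 : Perm (Fin 6) := swap 0 2 * swap 4 5

theorem x6_pow : x6 ^ 2 ^ 2 = 1 := by decide
theorem y6_pow : y6 ^ 2 ^ 1 = 1 := by decide
theorem y6_conj : y6 * x6 * y6⁻¹ = x6 ^ (3 : ℤ) := by decide
theorem y6_conj' : y6⁻¹ * x6 * y6 = x6 ^ (3 : ℤ) := by decide
theorem xy6_ne : x6 * y6 ≠ y6 * x6 := by decide
theorem sign_x6 : Perm.sign x6 = 1 := by decide
theorem sign_y6 : Perm.sign y6 = 1 := by decide

theorem sign_via {α : Type*} [Fintype α] [DecidableEq α] {n : ℕ} (ι : α ↪ Fin n) (e : Perm α) :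
    Perm.sign (Perm.viaEmbeddingHom ι e) = Perm.sign e := by
  classical
  rw [Perm.viaEmbeddingHom_apply]
  unfold Perm.viaEmbedding
  exact @Perm.sign_extendDomain _ _ _ _ _ _ e _ (fun a => Classical.propDecidable _) _

theorem not_comm_two (n : ℕ) (hn : 6 ≤ n) (S : Sylow 2 (alternatingGroup (Fin n))) :
    ¬ IsMulCommutative S := by
  have h1 : IsPGroup 2 (Subgroup.zpowers y6 ⊔ Subgroup.zpowers x6 : Subgroup (Perm (Fin 6))) :=
    IsPGroup.to_sup_of_normal_right' (isPGroup_zpowers y6_pow) (isPGroup_zpowers x6_pow)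
      (Subgroup.zpowers_le.2 (mem_normalizer_zpowers
        (by rw [y6_conj]; exact Subgroup.zpow_mem_zpowers _ _)
        (by rw [y6_conj']; exact Subgroup.zpow_mem_zpowers _ _)))
  refine not_comm_of_pgroup n 2 S
    ((Subgroup.zpowers y6 ⊔ Subgroup.zpowers x6).map (Perm.viaEmbeddingHom (Fin.castLEEmb hn)))
    (h1.map _) ?_ (a := Perm.viaEmbeddingHom (Fin.castLEEmb hn) x6)
    (b := Perm.viaEmbeddingHom (Fin.castLEEmb hn) y6)
    (Subgroup.mem_map_of_mem _ (le_sup_right (a := Subgroup.zpowers y6) (Subgroup.mem_zpowers x6)))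
    (Subgroup.mem_map_of_mem _ (le_sup_left (b := Subgroup.zpowers x6) (Subgroup.mem_zpowers y6))) ?_
  · rw [Subgroup.map_le_iff_le_comap]
    refine sup_le (Subgroup.zpowers_le.2 ?_) (Subgroup.zpowers_le.2 ?_)
    · show Perm.viaEmbeddingHom (Fin.castLEEmb hn) y6 ∈ alternatingGroup (Fin n)
      rw [Perm.mem_alternatingGroup, sign_via, sign_y6]
    · show Perm.viaEmbeddingHom (Fin.castLEEmb hn) x6 ∈ alternatingGroup (Fin n)
      rw [Perm.mem_alternatingGroup, sign_via, sign_x6]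
  · rw [← map_mul, ← map_mul]
    intro h
    exact xy6_ne (Perm.viaEmbeddingHom_injective _ h)

/-! ### `p` odd: the wreath-type group on `ZMod p × ZMod p` -/

/-- `(x, y) ↦ (x + 1, y)`. -/
def tA (p : ℕ) : Perm (ZMod p × ZMod p) where
  toFun q := (q.1 + 1, q.2)
  invFun q := (q.1 - 1, q.2)
  left_inv q := by apply Prod.ext <;> simp
  right_inv q := by apply Prod.ext <;> simp

/-- `(x, y) ↦ (x, y + j x + k)`. -/
def sB (p : ℕ) (j k : ZMod p) : Perm (ZMod p × ZMod p) where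
  toFun q := (q.1, q.2 + j * q.1 + k)
  invFun q := (q.1, q.2 - j * q.1 - k)
  left_inv q := by
    apply Prod.ext
    · rfl
    · show q.2 + j * q.1 + k - j * q.1 - k = q.2
      ring
  right_inv q := by
    apply Prod.ext
    · rfl
    · show q.2 - j * q.1 - k + j * q.1 + k = q.2
      ring

theorem sB_mul (p : ℕ) (j k j' k' : ZMod p) : sB p j k * sB p j' k' = sB p (j + j') (k + k') := by
  apply Equiv.ext
  intro q
  show (q.1, q.2 + j' * q.1 + k' + j * q.1 + k) = (q.1, q.2 + (j + j') * q.1 + (k + k'))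
  apply Prod.ext
  · rfl
  · show q.2 + j' * q.1 + k' + j * q.1 + k = q.2 + (j + j') * q.1 + (k + k')
    ring

theorem sB_zero (p : ℕ) : sB p 0 0 = 1 := by
  apply Equiv.ext
  intro q
  show (q.1, q.2 + 0 * q.1 + 0) = q
  apply Prod.ext
  · rfl
  · show q.2 + 0 * q.1 + 0 = q.2
    ring

theorem sB_pow (p : ℕ) (j k : ZMod p) (m : ℕ) : sB p j k ^ m = sB p (m * j) (m * k) := by
  induction m with
  | zero => rw [pow_zero, Nat.cast_zero, zero_mul, zero_mul, sB_zero]
  | succ m ih =>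
    rw [pow_succ, ih, sB_mul]
    congr 1 <;> push_cast <;> ring

theorem tA_pow (p : ℕ) (m : ℕ) (q : ZMod p × ZMod p) : (tA p ^ m) q = (q.1 + m, q.2) := by
  induction m with
  | zero =>
    apply Prod.ext
    · show q.1 = q.1 + ((0 : ℕ) : ZMod p)
      rw [Nat.cast_zero, add_zero]
    · rfl
  | succ m ih =>
    rw [pow_succ', Perm.mul_apply, ih]
    apply Prod.ext
    · show q.1 + (m : ZMod p) + 1 = q.1 + ((m + 1 : ℕ) : ZMod p)
      push_cast; ring
    · rfl

/-- The subgroup of the maps `(x, y) ↦ (x, y + j x + k)`. -/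
def KB (p : ℕ) : Subgroup (Perm (ZMod p × ZMod p)) where
  carrier := {σ | ∃ j k, σ = sB p j k}
  one_mem' := ⟨0, 0, (sB_zero p).symm⟩
  mul_mem' := by
    rintro _ _ ⟨j, k, rfl⟩ ⟨j', k', rfl⟩
    exact ⟨j + j', k + k', sB_mul p j k j' k'⟩
  inv_mem' := by
    rintro _ ⟨j, k, rfl⟩
    refine ⟨-j, -k, ?_⟩
    rw [inv_eq_iff_mul_eq_one, sB_mul, add_neg_cancel, add_neg_cancel, sB_zero]

theorem tA_conj (p : ℕ) (j k : ZMod p) : tA p * sB p j k * (tA p)⁻¹ = sB p j (k - j) := by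
  apply Equiv.ext
  intro q
  show (q.1 - 1 + 1, q.2 + j * (q.1 - 1) + k) = (q.1, q.2 + j * q.1 + (k - j))
  apply Prod.ext
  · show q.1 - 1 + 1 = q.1
    ring
  · show q.2 + j * (q.1 - 1) + k = q.2 + j * q.1 + (k - j)
    ring

theorem tA_conj' (p : ℕ) (j k : ZMod p) : (tA p)⁻¹ * sB p j k * tA p = sB p j (k + j) := by
  apply Equiv.ext
  intro q
  show (q.1 + 1 - 1, q.2 + j * (q.1 + 1) + k) = (q.1, q.2 + j * q.1 + (k + j))
  apply Prod.ext
  · show q.1 + 1 - 1 = q.1
    ring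
  · show q.2 + j * (q.1 + 1) + k = q.2 + j * q.1 + (k + j)
    ring

theorem isPGroup_H0 (p : ℕ) [Fact p.Prime] :
    IsPGroup p (Subgroup.zpowers (tA p) ⊔ KB p : Subgroup (Perm (ZMod p × ZMod p))) := by
  have h1 : IsPGroup p (Subgroup.zpowers (tA p)) := by
    apply isPGroup_zpowers (k := 1)
    apply Equiv.ext
    intro q
    rw [pow_one, tA_pow]
    apply Prod.ext
    · show q.1 + (p : ZMod p) = q.1
      rw [CharP.cast_eq_zero, add_zero]
    · rfl
  have h2 : IsPGroup p (KB p) := by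
    rintro ⟨σ, j, k, rfl⟩
    refine ⟨1, Subtype.ext ?_⟩
    show sB p j k ^ p ^ 1 = 1
    rw [pow_one, sB_pow, CharP.cast_eq_zero, zero_mul, zero_mul, sB_zero]
  refine IsPGroup.to_sup_of_normal_right' h1 h2 (Subgroup.zpowers_le.2 ?_)
  refine Subgroup.mem_normalizer_iff.2 fun h => ⟨?_, ?_⟩
  · rintro ⟨j, k, rfl⟩
    exact ⟨j, k - j, tA_conj p j k⟩
  · rintro ⟨j, k, hjk⟩
    refine ⟨j, k + j, ?_⟩
    rw [← tA_conj', ← hjk]
    group

theorem tA_sB_ne (p : ℕ) [Fact p.Prime] : tA p * sB p 1 0 ≠ sB p 1 0 * tA p := by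
  intro h
  have h1 := congrArg (fun σ : Perm (ZMod p × ZMod p) => (σ (0, 0)).2) h
  have h2 : (0 : ZMod p) + 1 * 0 + 0 = 0 + 1 * (0 + 1) + 0 := h1
  have h3 : (0 : ZMod p) = 1 := by
    have e1 : (0 : ZMod p) + 1 * 0 + 0 = 0 := by ring
    have e2 : (0 : ZMod p) + 1 * (0 + 1) + 0 = 1 := by ring
    rw [e1, e2] at h2
    exact h2
  exact zero_ne_one h3

theorem le_alternating_of_odd (n p : ℕ) (hodd : Odd p) (H : Subgroup (Perm (Fin n)))
    (hH : IsPGroup p H) : H ≤ alternatingGroup (Fin n) := by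
  intro σ hσ
  rw [Perm.mem_alternatingGroup]
  obtain ⟨k, hk⟩ := hH ⟨σ, hσ⟩
  have h1 : σ ^ p ^ k = 1 := congrArg Subtype.val hk
  have h2 : Perm.sign σ ^ p ^ k = 1 := by rw [← map_pow, h1, map_one]
  rcases Int.units_eq_one_or (Perm.sign σ) with h3 | h3
  · exact h3
  · rw [h3, Odd.neg_one_pow (Odd.pow hodd)] at h2
    exact absurd h2 (by decide)

theorem not_comm_odd (n p : ℕ) [Fact p.Prime] (hodd : Odd p) (hn : p ^ 2 ≤ n)
    (S : Sylow p (alternatingGroup (Fin n))) : ¬ IsMulCommutative S := by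
  have hcard : Fintype.card (ZMod p × ZMod p) ≤ Fintype.card (Fin n) := by
    rw [Fintype.card_prod, ZMod.card, Fintype.card_fin, ← sq]
    exact hn
  obtain ⟨ι⟩ := Function.Embedding.nonempty_of_card_le hcard
  have h1 : IsPGroup p ((Subgroup.zpowers (tA p) ⊔ KB p).map (Perm.viaEmbeddingHom ι)) :=
    (isPGroup_H0 p).map _
  refine not_comm_of_pgroup n p S _ h1 (le_alternating_of_odd n p hodd _ h1)
    (a := Perm.viaEmbeddingHom ι (tA p)) (b := Perm.viaEmbeddingHom ι (sB p 1 0))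
    (Subgroup.mem_map_of_mem _ (le_sup_left (b := KB p) (Subgroup.mem_zpowers (tA p))))
    (Subgroup.mem_map_of_mem _ (le_sup_right (a := Subgroup.zpowers (tA p)) ⟨1, 0, rfl⟩)) ?_
  rw [← map_mul, ← map_mul]
  intro h
  exact tA_sB_ne p (Perm.viaEmbeddingHom_injective _ h)

/-- For n ≥ 6 and a prime p, a nontrivial Sylow p-subgroup of the alternating group of degree n is abelian if and only if n < p². -/
theorem result (n p : ℕ) (hn : 6 ≤ n) [Fact p.Prime] (S : Sylow p (alternatingGroup (Fin n))) (hS : (S : Subgroup (alternatingGroup (Fin n))) ≠ ⊥) : IsMulCommutative S ↔ n < p ^ 2 := by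
  constructor
  · intro hc
    by_contra hcon
    rcases (Fact.out : p.Prime).eq_two_or_odd' with h2 | hodd
    · subst h2
      exact not_comm_two n hn S hc
    · exact not_comm_odd n p hodd (not_lt.1 hcon) S hc
  · exact comm_of_lt n p S

end Cfsg.Agent.S5164
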