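import Cfsg.Statements.S5167
import Cfsg.Agent.Helper25.Mat12

set_option autoImplicit false
open Cfsg

namespace Cfsg.Agent.S5167

open Cfsg.Agent.Helper28 Cfsg.Agent.Helper28.Golay Cfsg.Agent.Helper25 Cfsg.Agent.Helper25.Mat
open scoped Pointwise

theorem M12_eq : Cfsg.Spor.M12 = GS [d0] [] := by
  ext x
  rw [mem_GS]
  constructor
  · intro h
    obtain ⟨h3, h4⟩ := Subgroup.mem_inf.1 h
    refine ⟨h3, ?_, fun i hi => absurd hi List.not_mem_nil⟩
    intro m hm
    rw [List.mem_singleton] at hm
    rw [hm, toSet_d0]
    exact MulAction.mem_stabilizer_iff.1 h4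
  · rintro ⟨h1, h2, -⟩
    refine Subgroup.mem_inf.2 ⟨h1, MulAction.mem_stabilizer_iff.2 ?_⟩
    rw [← toSet_d0]
    exact h2 d0 (List.mem_singleton.2 rfl)

/-- The 2-fusion system of the Mathieu group M₁₂ (as the explicit permutation group carved out of the automorphism group of the binary Golay code) on a Sylow 2-subgroup is simple: saturated, over a nontrivial 2-group, with no normal subsystem other than the trivial one and itself. -/
theorem result (S : Sylow 2 Cfsg.Spor.M12) : (Cfsg.groupFusionSystem (S : Subgroup Cfsg.Spor.M12)).IsSimple 2 := by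
  revert S
  rw [M12_eq]
  intro S
  exact simple_of_exists m12_data S

end Cfsg.Agent.S5167
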