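import Cfsg.Statements.S5168
import Cfsg.Agent.Helper25.Mat22

set_option autoImplicit false
open Cfsg

namespace Cfsg.Agent.S5168

open Cfsg.Agent.Helper28 Cfsg.Agent.Helper28.Golay Cfsg.Agent.Helper25 Cfsg.Agent.Helper25.Mat
open scoped Pointwise

theorem pt_zero : pt 0 = (some 0 : Cfsg.GolayPt) := by decide +kernel

theorem pt_inf : pt 23 = (none : Cfsg.GolayPt) := by decide +kernel

theorem G_eq : Cfsg.Spor.M22 = GS [] [0, 23] := by
  ext x
  rw [mem_GS]
  constructor
  · intro h
    obtain ⟨h1, h2⟩ := Subgroup.mem_inf.1 h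
    obtain ⟨h3, h4⟩ := Subgroup.mem_inf.1 h1
    refine ⟨h3, fun m hm => absurd hm List.not_mem_nil, ?_⟩
    intro i hi
    rw [List.mem_cons, List.mem_singleton] at hi
    rcases hi with rfl | rfl
    · rw [pt_zero]
      exact MulAction.mem_stabilizer_iff.1 h2
    · rw [pt_inf]
      exact MulAction.mem_stabilizer_iff.1 h4
  · rintro ⟨h1, -, h3⟩
    refine Subgroup.mem_inf.2 ⟨Subgroup.mem_inf.2 ⟨h1, MulAction.mem_stabilizer_iff.2 ?_⟩,
      MulAction.mem_stabilizer_iff.2 ?_⟩
    · have h := h3 23 (by simp)
      rw [pt_inf] at h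
      exact h
    · have h := h3 0 (by simp)
      rw [pt_zero] at h
      exact h

/-- The 2-fusion system of the Mathieu group M₂₂ (as the explicit permutation group carved out of the automorphism group of the binary Golay code) on a Sylow 2-subgroup is simple: saturated, over a nontrivial 2-group, with no normal subsystem other than the trivial one and itself. -/
theorem result (S : Sylow 2 Cfsg.Spor.M22) : (Cfsg.groupFusionSystem (S : Subgroup Cfsg.Spor.M22)).IsSimple 2 := by
  revert S
  rw [G_eq]
  intro S
  exact simple_of_exists m22_data S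

end Cfsg.Agent.S5168
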