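import Cfsg.Statements.S5169
import Cfsg.Agent.Helper25.Mat23

set_option autoImplicit false
open Cfsg

namespace Cfsg.Agent.S5169

open Cfsg.Agent.Helper28 Cfsg.Agent.Helper28.Golay Cfsg.Agent.Helper25 Cfsg.Agent.Helper25.Mat
open scoped Pointwise

theorem pt_zero : pt 0 = (some 0 : Cfsg.GolayPt) := by decide +kernel

theorem pt_inf : pt 23 = (none : Cfsg.GolayPt) := by decide +kernel

theorem G_eq : Cfsg.Spor.M23 = GS [] [23] := by
  ext x
  rw [mem_GS]
  constructor
  · intro h
    obtain ⟨h3, h4⟩ := Subgroup.mem_inf.1 h
    refine ⟨h3, fun m hm => absurd hm List.not_mem_nil, ?_⟩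
    intro i hi
    rw [List.mem_singleton] at hi
    rw [hi, pt_inf]
    exact MulAction.mem_stabilizer_iff.1 h4
  · rintro ⟨h1, -, h3⟩
    refine Subgroup.mem_inf.2 ⟨h1, MulAction.mem_stabilizer_iff.2 ?_⟩
    have h := h3 23 (by simp)
    rw [pt_inf] at h
    exact h

/-- The 2-fusion system of the Mathieu group M₂₃ (as the explicit permutation group carved out of the automorphism group of the binary Golay code) on a Sylow 2-subgroup is simple: saturated, over a nontrivial 2-group, with no normal subsystem other than the trivial one and itself. -/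
theorem result (S : Sylow 2 Cfsg.Spor.M23) : (Cfsg.groupFusionSystem (S : Subgroup Cfsg.Spor.M23)).IsSimple 2 := by
  revert S
  rw [G_eq]
  intro S
  exact simple_of_exists m23_data S

end Cfsg.Agent.S5169
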