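import Mathlib
import Cfsg.Statements.S5344

set_option autoImplicit false
open Cfsg

namespace Cfsg.Agent.S5344

/-- the three adjacent transpositions -/
def sw : Fin 3 → Equiv.Perm (Fin 4)
  | 0 => Equiv.swap 0 1
  | 1 => Equiv.swap 1 2
  | 2 => Equiv.swap 2 3

/-- the permutation of a word -/
def pm : List (Fin 3) → Equiv.Perm (Fin 4)
  | [] => 1
  | k :: l => sw k * pm l

/-- the three generators in the target -/
def gen {G : Type*} (a b c : G) : Fin 3 → G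
  | 0 => a
  | 1 => b
  | 2 => c

theorem gen0 {G : Type*} (a b c : G) : gen a b c 0 = a := rfl
theorem gen1 {G : Type*} (a b c : G) : gen a b c 1 = b := rfl
theorem gen2 {G : Type*} (a b c : G) : gen a b c 2 = c := rfl

/-- the value of a word in the target -/
def ev {G : Type*} [Group G] (a b c : G) : List (Fin 3) → G
  | [] => 1
  | k :: l => gen a b c k * ev a b c l

theorem ev_nil {G : Type*} [Group G] (a b c : G) : ev a b c [] = 1 := rfl
theorem ev_cons {G : Type*} [Group G] (a b c : G) (k : Fin 3) (l : List (Fin 3)) :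
    ev a b c (k :: l) = gen a b c k * ev a b c l := rfl

def WORDS : List (List (Fin 3)) := [[], [0], [1], [2], [0, 1], [0, 2], [1, 0], [1, 2], [2, 1], [0, 1, 0], [0, 1, 2], [0, 2, 1], [1, 0, 2], [1, 2, 1], [2, 1, 0], [0, 1, 0, 2], [0, 1, 2, 1], [0, 2, 1, 0], [1, 0, 2, 1], [1, 2, 1, 0], [0, 1, 0, 2, 1], [0, 1, 2, 1, 0], [1, 0, 2, 1, 0], [0, 1, 0, 2, 1, 0]]

def PAIRS : List (Fin 3 × List (Fin 3) × List (Fin 3)) := [(0, [], [0]),
    (0, [0], []),
    (0, [1], [0, 1]),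
    (0, [2], [0, 2]),
    (0, [0, 1], [1]),
    (0, [0, 2], [2]),
    (0, [1, 0], [0, 1, 0]),
    (0, [1, 2], [0, 1, 2]),
    (0, [2, 1], [0, 2, 1]),
    (0, [0, 1, 0], [1, 0]),
    (0, [0, 1, 2], [1, 2]),
    (0, [0, 2, 1], [2, 1]),
    (0, [1, 0, 2], [0, 1, 0, 2]),
    (0, [1, 2, 1], [0, 1, 2, 1]),
    (0, [2, 1, 0], [0, 2, 1, 0]),
    (0, [0, 1, 0, 2], [1, 0, 2]),
    (0, [0, 1, 2, 1], [1, 2, 1]),
    (0, [0, 2, 1, 0], [2, 1, 0]),
    (0, [1, 0, 2, 1], [0, 1, 0, 2, 1]),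
    (0, [1, 2, 1, 0], [0, 1, 2, 1, 0]),
    (0, [0, 1, 0, 2, 1], [1, 0, 2, 1]),
    (0, [0, 1, 2, 1, 0], [1, 2, 1, 0]),
    (0, [1, 0, 2, 1, 0], [0, 1, 0, 2, 1, 0]),
    (0, [0, 1, 0, 2, 1, 0], [1, 0, 2, 1, 0]),
    (1, [], [1]),
    (1, [0], [1, 0]),
    (1, [1], []),
    (1, [2], [1, 2]),
    (1, [0, 1], [0, 1, 0]),
    (1, [0, 2], [1, 0, 2]),
    (1, [1, 0], [0]),
    (1, [1, 2], [2]),
    (1, [2, 1], [1, 2, 1]),
    (1, [0, 1, 0], [0, 1]),
    (1, [0, 1, 2], [0, 1, 0, 2]),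
    (1, [0, 2, 1], [1, 0, 2, 1]),
    (1, [1, 0, 2], [0, 2]),
    (1, [1, 2, 1], [2, 1]),
    (1, [2, 1, 0], [1, 2, 1, 0]),
    (1, [0, 1, 0, 2], [0, 1, 2]),
    (1, [0, 1, 2, 1], [0, 1, 0, 2, 1]),
    (1, [0, 2, 1, 0], [1, 0, 2, 1, 0]),
    (1, [1, 0, 2, 1], [0, 2, 1]),
    (1, [1, 2, 1, 0], [2, 1, 0]),
    (1, [0, 1, 0, 2, 1], [0, 1, 2, 1]),
    (1, [0, 1, 2, 1, 0], [0, 1, 0, 2, 1, 0]),
    (1, [1, 0, 2, 1, 0], [0, 2, 1, 0]),
    (1, [0, 1, 0, 2, 1, 0], [0, 1, 2, 1, 0]),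
    (2, [], [2]),
    (2, [0], [0, 2]),
    (2, [1], [2, 1]),
    (2, [2], []),
    (2, [0, 1], [0, 2, 1]),
    (2, [0, 2], [0]),
    (2, [1, 0], [2, 1, 0]),
    (2, [1, 2], [1, 2, 1]),
    (2, [2, 1], [1]),
    (2, [0, 1, 0], [0, 2, 1, 0]),
    (2, [0, 1, 2], [0, 1, 2, 1]),
    (2, [0, 2, 1], [0, 1]),
    (2, [1, 0, 2], [1, 2, 1, 0]),
    (2, [1, 2, 1], [1, 2]),
    (2, [2, 1, 0], [1, 0]),
    (2, [0, 1, 0, 2], [0, 1, 2, 1, 0]),
    (2, [0, 1, 2, 1], [0, 1, 2]),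
    (2, [0, 2, 1, 0], [0, 1, 0]),
    (2, [1, 0, 2, 1], [1, 0, 2, 1, 0]),
    (2, [1, 2, 1, 0], [1, 0, 2]),
    (2, [0, 1, 0, 2, 1], [0, 1, 0, 2, 1, 0]),
    (2, [0, 1, 2, 1, 0], [0, 1, 0, 2]),
    (2, [1, 0, 2, 1, 0], [1, 0, 2, 1]),
    (2, [0, 1, 0, 2, 1, 0], [0, 1, 0, 2, 1])]

def TRIPLES : List (List (Fin 3) × List (Fin 3) × List (Fin 3)) := [([0], [], [1, 0, 2, 1]),
    ([1], [1, 0], [1, 2]),
    ([2], [], [1, 0, 2, 1]),
    ([0, 1], [], [0, 1, 2]),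
    ([0, 2], [1], [0, 1]),
    ([1, 0], [], [1, 0, 2]),
    ([1, 2], [], [0, 1, 0]),
    ([2, 1], [], [2, 1, 0]),
    ([0, 1, 0], [1], [1, 0, 2]),
    ([0, 1, 2], [1], [1]),
    ([0, 2, 1], [1, 0], [1, 0]),
    ([1, 0, 2], [1, 0], [1, 0]),
    ([1, 2, 1], [1], [1, 0, 2]),
    ([2, 1, 0], [1], [1]),
    ([0, 1, 0, 2], [], [1]),
    ([0, 1, 2, 1], [], [0, 1, 0]),
    ([0, 2, 1, 0], [], [0, 2, 1]),
    ([1, 0, 2, 1], [], [0]),
    ([1, 2, 1, 0], [], [1]),
    ([0, 1, 0, 2, 1], [], []),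
    ([0, 1, 2, 1, 0], [1, 0], [1, 2]),
    ([1, 0, 2, 1, 0], [], []),
    ([0, 1, 0, 2, 1, 0], [], [0])]

theorem pairs_pm : ∀ p ∈ PAIRS, pm p.2.2 = sw p.1 * pm p.2.1 ∧ p.2.2 ∈ WORDS := by
  decide +kernel

theorem pairs_total : ∀ k : Fin 3, ∀ u ∈ WORDS, ∃ v ∈ WORDS, (k, u, v) ∈ PAIRS := by
  decide +kernel

theorem words_inj : ∀ u ∈ WORDS, ∀ v ∈ WORDS, pm u = pm v → u = v := by
  decide +kernel

theorem triples_prop : ∀ t ∈ TRIPLES,
    pm t.2.1 * pm t.1 * (pm t.2.1)⁻¹ * (pm t.2.2 * pm t.1 * (pm t.2.2)⁻¹)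
      = Equiv.swap 0 1 * Equiv.swap 2 3 := by
  decide +kernel

theorem triples_total : ∀ u ∈ WORDS, u ≠ [] → ∃ t ∈ TRIPLES, t.1 = u := by
  decide +kernel

theorem words_surj : ∀ σ : Equiv.Perm (Fin 4), ∃ u ∈ WORDS, pm u = σ := by
  intro σ
  refine Submonoid.induction_of_closure_eq_top_left
    (Equiv.Perm.mclosure_swap_castSucc_succ 3) σ ?_ ?_
  · exact ⟨[], by decide, rfl⟩
  · rintro _ ⟨i, rfl⟩ y ⟨u, hu, rfl⟩
    have hi : Equiv.swap i.castSucc i.succ = sw i := by fin_cases i <;> rfl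
    obtain ⟨v, hv, hkv⟩ := pairs_total i u hu
    exact ⟨v, hv, (pairs_pm _ hkv).1.trans (by rw [← hi])⟩

theorem pairs_ev {G : Type*} [Group G] (a b c : G)
    (h1 : ∀ x, a * (a * x) = x) (h2 : ∀ x, b * (b * x) = x) (h3 : ∀ x, c * (c * x) = x)
    (h4 : ∀ x, c * (a * x) = a * (c * x))
    (h5 : ∀ x, b * (a * (b * x)) = a * (b * (a * x)))
    (h6 : ∀ x, c * (b * (c * x)) = b * (c * (b * x)))
    (h7 : ∀ x, c * (b * (a * (c * x))) = b * (c * (b * (a * x)))) :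
    ∀ p ∈ PAIRS, ev a b c p.2.2 = gen a b c p.1 * ev a b c p.2.1 := by
  simp only [PAIRS, List.forall_mem_cons, List.not_mem_nil, false_imp_iff, implies_true,
    ev_nil, ev_cons, gen0, gen1, gen2, h1, h2, h3, h4, h5, h6, h7, and_self]

/-- In a set of 3-transpositions, let a, b, c be members with a and c different and commuting, while neither a nor c commutes with b (a 3-string). Then there is an injective homomorphism from the symmetric group of degree 4 into the ambient group sending the transpositions (0 1), (1 2), (2 3) to a, b, c; so a, b, c generate a copy of the symmetric group of degree 4 in which they are transpositions. -/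
theorem result {G : Type*} [Group G] {D : Set G} (hD : Cfsg.IsThreeTranspositionSet D) {a b c : G} (ha : a ∈ D) (hb : b ∈ D) (hc : c ∈ D) (hac : a ≠ c) (hac' : Commute a c) (hab : ¬ Commute a b) (hbc : ¬ Commute b c) : ∃ φ : Equiv.Perm (Fin 4) →* G, Function.Injective φ ∧ φ (Equiv.swap 0 1) = a ∧ φ (Equiv.swap 1 2) = b ∧ φ (Equiv.swap 2 3) = c := by
  obtain ⟨hord, h23⟩ := hD
  have sq : ∀ d ∈ D, d * d = 1 := by
    intro d hd
    have := hord d hd
    rw [← pow_two, ← this, pow_orderOf_eq_one]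
  have haa := sq a ha
  have hbb := sq b hb
  have hcc := sq c hc
  have braid : ∀ x ∈ D, ∀ y ∈ D, ¬ Commute x y → y * x * y = x * y * x := by
    intro x hx y hy hxy
    have hxx := sq x hx
    have hyy := sq y hy
    have hxi : x⁻¹ = x := inv_eq_of_mul_eq_one_right hxx
    have hyi : y⁻¹ = y := inv_eq_of_mul_eq_one_right hyy
    rcases h23 x hx y hy with h | h
    · exfalso
      have e : x * y = (x * y)⁻¹ := eq_inv_of_mul_eq_one_left (by rw [← pow_two]; exact h)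
      rw [mul_inv_rev, hxi, hyi] at e
      exact hxy e
    · have e : x * y * x * (y * x * y) = 1 := by
        have h' := h
        simp only [pow_succ, pow_zero, one_mul, mul_assoc] at h' ⊢
        exact h'
      have e2 := eq_inv_of_mul_eq_one_right e
      rw [mul_inv_rev, mul_inv_rev, hxi, hyi, ← mul_assoc] at e2
      exact e2
  have hab3 : b * a * b = a * b * a := braid a ha b hb hab
  have hcb3 : c * b * c = b * c * b := braid b hb c hc hbc
  have h1 : ∀ x, a * (a * x) = x := fun x => by rw [← mul_assoc, haa, one_mul]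
  have h2 : ∀ x, b * (b * x) = x := fun x => by rw [← mul_assoc, hbb, one_mul]
  have h3 : ∀ x, c * (c * x) = x := fun x => by rw [← mul_assoc, hcc, one_mul]
  have h4 : ∀ x, c * (a * x) = a * (c * x) := fun x => by
    rw [← mul_assoc, ← hac'.eq, mul_assoc]
  have h5 : ∀ x, b * (a * (b * x)) = a * (b * (a * x)) := fun x => by
    simp only [← mul_assoc, hab3]
  have h6 : ∀ x, c * (b * (c * x)) = b * (c * (b * x)) := fun x => by
    simp only [← mul_assoc, hcb3]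
  have h7 : ∀ x, c * (b * (a * (c * x))) = b * (c * (b * (a * x))) := fun x => by
    rw [← h4, h6]
  have hP := pairs_ev a b c h1 h2 h3 h4 h5 h6 h7
  choose w hwW hwpm using words_surj
  have hw1 : w 1 = [] := words_inj _ (hwW 1) [] (by decide) (by rw [hwpm]; rfl)
  have hf1 : ev a b c (w 1) = 1 := by rw [hw1]; rfl
  have hfk : ∀ (k : Fin 3) (σ : Equiv.Perm (Fin 4)),
      ev a b c (w (sw k * σ)) = gen a b c k * ev a b c (w σ) := by
    intro k σ
    obtain ⟨v, hv, hkv⟩ := pairs_total k (w σ) (hwW σ)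
    have e1 := (pairs_pm _ hkv).1
    have e2 := hP _ hkv
    have e3 : v = w (sw k * σ) := words_inj v hv _ (hwW _) (by
      rw [hwpm]; exact e1.trans (by rw [hwpm]))
    rw [← e3]; exact e2
  have hmul : ∀ τ σ : Equiv.Perm (Fin 4),
      ev a b c (w (τ * σ)) = ev a b c (w τ) * ev a b c (w σ) := by
    intro τ
    refine Submonoid.induction_of_closure_eq_top_left
      (Equiv.Perm.mclosure_swap_castSucc_succ 3) τ ?_ ?_
    · intro σ; rw [one_mul, hf1, one_mul]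
    · rintro _ ⟨i, rfl⟩ y hy σ
      have hi : Equiv.swap i.castSucc i.succ = sw i := by fin_cases i <;> rfl
      show ev a b c (w (Equiv.swap i.castSucc i.succ * y * σ))
        = ev a b c (w (Equiv.swap i.castSucc i.succ * y)) * ev a b c (w σ)
      rw [hi, mul_assoc, hfk, hfk, hy, mul_assoc]
  have hgen : ∀ k : Fin 3, ev a b c (w (sw k)) = gen a b c k := by
    intro k
    have := hfk k 1
    rw [mul_one, hf1, mul_one] at this
    exact this
  refine ⟨MonoidHom.mk' (fun σ => ev a b c (w σ)) hmul, ?_, hgen 0, hgen 1, hgen 2⟩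
  rw [injective_iff_map_eq_one]
  intro σ hσ
  by_contra hne
  have hσ' : ev a b c (w σ) = 1 := hσ
  have hu : w σ ≠ [] := by
    intro h
    apply hne
    rw [← hwpm σ, h]; rfl
  obtain ⟨t, ht, htu⟩ := triples_total _ (hwW σ) hu
  have key := triples_prop t ht
  rw [htu, hwpm] at key
  have key2 : ev a b c (w (pm t.2.1 * σ * (pm t.2.1)⁻¹ * (pm t.2.2 * σ * (pm t.2.2)⁻¹))) = 1 := by
    rw [hmul, hmul, hmul, hmul, hmul, hσ', mul_one, ← hmul, mul_inv_cancel, hf1, one_mul,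
      mul_one, ← hmul, mul_inv_cancel, hf1]
  rw [key] at key2
  have e0 : Equiv.swap (0 : Fin 4) 1 = sw 0 := rfl
  have e2 : Equiv.swap (2 : Fin 4) 3 = sw 2 := rfl
  rw [e0, e2, hmul, hgen, hgen] at key2
  have : a * c = a * a := by rw [haa]; exact key2
  exact hac (mul_left_cancel this).symm

end Cfsg.Agent.S5344
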