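import Mathlib
import Cfsg.Statements.S5345

set_option autoImplicit false
open Cfsg

namespace Cfsg.Agent.S5345

theorem sq_one {G : Type*} [Group G] {d : G} (h : orderOf d = 2) : d * d = 1 := by
  rw [← pow_two, ← h]; exact pow_orderOf_eq_one d

theorem closure_comm {G : Type*} [Group G] {k : Set G} (h : ∀ x ∈ k, ∀ y ∈ k, x * y = y * x) :
    ∀ x ∈ Subgroup.closure k, ∀ y ∈ Subgroup.closure k, x * y = y * x := by
  intro x hx y hy
  induction hx, hy using Subgroup.closure_induction₂ with
  | mem x y hx hy => exact h x hx y hy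
  | one_left x hx => simp
  | one_right x hx => simp
  | mul_left x y z hx hy hz h1 h2 => rw [mul_assoc, h2, ← mul_assoc, h1, mul_assoc]
  | mul_right y z x hy hz hx h1 h2 => rw [← mul_assoc, h1, mul_assoc, h2, ← mul_assoc]
  | inv_left x y hx hy h1 =>
    have : y = x * y * x⁻¹ := by rw [h1]; group
    calc x⁻¹ * y = x⁻¹ * (x * y * x⁻¹) := by rw [← this]
      _ = y * x⁻¹ := by group
  | inv_right x y hx hy h1 =>
    have : x = y * x * y⁻¹ := by rw [← h1]; group
    calc x * y⁻¹ = y⁻¹ * (y * x * y⁻¹) := by group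
      _ = y⁻¹ * x := by rw [← this]

theorem closure_sq {G : Type*} [Group G] {k : Set G} (h : ∀ x ∈ k, ∀ y ∈ k, x * y = y * x)
    (h2 : ∀ x ∈ k, x * x = 1) : ∀ x ∈ Subgroup.closure k, x * x = 1 := by
  intro x hx
  induction hx using Subgroup.closure_induction with
  | mem x hx => exact h2 x hx
  | one => simp
  | mul x y hx hy h1 h3 =>
    have hc := closure_comm h x hx y hy
    calc x * y * (x * y) = x * (y * x) * y := by group
      _ = x * (x * y) * y := by rw [hc]
      _ = (x * x) * (y * y) := by group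
      _ = 1 := by rw [h1, h3, one_mul]
  | inv x hx h1 =>
    calc x⁻¹ * x⁻¹ = (x * x)⁻¹ := by group
      _ = 1 := by rw [h1, inv_one]

/-- Let D be a conjugation-invariant generating set of 3-transpositions of a finite group G and T a Sylow 2-subgroup of G. Then the members of D lying in T generate an abelian subgroup, and their number is the width of D (the largest number of pairwise commuting members of D). -/
theorem result {G : Type*} [Group G] [Finite G] {D : Set G} (hD : Cfsg.IsThreeTranspositionGroup D) (T : Sylow 2 G) : IsMulCommutative (Subgroup.closure {d : G | d ∈ D ∧ d ∈ T}) ∧ {d : G | d ∈ D ∧ d ∈ T}.ncard = Cfsg.commutingWidth D := by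
  classical
  obtain ⟨⟨hord, hprod⟩, hconj, -⟩ := hD
  have hinvD : ∀ d ∈ D, d⁻¹ = d := fun d hd => inv_eq_of_mul_eq_one_left (sq_one (hord d hd))
  -- members of D in T commute pairwise
  have hX : ∀ x ∈ {d : G | d ∈ D ∧ d ∈ T}, ∀ y ∈ {d : G | d ∈ D ∧ d ∈ T}, x * y = y * x := by
    rintro d ⟨hd, hdT⟩ e ⟨he, heT⟩
    rcases hprod d hd e he with h | h
    · have h' : d * e * (d * e) = 1 := by rw [← pow_two]; exact h
      have : d * e = (d * e)⁻¹ := (inv_eq_of_mul_eq_one_left h').symm
      rw [this, mul_inv_rev, hinvD d hd, hinvD e he]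
    · have hmem : d * e ∈ (T : Subgroup G) := (T : Subgroup G).mul_mem hdT heT
      obtain ⟨k, hk⟩ := T.isPGroup' ⟨d * e, hmem⟩
      have hk' : (d * e) ^ (2 ^ k) = 1 := by
        have := congrArg Subtype.val hk
        simpa using this
      have hcop : Nat.Coprime (2 ^ k) 3 := Nat.Coprime.pow_left _ (by norm_num)
      have h1 : d * e = 1 := by
        have hg := pow_gcd_eq_one.mpr ⟨hk', h⟩
        rw [hcop] at hg
        simpa using hg
      have : e = d := by
        have : e = d⁻¹ := (inv_eq_of_mul_eq_one_right h1).symm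
        rw [this, hinvD d hd]
      rw [this]
  refine ⟨⟨⟨fun a b => Subtype.ext (closure_comm hX a.1 a.2 b.1 b.2)⟩⟩, ?_⟩
  unfold Cfsg.commutingWidth
  set W : Set ℕ := {n : ℕ | ∃ E : Set G, E ⊆ D ∧ E.Finite ∧ (∀ a ∈ E, ∀ b ∈ E, Commute a b) ∧ E.ncard = n} with hW
  have hXW : {d : G | d ∈ D ∧ d ∈ T}.ncard ∈ W :=
    ⟨_, fun d hd => hd.1, Set.toFinite _, fun a ha b hb => hX a ha b hb, rfl⟩
  have hbdd : BddAbove W := by
    refine ⟨Nat.card G, ?_⟩
    rintro n ⟨E, -, -, -, rfl⟩
    rw [← Set.ncard_univ]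
    exact Set.ncard_le_ncard (Set.subset_univ E) (Set.toFinite _)
  apply le_antisymm (le_csSup hbdd hXW)
  apply csSup_le ⟨_, hXW⟩
  rintro n ⟨E, hED, -, hEc, rfl⟩
  -- the subgroup generated by E is a 2-group
  have hEc' : ∀ x ∈ E, ∀ y ∈ E, x * y = y * x := fun x hx y hy => hEc x hx y hy
  have hE2 : ∀ x ∈ E, x * x = 1 := fun x hx => sq_one (hord x (hED hx))
  have hK : IsPGroup 2 (Subgroup.closure E) := by
    intro g
    refine ⟨1, ?_⟩
    apply Subtype.ext
    simp only [pow_one, Subgroup.coe_pow, Subgroup.coe_one]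
    rw [pow_two]
    exact closure_sq hEc' hE2 g.1 g.2
  obtain ⟨Q, hQ⟩ := hK.exists_le_sylow
  obtain ⟨g, hg⟩ := MulAction.exists_smul_eq G Q T
  apply Set.ncard_le_ncard_of_injOn (fun x => g * x * g⁻¹)
  · intro x hx
    refine ⟨hconj g x (hED hx), ?_⟩
    have hxQ : x ∈ (Q : Subgroup G) := hQ (Subgroup.subset_closure hx)
    have := Subgroup.smul_mem_pointwise_smul x (MulAut.conj g) (Q : Subgroup G) hxQ
    rw [← Sylow.coe_subgroup_smul, hg] at this
    show g * x * g⁻¹ ∈ (T : Subgroup G)
    simpa [MulAut.smul_def] using this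
  · intro x _ y _ hxy
    simpa using hxy

end Cfsg.Agent.S5345
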