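import Cfsg.Statements.S5347

set_option autoImplicit false
open Cfsg

namespace Cfsg.Agent.S5347

/-- Let D be a conjugation-invariant generating set of 3-transpositions of a finite group G, p a prime bigger than 3, and P a p-subgroup of G. If a member d of D normalizes P then d centralizes P. -/
theorem result {G : Type*} [Group G] [Finite G] {D : Set G} (hD : Cfsg.IsThreeTranspositionGroup D) {p : ℕ} (hp : p.Prime) (hp3 : 3 < p) (P : Subgroup G) (hP : IsPGroup p P) {d : G} (hd : d ∈ D) (hnorm : d ∈ Subgroup.normalizer (P : Set G)) : ∀ x ∈ P, Commute d x := by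
  intro x hx
  obtain ⟨⟨hord, hprod⟩, hconj, -⟩ := hD
  have hd2 : d * d = 1 := by
    have := hord d hd
    rw [← pow_two, ← this]; exact pow_orderOf_eq_one d
  have hdinv : d⁻¹ = d := inv_eq_of_mul_eq_one_left hd2
  have he : x * d * x⁻¹ ∈ D := hconj x d hd
  set y : G := d * (x * d * x⁻¹) with hy
  have hyP : y ∈ P := by
    have h1 : d * x * d⁻¹ ∈ P := (Subgroup.mem_normalizer_iff.mp hnorm x).mp hx
    have h2 : y = (d * x * d⁻¹) * x⁻¹ := by rw [hy, hdinv]; group
    rw [h2]; exact P.mul_mem h1 (P.inv_mem hx)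
  have hy6 : y ^ 6 = 1 := by
    rcases hprod d hd _ he with h | h
    · have : y ^ 6 = (y ^ 2) ^ 3 := by rw [← pow_mul]
      rw [this, h, one_pow]
    · have : y ^ 6 = (y ^ 3) ^ 2 := by rw [← pow_mul]
      rw [this, h, one_pow]
  obtain ⟨k, hk⟩ := hP ⟨y, hyP⟩
  have hk' : y ^ (p ^ k) = 1 := by
    have := congrArg Subtype.val hk
    simpa using this
  have hcop : Nat.Coprime (p ^ k) 6 := by
    apply Nat.Coprime.pow_left
    have h2 : Nat.Coprime p 2 := (Nat.coprime_primes hp Nat.prime_two).mpr (by omega)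
    have h3 : Nat.Coprime p 3 := (Nat.coprime_primes hp Nat.prime_three).mpr (by omega)
    exact Nat.Coprime.mul_right h2 h3
  have hy1 : y = 1 := by
    have h := pow_gcd_eq_one.mpr ⟨hk', hy6⟩
    rw [hcop] at h
    simpa using h
  show d * x = x * d
  have h3 : d * x * d * x⁻¹ = 1 := by rw [← hy1, hy]; group
  have h4 : d * x * d = x := by
    have := congrArg (· * x) h3
    simpa using this
  calc d * x = d * x * d * d := by rw [mul_assoc (d * x), hd2, mul_one]
    _ = x * d := by rw [h4]

end Cfsg.Agent.S5347
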