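import Mathlib
import Cfsg.Statements.S5349
import Cfsg.Agent.Helper1.BaerSuzuki
import Cfsg.Agent.Helper14.Basic
-- import your own Cfsg.Agent.* helpers here

set_option autoImplicit false
open Cfsg

namespace Cfsg.Agent.S5349


section Aux

variable {G : Type*} [Group G]

/-- `v` is a member of `D` commuting with exactly the same members of `D` as `a`. -/
def TD (D : Set G) (a v : G) : Prop := v ∈ D ∧ ∀ e ∈ D, Commute v e ↔ Commute a e

theorem braid {x y : G} (hx : x * x = 1) (hy : y * y = 1) (h : (x * y) ^ 3 = 1) :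
    x * y * x = y * x * y := by
  have h' : x * y * (x * y) * (x * y) = 1 := by
    have := h
    rw [pow_succ, pow_two] at this
    exact this
  calc x * y * x = (x * y * (x * y) * (x * y)) * (y * x * y)⁻¹ := by group
    _ = (y * x * y)⁻¹ := by rw [h', one_mul]
    _ = y⁻¹ * x⁻¹ * y⁻¹ := by group
    _ = y * x * y := by rw [inv_eq_of_mul_eq_one_left hy, inv_eq_of_mul_eq_one_left hx]

theorem pg_zpowers {x : G} (n : ℕ) (h : x ^ (2 ^ n) = 1) : IsPGroup 2 (Subgroup.zpowers x) := by
  rintro ⟨y, hy⟩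
  obtain ⟨k, rfl⟩ := Subgroup.mem_zpowers_iff.mp hy
  refine ⟨n, Subtype.ext ?_⟩
  simp only [Subgroup.coe_pow, Subgroup.coe_one]
  rw [← zpow_natCast, ← zpow_mul, mul_comm, zpow_mul, zpow_natCast, h, one_zpow]

theorem conj_zpowers {z u : G} (h : z * u * z⁻¹ = u⁻¹) :
    ∀ x ∈ Subgroup.zpowers u, z * x * z⁻¹ ∈ Subgroup.zpowers u := by
  intro x hx
  obtain ⟨k, rfl⟩ := Subgroup.mem_zpowers_iff.mp hx
  have e : z * u ^ k * z⁻¹ = (u ^ k)⁻¹ := by
    rw [← conj_zpow, h, inv_zpow]
  rw [e]
  exact Subgroup.inv_mem _ (Subgroup.zpow_mem_zpowers u k)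

theorem dih_pgroup (z z' : G) (hz : z * z = 1) (hz' : z' * z' = 1)
    (hcomm : z * (z' * z * z') = (z' * z * z') * z) :
    IsPGroup 2 (Subgroup.closure ({z, z'} : Set G)) := by
  have hww : (z' * z * z') * (z' * z * z') = 1 := by
    calc (z' * z * z') * (z' * z * z') = z' * z * (z' * z') * z * z' := by group
      _ = z' * (z * z) * z' := by rw [hz']; group
      _ = z' * z' := by rw [hz]; group
      _ = 1 := hz'
  have h4 : (z * z') * (z * z') * ((z * z') * (z * z')) = 1 := by
    calc (z * z') * (z * z') * ((z * z') * (z * z'))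
        = z * ((z' * z * z') * z) * (z' * z * z') := by group
      _ = z * (z * (z' * z * z')) * (z' * z * z') := by rw [← hcomm]
      _ = (z * z) * ((z' * z * z') * (z' * z * z')) := by group
      _ = 1 := by rw [hz, hww, one_mul]
  have hzinv : z⁻¹ = z := inv_eq_of_mul_eq_one_left hz
  have hz'inv : z'⁻¹ = z' := inv_eq_of_mul_eq_one_left hz'
  have hP1 : IsPGroup 2 (Subgroup.zpowers z) :=
    pg_zpowers 1 (by rw [pow_one, pow_two]; exact hz)
  have hP2 : IsPGroup 2 (Subgroup.zpowers (z * z')) := by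
    apply pg_zpowers 2
    have e4 : (2 : ℕ) ^ 2 = 2 + 2 := by norm_num
    rw [e4, pow_add, pow_two]
    exact h4
  have hconj : z * (z * z') * z⁻¹ = (z * z')⁻¹ := by
    rw [mul_inv_rev, hzinv, hz'inv]
    calc z * (z * z') * z = (z * z) * z' * z := by group
      _ = z' * z := by rw [hz, one_mul]
  have hconj' : z⁻¹ * (z * z') * z⁻¹⁻¹ = (z * z')⁻¹ := by
    rw [hzinv]
    exact hconj
  have hnorm : Subgroup.zpowers z ≤ Subgroup.normalizer (Subgroup.zpowers (z * z') : Set G) := by
    rw [Subgroup.zpowers_le, Subgroup.mem_normalizer_iff]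
    intro x
    constructor
    · exact conj_zpowers hconj x
    · intro hx
      have h1 := conj_zpowers hconj' _ hx
      have e : z⁻¹ * (z * x * z⁻¹) * z⁻¹⁻¹ = x := by group
      rwa [e] at h1
  have hsup := IsPGroup.to_sup_of_normal_right' hP1 hP2 hnorm
  have hzmem : z ∈ Subgroup.zpowers z ⊔ Subgroup.zpowers (z * z') :=
    (le_sup_left : Subgroup.zpowers z ≤ _) (Subgroup.mem_zpowers z)
  have hz'mem : z' ∈ Subgroup.zpowers z ⊔ Subgroup.zpowers (z * z') := by
    have h1 : z⁻¹ * (z * z') ∈ Subgroup.zpowers z ⊔ Subgroup.zpowers (z * z') :=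
      Subgroup.mul_mem _ (Subgroup.inv_mem _ hzmem)
        ((le_sup_right : Subgroup.zpowers (z * z') ≤ _) (Subgroup.mem_zpowers (z * z')))
    have e : z⁻¹ * (z * z') = z' := by group
    rwa [e] at h1
  apply hsup.to_le
  rw [Subgroup.closure_le]
  intro x hx
  rcases hx with h | h
  · rw [h]; exact hzmem
  · rw [Set.mem_singleton_iff] at h
    rw [h]; exact hz'mem

theorem lemA {D : Set G} (hsq : ∀ x ∈ D, x * x = 1)
    (hcase : ∀ x ∈ D, ∀ y ∈ D, x * y = y * x ∨ (x * y) ^ 3 = 1)
    {a c e : G} (ha : a ∈ D) (hc : c ∈ D) (he : TD D c e) :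
    a * (c * e * a * e * c) = (c * e * a * e * c) * a := by
  have heD := he.1
  have hce : c * e = e * c :=
    ((commute_iff_eq _ _).mp ((he.2 c hc).mpr (Commute.refl c))).symm
  have hcc := hsq c hc
  have hee := hsq e heD
  have haa := hsq a ha
  by_cases hac : a * c = c * a
  · have hea : e * a = a * e :=
      (commute_iff_eq _ _).mp ((he.2 a ha).mpr ((commute_iff_eq _ _).mpr hac.symm))
    have hq : c * e * a * e * c = a := by
      calc c * e * a * e * c = c * (e * a) * e * c := by group
        _ = c * (a * e) * e * c := by rw [hea]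
        _ = (c * a) * (e * e) * c := by group
        _ = a * (c * c) := by rw [hee, ← hac]; group
        _ = a := by rw [hcc, mul_one]
    rw [hq]
  · have h3 : (a * c) ^ 3 = 1 := (hcase a ha c hc).resolve_left hac
    have hae : ¬ (a * e = e * a) := by
      intro h
      apply hac
      have h1 := (he.2 a ha).mp ((commute_iff_eq _ _).mpr h.symm)
      exact ((commute_iff_eq _ _).mp h1).symm
    have h3' : (a * e) ^ 3 = 1 := (hcase a ha e heD).resolve_left hae
    have hb1 : a * c * a = c * a * c := braid haa hcc h3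
    have hb2 : e * a * e = a * e * a := (braid haa hee h3').symm
    have hqa : a * (c * e * a * e * c) * a = c * e * a * e * c := by
      calc a * (c * e * a * e * c) * a = a * c * (e * a * e) * c * a := by group
        _ = a * c * (a * e * a) * c * a := by rw [hb2]
        _ = (a * c * a) * e * (a * c * a) := by group
        _ = (c * a * c) * e * (c * a * c) := by rw [hb1]
        _ = c * a * (c * e) * c * a * c := by group
        _ = c * a * (e * c) * c * a * c := by rw [hce]
        _ = c * a * e * (c * c) * a * c := by group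
        _ = c * (a * e * a) * c := by rw [hcc]; group
        _ = c * (e * a * e) * c := by rw [← hb2]
        _ = c * e * a * e * c := by group
    calc a * (c * e * a * e * c) = a * (c * e * a * e * c) * (a * a) := by rw [haa, mul_one]
      _ = (a * (c * e * a * e * c) * a) * a := by group
      _ = (c * e * a * e * c) * a := by rw [hqa]

theorem TD_conj {D : Set G} (hconj : ∀ g : G, ∀ x ∈ D, g * x * g⁻¹ ∈ D) {a v : G}
    (hv : TD D a v) (g : G) : TD D (g * a * g⁻¹) (g * v * g⁻¹) := by
  refine ⟨hconj g v hv.1, fun e he => ?_⟩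
  have he' : g⁻¹ * e * g ∈ D := by
    have h1 := hconj g⁻¹ e he
    rwa [inv_inv] at h1
  have key : ∀ x : G, Commute (g * x * g⁻¹) e ↔ Commute x (g⁻¹ * e * g) := by
    intro x
    rw [commute_iff_eq, commute_iff_eq]
    constructor
    · intro h
      calc x * (g⁻¹ * e * g) = g⁻¹ * (g * x * g⁻¹ * e) * g := by group
        _ = g⁻¹ * (e * (g * x * g⁻¹)) * g := by rw [h]
        _ = g⁻¹ * e * g * x := by group
    · intro h
      calc g * x * g⁻¹ * e = g * (x * (g⁻¹ * e * g)) * g⁻¹ := by group
        _ = g * (g⁻¹ * e * g * x) * g⁻¹ := by rw [h]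
        _ = e * (g * x * g⁻¹) := by group
  rw [key v, key a]
  exact hv.2 _ he'

theorem pair_pgroup {D : Set G} (hsq : ∀ x ∈ D, x * x = 1)
    (hconj : ∀ g : G, ∀ x ∈ D, g * x * g⁻¹ ∈ D)
    (hcase : ∀ x ∈ D, ∀ y ∈ D, x * y = y * x ∨ (x * y) ^ 3 = 1)
    {a b c e : G} (ha : a ∈ D) (hb : TD D a b) (hc : c ∈ D) (he : TD D c e) :
    IsPGroup 2 (Subgroup.closure ({a * b, c * e} : Set G)) := by
  have hbD := hb.1
  have heD := he.1
  have hinv : ∀ x ∈ D, x⁻¹ = x := fun x hx => inv_eq_of_mul_eq_one_left (hsq x hx)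
  have hab : a * b = b * a :=
    ((commute_iff_eq _ _).mp ((hb.2 a ha).mpr (Commute.refl a))).symm
  have hce : c * e = e * c :=
    ((commute_iff_eq _ _).mp ((he.2 c hc).mpr (Commute.refl c))).symm
  have hcc := hsq c hc
  have hee := hsq e heD
  have hz : a * b * (a * b) = 1 := by
    calc a * b * (a * b) = a * (b * a) * b := by group
      _ = a * (a * b) * b := by rw [← hab]
      _ = (a * a) * (b * b) := by group
      _ = 1 := by rw [hsq a ha, hsq b hbD, one_mul]
  have hz' : c * e * (c * e) = 1 := by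
    calc c * e * (c * e) = c * (e * c) * e := by group
      _ = c * (c * e) * e := by rw [← hce]
      _ = (c * c) * (e * e) := by group
      _ = 1 := by rw [hcc, hee, one_mul]
  obtain ⟨qa, hqa⟩ : ∃ q, q = c * e * a * e * c := ⟨_, rfl⟩
  obtain ⟨qb, hqb⟩ : ∃ q, q = c * e * b * e * c := ⟨_, rfl⟩
  have hqaD : qa ∈ D := by
    have h1 := hconj (c * e) a ha
    have e1 : c * e * a * (c * e)⁻¹ = c * e * a * e * c := by
      rw [mul_inv_rev, hinv e heD, hinv c hc]; group
    rw [e1, ← hqa] at h1
    exact h1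
  have hqbD : qb ∈ D := by
    have h1 := hconj (c * e) b hbD
    have e1 : c * e * b * (c * e)⁻¹ = c * e * b * e * c := by
      rw [mul_inv_rev, hinv e heD, hinv c hc]; group
    rw [e1, ← hqb] at h1
    exact h1
  have haqa : a * qa = qa * a := by rw [hqa]; exact lemA hsq hcase ha hc he
  have hbqb : b * qb = qb * b := by rw [hqb]; exact lemA hsq hcase hbD hc he
  have hbqa : b * qa = qa * b :=
    (commute_iff_eq _ _).mp ((hb.2 qa hqaD).mpr ((commute_iff_eq _ _).mpr haqa))
  have haqb : a * qb = qb * a :=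
    (commute_iff_eq _ _).mp ((hb.2 qb hqbD).mp ((commute_iff_eq _ _).mpr hbqb))
  have hw : c * e * (a * b) * (c * e) = qa * qb := by
    rw [hqa, hqb]
    symm
    calc (c * e * a * e * c) * (c * e * b * e * c)
        = c * e * a * e * (c * c) * e * b * e * c := by group
      _ = c * e * a * (e * e) * b * e * c := by rw [hcc]; group
      _ = c * e * a * b * (e * c) := by rw [hee]; group
      _ = c * e * a * b * (c * e) := by rw [← hce]
      _ = c * e * (a * b) * (c * e) := by group
  apply dih_pgroup (a * b) (c * e) hz hz'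
  rw [hw]
  calc a * b * (qa * qb) = a * (b * qa) * qb := by group
    _ = a * (qa * b) * qb := by rw [hbqa]
    _ = (a * qa) * (b * qb) := by group
    _ = (qa * a) * (qb * b) := by rw [haqa, hbqb]
    _ = qa * (a * qb) * b := by group
    _ = qa * (qb * a) * b := by rw [haqb]
    _ = qa * qb * (a * b) := by group

end Aux

/-- Let D be a conjugacy class of 3-transpositions generating the finite group G, with at least two members, and d a member of D. Then the set of members of D commuting with exactly the same members of D as d coincides with the set of members of D lying in the coset of d modulo the largest normal 2-subgroup of G, and also with the orbit of d under conjugation by that normal 2-subgroup. -/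
theorem result {G : Type*} [Group G] [Finite G] {D : Set G} (hD : Cfsg.IsThreeTranspositionClass D) (hD2 : ∃ a ∈ D, ∃ b ∈ D, a ≠ b) {d : G} (hd : d ∈ D) : {v : G | v ∈ D ∧ ∀ e ∈ D, Commute v e ↔ Commute d e} = {v : G | v ∈ D ∧ d⁻¹ * v ∈ Cfsg.pCore 2 G} ∧ {v : G | v ∈ D ∧ ∀ e ∈ D, Commute v e ↔ Commute d e} = {v : G | ∃ g ∈ Cfsg.pCore 2 G, v = g * d * g⁻¹} := by
  classical
  obtain ⟨⟨hord, hprod⟩, ⟨d₀, hd₀, hDc⟩, hgen⟩ := hD
  have hsq : ∀ x ∈ D, x * x = 1 := fun x hx => by
    rw [← pow_two, ← hord x hx]; exact pow_orderOf_eq_one x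
  have hinv : ∀ x ∈ D, x⁻¹ = x := fun x hx => inv_eq_of_mul_eq_one_left (hsq x hx)
  have hcase : ∀ x ∈ D, ∀ y ∈ D, x * y = y * x ∨ (x * y) ^ 3 = 1 := by
    intro x hx y hy
    rcases hprod x hx y hy with h | h
    · left
      have h' : x * y * (x * y) = 1 := by rw [← pow_two]; exact h
      have h2 : x * y = (x * y)⁻¹ := (inv_eq_of_mul_eq_one_left h').symm
      rw [h2, mul_inv_rev, hinv x hx, hinv y hy]
    · right; exact h
  have hclass : ∀ x ∈ D, IsConj d₀ x := by
    intro x hx
    have h1 := hx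
    rw [hDc] at h1
    exact h1
  have hconj : ∀ g : G, ∀ x ∈ D, g * x * g⁻¹ ∈ D := by
    intro g x hx
    have h1 : IsConj d₀ (g * x * g⁻¹) := (hclass x hx).trans (isConj_iff.mpr ⟨g, rfl⟩)
    rw [hDc]
    exact h1
  have hO2 : IsPGroup 2 (pCore 2 G) := Helper14.pCore_isPGroup 2 G
  have hON : (pCore 2 G).Normal := Helper14.pCore_normal 2 G
  -- the set Z
  obtain ⟨Z, hZdef⟩ : ∃ Z : Set G, Z = {x | ∃ a ∈ D, ∃ b, TD D a b ∧ x = a * b} := ⟨_, rfl⟩
  have hZconj : ∀ x ∈ Z, ∀ g : G, g * x * g⁻¹ ∈ Z := by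
    intro x hx g
    rw [hZdef] at hx ⊢
    obtain ⟨a, ha, b, hb, rfl⟩ := hx
    exact ⟨g * a * g⁻¹, hconj g a ha, g * b * g⁻¹, TD_conj hconj hb g, by group⟩
  have hZpair : ∀ x ∈ Z, ∀ y ∈ Z, IsPGroup 2 (Subgroup.closure ({x, y} : Set G)) := by
    intro x hx y hy
    rw [hZdef] at hx hy
    obtain ⟨a, ha, b, hb, rfl⟩ := hx
    obtain ⟨c, hc, e, he, rfl⟩ := hy
    exact pair_pgroup hsq hconj hcase ha hb hc he
  have hZp : IsPGroup 2 (Subgroup.closure Z) := Helper1.baer_suzuki 2 Z hZconj hZpair
  have hZn : (Subgroup.closure Z).Normal := Helper1.closure_normal_of_conj Z hZconj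
  have hZle : Subgroup.closure Z ≤ pCore 2 G := Helper14.le_pCore hZn hZp
  -- first inclusion
  have inc1 : ∀ v, (v ∈ D ∧ ∀ e ∈ D, Commute v e ↔ Commute d e) →
      ∃ g ∈ pCore 2 G, v = g * d * g⁻¹ := by
    rintro v ⟨hvD, hv⟩
    by_cases hvd : v = d
    · exact ⟨1, Subgroup.one_mem _, by rw [hvd]; group⟩
    · have hex : ∃ e ∈ D, ¬ (d * e = e * d) := by
        by_contra hcon
        have hall : ∀ e ∈ D, d * e = e * d := by
          intro e he
          by_contra h
          exact hcon ⟨e, he, h⟩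
        have hcen : ∀ g : G, d * g = g * d := by
          intro g
          have hg : g ∈ Subgroup.closure D := by rw [hgen]; exact Subgroup.mem_top g
          have hle : Subgroup.closure D ≤ Subgroup.centralizer ({d} : Set G) := by
            rw [Subgroup.closure_le]
            intro e he
            rw [SetLike.mem_coe, Subgroup.mem_centralizer_iff]
            intro h hh
            rw [Set.mem_singleton_iff] at hh
            rw [hh]
            exact hall e he
          have h1 := hle hg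
          rw [Subgroup.mem_centralizer_iff] at h1
          exact h1 d rfl
        obtain ⟨g, hg⟩ := isConj_iff.mp ((hclass d hd).symm.trans (hclass v hvD))
        apply hvd
        rw [← hg, ← hcen g]
        group
      obtain ⟨e, heD, hde⟩ := hex
      have h3 : (d * e) ^ 3 = 1 := (hcase d hd e heD).resolve_left hde
      have hve : ¬ (v * e = e * v) := fun h =>
        hde ((commute_iff_eq _ _).mp ((hv e heD).mp ((commute_iff_eq _ _).mpr h)))
      have h3' : (v * e) ^ 3 = 1 := (hcase v hvD e heD).resolve_left hve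
      have hvd' : v * d = d * v :=
        (commute_iff_eq _ _).mp ((hv d hd).mpr (Commute.refl d))
      have hbr1 : v * e * v = e * v * e := braid (hsq v hvD) (hsq e heD) h3'
      have hbr2 : e * d * e = d * e * d := (braid (hsq d hd) (hsq e heD) h3).symm
      have hdvZ : d * v ∈ Z := by
        rw [hZdef]
        exact ⟨d, hd, v, ⟨hvD, hv⟩, rfl⟩
      have hdvO : d * v ∈ pCore 2 G := hZle (Subgroup.subset_closure hdvZ)
      have hgO : e * d * v * e ∈ pCore 2 G := by
        have h1 := hON.conj_mem (d * v) hdvO e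
        have e1 : e * (d * v) * e⁻¹ = e * d * v * e := by rw [hinv e heD]; group
        rwa [e1] at h1
      refine ⟨e * d * v * e, hgO, ?_⟩
      apply eq_mul_inv_of_mul_eq
      calc v * (e * d * v * e) = v * e * (d * v) * e := by group
        _ = v * e * (v * d) * e := by rw [← hvd']
        _ = (v * e * v) * d * e := by group
        _ = (e * v * e) * d * e := by rw [hbr1]
        _ = e * v * (e * d * e) := by group
        _ = e * v * (d * e * d) := by rw [hbr2]
        _ = e * (v * d) * e * d := by group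
        _ = e * (d * v) * e * d := by rw [hvd']
        _ = e * d * v * e * d := by group
  -- second inclusion
  have inc2 : ∀ v, (∃ g ∈ pCore 2 G, v = g * d * g⁻¹) → v ∈ D ∧ d⁻¹ * v ∈ pCore 2 G := by
    rintro v ⟨g, hg, rfl⟩
    refine ⟨hconj g d hd, ?_⟩
    have h1 : d⁻¹ * g * d⁻¹⁻¹ ∈ pCore 2 G := hON.conj_mem g hg d⁻¹
    have h2 := Subgroup.mul_mem _ h1 (Subgroup.inv_mem _ hg)
    have e : d⁻¹ * g * d⁻¹⁻¹ * g⁻¹ = d⁻¹ * (g * d * g⁻¹) := by group
    rwa [e] at h2
  -- third inclusion
  have key3 : ∀ x ∈ D, ∀ y ∈ D, x⁻¹ * y ∈ pCore 2 G → ∀ e ∈ D, x * e = e * x → y * e = e * y := by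
    intro x hx y hy hn e he hxe
    by_contra hye
    have h3 : (y * e) ^ 3 = 1 := (hcase y hy e he).resolve_left hye
    have hxex : x * e * x = e := by rw [hxe, mul_assoc, hsq x hx, mul_one]
    have hsqO : y * e * (y * e) ∈ pCore 2 G := by
      have h1 : x * (x⁻¹ * y) * x⁻¹ ∈ pCore 2 G := hON.conj_mem _ hn x
      have h2 : e * (x⁻¹ * y) * e⁻¹ ∈ pCore 2 G := hON.conj_mem _ hn e
      have h4 := Subgroup.mul_mem _ h1 h2
      have eq : x * (x⁻¹ * y) * x⁻¹ * (e * (x⁻¹ * y) * e⁻¹) = y * e * (y * e) := by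
        calc x * (x⁻¹ * y) * x⁻¹ * (e * (x⁻¹ * y) * e⁻¹)
            = y * (x⁻¹ * e * x⁻¹) * y * e⁻¹ := by group
          _ = y * (x * e * x) * y * e := by rw [hinv x hx, hinv e he]
          _ = y * e * y * e := by rw [hxex]
          _ = y * e * (y * e) := by group
      rwa [eq] at h4
    have hyeO : y * e ∈ pCore 2 G := by
      have h4 : y * e * (y * e) * (y * e) = 1 := by
        have h5 := h3
        rw [pow_succ, pow_two] at h5
        exact h5
      have h5 : y * e = (y * e * (y * e))⁻¹ := eq_inv_of_mul_eq_one_right h4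
      rw [h5]
      exact Subgroup.inv_mem _ hsqO
    obtain ⟨k, hk⟩ := hO2 ⟨y * e, hyeO⟩
    have hk' : (y * e) ^ (2 ^ k) = 1 := by
      have h6 := congrArg Subtype.val hk
      simpa using h6
    have hcop : Nat.Coprime (2 ^ k) 3 := Nat.Coprime.pow_left _ (by norm_num)
    have h1 : y * e = 1 := by
      have hg := pow_gcd_eq_one.mpr ⟨hk', h3⟩
      rw [hcop] at hg
      simpa using hg
    apply hye
    have h7 : y = e := by
      have h6 : y = e⁻¹ := eq_inv_of_mul_eq_one_left h1
      rw [h6, hinv e he]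
    rw [h7]
  have inc3 : ∀ v, (v ∈ D ∧ d⁻¹ * v ∈ pCore 2 G) →
      v ∈ D ∧ ∀ e ∈ D, Commute v e ↔ Commute d e := by
    rintro v ⟨hvD, hn⟩
    refine ⟨hvD, fun e he => ?_⟩
    have hn' : v⁻¹ * d ∈ pCore 2 G := by
      have h1 := Subgroup.inv_mem _ hn
      have e1 : (d⁻¹ * v)⁻¹ = v⁻¹ * d := by group
      rwa [e1] at h1
    rw [commute_iff_eq, commute_iff_eq]
    exact ⟨key3 v hvD d hd hn' e he, key3 d hd v hvD hn e he⟩
  constructor
  · ext v
    exact ⟨fun h => inc2 v (inc1 v h), inc3 v⟩
  · ext v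
    exact ⟨inc1 v, fun h => inc3 v (inc2 v h)⟩

end Cfsg.Agent.S5349
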