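import Mathlib
import Cfsg.Statements.S5358

set_option autoImplicit false
open scoped MatrixGroups
open Cfsg

namespace Cfsg.Agent.S5358

theorem polarVec_dot {n : ℕ} (Q : QuadraticForm (ZMod 3) (Fin n → ZMod 3)) (u x : Fin n → ZMod 3) :
    Cfsg.polarVec (⇑Q) u ⬝ᵥ x = QuadraticMap.polar (⇑Q) u x := by
  have hx : x = ∑ j, x j • (Pi.single j (1 : ZMod 3) : Fin n → ZMod 3) := by
    ext i; simp [Finset.sum_apply, Pi.single_apply]
  have h := map_sum (QuadraticMap.polarBilin Q u)
    (fun j => x j • (Pi.single j (1 : ZMod 3) : Fin n → ZMod 3)) Finset.univ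
  rw [← hx] at h
  have h' : QuadraticMap.polar (⇑Q) u x =
      ∑ j, x j * QuadraticMap.polar (⇑Q) u (Pi.single j (1 : ZMod 3)) := by
    simpa using h
  rw [h']
  simp [dotProduct, Cfsg.polarVec, mul_comm]

/-- Let Q be a non-degenerate quadratic form on the n-dimensional coordinate space over the field with three elements and u, v vectors of the same non-zero norm Q(u) = Q(v) spanning different lines (v ≠ u and v ≠ −u). Then the reflection matrices of u and v commute if and only if u and v are orthogonal for the polar form of Q. -/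
theorem result (n : ℕ) (Q : QuadraticForm (ZMod 3) (Fin n → ZMod 3)) (hQ : (QuadraticMap.polarBilin Q).Nondegenerate) (u v : Fin n → ZMod 3) (hu : Q u ≠ 0) (huv : Q u = Q v) (h1 : v ≠ u) (h2 : v ≠ -u) : Commute (Cfsg.reflectionMatrix (⇑Q) u) (Cfsg.reflectionMatrix (⇑Q) v) ↔ QuadraticMap.polar (⇑Q) u v = 0 := by
  set c : ZMod 3 := QuadraticMap.polar (⇑Q) u v with hc
  set fu := Cfsg.polarVec (⇑Q) u with hfu
  set fv := Cfsg.polarVec (⇑Q) v with hfv
  have hv : Q v ≠ 0 := huv ▸ hu
  have hAB : Matrix.vecMulVec u fu * Matrix.vecMulVec v fv = c • Matrix.vecMulVec u fv := by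
    rw [Matrix.vecMulVec_mul_vecMulVec, hfu, polarVec_dot, Matrix.vecMulVec_smul]
  have hBA : Matrix.vecMulVec v fv * Matrix.vecMulVec u fu = c • Matrix.vecMulVec v fu := by
    rw [Matrix.vecMulVec_mul_vecMulVec, hfv, polarVec_dot, Matrix.vecMulVec_smul,
      QuadraticMap.polar_comm]
  have hXY : ((Q u)⁻¹ • Matrix.vecMulVec u fu) * ((Q v)⁻¹ • Matrix.vecMulVec v fv) =
      ((Q u)⁻¹ * (Q v)⁻¹ * c) • Matrix.vecMulVec u fv := by
    rw [Matrix.smul_mul, Matrix.mul_smul, hAB, smul_smul, smul_smul]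
    try (congr 1; ring)
  have hYX : ((Q v)⁻¹ • Matrix.vecMulVec v fv) * ((Q u)⁻¹ • Matrix.vecMulVec u fu) =
      ((Q u)⁻¹ * (Q v)⁻¹ * c) • Matrix.vecMulVec v fu := by
    rw [Matrix.smul_mul, Matrix.mul_smul, hBA, smul_smul, smul_smul]
    try (congr 1; ring)
  have key : ∀ X Y : Matrix (Fin n) (Fin n) (ZMod 3),
      (1 - X) * (1 - Y) = (1 - Y) * (1 - X) ↔ X * Y = Y * X := by
    intro X Y
    have e : (1 - X) * (1 - Y) - (1 - Y) * (1 - X) = X * Y - Y * X := by noncomm_ring
    rw [← sub_eq_zero, e, sub_eq_zero]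
  have hcomm : Commute (Cfsg.reflectionMatrix (⇑Q) u) (Cfsg.reflectionMatrix (⇑Q) v) ↔
      ((Q u)⁻¹ * (Q v)⁻¹ * c) • Matrix.vecMulVec u fv = ((Q u)⁻¹ * (Q v)⁻¹ * c) • Matrix.vecMulVec v fu := by
    unfold Commute SemiconjBy Cfsg.reflectionMatrix
    rw [key, hXY, hYX]
  rw [hcomm]
  constructor
  · intro h
    by_contra hc0
    have hne : (Q u)⁻¹ * (Q v)⁻¹ * c ≠ 0 :=
      mul_ne_zero (mul_ne_zero (inv_ne_zero hu) (inv_ne_zero hv)) hc0
    have h' : Matrix.vecMulVec u fv = Matrix.vecMulVec v fu := smul_right_injective _ hne h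
    have h'' := congrArg (fun M => Matrix.mulVec M u) h'
    simp only [Matrix.vecMulVec_mulVec, op_smul_eq_smul] at h''
    rw [hfv, hfu, polarVec_dot, polarVec_dot, QuadraticMap.polar_comm, ← hc, QuadraticMap.polar_self] at h''
    -- h'' : c • u = (2 • Q u) • v
    have h2ne : (2 : ZMod 3) ≠ 0 := by decide
    have hd : (2 • Q u : ZMod 3) ≠ 0 := by
      rw [two_nsmul, ← two_mul]; exact mul_ne_zero h2ne hu
    set l : ZMod 3 := (2 • Q u)⁻¹ * c with hl
    have hvl : v = l • u := by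
      rw [hl, mul_smul, h'', smul_smul, inv_mul_cancel₀ hd, one_smul]
    have hQv : Q v = (l * l) * Q u := by
      rw [hvl, QuadraticMap.map_smul, smul_eq_mul]
    have hll : l * l = 1 := by
      have : (l * l) * Q u = 1 * Q u := by rw [one_mul, ← hQv, huv]
      exact mul_right_cancel₀ hu this
    rcases mul_self_eq_one_iff.mp hll with h | h
    · apply h1; rw [hvl, h, one_smul]
    · apply h2; rw [hvl, h, neg_smul, one_smul]
  · intro h
    rw [h, mul_zero, zero_smul, zero_smul]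

end Cfsg.Agent.S5358
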