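import Cfsg.Statements.S5363

set_option autoImplicit false
open Cfsg

namespace Cfsg.Agent.S5363

theorem sq_one {G : Type*} [Group G] {d : G} (h : orderOf d = 2) : d * d = 1 := by
  rw [← pow_two, ← h]; exact pow_orderOf_eq_one d

/-- Let D be a conjugation-invariant set of involutions of a finite group G. Then every product of two members of D has odd order or order 2 if and only if, for every a in D and every b in D different from a and commuting with a, the members of D commuting with a b are exactly those commuting with both a and b. -/
theorem result {G : Type*} [Group G] [Finite G] {D : Set G} (hinv : ∀ d ∈ D, orderOf d = 2) (hconj : ∀ g : G, ∀ d ∈ D, g * d * g⁻¹ ∈ D) : (∀ a ∈ D, ∀ b ∈ D, Odd (orderOf (a * b)) ∨ orderOf (a * b) = 2) ↔ ∀ a ∈ D, ∀ b ∈ D, b ≠ a → Commute a b → {y : G | y ∈ D ∧ Commute (a * b) y} = {y : G | y ∈ D ∧ Commute a y} ∩ {y : G | y ∈ D ∧ Commute b y} := by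
  constructor
  · intro H a ha b hb hba hab
    have ha2 : a * a = 1 := sq_one (hinv a ha)
    have hb2 : b * b = 1 := sq_one (hinv b hb)
    have hainv : a⁻¹ = a := inv_eq_of_mul_eq_one_left ha2
    ext y
    constructor
    · rintro ⟨hy, hty⟩
      have hy2 : y * y = 1 := sq_one (hinv y hy)
      have hyinv : y⁻¹ = y := inv_eq_of_mul_eq_one_left hy2
      -- it suffices to show that a commutes with y
      suffices hay : Commute a y by
        refine ⟨⟨hy, hay⟩, hy, ?_⟩
        have hb' : b = a * (a * b) := by rw [← mul_assoc, ha2, one_mul]
        rw [hb']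
        exact hay.mul_left hty
      rcases H a ha y hy with hodd | h2
      · -- the odd case
        set t : G := a * b with ht
        have ht2 : t * t = 1 := by
          rw [ht]
          calc a * b * (a * b) = a * (b * a) * b := by group
            _ = a * (a * b) * b := by rw [hab.eq]
            _ = (a * a) * (b * b) := by group
            _ = 1 := by rw [ha2, hb2, one_mul]
        have ht1 : t ≠ 1 := by
          intro h
          apply hba
          have : b = a⁻¹ := (inv_eq_of_mul_eq_one_right h).symm
          rw [this, hainv]
        have hto : orderOf t = 2 := by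
          have : Fact (Nat.Prime 2) := ⟨Nat.prime_two⟩
          exact orderOf_eq_prime (by rw [pow_two]; exact ht2) ht1
        have hta : Commute t a := by
          show a * b * a = a * (a * b)
          rw [mul_assoc, hab.symm.eq]
        have hcomm : Commute (a * y) t := (hta.symm.mul_left hty.symm)
        have hby : b * y = (a * y) * t := by
          have hb' : b = a * t := by rw [ht, ← mul_assoc, ha2, one_mul]
          rw [hb', mul_assoc, hty.eq, ← mul_assoc]
        have hcop : Nat.Coprime (orderOf (a * y)) (orderOf t) := by
          rw [hto]; exact (Nat.coprime_two_left.mpr hodd).symm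
        have hord : orderOf (b * y) = orderOf (a * y) * 2 := by
          rw [hby, hcomm.orderOf_mul_eq_mul_orderOf_of_coprime hcop, hto]
        rcases H b hb y hy with hodd' | h2'
        · exfalso
          rw [hord] at hodd'
          exact (Nat.not_even_iff_odd.mpr hodd') (even_two.mul_left _)
        · rw [hord] at h2'
          have h1 : orderOf (a * y) = 1 := by omega
          have hay1 : a * y = 1 := orderOf_eq_one_iff.mp h1
          have : y = a := by
            have : y = a⁻¹ := (inv_eq_of_mul_eq_one_right hay1).symm
            rw [this, hainv]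
          rw [this]
      · -- order two: a y a y = 1
        have h : a * y * (a * y) = 1 := by
          rw [← pow_two, ← h2]; exact pow_orderOf_eq_one _
        show a * y = y * a
        have : a * y = (a * y)⁻¹ := (inv_eq_of_mul_eq_one_left h).symm
        rw [this, mul_inv_rev, hyinv, hainv]
    · rintro ⟨⟨hy, hay⟩, -, hby⟩
      exact ⟨hy, hay.mul_left hby⟩
  · intro K a ha c hc
    have ha2 : a * a = 1 := sq_one (hinv a ha)
    have hc2 : c * c = 1 := sq_one (hinv c hc)
    have hainv : a⁻¹ = a := inv_eq_of_mul_eq_one_left ha2
    have hcinv : c⁻¹ = c := inv_eq_of_mul_eq_one_left hc2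
    set r : G := a * c with hr
    rcases Nat.even_or_odd (orderOf r) with heven | hodd
    swap
    · exact Or.inl hodd
    right
    obtain ⟨k, hk⟩ := heven
    have hnpos : 0 < orderOf r := orderOf_pos r
    have hkpos : 0 < k := by omega
    set z : G := r ^ k with hz
    have hz2 : z * z = 1 := by
      rw [hz, ← pow_add, ← hk]; exact pow_orderOf_eq_one r
    have hz1 : z ≠ 1 := pow_ne_one_of_lt_orderOf (by omega) (by omega)
    have hzinv : z⁻¹ = z := inv_eq_of_mul_eq_one_left hz2
    -- a and c invert r
    have har : a * r * a⁻¹ = r⁻¹ := by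
      rw [hr, mul_inv_rev, hainv, hcinv]
      calc a * (a * c) * a = (a * a) * c * a := by group
        _ = c * a := by rw [ha2, one_mul]
    have hcr : c * r * c⁻¹ = r⁻¹ := by
      rw [hr, mul_inv_rev, hainv, hcinv]
      calc c * (a * c) * c = c * a * (c * c) := by group
        _ = c * a := by rw [hc2, mul_one]
    have hapow : ∀ i : ℕ, a * r ^ i * a⁻¹ = (r ^ i)⁻¹ := by
      intro i; rw [← conj_pow, har, inv_pow]
    have hcpow : ∀ i : ℕ, c * r ^ i * c⁻¹ = (r ^ i)⁻¹ := by
      intro i; rw [← conj_pow, hcr, inv_pow]
    have haz : Commute a z := by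
      have h := hapow k
      rw [← hz, hzinv] at h
      show a * z = z * a
      calc a * z = a * z * a⁻¹ * a := by group
        _ = z * a := by rw [h]
    have hcz : Commute c z := by
      have h := hcpow k
      rw [← hz, hzinv] at h
      show c * z = z * c
      calc c * z = c * z * c⁻¹ * c := by group
        _ = z * c := by rw [h]
    -- z * a is a member of D
    have hzaD : z * a ∈ D := by
      -- for s = r ^ j we have a * s⁻¹ = s * a
      have hswap : ∀ j : ℕ, a * (r ^ j)⁻¹ = r ^ j * a := by
        intro j
        have h := hapow j
        calc a * (r ^ j)⁻¹ = (a * r ^ j * a⁻¹)⁻¹ * a := by group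
          _ = r ^ j * a := by rw [h, inv_inv]
      rcases Nat.even_or_odd k with ⟨j, hj⟩ | ⟨j, hj⟩
      · have : z * a = r ^ j * a * (r ^ j)⁻¹ := by
          rw [mul_assoc, hswap j, ← mul_assoc, ← pow_add, ← hj]
        rw [this]; exact hconj _ a ha
      · have hraD : r * a ∈ D := by
          have : r * a = a * c * a⁻¹ := by rw [hr, hainv]
          rw [this]; exact hconj a c hc
        have : z * a = r ^ j * (r * a) * (r ^ j)⁻¹ := by
          rw [mul_assoc, mul_assoc r, hswap j, ← mul_assoc, ← mul_assoc, ← pow_succ, ← pow_add, hz, hj]
          congr 2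
          omega
        rw [this]; exact hconj _ _ hraD
    have hbne : z * a ≠ a := by
      intro h
      apply hz1
      have := congrArg (· * a⁻¹) h
      simpa using this
    have hab : Commute a (z * a) := haz.mul_right (Commute.refl a)
    have hprod : a * (z * a) = z := by
      rw [← mul_assoc, haz.eq, mul_assoc, ha2, mul_one]
    have hK := K a ha (z * a) hzaD hbne hab
    rw [hprod] at hK
    have hcmem : c ∈ {y : G | y ∈ D ∧ Commute z y} := ⟨hc, hcz.symm⟩
    rw [hK] at hcmem
    have hac : Commute a c := hcmem.1.2
    have hr2 : r ^ 2 = 1 := by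
      rw [pow_two, hr]
      calc a * c * (a * c) = a * (c * a) * c := by group
        _ = a * (a * c) * c := by rw [hac.eq]
        _ = (a * a) * (c * c) := by group
        _ = 1 := by rw [ha2, hc2, one_mul]
    have hdvd : orderOf r ∣ 2 := orderOf_dvd_of_pow_eq_one hr2
    have hle : orderOf r ≤ 2 := Nat.le_of_dvd (by norm_num) hdvd
    omega

end Cfsg.Agent.S5363
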