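import Cfsg.Statements.S5393
import Cfsg.Agent.Helper28.M12Data

set_option autoImplicit false
open Cfsg

namespace Cfsg.Agent.S5393

open Cfsg.Agent.Helper28 Cfsg.Agent.Helper28.Golay
open scoped Pointwise

/-- the indicator word of a set -/
def ind (s : Finset GolayPt) : GolayPt → ZMod 2 := fun p => if p ∈ s then 1 else 0

theorem wordOf_eq_ind (c : Nat) : wordOf c = ind (toSet c) := by
  funext p
  simp only [wordOf, ind, mem_toSet]

theorem ind_smul (σ : Equiv.Perm GolayPt) (s : Finset GolayPt) :
    (fun p => ind s (σ.symm p)) = ind (σ • s) := by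
  funext p
  have h : σ.symm p ∈ s ↔ p ∈ σ • s := by
    rw [← Finset.inv_smul_mem_iff]
    rfl
  simp only [ind, h]

theorem ind_add (a b : Nat) : ind (toSet a) + ind (toSet b) = ind (toSet (a ^^^ b)) := by
  rw [← wordOf_eq_ind, ← wordOf_eq_ind, ← wordOf_eq_ind, wordOf_xor]

/-- the weight of a word of the code -/
def wtP (c : Nat) : Bool :=
  Nat.beq c 0 || Nat.beq c 16777215 || Nat.beq (wt c) 8 || Nat.beq (wt c) 12 ||
    (isCW (c ^^^ 16777215) && Nat.beq (wt (c ^^^ 16777215)) 8)

theorem weights0 : allPow 12 0 (fun m => wtP (encode m)) = true := by decide +kernel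

theorem weights (m : Nat) (hm : m < 4096) : (encode m = 0 ∨ encode m = 16777215) ∨
    wt (encode m) = 8 ∨ wt (encode m) = 12 ∨
    (isCW (encode m ^^^ 16777215) = true ∧ wt (encode m ^^^ 16777215) = 8) := by
  have h := allPow_sound _ 12 0 weights0 m (Nat.zero_le _) (by norm_num; exact hm)
  simp only [wtP, Bool.or_eq_true, Bool.and_eq_true, nbeq_iff] at h
  tauto

/-- masks of two octads meeting in two points, and their sum -/
def oA : Nat := 8391797
def oB : Nat := 31554
def dAB : Nat := 8391797 ^^^ 31554
/-- masks of two dodecads whose sum is an octad -/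
def dA : Nat := 340831
def dB : Nat := 340831 ^^^ 15777
def oAB : Nat := 15777

theorem oA_mem : toSet oA ∈ octads := toSet_mem_octads (by decide +kernel) (by decide +kernel)
theorem oB_mem : toSet oB ∈ octads := toSet_mem_octads (by decide +kernel) (by decide +kernel)
theorem dAB_mem : toSet dAB ∈ dodecads :=
  toSet_mem_dodecads (by decide +kernel) (by decide +kernel)
theorem dA_mem : toSet dA ∈ dodecads := toSet_mem_dodecads (by decide +kernel) (by decide +kernel)
theorem dB_mem : toSet dB ∈ dodecads := toSet_mem_dodecads (by decide +kernel) (by decide +kernel)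
theorem oAB_cw : isCW oAB = true := by decide +kernel
theorem oAB_wt : wt oAB = 8 := by decide +kernel
theorem eAB : dA ^^^ dB = oAB := by decide +kernel
theorem eAB' : oA ^^^ oB = dAB := by decide +kernel

theorem ones_eq : (fun _ : GolayPt => (1 : ZMod 2)) = wordOf 16777215 := by
  funext p
  have h : genMask 23 = 16777215 := by decide +kernel
  rw [← h]
  exact one_eq p

theorem gens_dod : ∀ t < 23, isCW (genMask t) = true ∧ wt (genMask t) = 12 := by decide +kernel

/-- The length-24 code built from the squares modulo 23 contains the all-ones word, and the code modulo the all-ones word is an irreducible module over the field with two elements for the code's automorphism group: a subspace of the code that contains the all-ones word and is invariant under every coordinate permutation preserving the code is either the span of the all-ones word or the whole code. -/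
theorem result : (fun _ : Cfsg.GolayPt => (1 : ZMod 2)) ∈ Cfsg.golayCode ∧ ∀ W : Submodule (ZMod 2) (Cfsg.GolayPt → ZMod 2), (fun _ => (1 : ZMod 2)) ∈ W → W ≤ Cfsg.golayCode → (∀ σ ∈ Cfsg.M24, ∀ w ∈ W, (fun p => w (σ.symm p)) ∈ W) → W = Submodule.span (ZMod 2) {fun _ => (1 : ZMod 2)} ∨ W = Cfsg.golayCode := by

  have h1 : (fun _ : GolayPt => (1 : ZMod 2)) ∈ golayCode :=
    Submodule.subset_span (Set.mem_union_right _ (Set.mem_singleton _))
  refine ⟨h1, fun W hone hle hinv => ?_⟩
  by_cases hW : W = Submodule.span (ZMod 2) {fun _ => (1 : ZMod 2)}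
  · exact Or.inl hW
  · right
    have hlt : Submodule.span (ZMod 2) {fun _ : GolayPt => (1 : ZMod 2)} < W :=
      lt_of_le_of_ne ((Submodule.span_singleton_le_iff_mem _ _).2 hone) (Ne.symm hW)
    obtain ⟨w, hwW, hwn⟩ := SetLike.exists_of_lt hlt
    obtain ⟨m, hm, rfl⟩ := (mem_golayCode_iff w).1 (hle hwW)
    have hinv' : ∀ σ ∈ M24, ∀ s : Finset GolayPt, ind s ∈ W → ind (σ • s) ∈ W := by
      intro σ hσ s hs
      rw [← ind_smul]
      exact hinv σ hσ _ hs
    have hcw : isCW (encode m) = true := (isCW_iff _).2 ⟨m, hm, rfl⟩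
    have hwi : ind (toSet (encode m)) ∈ W := by
      rw [← wordOf_eq_ind]
      exact hwW
    have hoct : ∃ c, isCW c = true ∧ wt c = 8 ∧ ind (toSet c) ∈ W := by
      rcases weights m hm with (h | h) | h | h | h
      · exfalso
        apply hwn
        rw [h, wordOf_zero]
        exact Submodule.zero_mem _
      · exfalso
        apply hwn
        rw [h, ← ones_eq]
        exact Submodule.mem_span_singleton_self _
      · exact ⟨encode m, hcw, h, hwi⟩
      · have hd : toSet (encode m) ∈ dodecads := toSet_mem_dodecads hcw h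
        obtain ⟨σ, hσ, e1⟩ := dod_trans _ _ hd dA_mem
        obtain ⟨τ, hτ, e2⟩ := dod_trans _ _ hd dB_mem
        have a1 := hinv' σ hσ _ hwi
        have a2 := hinv' τ hτ _ hwi
        rw [e1] at a1
        rw [e2] at a2
        have a3 := W.add_mem a1 a2
        rw [ind_add dA dB, eAB] at a3
        exact ⟨oAB, oAB_cw, oAB_wt, a3⟩
      · have a3 := W.add_mem hwW hone
        rw [ones_eq, ← wordOf_xor, wordOf_eq_ind] at a3
        exact ⟨encode m ^^^ 16777215, h.1, h.2, a3⟩
    obtain ⟨c, hc1, hc2, hcW⟩ := hoct
    have hallo : ∀ o ∈ octads, ind o ∈ W := by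
      intro o ho
      obtain ⟨σ, hσ, e⟩ := octad_trans _ o (toSet_mem_octads hc1 hc2) ho
      rw [← e]
      exact hinv' σ hσ _ hcW
    have hd : ind (toSet dAB) ∈ W := by
      rw [← eAB', ← ind_add oA oB]
      exact W.add_mem (hallo _ oA_mem) (hallo _ oB_mem)
    have halld : ∀ d ∈ dodecads, ind d ∈ W := by
      intro d hd'
      obtain ⟨σ, hσ, e⟩ := dod_trans _ d dAB_mem hd'
      rw [← e]
      exact hinv' σ hσ _ hd
    refine le_antisymm hle ?_
    unfold golayCode
    rw [Submodule.span_le]
    rintro x (⟨t, rfl⟩ | hx)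
    · have e : qrWord t = wordOf (genMask t.val) := funext (qr_eq t)
      rw [e, wordOf_eq_ind]
      have h2 := gens_dod t.val (ZMod.val_lt t)
      exact halld _ (toSet_mem_dodecads h2.1 h2.2)
    · rw [Set.mem_singleton_iff] at hx
      subst hx
      exact hone

end Cfsg.Agent.S5393
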