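import Cfsg.Statements.S5394
import Cfsg.Agent.Helper28.Classes

set_option autoImplicit false
open Cfsg

namespace Cfsg.Agent.S5394

open Cfsg.Agent.Helper28 Cfsg.Agent.Helper28.Golay

/-- The automorphism group of the length-24 code built from the squares modulo 23 has exactly two conjugacy classes of involutions: an involution either fixes exactly the eight points of an octad or has no fixed points, both kinds occur, and any two involutions of the same kind are conjugate in the group. -/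
theorem result : (∀ g ∈ Cfsg.M24, orderOf g = 2 → (Finset.univ.filter fun p => g p = p) ∈ Cfsg.octads ∨ ∀ p, g p ≠ p) ∧ (∃ g ∈ Cfsg.M24, orderOf g = 2 ∧ (Finset.univ.filter fun p => g p = p) ∈ Cfsg.octads) ∧ (∃ g ∈ Cfsg.M24, orderOf g = 2 ∧ ∀ p, g p ≠ p) ∧ ∀ g ∈ Cfsg.M24, ∀ h ∈ Cfsg.M24, orderOf g = 2 → orderOf h = 2 → ((∀ p, g p ≠ p) ↔ (∀ p, h p ≠ p)) → ∃ k ∈ Cfsg.M24, k * g * k⁻¹ = h := by

  refine ⟨?_, ?_, ?_, ?_⟩
  · intro g hg ho
    rcases invol_cases g hg ho with ⟨k, hk, h, ho8, -⟩ | ⟨k, hk, h, hf⟩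
    · exact Or.inl ho8
    · exact Or.inr hf
  · have ho : orderOf (permOf t8T) = 2 := orderOf_eq_prime t8_sq t8_ne
    rcases invol_cases _ t8_mem ho with ⟨k, hk, h, ho8, -⟩ | ⟨k, hk, h, hf⟩
    · exact ⟨_, t8_mem, ho, ho8⟩
    · exact absurd ((t8_fix (pt 3)).2 (by decide +kernel)) (hf (pt 3))
  · exact ⟨_, t0_mem, orderOf_eq_prime t0_sq t0_ne, t0_fix⟩
  · intro g hg h hh hog hoh hiff
    have key : ∀ (R : List Nat) (k1 k2 : Equiv.Perm GolayPt), k1 ∈ M24 → k2 ∈ M24 →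
        k1 * g * k1⁻¹ = permOf R → k2 * h * k2⁻¹ = permOf R → ∃ k ∈ M24, k * g * k⁻¹ = h := by
      intro R k1 k2 hk1 hk2 e1 e2
      refine ⟨k2⁻¹ * k1, M24.mul_mem (M24.inv_mem hk2) hk1, ?_⟩
      have : h = k2⁻¹ * permOf R * k2 := by rw [← e2]; group
      rw [this, ← e1]
      group
    rcases invol_cases g hg hog with ⟨k1, hk1, e1, -, p1, hp1⟩ | ⟨k1, hk1, e1, hf1⟩ <;>
    rcases invol_cases h hh hoh with ⟨k2, hk2, e2, -, p2, hp2⟩ | ⟨k2, hk2, e2, hf2⟩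
    · exact key _ k1 k2 hk1 hk2 e1 e2
    · exact absurd hp1 (hiff.2 hf2 p1)
    · exact absurd hp2 (hiff.1 hf1 p2)
    · exact key _ k1 k2 hk1 hk2 e1 e2

end Cfsg.Agent.S5394
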