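import Cfsg.Statements.S5395
-- import your own Cfsg.Agent.* helpers here

set_option autoImplicit false
open Cfsg

namespace Cfsg.Agent.S5395

section aux
variable {E : Type*} [Group E]

lemma comm_mul_right (hZ : ∀ a b : E, a * b * a⁻¹ * b⁻¹ ∈ Subgroup.center E) (g x y : E) :
    g * (x * y) * g⁻¹ * (x * y)⁻¹ = (g * x * g⁻¹ * x⁻¹) * (g * y * g⁻¹ * y⁻¹) := by
  have hc := Subgroup.mem_center_iff.mp (hZ g y)
  calc g * (x * y) * g⁻¹ * (x * y)⁻¹ = g * x * g⁻¹ * ((g * y * g⁻¹ * y⁻¹) * x⁻¹) := by group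
    _ = g * x * g⁻¹ * (x⁻¹ * (g * y * g⁻¹ * y⁻¹)) := by rw [← hc x⁻¹]
    _ = _ := by group

lemma comm_mul_left (hZ : ∀ a b : E, a * b * a⁻¹ * b⁻¹ ∈ Subgroup.center E) (g g' x : E) :
    (g * g') * x * (g * g')⁻¹ * x⁻¹ = (g * x * g⁻¹ * x⁻¹) * (g' * x * g'⁻¹ * x⁻¹) := by
  have hc := Subgroup.mem_center_iff.mp (hZ g' x)
  calc (g * g') * x * (g * g')⁻¹ * x⁻¹ = (g * (g' * x * g'⁻¹ * x⁻¹)) * (x * g⁻¹ * x⁻¹) := by group
    _ = ((g' * x * g'⁻¹ * x⁻¹) * g) * (x * g⁻¹ * x⁻¹) := by rw [hc g]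
    _ = (g' * x * g'⁻¹ * x⁻¹) * (g * x * g⁻¹ * x⁻¹) := by group
    _ = _ := (hc _).symm

/-- the commutator character attached to `g`. -/
noncomputable def psi (ι : Subgroup.center E →* ℂˣ)
    (hZ : ∀ a b : E, a * b * a⁻¹ * b⁻¹ ∈ Subgroup.center E) (g : E) : E →* ℂˣ where
  toFun x := ι ⟨g * x * g⁻¹ * x⁻¹, hZ g x⟩
  map_one' := by
    have h : (⟨g * 1 * g⁻¹ * 1⁻¹, hZ g 1⟩ : Subgroup.center E) = 1 :=
      Subtype.ext (by show g * 1 * g⁻¹ * 1⁻¹ = (1 : E); group)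
    rw [h, map_one]
  map_mul' x y := by
    rw [← map_mul]
    congr 1
    exact Subtype.ext (comm_mul_right hZ g x y)

lemma psi_apply (ι : Subgroup.center E →* ℂˣ)
    (hZ : ∀ a b : E, a * b * a⁻¹ * b⁻¹ ∈ Subgroup.center E) (g x : E) :
    psi ι hZ g x = ι ⟨g * x * g⁻¹ * x⁻¹, hZ g x⟩ := rfl

/-- `g ↦ psi g` as a homomorphism. -/
noncomputable def Psi (ι : Subgroup.center E →* ℂˣ)
    (hZ : ∀ a b : E, a * b * a⁻¹ * b⁻¹ ∈ Subgroup.center E) : E →* (E →* ℂˣ) where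
  toFun g := psi ι hZ g
  map_one' := by
    apply MonoidHom.ext
    intro x
    rw [psi_apply]
    have h : (⟨1 * x * 1⁻¹ * x⁻¹, hZ 1 x⟩ : Subgroup.center E) = 1 :=
      Subtype.ext (by show 1 * x * 1⁻¹ * x⁻¹ = (1 : E); group)
    rw [h, map_one]
    rfl
  map_mul' g g' := by
    apply MonoidHom.ext
    intro x
    rw [MonoidHom.mul_apply, psi_apply, psi_apply, psi_apply, ← map_mul]
    congr 1
    exact Subtype.ext (comm_mul_left hZ g g' x)

lemma Psi_apply (ι : Subgroup.center E →* ℂˣ)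
    (hZ : ∀ a b : E, a * b * a⁻¹ * b⁻¹ ∈ Subgroup.center E) (g x : E) :
    Psi ι hZ g x = ι ⟨g * x * g⁻¹ * x⁻¹, hZ g x⟩ := rfl

end aux

/-- For a finite extraspecial 2-group E, an automorphism of E that induces the identity on E modulo its centre is inner (so these automorphisms form exactly the inner automorphism group, an elementary abelian 2-group of order |E|/2). -/
theorem result {E : Type*} [Group E] [Finite E] (hE : Cfsg.IsExtraspecial 2 E) (φ : E ≃* E) (hφ : ∀ x : E, φ x * x⁻¹ ∈ Subgroup.center E) : ∃ g : E, ∀ x : E, φ x = g * x * g⁻¹ := by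
  classical
  obtain ⟨⟨hP, hfrat, hcomm⟩, hcard⟩ := hE
  haveI : Fact (Nat.Prime 2) := ⟨Nat.prime_two⟩
  have hZ : ∀ a b : E, a * b * a⁻¹ * b⁻¹ ∈ Subgroup.center E := by
    intro a b
    rw [← hcomm, commutator_def]
    exact Subgroup.commutator_mem_commutator (Subgroup.mem_top a) (Subgroup.mem_top b)
  have hR : Nat.card (rootsOfUnity 2 ℂ) = 2 := Complex.card_rootsOfUnity 2
  obtain ⟨ι, hι⟩ : ∃ ι : Subgroup.center E →* ℂˣ, Function.Injective ι :=
    ⟨(rootsOfUnity 2 ℂ).subtype.comp (mulEquivOfPrimeCardEq hcard hR).toMonoidHom,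
      (Subgroup.subtype_injective _).comp (mulEquivOfPrimeCardEq hcard hR).injective⟩
  have hker : (Psi ι hZ).ker = Subgroup.center E := by
    ext g
    rw [MonoidHom.mem_ker, Subgroup.mem_center_iff]
    constructor
    · intro h x
      have h1 : ι ⟨g * x * g⁻¹ * x⁻¹, hZ g x⟩ = 1 := by
        have h0 := DFunLike.congr_fun h x
        rw [Psi_apply] at h0
        exact h0
      have h2 : (⟨g * x * g⁻¹ * x⁻¹, hZ g x⟩ : Subgroup.center E) = 1 :=
        hι (by rw [h1, map_one])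
      have h3 : g * x * g⁻¹ * x⁻¹ = 1 := congrArg Subtype.val h2
      calc x * g = (g * x * g⁻¹ * x⁻¹)⁻¹ * g * x := by group
        _ = g * x := by rw [h3]; group
    · intro h
      apply MonoidHom.ext
      intro x
      rw [Psi_apply]
      have h2 : (⟨g * x * g⁻¹ * x⁻¹, hZ g x⟩ : Subgroup.center E) = 1 := by
        apply Subtype.ext
        show g * x * g⁻¹ * x⁻¹ = 1
        rw [← h x]; group
      rw [h2, map_one]
      rfl
  haveI : NeZero (Monoid.exponent (Abelianization E)) := ⟨Monoid.exponent_ne_zero_of_finite⟩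
  have hc1 : Nat.card (Abelianization E →* ℂˣ) = Nat.card (Abelianization E) :=
    CommGroup.card_monoidHom_of_hasEnoughRootsOfUnity (Abelianization E) ℂ
  have hc2 : Nat.card (E →* ℂˣ) = Nat.card (Abelianization E →* ℂˣ) :=
    Nat.card_congr Abelianization.lift
  have hc3 : Nat.card (Abelianization E) = (Subgroup.center E).index := by
    rw [← hcomm]; rfl
  have hc4 : Nat.card (Psi ι hZ).range = (Subgroup.center E).index := by
    rw [← hker]
    exact (Nat.card_congr (QuotientGroup.quotientKerEquivRange (Psi ι hZ)).toEquiv).symm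
  haveI : Finite (E →* ℂˣ) := by
    apply Nat.finite_of_card_ne_zero
    rw [hc2, hc1]
    exact Nat.card_pos.ne'
  have htop : (Psi ι hZ).range = ⊤ :=
    Subgroup.eq_top_of_card_eq _ (by rw [hc4, hc2, hc1, hc3])
  let χ : E →* ℂˣ :=
    { toFun := fun x => ι ⟨φ x * x⁻¹, hφ x⟩
      map_one' := by
        have h : (⟨φ 1 * 1⁻¹, hφ 1⟩ : Subgroup.center E) = 1 := Subtype.ext (by simp)
        rw [h, map_one]
      map_mul' := by
        intro x y
        rw [← map_mul]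
        congr 1
        apply Subtype.ext
        show φ (x * y) * (x * y)⁻¹ = (φ x * x⁻¹) * (φ y * y⁻¹)
        have hc := Subgroup.mem_center_iff.mp (hφ y)
        calc φ (x * y) * (x * y)⁻¹ = φ x * ((φ y * y⁻¹) * x⁻¹) := by rw [map_mul]; group
          _ = φ x * (x⁻¹ * (φ y * y⁻¹)) := by rw [← hc x⁻¹]
          _ = _ := by group }
  have hχ : χ ∈ (Psi ι hZ).range := by rw [htop]; trivial
  obtain ⟨g, hg⟩ := hχ
  refine ⟨g, fun x => ?_⟩
  have h1 : ι ⟨g * x * g⁻¹ * x⁻¹, hZ g x⟩ = ι ⟨φ x * x⁻¹, hφ x⟩ := DFunLike.congr_fun hg x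
  have h2 : g * x * g⁻¹ * x⁻¹ = φ x * x⁻¹ := congrArg Subtype.val (hι h1)
  exact (mul_right_cancel h2).symm

end Cfsg.Agent.S5395
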