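import Cfsg.Statements.S5420

set_option autoImplicit false
open Cfsg

namespace Cfsg.Agent.S5420

theorem pCore_isPGroup' (p : ℕ) (G : Type*) [Group G] : IsPGroup p (Cfsg.pCore p G) :=
  Sylow.sSup_of_normal _ (fun _ hH => hH.2) (fun _ hH => hH.1)

/-- An element lying in a `2`-subgroup and in a subgroup of odd order is trivial. -/
theorem eq_one_of_mem_two_group_of_mem_odd {G : Type*} [Group G] [Finite G] (P K : Subgroup G)
    (hP : IsPGroup 2 P) (hK : Odd (Nat.card K)) (x : G) (hxP : x ∈ P) (hxK : x ∈ K) : x = 1 := by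
  obtain ⟨n, hn⟩ := hP ⟨x, hxP⟩
  have h1 : x ^ (2 ^ n) = 1 := by
    have := congrArg (Subtype.val) hn
    simpa using this
  have h2 : x ^ (Nat.card K) = 1 := by
    have h := congrArg (fun y : K => (y : G)) (pow_card_eq_one' (G := K) (x := ⟨x, hxK⟩))
    simp only [SubmonoidClass.coe_pow, OneMemClass.coe_one] at h
    exact h
  have hd1 : orderOf x ∣ 2 ^ n := orderOf_dvd_of_pow_eq_one h1
  have hd2 : orderOf x ∣ Nat.card K := orderOf_dvd_of_pow_eq_one h2
  have hcop : Nat.Coprime (2 ^ n) (Nat.card K) :=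
    Nat.Coprime.pow_left n (Nat.coprime_two_left.mpr hK)
  have : orderOf x ∣ 1 := by
    have := Nat.dvd_gcd hd1 hd2
    rwa [hcop] at this
  exact orderOf_eq_one_iff.mp (Nat.dvd_one.mp this)

/-- Let Q be an extraspecial 2-subgroup of the finite group G whose centralizer in G is its centre Z and which is normal in the centralizer of Z. If Z lies in the largest normal 2-subgroup of G, then Q is a large extraspecial 2-subgroup of G: it normalizes no non-trivial subgroup of G of odd order. -/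
theorem result {G : Type*} [Group G] [Finite G] (Q : Subgroup G) (hL1 : Cfsg.IsExtraspecial 2 ↥Q) (hL2 : Subgroup.centralizer (Q : Set G) = ((Subgroup.center ↥Q).map Q.subtype)) (hL3 : Subgroup.centralizer (((Subgroup.center ↥Q).map Q.subtype) : Set G) ≤ Subgroup.normalizer (Q : Set G)) (hZ : ((Subgroup.center ↥Q).map Q.subtype) ≤ Cfsg.pCore 2 G) : Cfsg.IsLargeExtraspecial Q := by
  refine ⟨hL1, hL2, hL3, ?_⟩
  intro K hKodd hQK
  have hcoreP : IsPGroup 2 (Cfsg.pCore 2 G) := pCore_isPGroup' 2 G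
  have hcoreN : (Cfsg.pCore 2 G).Normal := Subgroup.sSup_normal _ (fun _ hH => hH.1)
  have hQP : IsPGroup 2 Q := hL1.1.1
  have hQP' : IsPGroup 2 (Q : Subgroup G) := hQP
  have hZQ : ((Subgroup.center ↥Q).map Q.subtype) ≤ Q := by
    rintro _ ⟨y, _, rfl⟩
    exact y.2
  -- every element of K centralizes Z
  have hKZ : K ≤ Subgroup.centralizer (((Subgroup.center ↥Q).map Q.subtype) : Set G) := by
    intro k hk
    rw [Subgroup.mem_centralizer_iff]
    intro z hz
    have hzQ : z ∈ Q := hZQ hz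
    have hzN := hQK hzQ
    rw [Subgroup.mem_normalizer_iff] at hzN
    -- commutator z k z⁻¹ k⁻¹ ∈ K ∩ pCore
    have h1 : z * k * z⁻¹ * k⁻¹ ∈ K := K.mul_mem ((hzN k).1 hk) (K.inv_mem hk)
    have h2 : z * k * z⁻¹ * k⁻¹ ∈ Cfsg.pCore 2 G := by
      have hz' : z ∈ Cfsg.pCore 2 G := hZ hz
      have : z * (k * z⁻¹ * k⁻¹) ∈ Cfsg.pCore 2 G :=
        (Cfsg.pCore 2 G).mul_mem hz' (hcoreN.conj_mem _ ((Cfsg.pCore 2 G).inv_mem hz') k)
      simpa [mul_assoc] using this
    have h3 := eq_one_of_mem_two_group_of_mem_odd (Cfsg.pCore 2 G) K hcoreP hKodd _ h2 h1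
    -- so z k = k z
    have : z * k = k * z := by
      have := congrArg (fun t => t * k * z) h3
      simpa [mul_assoc] using this
    exact this
  have hKN : K ≤ Subgroup.normalizer (Q : Set G) := hKZ.trans hL3
  -- every element of K centralizes Q
  have hKC : K ≤ Subgroup.centralizer (Q : Set G) := by
    intro k hk
    rw [Subgroup.mem_centralizer_iff]
    intro q hq
    have hqQ : q ∈ Q := hq
    have hqN := hQK hqQ
    rw [Subgroup.mem_normalizer_iff] at hqN
    have hkN := hKN hk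
    rw [Subgroup.mem_normalizer_iff] at hkN
    have h1 : q * k * q⁻¹ * k⁻¹ ∈ K := K.mul_mem ((hqN k).1 hk) (K.inv_mem hk)
    have h2 : q * k * q⁻¹ * k⁻¹ ∈ Q := by
      have : k * q⁻¹ * k⁻¹ ∈ Q := (hkN q⁻¹).1 (Q.inv_mem hqQ)
      have := Q.mul_mem hqQ this
      simpa [mul_assoc] using this
    have h3 := eq_one_of_mem_two_group_of_mem_odd Q K hQP' hKodd _ h2 h1
    have : q * k = k * q := by
      have := congrArg (fun t => t * k * q) h3
      simpa [mul_assoc] using this
    exact this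
  -- hence K ≤ Z ≤ Q, and K ∩ Q = 1
  rw [eq_bot_iff]
  intro k hk
  have hkQ : k ∈ Q := hZQ (hL2 ▸ hKC hk)
  rw [Subgroup.mem_bot]
  exact eq_one_of_mem_two_group_of_mem_odd Q K hQP' hKodd k hkQ hk

end Cfsg.Agent.S5420
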