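import Mathlib
import Cfsg.Statements.S5427
import Cfsg.Agent.Helper26.SimpleXS
-- import your own Cfsg.Agent.* helpers here

set_option autoImplicit false
open Cfsg

namespace Cfsg.Agent.S5427

/-- Let z be an involution of the finite group G whose centralizer C has generalized Fitting subgroup Q, an extraspecial 2-group of width at least 2 (order 2^(2w+1), w ≥ 2). Let K be a subgroup of G such that the subgroup U generated by the K-conjugates of z is abelian and C is generated by the C-conjugates of U. Suppose that either some K-conjugate of z other than z lies in Q, or some element u of U ∩ Q outside the subgroup generated by z has z in the largest normal 2-subgroup of its centralizer. Then G is simple and Q is a large extraspecial 2-subgroup of G. -/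
theorem result {G : Type*} [Group G] [Finite G] (z : G) (hz : orderOf z = 2) (Q : Subgroup G) (hQC : Q ≤ Subgroup.centralizer ({z} : Set G)) (hF : (Cfsg.generalizedFittingSubgroup ↥(Subgroup.centralizer ({z} : Set G))).map (Subgroup.centralizer ({z} : Set G)).subtype = Q) (hQ : Cfsg.IsExtraspecial 2 ↥Q) (w : ℕ) (hw : 2 ≤ w) (hcard : Nat.card ↥Q = 2 ^ (2 * w + 1)) (K U : Subgroup G) (hU : U = Subgroup.closure {x : G | ∃ k ∈ K, x = k * z * k⁻¹}) (hUab : IsMulCommutative ↥U) (hgen : Subgroup.closure {x : G | ∃ c ∈ Subgroup.centralizer ({z} : Set G), ∃ u ∈ U, x = c * u * c⁻¹} = Subgroup.centralizer ({z} : Set G)) (h3 : (∃ k ∈ K, k * z * k⁻¹ ∈ Q ∧ k * z * k⁻¹ ≠ z) ∨ ∃ u ∈ U ⊓ Q, u ∉ Subgroup.zpowers z ∧ (∃ hz' : z ∈ Subgroup.centralizer ({u} : Set G), (⟨z, hz'⟩ : ↥(Subgroup.centralizer ({u} : Set G))) ∈ Cfsg.pCore 2 ↥(Subgroup.centralizer ({u} : Set G)))) : IsSimpleGroup G ∧ Cfsg.IsLargeExtraspecial Q := by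
  classical
  obtain ⟨hLX, hcenter, hL2, hL3⟩ := Cfsg.Agent.Helper26.SimpleXS.setup z hz Q hF hQ
  have d := hLX.1
  obtain ⟨hzQ, hz1, hzz, hcen, -, -, -⟩ := d
  have hUz : ∀ N : Subgroup G, N.Normal → z ∈ N → U ≤ N := by
    intro N hNn hzN
    rw [hU, Subgroup.closure_le]
    rintro x ⟨k, -, rfl⟩
    exact hNn.conj_mem z hzN k
  have hlarge : Cfsg.IsLargeExtraspecial Q := by
    rcases h3 with ⟨k, -, hkQ, hkz⟩ | ⟨u, hu, huz, hz', hzp⟩
    · exact Cfsg.Agent.Helper26.SimpleXS.large_of_conj hQ hcenter hz1 hL2 hL3 w hw hcard k hkQ hkz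
    · have hu1 : u ≠ 1 := by
        intro h; apply huz; rw [h]; exact Subgroup.one_mem _
      have hcomm : ∀ x ∈ U, ∀ y ∈ U, x * y = y * x := fun x hx y hy =>
        congrArg Subtype.val (hUab.is_comm.comm ⟨x, hx⟩ ⟨y, hy⟩)
      have huU : u ∈ Subgroup.closure {x : G | ∃ k ∈ K, x = k * z * k⁻¹} := by
        rw [← hU]; exact (Subgroup.mem_inf.mp hu).1
      have huu : u * u = 1 := by
        refine (Subgroup.closure_induction (p := fun x _ => x ∈ U ∧ x * x = 1) ?_ ?_ ?_ ?_ huU).2
        · intro y hy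
          obtain ⟨k, hk, rfl⟩ := hy
          refine ⟨?_, ?_⟩
          · rw [hU]; exact Subgroup.subset_closure ⟨k, hk, rfl⟩
          · calc k * z * k⁻¹ * (k * z * k⁻¹) = k * (z * z) * k⁻¹ := by group
              _ = 1 := by rw [hzz, mul_one, mul_inv_cancel]
        · exact ⟨U.one_mem, mul_one 1⟩
        · intro x y _ _ hx hy
          refine ⟨U.mul_mem hx.1 hy.1, ?_⟩
          calc x * y * (x * y) = x * (y * x) * y := by group
            _ = x * (x * y) * y := by rw [hcomm y hy.1 x hx.1]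
            _ = (x * x) * (y * y) := by group
            _ = 1 := by rw [hx.2, hy.2, mul_one]
        · intro x _ hx
          refine ⟨U.inv_mem hx.1, ?_⟩
          calc x⁻¹ * x⁻¹ = (x * x)⁻¹ := by group
            _ = 1 := by rw [hx.2, inv_one]
      haveI : Fact (Nat.Prime 2) := ⟨Nat.prime_two⟩
      have hb : orderOf u = 2 := orderOf_eq_prime (by rw [pow_two]; exact huu) hu1
      have hbZ : u ∉ (Subgroup.center ↥Q).map Q.subtype := by
        intro h
        rcases (hcenter u).mp h with h | h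
        · exact hu1 h
        · apply huz; rw [h]; exact Subgroup.mem_zpowers z
      have hZ : (Subgroup.center ↥Q).map Q.subtype ≤ (Cfsg.pCore 2 ↥(Subgroup.centralizer ({u} : Set G))).map (Subgroup.centralizer ({u} : Set G)).subtype := by
        intro v hv
        rcases (hcenter v).mp hv with h | h
        · rw [h]; exact Subgroup.one_mem _
        · rw [h]; exact Subgroup.mem_map.mpr ⟨⟨z, hz'⟩, hzp, rfl⟩
      exact Cfsg.Agent.S5421.result Q hQ hL2 hL3 u (Subgroup.mem_inf.mp hu).2 hbZ hb hZ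
  have hl := hlarge
  obtain ⟨-, -, -, hodd⟩ := hl
  refine ⟨Cfsg.Agent.Helper26.SimpleXS.simple_of hLX hodd ?_, hlarge⟩
  intro N hNn hzN c hc
  have hcC : c ∈ Subgroup.centralizer ({z} : Set G) := Cfsg.Agent.Helper26.LargeXS2.mem_cz.mpr hc
  have hle : Subgroup.closure {x : G | ∃ c ∈ Subgroup.centralizer ({z} : Set G), ∃ u ∈ U, x = c * u * c⁻¹} ≤ N := by
    rw [Subgroup.closure_le]
    rintro x ⟨c', -, u, hu, rfl⟩
    exact hNn.conj_mem u (hUz N hNn hzN hu) c'
  rw [← hgen] at hcC
  exact hle hcC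

end Cfsg.Agent.S5427
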