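import Mathlib
import Cfsg.Statements.S5428
import Cfsg.Agent.Helper26.XSOdd
import Cfsg.Agent.Helper26.SimpleXS
-- import your own Cfsg.Agent.* helpers here

set_option autoImplicit false
open Cfsg

namespace Cfsg.Agent.S5428

/-- Let z be an involution of the finite group G whose centralizer C has generalized Fitting subgroup Q extraspecial (as a 2-group), let A be a subgroup of C of odd order, and let R be the centralizer of A in Q; suppose R has order at least 32, the largest normal subgroup of odd order of the centralizer of the subgroup generated by A and R lies in A, the order of that centralizer is not divisible by 4, and g is an element of G with g z g⁻¹ in R but outside the centre Z of Q. Let M be the subgroup generated by A and the centralizer of A (A is normal in it). Then: the centralizer in M of the subgroup generated by R and A, joined with A, equals the subgroup generated by A and Z; the image of R in M/A is a large extraspecial 2-subgroup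 of M/A; and g z g⁻¹ is conjugate to z inside the subgroup generated by R and the centralizer of A in g Q g⁻¹. -/
theorem result {G : Type*} [Group G] [Finite G] (z : G) (hz : orderOf z = 2) (Q : Subgroup G) (hQC : Q ≤ Subgroup.centralizer ({z} : Set G)) (hF : (Cfsg.generalizedFittingSubgroup ↥(Subgroup.centralizer ({z} : Set G))).map (Subgroup.centralizer ({z} : Set G)).subtype = Q) (hQ : Cfsg.IsExtraspecial 2 ↥Q) (A : Subgroup G) (hA : A ≤ Subgroup.centralizer ({z} : Set G)) (hAodd : Odd (Nat.card ↥A)) (R : Subgroup G) (hR : R = Q ⊓ Subgroup.centralizer (A : Set G)) (hR32 : 32 ≤ Nat.card ↥R) (hO : (Cfsg.oddCore ↥(Subgroup.centralizer ((A ⊔ R : Subgroup G) : Set G))).map (Subgroup.centralizer ((A ⊔ R : Subgroup G) : Set G)).subtype ≤ A) (h4 : ¬ 4 ∣ Nat.card ↥(Subgroup.centralizer ((A ⊔ R : Subgroup G) : Set G))) (g : G) (hgR : g * z * g⁻¹ ∈ R) (hgZ : g * z * g⁻¹ ∉ ((Subgroup.center ↥Q).map Q.subtype)) (M : Subgroup G) (hM : M = Subgroup.centralizer (A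 : Set G) ⊔ A) [hn : (A.subgroupOf M).Normal] : (M ⊓ Subgroup.centralizer ((R ⊔ A : Subgroup G) : Set G)) ⊔ A = A ⊔ ((Subgroup.center ↥Q).map Q.subtype) ∧ Cfsg.IsLargeExtraspecial ((R.subgroupOf M).map (QuotientGroup.mk' (A.subgroupOf M))) ∧ ∃ x ∈ R ⊔ ((Q).map (MulAut.conj g).toMonoidHom ⊓ Subgroup.centralizer (A : Set G)), x * (g * z * g⁻¹) * x⁻¹ = z := by
  classical
  obtain ⟨hLX, hcenter, hL2, hL3⟩ := Cfsg.Agent.Helper26.SimpleXS.setup z hz Q hF hQ
  have hLX' := hLX
  obtain ⟨d, hQ2, hCQ, hN⟩ := hLX'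
  have d' := d
  obtain ⟨hzQ, hz1, hzz, hcen, hcomm, hsqr, hrad⟩ := d'
  have hgR0 : g * z * g⁻¹ ∈ R := hgR
  obtain ⟨s, hsdef⟩ : ∃ s : G, s = g * z * g⁻¹ := ⟨_, rfl⟩
  rw [← hsdef] at hgR hgZ ⊢
  have hAz : ∀ a ∈ A, a * z = z * a := fun a ha => Cfsg.Agent.Helper26.LargeXS2.mem_cz.mp (hA ha)
  have hRmem : ∀ x, x ∈ R ↔ x ∈ Q ∧ ∀ a ∈ A, a * x = x * a := by
    intro x
    constructor
    · intro hx
      rw [hR] at hx
      exact ⟨hx.1, fun a ha => (Subgroup.mem_centralizer_iff.mp hx.2) a ha⟩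
    · rintro ⟨h1, h2⟩
      rw [hR]
      exact ⟨h1, Subgroup.mem_centralizer_iff.mpr (fun a ha => h2 a ha)⟩
  have hRQ : ∀ x ∈ R, x ∈ Q := fun x hx => ((hRmem x).mp hx).1
  have hzR : z ∈ R := (hRmem z).mpr ⟨hzQ, hAz⟩
  have hsR : s ∈ R := hgR
  have hsQ : s ∈ Q := hRQ s hsR
  have hsA : ∀ a ∈ A, a * s = s * a := ((hRmem s).mp hsR).2
  have hs1 : s ≠ 1 := fun h => hgZ ((hcenter s).mpr (Or.inl h))
  have hsz : s ≠ z := fun h => hgZ ((hcenter s).mpr (Or.inr h))
  have hss : s * s = 1 := by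
    rw [hsdef]
    calc g * z * g⁻¹ * (g * z * g⁻¹) = g * (z * z) * g⁻¹ := by group
      _ = 1 := by rw [hzz, mul_one, mul_inv_cancel]
  have hLXg : Cfsg.Agent.Helper26.LargeXS2.LX (Q.map (MulAut.conj g).toMonoidHom) s := by
    rw [hsdef]; exact hLX.conj g
  obtain ⟨dg, hQ2g, hCQg, hNg⟩ := hLXg
  have dg' := dg
  obtain ⟨hsQg, -, -, hceng, hcommg, hsqrg, hradg⟩ := dg'
  have hzQg : z ∈ Q.map (MulAut.conj g).toMonoidHom :=
    (Cfsg.Agent.Helper26.LargeXS2.mem_conj g z).mpr
      (Cfsg.Agent.Helper26.LargeXS.key d hQ2 hCQ hN g (hRQ _ hgR0))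
  have hDmem : ∀ c, c ∈ Subgroup.centralizer ((A ⊔ R : Subgroup G) : Set G) ↔
      (∀ a ∈ A, c * a = a * c) ∧ (∀ x ∈ R, c * x = x * c) := by
    intro c
    rw [Subgroup.mem_centralizer_iff]
    constructor
    · intro h
      exact ⟨fun a ha => (h a (Subgroup.mem_sup_left ha)).symm,
        fun x hx => (h x (Subgroup.mem_sup_right hx)).symm⟩
    · rintro ⟨h1, h2⟩ y hy
      have hle : A ⊔ R ≤ Subgroup.centralizer ({c} : Set G) :=
        sup_le (fun a ha => Cfsg.Agent.Helper26.LargeXS2.mem_cz.mpr (h1 a ha).symm)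
          (fun x hx => Cfsg.Agent.Helper26.LargeXS2.mem_cz.mpr (h2 x hx).symm)
      exact Cfsg.Agent.Helper26.LargeXS2.mem_cz.mp (hle hy)
  have hzD : z ∈ Subgroup.centralizer ((A ⊔ R : Subgroup G) : Set G) :=
    (hDmem z).mpr ⟨fun a ha => (hAz a ha).symm, fun x hx => (hcen x (hRQ x hx)).symm⟩
  have hDstr : ∀ c ∈ Subgroup.centralizer ((A ⊔ R : Subgroup G) : Set G), c ∈ A ∨ c * z ∈ A :=
    Cfsg.Agent.Helper26.XSOdd.two_complement_sub _ A z hzD hz h4 hO
  have hRrad : ∀ w ∈ R, (∀ x ∈ R, x * w = w * x) → w = 1 ∨ w = z := by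
    intro w hw hcw
    exact Cfsg.Agent.Helper26.XSOdd.rad_of_not_four _ Q hQ2 z hz hzQ hzD h4 w (hRQ w hw)
      ((hDmem w).mpr ⟨fun a ha => (((hRmem w).mp hw).2 a ha).symm, fun x hx => (hcw x hx).symm⟩)
  have dR : Cfsg.Agent.Helper14.XS.Data R z := ⟨hzR, hz1, hzz, fun x hx => hcen x (hRQ x hx),
    fun a ha x hx => hcomm a (hRQ a ha) x (hRQ x hx), fun x hx => hsqr x (hRQ x hx), hRrad⟩
  obtain ⟨q, hqR, hqs⟩ := Cfsg.Agent.Helper26.LargeXS.exists_moving dR hsR hs1 hsz
  obtain ⟨q', hq'Q, hq'A, hq'z⟩ := Cfsg.Agent.Helper26.XSOdd.exists_fixed dg A hAodd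
    (fun a ha b hb => hNg a (hsA a ha) b hb) hsA hAz hzQg hz1 (fun h => hsz h.symm)
  have hxs : (q' * q) * s * (q' * q)⁻¹ = z := by
    have e1 : q * s = z * s * q := hqs.eq
    have e2 : q' * z = s * z * q' := hq'z.eq
    have e3 : q' * s = s * q' := hceng q' hq'Q
    have e4 : s * z = z * s := hcen s hsQ
    calc (q' * q) * s * (q' * q)⁻¹ = q' * (q * s) * q⁻¹ * q'⁻¹ := by group
      _ = q' * (z * s * q) * q⁻¹ * q'⁻¹ := by rw [e1]
      _ = (q' * z) * s * q'⁻¹ := by group
      _ = (s * z * q') * s * q'⁻¹ := by rw [e2]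
      _ = s * z * (q' * s) * q'⁻¹ := by group
      _ = s * z * (s * q') * q'⁻¹ := by rw [e3]
      _ = (s * z) * s := by group
      _ = (z * s) * s := by rw [e4]
      _ = z := by rw [mul_assoc, hss, mul_one]
  have hqA : ∀ a ∈ A, a * q = q * a := ((hRmem q).mp hqR).2
  have hxA : ∀ a ∈ A, (q' * q)⁻¹ * a = a * (q' * q)⁻¹ := by
    intro a ha
    have e1 : a * q = q * a := hqA a ha
    have e2 : a * q' = q' * a := hq'A a ha
    have e3 : a * (q' * q) = (q' * q) * a := by
      calc a * (q' * q) = (a * q') * q := by group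
        _ = (q' * a) * q := by rw [e2]
        _ = q' * (a * q) := by group
        _ = q' * (q * a) := by rw [e1]
        _ = (q' * q) * a := by group
    calc (q' * q)⁻¹ * a = (q' * q)⁻¹ * (a * (q' * q)) * (q' * q)⁻¹ := by group
      _ = (q' * q)⁻¹ * ((q' * q) * a) * (q' * q)⁻¹ := by rw [e3]
      _ = a * (q' * q)⁻¹ := by group
  have hc0eq : (q' * q)⁻¹ * z * ((q' * q)⁻¹)⁻¹ = s := by
    calc (q' * q)⁻¹ * z * ((q' * q)⁻¹)⁻¹
        = (q' * q)⁻¹ * ((q' * q) * s * (q' * q)⁻¹) * ((q' * q)⁻¹)⁻¹ := by rw [hxs]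
      _ = s := by group
  have hR3 : 2 < Nat.card ↥R := by omega
  have hMmem : ∀ m, m ∈ M ↔ ∃ c, (∀ a ∈ A, c * a = a * c) ∧ ∃ a ∈ A, m = c * a := by
    intro m; rw [hM]; exact Cfsg.Agent.Helper26.XSOdd.mem_cent_sup A m
  refine ⟨?_, ?_, q' * q, ?_, hxs⟩
  · apply le_antisymm
    · apply sup_le
      · intro c hc
        have hcD : c ∈ Subgroup.centralizer ((A ⊔ R : Subgroup G) : Set G) := by
          have h5 := (Subgroup.mem_inf.mp hc).2
          rw [sup_comm R A] at h5
          exact h5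
        rcases hDstr c hcD with h | h
        · exact Subgroup.mem_sup_left h
        · have e : c = (c * z) * z := by rw [mul_assoc, hzz, mul_one]
          rw [e]
          exact Subgroup.mul_mem _ (Subgroup.mem_sup_left h)
            (Subgroup.mem_sup_right ((hcenter z).mpr (Or.inr rfl)))
      · exact le_sup_left
    · apply sup_le
      · exact le_sup_right
      · intro v hv
        rcases (hcenter v).mp hv with h | h
        · rw [h]; exact Subgroup.one_mem _
        · rw [h]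
          apply Subgroup.mem_sup_left
          refine Subgroup.mem_inf.mpr ⟨?_, ?_⟩
          · exact (hMmem z).mpr ⟨z, fun a ha => (hAz a ha).symm, 1, A.one_mem, (mul_one z).symm⟩
          · have h5 := hzD
            rw [sup_comm A R] at h5
            exact h5
  · exact Cfsg.Agent.Helper26.XSOdd.odd_quot_large hLX A R M hAz hAodd hRmem hR3
      (fun c hcA hcR => hDstr c ((hDmem c).mpr ⟨hcA, hcR⟩)) hRrad hMmem (q' * q)⁻¹ hxA
      (by rw [hc0eq]; exact hsR) (by rw [hc0eq]; exact hsz)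
  · exact Subgroup.mul_mem _
      (Subgroup.mem_sup_right (Subgroup.mem_inf.mpr
        ⟨hq'Q, Subgroup.mem_centralizer_iff.mpr (fun a ha => hq'A a ha)⟩))
      (Subgroup.mem_sup_left hqR)

end Cfsg.Agent.S5428
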