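import Mathlib
import Cfsg.Statements.S5429
import Cfsg.Agent.Helper26.XSQuot
import Cfsg.Agent.Helper26.SimpleXS
-- import your own Cfsg.Agent.* helpers here

set_option autoImplicit false
open Cfsg

namespace Cfsg.Agent.S5429

/-- Let z be an involution of the finite group G with centralizer C whose generalized Fitting subgroup Q is extraspecial of width at least 3 (order 2^(2w+1), w ≥ 3); let g be an element of G with g z g⁻¹ in Q but outside the centre Z of Q, and t an involution lying in both Q and g Q g⁻¹ that is not conjugate to z; write P for the centralizer of t in Q and suppose that the elements of C acting trivially by conjugation on P modulo the subgroup generated by t and z are exactly the elements of Q. Then the image of P in the centralizer of t modulo the subgroup generated by t is a large extraspecial 2-subgroup there, and g z g⁻¹ is conjugate to z inside the subgroup generated by P and the centralizer of t in g Q g⁻¹. -/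
theorem result {G : Type*} [Group G] [Finite G] (z : G) (hz : orderOf z = 2) (Q : Subgroup G) (hQC : Q ≤ Subgroup.centralizer ({z} : Set G)) (hF : (Cfsg.generalizedFittingSubgroup ↥(Subgroup.centralizer ({z} : Set G))).map (Subgroup.centralizer ({z} : Set G)).subtype = Q) (hQ : Cfsg.IsExtraspecial 2 ↥Q) (w : ℕ) (hw : 3 ≤ w) (hcard : Nat.card ↥Q = 2 ^ (2 * w + 1)) (g : G) (hgQ : g * z * g⁻¹ ∈ Q) (hgZ : g * z * g⁻¹ ∉ ((Subgroup.center ↥Q).map Q.subtype)) (t : G) (ht : orderOf t = 2) (htQ : t ∈ Q ⊓ (Q).map (MulAut.conj g).toMonoidHom) (htz : ¬ IsConj z t) (P : Subgroup G) (hP : P = Q ⊓ Subgroup.centralizer ({t} : Set G)) (hCP : ∀ c ∈ Subgroup.centralizer ({z} : Set G), (∀ x ∈ P, ∃ y ∈ Subgroup.closure ({t, z} : Set G), c * x * c⁻¹ = x * y) ↔ c ∈ Q) [hn : ((Subgroup.zpowers t).subgroupOf (Subgroup.centralizer ({t} : Set G))).Normal] : Cfsg.IsLargeExtraspecial ((P.subgroupOf (Subgroup.centralizer ({t} : Set G))).map (QuotientGroup.mk' ((Subgroup.zpowers t).subgroupOf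 (Subgroup.centralizer ({t} : Set G))))) ∧ ∃ x ∈ P ⊔ ((Q).map (MulAut.conj g).toMonoidHom ⊓ Subgroup.centralizer ({t} : Set G)), x * (g * z * g⁻¹) * x⁻¹ = z := by
  classical
  obtain ⟨hLX, hcenter, hL2, hL3⟩ := Cfsg.Agent.Helper26.SimpleXS.setup z hz Q hF hQ
  have hLX' := hLX
  obtain ⟨d, hQ2, hCQ, hN⟩ := hLX'
  have d' := d
  obtain ⟨hzQ, hz1, hzz, hcen, hcomm, hsqr, hrad⟩ := d'
  have hgQ0 : g * z * g⁻¹ ∈ Q := hgQ
  obtain ⟨s, hsdef⟩ : ∃ s : G, s = g * z * g⁻¹ := ⟨_, rfl⟩
  rw [← hsdef] at hgQ hgZ ⊢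
  have htQ1 : t ∈ Q := (Subgroup.mem_inf.mp htQ).1
  have htQg : t ∈ Q.map (MulAut.conj g).toMonoidHom := (Subgroup.mem_inf.mp htQ).2
  have htt : t * t = 1 := by rw [← pow_two, ← ht]; exact pow_orderOf_eq_one t
  have ht1 : t ≠ 1 := by
    intro h; rw [h, orderOf_one] at ht; exact absurd ht (by norm_num)
  have hs1 : s ≠ 1 := fun h => hgZ ((hcenter s).mpr (Or.inl h))
  have hsz : s ≠ z := fun h => hgZ ((hcenter s).mpr (Or.inr h))
  have hss : s * s = 1 := by
    rw [hsdef]
    calc g * z * g⁻¹ * (g * z * g⁻¹) = g * (z * z) * g⁻¹ := by group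
      _ = 1 := by rw [hzz, mul_one, mul_inv_cancel]
  have hLXg : Cfsg.Agent.Helper26.LargeXS2.LX (Q.map (MulAut.conj g).toMonoidHom) s := by
    rw [hsdef]; exact hLX.conj g
  obtain ⟨dg, hQ2g, hCQg, hNg⟩ := hLXg
  have dg' := dg
  obtain ⟨hsQg, -, -, hceng, hcommg, hsqrg, hradg⟩ := dg'
  have hzQg : z ∈ Q.map (MulAut.conj g).toMonoidHom :=
    (Cfsg.Agent.Helper26.LargeXS2.mem_conj g z).mpr
      (Cfsg.Agent.Helper26.LargeXS.key d hQ2 hCQ hN g hgQ0)
  have hsQ : s ∈ Q := hgQ
  have htne : t ≠ z := fun h => htz (by rw [h])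
  have hzs : IsConj z s := by rw [hsdef]; exact isConj_iff.mpr ⟨g, rfl⟩
  have htns : t ≠ s := fun h => htz (by rw [h]; exact hzs)
  obtain ⟨q0, hq0Q, hq0⟩ := Cfsg.Agent.Helper26.LargeXS.exists_moving d htQ1 ht1 htne
  have hszt : s ≠ z * t := by
    intro h
    apply htz
    have h2 : IsConj t (z * t) := isConj_iff.mpr ⟨q0, by rw [hq0.eq, mul_inv_cancel_right]⟩
    rw [← h] at h2
    exact hzs.trans h2.symm
  have hs_notcl : s ∉ Subgroup.closure (insert z ((({t} : Finset G) : Set G))) := by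
    intro hcl
    have hle : Subgroup.closure (insert z ((({t} : Finset G) : Set G))) ≤
        Cfsg.Agent.Helper26.LargeXS.four z t hzz htt (hcen t htQ1) := by
      rw [Subgroup.closure_le]
      intro v hv
      rw [Finset.coe_singleton] at hv
      rcases hv with h | h
      · rw [h]; exact Cfsg.Agent.Helper26.LargeXS.mem_four.mpr (Or.inr (Or.inl rfl))
      · rw [Set.mem_singleton_iff.mp h]
        exact Cfsg.Agent.Helper26.LargeXS.mem_four.mpr (Or.inr (Or.inr (Or.inl rfl)))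
    rcases Cfsg.Agent.Helper26.LargeXS.mem_four.mp (hle hcl) with h | h | h | h
    · exact hs1 h
    · exact hsz h
    · exact htns h.symm
    · exact hszt h
  obtain ⟨q, hqQ, hqt, hqs⟩ := Cfsg.Agent.Helper26.Singular.exists_comm d {t}
    (by intro a ha; rw [Finset.mem_singleton.mp ha]; exact htQ1) s hsQ hs_notcl
  obtain ⟨q1, hq1Q, hq1⟩ := Cfsg.Agent.Helper26.LargeXS.exists_moving dg htQg ht1 htns
  have hzst : z ≠ s * t := by
    intro h
    apply htz
    have h2 : IsConj t (s * t) := isConj_iff.mpr ⟨q1, by rw [hq1.eq, mul_inv_cancel_right]⟩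
    rw [← h] at h2
    exact h2.symm
  have hz_notcl : z ∉ Subgroup.closure (insert s ((({t} : Finset G) : Set G))) := by
    intro hcl
    have hle : Subgroup.closure (insert s ((({t} : Finset G) : Set G))) ≤
        Cfsg.Agent.Helper26.LargeXS.four s t hss htt (hceng t htQg) := by
      rw [Subgroup.closure_le]
      intro v hv
      rw [Finset.coe_singleton] at hv
      rcases hv with h | h
      · rw [h]; exact Cfsg.Agent.Helper26.LargeXS.mem_four.mpr (Or.inr (Or.inl rfl))
      · rw [Set.mem_singleton_iff.mp h]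
        exact Cfsg.Agent.Helper26.LargeXS.mem_four.mpr (Or.inr (Or.inr (Or.inl rfl)))
    rcases Cfsg.Agent.Helper26.LargeXS.mem_four.mp (hle hcl) with h | h | h | h
    · exact hz1 h
    · exact hsz h.symm
    · exact htne h.symm
    · exact hzst h
  obtain ⟨q', hq'Q, hq't, hq'z⟩ := Cfsg.Agent.Helper26.Singular.exists_comm dg {t}
    (by intro a ha; rw [Finset.mem_singleton.mp ha]; exact htQg) z hzQg hz_notcl
  have hxs : (q' * q) * s * (q' * q)⁻¹ = z := by
    have e1 : q * s = z * s * q := hqs.eq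
    have e2 : q' * z = s * z * q' := hq'z.eq
    have e3 : q' * s = s * q' := hceng q' hq'Q
    have e4 : s * z = z * s := hcen s hsQ
    calc (q' * q) * s * (q' * q)⁻¹ = q' * (q * s) * q⁻¹ * q'⁻¹ := by group
      _ = q' * (z * s * q) * q⁻¹ * q'⁻¹ := by rw [e1]
      _ = (q' * z) * s * q'⁻¹ := by group
      _ = (s * z * q') * s * q'⁻¹ := by rw [e2]
      _ = s * z * (q' * s) * q'⁻¹ := by group
      _ = s * z * (s * q') * q'⁻¹ := by rw [e3]
      _ = (s * z) * s := by group
      _ = (z * s) * s := by rw [e4]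
      _ = z := by rw [mul_assoc, hss, mul_one]
  have hP' : ∀ x : G, x ∈ P ↔ x ∈ Q ∧ x * t = t * x := by
    intro x; rw [hP, Subgroup.mem_inf, Cfsg.Agent.Helper26.LargeXS2.mem_cz]
  have hqt' : q * t = t * q := hqt t (Finset.mem_singleton_self t)
  have hq't' : q' * t = t * q' := hq't t (Finset.mem_singleton_self t)
  have hxt : (q' * q) * t = t * (q' * q) := by
    calc (q' * q) * t = q' * (q * t) := by group
      _ = q' * (t * q) := by rw [hqt']
      _ = (q' * t) * q := by group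
      _ = (t * q') * q := by rw [hq't']
      _ = t * (q' * q) := by group
  have hc0 : (q' * q)⁻¹ * t = t * (q' * q)⁻¹ := by
    calc (q' * q)⁻¹ * t = (q' * q)⁻¹ * (t * (q' * q)) * (q' * q)⁻¹ := by group
      _ = (q' * q)⁻¹ * ((q' * q) * t) * (q' * q)⁻¹ := by rw [hxt]
      _ = t * (q' * q)⁻¹ := by group
  have hc0eq : (q' * q)⁻¹ * z * ((q' * q)⁻¹)⁻¹ = s := by
    calc (q' * q)⁻¹ * z * ((q' * q)⁻¹)⁻¹
        = (q' * q)⁻¹ * ((q' * q) * s * (q' * q)⁻¹) * ((q' * q)⁻¹)⁻¹ := by rw [hxs]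
      _ = s := by group
  have h8 : 8 < Nat.card ↥Q := by
    rw [hcard]
    calc 8 < 2 ^ 7 := by norm_num
      _ ≤ 2 ^ (2 * w + 1) := Nat.pow_le_pow_right (by norm_num) (by omega)
  refine ⟨?_, q' * q, ?_, hxs⟩
  · exact Cfsg.Agent.Helper26.XSQuot.quot_large hLX htQ1 htt ht1 htz h8 P
      (Subgroup.centralizer ({t} : Set G)) (fun c => Cfsg.Agent.Helper26.LargeXS2.mem_cz) hP'
      (fun c hc h => (hCP c hc).mp h) (q' * q)⁻¹ hc0
      (by rw [hc0eq]; exact (hP' s).mpr ⟨hsQ, (hceng t htQg).symm⟩)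
      (by rw [hc0eq]; exact hsz) (by rw [hc0eq]; exact hszt)
  · exact Subgroup.mul_mem _
      (Subgroup.mem_sup_right (Subgroup.mem_inf.mpr
        ⟨hq'Q, Cfsg.Agent.Helper26.LargeXS2.mem_cz.mpr hq't'⟩))
      (Subgroup.mem_sup_left ((hP' q).mpr ⟨hqQ, hqt'⟩))

end Cfsg.Agent.S5429
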