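import Cfsg.Statements.S5433

set_option autoImplicit false
open Cfsg

namespace Cfsg.Agent.S5433

/-- Let Q be a large extraspecial 2-subgroup of the finite group G (extraspecial; centralizer equal to its centre; normal in the centralizer of its centre; normalizing no non-trivial subgroup of odd order), and L a normal subgroup of G containing Q. Then G is the product of L and the normalizer of Q. -/
theorem result {G : Type*} [Group G] [Finite G] (Q : Subgroup G) (hQ : Cfsg.IsLargeExtraspecial Q) (L : Subgroup G) [L.Normal] (hQL : Q ≤ L) : L ⊔ Subgroup.normalizer (Q : Set G) = ⊤ := by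
  obtain ⟨hL1, hL2, hL3, -⟩ := hQ
  have hQP : IsPGroup 2 (Q : Subgroup G) := hL1.1.1
  have hcard : Nat.card (Subgroup.center Q) = 2 := hL1.2
  -- the generator of the centre
  obtain ⟨z0, hz0, hz0u⟩ := (Nat.card_eq_two_iff' (1 : Subgroup.center Q)).mp hcard
  set z : G := ((z0 : Q) : G) with hz
  have hz1 : z ≠ 1 := by
    intro h
    apply hz0
    apply Subtype.ext
    apply Subtype.ext
    simpa [hz] using h
  have hZmem : ∀ x ∈ (Subgroup.center ↥Q).map Q.subtype, x = 1 ∨ x = z := by
    rintro _ ⟨y, hy, rfl⟩
    by_cases h : (⟨y, hy⟩ : Subgroup.center Q) = 1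
    · left
      have := congrArg (fun y : Subgroup.center Q => ((y : Q) : G)) h
      simpa using this
    · right
      have := hz0u _ h
      have := congrArg (fun y : Subgroup.center Q => ((y : Q) : G)) this
      simpa [hz] using this
  -- a Sylow 2-subgroup of L containing Q
  haveI : Fact (Nat.Prime 2) := ⟨Nat.prime_two⟩
  have hQ'P : IsPGroup 2 (Q.subgroupOf L) := hQP.comap_subtype
  obtain ⟨P, hP⟩ := hQ'P.exists_le_sylow
  set T : Subgroup G := (P : Subgroup L).map L.subtype with hT
  have hTP : IsPGroup 2 T := P.2.map _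
  have hQT : Q ≤ T := by
    intro q hq
    refine ⟨⟨q, hQL hq⟩, hP ?_, rfl⟩
    rw [Subgroup.mem_subgroupOf]
    exact hq
  have hfrat : Subgroup.normalizer (T : Set G) ⊔ L = ⊤ := Sylow.normalizer_sup_eq_top P
  -- a non-identity central element of T
  have hzQ : z ∈ Q := (z0 : Q).2
  haveI : Nontrivial T := ⟨⟨⟨z, hQT hzQ⟩, 1, fun h => hz1 (congrArg Subtype.val h)⟩⟩
  haveI : Nontrivial (Subgroup.center T) := hTP.center_nontrivial
  obtain ⟨c, hc⟩ := exists_ne (1 : Subgroup.center T)
  have hcT : ((c : T) : G) ∈ T := (c : T).2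
  have hc1 : ((c : T) : G) ≠ 1 := by
    intro h
    apply hc
    apply Subtype.ext
    apply Subtype.ext
    simpa using h
  have hccomm : ∀ t ∈ T, t * ((c : T) : G) = ((c : T) : G) * t := by
    intro t ht
    have h := (Subgroup.mem_center_iff.mp c.2) ⟨t, ht⟩
    have := congrArg (fun y : T => (y : G)) h
    simpa using this
  -- any non-identity element of T centralizing T equals z
  have key : ∀ x : G, x ≠ 1 → (∀ t ∈ T, t * x = x * t) → x = z := by
    intro x hx1 hxc
    have hxC : x ∈ Subgroup.centralizer (Q : Set G) := by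
      rw [Subgroup.mem_centralizer_iff]
      intro q hq
      exact hxc q (hQT hq)
    rw [hL2] at hxC
    rcases hZmem x hxC with h | h
    · exact absurd h hx1
    · exact h
  have hcz : ((c : T) : G) = z := key _ hc1 hccomm
  -- the normalizer of T lies in the normalizer of Q
  have hNT : Subgroup.normalizer (T : Set G) ≤ Subgroup.normalizer (Q : Set G) := by
    intro g hg
    rw [Subgroup.mem_normalizer_iff] at hg
    apply hL3
    -- g z g⁻¹ is a non-identity element of T centralizing T
    have h1 : g * z * g⁻¹ ≠ 1 := by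
      intro h
      apply hz1
      have := congrArg (fun t => g⁻¹ * t * g) h
      simpa [mul_assoc] using this
    have h2 : ∀ t ∈ T, t * (g * z * g⁻¹) = (g * z * g⁻¹) * t := by
      intro t ht
      have ht' : g⁻¹ * t * g ∈ T := by
        have := (hg (g⁻¹ * t * g)).2
        apply this
        have e : g * (g⁻¹ * t * g) * g⁻¹ = t := by group
        show g * (g⁻¹ * t * g) * g⁻¹ ∈ T
        rw [e]; exact ht
      have h := hccomm _ ht'
      rw [hcz] at h
      calc t * (g * z * g⁻¹) = g * ((g⁻¹ * t * g) * z) * g⁻¹ := by group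
        _ = g * (z * (g⁻¹ * t * g)) * g⁻¹ := by rw [h]
        _ = (g * z * g⁻¹) * t := by group
    have h3 : g * z * g⁻¹ = z := key _ h1 h2
    rw [Subgroup.mem_centralizer_iff]
    intro x hx
    rcases hZmem x hx with rfl | rfl
    · simp
    · have := congrArg (fun t => t * g) h3
      simpa [mul_assoc] using this.symm
  rw [eq_top_iff, ← hfrat, sup_comm]
  exact sup_le_sup_left hNT L

end Cfsg.Agent.S5433
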