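import Cfsg.Statements.S5434
import Mathlib
import Cfsg.Agent.Helper14.XS
import Cfsg.Agent.Helper14.Comm

set_option autoImplicit false
open Cfsg

namespace Cfsg.Agent.S5434

/-- Let Q be a large extraspecial 2-subgroup of the finite group G (extraspecial; centralizer equal to its centre; normal in the centralizer of its centre; normalizing no non-trivial subgroup of odd order), and A a non-trivial subgroup of odd order of the normalizer of Q. Then Q is the central product of the centralizer of A in Q and the commutator subgroup [Q, A] (they generate Q and commute elementwise), [Q, A] is extraspecial, and the centralizer of A in Q is either the centre of Q or extraspecial. -/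
theorem result {G : Type*} [Group G] [Finite G] (Q : Subgroup G) (hQ : Cfsg.IsLargeExtraspecial Q) (A : Subgroup G) (hA : A ≤ Subgroup.normalizer (Q : Set G)) (hAodd : Odd (Nat.card ↥A)) (hA1 : A ≠ ⊥) : (Q ⊓ Subgroup.centralizer (A : Set G)) ⊔ ⁅Q, A⁆ = Q ∧ (∀ x ∈ Q ⊓ Subgroup.centralizer (A : Set G), ∀ y ∈ ⁅Q, A⁆, x * y = y * x) ∧ Cfsg.IsExtraspecial 2 ↥⁅Q, A⁆ ∧ (Q ⊓ Subgroup.centralizer (A : Set G) = ((Subgroup.center ↥Q).map Q.subtype) ∨ Cfsg.IsExtraspecial 2 ↥(Q ⊓ Subgroup.centralizer (A : Set G))) := by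
  obtain ⟨hXS, hCQ, hCZ, hoddK⟩ := hQ
  obtain ⟨z, d, hZ⟩ := Cfsg.Agent.Helper14.XS.of_extraspecial Q hXS
  obtain ⟨hzQ, hz1, hzz, hcen, hcomm, hsqr, hrad⟩ := id d
  have hAz : ∀ a ∈ A, a * z = z * a := by
    intro a ha
    have hn := hA ha
    have hazQ : a * z * a⁻¹ ∈ Q := (Subgroup.mem_normalizer_iff.mp hn z).mp hzQ
    have hcent : ∀ x ∈ Q, x * (a * z * a⁻¹) = (a * z * a⁻¹) * x := by
      intro x hx
      have hx' : a⁻¹ * x * a ∈ Q := by
        have h := (Subgroup.mem_normalizer_iff.mp (Subgroup.inv_mem _ hn) x).mp hx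
        rw [inv_inv] at h
        exact h
      have h := hcen _ hx'
      calc x * (a * z * a⁻¹) = a * ((a⁻¹ * x * a) * z) * a⁻¹ := by group
        _ = a * (z * (a⁻¹ * x * a)) * a⁻¹ := by rw [h]
        _ = (a * z * a⁻¹) * x := by group
    rcases hrad _ hazQ hcent with h | h
    · exfalso; apply hz1
      have e : z = a⁻¹ * (a * z * a⁻¹) * a := by group
      rw [e, h]; group
    · calc a * z = (a * z * a⁻¹) * a := by group
        _ = z * a := by rw [h]
  have hD3 : ∃ a ∈ A, ∃ x ∈ Q, a * x ≠ x * a := by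
    by_contra hcon
    push_neg at hcon
    apply hA1
    rw [eq_bot_iff]
    intro a ha
    have hac : a ∈ Subgroup.centralizer (Q : Set G) := by
      rw [Subgroup.mem_centralizer_iff]
      intro x hx
      exact (hcon a ha x hx).symm
    rw [hCQ] at hac
    rcases (hZ a).mp hac with h | h
    · rw [Subgroup.mem_bot]; exact h
    · exfalso
      have hzA : z ∈ A := h ▸ ha
      have h2 : orderOf (⟨z, hzA⟩ : A) = 2 := by
        apply orderOf_eq_prime
        · apply Subtype.ext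
          show z ^ 2 = 1
          rw [pow_two, hzz]
        · intro h'; apply hz1; exact congrArg Subtype.val h'
      have hdvd : 2 ∣ Nat.card A := h2 ▸ orderOf_dvd_natCard _
      exact (Nat.not_even_iff_odd.mpr hAodd) (even_iff_two_dvd.mpr hdvd)
  have hRQ : ⁅Q, A⁆ ≤ Q := Cfsg.Agent.Helper14.commutator_le_left_of_le_normalizer Q A hA
  have hdec : ∀ x ∈ Q, ∃ r ∈ ⁅Q, A⁆, ∃ c ∈ Q ⊓ Subgroup.centralizer (A : Set G), x = r * c :=
    fun x hx => Cfsg.Agent.Helper14.XS.decomp d A hA hAodd hAz x hx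
  have hsup : (Q ⊓ Subgroup.centralizer (A : Set G)) ⊔ ⁅Q, A⁆ = Q := by
    apply le_antisymm
    · exact sup_le inf_le_left hRQ
    · intro x hx
      obtain ⟨r, hr, c, hc, rfl⟩ := hdec x hx
      exact Subgroup.mul_mem _ (Subgroup.mem_sup_right hr) (Subgroup.mem_sup_left hc)
  have hzCA : z ∈ Subgroup.centralizer (A : Set G) := by
    rw [Subgroup.mem_centralizer_iff]
    intro a ha
    exact hAz a ha
  have hD5 : ∀ x ∈ Q ⊓ Subgroup.centralizer (A : Set G), ∀ y ∈ ⁅Q, A⁆, x * y = y * x := by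
    have h1 : ⁅⁅A, Q ⊓ Subgroup.centralizer (A : Set G)⁆, Q⁆ = ⊥ := by
      have h : ⁅A, Q ⊓ Subgroup.centralizer (A : Set G)⁆ = ⊥ := by
        rw [Subgroup.commutator_comm, Subgroup.commutator_eq_bot_iff_le_centralizer]
        exact inf_le_right
      rw [h, Subgroup.commutator_bot_left]
    have h2 : ⁅⁅Q ⊓ Subgroup.centralizer (A : Set G), Q⁆, A⁆ = ⊥ := by
      rw [Subgroup.commutator_eq_bot_iff_le_centralizer, Subgroup.commutator_le]
      intro g₁ hg₁ g₂ hg₂
      rw [commutatorElement_def]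
      rcases hcomm g₁ hg₁.1 g₂ hg₂ with h | h
      · rw [h]; exact Subgroup.one_mem _
      · rw [h]; exact hzCA
    have h3 := Subgroup.commutator_commutator_eq_bot_of_rotate h1 h2
    rw [Subgroup.commutator_eq_bot_iff_le_centralizer] at h3
    intro x hx y hy
    exact (Subgroup.mem_centralizer_iff.mp (h3 hy)) x hx
  have hcentral : ∀ w : G, (∀ c ∈ Q ⊓ Subgroup.centralizer (A : Set G), c * w = w * c) →
      (∀ r ∈ ⁅Q, A⁆, r * w = w * r) → ∀ x ∈ Q, x * w = w * x := by
    intro w hwC hwR x hx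
    obtain ⟨r, hr, c, hc, rfl⟩ := hdec x hx
    calc r * c * w = r * (c * w) := by group
      _ = r * (w * c) := by rw [hwC c hc]
      _ = (r * w) * c := by group
      _ = (w * r) * c := by rw [hwR r hr]
      _ = w * (r * c) := by group
  -- R is nonabelian
  have hRnonab : ∃ a ∈ ⁅Q, A⁆, ∃ x ∈ ⁅Q, A⁆, a * x ≠ x * a := by
    by_contra hcon
    push_neg at hcon
    have hR2 : ∀ r ∈ ⁅Q, A⁆, r = 1 ∨ r = z := by
      intro r hr
      apply hrad r (hRQ hr)
      apply hcentral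
      · intro c hc; exact hD5 c hc r hr
      · intro r' hr'; exact hcon r' hr' r hr
    obtain ⟨a, ha, x, hx, hax⟩ := hD3
    apply hax
    have hfR : ∀ b ∈ A, b * x * b⁻¹ * x⁻¹ ∈ ⁅Q, A⁆ := by
      intro b hb
      have h := Subgroup.inv_mem _ (Subgroup.commutator_mem_commutator hx hb)
      rw [commutatorElement_def] at h
      have e : (x * b * x⁻¹ * b⁻¹)⁻¹ = b * x * b⁻¹ * x⁻¹ := by group
      rw [e] at h
      exact h
    have hf : ∀ b ∈ A, b * x * b⁻¹ * x⁻¹ = 1 ∨ b * x * b⁻¹ * x⁻¹ = z :=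
      fun b hb => hR2 _ (hfR b hb)
    have hmul : ∀ b ∈ A, ∀ b' ∈ A, (b * b') * x * (b * b')⁻¹ * x⁻¹ =
        (b * x * b⁻¹ * x⁻¹) * (b' * x * b'⁻¹ * x⁻¹) := by
      intro b hb b' hb'
      have hcm : b * (b' * x * b'⁻¹ * x⁻¹) = (b' * x * b'⁻¹ * x⁻¹) * b := by
        rcases hf b' hb' with h | h
        · rw [h, mul_one, one_mul]
        · rw [h]; exact hAz b hb
      have hcm2 : (b' * x * b'⁻¹ * x⁻¹) * (b * x * b⁻¹ * x⁻¹) =
          (b * x * b⁻¹ * x⁻¹) * (b' * x * b'⁻¹ * x⁻¹) := by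
        rcases hf b' hb' with h | h
        · rw [h, mul_one, one_mul]
        · rcases hf b hb with h' | h'
          · rw [h', mul_one, one_mul]
          · rw [h, h']
      calc (b * b') * x * (b * b')⁻¹ * x⁻¹
          = (b * (b' * x * b'⁻¹ * x⁻¹)) * x * b⁻¹ * x⁻¹ := by group
        _ = ((b' * x * b'⁻¹ * x⁻¹) * b) * x * b⁻¹ * x⁻¹ := by rw [hcm]
        _ = (b' * x * b'⁻¹ * x⁻¹) * (b * x * b⁻¹ * x⁻¹) := by group
        _ = _ := hcm2
    have h1 := Cfsg.Agent.Helper14.XS.odd_hom A hAodd z hzz (fun b => b * x * b⁻¹ * x⁻¹) hf hmul a ha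
    exact (Cfsg.Agent.Helper14.XS.comm_eq_one_iff a x).mp h1
  have hzR : z ∈ ⁅Q, A⁆ := by
    obtain ⟨a, ha, x, hx, hax⟩ := hRnonab
    have hm : a * x * a⁻¹ * x⁻¹ ∈ ⁅Q, A⁆ :=
      Subgroup.mul_mem _ (Subgroup.mul_mem _ (Subgroup.mul_mem _ ha hx) (Subgroup.inv_mem _ ha))
        (Subgroup.inv_mem _ hx)
    rcases hcomm a (hRQ ha) x (hRQ hx) with h | h
    · exact absurd ((Cfsg.Agent.Helper14.XS.comm_eq_one_iff a x).mp h) hax
    · rw [h] at hm; exact hm
  have dR : Cfsg.Agent.Helper14.XS.Data ⁅Q, A⁆ z := by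
    refine ⟨hzR, hz1, hzz, fun x hx => hcen x (hRQ hx),
      fun a ha x hx => hcomm a (hRQ ha) x (hRQ hx), fun x hx => hsqr x (hRQ hx), ?_⟩
    intro w hw hwc
    apply hrad w (hRQ hw)
    apply hcentral
    · intro c hc; exact hD5 c hc w hw
    · exact hwc
  have hzC : z ∈ Q ⊓ Subgroup.centralizer (A : Set G) := ⟨hzQ, hzCA⟩
  have hCrad : ∀ w ∈ Q ⊓ Subgroup.centralizer (A : Set G),
      (∀ x ∈ Q ⊓ Subgroup.centralizer (A : Set G), x * w = w * x) → w = 1 ∨ w = z := by
    intro w hw hwc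
    apply hrad w hw.1
    apply hcentral
    · exact hwc
    · intro r hr; exact (hD5 w hw r hr).symm
  refine ⟨hsup, hD5, Cfsg.Agent.Helper14.XS.to_extraspecial _ z dR hRnonab, ?_⟩
  by_cases hCab : ∃ a ∈ Q ⊓ Subgroup.centralizer (A : Set G),
      ∃ x ∈ Q ⊓ Subgroup.centralizer (A : Set G), a * x ≠ x * a
  · right
    have dC : Cfsg.Agent.Helper14.XS.Data (Q ⊓ Subgroup.centralizer (A : Set G)) z := by
      refine ⟨hzC, hz1, hzz, fun x hx => hcen x hx.1,
        fun a ha x hx => hcomm a ha.1 x hx.1, fun x hx => hsqr x hx.1, hCrad⟩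
    exact Cfsg.Agent.Helper14.XS.to_extraspecial _ z dC hCab
  · left
    push_neg at hCab
    ext g
    rw [hZ g]
    constructor
    · intro hg
      apply hCrad g hg
      intro x hx
      exact hCab x hx g hg
    · rintro (h | h)
      · rw [h]; exact Subgroup.one_mem _
      · rw [h]; exact hzC

end Cfsg.Agent.S5434
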