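import Mathlib
import Cfsg.Statements.S5436
import Cfsg.Agent.Helper26.SimpleXS
-- import your own Cfsg.Agent.* helpers here

set_option autoImplicit false
open Cfsg

namespace Cfsg.Agent.S5436

/-- Let z be an involution of the finite group G with centralizer H whose generalized Fitting subgroup Q is extraspecial of width at least 2 (order 2^(2w+1), w ≥ 2); suppose some conjugate of z other than z lies in Q, H/Q is a non-abelian simple group, H acts irreducibly by conjugation on Q modulo the subgroup generated by z (the only H-invariant subgroups of Q containing z are that subgroup and Q), and Q is not the subgroup generated by the conjugates of z lying in H. Then G is simple. -/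
theorem result {G : Type*} [Group G] [Finite G] (z : G) (hz : orderOf z = 2) (Q : Subgroup (Subgroup.centralizer ({z} : Set G))) [Q.Normal] (hF : Cfsg.generalizedFittingSubgroup ↥(Subgroup.centralizer ({z} : Set G)) = Q) (hQ : Cfsg.IsExtraspecial 2 ↥Q) (w : ℕ) (hw : 2 ≤ w) (hcard : Nat.card ↥Q = 2 ^ (2 * w + 1)) (hnwc : ∃ g : G, (∃ hq : g * z * g⁻¹ ∈ Subgroup.centralizer ({z} : Set G), (⟨g * z * g⁻¹, hq⟩ : Subgroup.centralizer ({z} : Set G)) ∈ Q) ∧ g * z * g⁻¹ ≠ z) (hsimp : IsSimpleGroup (↥(Subgroup.centralizer ({z} : Set G)) ⧸ Q)) (hna : ¬ IsMulCommutative (↥(Subgroup.centralizer ({z} : Set G)) ⧸ Q)) (hirr : ∀ W : Subgroup (Subgroup.centralizer ({z} : Set G)), W.Normal → W ≤ Q → (W = Q ∨ ∀ x ∈ W, (x : G) ∈ Subgroup.zpowers z)) (hwcl : Subgroup.closure {x : Subgroup.centralizer ({z} : Set G) | IsConj z (x : G)} ≠ Q) : IsSimpleGroup G := by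
  classical
  obtain ⟨Q', hQ'def⟩ : ∃ Q' : Subgroup G, Q' = Q.map (Subgroup.centralizer ({z} : Set G)).subtype := ⟨_, rfl⟩
  have hmemQ' : ∀ (c : G) (hc : c ∈ Subgroup.centralizer ({z} : Set G)), c ∈ Q' ↔ (⟨c, hc⟩ : Subgroup.centralizer ({z} : Set G)) ∈ Q := by
    intro c hc
    rw [hQ'def]
    constructor
    · intro h
      obtain ⟨y, hy, hyc⟩ := Subgroup.mem_map.mp h
      have e : y = ⟨c, hc⟩ := Subtype.ext hyc
      rw [← e]; exact hy
    · intro h
      exact Subgroup.mem_map.mpr ⟨_, h, rfl⟩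
  have hF' : (Cfsg.generalizedFittingSubgroup ↥(Subgroup.centralizer ({z} : Set G))).map (Subgroup.centralizer ({z} : Set G)).subtype = Q' := by rw [hF, hQ'def]
  have e : ↥Q ≃* ↥Q' := by
    rw [hQ'def]
    exact Subgroup.equivMapOfInjective Q _ Subtype.coe_injective
  have hQ' : Cfsg.IsExtraspecial 2 ↥Q' := Cfsg.Agent.Helper26.SimpleXS.isExtraspecial_of_mulEquiv e 2 hQ
  have hcard' : Nat.card ↥Q' = 2 ^ (2 * w + 1) := by
    rw [← hcard]; exact (Nat.card_congr e.toEquiv).symm
  obtain ⟨hLX, hcenter, hL2, hL3⟩ := Cfsg.Agent.Helper26.SimpleXS.setup z hz Q' hF' hQ'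
  have d := hLX.1
  obtain ⟨hzQ, hz1, hzz, hcen, -, -, -⟩ := d
  obtain ⟨g, ⟨hq, hgQ⟩, hgz⟩ := hnwc
  have hgQ' : g * z * g⁻¹ ∈ Q' := (hmemQ' _ hq).mpr hgQ
  have hlarge : Cfsg.IsLargeExtraspecial Q' :=
    Cfsg.Agent.Helper26.SimpleXS.large_of_conj hQ' hcenter hz1 hL2 hL3 w hw hcard' g hgQ' hgz
  obtain ⟨-, -, -, hodd⟩ := hlarge
  apply Cfsg.Agent.Helper26.SimpleXS.simple_of hLX hodd
  intro N hNn hzN c hc
  obtain ⟨W, hWdef⟩ : ∃ W : Subgroup (Subgroup.centralizer ({z} : Set G)), W = Subgroup.closure {x : Subgroup.centralizer ({z} : Set G) | IsConj z (x : G)} := ⟨_, rfl⟩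
  have hWN : ∀ x ∈ W, (x : G) ∈ N := by
    intro x hx
    rw [hWdef] at hx
    have hle : Subgroup.closure {x : Subgroup.centralizer ({z} : Set G) | IsConj z (x : G)} ≤ N.comap (Subgroup.centralizer ({z} : Set G)).subtype := by
      rw [Subgroup.closure_le]
      intro y hy
      obtain ⟨a, ha⟩ := isConj_iff.mp hy
      show (y : G) ∈ N
      rw [← ha]
      exact hNn.conj_mem z hzN a
    exact hle hx
  have hWn : W.Normal := by
    constructor
    intro n hn a
    rw [hWdef] at hn ⊢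
    refine Subgroup.closure_induction (p := fun n _ => a * n * a⁻¹ ∈ Subgroup.closure {x : Subgroup.centralizer ({z} : Set G) | IsConj z (x : G)}) ?_ ?_ ?_ ?_ hn
    · intro y hy
      apply Subgroup.subset_closure
      obtain ⟨b, hb⟩ := isConj_iff.mp hy
      apply isConj_iff.mpr
      refine ⟨(a : G) * b, ?_⟩
      show (a : G) * b * z * ((a : G) * b)⁻¹ = (a : G) * (y : G) * (a : G)⁻¹
      rw [← hb]; group
    · rw [mul_one, mul_inv_cancel]; exact Subgroup.one_mem _
    · intro x y _ _ hx hy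
      have e1 : a * (x * y) * a⁻¹ = (a * x * a⁻¹) * (a * y * a⁻¹) := by group
      rw [e1]; exact Subgroup.mul_mem _ hx hy
    · intro x _ hx
      have e1 : a * x⁻¹ * a⁻¹ = (a * x * a⁻¹)⁻¹ := by group
      rw [e1]; exact Subgroup.inv_mem _ hx
  haveI := hWn
  have hWQ : (W ⊓ Q).Normal := inferInstance
  have hzpow : ∀ x : G, x ∈ Subgroup.zpowers z → x = 1 ∨ x = z := by
    intro x hx
    obtain ⟨k, hk⟩ := Subgroup.mem_zpowers_iff.mp hx
    rcases Int.even_or_odd' k with ⟨m, hm | hm⟩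
    · left; rw [← hk, hm, zpow_mul, zpow_two, hzz, one_zpow]
    · right; rw [← hk, hm, zpow_add, zpow_mul, zpow_two, hzz, one_zpow, one_mul, zpow_one]
  have hQW : Q ≤ W := by
    rcases hirr (W ⊓ Q) hWQ inf_le_right with h | h
    · rw [← h]; exact inf_le_left
    · exfalso
      have hxW : (⟨g * z * g⁻¹, hq⟩ : Subgroup.centralizer ({z} : Set G)) ∈ W := by
        rw [hWdef]
        apply Subgroup.subset_closure
        exact isConj_iff.mpr ⟨g, rfl⟩
      rcases hzpow (g * z * g⁻¹) (h _ (Subgroup.mem_inf.mpr ⟨hxW, hgQ⟩)) with h1 | h1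
      · apply hz1
        have e1 : z = g⁻¹ * (g * z * g⁻¹) * g := by group
        rw [e1, h1]; group
      · exact hgz h1
  have hWtop : W = ⊤ := by
    have hmapn : (W.map (QuotientGroup.mk' Q)).Normal :=
      hWn.map (QuotientGroup.mk' Q) (QuotientGroup.mk'_surjective Q)
    rcases hsimp.eq_bot_or_eq_top_of_normal _ hmapn with h | h
    · exfalso
      apply hwcl
      rw [← hWdef]
      apply le_antisymm _ hQW
      have h2 := (Subgroup.map_eq_bot_iff _).mp h
      rw [QuotientGroup.ker_mk'] at h2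
      exact h2
    · have h2 := Subgroup.comap_map_eq (QuotientGroup.mk' Q) W
      rw [h, Subgroup.comap_top, QuotientGroup.ker_mk', sup_of_le_left hQW] at h2
      exact h2.symm
  have hcW : (⟨c, Cfsg.Agent.Helper26.LargeXS2.mem_cz.mpr hc⟩ : Subgroup.centralizer ({z} : Set G)) ∈ W := by
    rw [hWtop]; exact Subgroup.mem_top _
  exact hWN _ hcW

end Cfsg.Agent.S5436
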