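import Cfsg.Statements.S5437

set_option autoImplicit false
open Cfsg

namespace Cfsg.Agent.S5437

theorem mem_map_conj_iff {G : Type*} [Group G] (H : Subgroup G) (g x : G) :
    x ∈ (H : Subgroup G).map (MulAut.conj g).toMonoidHom ↔ g⁻¹ * x * g ∈ H := by
  constructor
  · rintro ⟨h, hh, rfl⟩
    simpa [MulAut.conj_apply, mul_assoc] using hh
  · intro h
    refine ⟨g⁻¹ * x * g, h, ?_⟩
    simp [MulAut.conj_apply, mul_assoc]

theorem smul_mk_eq_iff {G : Type*} [Group G] (H : Subgroup G) (g x : G) :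
    x • (QuotientGroup.mk g : G ⧸ H) = QuotientGroup.mk g ↔ g⁻¹ * x * g ∈ H := by
  rw [MulAction.Quotient.smul_mk, QuotientGroup.eq]
  constructor
  · intro h
    have := H.inv_mem h
    simpa [mul_assoc] using this
  · intro h
    have := H.inv_mem h
    simpa [mul_assoc] using this

/-- Let I be a set of involutions of the finite group G closed under conjugation, and H a subgroup of G. The following are equivalent: (1) for every member x of I lying in H, the conjugates of x lying in H form a single H-class and the centralizer of x lies in H; (2) for every g outside H, no member of I lies in both H and g H g⁻¹; (3) every member of I lying in H fixes exactly one coset in the action of G on the cosets of H. -/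
theorem result {G : Type*} [Group G] [Finite G] (I : Set G) (hI : ∀ x ∈ I, orderOf x = 2) (hIc : ∀ g : G, ∀ x ∈ I, g * x * g⁻¹ ∈ I) (H : Subgroup G) : ((∀ x ∈ I, x ∈ H → (∀ g : G, g * x * g⁻¹ ∈ H → ∃ h ∈ H, h * x * h⁻¹ = g * x * g⁻¹) ∧ Subgroup.centralizer ({x} : Set G) ≤ H) ↔ (∀ g : G, g ∉ H → ∀ x ∈ I, ¬ (x ∈ H ∧ x ∈ (H : Subgroup G).map (MulAut.conj g).toMonoidHom))) ∧ ((∀ g : G, g ∉ H → ∀ x ∈ I, ¬ (x ∈ H ∧ x ∈ (H : Subgroup G).map (MulAut.conj g).toMonoidHom)) ↔ ∀ x ∈ I, x ∈ H → ∃! c : G ⧸ H, x • c = c) := by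
  refine ⟨⟨?_, ?_⟩, ⟨?_, ?_⟩⟩
  · -- (1) → (2)
    intro h1 g hg x hx ⟨hxH, hxg⟩
    rw [mem_map_conj_iff] at hxg
    -- y = g⁻¹ x g ∈ I ∩ H
    have hyI : g⁻¹ * x * g ∈ I := by
      have := hIc g⁻¹ x hx
      simpa using this
    obtain ⟨hconj, hcent⟩ := h1 _ hyI hxg
    have hx' : g * (g⁻¹ * x * g) * g⁻¹ = x := by group
    obtain ⟨h, hh, hhx⟩ := hconj g (by rw [hx']; exact hxH)
    -- g⁻¹ h centralizes y
    have hc : g⁻¹ * h ∈ Subgroup.centralizer ({g⁻¹ * x * g} : Set G) := by
      rw [Subgroup.mem_centralizer_iff]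
      intro y hy
      rw [Set.mem_singleton_iff] at hy
      subst hy
      have e1 : h * (g⁻¹ * x * g) = g * (g⁻¹ * x * g) * g⁻¹ * h := by
        rw [← hhx]; group
      calc g⁻¹ * x * g * (g⁻¹ * h) = g⁻¹ * (g * (g⁻¹ * x * g) * g⁻¹ * h) := by group
        _ = g⁻¹ * (h * (g⁻¹ * x * g)) := by rw [← e1]
        _ = g⁻¹ * h * (g⁻¹ * x * g) := by group
    have hmem : g⁻¹ * h ∈ H := hcent hc
    apply hg
    have : g = h * (g⁻¹ * h)⁻¹ := by group
    rw [this]
    exact H.mul_mem hh (H.inv_mem hmem)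
  · -- (2) → (1)
    intro h2 x hx hxH
    refine ⟨?_, ?_⟩
    · intro g hgx
      refine ⟨g, ?_, rfl⟩
      by_contra hg
      apply h2 g hg (g * x * g⁻¹) (hIc g x hx)
      refine ⟨hgx, ?_⟩
      rw [mem_map_conj_iff]
      have : g⁻¹ * (g * x * g⁻¹) * g = x := by group
      rw [this]; exact hxH
    · intro c hc
      by_contra hcH
      apply h2 c hcH x hx
      refine ⟨hxH, ?_⟩
      rw [mem_map_conj_iff]
      rw [Subgroup.mem_centralizer_iff] at hc
      have := hc x (Set.mem_singleton x)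
      have e : c⁻¹ * x * c = x := by
        calc c⁻¹ * x * c = c⁻¹ * (x * c) := by group
          _ = c⁻¹ * (c * x) := by rw [this]
          _ = x := by group
      rw [e]; exact hxH
  · -- (2) → (3)
    intro h2 x hx hxH
    refine ⟨QuotientGroup.mk 1, ?_, ?_⟩
    · show x • (QuotientGroup.mk 1 : G ⧸ H) = QuotientGroup.mk 1
      rw [smul_mk_eq_iff]; simpa using hxH
    · intro c hc
      induction c using QuotientGroup.induction_on with
      | H g =>
        have hc' : x • (QuotientGroup.mk g : G ⧸ H) = QuotientGroup.mk g := hc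
        rw [smul_mk_eq_iff] at hc'
        by_contra hne
        have hg : g ∉ H := by
          intro hgH
          apply hne
          rw [QuotientGroup.eq]
          simpa using hgH
        apply h2 g hg x hx
        exact ⟨hxH, (mem_map_conj_iff H g x).2 hc'⟩
  · -- (3) → (2)
    intro h3 g hg x hx ⟨hxH, hxg⟩
    rw [mem_map_conj_iff] at hxg
    obtain ⟨c, hc, huniq⟩ := h3 x hx hxH
    have h1 : (QuotientGroup.mk 1 : G ⧸ H) = c := by
      apply huniq
      show x • (QuotientGroup.mk 1 : G ⧸ H) = QuotientGroup.mk 1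
      rw [smul_mk_eq_iff]; simpa using hxH
    have h2 : (QuotientGroup.mk g : G ⧸ H) = c := by
      apply huniq
      show x • (QuotientGroup.mk g : G ⧸ H) = QuotientGroup.mk g
      rw [smul_mk_eq_iff]; exact hxg
    have : (QuotientGroup.mk 1 : G ⧸ H) = QuotientGroup.mk g := h1.trans h2.symm
    rw [QuotientGroup.eq] at this
    apply hg
    simpa using this

end Cfsg.Agent.S5437
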