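import Cfsg.Statements.S5438

set_option autoImplicit false
open Cfsg

namespace Cfsg.Agent.S5438

lemma exists_conj_mem_sylow {K : Type*} [Group K] [Finite K] (P : Sylow 2 K) (y : K)
    (hy : ∃ k : ℕ, orderOf y = 2 ^ k) : ∃ h : K, h⁻¹ * y * h ∈ P := by
  haveI : Fact (Nat.Prime 2) := ⟨Nat.prime_two⟩
  obtain ⟨k, hk⟩ := hy
  have hT : IsPGroup 2 (Subgroup.zpowers y) := by
    refine IsPGroup.of_card (n := k) ?_
    rw [Nat.card_zpowers, hk]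
  obtain ⟨Q, hQ⟩ := hT.exists_le_sylow
  obtain ⟨h, rfl⟩ := MulAction.exists_smul_eq K P Q
  have h1 : y ∈ ((h • P : Sylow 2 K) : Subgroup K) := hQ (Subgroup.mem_zpowers y)
  rw [Sylow.smul_def, Sylow.pointwise_smul_def, Subgroup.mem_pointwise_smul_iff_inv_smul_mem] at h1
  refine ⟨h, ?_⟩
  have h2 : h⁻¹ * y * h ∈ (P : Subgroup K) := by simpa [MulAut.smul_def] using h1
  exact h2


/-- Let z be a 2-central involution of the finite group G (an involution central in some Sylow 2-subgroup) and H a subgroup containing z such that the coset H is the only coset of H fixed by z (in the action of G on the cosets of H). Then H has odd index in G, and for every 2-element x of H the conjugates of x lying in H form a single H-class. -/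
theorem result {G : Type*} [Group G] [Finite G] (z : G) (hz : Cfsg.IsTwoCentralInvolution z) (H : Subgroup G) (hzH : z ∈ H) (hfix : ∀ g : G, g⁻¹ * z * g ∈ H → g ∈ H) : Odd H.index ∧ ∀ x ∈ H, (∃ k : ℕ, orderOf x = 2 ^ k) → ∀ g : G, g * x * g⁻¹ ∈ H → ∃ h ∈ H, h * x * h⁻¹ = g * x * g⁻¹ := by
  haveI : Fact (Nat.Prime 2) := ⟨Nat.prime_two⟩
  obtain ⟨hz2, P, hzP, hzc⟩ := hz
  have hPH : (P : Subgroup G) ≤ H := by
    intro g hg
    apply hfix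
    have h1 := hzc g hg
    have e : g⁻¹ * z * g = z := by
      rw [mul_assoc, ← h1]; group
    rw [e]; exact hzH
  have hodd : Odd H.index := by
    rw [← Nat.not_even_iff_odd, even_iff_two_dvd]
    intro h
    exact P.not_dvd_index (dvd_trans h (Subgroup.index_dvd_of_le hPH))
  refine ⟨hodd, ?_⟩
  have hA : ∀ y ∈ H, (∃ k : ℕ, orderOf y = 2 ^ k) →
      ∃ h ∈ H, y * (h * z * h⁻¹) = (h * z * h⁻¹) * y := by
    intro y hy hk
    have hy' : ∃ k : ℕ, orderOf (⟨y, hy⟩ : H) = 2 ^ k := by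
      obtain ⟨k, hk⟩ := hk
      exact ⟨k, by rw [← hk]; exact Subgroup.orderOf_mk y hy⟩
    obtain ⟨h, hh⟩ := exists_conj_mem_sylow (P.subtype hPH) ⟨y, hy⟩ hy'
    have hh' : (h : G)⁻¹ * y * h ∈ (P : Subgroup G) := by
      have h2 : h⁻¹ * ⟨y, hy⟩ * h ∈ ((P.subtype hPH : Sylow 2 H) : Subgroup H) := hh
      rw [Sylow.coe_subtype, Subgroup.mem_subgroupOf] at h2
      simpa using h2
    refine ⟨h, h.2, ?_⟩
    have h3 := hzc _ hh'
    calc y * (h * z * (h : G)⁻¹) = h * (((h : G)⁻¹ * y * h) * z) * (h : G)⁻¹ := by group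
      _ = h * (z * ((h : G)⁻¹ * y * h)) * (h : G)⁻¹ := by rw [h3]
      _ = _ := by group
  have hB : ∀ (b h a : G), h ∈ H → a⁻¹ * (b * (h * z * h⁻¹) * b⁻¹) * a ∈ H → b⁻¹ * a ∈ H := by
    intro b h a hh ha
    have e : a⁻¹ * (b * (h * z * h⁻¹) * b⁻¹) * a = (h⁻¹ * b⁻¹ * a)⁻¹ * z * (h⁻¹ * b⁻¹ * a) := by
      group
    rw [e] at ha
    have h1 := hfix _ ha
    have e2 : b⁻¹ * a = h * (h⁻¹ * b⁻¹ * a) := by group
    rw [e2]
    exact H.mul_mem hh h1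
  intro x hx hxk g hgx
  obtain ⟨h1, hh1, hc1⟩ := hA x hx hxk
  have hx'k : ∃ k : ℕ, orderOf (g * x * g⁻¹) = 2 ^ k := by
    obtain ⟨k, hk⟩ := hxk
    refine ⟨k, ?_⟩
    rw [← hk]
    exact (MulAut.conj g).orderOf_eq x
  obtain ⟨h2, hh2, hc2⟩ := hA (g * x * g⁻¹) hgx hx'k
  set x' : G := g * x * g⁻¹ with hx'
  set C : Subgroup G := Subgroup.centralizer ({x'} : Set G) with hC
  have hzo : ∀ a : G, orderOf (a * z * a⁻¹) = 2 ^ 1 := by
    intro a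
    rw [pow_one, ← hz2]
    exact (MulAut.conj a).orderOf_eq z
  have hm2 : h2 * z * h2⁻¹ ∈ C := by
    rw [hC, Subgroup.mem_centralizer_singleton_iff]
    exact hc2.symm
  have hm1 : g * (h1 * z * h1⁻¹) * g⁻¹ ∈ C := by
    rw [hC, Subgroup.mem_centralizer_singleton_iff]
    calc g * (h1 * z * h1⁻¹) * g⁻¹ * x' = g * ((h1 * z * h1⁻¹) * x) * g⁻¹ := by
          rw [hx']; group
      _ = g * (x * (h1 * z * h1⁻¹)) * g⁻¹ := by rw [hc1]
      _ = _ := by rw [hx']; group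
  obtain ⟨S⟩ := (Sylow.nonempty : Nonempty (Sylow 2 C))
  have ho2 : ∃ k : ℕ, orderOf (⟨h2 * z * h2⁻¹, hm2⟩ : C) = 2 ^ k :=
    ⟨1, by rw [Subgroup.orderOf_mk]; exact hzo h2⟩
  have ho1 : ∃ k : ℕ, orderOf (⟨g * (h1 * z * h1⁻¹) * g⁻¹, hm1⟩ : C) = 2 ^ k := by
    refine ⟨1, ?_⟩
    rw [Subgroup.orderOf_mk]
    have e : g * (h1 * z * h1⁻¹) * g⁻¹ = (g * h1) * z * (g * h1)⁻¹ := by group
    rw [e]; exact hzo _
  obtain ⟨c1, hc1S⟩ := exists_conj_mem_sylow S _ ho2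
  obtain ⟨c2, hc2S⟩ := exists_conj_mem_sylow S _ ho1
  set T : Subgroup G := (S : Subgroup C).map C.subtype with hT
  have hTP : IsPGroup 2 T := S.2.map _
  have hnd : ¬ 2 ∣ Nat.card (G ⧸ H) := by
    intro h
    have : Even H.index := even_iff_two_dvd.mpr h
    exact (Nat.not_even_iff_odd.mpr hodd) this
  obtain ⟨w, hw⟩ := hTP.nonempty_fixed_point_of_prime_not_dvd_card (G ⧸ H) hnd
  obtain ⟨a, rfl⟩ := QuotientGroup.mk_surjective w
  have hfixa : ∀ t ∈ T, a⁻¹ * t * a ∈ H := by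
    intro t ht
    have h3 := hw ⟨t, ht⟩
    have h4 : ((t * a : G) : G ⧸ H) = (a : G ⧸ H) := h3
    have h5 := QuotientGroup.eq.mp h4.symm
    simpa [mul_assoc] using h5
  have ht1 : (c1 : G)⁻¹ * (h2 * z * h2⁻¹) * c1 ∈ T := ⟨_, hc1S, by simp⟩
  have ht2 : (c2 : G)⁻¹ * (g * (h1 * z * h1⁻¹) * g⁻¹) * c2 ∈ T := ⟨_, hc2S, by simp⟩
  have hk1 := hfixa _ ht1
  have hk2 := hfixa _ ht2
  have e1 : a⁻¹ * ((c1 : G)⁻¹ * (h2 * z * h2⁻¹) * c1) * a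
      = a⁻¹ * ((c1 : G)⁻¹ * (h2 * z * h2⁻¹) * ((c1 : G)⁻¹)⁻¹) * a := by group
  have e2 : a⁻¹ * ((c2 : G)⁻¹ * (g * (h1 * z * h1⁻¹) * g⁻¹) * c2) * a
      = a⁻¹ * (((c2 : G)⁻¹ * g) * (h1 * z * h1⁻¹) * ((c2 : G)⁻¹ * g)⁻¹) * a := by group
  rw [e1] at hk1
  rw [e2] at hk2
  have hm1' := hB _ _ _ hh2 hk1
  have hm2' := hB _ _ _ hh1 hk2
  have hmem : (c1 : G) * (c2 : G)⁻¹ * g ∈ H := by
    have e3 : (c1 : G) * (c2 : G)⁻¹ * g = (((c1 : G)⁻¹)⁻¹ * a) * (((c2 : G)⁻¹ * g)⁻¹ * a)⁻¹ := by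
      group
    rw [e3]
    exact H.mul_mem hm1' (H.inv_mem hm2')
  refine ⟨_, hmem, ?_⟩
  have hcc1 : (c1 : G) * x' = x' * c1 := Subgroup.mem_centralizer_singleton_iff.mp c1.2
  have hcc2 : (c2 : G) * x' = x' * c2 := Subgroup.mem_centralizer_singleton_iff.mp c2.2
  have hcc2' : (c2 : G)⁻¹ * x' = x' * (c2 : G)⁻¹ := by
    calc (c2 : G)⁻¹ * x' = (c2 : G)⁻¹ * (x' * c2) * (c2 : G)⁻¹ := by group
      _ = (c2 : G)⁻¹ * (c2 * x') * (c2 : G)⁻¹ := by rw [hcc2]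
      _ = _ := by group
  calc (c1 : G) * (c2 : G)⁻¹ * g * x * ((c1 : G) * (c2 : G)⁻¹ * g)⁻¹
      = (c1 : G) * ((c2 : G)⁻¹ * x') * c2 * (c1 : G)⁻¹ := by rw [hx']; group
    _ = (c1 : G) * (x' * (c2 : G)⁻¹) * c2 * (c1 : G)⁻¹ := by rw [hcc2']
    _ = ((c1 : G) * x') * (c1 : G)⁻¹ := by group
    _ = (x' * c1) * (c1 : G)⁻¹ := by rw [hcc1]
    _ = x' := by group

end Cfsg.Agent.S5438
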