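import Cfsg.Statements.S5439
-- import your own Cfsg.Agent.* helpers here

set_option autoImplicit false
open Cfsg

namespace Cfsg.Agent.S5439

/-- Let I and J be two different conjugacy classes of involutions of the finite group G and H a subgroup such that every member of I ∪ J fixes exactly one coset in the action on the cosets of H, and such that for every a in I ∩ H and every b in (I ∪ J) ∩ H different from a and commuting with it, the centralizer of a b lies in H. Then H = G. -/
theorem result {G : Type*} [Group G] [Finite G] (I J : Set G) (a₀ b₀ : G) (ha₀ : orderOf a₀ = 2) (hb₀ : orderOf b₀ = 2) (hI : I = {x | IsConj a₀ x}) (hJ : J = {x | IsConj b₀ x}) (hIJ : I ≠ J) (H : Subgroup G) (hfix : ∀ x ∈ I ∪ J, ∃! c : G ⧸ H, x • c = c) (hcent : ∀ a ∈ I, a ∈ H → ∀ b ∈ I ∪ J, b ∈ H → a ≠ b → a * b = b * a → Subgroup.centralizer ({a * b} : Set G) ≤ H) : H = ⊤ := by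
  have hinv : ∀ c₀ : G, orderOf c₀ = 2 → ∀ t : G, IsConj c₀ t → t * t = 1 := by
    intro c₀ hc₀ t ht
    obtain ⟨c, rfl⟩ := isConj_iff.mp ht
    have h0 : c₀ * c₀ = 1 := by rw [← pow_two, ← hc₀]; exact pow_orderOf_eq_one _
    calc c * c₀ * c⁻¹ * (c * c₀ * c⁻¹) = c * (c₀ * c₀) * c⁻¹ := by group
      _ = 1 := by rw [h0]; group
  have hinvI : ∀ t ∈ I, t * t = 1 := by
    intro t ht
    rw [hI] at ht
    exact hinv a₀ ha₀ t ht
  have hinvJ : ∀ t ∈ J, t * t = 1 := by
    intro t ht
    rw [hJ] at ht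
    exact hinv b₀ hb₀ t ht
  have hconjI : ∀ t ∈ I, ∀ c : G, c * t * c⁻¹ ∈ I := by
    intro t ht c
    rw [hI] at ht ⊢
    exact IsConj.trans ht (isConj_iff.mpr ⟨c, rfl⟩)
  have hconjJ : ∀ t ∈ J, ∀ c : G, c * t * c⁻¹ ∈ J := by
    intro t ht c
    rw [hJ] at ht ⊢
    exact IsConj.trans ht (isConj_iff.mpr ⟨c, rfl⟩)
  have hdisj : ∀ t, t ∈ I → t ∈ J → False := by
    intro t htI htJ
    apply hIJ
    rw [hI] at htI
    rw [hJ] at htJ
    rw [hI, hJ]
    ext y
    constructor
    · intro hy; exact (IsConj.trans htJ (IsConj.symm htI)).trans hy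
    · intro hy; exact (IsConj.trans htI (IsConj.symm htJ)).trans hy
  have hfixH : ∀ t ∈ I ∪ J, t ∈ H → ∀ g : G, t • (g : G ⧸ H) = (g : G ⧸ H) → g ∈ H := by
    intro t ht htH g hg
    have h1 : t • ((1 : G) : G ⧸ H) = ((1 : G) : G ⧸ H) := by
      show ((t * 1 : G) : G ⧸ H) = _
      rw [QuotientGroup.eq]
      simpa using htH
    have h2 := (hfix t ht).unique h1 hg
    have h3 := QuotientGroup.eq.mp h2
    simpa using h3
  obtain ⟨a, haI, haH⟩ : ∃ a, a ∈ I ∧ a ∈ H := by
    have ha₀I : a₀ ∈ I := by rw [hI]; exact IsConj.refl a₀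
    obtain ⟨c, hc, -⟩ := hfix a₀ (Or.inl ha₀I)
    obtain ⟨g, rfl⟩ := QuotientGroup.mk_surjective c
    have h1 : ((g : G) : G ⧸ H) = ((a₀ * g : G) : G ⧸ H) := hc.symm
    have h2 := QuotientGroup.eq.mp h1
    refine ⟨g⁻¹ * a₀ * g, ?_, ?_⟩
    · have := hconjI a₀ ha₀I g⁻¹
      simpa using this
    · simpa [mul_assoc] using h2
  have haa : a * a = 1 := hinvI a haI
  have hJH : ∀ b ∈ J, b ∈ H := by
    intro b hbJ
    have hbb : b * b = 1 := hinvJ b hbJ
    obtain ⟨r, hr⟩ : ∃ r : G, r = b * a := ⟨_, rfl⟩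
    have hainv : a⁻¹ = a := inv_eq_of_mul_eq_one_left haa
    have hbinv : b⁻¹ = b := inv_eq_of_mul_eq_one_left hbb
    have hrinv : r⁻¹ = a * b := by rw [hr, mul_inv_rev, hainv, hbinv]
    have hsa : SemiconjBy a r r⁻¹ := by
      show a * r = r⁻¹ * a
      rw [hrinv, hr, mul_assoc]
    have hsb : SemiconjBy b r r⁻¹ := by
      show b * r = r⁻¹ * b
      rw [hrinv, hr, ← mul_assoc, hbb, one_mul, mul_assoc, hbb, mul_one]
    have hra : r * a = b := by rw [hr, mul_assoc, haa, mul_one]
    have hpowa : ∀ j : ℕ, a * (r ^ j)⁻¹ = r ^ j * a := by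
      intro j
      have h2 := (hsa.pow_right j).inv_right
      rw [inv_pow, inv_inv] at h2
      exact h2.eq
    have hpowb : ∀ j : ℕ, b * (r ^ j)⁻¹ = r ^ j * b := by
      intro j
      have h2 := (hsb.pow_right j).inv_right
      rw [inv_pow, inv_inv] at h2
      exact h2.eq
    have hn : 0 < orderOf r := orderOf_pos r
    rcases Nat.even_or_odd (orderOf r) with ⟨m, hm⟩ | ⟨k, hk⟩
    · have hm0 : m ≠ 0 := by
        rintro rfl
        omega
      have hrm2 : r ^ m * r ^ m = 1 := by rw [← pow_add, ← hm]; exact pow_orderOf_eq_one r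
      obtain ⟨u, hu⟩ : ∃ u : G, u = r ^ m := ⟨_, rfl⟩
      have hu1 : u ≠ 1 := by
        rw [hu]
        exact pow_ne_one_of_lt_orderOf hm0 (by omega)
      have huinv : u⁻¹ = u := by rw [hu]; exact inv_eq_of_mul_eq_one_left hrm2
      have hua : a * u = u * a := by
        have h3 := hpowa m
        rw [← hu, huinv] at h3
        exact h3
      have hub : b * u = u * b := by
        have h3 := hpowb m
        rw [← hu, huinv] at h3
        exact h3
      have ha'IJ : u * a ∈ I ∪ J := by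
        rcases Nat.even_or_odd m with ⟨j, hj⟩ | ⟨j, hj⟩
        · left
          have h1 : u * a = r ^ j * a * (r ^ j)⁻¹ := by
            rw [mul_assoc, hpowa j, ← mul_assoc, ← pow_add, ← hj, hu]
          rw [h1]; exact hconjI a haI _
        · right
          have h1 : u * a = r ^ j * b * (r ^ j)⁻¹ := by
            rw [mul_assoc, hpowb j, ← mul_assoc, ← pow_add, ← hra, ← mul_assoc, ← pow_succ, hu, hj]
            congr 2
            omega
          rw [h1]; exact hconjJ b hbJ _
      have ha'ne : a ≠ u * a := by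
        intro h
        apply hu1
        have h4 := congrArg (· * a⁻¹) h
        simpa using h4.symm
      have ha'comm : a * (u * a) = (u * a) * a := by rw [← mul_assoc, hua]
      have ha'H : u * a ∈ H := by
        apply hfixH a (Or.inl haI) haH
        show ((a * (u * a) : G) : G ⧸ H) = ((u * a : G) : G ⧸ H)
        rw [QuotientGroup.eq]
        have e : (a * (u * a))⁻¹ * (u * a) = a⁻¹ := by rw [ha'comm]; group
        rw [e]; exact H.inv_mem haH
      have hc := hcent a haI haH (u * a) ha'IJ ha'H ha'ne ha'comm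
      have hau : a * (u * a) = u := by rw [ha'comm, mul_assoc, haa, mul_one]
      rw [hau] at hc
      apply hc
      rw [Subgroup.mem_centralizer_singleton_iff]
      exact hub
    · exfalso
      have hrk : r ^ (2 * k + 1) = 1 := by rw [← hk]; exact pow_orderOf_eq_one r
      have hconj : r ^ (k + 1) * a * (r ^ (k + 1))⁻¹ = b := by
        rw [mul_assoc, hpowa (k + 1), ← mul_assoc, ← pow_add]
        have h0 : k + 1 + (k + 1) = (2 * k + 1) + 1 := by ring
        rw [h0, pow_succ, hrk, one_mul, hra]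
      have hbI : b ∈ I := by rw [← hconj]; exact hconjI a haI _
      exact hdisj b hbI hbJ
  rw [eq_top_iff]
  intro g _
  have hb₀J : b₀ ∈ J := by rw [hJ]; exact IsConj.refl b₀
  apply hfixH b₀ (Or.inr hb₀J) (hJH b₀ hb₀J) g
  show ((b₀ * g : G) : G ⧸ H) = ((g : G) : G ⧸ H)
  rw [eq_comm, QuotientGroup.eq]
  have h5 := hJH _ (hconjJ b₀ hb₀J g⁻¹)
  simpa [mul_assoc] using h5

end Cfsg.Agent.S5439
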