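import Cfsg.Statements.S5459
-- import your own Cfsg.Agent.* helpers here

set_option autoImplicit false
open Cfsg

namespace Cfsg.Agent.S5459

section aux
variable {G : Type*} [Group G]

/-- the basic step relation: two commuting members of `D`. -/
def step (D : Set G) (x y : G) : Prop := x ∈ D ∧ y ∈ D ∧ x * y = y * x

/-- reachability in the commuting graph, phrased on elements of the group. -/
def Reach (D : Set G) (a b : G) : Prop := Relation.ReflTransGen (step D) a b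

lemma reach_of_connected (D : Set G) (h : (Cfsg.commutingGraph D).Connected) :
    ∀ a ∈ D, ∀ b ∈ D, Reach D a b := by
  intro a ha b hb
  have h1 := h.preconnected ⟨a, ha⟩ ⟨b, hb⟩
  rw [SimpleGraph.reachable_iff_reflTransGen] at h1
  have hstep : ∀ x y : D, (Cfsg.commutingGraph D).Adj x y → step D (x : G) (y : G) := by
    intro x y hxy
    have h2 : x ≠ y ∧ (Commute (x : G) y ∨ Commute (y : G) x) := hxy
    refine ⟨x.2, y.2, ?_⟩
    rcases h2.2 with h3 | h3
    · exact h3.eq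
    · exact h3.eq.symm
  exact Relation.ReflTransGen.lift (fun x : D => (x : G)) hstep _ _ h1

lemma reachable_of_reach (D : Set G) (a b : G) (h : Reach D a b) :
    ∀ ha : a ∈ D, ∃ hb : b ∈ D, (Cfsg.commutingGraph D).Reachable ⟨a, ha⟩ ⟨b, hb⟩ := by
  intro ha
  induction h with
  | refl => exact ⟨ha, SimpleGraph.Reachable.refl _⟩
  | @tail y z _ hyz ih =>
    obtain ⟨hy, hr⟩ := ih
    by_cases hyz' : y = z
    · subst hyz'
      exact ⟨hy, hr⟩
    · refine ⟨hyz.2.1, hr.trans (SimpleGraph.Adj.reachable ?_)⟩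
      show (SimpleGraph.fromRel _).Adj _ _
      rw [SimpleGraph.fromRel_adj]
      exact ⟨fun h => hyz' (congrArg Subtype.val h), Or.inl hyz.2.2⟩

lemma connected_of_reach (D : Set G) (hne : D.Nonempty) (h : ∀ a ∈ D, ∀ b ∈ D, Reach D a b) :
    (Cfsg.commutingGraph D).Connected := by
  obtain ⟨a₀, ha₀⟩ := hne
  haveI : Nonempty D := ⟨⟨a₀, ha₀⟩⟩
  refine ⟨fun u v => ?_⟩
  obtain ⟨_, hr⟩ := reachable_of_reach D u.1 v.1 (h _ u.2 _ v.2) u.2
  exact hr

lemma reach_conj (D : Set G) (hD : ∀ x ∈ D, ∀ g : G, g * x * g⁻¹ ∈ D) (g : G) (a b : G)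
    (h : Reach D a b) : Reach D (g * a * g⁻¹) (g * b * g⁻¹) := by
  have hstep : ∀ x y : G, step D x y → step D (g * x * g⁻¹) (g * y * g⁻¹) := by
    intro x y hxy
    refine ⟨hD x hxy.1 g, hD y hxy.2.1 g, ?_⟩
    calc g * x * g⁻¹ * (g * y * g⁻¹) = g * (x * y) * g⁻¹ := by group
      _ = g * (y * x) * g⁻¹ := by rw [hxy.2.2]
      _ = _ := by group
  exact Relation.ReflTransGen.lift (fun x => g * x * g⁻¹) hstep _ _ h

lemma reach_symm (D : Set G) (a b : G) (h : Reach D a b) : Reach D b a := by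
  induction h with
  | refl => exact Relation.ReflTransGen.refl
  | tail _ hyz ih =>
    exact Relation.ReflTransGen.head ⟨hyz.2.1, hyz.1, hyz.2.2.symm⟩ ih

lemma comm_central (c1 c2 x y : G) (h1 : c1 ∈ Subgroup.center G) (h2 : c2 ∈ Subgroup.center G) :
    (c1 * x) * (c2 * y) * (c1 * x)⁻¹ * (c2 * y)⁻¹ = x * y * x⁻¹ * y⁻¹ := by
  have e1 := Subgroup.mem_center_iff.mp h1
  have e2 := Subgroup.mem_center_iff.mp h2
  have a1 : ∀ w, c1 * w * c1⁻¹ = w := fun w => by
    rw [← e1 w, mul_assoc, mul_inv_cancel, mul_one]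
  have a2 : ∀ w, c2 * w * c2⁻¹ = w := fun w => by
    rw [← e2 w, mul_assoc, mul_inv_cancel, mul_one]
  calc (c1 * x) * (c2 * y) * (c1 * x)⁻¹ * (c2 * y)⁻¹
      = c1 * (x * (c2 * y) * x⁻¹) * c1⁻¹ * (c2 * y)⁻¹ := by group
    _ = x * (c2 * y) * x⁻¹ * (c2 * y)⁻¹ := by rw [a1]
    _ = x * (c2 * (y * x⁻¹ * y⁻¹) * c2⁻¹) := by group
    _ = x * (y * x⁻¹ * y⁻¹) := by rw [a2]
    _ = x * y * x⁻¹ * y⁻¹ := by group

end aux

/-- Let G be a finite group with a quasisimple normal subgroup L and an involution d such that G is generated by L and d, the centre of L has odd order, and d inverts every element of the centre of L. If the commuting graph on the conjugacy class of the image of d in G modulo the centre of L is connected, then the commuting graph on the conjugacy class of d is connected. -/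
theorem result {G : Type*} [Group G] [Finite G] (L : Subgroup G) [L.Normal] (hL : Cfsg.IsQuasisimple ↥L) (d : G) (hd : orderOf d = 2) (hgen : L ⊔ Subgroup.zpowers d = ⊤) (hodd : Odd (Nat.card ↥(Subgroup.center ↥L))) (hinv : ∀ c ∈ (Subgroup.center ↥L).map L.subtype, d * c * d⁻¹ = c⁻¹) [hn : ((Subgroup.center ↥L).map L.subtype).Normal] (hconn : (Cfsg.commutingGraph (conjugatesOf (QuotientGroup.mk d : G ⧸ (Subgroup.center ↥L).map L.subtype))).Connected) : (Cfsg.commutingGraph (conjugatesOf d)).Connected := by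
  obtain ⟨hperf, -⟩ := hL
  set Z : Subgroup G := (Subgroup.center ↥L).map L.subtype with hZdef
  obtain ⟨D, hDdef⟩ : ∃ D : Set G, D = conjugatesOf d := ⟨_, rfl⟩
  rw [← hDdef]
  have hdd : d * d = 1 := by rw [← pow_two, ← hd]; exact pow_orderOf_eq_one d
  have hdD : d ∈ D := by rw [hDdef]; exact mem_conjugatesOf_self
  have hDconj : ∀ x ∈ D, ∀ g : G, g * x * g⁻¹ ∈ D := by
    intro x hx g
    rw [hDdef] at hx ⊢
    exact IsConj.trans hx (isConj_iff.mpr ⟨g, rfl⟩)
  have hDrep : ∀ x ∈ D, ∃ g : G, g * d * g⁻¹ = x := by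
    intro x hx
    rw [hDdef] at hx
    exact isConj_iff.mp hx
  have hZsq : ∀ c ∈ Z, ∃ z ∈ Z, z * z = c := by
    intro c hc
    rw [hZdef] at hc
    obtain ⟨c, hc, rfl⟩ := hc
    obtain ⟨k, hk⟩ := hodd
    have h1 : (⟨c, hc⟩ : Subgroup.center ↥L) ^ (2 * k + 1) = 1 := by
      rw [← hk]; exact pow_card_eq_one'
    have h2 : (c : G) ^ (2 * k + 1) = 1 := by
      have h3 := congrArg (fun t : Subgroup.center ↥L => ((t : ↥L) : G)) h1
      simpa using h3
    refine ⟨(c : G) ^ (k + 1), ?_, ?_⟩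
    · rw [hZdef]
      exact ⟨c ^ (k + 1), Subgroup.pow_mem _ hc _, by simp⟩
    · show (c : G) ^ (k + 1) * (c : G) ^ (k + 1) = (c : G)
      rw [← pow_add]
      have h4 : k + 1 + (k + 1) = (2 * k + 1) + 1 := by ring
      rw [h4, pow_succ, h2, one_mul]
  have hDinv : ∀ a ∈ D, ∀ c ∈ Z, a * c * a⁻¹ = c⁻¹ := by
    intro a ha c hc
    obtain ⟨g, rfl⟩ := hDrep a ha
    have h1 : g⁻¹ * c * g ∈ Z := by
      have h0 := hn.conj_mem c hc g⁻¹
      simpa using h0
    have h2 := hinv _ h1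
    calc g * d * g⁻¹ * c * (g * d * g⁻¹)⁻¹ = g * (d * (g⁻¹ * c * g) * d⁻¹) * g⁻¹ := by group
      _ = g * (g⁻¹ * c * g)⁻¹ * g⁻¹ := by rw [h2]
      _ = c⁻¹ := by group
  have hDZ : ∀ a ∈ D, ∀ c ∈ Z, ∃ z ∈ Z, c * a = z * a * z⁻¹ := by
    intro a ha c hc
    obtain ⟨z, hz, rfl⟩ := hZsq c hc
    refine ⟨z, hz, ?_⟩
    have h1 := hDinv a ha z⁻¹ (Z.inv_mem hz)
    symm
    calc z * a * z⁻¹ = z * (a * z⁻¹ * a⁻¹) * a := by group
      _ = z * (z⁻¹)⁻¹ * a := by rw [h1]
      _ = z * z * a := by rw [inv_inv]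
  have hker : ∀ x y : G, (QuotientGroup.mk x : G ⧸ Z) = QuotientGroup.mk y → x * y⁻¹ ∈ Z := by
    intro x y h
    have h1 := QuotientGroup.eq.mp h
    have h2 := hn.conj_mem _ (Z.inv_mem h1) x
    have e : x * (x⁻¹ * y)⁻¹ * x⁻¹ = x * y⁻¹ := by group
    rw [e] at h2; exact h2
  have hmkZ : ∀ z ∈ Z, ∀ x : G, (QuotientGroup.mk (z * x) : G ⧸ Z) = QuotientGroup.mk x := by
    intro z hz x
    rw [QuotientGroup.mk_mul, (QuotientGroup.eq_one_iff z).mpr hz, one_mul]
  obtain ⟨Dbar, hDbar⟩ : ∃ Dbar : Set (G ⧸ Z),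
      Dbar = conjugatesOf (QuotientGroup.mk d : G ⧸ Z) := ⟨_, rfl⟩
  rw [← hDbar] at hconn
  have hDbar_of : ∀ a ∈ D, (QuotientGroup.mk a : G ⧸ Z) ∈ Dbar := by
    intro a ha
    obtain ⟨g, rfl⟩ := hDrep a ha
    rw [hDbar]
    exact isConj_iff.mpr ⟨QuotientGroup.mk g, by simp⟩
  have hDbar_lift : ∀ y ∈ Dbar, ∃ b ∈ D, (QuotientGroup.mk b : G ⧸ Z) = y := by
    intro y hy
    rw [hDbar] at hy
    obtain ⟨q, rfl⟩ := isConj_iff.mp hy
    obtain ⟨g, rfl⟩ := QuotientGroup.mk_surjective q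
    exact ⟨g * d * g⁻¹, hDconj d hdD g, by simp⟩
  have hlift : ∀ a ∈ D, ∀ b' ∈ D,
      (QuotientGroup.mk a : G ⧸ Z) * QuotientGroup.mk b' = QuotientGroup.mk b' * QuotientGroup.mk a →
      ∃ b ∈ D, (QuotientGroup.mk b : G ⧸ Z) = QuotientGroup.mk b' ∧ a * b = b * a := by
    intro a ha b' hb' hcomm
    have h1 : a * b' * a⁻¹ * b'⁻¹ ∈ Z := by
      have h0 : (QuotientGroup.mk (a * b') : G ⧸ Z) = QuotientGroup.mk (b' * a) := by
        rw [QuotientGroup.mk_mul, QuotientGroup.mk_mul, hcomm]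
      have h3 := hker _ _ h0
      have e : a * b' * (b' * a)⁻¹ = a * b' * a⁻¹ * b'⁻¹ := by group
      rw [e] at h3; exact h3
    obtain ⟨z, hz, hzz⟩ := hZsq _ h1
    obtain ⟨z', hz', he⟩ := hDZ b' hb' z hz
    refine ⟨z * b', ?_, hmkZ z hz b', ?_⟩
    · rw [he]; exact hDconj b' hb' z'
    · have h2 := hDinv a ha z hz
      have h3 : a * (z * b') * a⁻¹ = z * b' := by
        calc a * (z * b') * a⁻¹ = (a * z * a⁻¹) * (a * b' * a⁻¹ * b'⁻¹) * b' := by group
          _ = z⁻¹ * (z * z) * b' := by rw [h2, hzz]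
          _ = z * b' := by group
      calc a * (z * b') = (a * (z * b') * a⁻¹) * a := by group
        _ = z * b' * a := by rw [h3]
  have hpath : ∀ x y : G ⧸ Z, Reach Dbar x y → ∀ a ∈ D, (QuotientGroup.mk a : G ⧸ Z) = x →
      ∃ b ∈ D, (QuotientGroup.mk b : G ⧸ Z) = y ∧ Reach D a b := by
    intro x y h
    induction h with
    | refl => intro a ha hax; exact ⟨a, ha, hax, Relation.ReflTransGen.refl⟩
    | tail _ hyz ih =>
      intro a ha hax
      obtain ⟨b, hb, hby, hab⟩ := ih a ha hax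
      obtain ⟨c', hc', hc'z⟩ := hDbar_lift _ hyz.2.1
      obtain ⟨c, hc, hcc', hbc⟩ := hlift b hb c' hc' (by rw [hby, hc'z]; exact hyz.2.2)
      exact ⟨c, hc, hcc'.trans hc'z, Relation.ReflTransGen.tail hab ⟨hb, hc, hbc⟩⟩
  have hRbar := reach_of_connected Dbar hconn
  let K : Subgroup G :=
    { carrier := {g | Reach D d (g * d * g⁻¹)}
      one_mem' := by
        show Reach D d (1 * d * 1⁻¹)
        have e : 1 * d * 1⁻¹ = d := by group
        rw [e]; exact Relation.ReflTransGen.refl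
      mul_mem' := by
        intro g h hg hh
        have h1 := reach_conj D hDconj g _ _ hh
        have e : g * (h * d * h⁻¹) * g⁻¹ = g * h * d * (g * h)⁻¹ := by group
        rw [e] at h1
        exact Relation.ReflTransGen.trans hg h1
      inv_mem' := by
        intro g hg
        have h1 := reach_conj D hDconj g⁻¹ _ _ hg
        have e : g⁻¹ * (g * d * g⁻¹) * g⁻¹⁻¹ = d := by group
        rw [e] at h1
        exact reach_symm D _ _ h1 }
  have hKmem : ∀ g, g ∈ K ↔ Reach D d (g * d * g⁻¹) := fun g => Iff.rfl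
  have hdK : d ∈ K := by
    rw [hKmem]
    have e : d * d * d⁻¹ = d := by group
    rw [e]; exact Relation.ReflTransGen.refl
  have hZK : ∀ g : G, ∃ z ∈ Z, z * g ∈ K := by
    intro g
    have hb : g * d * g⁻¹ ∈ D := hDconj d hdD g
    obtain ⟨c, hc, hcb, hdc⟩ :=
      hpath _ _ (hRbar _ (hDbar_of d hdD) _ (hDbar_of _ hb)) d hdD rfl
    have h1 := hker _ _ hcb
    obtain ⟨z, hz, he⟩ := hDZ _ hb _ h1
    refine ⟨z, hz, ?_⟩
    rw [hKmem]
    have e : z * g * d * (z * g)⁻¹ = c := by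
      calc z * g * d * (z * g)⁻¹ = z * (g * d * g⁻¹) * z⁻¹ := by group
        _ = c * (g * d * g⁻¹)⁻¹ * (g * d * g⁻¹) := he.symm
        _ = c := by group
    rw [e]; exact hdc
  have hLK : L ≤ K := by
    have hcomm : commutatorSet ↥L ⊆ (K.subgroupOf L : Set ↥L) := by
      rintro _ ⟨x, y, rfl⟩
      obtain ⟨z1, hz1, hk1⟩ := hZK x
      obtain ⟨z2, hz2, hk2⟩ := hZK y
      rw [hZdef] at hz1 hz2
      obtain ⟨c1, hc1, rfl⟩ := hz1
      obtain ⟨c2, hc2, rfl⟩ := hz2
      rw [SetLike.mem_coe, Subgroup.mem_subgroupOf, commutatorElement_def,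
        ← comm_central c1 c2 x y hc1 hc2]
      simp only [Subgroup.coe_mul, Subgroup.coe_inv]
      exact K.mul_mem (K.mul_mem (K.mul_mem hk1 hk2) (K.inv_mem hk1)) (K.inv_mem hk2)
    have h1 : commutator ↥L ≤ K.subgroupOf L := by
      rw [commutator_eq_closure]
      exact (Subgroup.closure_le _).mpr hcomm
    rw [hperf.commutator_eq_top] at h1
    intro x hx
    have h2 := h1 (Subgroup.mem_top (⟨x, hx⟩ : ↥L))
    exact h2
  have hKtop : K = ⊤ := by
    rw [eq_top_iff, ← hgen]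
    refine sup_le hLK ?_
    rw [Subgroup.zpowers_le]
    exact hdK
  have hall : ∀ a ∈ D, Reach D d a := by
    intro a ha
    obtain ⟨g, rfl⟩ := hDrep a ha
    have h2 : g ∈ K := by rw [hKtop]; trivial
    exact h2
  apply connected_of_reach D ⟨d, hdD⟩
  intro a ha b hb
  exact Relation.ReflTransGen.trans (reach_symm D _ _ (hall a ha)) (hall b hb)

end Cfsg.Agent.S5459
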