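import Cfsg.Statements.S5541
-- import your own Cfsg.Agent.* helpers here

set_option autoImplicit false
open Cfsg

namespace Cfsg.Agent.S5541

/-- Let ρ be a representation of a group H on a finite-dimensional real vector space U whose only ρ-invariant subspaces are the zero subspace and U, and suppose U carries a non-zero ρ-invariant symmetric bilinear form. Then the following are equivalent: (1) there is a non-zero ρ-equivariant commutative bilinear product on U of which every ρ-equivariant bilinear product is a scalar multiple; (2) there is a non-zero ρ-invariant trilinear form on U that is symmetric under all permutations of its arguments and of which every ρ-invariant trilinear form is a scalar multiple. -/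
theorem result {H : Type*} [Group H] {U : Type*} [AddCommGroup U] [Module ℝ U] [FiniteDimensional ℝ U] (ρ : Representation ℝ H U) (hirr : ∀ W : Submodule ℝ U, (∀ g : H, W.map (ρ g) ≤ W) → W = ⊥ ∨ W = ⊤) (B : LinearMap.BilinForm ℝ U) (hB0 : B ≠ 0) (hBs : ∀ u v, B u v = B v u) (hBi : ∀ (g : H) (u v : U), B (ρ g u) (ρ g v) = B u v) : (∃ m : U →ₗ[ℝ] U →ₗ[ℝ] U, m ≠ 0 ∧ (∀ u v, m u v = m v u) ∧ (∀ (g : H) (u v : U), m (ρ g u) (ρ g v) = ρ g (m u v)) ∧ ∀ m' : U →ₗ[ℝ] U →ₗ[ℝ] U, (∀ (g : H) (u v : U), m' (ρ g u) (ρ g v) = ρ g (m' u v)) → ∃ c : ℝ, m' = c • m) ↔ (∃ t : U →ₗ[ℝ] U →ₗ[ℝ] U →ₗ[ℝ] ℝ, t ≠ 0 ∧ (∀ u v w, t u v w = t v u w ∧ t u v w = t u w v) ∧ (∀ (g : H) (u v w : U), t (ρ g u) (ρ g v) (ρ g w) = t u v w) ∧ ∀ t' : U →ₗ[ℝ] U →ₗ[ℝ] U →ₗ[ℝ] ℝ, (∀ (g : H) (u v w : U), t' (ρ g u) (ρ g v) (ρ g w) = t' u v w) → ∃ c : ℝ, t' = c • t) := by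
  have hρinv : ∀ (g : H) (v : U), ρ g (ρ g⁻¹ v) = v := fun g v => ρ.self_inv_apply g v
  have hker : LinearMap.ker B = ⊥ := by
    have hinv : ∀ g : H, (LinearMap.ker B).map (ρ g) ≤ LinearMap.ker B := by
      intro g
      rintro _ ⟨u, hu, rfl⟩
      rw [SetLike.mem_coe, LinearMap.mem_ker] at hu
      rw [LinearMap.mem_ker]
      apply LinearMap.ext
      intro v
      have h1 : B (ρ g u) v = B u (ρ g⁻¹ v) := by
        conv_lhs => rw [← hρinv g v]
        exact hBi g u _
      rw [h1, hu]; rfl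
    rcases hirr (LinearMap.ker B) hinv with h | h
    · exact h
    · exfalso; apply hB0
      apply LinearMap.ext
      intro u
      have h2 : u ∈ LinearMap.ker B := by rw [h]; trivial
      rw [LinearMap.mem_ker] at h2
      rw [h2]; rfl
  have hnd : ∀ u : U, (∀ w, B u w = 0) → u = 0 := by
    intro u hu
    have h2 : u ∈ LinearMap.ker B := by
      rw [LinearMap.mem_ker]
      apply LinearMap.ext
      intro w
      exact hu w
    rw [hker] at h2; exact (Submodule.mem_bot ℝ).mp h2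
  have hnd' : ∀ u u' : U, (∀ w, B u w = B u' w) → u = u' := by
    intro u u' h
    have h2 := hnd (u - u') (fun w => by rw [map_sub, LinearMap.sub_apply, h w, sub_self])
    exact sub_eq_zero.mp h2
  have hbij : Function.Bijective B := by
    have hinj : Function.Injective B := LinearMap.ker_eq_bot.mp hker
    exact ⟨hinj, (LinearMap.injective_iff_surjective_of_finrank_eq_finrank
      (Subspace.dual_finrank_eq (K := ℝ) (V := U)).symm).mp hinj⟩
  obtain ⟨e, he0⟩ : ∃ e : U ≃ₗ[ℝ] (U →ₗ[ℝ] ℝ), ∀ u, e u = B u :=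
    ⟨LinearEquiv.ofBijective B hbij, fun u => rfl⟩
  have he : ∀ (f : U →ₗ[ℝ] ℝ) (w : U), B (e.symm f) w = f w := by
    intro f w
    have h2 : e (e.symm f) = f := e.apply_symm_apply f
    rw [he0] at h2
    rw [h2]
  have hρsurj : ∀ (g : H) (w : U), ∃ w', ρ g w' = w := fun g w => ⟨ρ g⁻¹ w, hρinv g w⟩
  have hEI : ∀ m : U →ₗ[ℝ] U →ₗ[ℝ] U,
      (∀ (g : H) (u v : U), m (ρ g u) (ρ g v) = ρ g (m u v)) →
      ∀ (g : H) (u v w : U), (m.compr₂ B) (ρ g u) (ρ g v) (ρ g w) = (m.compr₂ B) u v w := by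
    intro m hm g u v w
    simp only [LinearMap.compr₂_apply]
    rw [hm, hBi]
  have hIE : ∀ t : U →ₗ[ℝ] U →ₗ[ℝ] U →ₗ[ℝ] ℝ,
      (∀ (g : H) (u v w : U), t (ρ g u) (ρ g v) (ρ g w) = t u v w) →
      ∀ (g : H) (u v : U), (t.compr₂ e.symm.toLinearMap) (ρ g u) (ρ g v)
        = ρ g ((t.compr₂ e.symm.toLinearMap) u v) := by
    intro t ht g u v
    apply hnd'
    intro w
    obtain ⟨w', rfl⟩ := hρsurj g w
    simp only [LinearMap.compr₂_apply, LinearEquiv.coe_coe]
    rw [he, hBi, he, ht]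
  have hmt : ∀ m : U →ₗ[ℝ] U →ₗ[ℝ] U, (m.compr₂ B).compr₂ e.symm.toLinearMap = m := by
    intro m
    apply LinearMap.ext₂
    intro u v
    apply hnd'; intro w
    simp only [LinearMap.compr₂_apply, LinearEquiv.coe_coe]
    rw [he]
  have htm : ∀ t : U →ₗ[ℝ] U →ₗ[ℝ] U →ₗ[ℝ] ℝ, (t.compr₂ e.symm.toLinearMap).compr₂ B = t := by
    intro t
    apply LinearMap.ext₂
    intro u v
    apply LinearMap.ext
    intro w
    simp only [LinearMap.compr₂_apply, LinearEquiv.coe_coe]
    rw [he]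
  constructor
  · rintro ⟨m, hm0, hmc, hme, hmu⟩
    have ht0 : m.compr₂ B ≠ 0 := by
      intro h; apply hm0; rw [← hmt m, h]
      apply LinearMap.ext₂
      intro u v
      simp
    have huniq : ∀ t' : U →ₗ[ℝ] U →ₗ[ℝ] U →ₗ[ℝ] ℝ,
        (∀ (g : H) (u v w : U), t' (ρ g u) (ρ g v) (ρ g w) = t' u v w) →
        ∃ c : ℝ, t' = c • m.compr₂ B := by
      intro t' ht'
      obtain ⟨c, hc⟩ := hmu _ (hIE t' ht')
      refine ⟨c, ?_⟩
      rw [← htm t', hc]
      apply LinearMap.ext₂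
      intro u v
      apply LinearMap.ext
      intro w
      simp
    have h12 : ∀ u v w, (m.compr₂ B) u v w = (m.compr₂ B) v u w := by
      intro u v w
      simp only [LinearMap.compr₂_apply]
      rw [hmc u v]
    refine ⟨m.compr₂ B, ht0, ?_, hEI m hme, huniq⟩
    obtain ⟨t, ht⟩ : ∃ t : U →ₗ[ℝ] U →ₗ[ℝ] U →ₗ[ℝ] ℝ, t = m.compr₂ B := ⟨_, rfl⟩
    rw [← ht] at ht0 huniq h12 ⊢
    have hti : ∀ (g : H) (u v w : U), t (ρ g u) (ρ g v) (ρ g w) = t u v w := by
      rw [ht]; exact hEI m hme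
    let t' : U →ₗ[ℝ] U →ₗ[ℝ] U →ₗ[ℝ] ℝ :=
      (LinearMap.lflip (R₀ := ℝ) :
        (U →ₗ[ℝ] U →ₗ[ℝ] ℝ) ≃ₗ[ℝ] (U →ₗ[ℝ] U →ₗ[ℝ] ℝ)).toLinearMap ∘ₗ t
    have ht'a : ∀ u v w, t' u v w = t u w v := by
      intro u v w
      simp [t']
    obtain ⟨c, hc⟩ := huniq t' (by
      intro g u v w
      rw [ht'a, ht'a, hti])
    have hsw : ∀ u v w, t u w v = c * t u v w := by
      intro u v w
      rw [← ht'a, hc]
      simp
    obtain ⟨u₀, v₀, w₀, hne⟩ : ∃ u v w, t u v w ≠ 0 := by
      by_contra hcon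
      push Not at hcon
      apply ht0
      apply LinearMap.ext₂
      intro u v
      apply LinearMap.ext
      intro w
      simpa using hcon u v w
    have hcc : c * c = 1 := by
      have h3 := hsw u₀ v₀ w₀
      have h4 := hsw u₀ w₀ v₀
      rw [h3] at h4
      have h5 : (c * c - 1) * t u₀ v₀ w₀ = 0 := by linarith
      rcases mul_eq_zero.mp h5 with h | h
      · linarith
      · exact absurd h hne
    have hc1 : c = 1 := by
      rcases mul_self_eq_one_iff.mp hcc with h | h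
      · exact h
      · exfalso
        apply hne
        have a1 := hsw u₀ v₀ w₀
        have a2 := hsw w₀ u₀ v₀
        have a3 := hsw v₀ w₀ u₀
        have b1 := h12 u₀ w₀ v₀
        have b2 := h12 w₀ v₀ u₀
        have b3 := h12 v₀ u₀ w₀
        rw [h] at a1 a2 a3
        linarith
    intro u v w
    refine ⟨h12 u v w, ?_⟩
    have h3 := hsw u v w
    rw [hc1, one_mul] at h3
    exact h3.symm
  · rintro ⟨t, ht0, hts, hti, htu⟩
    refine ⟨t.compr₂ e.symm.toLinearMap, ?_, ?_, hIE t hti, ?_⟩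
    · intro h; apply ht0; rw [← htm t, h]
      apply LinearMap.ext₂
      intro u v
      apply LinearMap.ext
      intro w
      simp
    · intro u v
      apply hnd'; intro w
      simp only [LinearMap.compr₂_apply, LinearEquiv.coe_coe]
      rw [he, he]; exact (hts u v w).1
    · intro m' hm'
      obtain ⟨c, hc⟩ := htu _ (hEI m' hm')
      refine ⟨c, ?_⟩
      rw [← hmt m', hc]
      apply LinearMap.ext₂
      intro u v
      simp

end Cfsg.Agent.S5541
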