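import Cfsg.Statements.S5543
-- import your own Cfsg.Agent.* helpers here

set_option autoImplicit false
open Cfsg

namespace Cfsg.Agent.S5543

/-- Let V be a finite-dimensional real vector space with a commutative bilinear product and a positive-definite symmetric bilinear form that associates with the product and satisfies the Norton inequality (the Majorana setting of the definitions). Let X be a group of linear automorphisms of V in which every element squares to the identity, and suppose every non-identity element x of X is a Majorana involution with an axial vector a(x) of squared length 1, such that for any two distinct non-identity x, y the product a(x) ∘ a(y) equals (1/8)(a(x) + a(y) − a(xy)) (the dihedral subalgebra of type 2A whose third axis belongs to the involution xy). Then X has order at most 4. -/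
theorem result {V : Type*} [AddCommGroup V] [Module ℝ V] [FiniteDimensional ℝ V] (mul : V →ₗ[ℝ] V →ₗ[ℝ] V) (B : LinearMap.BilinForm ℝ V) (hV : Cfsg.Axial.IsMajoranaAmbient mul B) (X : Subgroup (V ≃ₗ[ℝ] V)) (hX : ∀ x ∈ X, x * x = 1) (ax : (V ≃ₗ[ℝ] V) → V) (hax : ∀ x ∈ X, x ≠ 1 → Cfsg.Axial.IsMajoranaPair mul B x (ax x)) (h1 : ∀ x ∈ X, x ≠ 1 → B (ax x) (ax x) = 1) (h2A : ∀ x ∈ X, ∀ y ∈ X, x ≠ 1 → y ≠ 1 → x ≠ y → mul (ax x) (ax y) = (1 / 8 : ℝ) • (ax x + ax y - ax (x * y))) : Nat.card ↥X ≤ 4 := by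
  classical
  by_contra hcard
  push Not at hcard
  obtain ⟨hcomm, hsymm, hpos, hassoc, -⟩ := hV
  haveI : Finite ↥X := Nat.finite_of_card_ne_zero (by omega)
  have hpick : ∀ s : Finset ↥X, s.card ≤ 4 → ∃ a : ↥X, a ∉ s := by
    intro s hs
    by_contra h
    push Not at h
    haveI := Fintype.ofFinite ↥X
    have h5 : Nat.card ↥X ≤ s.card := by
      rw [Nat.card_eq_fintype_card, ← Finset.card_univ]
      exact Finset.card_le_card (fun a _ => h a)
    omega
  obtain ⟨x', hx'⟩ := hpick {1} (by simp)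
  obtain ⟨y', hy'⟩ := hpick {1, x'} (Finset.card_le_two.trans (by norm_num))
  obtain ⟨z', hz'⟩ := hpick {1, x', y', x' * y'} Finset.card_le_four
  simp only [Finset.mem_insert, Finset.mem_singleton, not_or] at hx' hy' hz'
  obtain ⟨x, hx⟩ := x'
  obtain ⟨y, hy⟩ := y'
  obtain ⟨z, hz⟩ := z'
  have hx1 : x ≠ 1 := fun h => hx' (Subtype.ext h)
  have hy1 : y ≠ 1 := fun h => hy'.1 (Subtype.ext h)
  have hyx : y ≠ x := fun h => hy'.2 (Subtype.ext h)
  have hz1 : z ≠ 1 := fun h => hz'.1 (Subtype.ext h)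
  have hzx : z ≠ x := fun h => hz'.2.1 (Subtype.ext h)
  have hzy : z ≠ y := fun h => hz'.2.2.1 (Subtype.ext h)
  have hzxy : z ≠ x * y := fun h => hz'.2.2.2 (Subtype.ext h)
  have hsq : ∀ s ∈ X, ∀ t : V ≃ₗ[ℝ] V, s * (s * t) = t := by
    intro s hs t; rw [← mul_assoc, hX s hs, one_mul]
  have hcm : ∀ s ∈ X, ∀ t ∈ X, s * t = t * s := by
    intro s hs t ht
    symm
    calc t * s = (s * s) * (t * s) * (t * t) := by rw [hX s hs, hX t ht, one_mul, mul_one]
      _ = s * ((s * t) * (s * t)) * t := by group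
      _ = s * t := by rw [hX _ (X.mul_mem hs ht), mul_one]
  have hidem : ∀ s ∈ X, s ≠ 1 → mul (ax s) (ax s) = ax s :=
    fun s hs hs1 => (hax s hs hs1).2.2.1.1.2.1
  have hne1 : ∀ s ∈ X, ∀ t ∈ X, s ≠ t → s * t ≠ 1 := by
    intro s hs t ht hst h
    have h3 := hsq s hs t
    rw [h, mul_one] at h3
    exact hst h3
  have hne2 : ∀ s t : V ≃ₗ[ℝ] V, t ≠ 1 → s ≠ s * t := by
    intro s t ht1 h
    apply ht1
    have h3 : s * 1 = s * t := by rw [mul_one]; exact h
    exact (mul_left_cancel h3).symm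
  have L2 : ∀ s ∈ X, ∀ t ∈ X, s ≠ 1 → t ≠ 1 → s ≠ t →
      mul (ax s) (ax t - ax (s * t)) = (1 / 4 : ℝ) • (ax t - ax (s * t)) := by
    intro s hs t ht hs1 ht1 hst
    rw [map_sub, h2A s hs t ht hs1 ht1 hst,
      h2A s hs (s * t) (X.mul_mem hs ht) hs1 (hne1 s hs t ht hst) (hne2 s t ht1), hsq s hs t]
    module
  have L1 : ∀ s ∈ X, ∀ t ∈ X, s ≠ 1 → t ≠ 1 → s ≠ t → B (ax s) (ax t) = 1 / 8 := by
    intro s hs t ht hs1 ht1 hst
    have e1 : B (ax s) (mul (ax s) (ax t)) = B (ax s) (ax t) := by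
      rw [hassoc, hidem s hs hs1]
    have e2 : B (ax s) (mul (ax s) (ax (s * t))) = B (ax s) (ax (s * t)) := by
      rw [hassoc, hidem s hs hs1]
    rw [h2A s hs t ht hs1 ht1 hst] at e1
    rw [h2A s hs (s * t) (X.mul_mem hs ht) hs1 (hne1 s hs t ht hst) (hne2 s t ht1),
      hsq s hs t] at e2
    simp only [map_smul, map_add, map_sub, smul_eq_mul] at e1 e2
    rw [h1 s hs hs1] at e1 e2
    linarith
  -- distinctness facts
  have hxz1 : x * z ≠ 1 := hne1 x hx z hz (Ne.symm hzx)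
  have hxy1 : x * y ≠ 1 := hne1 x hx y hy (Ne.symm hyx)
  have hyz1 : y * z ≠ 1 := hne1 y hy z hz (Ne.symm hzy)
  have hyxz : y ≠ x * z := by
    intro h
    apply hzxy
    rw [h, hsq x hx z]
  have hxyxz : x * y ≠ x * z := fun h => hzy (mul_left_cancel h).symm
  have hxyz : x ≠ y * z := by
    intro h
    apply hzxy
    rw [h, mul_assoc, hcm z hz y hy, hsq y hy z]
  have hxyz1 : x * (y * z) ≠ 1 := by
    intro h
    have h3 := hsq x hx (y * z)
    rw [h, mul_one] at h3
    exact hxyz h3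
  have hyzxyz : y * z ≠ x * (y * z) := by
    intro h
    have h3 : 1 * (y * z) = x * (y * z) := by rw [one_mul]; exact h
    exact hx1 (mul_right_cancel h3).symm
  have hyzX : y * z ∈ X := X.mul_mem hy hz
  have hxyzX : x * (y * z) ∈ X := X.mul_mem hx hyzX
  -- eigenvectors
  have hu := L2 x hx y hy hx1 hy1 (Ne.symm hyx)
  have hv := L2 x hx z hz hx1 hz1 (Ne.symm hzx)
  have hw := L2 x hx (y * z) hyzX hx1 hyz1 hxyz
  have hmuluv : mul (ax y - ax (x * y)) (ax z - ax (x * z))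
      = (-(1 / 4) : ℝ) • (ax (y * z) - ax (x * (y * z))) := by
    have i1 : y * (x * z) = x * (y * z) := by rw [← mul_assoc, hcm y hy x hx, mul_assoc]
    have i2 : x * y * z = x * (y * z) := mul_assoc x y z
    have i3 : x * y * (x * z) = y * z := by
      rw [hcm x hx y hy, mul_assoc, hsq x hx z]
    simp only [map_sub, LinearMap.sub_apply]
    rw [h2A y hy z hz hy1 hz1 (Ne.symm hzy), h2A y hy (x * z) (X.mul_mem hx hz) hy1 hxz1 hyxz,
      h2A (x * y) (X.mul_mem hx hy) z hz hxy1 hz1 (Ne.symm hzxy),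
      h2A (x * y) (X.mul_mem hx hy) (x * z) (X.mul_mem hx hz) hxy1 hxz1 hxyxz, i1, i2, i3]
    module
  have hfus := (hax x hx hx1).2.2.1.1.2.2.2 (1 / 4) (by simp [Cfsg.Axial.majoranaSpectrum])
    (1 / 4) (by simp [Cfsg.Axial.majoranaSpectrum]) (ax y - ax (x * y))
    (Module.End.mem_eigenspace_iff.mpr hu) (ax z - ax (x * z))
    (Module.End.mem_eigenspace_iff.mpr hv)
  have hlaw : Cfsg.Axial.monsterLaw (1 / 4 : ℝ) (1 / 32) (1 / 4) (1 / 4) = {1, 0} := by
    unfold Cfsg.Axial.monsterLaw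
    norm_num
  rw [hlaw, Cfsg.Axial.eigenSum, iSup_insert, iSup_singleton, Submodule.mem_sup] at hfus
  obtain ⟨w1, hw1, w0, hw0, hsum⟩ := hfus
  have hw1' : mul (ax x) w1 = w1 := by
    have := Module.End.mem_eigenspace_iff.mp hw1
    simpa using this
  have hw0' : mul (ax x) w0 = 0 := by
    have := Module.End.mem_eigenspace_iff.mp hw0
    simpa using this
  obtain ⟨w, hwdef⟩ : ∃ w : V, w = ax (y * z) - ax (x * (y * z)) := ⟨_, rfl⟩
  rw [← hwdef] at hw hmuluv
  rw [hmuluv] at hsum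
  have hw' : w = (-4 : ℝ) • (w1 + w0) := by
    rw [hsum]; module
  have e3 : mul (ax x) w = (-4 : ℝ) • w1 := by
    rw [hw', map_smul, map_add, hw1', hw0', add_zero]
  have e4 : (-4 : ℝ) • w1 = (1 / 4 : ℝ) • ((-4 : ℝ) • (w1 + w0)) := by
    rw [← e3, hw, hw']
  have e5 : w0 = (3 : ℝ) • w1 := by
    have h6 : (1 / 4 : ℝ) • ((-4 : ℝ) • (w1 + w0)) = -(w1 + w0) := by module
    rw [h6] at e4
    calc w0 = (3 : ℝ) • w1 + ((-4 : ℝ) • w1 + (w1 + w0)) := by module
      _ = (3 : ℝ) • w1 + (-(w1 + w0) + (w1 + w0)) := by rw [e4]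
      _ = (3 : ℝ) • w1 := by module
  have e6 : w1 = 0 := by
    have h8 := congrArg (mul (ax x)) e5
    rw [hw0', map_smul, hw1'] at h8
    have h9 : (3 : ℝ) • w1 = 0 := h8.symm
    rcases smul_eq_zero.mp h9 with h | h
    · norm_num at h
    · exact h
  have e7 : w = 0 := by
    rw [hw', e5, e6]; simp
  have e8 : ax (y * z) = ax (x * (y * z)) := by
    rw [hwdef] at e7
    exact sub_eq_zero.mp e7
  have e9 := L1 (y * z) hyzX (x * (y * z)) hxyzX hyz1 hxyz1 hyzxyz
  rw [← e8, h1 (y * z) hyzX hyz1] at e9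
  norm_num at e9

end Cfsg.Agent.S5543
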