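import Cfsg.Statements.S5545
-- import your own Cfsg.Agent.* helpers here

set_option autoImplicit false
open Cfsg

namespace Cfsg.Agent.S5545

open Cfsg.Axial

section aux
variable {V : Type*} [AddCommGroup V] [Module ℝ V]

lemma eigen_map (mul : V →ₗ[ℝ] V →ₗ[ℝ] V) (σ : V ≃ₗ[ℝ] V)
    (hσ : ∀ u v : V, σ (mul u v) = mul (σ u) (σ v)) (a : V) (c : ℝ) :
    eigen mul (σ a) c = (eigen mul a c).map (σ : V →ₗ[ℝ] V) := by
  ext x
  rw [Submodule.mem_map]
  unfold eigen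
  simp only [Module.End.mem_eigenspace_iff]
  constructor
  · intro hx
    refine ⟨σ.symm x, ?_, by simp⟩
    apply σ.injective
    rw [hσ, map_smul]
    simpa using hx
  · rintro ⟨y, hy, rfl⟩
    show mul (σ a) (σ y) = c • σ y
    rw [← hσ, hy, map_smul]

lemma eigenSum_map (mul : V →ₗ[ℝ] V →ₗ[ℝ] V) (σ : V ≃ₗ[ℝ] V)
    (hσ : ∀ u v : V, σ (mul u v) = mul (σ u) (σ v)) (a : V) (S : Set ℝ) :
    eigenSum mul (σ a) S = (eigenSum mul a S).map (σ : V →ₗ[ℝ] V) := by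
  unfold eigenSum
  simp only [Submodule.map_iSup, eigen_map mul σ hσ]

lemma pair_transport (mul : V →ₗ[ℝ] V →ₗ[ℝ] V) (B : LinearMap.BilinForm ℝ V)
    (σ μ : V ≃ₗ[ℝ] V) (a : V)
    (hσ : ∀ u v : V, σ (mul u v) = mul (σ u) (σ v))
    (hcomm : ∀ v, σ (μ v) = μ (σ v))
    (h : IsMajoranaPair mul B μ a) : IsMajoranaPair mul B μ (σ a) := by
  obtain ⟨hm, hb, ⟨⟨hne, hid, htop, hfus⟩, hspan⟩, hfix, hneg⟩ := h
  refine ⟨hm, hb, ⟨⟨?_, ?_, ?_, ?_⟩, ?_⟩, ?_, ?_⟩
  · intro h0; apply hne; apply σ.injective; rw [h0, map_zero]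
  · rw [← hσ, hid]
  · rw [eigenSum_map mul σ hσ, htop, Submodule.map_top, LinearMap.range_eq_top]
    exact σ.surjective
  · intro c hc d hd u hu v hv
    rw [eigen_map mul σ hσ] at hu hv
    obtain ⟨u', hu', rfl⟩ := hu
    obtain ⟨v', hv', rfl⟩ := hv
    rw [eigenSum_map mul σ hσ]
    exact ⟨mul u' v', hfus c hc d hd u' hu' v' hv', hσ u' v'⟩
  · rw [eigen_map mul σ hσ, hspan, Submodule.map_span, Set.image_singleton]
    rfl
  · intro v hv
    rw [eigenSum_map mul σ hσ] at hv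
    obtain ⟨w, hw, rfl⟩ := hv
    have h2 : μ w = w := hfix w hw
    show μ (σ w) = σ w
    rw [← hcomm, h2]
  · intro v hv
    rw [eigen_map mul σ hσ] at hv
    obtain ⟨w, hw, rfl⟩ := hv
    have h2 : μ w = -w := hneg w hw
    show μ (σ w) = -(σ w)
    rw [← hcomm, h2, map_neg]

lemma law00 : monsterLaw (1 / 4 : ℝ) (1 / 32) 0 0 = {0} := by
  unfold monsterLaw
  norm_num

lemma law04 : monsterLaw (1 / 4 : ℝ) (1 / 32) 0 (1 / 4) = {1 / 4} := by
  unfold monsterLaw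
  norm_num

lemma law44 : monsterLaw (1 / 4 : ℝ) (1 / 32) (1 / 4) (1 / 4) = {1, 0} := by
  unfold monsterLaw
  norm_num

lemma lemA (mul : V →ₗ[ℝ] V →ₗ[ℝ] V) (B : LinearMap.BilinForm ℝ V)
    (hcommul : IsCommMul mul) (hsymm : ∀ u v : V, B u v = B v u)
    (hassoc : ∀ u v w : V, B u (mul v w) = B (mul u v) w)
    (μ : V ≃ₗ[ℝ] V) (a b : V) (h : IsMajoranaPair mul B μ a) (hμb : μ b = b)
    (hbb : mul b b = b) (haa : B a a = 1) :
    mul a (mul a b) = (1 / 4 : ℝ) • mul a b + (3 * B a b / 4) • a ∧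
    mul (b + (3 * B a b) • a - (4 : ℝ) • mul a b) (mul a b - (B a b) • a)
      = ((2 - B a b) / 4) • (mul a b - (B a b) • a) ∧
    B (mul a b - (B a b) • a) (mul a b - (B a b) • a) = B a b * (1 - B a b) / 4 := by
  obtain ⟨hm, hb, ⟨⟨hne, hid, htop, hfus⟩, hspan⟩, hfix, hneg⟩ := h
  have hb_mem : b ∈ eigenSum mul a majoranaSpectrum := by rw [htop]; trivial
  rw [eigenSum, majoranaSpectrum, iSup_insert, iSup_insert, iSup_insert, iSup_singleton] at hb_mem
  obtain ⟨x1, hx1, r1, hr1, e1⟩ := Submodule.mem_sup.mp hb_mem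
  obtain ⟨x0, hx0, r2, hr2, e2⟩ := Submodule.mem_sup.mp hr1
  obtain ⟨x4, hx4, x32, hx32, e3⟩ := Submodule.mem_sup.mp hr2
  have hS : ∀ c ∈ ({1, 0, 1 / 4} : Set ℝ), eigen mul a c ≤ eigenSum mul a {1, 0, 1 / 4} := by
    intro c hc
    exact le_biSup (fun c => eigen mul a c) hc
  have f1 : μ x1 = x1 := hfix x1 (hS 1 (by simp) hx1)
  have f0 : μ x0 = x0 := hfix x0 (hS 0 (by simp) hx0)
  have f4 : μ x4 = x4 := hfix x4 (hS (1 / 4) (by simp) hx4)
  have f32 : μ x32 = -x32 := hneg x32 hx32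
  have hx32z : x32 = 0 := by
    have hb' : b = x1 + (x0 + (x4 + x32)) := by rw [e3, e2, e1]
    have h2 := hμb
    rw [hb'] at h2
    simp only [map_add] at h2
    rw [f1, f0, f4, f32] at h2
    have h3 : (2 : ℝ) • x32 = 0 := by linear_combination (norm := module) (-1 : ℝ) • h2
    rcases smul_eq_zero.mp h3 with h | h
    · norm_num at h
    · exact h
  have m1 : mul a x1 = x1 := by simpa using Module.End.mem_eigenspace_iff.mp hx1
  have m0 : mul a x0 = 0 := by simpa using Module.End.mem_eigenspace_iff.mp hx0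
  have m4 : mul a x4 = (1 / 4 : ℝ) • x4 := Module.End.mem_eigenspace_iff.mp hx4
  rw [hspan] at hx1
  obtain ⟨α, rfl⟩ := Submodule.mem_span_singleton.mp hx1
  have hbdec : b = α • a + x0 + x4 := by
    rw [← e1, ← e2, ← e3, hx32z]; module
  have o0 : B a x0 = 0 := by
    have h2 := hassoc a a x0
    rw [m0, hid] at h2
    simpa using h2.symm
  have o4 : B a x4 = 0 := by
    have h2 := hassoc a a x4
    rw [m4, hid, map_smul, smul_eq_mul] at h2
    linarith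
  have o04 : B x0 x4 = 0 := by
    have h2 := hassoc x0 a x4
    rw [m4, hcommul x0 a, m0, map_smul, smul_eq_mul] at h2
    simp only [map_zero, LinearMap.zero_apply] at h2
    linarith
  have hα : B a b = α := by
    rw [hbdec]; simp only [map_add, map_smul, smul_eq_mul]; rw [haa, o0, o4]; ring
  have hp : mul a b = α • a + (1 / 4 : ℝ) • x4 := by
    rw [hbdec]; simp only [map_add, map_smul]; rw [hid, m0, m4]; module
  have hx4e : mul a b - α • a = (1 / 4 : ℝ) • x4 := by rw [hp]; module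
  have hx0e : b + (3 * α) • a - (4 : ℝ) • mul a b = x0 := by
    rw [hp, hbdec]; module
  -- fusion
  have hs0 : (0 : ℝ) ∈ majoranaSpectrum := by simp [majoranaSpectrum]
  have hs4 : (1 / 4 : ℝ) ∈ majoranaSpectrum := by simp [majoranaSpectrum]
  have h00 := hfus 0 hs0 0 hs0 x0 hx0 x0 hx0
  have h04 := hfus 0 hs0 (1 / 4) hs4 x0 hx0 x4 hx4
  have h44 := hfus (1 / 4) hs4 (1 / 4) hs4 x4 hx4 x4 hx4
  rw [law00, eigenSum, iSup_singleton] at h00
  rw [law04, eigenSum, iSup_singleton] at h04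
  rw [law44, eigenSum, iSup_insert, iSup_singleton, Submodule.mem_sup] at h44
  obtain ⟨w1, hw1, w0, hw0, hw⟩ := h44
  have n00 : mul a (mul x0 x0) = 0 := by simpa using Module.End.mem_eigenspace_iff.mp h00
  have n04 : mul a (mul x0 x4) = (1 / 4 : ℝ) • mul x0 x4 := Module.End.mem_eigenspace_iff.mp h04
  have mw1 : mul a w1 = w1 := by simpa using Module.End.mem_eigenspace_iff.mp hw1
  have mw0 : mul a w0 = 0 := by simpa using Module.End.mem_eigenspace_iff.mp hw0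
  -- idempotent equation
  have E : (α * α) • a + mul x0 x0 + (w1 + w0) + (α / 2) • x4 + (2 : ℝ) • mul x0 x4
      = α • a + x0 + x4 := by
    have h2 := hbb
    rw [hbdec] at h2
    simp only [map_add, map_smul, LinearMap.add_apply, LinearMap.smul_apply] at h2
    rw [hid, m0, m4, hcommul x0 a, m0, hcommul x4 a, m4, hcommul x4 x0, ← hw] at h2
    linear_combination (norm := module) h2
  obtain ⟨X, hX⟩ : ∃ X : V, X = (1 - α / 2) • x4 - (2 : ℝ) • mul x0 x4 := ⟨_, rfl⟩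
  obtain ⟨R1, hR1⟩ : ∃ R1 : V, R1 = (α * α - α) • a + w1 := ⟨_, rfl⟩
  obtain ⟨R0, hR0⟩ : ∃ R0 : V, R0 = mul x0 x0 - x0 + w0 := ⟨_, rfl⟩
  have hXR : X = R1 + R0 := by
    rw [hX, hR1, hR0]
    linear_combination (norm := module) (-1 : ℝ) • E
  have hX4 : mul a X = (1 / 4 : ℝ) • X := by
    rw [hX]; simp only [map_sub, map_smul]; rw [m4, n04]; module
  have hmR1 : mul a R1 = R1 := by
    rw [hR1]; simp only [map_add, map_smul]; rw [hid, mw1]
  have hmR0 : mul a R0 = 0 := by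
    rw [hR0]; simp only [map_add, map_sub]; rw [n00, m0, mw0]; simp
  have h5 : (1 / 4 : ℝ) • X = R1 := by
    rw [← hX4, hXR, map_add, hmR1, hmR0, add_zero]
  have h6 : R0 = (3 / 4 : ℝ) • X := by
    have h7 : R0 = X - R1 := by rw [hXR]; abel
    rw [h7, ← h5]; module
  have hX0 : X = 0 := by
    have h7 : mul a R0 = (3 / 16 : ℝ) • X := by rw [h6, map_smul, hX4]; module
    rw [hmR0] at h7
    rcases smul_eq_zero.mp h7.symm with h | h
    · norm_num at h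
    · exact h
  have h04eq : mul x0 x4 = ((2 - α) / 4) • x4 := by
    rw [hX] at hX0
    linear_combination (norm := module) (-(1 / 2) : ℝ) • hX0
  refine ⟨?_, ?_, ?_⟩
  · rw [hα, hp]; simp only [map_add, map_smul]; rw [hid, m4]; module
  · rw [hα, hx0e, hx4e, map_smul, h04eq]; module
  · rw [hα, hx4e]
    have h8 : B b (mul a b) = α := by
      rw [hcommul a b, hassoc b b a, hbb, hsymm b a, hα]
    have h9 : B x4 x4 = 4 * (α - α * α) := by
      rw [hp, hbdec] at h8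
      simp only [map_add, map_smul, smul_eq_mul, LinearMap.add_apply, LinearMap.smul_apply] at h8
      rw [haa, o4, o04, hsymm x0 a, o0, hsymm x4 a, o4] at h8
      linarith
    simp only [map_smul, smul_eq_mul, LinearMap.smul_apply]
    rw [h9]; ring

end aux

/-- Let V be a finite-dimensional real vector space with a commutative bilinear product and a positive-definite symmetric bilinear form that associates with the product and satisfies the Norton inequality (the Majorana setting of the definitions). Let μ₀, μ₁ be commuting Majorana involutions with distinct axial vectors a₀ ≠ a₁ of squared length 1, each involution having no other axial vector. Then either a₀ and a₁ are orthogonal with a₀ ∘ a₁ = 0 (type 2B), or their inner product is 1/8 and, with a₂ = a₀ + a₁ − 8 a₀ ∘ a₁, the vector a₂ is an idempotent and a₀ ∘ a₂ = (1/8)(a₀ + a₂ − a₁), a₁ ∘ a₂ = (1/8)(a₁ + a₂ − a₀) (type 2A: the three idempotents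 span a subalgebra with aᵢ ∘ aⱼ = (1/8)(aᵢ + aⱼ − aₖ)). -/
theorem result {V : Type*} [AddCommGroup V] [Module ℝ V] [FiniteDimensional ℝ V] (mul : V →ₗ[ℝ] V →ₗ[ℝ] V) (B : LinearMap.BilinForm ℝ V) (hV : Cfsg.Axial.IsMajoranaAmbient mul B) (μ₀ μ₁ : V ≃ₗ[ℝ] V) (a₀ a₁ : V) (h₀ : Cfsg.Axial.IsMajoranaPair mul B μ₀ a₀) (h₁ : Cfsg.Axial.IsMajoranaPair mul B μ₁ a₁) (hu₀ : ∀ a : V, Cfsg.Axial.IsMajoranaPair mul B μ₀ a → a = a₀) (hu₁ : ∀ a : V, Cfsg.Axial.IsMajoranaPair mul B μ₁ a → a = a₁) (hn₀ : B a₀ a₀ = 1) (hn₁ : B a₁ a₁ = 1) (hc : μ₀ * μ₁ = μ₁ * μ₀) (hne : a₀ ≠ a₁) : (B a₀ a₁ = 0 ∧ mul a₀ a₁ = 0) ∨ (B a₀ a₁ = 1 / 8 ∧ mul (a₀ + a₁ - (8 : ℝ) • mul a₀ a₁) (a₀ + a₁ - (8 : ℝ) • mul a₀ a₁) = a₀ + a₁ - (8 : ℝ) • mul a₀ a₁ ∧ mul a₀ (a₀ + a₁ - (8 : ℝ) • mul a₀ a₁) = (1 / 8 : ℝ) • (a₀ + (a₀ + a₁ - (8 : ℝ) • mul a₀ a₁) - a₁) ∧ mul a₁ (a₀ + a₁ - (8 : ℝ) • mul a₀ a₁) = (1 / 8 : ℝ) • (a₁ + (a₀ + a₁ - (8 : ℝ) • mul a₀ a₁) - a₀))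 := by
  obtain ⟨hcommul, hsymm, hpos, hassoc, -⟩ := hV
  have hc' : ∀ v, μ₁ (μ₀ v) = μ₀ (μ₁ v) := by
    intro v
    have h2 := congrArg (fun f : V ≃ₗ[ℝ] V => f v) hc
    exact h2.symm
  have hc'' : ∀ v, μ₀ (μ₁ v) = μ₁ (μ₀ v) := fun v => (hc' v).symm
  have hfix0 : μ₁ a₀ = a₀ := hu₀ _ (pair_transport mul B μ₁ μ₀ a₀ h₁.1 hc' h₀)
  have hfix1 : μ₀ a₁ = a₁ := hu₁ _ (pair_transport mul B μ₀ μ₁ a₁ h₀.1 hc'' h₁)
  have hid0 : mul a₀ a₀ = a₀ := h₀.2.2.1.1.2.1
  have hid1 : mul a₁ a₁ = a₁ := h₁.2.2.1.1.2.1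
  obtain ⟨i0, ii0, iii0⟩ := lemA mul B hcommul hsymm hassoc μ₀ a₀ a₁ h₀ hfix1 hid1 hn₀
  obtain ⟨i1, ii1, iii1⟩ := lemA mul B hcommul hsymm hassoc μ₁ a₁ a₀ h₁ hfix0 hid0 hn₁
  rw [hcommul a₁ a₀, hsymm a₁ a₀] at i1 ii1 iii1
  obtain ⟨p, hp⟩ : ∃ p, p = mul a₀ a₁ := ⟨_, rfl⟩
  obtain ⟨l, hl⟩ : ∃ l, l = B a₀ a₁ := ⟨_, rfl⟩
  rw [← hp, ← hl] at i0 ii0 iii0 i1 ii1 iii1 ⊢
  have hpa0 : mul p a₀ = (1 / 4 : ℝ) • p + (3 * l / 4) • a₀ := by rw [hcommul p a₀]; exact i0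
  have hpa1 : mul p a₁ = (1 / 4 : ℝ) • p + (3 * l / 4) • a₁ := by rw [hcommul p a₁]; exact i1
  have h10 : mul a₁ a₀ = p := by rw [hcommul a₁ a₀, hp]
  have h01 : mul a₀ a₁ = p := hp.symm
  simp only [map_sub, map_add, map_smul, LinearMap.sub_apply, LinearMap.add_apply,
    LinearMap.smul_apply] at ii0 ii1
  rw [h10, hid0, i0, hpa0] at ii0
  rw [h01, hid1, i1, hpa1] at ii1
  rw [i1] at ii0
  rw [i0] at ii1
  have key : ((l - 8 * l ^ 2) / 4) • (a₀ - a₁) = 0 := by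
    linear_combination (norm := module) ii1 - ii0
  rcases smul_eq_zero.mp key with h | h
  · have hl2 : l * (1 - 8 * l) = 0 := by linarith
    rcases mul_eq_zero.mp hl2 with h0 | h8
    · left
      refine ⟨h0, ?_⟩
      rw [h0] at iii0
      simp only [zero_smul, sub_zero] at iii0
      by_contra hp0
      have h3 := hpos p hp0
      rw [iii0] at h3
      norm_num at h3
    · right
      have hl8 : l = 1 / 8 := by linarith
      rw [hl8] at i0 i1 hpa0 hpa1 ii1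
      refine ⟨hl8, ?_, ?_, ?_⟩
      · simp only [map_sub, map_add, map_smul, LinearMap.sub_apply, LinearMap.add_apply,
          LinearMap.smul_apply]
        rw [h10, h01, hid0, hid1, i0, i1, hpa0, hpa1]
        linear_combination (norm := module) (-16 : ℝ) • ii1
      · simp only [map_sub, map_add, map_smul]
        rw [h01, hid0, i0]
        module
      · simp only [map_sub, map_add, map_smul]
        rw [h10, hid1, i1]
        module
  · exact absurd (sub_eq_zero.mp h) hne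

end Cfsg.Agent.S5545
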