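import Cfsg.Statements.S5546
import Cfsg.Agent.Helper27.Leech

set_option autoImplicit false
open Cfsg

namespace Cfsg.Agent.S5546

open Cfsg.Agent.Helper27

/-- the coordinate matrix modulo 13, divided by 8. -/
def mmat (f : leechLattice → leechLattice) : Matrix GolayPt GolayPt (ZMod 13) :=
  fun j i => 5 * ((cmat f j i : ℤ) : ZMod 13)

lemma mmat_comp (f g : leechLattice → leechLattice) (hf : ∀ v w, f (v + w) = f v + f w) :
    mmat (f ∘ g) = mmat f * mmat g := by
  ext j i
  have h := congrFun (congrFun (cmat_comp f g hf) j) i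
  rw [Matrix.smul_apply, Matrix.mul_apply, smul_eq_mul] at h
  have h' := congrArg (Int.cast : ℤ → ZMod 13) h
  push_cast at h'
  rw [Matrix.mul_apply]
  have e : ∀ k, mmat f j k * mmat g k i
      = 25 * (((cmat f j k : ℤ) : ZMod 13) * ((cmat g k i : ℤ) : ZMod 13)) := fun k => by
    unfold mmat; ring
  simp only [e]
  rw [← Finset.mul_sum, ← h']
  have e2 : (25 : ZMod 13) * 8 = 5 := by decide
  rw [← mul_assoc, e2]
  rfl

lemma mmat_id : mmat id = 1 := by
  ext j i
  unfold mmat
  rw [cmat_id, Matrix.smul_apply, Matrix.one_apply, Matrix.one_apply]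
  by_cases h : j = i
  · simp only [h, if_true]; decide
  · simp [h]

/-- the invariant hyperplane. -/
def W : Submodule (ZMod 13) (GolayPt → ZMod 13) :=
  LinearMap.ker ((LinearMap.proj none : (GolayPt → ZMod 13) →ₗ[ZMod 13] ZMod 13)
    + LinearMap.proj (some 0))

lemma mem_W (x : GolayPt → ZMod 13) : x ∈ W ↔ x none + x (some 0) = 0 := by
  unfold W; rw [LinearMap.mem_ker]; rfl

lemma col_id (f : leechLattice → leechLattice) (hf : ∀ v w, f (v + w) = f v + f w)
    (hfix : f Spor.leechU = Spor.leechU) (j : GolayPt) :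
    cmat f j none + cmat f j (some 0) = if j = none ∨ j = some 0 then 8 else 0 := by
  have h := cmat_key f hf Spor.leechU j
  rw [hfix] at h
  have h2 : ∀ i, cmat f j i * (Spor.leechU : GolayPt → ℤ) i
      = (if i = none ∨ i = some 0 then (4 : ℤ) else 0) * cmat f j i := by
    intro i; rw [mul_comm]; rfl
  simp only [h2] at h
  rw [sum_two_mul] at h
  have h3 : (Spor.leechU : GolayPt → ℤ) j = if j = none ∨ j = some 0 then 4 else 0 := rfl
  rw [h3] at h
  split_ifs at h ⊢ <;> linarith

lemma row_id (f : leechLattice → leechLattice) (hf : ∀ v w, f (v + w) = f v + f w)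
    (hn : ∀ v : leechLattice, sqNorm ((f v : leechLattice) : GolayPt → ℤ) = sqNorm (v : GolayPt → ℤ))
    (hfix : f Spor.leechU = Spor.leechU) (i : GolayPt) :
    cmat f none i + cmat f (some 0) i = if i = none ∨ i = some 0 then 8 else 0 := by
  have h := dot_pres f hf hn Spor.leechU (leechE i)
  rw [hfix] at h
  unfold dotInt at h
  have h2 : ∀ k, (Spor.leechU : GolayPt → ℤ) k * (f (leechE i) : GolayPt → ℤ) k
      = (if k = none ∨ k = some 0 then (4 : ℤ) else 0) * cmat f k i := fun k => rfl
  have h3 : ∀ k, (Spor.leechU : GolayPt → ℤ) k * (leechE i : GolayPt → ℤ) k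
      = (if k = i then (8 : ℤ) else 0) * (Spor.leechU : GolayPt → ℤ) k := by
    intro k; rw [mul_comm]; rfl
  simp only [h2, h3] at h
  rw [sum_two_mul, sum_ite_mul] at h
  have h4 : (Spor.leechU : GolayPt → ℤ) i = if i = none ∨ i = some 0 then 4 else 0 := rfl
  rw [h4] at h
  split_ifs at h ⊢ <;> linarith

lemma mulVec_mem_W (f : leechLattice → leechLattice) (hf : ∀ v w, f (v + w) = f v + f w)
    (hn : ∀ v : leechLattice, sqNorm ((f v : leechLattice) : GolayPt → ℤ) = sqNorm (v : GolayPt → ℤ))
    (hfix : f Spor.leechU = Spor.leechU) (x : GolayPt → ZMod 13) (hx : x ∈ W) :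
    (mmat f).mulVec x ∈ W := by
  rw [mem_W] at hx ⊢
  show ∑ i, mmat f none i * x i + ∑ i, mmat f (some 0) i * x i = 0
  rw [← Finset.sum_add_distrib]
  have h : ∀ i, mmat f none i * x i + mmat f (some 0) i * x i
      = (if i = none ∨ i = some 0 then (1 : ZMod 13) else 0) * x i := by
    intro i
    have h1 := congrArg (Int.cast : ℤ → ZMod 13) (row_id f hf hn hfix i)
    push_cast at h1
    have h2 : mmat f none i * x i + mmat f (some 0) i * x i
        = 5 * (((cmat f none i : ℤ) : ZMod 13) + ((cmat f (some 0) i : ℤ) : ZMod 13)) * x i := by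
      unfold mmat; ring
    rw [h2, h1]
    split_ifs
    · have h3 : (5 : ZMod 13) * 8 = 1 := by decide
      rw [h3]
    · simp
  simp only [h]
  rw [sum_two_mul, one_mul, one_mul]; exact hx

/-- the image of the fixed vector modulo 13 (up to the factor 4). -/
def u0 : GolayPt → ZMod 13 := fun j => if j = none ∨ j = some 0 then 1 else 0

lemma mulVec_u0 (f : leechLattice → leechLattice) (hf : ∀ v w, f (v + w) = f v + f w)
    (hfix : f Spor.leechU = Spor.leechU) : (mmat f).mulVec u0 = u0 := by
  funext j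
  show ∑ i, mmat f j i * u0 i = u0 j
  have h : ∀ i, mmat f j i * u0 i
      = (if i = none ∨ i = some 0 then (1 : ZMod 13) else 0) * mmat f j i := by
    intro i; rw [mul_comm]; rfl
  simp only [h]
  rw [sum_two_mul, one_mul, one_mul]
  have h1 := congrArg (Int.cast : ℤ → ZMod 13) (col_id f hf hfix j)
  push_cast at h1
  unfold mmat u0
  rw [← mul_add, h1]
  split_ifs
  · decide
  · simp

lemma co2_add (f : ↥Spor.Co2) : ∀ v w : leechLattice,
    (f : Equiv.Perm leechLattice) (v + w) = (f : Equiv.Perm leechLattice) v + (f : Equiv.Perm leechLattice) w :=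
  f.2.1.1

lemma co2_norm (f : ↥Spor.Co2) : ∀ v : leechLattice,
    sqNorm (((f : Equiv.Perm leechLattice) v : leechLattice) : GolayPt → ℤ) = sqNorm (v : GolayPt → ℤ) :=
  f.2.1.2

lemma co2_fix (f : ↥Spor.Co2) : (f : Equiv.Perm leechLattice) Spor.leechU = Spor.leechU :=
  f.2.2

/-- the action on the hyperplane. -/
noncomputable def rho : ↥Spor.Co2 →* Module.End (ZMod 13) W where
  toFun f := (Matrix.toLin' (mmat (f : Equiv.Perm leechLattice))).restrict (fun x hx => by
    rw [Matrix.toLin'_apply]
    exact mulVec_mem_W _ (co2_add f) (co2_norm f) (co2_fix f) x hx)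
  map_one' := by
    apply LinearMap.ext; intro w; apply Subtype.ext
    rw [LinearMap.restrict_coe_apply]
    have h : mmat (⇑((1 : ↥Spor.Co2) : Equiv.Perm leechLattice)) = 1 := by
      rw [Subgroup.coe_one, Equiv.Perm.coe_one, mmat_id]
    rw [h, Matrix.toLin'_one]; rfl
  map_mul' f g := by
    apply LinearMap.ext; intro w; apply Subtype.ext
    rw [LinearMap.restrict_coe_apply]
    have h : mmat (⇑((f * g : ↥Spor.Co2) : Equiv.Perm leechLattice))
        = mmat ⇑(f : Equiv.Perm leechLattice) * mmat ⇑(g : Equiv.Perm leechLattice) := by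
      rw [Subgroup.coe_mul, Equiv.Perm.coe_mul, mmat_comp _ _ (co2_add f)]
    rw [h, Matrix.toLin'_mul]; rfl

lemma rho_apply (f : ↥Spor.Co2) (w : W) :
    ((rho f w : W) : GolayPt → ZMod 13) = (mmat (f : Equiv.Perm leechLattice)).mulVec w := by
  show ((Matrix.toLin' (mmat (f : Equiv.Perm leechLattice))) w) = _
  rw [Matrix.toLin'_apply]

lemma finrank_W : Module.finrank (ZMod 13) W = 23 := by
  haveI : Fact (Nat.Prime 13) := ⟨by norm_num⟩
  have h := LinearMap.finrank_range_add_finrank_ker
    ((LinearMap.proj none : (GolayPt → ZMod 13) →ₗ[ZMod 13] ZMod 13) + LinearMap.proj (some 0))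
  have hr : LinearMap.range ((LinearMap.proj none : (GolayPt → ZMod 13) →ₗ[ZMod 13] ZMod 13)
      + LinearMap.proj (some 0)) = ⊤ := by
    rw [LinearMap.range_eq_top]
    intro c
    refine ⟨fun j => if j = none then c else 0, ?_⟩
    simp
  rw [hr, finrank_top, Module.finrank_self, Module.finrank_pi] at h
  have hc : Fintype.card GolayPt = 24 := by decide
  rw [hc] at h
  have h2 : Module.finrank (ZMod 13) (LinearMap.ker ((LinearMap.proj none :
      (GolayPt → ZMod 13) →ₗ[ZMod 13] ZMod 13) + LinearMap.proj (some 0))) = 23 := by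
    omega
  exact h2

lemma exists_basis : Nonempty (Module.Basis (Fin 23) (ZMod 13) W) := by
  haveI : Fact (Nat.Prime 13) := ⟨by norm_num⟩
  exact ⟨Module.finBasisOfFinrankEq (ZMod 13) W finrank_W⟩

lemma z13 : (13 : ZMod 13) = 0 := by decide

lemma z85 : (8 : ZMod 13) * 5 = 1 := by decide

/-- The second Conway group (the stabilizer in the Leech lattice automorphism group of the short vector fixed in the definitions) is isomorphic to a subgroup of the general linear group of degree 23 over the field with 13 elements: there is an injective homomorphism into it. -/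
theorem result : ∃ f : ↥Cfsg.Spor.Co2 →* GL (Fin 23) (ZMod 13), Function.Injective f := by
  obtain ⟨b⟩ := exists_basis
  let ι : Module.End (ZMod 13) W →* Matrix (Fin 23) (Fin 23) (ZMod 13) :=
    (LinearMap.toMatrixAlgEquiv b : Module.End (ZMod 13) W →* Matrix (Fin 23) (Fin 23) (ZMod 13))
  have hι : Function.Injective ι := (LinearMap.toMatrixAlgEquiv b).injective
  refine ⟨(Units.map ι).comp rho.toHomUnits, ?_⟩
  rw [injective_iff_map_eq_one]
  intro f hf
  have h1 : rho f = 1 := by
    have h2 := congrArg (fun u : GL (Fin 23) (ZMod 13) => (u : Matrix (Fin 23) (Fin 23) (ZMod 13))) hf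
    apply hι
    rw [map_one]
    exact h2
  have hWfix : ∀ x ∈ W, (mmat (f : Equiv.Perm leechLattice)).mulVec x = x := by
    intro x hx
    have h3 := rho_apply f ⟨x, hx⟩
    rw [h1] at h3
    exact h3.symm
  have hall : ∀ x : GolayPt → ZMod 13, (mmat (f : Equiv.Perm leechLattice)).mulVec x = x := by
    intro x
    obtain ⟨s, hs⟩ : ∃ s, s = x none + x (some 0) := ⟨_, rfl⟩
    have hw : x - (7 * s) • u0 ∈ W := by
      rw [mem_W]
      simp only [Pi.sub_apply, Pi.smul_apply, smul_eq_mul, u0]
      simp only [true_or, or_true, if_true]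
      linear_combination hs.symm - s * z13
    have e : x = (x - (7 * s) • u0) + (7 * s) • u0 := by abel
    rw [e, Matrix.mulVec_add, Matrix.mulVec_smul, hWfix _ hw,
      mulVec_u0 _ (co2_add f) (co2_fix f)]
  have hm1 : mmat (f : Equiv.Perm leechLattice) = 1 := by
    apply Matrix.toLin'.injective
    apply LinearMap.ext; intro x
    rw [Matrix.toLin'_apply, hall, Matrix.toLin'_one]; rfl
  have h13 : ∀ j i, ((cmat (f : Equiv.Perm leechLattice) j i : ℤ) : ZMod 13)
      = if j = i then 8 else 0 := by
    intro j i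
    have h4 := congrFun (congrFun hm1 j) i
    rw [Matrix.one_apply] at h4
    have h5 : ((cmat (f : Equiv.Perm leechLattice) j i : ℤ) : ZMod 13)
        = 8 * (5 * ((cmat (f : Equiv.Perm leechLattice) j i : ℤ) : ZMod 13)) := by
      rw [← mul_assoc, z85, one_mul]
    have h6 : mmat (f : Equiv.Perm leechLattice) j i
        = 5 * ((cmat (f : Equiv.Perm leechLattice) j i : ℤ) : ZMod 13) := rfl
    rw [h5, ← h6, h4]
    split_ifs <;> simp
  have hc := cmat_eq_of_mod13 _ (co2_norm f) h13
  have hid : ∀ v, (f : Equiv.Perm leechLattice) v = v := eq_self_of_cmat _ (co2_add f) hc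
  apply Subtype.ext
  apply Equiv.ext
  intro v
  exact hid v

end Cfsg.Agent.S5546
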