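import Cfsg.Statements.S5548
import Mathlib
import Cfsg.Agent.S1636
import Cfsg.Agent.S0711
import Cfsg.Agent.S0366
import Cfsg.Agent.S0362

set_option autoImplicit false
open Cfsg

namespace Cfsg.Agent.S5548

open Cfsg.Agent.Helper29.GolayConc Cfsg.Agent.Helper28.Golay
open Cfsg.Agent.S5623 (zmod2_eq_one)
open scoped Pointwise

/-- binary words on the 24 points -/
abbrev V : Type := GolayPt → ZMod 2

/-- action of a permutation on words -/
def act (σ : Equiv.Perm GolayPt) (w : V) : V := fun p => w (σ.symm p)

theorem act_add (σ : Equiv.Perm GolayPt) (w w' : V) : act σ (w + w') = act σ w + act σ w' := rfl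

theorem act_sub (σ : Equiv.Perm GolayPt) (w w' : V) : act σ (w - w') = act σ w - act σ w' := rfl

theorem act_single (σ : Equiv.Perm GolayPt) (a : GolayPt) :
    act σ (Pi.single a 1) = Pi.single (σ a) 1 := by
  funext p
  simp only [act, Pi.single_apply]
  by_cases h : p = σ a
  · rw [if_pos h, if_pos (by rw [h, Equiv.symm_apply_apply])]
  · rw [if_neg h, if_neg (fun h' => h (by rw [← h', Equiv.apply_symm_apply]))]

theorem mem_support (w : V) (q : GolayPt) : q ∈ support₂ w ↔ w q ≠ 0 := by
  rw [support₂, Finset.mem_filter]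
  simp

theorem support_act (σ : Equiv.Perm GolayPt) (w : V) : support₂ (act σ w) = σ • support₂ w := by
  ext p
  rw [Finset.mem_smul_finset, mem_support]
  constructor
  · intro h
    exact ⟨σ.symm p, (mem_support w _).2 h, by simp⟩
  · rintro ⟨q, hq, rfl⟩
    show w (σ.symm (σ • q)) ≠ 0
    rw [Equiv.Perm.smul_def, Equiv.symm_apply_apply]
    exact (mem_support w q).1 hq

theorem act_mem_code {σ : Equiv.Perm GolayPt} (hσ : σ ∈ M24) {c : V} (hc : c ∈ golayCode) :
    act σ c ∈ golayCode := by
  have h1 : support₂ c ∈ supports (golayCode : Set V) := ⟨c, hc, rfl⟩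
  obtain ⟨c', hc', h2⟩ := smul_mem_supports hσ h1
  rw [← support_act] at h2
  rw [← Cfsg.Agent.S1636.support_inj h2]
  exact hc'

theorem trans5 (Λ : Finset GolayPt) (hΛ : Λ.card ≤ 5) (s : Equiv.Perm GolayPt) :
    ∃ x ∈ M24, ∀ a ∈ Λ, x a = s a :=
  Cfsg.Agent.S0711.exists_agree M24 (by rw [card_pt]; omega) Cfsg.Agent.S0366.result Λ hΛ s

theorem two_trans (a b a' b' : GolayPt) (hab : a ≠ b) (hab' : a' ≠ b') :
    ∃ σ ∈ M24, σ a = a' ∧ σ b = b' := by
  have hb1 : Equiv.swap a a' b ≠ a' := by
    intro h
    have h2 : Equiv.swap a a' b = Equiv.swap a a' a := by rw [h, Equiv.swap_apply_left]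
    exact hab (Equiv.injective _ h2).symm
  obtain ⟨σ, hσM, hσ⟩ := trans5 {a, b} (le_trans Finset.card_le_two (by omega)) (Equiv.swap (Equiv.swap a a' b) b' * Equiv.swap a a')
  refine ⟨σ, hσM, ?_, ?_⟩
  · rw [hσ a (by simp), Equiv.Perm.mul_apply, Equiv.swap_apply_left,
      Equiv.swap_apply_of_ne_of_ne (Ne.symm hb1) hab']
  · rw [hσ b (by simp), Equiv.Perm.mul_apply, Equiv.swap_apply_left]

theorem swap_diff (u : V) (ρ : Equiv.Perm GolayPt) (t0 b0 : GolayPt) (ht0 : u t0 ≠ 0)
    (hb0 : u b0 = 0) (hρ1 : ρ t0 = b0) (hρ2 : ∀ p, u p ≠ 0 → p ≠ t0 → ρ p = p) :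
    act ρ u - u = Pi.single t0 1 + Pi.single b0 1 := by
  have h1 : u t0 = 1 := zmod2_eq_one _ ht0
  have hne : t0 ≠ b0 := by
    rintro rfl
    exact ht0 hb0
  funext p
  simp only [act, Pi.sub_apply, Pi.add_apply, Pi.single_apply]
  by_cases hp1 : p = b0
  · have h2 : ρ.symm p = t0 := by rw [hp1, ← hρ1, Equiv.symm_apply_apply]
    rw [h2, h1, hp1, hb0, if_neg (Ne.symm hne), if_pos rfl]
    decide
  · by_cases hp2 : p = t0
    · have hq : u (ρ.symm p) = 0 := by
        by_contra hq
        by_cases hqt : ρ.symm p = t0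
        · have h3 : ρ t0 = p := by rw [← hqt, Equiv.apply_symm_apply]
          rw [hρ1] at h3
          exact hp1 h3.symm
        · have h3 := hρ2 _ hq hqt
          rw [Equiv.apply_symm_apply] at h3
          rw [← h3] at hqt
          exact hqt hp2
      rw [hq, hp2, h1, if_pos rfl, if_neg hne]
      decide
    · have hq : u (ρ.symm p) = u p := by
        by_cases hup : u p = 0
        · rw [hup]
          by_contra hq
          by_cases hqt : ρ.symm p = t0
          · apply hp1
            rw [← hρ1, ← hqt, Equiv.apply_symm_apply]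
          · have h3 := hρ2 _ hq hqt
            rw [Equiv.apply_symm_apply] at h3
            rw [← h3] at hq
            exact hq hup
        · have h3 := hρ2 p hup hp2
          have h4 : ρ.symm p = p := by
            rw [Equiv.symm_apply_eq]
            exact h3.symm
          rw [h4]
      rw [hq, sub_self, if_neg hp2, if_neg hp1, add_zero]

/-- an invariant subspace outside the code meets every coset of a word of weight two -/
theorem step1 (W : Submodule (ZMod 2) V) (hW : ∀ σ ∈ M24, ∀ w ∈ W, act σ w ∈ W)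
    (hWC : ¬ W ≤ golayCode) :
    ∀ a b : GolayPt, a ≠ b → ∃ c ∈ golayCode, (Pi.single a 1 + Pi.single b 1 + c : V) ∈ W := by
  obtain ⟨w, hwW, hwC⟩ := SetLike.not_le_iff_exists.1 hWC
  obtain ⟨u, huC, hu4⟩ : ∃ u : V, u - w ∈ golayCode ∧ hammingNorm u ≤ 4 := by
    rcases gleaders w with ⟨u, h1, _⟩ | ⟨S, hS, hmem, _⟩
    · exact ⟨u, (h1 u).2 rfl⟩
    · obtain ⟨u, hu⟩ := Finset.card_pos.1 (by omega : 0 < S.card)
      exact ⟨u, (hmem u).1 hu⟩
  have hu0 : u ≠ 0 := by
    rintro rfl
    apply hwC
    have := golayCode.neg_mem huC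
    simpa using this
  obtain ⟨t0, ht0⟩ : ∃ t0, u t0 ≠ 0 := by
    by_contra h
    push Not at h
    exact hu0 (funext h)
  obtain ⟨b0, hb0⟩ : ∃ b0, u b0 = 0 := by
    by_contra h
    push Not at h
    have h24 : hammingNorm u = 24 := by
      show (Finset.univ.filter (fun p => u p ≠ 0)).card = 24
      rw [Finset.filter_true_of_mem (fun p _ => h p), Finset.card_univ, card_pt]
    omega
  have hcard : (support₂ u).card ≤ 5 := by
    have : (support₂ u).card = hammingNorm u := rfl
    omega
  have hmemS : ∀ p, u p ≠ 0 → p ∈ support₂ u := by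
    intro p hp
    simp only [support₂, Finset.mem_filter, Finset.mem_univ, true_and]
    exact hp
  obtain ⟨ρ, hρM, hρ⟩ := trans5 (support₂ u) hcard (Equiv.swap t0 b0)
  have hρ1 : ρ t0 = b0 := by rw [hρ t0 (hmemS t0 ht0), Equiv.swap_apply_left]
  have hρ2 : ∀ p, u p ≠ 0 → p ≠ t0 → ρ p = p := by
    intro p hp hpt
    rw [hρ p (hmemS p hp), Equiv.swap_apply_of_ne_of_ne hpt (by rintro rfl; exact hp hb0)]
  have hd := swap_diff u ρ t0 b0 ht0 hb0 hρ1 hρ2
  have hw' : act ρ w - w ∈ W := W.sub_mem (hW ρ hρM w hwW) hwW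
  have hc1 : (u - w) - act ρ (u - w) ∈ golayCode :=
    golayCode.sub_mem huC (act_mem_code hρM huC)
  have heq : act ρ w - w = Pi.single t0 1 + Pi.single b0 1 + ((u - w) - act ρ (u - w)) := by
    rw [← hd, act_sub]
    abel
  intro a b hab
  have hne : t0 ≠ b0 := by
    rintro rfl
    exact ht0 hb0
  obtain ⟨σ, hσM, hσa, hσb⟩ := two_trans t0 b0 a b hne hab
  refine ⟨act σ ((u - w) - act ρ (u - w)), act_mem_code hσM hc1, ?_⟩
  have h := hW σ hσM _ hw'
  rw [heq, act_add, act_add, act_single, act_single, hσa, hσb] at h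
  exact h

/-- an invariant subspace containing a word of weight two contains all even words -/
theorem step2 (W : Submodule (ZMod 2) V) (hW : ∀ σ ∈ M24, ∀ w ∈ W, act σ w ∈ W)
    (a b : GolayPt) (hab : a ≠ b) (h : (Pi.single a 1 + Pi.single b 1 : V) ∈ W) :
    ∀ w : V, ∑ p, w p = 0 → w ∈ W := by
  have hall : ∀ a' b' : GolayPt, a' ≠ b' → (Pi.single a' 1 + Pi.single b' 1 : V) ∈ W := by
    intro a' b' hab'
    obtain ⟨σ, hσM, hσa, hσb⟩ := two_trans a b a' b' hab hab'
    have h2 := hW σ hσM _ h
    rwa [act_add, act_single, act_single, hσa, hσb] at h2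
  intro w hw
  have hdec : w = ∑ p, w p • (Pi.single p 1 + Pi.single (none : GolayPt) 1 : V) := by
    have h1 : ∑ p, w p • (Pi.single p 1 + Pi.single (none : GolayPt) 1 : V)
        = ∑ p, w p • (Pi.single p 1 : V) + (∑ p, w p) • (Pi.single (none : GolayPt) 1 : V) := by
      rw [Finset.sum_smul, ← Finset.sum_add_distrib]
      simp only [smul_add]
    rw [h1, hw, zero_smul, add_zero]
    funext q
    simp [Finset.sum_apply, Pi.single_apply]
  rw [hdec]
  apply Submodule.sum_mem
  intro p _
  apply Submodule.smul_mem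
  by_cases hp : p = none
  · rw [hp]
    have h0 : (Pi.single (none : GolayPt) 1 + Pi.single (none : GolayPt) 1 : V) = 0 := by
      funext q
      simp only [Pi.add_apply, Pi.zero_apply]
      exact CharTwo.add_self_eq_zero _
    rw [h0]
    exact W.zero_mem
  · exact hall p none hp

theorem step3 (W : Submodule (ZMod 2) V) (hE : ∀ w : V, ∑ p, w p = 0 → w ∈ W) :
    (W : Set V) = {w | ∑ p, w p = 0} ∨ W = ⊤ := by
  by_cases h : ∀ w ∈ W, ∑ p, w p = 0
  · left
    ext w
    exact ⟨fun hw => h w hw, fun hw => hE w hw⟩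
  · right
    push Not at h
    obtain ⟨w0, hw0, hs0⟩ := h
    have hs1 : ∑ p, w0 p = 1 := zmod2_eq_one _ hs0
    rw [eq_top_iff]
    intro v _
    by_cases hv : ∑ p, v p = 0
    · exact hE v hv
    · have hv1 : ∑ p, v p = 1 := zmod2_eq_one _ hv
      have h2 : v - w0 ∈ W :=
        hE _ (by simp only [Pi.sub_apply, Finset.sum_sub_distrib, hv1, hs1, sub_self])
      have h3 := W.add_mem h2 hw0
      rwa [sub_add_cancel] at h3

/-- the dot product as a bilinear form -/
noncomputable def Bdot : LinearMap.BilinForm (ZMod 2) V :=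
  Matrix.toBilin' (1 : Matrix GolayPt GolayPt (ZMod 2))

theorem Bdot_apply (v w : V) : Bdot v w = ∑ p, v p * w p := by
  unfold Bdot
  rw [Matrix.toBilin'_apply']
  simp [dotProduct]

theorem Bdot_nondeg : Bdot.Nondegenerate := by
  unfold Bdot
  apply LinearMap.BilinForm.nondegenerate_toBilin'_of_det_ne_zero'
  simp

theorem Bdot_refl : Bdot.IsRefl := by
  intro v w h
  rw [Bdot_apply] at h ⊢
  rw [← h]
  exact Finset.sum_congr rfl (fun p _ => mul_comm _ _)

theorem const_cases (w : V) (hc : ∀ a b, w a = w b) : w = 0 ∨ w = fun _ => 1 := by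
  by_cases h0 : w none = 0
  · left
    funext p
    rw [hc p none, h0]
    rfl
  · right
    funext p
    rw [hc p none, zmod2_eq_one _ h0]

/-- invariant subspaces of the code -/
theorem claimB (W : Submodule (ZMod 2) V) (hW : ∀ σ ∈ M24, ∀ w ∈ W, act σ w ∈ W)
    (hWC : W ≤ golayCode) :
    W = ⊥ ∨ W = Submodule.span (ZMod 2) {fun _ => (1 : ZMod 2)} ∨ W = golayCode := by
  have hW'inv : ∀ σ ∈ M24, ∀ v ∈ Bdot.orthogonal W, act σ v ∈ Bdot.orthogonal W := by
    intro σ hσ v hv
    rw [LinearMap.BilinForm.mem_orthogonal_iff] at hv ⊢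
    intro w hw
    have h1 := hv (act σ⁻¹ w) (hW σ⁻¹ (M24.inv_mem hσ) w hw)
    rw [Bdot_apply] at h1 ⊢
    rw [← h1, ← Equiv.sum_comp σ]
    refine Finset.sum_congr rfl (fun q _ => ?_)
    show w (σ q) * v (σ.symm (σ q)) = w (σ⁻¹.symm q) * v q
    rw [Equiv.symm_apply_apply]
    rfl
  have hCle : golayCode ≤ Bdot.orthogonal W := by
    intro c hc
    rw [LinearMap.BilinForm.mem_orthogonal_iff]
    intro w hw
    rw [Bdot_apply]
    exact Cfsg.Agent.S0362.result w c (hWC hw) hc
  by_cases hle : Bdot.orthogonal W ≤ golayCode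
  · right; right
    have h1 : Bdot.orthogonal W = golayCode := le_antisymm hle hCle
    have h2 : Bdot.orthogonal golayCode = golayCode := by
      refine (Submodule.eq_of_le_of_finrank_eq ?_ ?_).symm
      · intro c hc
        rw [LinearMap.BilinForm.mem_orthogonal_iff]
        intro w hw
        rw [Bdot_apply]
        exact Cfsg.Agent.S0362.result w c hw hc
      · rw [LinearMap.BilinForm.finrank_orthogonal Bdot_nondeg, Cfsg.Agent.S0358.result]
        simp
    rw [← LinearMap.BilinForm.orthogonal_orthogonal Bdot_nondeg Bdot_refl W, h1, h2]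
  · have h1 := step1 _ hW'inv hle
    have hconst : ∀ w ∈ W, ∀ a b, w a = w b := by
      intro w hw a b
      by_cases hab : a = b
      · rw [hab]
      · obtain ⟨c, hc, hmem⟩ := h1 a b hab
        have h2 : (Pi.single a 1 + Pi.single b 1 : V) ∈ Bdot.orthogonal W := by
          have h3 := (Bdot.orthogonal W).sub_mem hmem (hCle hc)
          rwa [add_sub_cancel_right] at h3
        rw [LinearMap.BilinForm.mem_orthogonal_iff] at h2
        have h3 := h2 w hw
        rw [Bdot_apply] at h3
        have h4 : ∑ p, w p * (Pi.single a 1 + Pi.single b 1 : V) p = w a + w b := by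
          simp [mul_add, Finset.sum_add_distrib, Pi.single_apply]
        rw [h4] at h3
        exact CharTwo.add_eq_zero.1 h3
    by_cases h1W : (fun _ => (1 : ZMod 2)) ∈ W
    · right; left
      apply le_antisymm
      · intro w hw
        rcases const_cases w (hconst w hw) with h | h
        · rw [h]
          exact Submodule.zero_mem _
        · rw [h]
          exact Submodule.subset_span rfl
      · rw [Submodule.span_le]
        rintro x hx
        rw [Set.mem_singleton_iff] at hx
        rw [hx]
        exact h1W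
    · left
      rw [eq_bot_iff]
      intro w hw
      rcases const_cases w (hconst w hw) with h | h
      · rw [h]
        exact Submodule.zero_mem _
      · exfalso
        apply h1W
        rw [← h]
        exact hw

/-- if the invariant subspace meets the code only in constants, it contains a word of weight 2 -/
theorem small_case (W : Submodule (ZMod 2) V) (hW : ∀ σ ∈ M24, ∀ w ∈ W, act σ w ∈ W)
    (h1 : ∀ a b : GolayPt, a ≠ b → ∃ c ∈ golayCode, (Pi.single a 1 + Pi.single b 1 + c : V) ∈ W)
    (hsmall : ∀ x ∈ W, x ∈ golayCode → x = 0 ∨ x = fun _ => 1) :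
    ∃ a b : GolayPt, a ≠ b ∧ (Pi.single a 1 + Pi.single b 1 : V) ∈ W := by
  have hab : (none : GolayPt) ≠ some 0 := by decide
  obtain ⟨c, hc, hmem⟩ := h1 none (some 0) hab
  by_cases hc0 : c = 0
  · rw [hc0, add_zero] at hmem
    exact ⟨none, some 0, hab, hmem⟩
  by_cases hc1 : c = fun _ => 1
  · have hab' : (none : GolayPt) ≠ some 1 := by decide
    have hbb' : (some 1 : GolayPt) ≠ some 0 := by decide
    obtain ⟨σ, hσM, hσa, hσb⟩ := two_trans none (some 0) none (some 1) hab hab'
    have h2 := W.sub_mem (hW σ hσM _ hmem) hmem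
    have h3 : act σ c = c := by
      rw [hc1]
      rfl
    rw [act_add, act_add, act_single, act_single, hσa, hσb, h3] at h2
    refine ⟨some 1, some 0, hbb', ?_⟩
    have h4 : (Pi.single (none : GolayPt) 1 + Pi.single (some 1 : GolayPt) 1 + c
        - (Pi.single (none : GolayPt) 1 + Pi.single (some 0 : GolayPt) 1 + c) : V)
        = Pi.single (some 1 : GolayPt) 1 + Pi.single (some 0 : GolayPt) 1 := by
      rw [add_sub_add_right_eq_sub, add_sub_add_left_eq_sub, CharTwo.sub_eq_add]
    rw [h4] at h2
    exact h2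
  · exfalso
    have hwt : 8 ≤ hammingNorm c ∧ hammingNorm c ≤ 16 := by
      have h24 : hammingNorm c ≠ 24 := by
        intro h24
        apply hc1
        have h5 : (Finset.univ.filter (fun p => c p ≠ 0)).card = (Finset.univ : Finset GolayPt).card := by
          rw [Finset.card_univ, card_pt]
          exact h24
        rw [Finset.card_filter_eq_iff] at h5
        funext p
        exact zmod2_eq_one _ (h5 p (Finset.mem_univ p))
      have h0 : hammingNorm c ≠ 0 := fun h => hc0 (hammingNorm_eq_zero.1 h)
      rcases Cfsg.Agent.S0359.result c hc with h | h | h | h | h <;> omega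
    have hS : (support₂ c).card = hammingNorm c := rfl
    have hmemS : ∀ p, p ∈ support₂ c ↔ c p ≠ 0 := by
      intro p
      simp only [support₂, Finset.mem_filter, Finset.mem_univ, true_and]
    obtain ⟨x, hxS, hx⟩ := Finset.exists_mem_notMem_of_card_lt_card
      (t := support₂ c) (s := {none, some 0})
      (by
        have h7 : ({none, some 0} : Finset GolayPt).card ≤ 2 := Finset.card_le_two
        omega)
    obtain ⟨y, hyS, hy⟩ := Finset.exists_mem_notMem_of_card_lt_card
      (t := support₂ c) (s := {none, some 0, x})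
      (by
        have h7 : ({none, some 0, x} : Finset GolayPt).card ≤ 3 := Finset.card_le_three
        omega)
    obtain ⟨z, _, hz⟩ := Finset.exists_mem_notMem_of_card_lt_card
      (t := (Finset.univ : Finset GolayPt)) (s := support₂ c ∪ {none, some 0})
      (by
        rw [Finset.card_univ, card_pt]
        have h6 := Finset.card_union_le (support₂ c) ({none, some 0} : Finset GolayPt)
        have h7 : ({none, some 0} : Finset GolayPt).card ≤ 2 := Finset.card_le_two
        omega)
    simp only [Finset.mem_insert, Finset.mem_singleton, not_or] at hx hy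
    simp only [Finset.mem_union, Finset.mem_insert, Finset.mem_singleton, not_or] at hz
    obtain ⟨σ, hσM, hσ⟩ := trans5 {none, some 0, x, y}
      (le_trans (Finset.card_le_four) (by omega)) (Equiv.swap y z)
    have hσa : σ none = none := by
      rw [hσ none (by simp), Equiv.swap_apply_of_ne_of_ne (Ne.symm hy.1) (Ne.symm hz.2.1)]
    have hσb : σ (some 0) = some 0 := by
      rw [hσ (some 0) (by simp), Equiv.swap_apply_of_ne_of_ne (Ne.symm hy.2.1) (Ne.symm hz.2.2)]
    have hσx : σ x = x := by
      rw [hσ x (by simp), Equiv.swap_apply_of_ne_of_ne (Ne.symm hy.2.2)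
        (by rintro rfl; exact hz.1 hxS)]
    have hσy : σ y = z := by
      rw [hσ y (by simp), Equiv.swap_apply_left]
    have h2 := W.sub_mem (hW σ hσM _ hmem) hmem
    rw [act_add, act_add, act_single, act_single, hσa, hσb, add_sub_add_left_eq_sub] at h2
    have h3 : act σ c - c ∈ golayCode := golayCode.sub_mem (act_mem_code hσM hc) hc
    have hcx : c x ≠ 0 := (hmemS x).1 hxS
    have hcy : c y ≠ 0 := (hmemS y).1 hyS
    have hcz : c z = 0 := by
      by_contra h
      exact hz.1 ((hmemS z).2 h)
    have hvx : (act σ c - c) x = 0 := by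
      show c (σ.symm x) - c x = 0
      have : σ.symm x = x := by
        rw [Equiv.symm_apply_eq]
        exact hσx.symm
      rw [this, sub_self]
    have hvz : (act σ c - c) z ≠ 0 := by
      show c (σ.symm z) - c z ≠ 0
      have : σ.symm z = y := by
        rw [Equiv.symm_apply_eq]
        exact hσy.symm
      rw [this, hcz, sub_zero]
      exact hcy
    rcases hsmall _ h2 h3 with h | h
    · apply hvz
      rw [h]
      rfl
    · rw [h] at hvx
      exact one_ne_zero hvx

/-- For the automorphism group of the length-24 binary Golay code of the definitions (the Mathieu group of degree 24) acting on binary words of length 24 by permuting coordinates, the only invariant subspaces of the space of all words are: zero, the span of the all-ones word, the code itself, the even-weight words, and the whole space. (So the permutation module has a unique composition series.) -/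
theorem result (W : Submodule (ZMod 2) (Cfsg.GolayPt → ZMod 2)) (hW : ∀ σ ∈ Cfsg.M24, ∀ w ∈ W, (fun p => w (σ.symm p)) ∈ W) : W = ⊥ ∨ W = Submodule.span (ZMod 2) {fun _ => (1 : ZMod 2)} ∨ W = Cfsg.golayCode ∨ (W : Set (Cfsg.GolayPt → ZMod 2)) = {w | ∑ p, w p = 0} ∨ W = ⊤ := by
  have hW' : ∀ σ ∈ M24, ∀ w ∈ W, act σ w ∈ W := hW
  by_cases hle : W ≤ golayCode
  · rcases claimB W hW' hle with h | h | h
    · exact Or.inl h
    · exact Or.inr (Or.inl h)
    · exact Or.inr (Or.inr (Or.inl h))
  · right; right; right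
    have h1 := step1 W hW' hle
    have hkey : ∃ a b : GolayPt, a ≠ b ∧ (Pi.single a 1 + Pi.single b 1 : V) ∈ W := by
      have hW0inv : ∀ σ ∈ M24, ∀ w ∈ W ⊓ golayCode, act σ w ∈ W ⊓ golayCode :=
        fun σ hσ w hw => ⟨hW' σ hσ w hw.1, act_mem_code hσ hw.2⟩
      rcases claimB (W ⊓ golayCode) hW0inv inf_le_right with h | h | h
      · apply small_case W hW' h1
        intro x hxW hxC
        left
        have : x ∈ W ⊓ golayCode := ⟨hxW, hxC⟩
        rw [h] at this
        exact (Submodule.mem_bot _).1 this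
      · apply small_case W hW' h1
        intro x hxW hxC
        have hx : x ∈ W ⊓ golayCode := ⟨hxW, hxC⟩
        rw [h, Submodule.mem_span_singleton] at hx
        obtain ⟨r, rfl⟩ := hx
        by_cases hr : r = 0
        · left
          rw [hr, zero_smul]
        · right
          rw [zmod2_eq_one _ hr, one_smul]
      · have hCW : golayCode ≤ W := by
          rw [← h]
          exact inf_le_left
        have hab : (none : GolayPt) ≠ some 0 := by decide
        obtain ⟨c, hc, hmem⟩ := h1 none (some 0) hab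
        refine ⟨none, some 0, hab, ?_⟩
        have h3 := W.sub_mem hmem (hCW hc)
        rwa [add_sub_cancel_right] at h3
    obtain ⟨a, b, hab, hmem⟩ := hkey
    exact step3 W (step2 W hW' a b hab hmem)

end Cfsg.Agent.S5548
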