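import Cfsg.Statements.S5550
import Mathlib
import Cfsg.Agent.S5548
import Cfsg.Agent.Helper28.Sext
import Cfsg.Agent.Helper28.Restrict
import Cfsg.Agent.Helper28.M12Data
import Cfsg.Agent.Helper28.M24Data

set_option autoImplicit false
open Cfsg

namespace Cfsg.Agent.S5550

open Cfsg.Agent.Helper29.GolayConc Cfsg.Agent.Helper28.Golay Cfsg.Agent.Helper28
open Cfsg.Agent.S5623 (zmod2_eq_one)
open Cfsg.Agent.S5548 (V act act_add act_sub support_act act_mem_code trans5 mem_support)
open scoped Pointwise

/-- transitivity of the group on sets of at most five points -/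
theorem set_trans (T T' : Finset GolayPt) (h : T.card = T'.card) (h5 : T.card ≤ 5) :
    ∃ σ ∈ M24, σ • T = T' := by
  classical
  let e : {x // x ∈ T} ≃ {x // x ∈ T'} := Finset.equivOfCardEq h
  obtain ⟨σ, hσM, hσ⟩ := trans5 T h5 (e.extendSubtype)
  refine ⟨σ, hσM, ?_⟩
  apply Finset.eq_of_subset_of_card_le
  · intro x hx
    obtain ⟨y, hy, rfl⟩ := Finset.mem_smul_finset.1 hx
    rw [Equiv.Perm.smul_def, hσ y hy, Equiv.extendSubtype_apply_of_mem e y hy]
    exact (e ⟨y, hy⟩).2
  · rw [Finset.card_smul_finset, h]

theorem orbit_sets (T : Finset GolayPt) (h5 : T.card ≤ 5) :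
    (MulAction.orbit ↥M24 T).ncard = Nat.choose 24 T.card := by
  have h1 : MulAction.orbit ↥M24 T
      = ((Finset.powersetCard T.card (Finset.univ : Finset GolayPt) : Finset (Finset GolayPt)) :
          Set (Finset GolayPt)) := by
    ext x
    rw [Finset.mem_coe, Finset.mem_powersetCard]
    constructor
    · rintro ⟨g, rfl⟩
      refine ⟨Finset.subset_univ _, ?_⟩
      show ((g : Equiv.Perm GolayPt) • T).card = T.card
      rw [Finset.card_smul_finset]
    · rintro ⟨_, hx⟩
      obtain ⟨σ, hσM, hσ⟩ := set_trans T x hx.symm h5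
      exact ⟨⟨σ, hσM⟩, hσ⟩
  rw [h1, Set.ncard_coe_finset, Finset.card_powersetCard, Finset.card_univ, card_pt]

theorem orbit_sextet (Sx : Finset (Finset GolayPt)) (hSx : Sx ∈ sextets) :
    (MulAction.orbit ↥M24 Sx).ncard = 1771 := by
  have h1 : MulAction.orbit ↥M24 Sx = sextets := by
    ext x
    constructor
    · rintro ⟨g, rfl⟩
      exact smul_mem_sextets g.2 hSx
    · intro hx
      obtain ⟨t, ht⟩ := Finset.card_pos.1 (by rw [hSx.1]; omega : 0 < Sx.card)
      obtain ⟨t', ht'⟩ := Finset.card_pos.1 (by rw [hx.1]; omega : 0 < x.card)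
      have hc : t.card = 4 := hSx.2.1 t ht
      have hc' : t'.card = 4 := hx.2.1 t' ht'
      obtain ⟨σ, hσM, hσ⟩ := set_trans t t' (by rw [hc, hc']) (by omega)
      refine ⟨⟨σ, hσM⟩, ?_⟩
      show σ • Sx = x
      rw [sext_eq hSx ht, smul_sextOf hσM t hc, hσ, ← sext_eq hx ht']
  rw [h1, ncard_sextets]

theorem support_sub_disj (v v' : V) (hd : Disjoint (support₂ v) (support₂ v')) :
    support₂ (v - v') = support₂ v ∪ support₂ v' := by
  ext p
  rw [Finset.mem_union, mem_support, mem_support, mem_support]
  rw [Finset.disjoint_left] at hd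
  constructor
  · intro h
    by_contra hcon
    push Not at hcon
    apply h
    show v p - v' p = 0
    rw [hcon.1, hcon.2, sub_zero]
  · rintro (h | h)
    · have h2 : v' p = 0 := by
        by_contra h2
        exact hd ((mem_support v p).2 h) ((mem_support v' p).2 h2)
      show v p - v' p ≠ 0
      rw [h2, sub_zero]
      exact h
    · have h2 : v p = 0 := by
        by_contra h2
        exact hd ((mem_support v p).2 h2) ((mem_support v' p).2 h)
      show v p - v' p ≠ 0
      rw [h2, zero_sub]
      exact neg_ne_zero.mpr h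

theorem arith (a b n N k : ℕ) (ha : 0 < a) (h1 : a * n = 244823040) (h2 : b * N = 244823040)
    (h3 : b = a * k) : n = k * N := by
  rw [h3, ← h1, mul_assoc] at h2
  exact (Nat.eq_of_mul_eq_mul_left ha h2).symm

/-- a subgroup of the group of order `|M24| / n`, `n ∈ {1, 759, 2576}`, fixes no nonzero coset -/
theorem core (A : Finset GolayPt) (n : ℕ)
    (hn : Nat.card ↥(M24 ⊓ MulAction.stabilizer (Equiv.Perm GolayPt) A) * n = 244823040)
    (hn' : n = 1 ∨ n = 759 ∨ n = 2576) (w : V) (hw : w ∉ golayCode) :
    ∃ σ ∈ M24, σ • A = A ∧ act σ w - w ∉ golayCode := by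
  by_contra hcon
  push Not at hcon
  have hpos : 0 < Nat.card ↥(M24 ⊓ MulAction.stabilizer (Equiv.Perm GolayPt) A) := Nat.card_pos
  have hM := card_M24
  rcases gleaders w with ⟨v, h1, h2⟩ | ⟨S, hS, hmem, hprop⟩
  · -- unique leader
    have hvC : v - w ∈ golayCode := ((h1 v).2 rfl).1
    have hv0 : v ≠ 0 := by
      rintro rfl
      apply hw
      have := golayCode.neg_mem hvC
      simpa using this
    have hle : M24 ⊓ MulAction.stabilizer (Equiv.Perm GolayPt) A
        ≤ M24 ⊓ MulAction.stabilizer (Equiv.Perm GolayPt) (support₂ v) := by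
      intro σ hσ0
      have hσ : σ ∈ M24 ∧ σ • A = A :=
        ⟨(Subgroup.mem_inf.1 hσ0).1, MulAction.mem_stabilizer_iff.1 (Subgroup.mem_inf.1 hσ0).2⟩
      refine Subgroup.mem_inf.2 ⟨hσ.1, MulAction.mem_stabilizer_iff.2 ?_⟩
      have h3 := hcon σ hσ.1 hσ.2
      have h4 : act σ v - w ∈ golayCode := by
        have h5 := golayCode.add_mem (act_mem_code hσ.1 hvC) h3
        rw [act_sub] at h5
        have h6 : act σ v - act σ w + (act σ w - w) = act σ v - w := by abel
        rw [h6] at h5
        exact h5
      have h7 : hammingNorm (act σ v) ≤ 4 := by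
        have h8 : hammingNorm (act σ v) = (support₂ (act σ v)).card := rfl
        rw [h8, support_act, Finset.card_smul_finset]
        have h9 : (support₂ v).card = hammingNorm v := rfl
        omega
      have h10 := (h1 (act σ v)).1 ⟨h4, h7⟩
      rw [← support_act, h10]
    have hdvd := Subgroup.card_dvd_of_le hle
    obtain ⟨k, hk⟩ := hdvd
    have horb := card_eq_orbit_mul_stab M24 (support₂ v)
    have hcard : (support₂ v).card = hammingNorm v := rfl
    rw [orbit_sets (support₂ v) (by omega), hM, hcard] at horb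
    have hvpos : 0 < hammingNorm v := by
      rw [Nat.pos_iff_ne_zero]
      exact fun h => hv0 (hammingNorm_eq_zero.1 h)
    have har := arith _ _ n (Nat.choose 24 (hammingNorm v)) k hpos hn
      (by rw [mul_comm]; exact horb.symm) hk
    have hj : hammingNorm v = 1 ∨ hammingNorm v = 2 ∨ hammingNorm v = 3 := by omega
    rcases hj with hj | hj | hj <;> rw [hj] at har <;>
      norm_num [Nat.choose] at har <;> omega
  · -- sextet
    have hinj := Cfsg.Agent.S1636.support_inj
    have hSx : S.image support₂ ∈ sextets := by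
      refine ⟨by rw [Finset.card_image_of_injective _ hinj, hS], ?_, ?_⟩
      · intro t ht
        obtain ⟨v, hv, rfl⟩ := Finset.mem_image.1 ht
        exact (hprop v hv).1
      · intro t ht t' ht' hne
        obtain ⟨v, hv, rfl⟩ := Finset.mem_image.1 ht
        obtain ⟨v', hv', rfl⟩ := Finset.mem_image.1 ht'
        have hvv : v ≠ v' := by
          rintro rfl
          exact hne rfl
        have hd : Disjoint (support₂ v) (support₂ v') := (hprop v hv).2 v' hv' hvv
        have hC : v - v' ∈ golayCode := by
          have := golayCode.sub_mem ((hmem v).1 hv).1 ((hmem v').1 hv').1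
          rwa [sub_sub_sub_cancel_right] at this
        refine ⟨⟨v - v', hC, support_sub_disj v v' hd⟩, ?_⟩
        rw [Finset.card_union_of_disjoint hd]
        have h3 : (support₂ v).card = 4 := (hprop v hv).1
        have h4 : (support₂ v').card = 4 := (hprop v' hv').1
        omega
    have hle : M24 ⊓ MulAction.stabilizer (Equiv.Perm GolayPt) A
        ≤ M24 ⊓ MulAction.stabilizer (Equiv.Perm GolayPt) (S.image support₂) := by
      intro σ hσ0
      have hσ : σ ∈ M24 ∧ σ • A = A :=
        ⟨(Subgroup.mem_inf.1 hσ0).1, MulAction.mem_stabilizer_iff.1 (Subgroup.mem_inf.1 hσ0).2⟩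
      refine Subgroup.mem_inf.2 ⟨hσ.1, MulAction.mem_stabilizer_iff.2 ?_⟩
      have h3 := hcon σ hσ.1 hσ.2
      apply Finset.eq_of_subset_of_card_le
      · intro x hx
        obtain ⟨t, ht, rfl⟩ := Finset.mem_smul_finset.1 hx
        obtain ⟨v, hv, rfl⟩ := Finset.mem_image.1 ht
        rw [← support_act]
        apply Finset.mem_image_of_mem
        rw [hmem]
        constructor
        · have h5 := golayCode.add_mem (act_mem_code hσ.1 ((hmem v).1 hv).1) h3
          rw [act_sub] at h5
          have h6 : act σ v - act σ w + (act σ w - w) = act σ v - w := by abel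
          rw [h6] at h5
          exact h5
        · have h8 : hammingNorm (act σ v) = (support₂ (act σ v)).card := rfl
          rw [h8, support_act, Finset.card_smul_finset]
          have h9 : (support₂ v).card = 4 := (hprop v hv).1
          omega
      · rw [Finset.card_smul_finset]
    have hdvd := Subgroup.card_dvd_of_le hle
    obtain ⟨k, hk⟩ := hdvd
    have horb := card_eq_orbit_mul_stab M24 (S.image support₂)
    rw [orbit_sextet _ hSx, hM] at horb
    have har := arith _ _ n 1771 k hpos hn (by rw [mul_comm]; exact horb.symm) hk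
    rcases hn' with rfl | rfl | rfl <;> omega

theorem eq_of_support (σ : Equiv.Perm GolayPt) (u : V) (h : σ • support₂ u = support₂ u) :
    act σ u = u := by
  apply Cfsg.Agent.S1636.support_inj
  rw [support_act, h]

/-- Let u be a word of the length-24 binary Golay code of the definitions (possibly zero or all-ones) and w any binary word of length 24 outside the code. Then some automorphism of the code (a coordinate permutation preserving it) fixes u but moves w to a word not congruent to w modulo the code: the stabilizer of a codeword fixes no non-zero element of the quotient of the space of all words by the code. -/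
theorem result (u : (Cfsg.GolayPt → ZMod 2)) (hu : u ∈ Cfsg.golayCode) (w : (Cfsg.GolayPt → ZMod 2)) (hw : w ∉ Cfsg.golayCode) : ∃ σ ∈ Cfsg.M24, (fun p => u (σ.symm p)) = u ∧ (fun p => w (σ.symm p)) - w ∉ Cfsg.golayCode := by
  have hM := card_M24
  have hone : (fun _ => (1 : ZMod 2)) ∈ golayCode := by
    have : (1 : GolayPt → ZMod 2) ∈ golayCode :=
      Submodule.subset_span (Set.mem_union_right _ rfl)
    exact this
  have hS : (support₂ u).card = hammingNorm u := rfl
  rcases Cfsg.Agent.S0359.result u hu with h | h | h | h | h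
  · -- u = 0
    have hu0 : u = 0 := hammingNorm_eq_zero.1 h
    have hstab : M24 ⊓ MulAction.stabilizer (Equiv.Perm GolayPt) (∅ : Finset GolayPt) = M24 := by
      apply inf_eq_left.2
      intro σ _
      exact MulAction.mem_stabilizer_iff.2 (Finset.smul_finset_empty σ)
    obtain ⟨σ, hσM, -, hσ⟩ := core ∅ 1 (by rw [hstab, hM]) (Or.inl rfl) w hw
    refine ⟨σ, hσM, ?_, hσ⟩
    rw [hu0]
    rfl
  · -- octad
    have ho : support₂ u ∈ octads := ⟨⟨u, hu, rfl⟩, by rw [hS, h]⟩
    obtain ⟨σ, hσM, hσA, hσ⟩ := core (support₂ u) 759 (by rw [card_stab_oct' _ ho])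
      (Or.inr (Or.inl rfl)) w hw
    exact ⟨σ, hσM, eq_of_support σ u hσA, hσ⟩
  · -- dodecad
    have hd : support₂ u ∈ dodecads := ⟨⟨u, hu, rfl⟩, by rw [hS, h]⟩
    obtain ⟨σ, hσM, hσA, hσ⟩ := core (support₂ u) 2576
      (by rw [← card_stab_sub, card_stab_dod _ hd]) (Or.inr (Or.inr rfl)) w hw
    exact ⟨σ, hσM, eq_of_support σ u hσA, hσ⟩
  · -- complement of an octad
    have hu1 : u + (fun _ => (1 : ZMod 2)) ∈ golayCode := golayCode.add_mem hu hone
    have hS1 : support₂ (u + fun _ => (1 : ZMod 2)) = (support₂ u)ᶜ := by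
      ext p
      rw [Finset.mem_compl, mem_support, mem_support]
      show u p + 1 ≠ 0 ↔ ¬ u p ≠ 0
      constructor
      · intro h1 h2
        apply h1
        rw [zmod2_eq_one _ h2]
        decide
      · intro h1 h2
        push Not at h1
        rw [h1, zero_add] at h2
        exact one_ne_zero h2
    have ho : support₂ (u + fun _ => (1 : ZMod 2)) ∈ octads := by
      refine ⟨⟨_, hu1, rfl⟩, ?_⟩
      rw [hS1, Finset.card_compl, card_pt, hS, h]
    obtain ⟨σ, hσM, hσA, hσ⟩ := core _ 759 (by rw [card_stab_oct' _ ho])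
      (Or.inr (Or.inl rfl)) w hw
    refine ⟨σ, hσM, ?_, hσ⟩
    have h1 := eq_of_support σ _ hσA
    rw [act_add] at h1
    have h2 : act σ (fun _ => (1 : ZMod 2)) = fun _ => 1 := rfl
    rw [h2] at h1
    exact add_right_cancel h1
  · -- u = 1
    have hu1 : u = fun _ => 1 := by
      have h5 : (Finset.univ.filter (fun p => u p ≠ 0)).card
          = (Finset.univ : Finset GolayPt).card := by
        rw [Finset.card_univ, card_pt]
        exact h
      rw [Finset.card_filter_eq_iff] at h5
      funext p
      exact zmod2_eq_one _ (h5 p (Finset.mem_univ p))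
    have hstab : M24 ⊓ MulAction.stabilizer (Equiv.Perm GolayPt) (∅ : Finset GolayPt) = M24 := by
      apply inf_eq_left.2
      intro σ _
      exact MulAction.mem_stabilizer_iff.2 (Finset.smul_finset_empty σ)
    obtain ⟨σ, hσM, -, hσ⟩ := core ∅ 1 (by rw [hstab, hM]) (Or.inl rfl) w hw
    refine ⟨σ, hσM, ?_, hσ⟩
    rw [hu1]

end Cfsg.Agent.S5550
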