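import Cfsg.Statements.S5553
import Cfsg.Agent.Helper27.LeechIndex
-- import your own Cfsg.Agent.* helpers here

set_option autoImplicit false
open Cfsg

namespace Cfsg.Agent.S5553

open Cfsg.Agent.Helper27

/-- the subgroup `{0, 1}` of the binary words -/
abbrev DD : AddSubgroup (GolayPt → ZMod 2) := AddSubgroup.zmultiples (1 : GolayPt → ZMod 2)

/-- the isotropic subgroup: doubles `2y` in the lattice with `y` of constant parity -/
def AA : AddSubgroup (GolayPt → ℤ) := ((leechLattice.comap dbl) ⊓ DD.comap redTwo).map dbl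

lemma AA_le : AA ≤ leechLattice := by
  rintro x ⟨y, ⟨hy, -⟩, rfl⟩
  exact hy

lemma two_smul_mem (v : GolayPt → ℤ) (hv : v ∈ leechLattice) : (2 : ℤ) • v ∈ AA := by
  refine ⟨v, ⟨?_, ?_⟩, ?_⟩
  · show dbl v ∈ leechLattice
    exact leechLattice.add_mem hv hv
  · exact redTwo_of_mem v hv
  · funext i
    rw [dbl_apply]
    simp

lemma DD_le : DD ≤ golayCode.toAddSubgroup := by
  rw [AddSubgroup.zmultiples_le]
  exact Submodule.subset_span (Set.mem_union_right _ rfl)

lemma relIndex_DD : DD.relIndex golayCode.toAddSubgroup = 2 ^ 11 := by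
  have h1 := AddSubgroup.card_mul_index (DD.addSubgroupOf golayCode.toAddSubgroup)
  have h2 : Nat.card (DD.addSubgroupOf golayCode.toAddSubgroup) = 2 := by
    rw [Nat.card_congr (AddSubgroup.addSubgroupOfEquivOfLe DD_le).toEquiv]
    exact card_zmultiples_one
  rw [h2, card_code_add] at h1
  show (DD.addSubgroupOf golayCode.toAddSubgroup).index = 2 ^ 11
  generalize (DD.addSubgroupOf golayCode.toAddSubgroup).index = a at h1 ⊢
  omega

lemma index_AA : AA.relIndex leechLattice = 2 ^ 12 := by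
  have hK : (leechLattice.comap dbl).map dbl = leechLattice ⊓ redTwo.ker := by
    rw [AddSubgroup.map_comap_eq, ker_redTwo, inf_comm]
  have h1 : AA ≤ leechLattice ⊓ redTwo.ker := by
    rw [← hK]
    exact AddSubgroup.map_mono inf_le_left
  have h2 := AddSubgroup.relIndex_mul_relIndex AA (leechLattice ⊓ redTwo.ker) leechLattice h1
    inf_le_left
  have h3 : (leechLattice ⊓ redTwo.ker).relIndex leechLattice = 2 := by
    rw [AddSubgroup.inf_relIndex_left, AddSubgroup.relIndex_ker, map_redTwo_leech,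
      card_zmultiples_one]
  have h4 : AA.relIndex (leechLattice ⊓ redTwo.ker) = 2 ^ 11 := by
    rw [← hK]
    unfold AA
    rw [AddSubgroup.relIndex_map_map_of_injective _ _ dbl_injective, AddSubgroup.inf_relIndex_left,
      AddSubgroup.relIndex_comap, map_redTwo_half]
    exact relIndex_DD
  rw [h3, h4] at h2
  rw [← h2]
  norm_num

lemma sq_even8 (a : ℤ) (h : a % 2 = 0) : (8 : ℤ) ∣ a ^ 2 - 2 * a := by
  obtain ⟨q, rfl⟩ : ∃ q, a = 2 * q := ⟨a / 2, by omega⟩
  have h2 : (2 : ℤ) ∣ q * (q - 1) := by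
    rcases Int.emod_two_eq_zero_or_one q with h | h
    · exact Dvd.dvd.mul_right (Int.dvd_of_emod_eq_zero h) _
    · exact Dvd.dvd.mul_left (Int.dvd_of_emod_eq_zero (by omega)) _
  obtain ⟨r, hr⟩ := h2
  exact ⟨r, by linear_combination 4 * hr⟩

lemma sq_odd8 (a : ℤ) (h : a % 2 = 1) : (8 : ℤ) ∣ a ^ 2 - 1 := by
  obtain ⟨q, rfl⟩ : ∃ q, a = 2 * q + 1 := ⟨a / 2, by omega⟩
  have h2 : (2 : ℤ) ∣ q * (q + 1) := by
    rcases Int.emod_two_eq_zero_or_one q with h | h
    · exact Dvd.dvd.mul_right (Int.dvd_of_emod_eq_zero h) _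
    · exact Dvd.dvd.mul_left (Int.dvd_of_emod_eq_zero (by omega)) _
  obtain ⟨r, hr⟩ := h2
  exact ⟨r, by linear_combination 4 * hr⟩

lemma norm_AA (v : GolayPt → ℤ) (hv : v ∈ AA) : (32 : ℤ) ∣ sqNorm v := by
  obtain ⟨y, ⟨hy, hD⟩, rfl⟩ := hv
  have hy' : dbl y ∈ leechSet := (mem_leechLattice_iff _).mp hy
  have hn : sqNorm (dbl y) = 4 * ∑ i, y i ^ 2 := by
    unfold sqNorm
    rw [Finset.mul_sum]
    apply Finset.sum_congr rfl
    intro i _
    rw [dbl_apply]; ring
  rw [hn]
  obtain ⟨k, hk⟩ := AddSubgroup.mem_zmultiples_iff.mp hD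
  have hpar : ∀ i, y i % 2 = k % 2 := by
    intro i
    have h1 := congrFun hk i
    rw [redTwo_apply] at h1
    simp only [Pi.smul_apply, Pi.one_apply, zsmul_eq_mul, mul_one] at h1
    have h2 := (ZMod.intCast_eq_intCast_iff k (y i) 2).mp h1
    unfold Int.ModEq at h2
    push_cast at h2
    omega
  have h8 : (8 : ℤ) ∣ ∑ i, y i ^ 2 := by
    rcases Int.emod_two_eq_zero_or_one k with hk0 | hk1
    · have h2 : ∀ i, y i % 2 = 0 := fun i => by rw [hpar i, hk0]
      have d1 : (8 : ℤ) ∣ ∑ i, (y i ^ 2 - 2 * y i) :=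
        Finset.dvd_sum (fun i _ => sq_even8 _ (h2 i))
      rw [Finset.sum_sub_distrib, ← Finset.mul_sum] at d1
      rcases leechSet_cases _ hy' with ⟨-, s8, -⟩ | ⟨o2, -, -⟩
      · rw [sum_dbl] at s8
        omega
      · exfalso
        have := o2 none
        rw [dbl_apply] at this
        omega
    · have h2 : ∀ i, y i % 2 = 1 := fun i => by rw [hpar i, hk1]
      have d1 : (8 : ℤ) ∣ ∑ i, (y i ^ 2 - 1) :=
        Finset.dvd_sum (fun i _ => sq_odd8 _ (h2 i))
      rw [Finset.sum_sub_distrib] at d1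
      have c : ∑ _i : GolayPt, (1 : ℤ) = 24 := by
        rw [Finset.sum_const, Finset.card_univ]
        rfl
      rw [c] at d1
      omega
  omega

/-- The Leech lattice of the definitions has an additive subgroup A containing twice the lattice, of index 2^12 in the lattice, all of whose vectors have squared length divisible by 32: the invariant quadratic form 'squared length over 16 modulo 2' on the lattice modulo twice the lattice (a 24-dimensional space over the field with two elements) vanishes on a 12-dimensional subspace, so it is of plus type. -/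
theorem result : ∃ A : AddSubgroup (Cfsg.GolayPt → ℤ), A ≤ Cfsg.leechLattice ∧ (∀ v ∈ Cfsg.leechLattice, (2 : ℤ) • v ∈ A) ∧ (A.addSubgroupOf Cfsg.leechLattice).index = 2 ^ 12 ∧ ∀ v ∈ A, (32 : ℤ) ∣ Cfsg.sqNorm v := by
  exact ⟨AA, AA_le, two_smul_mem, index_AA, norm_AA⟩

end Cfsg.Agent.S5553
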