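import Cfsg.Statements.S5594
import Cfsg.Agent.S0372
import Cfsg.Agent.S0432
import Cfsg.Agent.S0433
-- import your own Cfsg.Agent.* helpers here

set_option autoImplicit false
open Cfsg

namespace Cfsg.Agent.S5594

open Cfsg.Agent.Helper27

/-- the dodecad of squares -/
def dd : Finset GolayPt := support₂ (qrWord 0)

lemma dd_mem : dd ∈ supports (golayCode : Set (GolayPt → ZMod 2)) :=
  ⟨qrWord 0, Submodule.subset_span (Set.mem_union_left _ (Set.mem_range_self 0)), rfl⟩

lemma dd_flip : ∀ i : GolayPt, (i ∈ dd ↔ ¬ projInv i ∈ dd) := by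
  simp only [dd, support₂, Finset.mem_filter, Finset.mem_univ, true_and]
  decide

lemma projInv_projInv : ∀ i : GolayPt, projInv (projInv i) = i := by decide

/-- the underlying function of the special automorphism -/
def gfun (x : GolayPt → ℤ) : GolayPt → ℤ :=
  fun i => if i ∈ dd then -x (projInv i) else x (projInv i)

lemma gfun_mem (x : GolayPt → ℤ) (hx : x ∈ leechLattice) : gfun x ∈ leechLattice :=
  Cfsg.Agent.S0433.result dd dd_mem (fun i => x (projInv i))
    (Cfsg.Agent.S0432.result projInv Cfsg.Agent.S0372.result x hx)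

lemma gfun_gfun (x : GolayPt → ℤ) : gfun (gfun x) = -x := by
  funext i
  have h := dd_flip i
  have hp := projInv_projInv i
  simp only [gfun, Pi.neg_apply, hp]
  by_cases h1 : i ∈ dd
  · have h2 : ¬ projInv i ∈ dd := h.mp h1
    simp [h1, h2]
  · have h2 : projInv i ∈ dd := by
      by_contra h2
      exact h1 (h.mpr h2)
    simp [h1, h2]

lemma gfun_add (x y : GolayPt → ℤ) : gfun (x + y) = gfun x + gfun y := by
  funext i
  simp only [gfun, Pi.add_apply]
  split_ifs <;> ring

lemma gfun_neg (x : GolayPt → ℤ) : gfun (-x) = -gfun x := by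
  funext i
  simp only [gfun, Pi.neg_apply]
  split_ifs <;> ring

lemma sqNorm_gfun (x : GolayPt → ℤ) : sqNorm (gfun x) = sqNorm x := by
  unfold sqNorm
  rw [← Equiv.sum_comp projInv (fun i => x i ^ 2)]
  apply Finset.sum_congr rfl
  intro i _
  simp only [gfun]
  split_ifs <;> ring

lemma sqNorm_neg (x : GolayPt → ℤ) : sqNorm (-x) = sqNorm x := by
  unfold sqNorm
  apply Finset.sum_congr rfl
  intro i _
  simp only [Pi.neg_apply]
  ring

/-- the special automorphism as a permutation of the lattice -/
def gPerm : Equiv.Perm leechLattice where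
  toFun v := ⟨gfun v.1, gfun_mem v.1 v.2⟩
  invFun v := ⟨-gfun v.1, neg_mem (gfun_mem v.1 v.2)⟩
  left_inv v := by
    apply Subtype.ext
    show -gfun (gfun v.1) = v.1
    rw [gfun_gfun, neg_neg]
  right_inv v := by
    apply Subtype.ext
    show gfun (-gfun v.1) = v.1
    rw [gfun_neg, gfun_gfun, neg_neg]

lemma gPerm_mem : gPerm ∈ Co0 := by
  refine ⟨fun v w => ?_, fun v => ?_⟩
  · apply Subtype.ext
    show gfun ((v + w : leechLattice) : GolayPt → ℤ) = gfun v.1 + gfun w.1
    rw [AddSubgroup.coe_add, gfun_add]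
  · exact sqNorm_gfun v.1

/-- negation as a permutation of the lattice -/
def nPerm : Equiv.Perm leechLattice := Equiv.neg leechLattice

lemma nPerm_mem : nPerm ∈ Co0 := by
  refine ⟨fun v w => ?_, fun v => ?_⟩
  · show -(v + w) = -v + -w
    rw [neg_add]
  · show sqNorm ((-v : leechLattice) : GolayPt → ℤ) = _
    rw [AddSubgroup.coe_neg, sqNorm_neg]

lemma eight_mem : (fun _ : GolayPt => (8 : ℤ)) ∈ leechLattice := by
  rw [mem_leechLattice_iff]
  apply mem_leechSet_of_even
  · intro i; rfl
  · simp
  · have e : (Finset.univ.filter fun _ : GolayPt => (8 : ℤ) % 4 = 2) = ∅ := by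
      ext i; simp
    rw [e]
    exact ⟨0, golayCode.zero_mem, by ext i; simp [support₂]⟩

/-- The automorphism group of the Leech lattice contains the negation map, and the subgroup of order 2 it generates has no complement: the automorphism group is a non-split extension of its quotient by that subgroup (it is not the direct product of a group of order 2 with the first Conway group). -/
theorem result :
    ∃ n : ↥Cfsg.Co0, (∀ v : ↥Cfsg.leechLattice, ((n • v : ↥Cfsg.leechLattice) : Cfsg.GolayPt → ℤ) = -(v : Cfsg.GolayPt → ℤ)) ∧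
    ∀ K : Subgroup ↥Cfsg.Co0, ¬ (Subgroup.zpowers n).IsComplement' K := by
  let n : Co0 := ⟨nPerm, nPerm_mem⟩
  let g : Co0 := ⟨gPerm, gPerm_mem⟩
  have hgg : g * g = n := by
    apply Subtype.ext
    apply Equiv.ext
    intro v
    apply Subtype.ext
    show gfun (gfun v.1) = -v.1
    exact gfun_gfun v.1
  have hnn : n * n = 1 := by
    apply Subtype.ext
    apply Equiv.ext
    intro v
    show - -v = v
    exact neg_neg v
  have hcent : ∀ k : Co0, n * k = k * n := by
    intro k
    apply Subtype.ext
    apply Equiv.ext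
    intro v
    show -(k.1 v) = k.1 (-v)
    have h1 := k.2.1 v (-v)
    have h0 : k.1 0 = 0 := by
      have h00 := k.2.1 0 0
      rw [add_zero] at h00
      exact left_eq_add.mp h00
    rw [add_neg_cancel, h0] at h1
    exact neg_eq_of_add_eq_zero_right h1.symm
  have hn1 : n ≠ 1 := by
    intro h
    have h8 := congrArg (fun e : Co0 => ((e.1 ⟨_, eight_mem⟩ : leechLattice) : GolayPt → ℤ) none) h
    have h9 : (-(8 : ℤ)) = 8 := h8
    omega
  refine ⟨n, fun v => rfl, ?_⟩
  intro K hK
  obtain ⟨⟨⟨h, hh⟩, ⟨k, hk⟩⟩, hx⟩ := hK.2 g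
  simp only at hx
  have hh2 : h * h = 1 := by
    obtain ⟨m, rfl⟩ := Subgroup.mem_zpowers_iff.mp hh
    rw [← (Commute.refl n).mul_zpow, hnn, one_zpow]
  have hhk : h * k = k * h := by
    obtain ⟨m, rfl⟩ := Subgroup.mem_zpowers_iff.mp hh
    exact ((show Commute n k from hcent k).zpow_left m).eq
  have hnK : n ∈ K := by
    have e : n = k * k := by
      rw [← hgg, ← hx]
      calc h * k * (h * k) = h * (k * h) * k := by group
        _ = h * (h * k) * k := by rw [hhk]
        _ = (h * h) * (k * k) := by group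
        _ = k * k := by rw [hh2, one_mul]
    rw [e]
    exact K.mul_mem hk hk
  have hdisj := hK.disjoint
  have hmem : n ∈ (Subgroup.zpowers n) ⊓ K := ⟨Subgroup.mem_zpowers n, hnK⟩
  rw [hdisj.eq_bot] at hmem
  exact hn1 (Subgroup.mem_bot.mp hmem)

end Cfsg.Agent.S5594
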