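import Cfsg.Statements.S5599
import Cfsg.Agent.Helper28.Classes
import Cfsg.Agent.Helper28.Restrict

set_option autoImplicit false
open scoped Pointwise
open Cfsg

namespace Cfsg.Agent.S5599

open Cfsg.Agent.Helper28 Cfsg.Agent.Helper28.Golay
open scoped Pointwise

theorem mem_M22 (x : Equiv.Perm Cfsg.GolayPt) :
    x ∈ Cfsg.Spor.M22 ↔ x ∈ Cfsg.M24 ∧ x none = none ∧ x (some 0) = some 0 := by
  constructor
  · intro h
    obtain ⟨h1, h2⟩ := Subgroup.mem_inf.1 h
    obtain ⟨h3, h4⟩ := Subgroup.mem_inf.1 h1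
    exact ⟨h3, MulAction.mem_stabilizer_iff.1 h4, MulAction.mem_stabilizer_iff.1 h2⟩
  · rintro ⟨h1, h2, h3⟩
    exact Subgroup.mem_inf.2 ⟨Subgroup.mem_inf.2 ⟨h1, MulAction.mem_stabilizer_iff.2 h2⟩,
      MulAction.mem_stabilizer_iff.2 h3⟩

theorem M22_eq : Cfsg.M24 ⊓ fixingSubgroup (Equiv.Perm Cfsg.GolayPt)
    ((({none, some 0} : Finset Cfsg.GolayPt)) : Set Cfsg.GolayPt) = Cfsg.Spor.M22 := by
  ext x
  rw [mem_M22, Subgroup.mem_inf, mem_fixingSubgroup_iff]
  constructor
  · rintro ⟨h1, h2⟩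
    exact ⟨h1, h2 none (by simp), h2 (some 0) (by simp)⟩
  · rintro ⟨h1, h2, h3⟩
    refine ⟨h1, fun p hp => ?_⟩
    simp only [Finset.coe_insert, Finset.coe_singleton, Set.mem_insert_iff,
      Set.mem_singleton_iff] at hp
    rcases hp with rfl | rfl
    · exact h2
    · exact h3

theorem exists_fifth (a b c d : Cfsg.GolayPt) : ∃ e, e ≠ a ∧ e ≠ b ∧ e ≠ c ∧ e ≠ d := by
  have h1 : ({a, b, c, d} : Finset Cfsg.GolayPt).card ≤ 4 := Finset.card_le_four
  have h2 : (Finset.univ \ ({a, b, c, d} : Finset Cfsg.GolayPt)).Nonempty := by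
    rw [← Finset.card_pos, Finset.card_sdiff_of_subset (Finset.subset_univ _), Finset.card_univ]
    have h3 : Fintype.card Cfsg.GolayPt = 24 := by decide +kernel
    omega
  obtain ⟨e, he⟩ := h2
  rw [Finset.mem_sdiff] at he
  have h4 := he.2
  simp only [Finset.mem_insert, Finset.mem_singleton, not_or] at h4
  exact ⟨e, h4.1, h4.2.1, h4.2.2.1, h4.2.2.2⟩

/-- In the automorphism group of the length-24 code, the two-point Mathieu group (permutations of the code's group fixing the extra point and the residue 0) has index 2 in the setwise stabiliser of that pair of points, and an element of the code's group interchanging the two points normalises the two-point group and induces on it, by conjugation, an automorphism that is not inner. -/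
theorem result (g : Equiv.Perm Cfsg.GolayPt) (hg : g ∈ Cfsg.M24) (h₁ : g none = some 0) (h₂ : g (some 0) = none) : Cfsg.Spor.M22.relIndex (Cfsg.M24 ⊓ MulAction.stabilizer (Equiv.Perm Cfsg.GolayPt) ({none, some 0} : Finset Cfsg.GolayPt)) = 2 ∧ (∀ x ∈ Cfsg.Spor.M22, g * x * g⁻¹ ∈ Cfsg.Spor.M22) ∧ ¬ ∃ h ∈ Cfsg.Spor.M22, ∀ x ∈ Cfsg.Spor.M22, g * x * g⁻¹ = h * x * h⁻¹ := by

  have hgi1 : g⁻¹ none = some 0 := by rw [Equiv.Perm.inv_eq_iff_eq, h₂]
  have hgi2 : g⁻¹ (some 0) = none := by rw [Equiv.Perm.inv_eq_iff_eq, h₁]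
  have hle : Cfsg.Spor.M22 ≤ Cfsg.M24 ⊓ MulAction.stabilizer (Equiv.Perm Cfsg.GolayPt)
      ({none, some 0} : Finset Cfsg.GolayPt) := by
    rw [← M22_eq]
    exact inf_le_inf_left _ (fixing_le_stab _)
  have hgS : g ∈ MulAction.stabilizer (Equiv.Perm Cfsg.GolayPt)
      ({none, some 0} : Finset Cfsg.GolayPt) := by
    rw [MulAction.mem_stabilizer_iff, Finset.smul_finset_insert, Finset.smul_finset_singleton,
      Equiv.Perm.smul_def, Equiv.Perm.smul_def, h₁, h₂, Finset.pair_comm]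
  refine ⟨?_, ?_, ?_⟩
  · have h1 := card_range_restr Cfsg.M24 ({none, some 0} : Finset Cfsg.GolayPt)
    rw [M22_eq] at h1
    have h2 : Nat.card (Equiv.Perm ↥({none, some 0} : Finset Cfsg.GolayPt)) = 2 := by
      rw [Nat.card_perm, Nat.card_eq_fintype_card, Fintype.card_coe]
      rfl
    have h3 : Nat.card (restr Cfsg.M24 ({none, some 0} : Finset Cfsg.GolayPt)).range ∣ 2 := by
      rw [← h2]
      exact Subgroup.card_subgroup_dvd_card _
    have h4 : Nat.card (restr Cfsg.M24 ({none, some 0} : Finset Cfsg.GolayPt)).range ≠ 1 := by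
      intro hc
      rw [Subgroup.card_eq_one] at hc
      have h5 : restr Cfsg.M24 ({none, some 0} : Finset Cfsg.GolayPt)
          ⟨g, Subgroup.mem_inf.2 ⟨hg, hgS⟩⟩ ∈ (⊥ : Subgroup _) := by
        rw [← hc]
        exact ⟨_, rfl⟩
      rw [Subgroup.mem_bot] at h5
      have h6 := congrArg (fun e : Equiv.Perm ↥({none, some 0} : Finset Cfsg.GolayPt) =>
        ((e ⟨none, by simp⟩ : ↥({none, some 0} : Finset Cfsg.GolayPt)) : Cfsg.GolayPt)) h5
      have h7 : g none = none := h6
      rw [h₁] at h7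
      exact absurd h7 (by decide)
    have h5 : Nat.card (restr Cfsg.M24 ({none, some 0} : Finset Cfsg.GolayPt)).range = 2 := by
      rcases (Nat.dvd_prime Nat.prime_two).1 h3 with h | h
      · exact absurd h h4
      · exact h
    rw [h5] at h1
    have h6 := Subgroup.relIndex_mul_relIndex ⊥ Cfsg.Spor.M22 _ bot_le hle
    rw [Subgroup.relIndex_bot_left, Subgroup.relIndex_bot_left, ← h1] at h6
    have h7 : 0 < Nat.card ↥Cfsg.Spor.M22 := Nat.card_pos
    have h8 : Nat.card ↥Cfsg.Spor.M22 * Cfsg.Spor.M22.relIndex (Cfsg.M24 ⊓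
        MulAction.stabilizer (Equiv.Perm Cfsg.GolayPt) ({none, some 0} : Finset Cfsg.GolayPt)) =
        Nat.card ↥Cfsg.Spor.M22 * 2 := by rw [h6, mul_comm]
    exact Nat.eq_of_mul_eq_mul_left h7 h8
  · intro x hx
    rw [mem_M22] at hx ⊢
    refine ⟨Cfsg.M24.mul_mem (Cfsg.M24.mul_mem hg hx.1) (Cfsg.M24.inv_mem hg), ?_, ?_⟩
    · rw [Equiv.Perm.mul_apply, Equiv.Perm.mul_apply, hgi1, hx.2.2, h₂]
    · rw [Equiv.Perm.mul_apply, Equiv.Perm.mul_apply, hgi2, hx.2.1, h₁]
  · rintro ⟨h, hh, hconj⟩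
    rw [mem_M22] at hh
    have hhi1 : h⁻¹ none = none := by rw [Equiv.Perm.inv_eq_iff_eq, hh.2.1]
    have hhi2 : h⁻¹ (some 0) = some 0 := by rw [Equiv.Perm.inv_eq_iff_eq, hh.2.2]
    have hc1 : (h⁻¹ * g) none = some 0 := by rw [Equiv.Perm.mul_apply, h₁, hhi2]
    have hc2 : (h⁻¹ * g) (some 0) = none := by rw [Equiv.Perm.mul_apply, h₂, hhi1]
    have hcM : h⁻¹ * g ∈ Cfsg.M24 := Cfsg.M24.mul_mem (Cfsg.M24.inv_mem hh.1) hg
    have hcomm : ∀ x ∈ Cfsg.Spor.M22, (h⁻¹ * g) * x = x * (h⁻¹ * g) := by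
      intro x hx
      have := hconj x hx
      have e : g * x = h * x * h⁻¹ * g := by rw [← this]; group
      rw [mul_assoc, e]
      group
    generalize h⁻¹ * g = c at hc1 hc2 hcM hcomm
    have hfix : ∀ p, p ≠ none → p ≠ some 0 → c p = p := by
      intro p hp1 hp2
      by_contra hne
      have hq1 : c p ≠ none := fun e => hp2 (c.injective (e.trans hc2.symm))
      have hq2 : c p ≠ some 0 := fun e => hp1 (c.injective (e.trans hc1.symm))
      obtain ⟨q', e1, e2, e3, e4⟩ := exists_fifth none (some 0) p (c p)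
      obtain ⟨σ, hσ, s1, s2, s3, s4⟩ := trans4 none (some 0) p (c p) none (some 0) p q'
        (by decide) (Ne.symm hp1) (Ne.symm hp2) (Ne.symm hq1) (Ne.symm hq2) (Ne.symm hne)
        (by decide) (Ne.symm hp1) (Ne.symm hp2) (Ne.symm e1) (Ne.symm e2) (Ne.symm e3)
      have h9 := hcomm σ ((mem_M22 σ).2 ⟨hσ, s1, s2⟩)
      have h10 := congrArg (fun z : Equiv.Perm Cfsg.GolayPt => z p) h9
      simp only [Equiv.Perm.mul_apply] at h10
      rw [s3, s4] at h10
      exact e4 h10.symm
    have hc2' : c ^ 2 = 1 := by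
      refine Equiv.ext fun p => ?_
      rw [pow_two, Equiv.Perm.mul_apply]
      by_cases hp1 : p = none
      · rw [hp1, hc1, hc2]
        rfl
      · by_cases hp2 : p = some 0
        · rw [hp2, hc2, hc1]
          rfl
        · rw [hfix p hp1 hp2, hfix p hp1 hp2]
          rfl
    have hc1' : c ≠ 1 := by
      intro e
      rw [e] at hc1
      exact absurd hc1 (by decide)
    have ho : orderOf c = 2 := orderOf_eq_prime hc2' hc1'
    rcases invol_cases c hcM ho with ⟨k, hk, e, hoct, -⟩ | ⟨k, hk, e, hf⟩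
    · have h8 := hoct.2
      have hsub : (Finset.univ \ ({none, some 0} : Finset Cfsg.GolayPt)) ⊆
          Finset.univ.filter fun p => c p = p := by
        intro p hp
        rw [Finset.mem_sdiff] at hp
        have h4 := hp.2
        simp only [Finset.mem_insert, Finset.mem_singleton, not_or] at h4
        exact Finset.mem_filter.2 ⟨Finset.mem_univ p, hfix p h4.1 h4.2⟩
      have h9 := Finset.card_le_card hsub
      rw [h8, Finset.card_sdiff_of_subset (Finset.subset_univ _), Finset.card_univ] at h9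
      have h3 : Fintype.card Cfsg.GolayPt = 24 := by decide +kernel
      have h10 : ({none, some 0} : Finset Cfsg.GolayPt).card ≤ 2 := Finset.card_le_two
      omega
    · exact hf (some 1) (hfix (some 1) (by decide) (by decide))

end Cfsg.Agent.S5599
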