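import Cfsg.Statements.S5601
import Cfsg.Agent.Helper28.Classes

set_option autoImplicit false
open scoped Pointwise
open Cfsg

namespace Cfsg.Agent.S5601

open Cfsg.Agent.Helper28 Cfsg.Agent.Helper28.Golay

/-- a subgroup of order 3 is generated by an element of order 3, and its fixed points are those
of the generator -/
theorem gen3 (X : Subgroup ↥Cfsg.M24) (hX : Nat.card X = 3) :
    ∃ x : ↥Cfsg.M24, X = Subgroup.zpowers x ∧ (x : Equiv.Perm Cfsg.GolayPt) ^ 3 = 1 ∧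
      (x : Equiv.Perm Cfsg.GolayPt) ≠ 1 ∧
      {p : Cfsg.GolayPt | ∀ y ∈ X, ((y : ↥Cfsg.M24) : Equiv.Perm Cfsg.GolayPt) p = p} =
        {p | (x : Equiv.Perm Cfsg.GolayPt) p = p} := by
  have hne : X ≠ ⊥ := by
    intro e
    rw [e, Subgroup.card_bot] at hX
    omega
  obtain ⟨⟨x, hx⟩, hx1⟩ := (Subgroup.ne_bot_iff_exists_ne_one).1 hne
  have hx1' : x ≠ 1 := fun e => hx1 (Subtype.ext e)
  have hdvd : orderOf x ∣ 3 := hX ▸ Subgroup.orderOf_dvd_natCard X hx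
  have ho : orderOf x = 3 := by
    rcases (Nat.dvd_prime Nat.prime_three).1 hdvd with h | h
    · exact absurd (orderOf_eq_one_iff.1 h) hx1'
    · exact h
  have hXe : X = Subgroup.zpowers x := by
    symm
    have : Finite X := Nat.finite_of_card_ne_zero (by rw [hX]; norm_num)
    refine Subgroup.eq_of_le_of_card_ge (Subgroup.zpowers_le.2 hx) ?_
    rw [Nat.card_zpowers, ho, hX]
  refine ⟨x, hXe, ?_, ?_, ?_⟩
  · have : x ^ 3 = 1 := by rw [← ho]; exact pow_orderOf_eq_one x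
    have h2 := congrArg (fun y : ↥Cfsg.M24 => (y : Equiv.Perm Cfsg.GolayPt)) this
    simpa using h2
  · intro e
    exact hx1' (Subtype.ext e)
  · ext p
    simp only [Set.mem_ofPred_eq]
    constructor
    · intro h
      exact h x hx
    · intro h y hy
      rw [hXe] at hy
      obtain ⟨n, rfl⟩ := Subgroup.mem_zpowers_iff.1 hy
      rw [Subgroup.coe_zpow]
      exact Equiv.Perm.zpow_apply_eq_self_of_apply_eq_self h n

theorem conj_zpowers (k x : ↥Cfsg.M24) :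
    MulAut.conj k • Subgroup.zpowers x = Subgroup.zpowers (k * x * k⁻¹) := by
  have h : MulAut.conj k • Subgroup.zpowers x =
      Subgroup.map (MulAut.conj k).toMonoidHom (Subgroup.zpowers x) := rfl
  rw [h, MonoidHom.map_zpowers]
  rfl

/-- the subgroup generated by a table permutation -/
noncomputable def zp (T : List Nat) (h : permOf T ∈ Cfsg.M24) : Subgroup ↥Cfsg.M24 :=
  Subgroup.zpowers ⟨permOf T, h⟩

theorem zp_card (T : List Nat) (h : permOf T ∈ Cfsg.M24) (h3 : permOf T ^ 3 = 1)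
    (h1 : permOf T ≠ 1) : Nat.card (zp T h) = 3 := by
  rw [zp, Nat.card_zpowers]
  refine orderOf_eq_prime (Subtype.ext ?_) (fun e => h1 (congrArg Subtype.val e))
  simpa using h3

/-- The group of the length-24 code has exactly two conjugacy classes of subgroups of order 3: a subgroup of order 3 fixes either exactly 6 of the 24 points or none of them, both cases occur, and two subgroups of order 3 with the same number of fixed points are conjugate. -/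
theorem result : (∀ X : Subgroup ↥Cfsg.M24, Nat.card X = 3 → {p : Cfsg.GolayPt | ∀ x ∈ X, ((x : ↥Cfsg.M24) : Equiv.Perm Cfsg.GolayPt) p = p}.ncard = 6 ∨ {p : Cfsg.GolayPt | ∀ x ∈ X, ((x : ↥Cfsg.M24) : Equiv.Perm Cfsg.GolayPt) p = p}.ncard = 0) ∧ (∃ X : Subgroup ↥Cfsg.M24, Nat.card X = 3 ∧ {p : Cfsg.GolayPt | ∀ x ∈ X, ((x : ↥Cfsg.M24) : Equiv.Perm Cfsg.GolayPt) p = p}.ncard = 6) ∧ (∃ X : Subgroup ↥Cfsg.M24, Nat.card X = 3 ∧ {p : Cfsg.GolayPt | ∀ x ∈ X, ((x : ↥Cfsg.M24) : Equiv.Perm Cfsg.GolayPt) p = p}.ncard = 0) ∧ ∀ X Y : Subgroup ↥Cfsg.M24, Nat.card X = 3 → Nat.card Y = 3 → {p : Cfsg.GolayPt | ∀ x ∈ X, ((x : ↥Cfsg.M24) : Equiv.Perm Cfsg.GolayPt) p = p}.ncard = {p : Cfsg.GolayPt | ∀ x ∈ Y, ((x : ↥Cfsg.M24) : Equiv.Perm Cfsg.GolayPt) p = p}.ncard → ∃ k : ↥Cfsg.M24, MulAut.conj k • X = Y := by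

  have cases : ∀ X : Subgroup ↥Cfsg.M24, Nat.card X = 3 → ∃ x : ↥Cfsg.M24,
      X = Subgroup.zpowers x ∧
      ((∃ k : ↥Cfsg.M24, k * x * k⁻¹ = ⟨permOf r6T, r6_mem⟩ ∧
        {p : Cfsg.GolayPt | ∀ y ∈ X, ((y : ↥Cfsg.M24) : Equiv.Perm Cfsg.GolayPt) p = p}.ncard = 6) ∨
      (∃ k : ↥Cfsg.M24, k * x * k⁻¹ = ⟨permOf r0T, r0_mem⟩ ∧
        {p : Cfsg.GolayPt | ∀ y ∈ X, ((y : ↥Cfsg.M24) : Equiv.Perm Cfsg.GolayPt) p = p}.ncard = 0)) := by
    intro X hX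
    obtain ⟨x, hXe, h3, h1, hfix⟩ := gen3 X hX
    refine ⟨x, hXe, ?_⟩
    rw [hfix]
    rcases ord3_cases x.1 x.2 h3 h1 with ⟨k, hk, e, hn⟩ | ⟨k, hk, e, hn⟩
    · exact Or.inl ⟨⟨k, hk⟩, Subtype.ext e, hn⟩
    · exact Or.inr ⟨⟨k, hk⟩, Subtype.ext e, hn⟩
  have key : ∀ (R x y k1 k2 : ↥Cfsg.M24), k1 * x * k1⁻¹ = R → k2 * y * k2⁻¹ = R →
      ∃ k : ↥Cfsg.M24, MulAut.conj k • Subgroup.zpowers x = Subgroup.zpowers y := by
    intro R x y k1 k2 e1 e2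
    refine ⟨k2⁻¹ * k1, ?_⟩
    rw [conj_zpowers]
    have h1 : y = k2⁻¹ * R * k2 := by rw [← e2]; group
    have h2 : k2⁻¹ * k1 * x * (k2⁻¹ * k1)⁻¹ = k2⁻¹ * (k1 * x * k1⁻¹) * k2 := by group
    rw [h1, ← e1, h2]
  refine ⟨?_, ?_, ?_, ?_⟩
  · intro X hX
    obtain ⟨x, -, ⟨k, -, h⟩ | ⟨k, -, h⟩⟩ := cases X hX
    · exact Or.inl h
    · exact Or.inr h
  · have hc := zp_card r6T r6_mem r6_cube r6_ne
    refine ⟨zp r6T r6_mem, hc, ?_⟩
    obtain ⟨x, hXe, h3, h1, hfix⟩ := gen3 _ hc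
    rw [hfix]
    have hx : x ∈ zp r6T r6_mem := by rw [hXe]; exact Subgroup.mem_zpowers x
    obtain ⟨n, hn⟩ := Subgroup.mem_zpowers_iff.1 hx
    have hsub : {p : Cfsg.GolayPt | permOf r6T p = p} ⊆ {p | (x : Equiv.Perm Cfsg.GolayPt) p = p} := by
      intro p hp
      rw [← hn, Subgroup.coe_zpow]
      exact Equiv.Perm.zpow_apply_eq_self_of_apply_eq_self hp n
    have e6 : {p : Cfsg.GolayPt | permOf r6T p = p} = ((toSet F6 : Finset Cfsg.GolayPt) : Set Cfsg.GolayPt) := by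
      ext p
      simp only [Set.mem_ofPred_eq, Finset.mem_coe]
      exact r6_fix p
    have h6 : {p : Cfsg.GolayPt | permOf r6T p = p}.ncard = 6 := by
      rw [e6, Set.ncard_coe_finset, F6_card]
    rcases ord3_cases x.1 x.2 h3 h1 with ⟨k, hk, e, hn⟩ | ⟨k, hk, e, hn⟩
    · exact hn
    · have := Set.ncard_le_ncard hsub (Set.toFinite _)
      omega
  · have hc := zp_card r0T r0_mem r0_cube r0_ne
    refine ⟨zp r0T r0_mem, hc, ?_⟩
    have : {p : Cfsg.GolayPt | ∀ y ∈ zp r0T r0_mem, ((y : ↥Cfsg.M24) : Equiv.Perm Cfsg.GolayPt) p = p} = ∅ := by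
      ext p
      simp only [Set.mem_ofPred_eq, Set.mem_empty_iff_false, iff_false]
      intro h
      exact r0_fix p (h ⟨permOf r0T, r0_mem⟩ (Subgroup.mem_zpowers _))
    rw [this, Set.ncard_empty]
  · intro X Y hX hY hn
    obtain ⟨x, hXe, hx⟩ := cases X hX
    obtain ⟨y, hYe, hy⟩ := cases Y hY
    rw [hXe, hYe]
    rcases hx with ⟨k1, e1, n1⟩ | ⟨k1, e1, n1⟩ <;> rcases hy with ⟨k2, e2, n2⟩ | ⟨k2, e2, n2⟩
    · exact key _ x y k1 k2 e1 e2
    · omega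
    · omega
    · exact key _ x y k1 k2 e1 e2

end Cfsg.Agent.S5601
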