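import Cfsg.Statements.S5602
import Cfsg.Agent.Helper28.FixCount

set_option autoImplicit false
open scoped Pointwise
open Cfsg

namespace Cfsg.Agent.S5602

open Cfsg.Agent.Helper28 Cfsg.Agent.Helper28.Golay
open scoped Pointwise

set_option maxRecDepth 100000 in
theorem c_oct : (countPow 12 0 fun m => Nat.beq (wt (encode m)) 8 &&
    Nat.beq (permMask (tf r6T) (encode m)) (encode m)) = 21 := by decide +kernel

set_option maxRecDepth 100000 in
theorem c_trio : (trioL.filter (fixTrio r6T)).length = 15 := by decide +kernel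

set_option maxRecDepth 100000 in
theorem c_sext : (tetL.filter fun m => inSext m (permMask (tf r6T) m)).length = 16 := by
  decide +kernel

set_option maxRecDepth 100000 in
theorem c_dod : (countPow 12 0 fun m => Nat.beq (wt (encode m)) 12 &&
    Nat.beq (permMask (tf r6T) (encode m)) (encode m)) = 20 := by decide +kernel

/-- An element of order 3 of the group of the length-24 code having exactly 6 fixed points maps to themselves exactly 21 octads, exactly 15 trios, exactly 16 sextets and exactly 20 dodecads. -/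
theorem result (g : Equiv.Perm Cfsg.GolayPt) (hg : g ∈ Cfsg.M24) (h₃ : orderOf g = 3) (h₆ : (Finset.univ.filter fun p => g p = p).card = 6) : {o : Finset Cfsg.GolayPt | o ∈ Cfsg.octads ∧ g • o = o}.ncard = 21 ∧ {T : Finset (Finset Cfsg.GolayPt) | T ∈ Cfsg.trios ∧ g • T = T}.ncard = 15 ∧ {S : Finset (Finset Cfsg.GolayPt) | S ∈ Cfsg.sextets ∧ g • S = S}.ncard = 16 ∧ {d : Finset Cfsg.GolayPt | d ∈ Cfsg.dodecads ∧ g • d = d}.ncard = 20 := by
  have h3 : g ^ 3 = 1 := by rw [← h₃]; exact pow_orderOf_eq_one g
  have h1 : g ≠ 1 := by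
    intro e
    rw [e, orderOf_one] at h₃
    exact absurd h₃ (by norm_num)
  have hset : {p | g p = p}.ncard = 6 := by
    rw [← h₆, ← Set.ncard_coe_finset]
    congr 1
    ext p
    simp
  rcases ord3_cases g hg h3 h1 with ⟨k, hk, h, -⟩ | ⟨k, hk, h, h0⟩
  · obtain ⟨c1, c2, c3, c4⟩ := fix_counts hk in_r6 h
    exact ⟨c1.trans c_oct, c2.trans c_trio, c3.trans c_sext, c4.trans c_dod⟩
  · rw [h0] at hset
    exact absurd hset (by norm_num)

end Cfsg.Agent.S5602
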