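import Cfsg.Statements.S5603
import Cfsg.Agent.Helper28.FixCount

set_option autoImplicit false
open scoped Pointwise
open Cfsg

namespace Cfsg.Agent.S5603

open Cfsg.Agent.Helper28 Cfsg.Agent.Helper28.Golay
open scoped Pointwise

set_option maxRecDepth 100000 in
theorem c_oct : (countPow 12 0 fun m => Nat.beq (wt (encode m)) 8 &&
    Nat.beq (permMask (tf r0T) (encode m)) (encode m)) = 0 := by decide +kernel

set_option maxRecDepth 100000 in
theorem c_trio : (trioL.filter (fixTrio r0T)).length = 15 := by decide +kernel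

set_option maxRecDepth 100000 in
theorem c_sext : (tetL.filter fun m => inSext m (permMask (tf r0T) m)).length = 7 := by
  decide +kernel

/-- A fixed-point-free element of order 3 of the group of the length-24 code maps to themselves exactly 7 sextets and exactly 15 trios. -/
theorem result (g : Equiv.Perm Cfsg.GolayPt) (hg : g ∈ Cfsg.M24) (h₃ : orderOf g = 3) (h₀ : ∀ p, g p ≠ p) : {S : Finset (Finset Cfsg.GolayPt) | S ∈ Cfsg.sextets ∧ g • S = S}.ncard = 7 ∧ {T : Finset (Finset Cfsg.GolayPt) | T ∈ Cfsg.trios ∧ g • T = T}.ncard = 15 := by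
  have h3 : g ^ 3 = 1 := by rw [← h₃]; exact pow_orderOf_eq_one g
  have h1 : g ≠ 1 := by
    intro e
    rw [e, orderOf_one] at h₃
    exact absurd h₃ (by norm_num)
  have hset : {p | g p = p}.ncard = 0 := by
    have e : {p | g p = p} = ∅ := by
      ext p
      simp [h₀ p]
    rw [e, Set.ncard_empty]
  rcases ord3_cases g hg h3 h1 with ⟨k, hk, h, h6⟩ | ⟨k, hk, h, -⟩
  · rw [hset] at h6
    exact absurd h6 (by norm_num)
  · obtain ⟨-, c2, c3, -⟩ := fix_counts hk in_r0 h
    exact ⟨c3.trans c_sext, c2.trans c_trio⟩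

end Cfsg.Agent.S5603
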