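import Cfsg.Statements.S5605
import Cfsg.Agent.Helper28.FixCount

set_option autoImplicit false
open scoped Pointwise
open Cfsg

namespace Cfsg.Agent.S5605

open Cfsg.Agent.Helper28 Cfsg.Agent.Helper28.Golay
open scoped Pointwise

set_option maxRecDepth 100000 in
theorem c_oct : (countPow 12 0 fun m => Nat.beq (wt (encode m)) 8 &&
    Nat.beq (permMask (tf t8T) (encode m)) (encode m)) = 71 := by decide +kernel

set_option maxRecDepth 100000 in
theorem c_trio : (trioL.filter (fixTrio t8T)).length = 99 := by decide +kernel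

set_option maxRecDepth 100000 in
theorem c_sext : (tetL.filter fun m => inSext m (permMask (tf t8T) m)).length = 91 := by
  decide +kernel

/-- An involution of the group of the length-24 code with exactly 8 fixed points maps to themselves exactly 71 octads, exactly 99 trios and exactly 91 sextets. -/
theorem result (g : Equiv.Perm Cfsg.GolayPt) (hg : g ∈ Cfsg.M24) (h₂ : orderOf g = 2) (h₈ : (Finset.univ.filter fun p => g p = p).card = 8) : {o : Finset Cfsg.GolayPt | o ∈ Cfsg.octads ∧ g • o = o}.ncard = 71 ∧ {T : Finset (Finset Cfsg.GolayPt) | T ∈ Cfsg.trios ∧ g • T = T}.ncard = 99 ∧ {S : Finset (Finset Cfsg.GolayPt) | S ∈ Cfsg.sextets ∧ g • S = S}.ncard = 91 := by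
  rcases invol_cases g hg h₂ with ⟨k, hk, h, -, -⟩ | ⟨k, hk, h, hfpf⟩
  · obtain ⟨c1, c2, c3, -⟩ := fix_counts hk in_t8 h
    exact ⟨c1.trans c_oct, c2.trans c_trio, c3.trans c_sext⟩
  · exfalso
    have e : (Finset.univ.filter fun p => g p = p) = ∅ :=
      Finset.filter_eq_empty_iff.2 (fun p _ => hfpf p)
    rw [e, Finset.card_empty] at h₈
    exact absurd h₈ (by norm_num)

end Cfsg.Agent.S5605
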