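import Cfsg.Statements.S5606
import Cfsg.Agent.Helper28.FixCount

set_option autoImplicit false
open scoped Pointwise
open Cfsg

namespace Cfsg.Agent.S5606

open Cfsg.Agent.Helper28 Cfsg.Agent.Helper28.Golay
open scoped Pointwise

set_option maxRecDepth 100000 in
theorem c_oct : (countPow 12 0 fun m => Nat.beq (wt (encode m)) 8 &&
    Nat.beq (permMask (tf t0T) (encode m)) (encode m)) = 15 := by decide +kernel

set_option maxRecDepth 100000 in
theorem c_trio : (trioL.filter (fixTrio t0T)).length = 75 := by decide +kernel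

set_option maxRecDepth 100000 in
theorem c_sext : (tetL.filter fun m => inSext m (permMask (tf t0T) m)).length = 51 := by
  decide +kernel

/-- A fixed-point-free involution of the group of the length-24 code maps to themselves exactly 15 octads, exactly 75 trios and exactly 51 sextets. -/
theorem result (g : Equiv.Perm Cfsg.GolayPt) (hg : g ∈ Cfsg.M24) (h₂ : orderOf g = 2) (h₀ : ∀ p, g p ≠ p) : {o : Finset Cfsg.GolayPt | o ∈ Cfsg.octads ∧ g • o = o}.ncard = 15 ∧ {T : Finset (Finset Cfsg.GolayPt) | T ∈ Cfsg.trios ∧ g • T = T}.ncard = 75 ∧ {S : Finset (Finset Cfsg.GolayPt) | S ∈ Cfsg.sextets ∧ g • S = S}.ncard = 51 := by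
  rcases invol_cases g hg h₂ with ⟨k, hk, h, -, p, hp⟩ | ⟨k, hk, h, -⟩
  · exact absurd hp (h₀ p)
  · obtain ⟨c1, c2, c3, -⟩ := fix_counts hk in_t0 h
    exact ⟨c1.trans c_oct, c2.trans c_trio, c3.trans c_sext⟩

end Cfsg.Agent.S5606
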