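import Cfsg.Statements.S5607
import Cfsg.Agent.Helper28.Cent

set_option autoImplicit false
open scoped Pointwise
open Cfsg

namespace Cfsg.Agent.S5607

open Cfsg.Agent.Helper28 Cfsg.Agent.Helper28.Golay
open Cfsg
open scoped Pointwise

/-- For a fixed-point-free involution t of the group of the length-24 code: its centraliser in that group has order 7680, is transitive on the 24 points, and is contained, together with t, in the stabiliser of some sextet. -/
theorem result (t : Equiv.Perm Cfsg.GolayPt) (ht : t ∈ Cfsg.M24) (h₂ : orderOf t = 2) (h₀ : ∀ p, t p ≠ p) : Nat.card {c : Equiv.Perm Cfsg.GolayPt // c ∈ Cfsg.M24 ∧ c * t = t * c} = 7680 ∧ (∀ p q : Cfsg.GolayPt, ∃ c ∈ Cfsg.M24, c * t = t * c ∧ c p = q) ∧ ∃ S ∈ Cfsg.sextets, t • S = S ∧ ∀ c ∈ Cfsg.M24, c * t = t * c → c • S = S := by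
  rcases invol_cases t ht h₂ with ⟨k, hk, h, -, p, hp⟩ | ⟨k, hk, h, -⟩
  · exact absurd hp (h₀ p)
  have conj_mem : ∀ c, (c ∈ M24 ∧ c * t = t * c) ↔ k * c * k⁻¹ ∈ Cent (permOf t0T) := by
    intro c
    have e1 : k * c * k⁻¹ * (k * t * k⁻¹) = k * (c * t) * k⁻¹ := by group
    have e2 : k * t * k⁻¹ * (k * c * k⁻¹) = k * (t * c) * k⁻¹ := by group
    constructor
    · rintro ⟨h1, h2⟩
      refine ⟨M24.mul_mem (M24.mul_mem hk h1) (M24.inv_mem hk), ?_⟩
      rw [← h, e1, e2, h2]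
    · rintro ⟨h1, h2⟩
      constructor
      · have h3 := M24.mul_mem (M24.mul_mem (M24.inv_mem hk) h1) hk
        simpa [mul_assoc] using h3
      · rw [← h, e1, e2] at h2
        exact mul_left_cancel (mul_right_cancel h2)
  refine ⟨?_, ?_, ?_⟩
  · rw [← card_cent0]
    exact Nat.card_congr ⟨fun c => ⟨k * c.1 * k⁻¹, (conj_mem c.1).1 c.2⟩,
      fun y => ⟨k⁻¹ * y.1 * k, (conj_mem _).2 (by simpa [mul_assoc] using y.2)⟩,
      fun c => Subtype.ext (by simp [mul_assoc]), fun y => Subtype.ext (by simp [mul_assoc])⟩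
  · intro p q
    obtain ⟨c, hc, e⟩ := cent_trans (k p) (k q)
    have hc' := (conj_mem (k⁻¹ * c * k)).2 (by simpa [mul_assoc] using hc)
    exact ⟨k⁻¹ * c * k, hc'.1, hc'.2,
      by rw [Equiv.Perm.mul_apply, Equiv.Perm.mul_apply, e, perm_inv_apply]⟩
  · refine ⟨k⁻¹ • sextOf (toSet 8396803), smul_mem_sextets (M24.inv_mem hk) S0_mem, ?_, ?_⟩
    · have ht0 : permOf t0T • sextOf (toSet 8396803) = sextOf (toSet 8396803) :=
        cent_le _ ⟨t0_mem, rfl⟩
      have e : t = k⁻¹ * permOf t0T * k := by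
        rw [← h]
        group
      rw [e, mul_smul, mul_smul, smul_inv_smul, ht0]
    · intro c hc hct
      have h1 := cent_le _ ((conj_mem c).1 ⟨hc, hct⟩)
      rw [mul_smul, mul_smul] at h1
      exact eq_inv_smul_iff.2 h1

end Cfsg.Agent.S5607
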