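import Cfsg.Statements.S5608
import Cfsg.Agent.Helper28.Ord6

set_option autoImplicit false
open scoped Pointwise
open Cfsg

namespace Cfsg.Agent.S5608

open Cfsg.Agent.Helper28 Cfsg.Agent.Helper28.Golay

/-- If an element of order 3 and an involution of the group of the length-24 code commute, then either the element of order 3 has exactly 6 fixed points and the involution exactly 8, or both are fixed-point-free. -/
theorem result (x s : Equiv.Perm Cfsg.GolayPt) (hx : x ∈ Cfsg.M24) (hs : s ∈ Cfsg.M24) (h₃ : orderOf x = 3) (h₂ : orderOf s = 2) (hc : Commute x s) : ((Finset.univ.filter fun p => x p = p).card = 6 ∧ (Finset.univ.filter fun p => s p = p).card = 8) ∨ ((Finset.univ.filter fun p => x p = p).card = 0 ∧ (Finset.univ.filter fun p => s p = p).card = 0) := by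

  have hx3 : x ^ 3 = 1 := by rw [← h₃]; exact pow_orderOf_eq_one x
  have hs2 : s ^ 2 = 1 := by rw [← h₂]; exact pow_orderOf_eq_one s
  have hx1 : x ≠ 1 := by
    intro e
    rw [e, orderOf_one] at h₃
    omega
  have hs1 : s ≠ 1 := by
    intro e
    rw [e, orderOf_one] at h₂
    omega
  have e2 : (x * s) ^ 2 = x ^ 2 := by rw [hc.mul_pow, hs2, mul_one]
  have e3 : (x * s) ^ 3 = s := by
    rw [hc.mul_pow, hx3, one_mul, pow_succ, hs2, one_mul]
  have e6 : (x * s) ^ 6 = 1 := by
    rw [show 6 = 2 * 3 from rfl, pow_mul, e2, ← pow_mul, show 2 * 3 = 3 * 2 from rfl, pow_mul, hx3,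
      one_pow]
  have hx2 : x ^ 2 ≠ 1 := by
    intro e
    apply hx1
    have : x ^ 3 = x := by rw [pow_succ, e, one_mul]
    rw [← this, hx3]
  have hfix : ∀ p, (x ^ 2) p = p ↔ x p = p := by
    intro p
    have hxx : ∀ q, x (x (x q)) = q := fun q => by
      have := congrArg (fun σ : Equiv.Perm Cfsg.GolayPt => σ q) hx3
      simpa [pow_succ] using this
    have e : (x ^ 2) p = x (x p) := by simp [pow_succ]
    rw [e]
    constructor
    · intro h
      have := hxx p
      rw [h] at this
      exact this
    · intro h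
      rw [h, h]
  have key := ord6_fix (x * s) (Cfsg.M24.mul_mem hx hs) e6 (by rw [e2]; exact hx2)
    (by rw [e3]; exact hs1)
  rw [e2, e3] at key
  simp only [hfix] at key
  exact key

end Cfsg.Agent.S5608
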