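import Cfsg.Statements.S5609
import Cfsg.Agent.Helper28.OctOrb

set_option autoImplicit false
open scoped Pointwise
open Cfsg

namespace Cfsg.Agent.S5609

open Cfsg.Agent.Helper28 Cfsg.Agent.Helper28.Golay
open scoped Pointwise

theorem disj_smul (g : Equiv.Perm Cfsg.GolayPt) (s t : Finset Cfsg.GolayPt) :
    Disjoint (g • s) (g • t) ↔ Disjoint s t := by
  rw [Finset.disjoint_iff_inter_eq_empty, Finset.disjoint_iff_inter_eq_empty,
    ← Finset.smul_finset_inter, Finset.smul_finset_eq_empty]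

theorem adj_iff (a b : Cfsg.octads) :
    (Cfsg.blockGraph Cfsg.octads).Adj a b ↔ Disjoint a.1 b.1 := by
  rw [Cfsg.blockGraph, SimpleGraph.fromRel_adj]
  constructor
  · rintro ⟨-, h | h⟩
    · exact h
    · exact h.symm
  · intro h
    refine ⟨?_, Or.inl h⟩
    intro hab
    rw [hab, Finset.disjoint_self_iff_empty] at h
    have h8 := b.2.2
    rw [h, Finset.card_empty] at h8
    exact absurd h8 (by norm_num)

theorem inter_cases {o o' : Finset Cfsg.GolayPt} (ho : o ∈ Cfsg.octads) (ho' : o' ∈ Cfsg.octads)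
    (hne : o ≠ o') : (o ∩ o').card = 0 ∨ (o ∩ o').card = 2 ∨ (o ∩ o').card = 4 := by
  have h1 := card_symmDiff o o'
  rw [ho.2, ho'.2] at h1
  have h2 := card_of_mem_supports (symmDiff_mem_supports ho.1 ho'.1)
  have h3 : (symmDiff o o').card ≠ 0 := by
    rw [Ne, Finset.card_eq_zero]
    intro h
    exact hne (symmDiff_eq_bot.1 h)
  omega

theorem pair_normal (o o' : Finset Cfsg.GolayPt) (ho : o ∈ Cfsg.octads) (ho' : o' ∈ Cfsg.octads)
    (R : Nat) (hR : toSet R ∈ Cfsg.octads) (hk : (o ∩ o').card = (toSet O0 ∩ toSet R).card) :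
    ∃ g ∈ Cfsg.M24, g • o = toSet O0 ∧ g • o' = toSet R := by
  obtain ⟨σ, hσ, h0⟩ := octad_trans o (toSet O0) ho O0_mem
  obtain ⟨τ, hτ, h1, h2⟩ := oct_orb (toSet O0) (σ • o') (toSet R) O0_mem (smul_mem_octads hσ ho')
    hR (by rw [← h0, ← Finset.smul_finset_inter, Finset.card_smul_finset, hk, h0])
  exact ⟨τ * σ, Cfsg.M24.mul_mem hτ hσ, by rw [mul_smul, h0, h1], by rw [mul_smul, h2]⟩

theorem R4_mem : toSet 5279 ∈ Cfsg.octads :=
  toSet_mem_octads (by decide +kernel) (by decide +kernel)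

theorem A4_mem : toSet 4038912 ∈ Cfsg.octads :=
  toSet_mem_octads (by decide +kernel) (by decide +kernel)

theorem R4_inter : (toSet O0 ∩ toSet 5279).card = 4 := by decide +kernel

theorem A4_dis1 : Disjoint (toSet O0) (toSet 4038912) := by decide +kernel

theorem A4_dis2 : Disjoint (toSet 4038912) (toSet 5279) := by decide +kernel

theorem P1_mem : toSet 307594 ∈ Cfsg.octads :=
  toSet_mem_octads (by decide +kernel) (by decide +kernel)

theorem P2_mem : toSet 3736597 ∈ Cfsg.octads :=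
  toSet_mem_octads (by decide +kernel) (by decide +kernel)

theorem P_dis1 : Disjoint (toSet O0) (toSet 307594) := by decide +kernel

theorem P_dis2 : Disjoint (toSet 307594) (toSet 3736597) := by decide +kernel

theorem P_dis3 : Disjoint (toSet 3736597) (toSet 31554) := by decide +kernel

theorem R2_mem : toSet 31554 ∈ Cfsg.octads :=
  toSet_mem_octads (by decide +kernel) (by decide +kernel)

theorem R2_inter : (toSet O0 ∩ toSet 31554).card = 2 := by decide +kernel

theorem common_of_four (o o' : Finset Cfsg.GolayPt) (ho : o ∈ Cfsg.octads)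
    (ho' : o' ∈ Cfsg.octads) (h4 : (o ∩ o').card = 4) :
    ∃ a ∈ Cfsg.octads, Disjoint o a ∧ Disjoint a o' := by
  obtain ⟨g, hg, h1, h2⟩ := pair_normal o o' ho ho' 5279 R4_mem (by rw [h4, R4_inter])
  refine ⟨g⁻¹ • toSet 4038912, smul_mem_octads (Cfsg.M24.inv_mem hg) A4_mem, ?_, ?_⟩
  · rw [← disj_smul g, smul_inv_smul, h1]
    exact A4_dis1
  · rw [← disj_smul g, smul_inv_smul, h2]
    exact A4_dis2

theorem path_of_two (o o' : Finset Cfsg.GolayPt) (ho : o ∈ Cfsg.octads)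
    (ho' : o' ∈ Cfsg.octads) (h2 : (o ∩ o').card = 2) :
    ∃ a ∈ Cfsg.octads, ∃ b ∈ Cfsg.octads, Disjoint o a ∧ Disjoint a b ∧ Disjoint b o' := by
  obtain ⟨g, hg, h1, h2⟩ := pair_normal o o' ho ho' 31554 R2_mem (by rw [h2, R2_inter])
  refine ⟨g⁻¹ • toSet 307594, smul_mem_octads (Cfsg.M24.inv_mem hg) P1_mem,
    g⁻¹ • toSet 3736597, smul_mem_octads (Cfsg.M24.inv_mem hg) P2_mem, ?_, ?_, ?_⟩
  · rw [← disj_smul g, smul_inv_smul, h1]
    exact P_dis1
  · rw [disj_smul]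
    exact P_dis2
  · rw [← disj_smul g, smul_inv_smul, h2]
    exact P_dis3

theorem no_common_of_two (o o' a : Finset Cfsg.GolayPt) (ho : o ∈ Cfsg.octads)
    (ho' : o' ∈ Cfsg.octads) (ha : a ∈ Cfsg.octads) (h2 : (o ∩ o').card = 2)
    (h1 : Disjoint o a) (h1' : Disjoint a o') : False := by
  have hd := card_symmDiff o o'
  rw [ho.2, ho'.2, h2] at hd
  have hdis : Disjoint (symmDiff o o') a :=
    Disjoint.mono_left symmDiff_le_sup (Finset.disjoint_union_left.2 ⟨h1, h1'.symm⟩)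
  have h3 := card_symmDiff (symmDiff o o') a
  rw [Finset.disjoint_iff_inter_eq_empty.1 hdis, Finset.card_empty, ha.2] at h3
  have h4 := card_of_mem_supports (symmDiff_mem_supports (symmDiff_mem_supports ho.1 ho'.1) ha.1)
  omega

/-- In the graph on the 759 octads of the length-24 code in which two octads are adjacent when they are disjoint, the graph is connected (of diameter 3) and two distinct octads are at distance 1, 2 or 3 exactly when they meet in 0, 4 or 2 points respectively. -/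
theorem result (o o' : Finset Cfsg.GolayPt) (ho : o ∈ Cfsg.octads) (ho' : o' ∈ Cfsg.octads) (hne : o ≠ o') : (Cfsg.blockGraph Cfsg.octads).Connected ∧ ((Cfsg.blockGraph Cfsg.octads).dist ⟨o, ho⟩ ⟨o', ho'⟩ = 1 ↔ (o ∩ o').card = 0) ∧ ((Cfsg.blockGraph Cfsg.octads).dist ⟨o, ho⟩ ⟨o', ho'⟩ = 2 ↔ (o ∩ o').card = 4) ∧ ((Cfsg.blockGraph Cfsg.octads).dist ⟨o, ho⟩ ⟨o', ho'⟩ = 3 ↔ (o ∩ o').card = 2) := by
  have hreach : ∀ a b : Cfsg.octads, (Cfsg.blockGraph Cfsg.octads).Reachable a b := by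
    rintro ⟨a, ha⟩ ⟨b, hb⟩
    by_cases hab : a = b
    · subst hab
      exact SimpleGraph.Reachable.refl _
    · rcases inter_cases ha hb hab with h | h | h
      · rw [Finset.card_eq_zero, ← Finset.disjoint_iff_inter_eq_empty] at h
        exact ((adj_iff ⟨a, ha⟩ ⟨b, hb⟩).2 h).reachable
      · obtain ⟨c, hc, d, hd, h1, h2, h3⟩ := path_of_two a b ha hb h
        exact (((adj_iff ⟨a, ha⟩ ⟨c, hc⟩).2 h1).reachable.trans
          ((adj_iff ⟨c, hc⟩ ⟨d, hd⟩).2 h2).reachable).trans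
          ((adj_iff ⟨d, hd⟩ ⟨b, hb⟩).2 h3).reachable
      · obtain ⟨c, hc, h1, h2⟩ := common_of_four a b ha hb h
        exact ((adj_iff ⟨a, ha⟩ ⟨c, hc⟩).2 h1).reachable.trans
          ((adj_iff ⟨c, hc⟩ ⟨b, hb⟩).2 h2).reachable
  have hconn : (Cfsg.blockGraph Cfsg.octads).Connected :=
    (SimpleGraph.connected_iff _).2 ⟨hreach, ⟨⟨o, ho⟩⟩⟩
  have hne' : (⟨o, ho⟩ : Cfsg.octads) ≠ ⟨o', ho'⟩ := fun h => hne (congrArg Subtype.val h)
  rcases inter_cases ho ho' hne with hk | hk | hk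
  · have h1 : (Cfsg.blockGraph Cfsg.octads).dist ⟨o, ho⟩ ⟨o', ho'⟩ = 1 := by
      rw [SimpleGraph.dist_eq_one_iff_adj, adj_iff]
      rwa [Finset.card_eq_zero, ← Finset.disjoint_iff_inter_eq_empty] at hk
    rw [h1, hk]
    exact ⟨hconn, by norm_num, by norm_num, by norm_num⟩
  · have hnadj : ¬ (Cfsg.blockGraph Cfsg.octads).Adj ⟨o, ho⟩ ⟨o', ho'⟩ := by
      rw [adj_iff]
      intro h
      rw [Finset.disjoint_iff_inter_eq_empty] at h
      rw [h, Finset.card_empty] at hk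
      exact absurd hk (by norm_num)
    have hlt := hconn.one_lt_dist_of_ne_of_not_adj hne' hnadj
    obtain ⟨c, hc, d, hd, h1, h2, h3⟩ := path_of_two o o' ho ho' hk
    have hle := SimpleGraph.dist_le (SimpleGraph.Walk.cons ((adj_iff ⟨o, ho⟩ ⟨c, hc⟩).2 h1)
      (SimpleGraph.Walk.cons ((adj_iff ⟨c, hc⟩ ⟨d, hd⟩).2 h2)
      (SimpleGraph.Walk.cons ((adj_iff ⟨d, hd⟩ ⟨o', ho'⟩).2 h3) SimpleGraph.Walk.nil)))
    rw [SimpleGraph.Walk.length_cons, SimpleGraph.Walk.length_cons, SimpleGraph.Walk.length_cons,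
      SimpleGraph.Walk.length_nil] at hle
    have hn2 : (Cfsg.blockGraph Cfsg.octads).dist ⟨o, ho⟩ ⟨o', ho'⟩ ≠ 2 := by
      intro h2
      obtain ⟨p, hp⟩ := hconn.exists_walk_length_eq_dist ⟨o, ho⟩ ⟨o', ho'⟩
      rw [h2] at hp
      have a1 := p.adj_getVert_succ (i := 0) (by rw [hp]; norm_num)
      have a2 := p.adj_getVert_succ (i := 1) (by rw [hp]; norm_num)
      rw [p.getVert_zero] at a1
      have e : p.getVert (1 + 1) = ⟨o', ho'⟩ := by
        have := p.getVert_length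
        rwa [hp] at this
      rw [e] at a2
      rw [adj_iff] at a1 a2
      exact no_common_of_two o o' (p.getVert 1).1 ho ho' (p.getVert 1).2 hk a1 a2
    have h3 : (Cfsg.blockGraph Cfsg.octads).dist ⟨o, ho⟩ ⟨o', ho'⟩ = 3 := by omega
    rw [h3, hk]
    exact ⟨hconn, by norm_num, by norm_num, by norm_num⟩
  · have hnadj : ¬ (Cfsg.blockGraph Cfsg.octads).Adj ⟨o, ho⟩ ⟨o', ho'⟩ := by
      rw [adj_iff]
      intro h
      rw [Finset.disjoint_iff_inter_eq_empty] at h
      rw [h, Finset.card_empty] at hk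
      exact absurd hk (by norm_num)
    have hlt := hconn.one_lt_dist_of_ne_of_not_adj hne' hnadj
    obtain ⟨c, hc, h1, h2⟩ := common_of_four o o' ho ho' hk
    have hle := SimpleGraph.dist_le (SimpleGraph.Walk.cons ((adj_iff ⟨o, ho⟩ ⟨c, hc⟩).2 h1)
      (SimpleGraph.Walk.cons ((adj_iff ⟨c, hc⟩ ⟨o', ho'⟩).2 h2) SimpleGraph.Walk.nil))
    rw [SimpleGraph.Walk.length_cons, SimpleGraph.Walk.length_cons,
      SimpleGraph.Walk.length_nil] at hle
    have h3 : (Cfsg.blockGraph Cfsg.octads).dist ⟨o, ho⟩ ⟨o', ho'⟩ = 2 := by omega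
    rw [h3, hk]
    exact ⟨hconn, by norm_num, by norm_num, by norm_num⟩

end Cfsg.Agent.S5609
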