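import Cfsg.Statements.S5610
import Cfsg.Agent.Helper28.OrbOT
import Cfsg.Agent.Helper28.OrbOS

set_option autoImplicit false
open scoped Pointwise
open Cfsg

namespace Cfsg.Agent.S5610

open Cfsg.Agent.Helper28 Cfsg.Agent.Helper28.Golay
open scoped Pointwise

theorem hc1 (g : ↥Cfsg.M24) (x : Finset Cfsg.GolayPt) (X : Finset (Finset Cfsg.GolayPt)) :
    hist {g • x} (g • X) = hist {x} X := by
  have h := hist_smul g.1 {x} X
  rw [Finset.smul_finset_singleton] at h
  exact h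

/-- The stabiliser of an octad in the group of the length-24 code has exactly three orbits on the 3795 trios, of sizes 15, 420 and 3360, and exactly three orbits on the 1771 sextets, of sizes 35, 840 and 896. -/
theorem result (o : Finset Cfsg.GolayPt) (ho : o ∈ Cfsg.octads) : (∃ X₁ ∈ Cfsg.trios, ∃ X₂ ∈ Cfsg.trios, ∃ X₃ ∈ Cfsg.trios, (MulAction.orbit ↥(MulAction.stabilizer Cfsg.M24 o) X₁).ncard = 15 ∧ (MulAction.orbit ↥(MulAction.stabilizer Cfsg.M24 o) X₂).ncard = 420 ∧ (MulAction.orbit ↥(MulAction.stabilizer Cfsg.M24 o) X₃).ncard = 3360 ∧ Cfsg.trios = MulAction.orbit ↥(MulAction.stabilizer Cfsg.M24 o) X₁ ∪ MulAction.orbit ↥(MulAction.stabilizer Cfsg.M24 o) X₂ ∪ MulAction.orbit ↥(MulAction.stabilizer Cfsg.M24 o) X₃) ∧ (∃ Y₁ ∈ Cfsg.sextets, ∃ Y₂ ∈ Cfsg.sextets, ∃ Y₃ ∈ Cfsg.sextets, (MulAction.orbit ↥(MulAction.stabilizer Cfsg.M24 o) Y₁).ncard = 35 ∧ (MulAction.orbit ↥(MulAction.stabilizer Cfsg.M24 o) Y₂).ncard = 840 ∧ (MulAction.orbit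 ↥(MulAction.stabilizer Cfsg.M24 o) Y₃).ncard = 896 ∧ Cfsg.sextets = MulAction.orbit ↥(MulAction.stabilizer Cfsg.M24 o) Y₁ ∪ MulAction.orbit ↥(MulAction.stabilizer Cfsg.M24 o) Y₂ ∪ MulAction.orbit ↥(MulAction.stabilizer Cfsg.M24 o) Y₃) := by
  obtain ⟨σ, hσ, hx⟩ := octad_trans o (toSet 8391797) ho O0_mem
  constructor
  · have key := orbit_classes (G := ↥Cfsg.M24) Cfsg.trios (fun g X hX => smul_mem_trios g.2 hX)
      (fun (x : Finset Cfsg.GolayPt) (X : Finset (Finset Cfsg.GolayPt)) => hist {x} X) hc1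
      (toSet 8391797) (fun v => trioM (OrbOT.repc v))
      (fun X hX => by
        obtain ⟨g, hg, h1, h2⟩ := OrbOT.fam.1 X hX
        exact ⟨⟨g, hg⟩, h1, h2⟩) o ⟨σ, hσ⟩ hx
    exact three_orbits Cfsg.trios (Set.toFinite _) (fun X => hist {o} X) key.1
      10000000000000002 200000001 100020000 15 420 3360
      (by rw [key.2]; exact OrbOT.cnt1) (by rw [key.2]; exact OrbOT.cnt2)
      (by rw [key.2]; exact OrbOT.cnt3)
      (by norm_num) (by norm_num) (by norm_num) (by decide) (by rw [ncard_trios])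
  · have key := orbit_classes (G := ↥Cfsg.M24) Cfsg.sextets
      (fun g X hX => smul_mem_sextets g.2 hX)
      (fun (x : Finset Cfsg.GolayPt) (X : Finset (Finset Cfsg.GolayPt)) => hist {x} X) hc1
      (toSet 8391797) (fun v => sextOf (toSet (OrbOS.repc v)))
      (fun X hX => by
        obtain ⟨g, hg, h1, h2⟩ := OrbOS.fam.1 X hX
        exact ⟨⟨g, hg⟩, h1, h2⟩) o ⟨σ, hσ⟩ hx
    exact three_orbits Cfsg.sextets (Set.toFinite _) (fun X => hist {o} X) key.1
      200000004 40002 1000500 35 840 896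
      (by rw [key.2]; exact OrbOS.cnt1) (by rw [key.2]; exact OrbOS.cnt2)
      (by rw [key.2]; exact OrbOS.cnt3)
      (by norm_num) (by norm_num) (by norm_num) (by decide) (by rw [ncard_sextets])

end Cfsg.Agent.S5610
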