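import Cfsg.Statements.S5611
import Cfsg.Agent.Helper28.OrbSO
import Cfsg.Agent.Helper28.OrbST

set_option autoImplicit false
open scoped Pointwise
open Cfsg

namespace Cfsg.Agent.S5611

open Cfsg.Agent.Helper28 Cfsg.Agent.Helper28.Golay
open scoped Pointwise

theorem hc2 (g : ↥Cfsg.M24) (x : Finset (Finset Cfsg.GolayPt)) (X : Finset Cfsg.GolayPt) :
    hist (g • x) {g • X} = hist x {X} := by
  have h := hist_smul g.1 x {X}
  rw [Finset.smul_finset_singleton] at h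
  exact h

theorem hc3 (g : ↥Cfsg.M24) (x X : Finset (Finset Cfsg.GolayPt)) :
    hist (g • x) (g • X) = hist x X := hist_smul g.1 x X

/-- The stabiliser of a sextet in the group of the length-24 code has exactly three orbits on the 759 octads, of sizes 15, 360 and 384, and exactly four orbits on the 3795 trios, of sizes 15, 180, 720 and 2880. -/
theorem result (S : Finset (Finset Cfsg.GolayPt)) (hS : S ∈ Cfsg.sextets) : (∃ X₁ ∈ Cfsg.octads, ∃ X₂ ∈ Cfsg.octads, ∃ X₃ ∈ Cfsg.octads, (MulAction.orbit ↥(MulAction.stabilizer Cfsg.M24 S) X₁).ncard = 15 ∧ (MulAction.orbit ↥(MulAction.stabilizer Cfsg.M24 S) X₂).ncard = 360 ∧ (MulAction.orbit ↥(MulAction.stabilizer Cfsg.M24 S) X₃).ncard = 384 ∧ Cfsg.octads = MulAction.orbit ↥(MulAction.stabilizer Cfsg.M24 S) X₁ ∪ MulAction.orbit ↥(MulAction.stabilizer Cfsg.M24 S) X₂ ∪ MulAction.orbit ↥(MulAction.stabilizer Cfsg.M24 S) X₃) ∧ (∃ Y₁ ∈ Cfsg.trios, ∃ Y₂ ∈ Cfsg.trios, ∃ Y₃ ∈ Cfsg.trios,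 ∃ Y₄ ∈ Cfsg.trios, (MulAction.orbit ↥(MulAction.stabilizer Cfsg.M24 S) Y₁).ncard = 15 ∧ (MulAction.orbit ↥(MulAction.stabilizer Cfsg.M24 S) Y₂).ncard = 180 ∧ (MulAction.orbit ↥(MulAction.stabilizer Cfsg.M24 S) Y₃).ncard = 720 ∧ (MulAction.orbit ↥(MulAction.stabilizer Cfsg.M24 S) Y₄).ncard = 2880 ∧ Cfsg.trios = MulAction.orbit ↥(MulAction.stabilizer Cfsg.M24 S) Y₁ ∪ MulAction.orbit ↥(MulAction.stabilizer Cfsg.M24 S) Y₂ ∪ MulAction.orbit ↥(MulAction.stabilizer Cfsg.M24 S) Y₃ ∪ MulAction.orbit ↥(MulAction.stabilizer Cfsg.M24 S) Y₄) := by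
  obtain ⟨σ, hσ, hx⟩ := sext_trans S (sextOf (toSet 15)) hS
    (sextOf_mem _ (by rw [card_toSet]; decide))
  constructor
  · have key := orbit_classes (G := ↥Cfsg.M24) Cfsg.octads (fun g X hX => smul_mem_octads g.2 hX)
      (fun (x : Finset (Finset Cfsg.GolayPt)) (X : Finset Cfsg.GolayPt) => hist x {X}) hc2
      (sextOf (toSet 15)) (fun v => toSet (OrbSO.repc v))
      (fun X hX => by
        obtain ⟨g, hg, h1, h2⟩ := OrbSO.fam.1 X hX
        exact ⟨⟨g, hg⟩, h1, h2⟩) S ⟨σ, hσ⟩ hx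
    exact three_orbits Cfsg.octads (Set.toFinite _) (fun X => hist S {X}) key.1
      200000004 40002 1000500 15 360 384
      (by rw [key.2]; exact OrbSO.cnt1) (by rw [key.2]; exact OrbSO.cnt2) (by rw [key.2]; exact OrbSO.cnt3)
      (by norm_num) (by norm_num) (by norm_num) (by decide) (by rw [ncard_octads])
  · have key := orbit_classes (G := ↥Cfsg.M24) Cfsg.trios (fun g X hX => smul_mem_trios g.2 hX)
      (fun (x X : Finset (Finset Cfsg.GolayPt)) => hist x X) hc3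
      (sextOf (toSet 15)) (fun v => trioM (OrbST.repc v))
      (fun X hX => by
        obtain ⟨g, hg, h1, h2⟩ := OrbST.fam.1 X hX
        exact ⟨⟨g, hg⟩, h1, h2⟩) S ⟨σ, hσ⟩ hx
    exact four_orbits Cfsg.trios (Set.toFinite _) (fun X => hist S X) key.1
      600000012 200080008 120006 2041002 15 180 720 2880
      (by rw [key.2]; exact OrbST.cnt1) (by rw [key.2]; exact OrbST.cnt2) (by rw [key.2]; exact OrbST.cnt3) (by rw [key.2]; exact OrbST.cnt4)
      (by norm_num) (by norm_num) (by norm_num) (by norm_num) (by decide) (by rw [ncard_trios])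

end Cfsg.Agent.S5611
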