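import Cfsg.Statements.S5612
import Cfsg.Agent.Helper28.OrbTO
import Cfsg.Agent.Helper28.OrbTS

set_option autoImplicit false
open scoped Pointwise
open Cfsg

namespace Cfsg.Agent.S5612

open Cfsg.Agent.Helper28 Cfsg.Agent.Helper28.Golay
open scoped Pointwise

theorem hc2 (g : ↥Cfsg.M24) (x : Finset (Finset Cfsg.GolayPt)) (X : Finset Cfsg.GolayPt) :
    hist (g • x) {g • X} = hist x {X} := by
  have h := hist_smul g.1 x {X}
  rw [Finset.smul_finset_singleton] at h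
  exact h

theorem hc3 (g : ↥Cfsg.M24) (x X : Finset (Finset Cfsg.GolayPt)) :
    hist (g • x) (g • X) = hist x X := hist_smul g.1 x X

/-- The stabiliser of a trio in the group of the length-24 code has exactly three orbits on the 759 octads, of sizes 3, 84 and 672, and exactly four orbits on the 1771 sextets, of sizes 7, 84, 336 and 1344. -/
theorem result (T : Finset (Finset Cfsg.GolayPt)) (hT : T ∈ Cfsg.trios) : (∃ X₁ ∈ Cfsg.octads, ∃ X₂ ∈ Cfsg.octads, ∃ X₃ ∈ Cfsg.octads, (MulAction.orbit ↥(MulAction.stabilizer Cfsg.M24 T) X₁).ncard = 3 ∧ (MulAction.orbit ↥(MulAction.stabilizer Cfsg.M24 T) X₂).ncard = 84 ∧ (MulAction.orbit ↥(MulAction.stabilizer Cfsg.M24 T) X₃).ncard = 672 ∧ Cfsg.octads = MulAction.orbit ↥(MulAction.stabilizer Cfsg.M24 T) X₁ ∪ MulAction.orbit ↥(MulAction.stabilizer Cfsg.M24 T) X₂ ∪ MulAction.orbit ↥(MulAction.stabilizer Cfsg.M24 T) X₃) ∧ (∃ Y₁ ∈ Cfsg.sextets, ∃ Y₂ ∈ Cfsg.sextets, ∃ Y₃ ∈ Cfsg.sextets, ∃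 Y₄ ∈ Cfsg.sextets, (MulAction.orbit ↥(MulAction.stabilizer Cfsg.M24 T) Y₁).ncard = 7 ∧ (MulAction.orbit ↥(MulAction.stabilizer Cfsg.M24 T) Y₂).ncard = 84 ∧ (MulAction.orbit ↥(MulAction.stabilizer Cfsg.M24 T) Y₃).ncard = 336 ∧ (MulAction.orbit ↥(MulAction.stabilizer Cfsg.M24 T) Y₄).ncard = 1344 ∧ Cfsg.sextets = MulAction.orbit ↥(MulAction.stabilizer Cfsg.M24 T) Y₁ ∪ MulAction.orbit ↥(MulAction.stabilizer Cfsg.M24 T) Y₂ ∪ MulAction.orbit ↥(MulAction.stabilizer Cfsg.M24 T) Y₃ ∪ MulAction.orbit ↥(MulAction.stabilizer Cfsg.M24 T) Y₄) := by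
  obtain ⟨σ, hσ, hx⟩ := trio_trans T (trioM (5279, 1009728)) hT
    (trioM_mem (isTrioCode_sound (by decide +kernel)))
  constructor
  · have key := orbit_classes (G := ↥Cfsg.M24) Cfsg.octads (fun g X hX => smul_mem_octads g.2 hX)
      (fun (x : Finset (Finset Cfsg.GolayPt)) (X : Finset Cfsg.GolayPt) => hist x {X}) hc2
      (trioM (5279, 1009728)) (fun v => (toSet) (OrbTO.repc v))
      (fun X hX => by
        obtain ⟨g, hg, h1, h2⟩ := OrbTO.fam.1 X hX
        exact ⟨⟨g, hg⟩, h1, h2⟩) T ⟨σ, hσ⟩ hx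
    exact three_orbits Cfsg.octads (Set.toFinite _) (fun X => hist T {X}) key.1
      10000000000000002 200000001 100020000 3 84 672
      (by rw [key.2]; exact OrbTO.cnt1) (by rw [key.2]; exact OrbTO.cnt2) (by rw [key.2]; exact OrbTO.cnt3)
      (by norm_num) (by norm_num) (by norm_num) (by decide) (by rw [ncard_octads])
  · have key := orbit_classes (G := ↥Cfsg.M24) Cfsg.sextets (fun g X hX => smul_mem_sextets g.2 hX)
      (fun (x X : Finset (Finset Cfsg.GolayPt)) => hist x X) hc3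
      (trioM (5279, 1009728)) (fun v => (fun r => sextOf (toSet r)) (OrbTS.repc v))
      (fun X hX => by
        obtain ⟨g, hg, h1, h2⟩ := OrbTS.fam.1 X hX
        exact ⟨⟨g, hg⟩, h1, h2⟩) T ⟨σ, hσ⟩ hx
    exact four_orbits Cfsg.sextets (Set.toFinite _) (fun X => hist T X) key.1
      600000012 200080008 120006 2041002 7 84 336 1344
      (by rw [key.2]; exact OrbTS.cnt1) (by rw [key.2]; exact OrbTS.cnt2) (by rw [key.2]; exact OrbTS.cnt3) (by rw [key.2]; exact OrbTS.cnt4)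
      (by norm_num) (by norm_num) (by norm_num) (by norm_num) (by decide) (by rw [ncard_sextets])

end Cfsg.Agent.S5612
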