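import Cfsg.Statements.S5614
import Cfsg.Agent.Helper28.TwoOct

set_option autoImplicit false
open scoped Pointwise
open Cfsg

namespace Cfsg.Agent.S5614

open Cfsg.Agent.Helper28 Cfsg.Agent.Helper28.Golay
open scoped Pointwise

/-- In the group of the length-24 code, the joint stabiliser of two octads meeting in exactly two points is isomorphic to the symmetric group of degree 6. -/
theorem result (o o' : Finset Cfsg.GolayPt) (ho : o ∈ Cfsg.octads) (ho' : o' ∈ Cfsg.octads) (h₂ : (o ∩ o').card = 2) : Nonempty (↥(MulAction.stabilizer Cfsg.M24 o ⊓ MulAction.stabilizer Cfsg.M24 o') ≃* Equiv.Perm (Fin 6)) := by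

  have h6 : (o \ o').card = 6 := by
    have := Finset.card_sdiff_add_card_inter o o'
    rw [ho.2, h₂] at this
    omega
  have hJ : ∀ j ∈ MulAction.stabilizer Cfsg.M24 o ⊓ MulAction.stabilizer Cfsg.M24 o',
      (j : Equiv.Perm Cfsg.GolayPt) • (o \ o') = o \ o' := by
    intro j hj
    obtain ⟨h1, h2⟩ := Subgroup.mem_inf.1 hj
    have e1 : (j : Equiv.Perm Cfsg.GolayPt) • o = o := MulAction.mem_stabilizer_iff.1 h1
    have e2 : (j : Equiv.Perm Cfsg.GolayPt) • o' = o' := MulAction.mem_stabilizer_iff.1 h2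
    rw [Finset.smul_finset_sdiff, e1, e2]
  have hinj : Function.Injective (restrSub Cfsg.M24 _ (o \ o') hJ) := by
    rw [← MonoidHom.ker_eq_bot_iff, eq_bot_iff]
    intro j hj
    rw [MonoidHom.mem_ker] at hj
    have hfix := restrSub_eq_one Cfsg.M24 _ (o \ o') hJ j hj
    have hK := (fix_six_iff (o \ o') o h6 ho Finset.sdiff_subset j.1.1).1 ⟨j.1.2, hfix⟩
    have hst : (j.1.1 : Equiv.Perm Cfsg.GolayPt) • o' = o' :=
      MulAction.mem_stabilizer_iff.1 (Subgroup.mem_inf.1 j.2).2
    have h1 := two_oct_fix o o' ho ho' h₂ j.1.1 hK hst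
    rw [Subgroup.mem_bot]
    exact Subtype.ext (Subtype.ext h1)
  have hcard := (card_stab_two_oct o o' ho ho').2.2 h₂
  have hbij : Function.Bijective (restrSub Cfsg.M24 _ (o \ o') hJ) := by
    refine Function.Injective.bijective_of_nat_card_le hinj ?_
    rw [hcard, Nat.card_perm, Nat.card_eq_fintype_card, Fintype.card_coe, h6]
    rfl
  exact ⟨(MulEquiv.ofBijective _ hbij).trans ((Finset.equivFinOfCardEq h6).permCongrHom)⟩

end Cfsg.Agent.S5614
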