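import Cfsg.Statements.S5615
import Cfsg.Agent.Helper28.Oct15

set_option autoImplicit false
open scoped Pointwise
open Cfsg

namespace Cfsg.Agent.S5615

open Cfsg.Agent.Helper28 Cfsg.Agent.Helper28.Golay
open Cfsg
open scoped Pointwise

theorem P15_iff {p : Nat × Nat} (hp : p ∈ trioL) : toSet 8391797 ∈ trioM p ↔ P15 p = true := by
  obtain ⟨a, b⟩ := p
  rw [mem_trioM_iff hp (by norm_num), P15, Bool.or_eq_true, Bool.or_eq_true, nbeq_iff, nbeq_iff,
    nbeq_iff, or_assoc]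

theorem mem_L15 {p : Nat × Nat} (hp : p ∈ trioL) (h : toSet 8391797 ∈ trioM p) : p ∈ L15 := by
  rw [← L15_eq, List.mem_filter]
  exact ⟨hp, (P15_iff hp).1 h⟩

theorem L15_sub {p : Nat × Nat} (hp : p ∈ L15) : p ∈ trioL := by
  rw [← L15_eq, List.mem_filter] at hp
  exact hp.1

theorem count15 : {T : Finset (Finset GolayPt) | T ∈ trios ∧ toSet 8391797 ∈ T}.ncard = 15 := by
  rw [ncard_trio (fun T => toSet 8391797 ∈ T) P15 (fun p hp => P15_iff hp), L15_eq]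
  rfl

theorem base_two (T1 T2 : Finset (Finset GolayPt)) (h1 : T1 ∈ trios) (h2 : T2 ∈ trios)
    (m1 : toSet 8391797 ∈ T1) (m2 : toSet 8391797 ∈ T2) (hne : T1 ≠ T2) :
    ∃ g ∈ M24, g • toSet 8391797 = toSet 8391797 ∧ g • T1 = trioM (8391797, 307594) ∧
      g • T2 = trioM (8391797, 762504) := by
  obtain ⟨p, hp, rfl⟩ := trio_param h1
  obtain ⟨q, hq, rfl⟩ := trio_param h2
  have hp' := mem_L15 hp m1
  have hq' := mem_L15 hq m2
  have h := List.all_eq_true.1 (List.all_eq_true.1 pair_ok p hp') q hq'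
  rw [pairOK, Bool.or_eq_true] at h
  rcases h with h | h
  · exfalso
    rw [Bool.and_eq_true, nbeq_iff, nbeq_iff] at h
    exact hne (by rw [Prod.ext h.1 h.2])
  · rw [test15, Bool.and_eq_true, Bool.and_eq_true] at h
    obtain ⟨⟨ha, hb⟩, hc⟩ := h
    obtain ⟨k1, k2⟩ := stabOctN_sound _ _ ha
    exact ⟨permOf (decT _), permOf_mem_M24 k1, k2,
      imgTrio_sound (isPerm_of_inM24 k1) hp (L15_sub (by decide))
        (by rw [← imgTrioN_eq]; exact hb),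
      imgTrio_sound (isPerm_of_inM24 k1) hq (L15_sub (by decide))
        (by rw [← imgTrioN_eq]; exact hc)⟩

theorem base_fix (g : Equiv.Perm GolayPt) (hg : g ∈ GS [] Opts) (T : Finset (Finset GolayPt))
    (hT : T ∈ trios) (m : toSet 8391797 ∈ T) : g • T = T := by
  obtain ⟨R, hR, hR1, rfl⟩ := chain_enum [] chO Opts lvO finO g hg
  obtain ⟨p, hp, rfl⟩ := trio_param hT
  have hp' := mem_L15 hp m
  have h := List.all_eq_true.1 (List.all_eq_true.1 fixK R hR) p hp'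
  exact imgTrio_sound hR1 hp hp h

theorem ker_trivial (o : Finset GolayPt) (ho : o ∈ octads)
    (hC1 : ∀ g ∈ M24, (∀ p ∈ o, g p = p) → ∀ T ∈ trios, o ∈ T → g • T = T)
    (hmove : ∃ g ∈ M24, g • o = o ∧ ∃ T ∈ trios, o ∈ T ∧ g • T ≠ T)
    (g : Equiv.Perm GolayPt) (hg : g ∈ M24) (hgo : g • o = o)
    (hfix : ∀ T ∈ trios, o ∈ T → g • T = T) : ∀ p ∈ o, g p = p := by
  classical
  let N : Subgroup ↥(M24 ⊓ MulAction.stabilizer (Equiv.Perm GolayPt) o) :=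
    { carrier := {h | ∀ T ∈ trios, o ∈ T → h.1 • T = T}
      mul_mem' := by
        intro a b ha hb T hT hm
        show (a.1 * b.1) • T = T
        rw [mul_smul, hb T hT hm, ha T hT hm]
      one_mem' := by
        intro T hT hm
        exact one_smul _ T
      inv_mem' := by
        intro a ha T hT hm
        show a.1⁻¹ • T = T
        rw [inv_smul_eq_iff, ha T hT hm] }
  have hN : N.Normal := by
    constructor
    intro n hn h T hT hm
    show (h.1 * n.1 * h.1⁻¹) • T = T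
    have h1 : h.1⁻¹ • T ∈ trios := smul_mem_trios (M24.inv_mem h.2.1) hT
    have h2 : o ∈ h.1⁻¹ • T := by
      rw [Finset.mem_inv_smul_finset_iff, MulAction.mem_stabilizer_iff.1 h.2.2]
      exact hm
    rw [mul_smul, mul_smul, hn _ h1 h2, smul_inv_smul]
  have hs : IsSimpleGroup ↥(restr M24 o).range := by
    rw [range_restr_oct o ho]
    exact alternatingGroup.isSimpleGroup
      (by rw [Nat.card_eq_fintype_card, Fintype.card_coe, ho.2]; norm_num)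
  have hN' : (N.map (restr M24 o).rangeRestrict).Normal :=
    Subgroup.Normal.map hN _ (restr M24 o).rangeRestrict_surjective
  rcases hN'.eq_bot_or_eq_top with hb | ht
  · have hgH : g ∈ M24 ⊓ MulAction.stabilizer (Equiv.Perm GolayPt) o := ⟨hg, hgo⟩
    have hgN : (⟨g, hgH⟩ : ↥(M24 ⊓ MulAction.stabilizer (Equiv.Perm GolayPt) o)) ∈ N := hfix
    have h1 : (restr M24 o).rangeRestrict ⟨g, hgH⟩ ∈ N.map (restr M24 o).rangeRestrict :=
      Subgroup.mem_map_of_mem _ hgN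
    rw [hb, Subgroup.mem_bot] at h1
    have h2 : restr M24 o ⟨g, hgH⟩ = 1 := congrArg Subtype.val h1
    exact (mem_ker_restr M24 o ⟨g, hgH⟩).1 (MonoidHom.mem_ker.2 h2)
  · exfalso
    obtain ⟨h, hh, hho, T, hT, hm, hne⟩ := hmove
    have hhH : h ∈ M24 ⊓ MulAction.stabilizer (Equiv.Perm GolayPt) o := ⟨hh, hho⟩
    have h1 : (restr M24 o).rangeRestrict ⟨h, hhH⟩ ∈ N.map (restr M24 o).rangeRestrict := by
      rw [ht]
      exact Subgroup.mem_top _
    obtain ⟨n, hn, e⟩ := Subgroup.mem_map.1 h1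
    have e' : restr M24 o n = restr M24 o ⟨h, hhH⟩ := congrArg Subtype.val e
    have h2 : restr M24 o (n⁻¹ * ⟨h, hhH⟩) = 1 := by
      rw [map_mul, map_inv, e', inv_mul_cancel]
    have h3 := (mem_ker_restr M24 o _).1 (MonoidHom.mem_ker.2 h2)
    have h4 := hC1 _ (n⁻¹ * ⟨h, hhH⟩).2.1 h3 T hT hm
    apply hne
    have h5 : (n.1⁻¹ * h) • T = T := h4
    rw [mul_smul, inv_smul_eq_iff, hn T hT hm] at h5
    exact h5

/-- An octad of the length-24 code lies in exactly 15 trios; the stabiliser of the octad in the code's group acts doubly transitively on these 15 trios, and the kernel of this action is the pointwise stabiliser of the octad. -/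
theorem result (o : Finset Cfsg.GolayPt) (ho : o ∈ Cfsg.octads) : {T : Finset (Finset Cfsg.GolayPt) | T ∈ Cfsg.trios ∧ o ∈ T}.ncard = 15 ∧ (∀ T₁ T₂ T₁' T₂' : Finset (Finset Cfsg.GolayPt), T₁ ∈ Cfsg.trios → T₂ ∈ Cfsg.trios → T₁' ∈ Cfsg.trios → T₂' ∈ Cfsg.trios → o ∈ T₁ → o ∈ T₂ → o ∈ T₁' → o ∈ T₂' → T₁ ≠ T₂ → T₁' ≠ T₂' → ∃ g ∈ Cfsg.M24, g • o = o ∧ g • T₁ = T₁' ∧ g • T₂ = T₂') ∧ ∀ g ∈ Cfsg.M24, g • o = o → ((∀ T ∈ Cfsg.trios, o ∈ T → g • T = T) ↔ ∀ p ∈ o, g p = p) := by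
  obtain ⟨σ, hσ, h0⟩ := octad_trans o (toSet 8391797) ho O0_mem
  have hmem : ∀ T, T ∈ trios → o ∈ T → σ • T ∈ trios ∧ toSet 8391797 ∈ σ • T := fun T hT hoT =>
    ⟨smul_mem_trios hσ hT, by rw [← h0]; exact Finset.smul_mem_smul_finset hoT⟩
  have hA : {T : Finset (Finset GolayPt) | T ∈ trios ∧ o ∈ T}.ncard = 15 := by
    have himg : {T : Finset (Finset GolayPt) | T ∈ trios ∧ toSet 8391797 ∈ T} =
        (fun X => σ • X) '' {T : Finset (Finset GolayPt) | T ∈ trios ∧ o ∈ T} := by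
      ext X
      constructor
      · rintro ⟨hX, hm⟩
        refine ⟨σ⁻¹ • X, ⟨smul_mem_trios (M24.inv_mem hσ) hX, ?_⟩, smul_inv_smul σ X⟩
        rw [Finset.mem_inv_smul_finset_iff, h0]
        exact hm
      · rintro ⟨T, ⟨hT, hm⟩, rfl⟩
        exact hmem T hT hm
    rw [← count15, himg, Set.ncard_image_of_injective _ (MulAction.injective σ)]
  have hB : ∀ T₁ T₂ T₁' T₂' : Finset (Finset Cfsg.GolayPt), T₁ ∈ Cfsg.trios → T₂ ∈ Cfsg.trios →
      T₁' ∈ Cfsg.trios → T₂' ∈ Cfsg.trios → o ∈ T₁ → o ∈ T₂ → o ∈ T₁' → o ∈ T₂' → T₁ ≠ T₂ →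
      T₁' ≠ T₂' → ∃ g ∈ Cfsg.M24, g • o = o ∧ g • T₁ = T₁' ∧ g • T₂ = T₂' := by
    intro T1 T2 T1' T2' h1 h2 h1' h2' m1 m2 m1' m2' hne hne'
    obtain ⟨g1, hg1, e1, f1, f2⟩ := base_two (σ • T1) (σ • T2) (hmem T1 h1 m1).1
      (hmem T2 h2 m2).1 (hmem T1 h1 m1).2 (hmem T2 h2 m2).2
      (fun h => hne (MulAction.injective σ h))
    obtain ⟨g2, hg2, e2, f1', f2'⟩ := base_two (σ • T1') (σ • T2') (hmem T1' h1' m1').1
      (hmem T2' h2' m2').1 (hmem T1' h1' m1').2 (hmem T2' h2' m2').2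
      (fun h => hne' (MulAction.injective σ h))
    refine ⟨σ⁻¹ * g2⁻¹ * g1 * σ, M24.mul_mem (M24.mul_mem (M24.mul_mem (M24.inv_mem hσ)
      (M24.inv_mem hg2)) hg1) hσ, ?_, ?_, ?_⟩
    · rw [mul_smul, mul_smul, mul_smul, h0, e1, inv_smul_eq_iff, h0, inv_smul_eq_iff, e2]
    · rw [mul_smul, mul_smul, mul_smul, f1, ← f1', inv_smul_smul, inv_smul_smul]
    · rw [mul_smul, mul_smul, mul_smul, f2, ← f2', inv_smul_smul, inv_smul_smul]
  have hC1 : ∀ g ∈ M24, (∀ p ∈ o, g p = p) → ∀ T ∈ trios, o ∈ T → g • T = T := by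
    intro g hg hfix T hT hm
    have hgK : g ∈ M24 ⊓ fixingSubgroup (Equiv.Perm GolayPt) (o : Set GolayPt) :=
      ⟨hg, (mem_fixingSubgroup_iff _).2 fun p hp => hfix p (Finset.mem_coe.1 hp)⟩
    have h1 := (fix_octad_conj o σ hσ h0 g).1 hgK
    have h2 := base_fix _ h1 (σ • T) (hmem T hT hm).1 (hmem T hT hm).2
    rw [mul_smul, mul_smul, inv_smul_smul] at h2
    exact MulAction.injective σ h2
  have hmove : ∃ g ∈ M24, g • o = o ∧ ∃ T ∈ trios, o ∈ T ∧ g • T ≠ T := by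
    have h1 : 1 < {T : Finset (Finset GolayPt) | T ∈ trios ∧ o ∈ T}.ncard := by
      rw [hA]
      norm_num
    obtain ⟨T1, ⟨hT1, m1⟩, T2, ⟨hT2, m2⟩, hne⟩ := (Set.one_lt_ncard (Set.toFinite _)).1 h1
    obtain ⟨g, hg, e, f1, f2⟩ := hB T1 T2 T2 T1 hT1 hT2 hT2 hT1 m1 m2 m2 m1 hne (Ne.symm hne)
    exact ⟨g, hg, e, T1, hT1, m1, by rw [f1]; exact Ne.symm hne⟩
  refine ⟨hA, hB, ?_⟩
  intro g hg hgo
  exact ⟨fun h => ker_trivial o ho hC1 hmove g hg hgo h, fun h => hC1 g hg h⟩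

end Cfsg.Agent.S5615
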