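import Cfsg.Statements.S5616
import Cfsg.Agent.Helper28.TriSext
import Cfsg.Agent.Helper28.OrbYS

set_option autoImplicit false
open scoped Pointwise
open Cfsg

namespace Cfsg.Agent.S5616

open Cfsg.Agent.Helper28 Cfsg.Agent.Helper28.Golay
open scoped Pointwise

theorem tri_main (Y : Finset Cfsg.GolayPt) (σ : Equiv.Perm Cfsg.GolayPt) (hσ : σ ∈ Cfsg.M24)
    (hx : σ • Y = toSet 8388613) :
    (∀ k, (k = 1 ∨ k = 2 ∨ k = 3) → {S | S ∈ Cfsg.sextets ∧ nmeet Y S = k}.ncard =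
      {X | X ∈ Cfsg.sextets ∧
        hist ({toSet 8388613} : Finset (Finset Cfsg.GolayPt)) X = gk k}.ncard) ∧
    (∀ S S', S ∈ Cfsg.sextets → S' ∈ Cfsg.sextets → nmeet Y S = nmeet Y S' →
      ∃ g ∈ Cfsg.M24, g • Y = Y ∧ g • S = S') := by
  have hn : ∀ X, nmeet Y X = nmeet (toSet 8388613) (σ • X) := fun X => by
    rw [← hx, nmeet_smul]
  constructor
  · intro k hk
    have himg : {X | X ∈ Cfsg.sextets ∧
        hist ({toSet 8388613} : Finset (Finset Cfsg.GolayPt)) X = gk k} =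
        (fun X => σ • X) '' {S | S ∈ Cfsg.sextets ∧ nmeet Y S = k} := by
      ext X
      constructor
      · rintro ⟨hX, hc⟩
        refine ⟨σ⁻¹ • X, ⟨smul_mem_sextets (Cfsg.M24.inv_mem hσ) hX, ?_⟩, smul_inv_smul σ X⟩
        rw [hn, smul_inv_smul]
        obtain ⟨h1, h2⟩ := nmeet_base X hX
        rw [h2] at hc
        exact gk_inj h1 hk hc
      · rintro ⟨S, ⟨hS, hc⟩, rfl⟩
        have hS' := smul_mem_sextets hσ hS
        refine ⟨hS', ?_⟩
        show hist ({toSet 8388613} : Finset (Finset Cfsg.GolayPt)) (σ • S) = gk k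
        rw [(nmeet_base _ hS').2, ← hn, hc]
    rw [himg, Set.ncard_image_of_injective _ (MulAction.injective σ)]
  · intro S S' hS hS' hc
    have hS1 := smul_mem_sextets hσ hS
    have hS1' := smul_mem_sextets hσ hS'
    obtain ⟨g1, hg1, e1, f1⟩ := OrbYS.fam.1 _ hS1
    obtain ⟨g2, hg2, e2, f2⟩ := OrbYS.fam.1 _ hS1'
    have hh : hist ({toSet 8388613} : Finset (Finset Cfsg.GolayPt)) (σ • S) =
        hist ({toSet 8388613} : Finset (Finset Cfsg.GolayPt)) (σ • S') := by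
      rw [(nmeet_base _ hS1).2, (nmeet_base _ hS1').2, ← hn, ← hn, hc]
    rw [hh] at f1
    refine ⟨σ⁻¹ * g2⁻¹ * g1 * σ, Cfsg.M24.mul_mem (Cfsg.M24.mul_mem (Cfsg.M24.mul_mem
      (Cfsg.M24.inv_mem hσ) (Cfsg.M24.inv_mem hg2)) hg1) hσ, ?_, ?_⟩
    · rw [mul_smul, mul_smul, mul_smul, hx, e1, inv_smul_eq_iff, hx, inv_smul_eq_iff, e2]
    · rw [mul_smul, mul_smul, mul_smul, f1, ← f2, inv_smul_smul, inv_smul_smul]

/-- Let Y be a set of 3 of the 24 points. The sextets of the length-24 code whose tetrads meeting Y number 1, 2 or 3 are respectively 21, 630 and 1120 in number, and two sextets with the same number of tetrads meeting Y are conjugate under the setwise stabiliser of Y in the code's group. -/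
theorem result (Y : Finset Cfsg.GolayPt) (hY : Y.card = 3) : {S : Finset (Finset Cfsg.GolayPt) | S ∈ Cfsg.sextets ∧ (S.filter fun t => (t ∩ Y).Nonempty).card = 1}.ncard = 21 ∧ {S : Finset (Finset Cfsg.GolayPt) | S ∈ Cfsg.sextets ∧ (S.filter fun t => (t ∩ Y).Nonempty).card = 2}.ncard = 630 ∧ {S : Finset (Finset Cfsg.GolayPt) | S ∈ Cfsg.sextets ∧ (S.filter fun t => (t ∩ Y).Nonempty).card = 3}.ncard = 1120 ∧ ∀ S S' : Finset (Finset Cfsg.GolayPt), S ∈ Cfsg.sextets → S' ∈ Cfsg.sextets → (S.filter fun t => (t ∩ Y).Nonempty).card = (S'.filter fun t => (t ∩ Y).Nonempty).card → ∃ g ∈ Cfsg.M24, g • Y = Y ∧ g • S = S' := by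
  obtain ⟨a, b, c, hab, hac, hbc, rfl⟩ := Finset.card_eq_three.1 hY
  obtain ⟨σ, hσ, h1, h2, h3⟩ := map3 a b c hab hac hbc
  have hx : σ⁻¹ • ({a, b, c} : Finset Cfsg.GolayPt) = toSet 8388613 := by
    rw [inv_smul_eq_iff, base_tri, smul_triple, h1, h2, h3]
  obtain ⟨k1, k2⟩ := tri_main _ σ⁻¹ (Cfsg.M24.inv_mem hσ) hx
  refine ⟨?_, ?_, ?_, k2⟩
  · exact (k1 1 (Or.inl rfl)).trans OrbYS.cnt1
  · exact (k1 2 (Or.inr (Or.inl rfl))).trans OrbYS.cnt2
  · exact (k1 3 (Or.inr (Or.inr rfl))).trans OrbYS.cnt3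

end Cfsg.Agent.S5616
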