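import Cfsg.Statements.S5617
import Cfsg.Agent.Helper28.OrbPS

set_option autoImplicit false
open scoped Pointwise
open Cfsg

namespace Cfsg.Agent.S5617

open Cfsg.Agent.Helper28 Cfsg.Agent.Helper28.Golay
open scoped Pointwise

theorem hc3 (g : ↥Cfsg.M24) (x X : Finset (Finset Cfsg.GolayPt)) :
    hist (g • x) (g • X) = hist x X := hist_smul g.1 x X

theorem smul_pair (σ : Equiv.Perm Cfsg.GolayPt) (d : Finset Cfsg.GolayPt) :
    σ • ({d, Finset.univ \ d} : Finset (Finset Cfsg.GolayPt)) = {σ • d, Finset.univ \ σ • d} := by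
  rw [Finset.smul_finset_insert, Finset.smul_finset_singleton, Finset.smul_finset_sdiff,
    Finset.smul_finset_univ]

/-- The setwise stabiliser, in the group of the length-24 code, of a complementary pair of dodecads has exactly three orbits on the 1771 sextets, of sizes 396, 495 and 880. -/
theorem result (d : Finset Cfsg.GolayPt) (hd : d ∈ Cfsg.dodecads) : ∃ X₁ ∈ Cfsg.sextets, ∃ X₂ ∈ Cfsg.sextets, ∃ X₃ ∈ Cfsg.sextets, (MulAction.orbit ↥(MulAction.stabilizer Cfsg.M24 ({d, Finset.univ \ d} : Finset (Finset Cfsg.GolayPt))) X₁).ncard = 396 ∧ (MulAction.orbit ↥(MulAction.stabilizer Cfsg.M24 ({d, Finset.univ \ d} : Finset (Finset Cfsg.GolayPt))) X₂).ncard = 495 ∧ (MulAction.orbit ↥(MulAction.stabilizer Cfsg.M24 ({d, Finset.univ \ d} : Finset (Finset Cfsg.GolayPt))) X₃).ncard = 880 ∧ Cfsg.sextets = MulAction.orbit ↥(MulAction.stabilizer Cfsg.M24 ({d, Finset.univ \ d} : Finset (Finset Cfsg.GolayPt))) X₁ ∪ MulAction.orbit ↥(MulAction.stabilizer Cfsg.M24 ({d, Finset.univ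 \ d} : Finset (Finset Cfsg.GolayPt))) X₂ ∪ MulAction.orbit ↥(MulAction.stabilizer Cfsg.M24 ({d, Finset.univ \ d} : Finset (Finset Cfsg.GolayPt))) X₃ := by
  obtain ⟨σ, hσ, hx0⟩ := dod_trans d (toSet 28637) hd
    (toSet_mem_dodecads (by decide +kernel) (by decide +kernel))
  have hx : σ • ({d, Finset.univ \ d} : Finset (Finset Cfsg.GolayPt)) = ({toSet 28637, Finset.univ \ toSet 28637} : Finset (Finset Cfsg.GolayPt)) := by
    rw [smul_pair, hx0]
  have key := orbit_classes (G := ↥Cfsg.M24) Cfsg.sextets (fun g X hX => smul_mem_sextets g.2 hX)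
      (fun (x X : Finset (Finset Cfsg.GolayPt)) => hist x X) hc3
      ({toSet 28637, Finset.univ \ toSet 28637} : Finset (Finset Cfsg.GolayPt)) (fun v => sextOf (toSet (OrbPS.repc v)))
      (fun X hX => by
        obtain ⟨g, hg, h1, h2⟩ := OrbPS.fam.1 X hX
        exact ⟨⟨g, hg⟩, h1, h2⟩) ({d, Finset.univ \ d} : Finset (Finset Cfsg.GolayPt)) ⟨σ, hσ⟩ hx
  exact three_orbits Cfsg.sextets (Set.toFinite _) (fun X => hist ({d, Finset.univ \ d} : Finset (Finset Cfsg.GolayPt)) X) key.1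
      120000 200080002 6000600 396 495 880
      (by rw [key.2]; exact OrbPS.cnt1) (by rw [key.2]; exact OrbPS.cnt2)
      (by rw [key.2]; exact OrbPS.cnt3)
      (by norm_num) (by norm_num) (by norm_num) (by decide) (by rw [ncard_sextets])

end Cfsg.Agent.S5617
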