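import Cfsg.Statements.S5618
import Cfsg.Agent.Helper28.TwoOct

set_option autoImplicit false
open scoped Pointwise
open Cfsg

namespace Cfsg.Agent.S5618

open Cfsg.Agent.Helper28 Cfsg.Agent.Helper28.Golay

theorem perm_eq_one_of_fix {β : Type*} [Fintype β] [DecidableEq β] (e : Equiv.Perm β)
    (F : Finset β) (hF : ∀ x ∈ F, e x = x) (hcard : Fintype.card β ≤ F.card + 1) : e = 1 := by
  have h1 : e.support ⊆ Fᶜ := by
    intro x hx
    rw [Finset.mem_compl]
    intro hxF
    exact (Equiv.Perm.mem_support.1 hx) (hF x hxF)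
  have h2 : e.support.card ≤ 1 := by
    have := Finset.card_le_card h1
    rw [Finset.card_compl] at this
    omega
  have h3 := Equiv.Perm.card_support_ne_one e
  exact Equiv.Perm.card_support_eq_zero.1 (by omega)

/-- an element of the stabiliser of a dodecad fixing five of its points is trivial -/
theorem fix5 (d : Finset Cfsg.GolayPt) (hd : d ∈ Cfsg.dodecads) (s : Finset Cfsg.GolayPt)
    (hs : s ⊆ d) (h5 : 5 ≤ s.card) (g : Equiv.Perm Cfsg.GolayPt) (hg : g ∈ Cfsg.M24)
    (hgd : g • d = d) (hfix : ∀ p ∈ s, g p = p) : g = 1 := by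
  have hne : s.Nonempty := Finset.card_pos.1 (by omega)
  obtain ⟨p, hp⟩ := hne
  obtain ⟨x, -, hx⟩ := exists_emb5 s h5 p hp
  exact (sharp5 d hd x x (fun i => hs (hx i)) (fun i => hs (hx i))).2 g 1 hg Cfsg.M24.one_mem hgd
    (one_smul _ _) (fun i => hfix _ (hx i)) (fun i => rfl)

/-- For a dodecad d of the length-24 code and a hexad C on it (a 6-point intersection of d with an octad): the joint stabiliser of d and C in the code's group is isomorphic to the symmetric group of degree 6, and it acts faithfully both on the six points of C and on the six points of d outside C. -/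
theorem result (d : Finset Cfsg.GolayPt) (hd : d ∈ Cfsg.dodecads) (C : Finset Cfsg.GolayPt) (hC : C ∈ Cfsg.hexadsOn d) : Nonempty (↥(MulAction.stabilizer Cfsg.M24 d ⊓ MulAction.stabilizer Cfsg.M24 C) ≃* Equiv.Perm (Fin 6)) ∧ (∀ g ∈ MulAction.stabilizer Cfsg.M24 d ⊓ MulAction.stabilizer Cfsg.M24 C, (∀ p ∈ C, ((g : ↥Cfsg.M24) : Equiv.Perm Cfsg.GolayPt) p = p) → g = 1) ∧ ∀ g ∈ MulAction.stabilizer Cfsg.M24 d ⊓ MulAction.stabilizer Cfsg.M24 C, (∀ p ∈ d \ C, ((g : ↥Cfsg.M24) : Equiv.Perm Cfsg.GolayPt) p = p) → g = 1 := by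

  obtain ⟨hC6, o, ho, hoC⟩ := hC
  have hCd : C ⊆ d := by
    rw [← hoC]
    exact Finset.inter_subset_right
  have hCo : C ⊆ o := by
    rw [← hoC]
    exact Finset.inter_subset_left
  have hB : ∀ g ∈ MulAction.stabilizer Cfsg.M24 d ⊓ MulAction.stabilizer Cfsg.M24 C,
      (∀ p ∈ C, ((g : ↥Cfsg.M24) : Equiv.Perm Cfsg.GolayPt) p = p) → g = 1 := by
    intro g hg hfix
    have hgd : (g : Equiv.Perm Cfsg.GolayPt) • d = d :=
      MulAction.mem_stabilizer_iff.1 (Subgroup.mem_inf.1 hg).1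
    exact Subtype.ext (fix5 d hd C hCd (by omega) g.1 g.2 hgd hfix)
  have hCc : ∀ g ∈ MulAction.stabilizer Cfsg.M24 d ⊓ MulAction.stabilizer Cfsg.M24 C,
      (∀ p ∈ d \ C, ((g : ↥Cfsg.M24) : Equiv.Perm Cfsg.GolayPt) p = p) → g = 1 := by
    intro g hg hfix
    have hgd : (g : Equiv.Perm Cfsg.GolayPt) • d = d :=
      MulAction.mem_stabilizer_iff.1 (Subgroup.mem_inf.1 hg).1
    have h6 : (d \ C).card = 6 := by
      rw [Finset.card_sdiff_of_subset hCd, hd.2, hC6]
    exact Subtype.ext (fix5 d hd (d \ C) Finset.sdiff_subset (by omega) g.1 g.2 hgd hfix)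
  refine ⟨?_, hB, hCc⟩
  have hJ : ∀ j ∈ MulAction.stabilizer Cfsg.M24 d ⊓ MulAction.stabilizer Cfsg.M24 C,
      (j : Equiv.Perm Cfsg.GolayPt) • C = C := fun j hj =>
    MulAction.mem_stabilizer_iff.1 (Subgroup.mem_inf.1 hj).2
  have hinj : Function.Injective (restrSub Cfsg.M24 _ C hJ) := by
    rw [← MonoidHom.ker_eq_bot_iff, eq_bot_iff]
    intro j hj
    rw [MonoidHom.mem_ker] at hj
    have hfix := restrSub_eq_one Cfsg.M24 _ C hJ j hj
    rw [Subgroup.mem_bot]
    exact Subtype.ext (hB j.1 j.2 hfix)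
  have hsurj : Function.Surjective (restrSub Cfsg.M24 _ C hJ) := by
    intro π
    have hxinj : Function.Injective
        (fun i : Fin 5 => (((C.equivFinOfCardEq hC6).symm i.castSucc : ↥C) : Cfsg.GolayPt)) :=
      fun i j h => Fin.castSucc_injective _ ((C.equivFinOfCardEq hC6).symm.injective (Subtype.ext h))
    have hyinj : Function.Injective
        (fun i : Fin 5 => ((π ((C.equivFinOfCardEq hC6).symm i.castSucc) : ↥C) : Cfsg.GolayPt)) :=
      fun i j h => Fin.castSucc_injective _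
        ((C.equivFinOfCardEq hC6).symm.injective (π.injective (Subtype.ext h)))
    have hxC : ∀ i : Fin 5, (((C.equivFinOfCardEq hC6).symm i.castSucc : ↥C) : Cfsg.GolayPt) ∈ C :=
      fun i => ((C.equivFinOfCardEq hC6).symm i.castSucc).2
    have hyC : ∀ i : Fin 5,
        ((π ((C.equivFinOfCardEq hC6).symm i.castSucc) : ↥C) : Cfsg.GolayPt) ∈ C :=
      fun i => (π ((C.equivFinOfCardEq hC6).symm i.castSucc)).2
    obtain ⟨g, hg, hgd, hgxy⟩ := (sharp5 d hd ⟨_, hxinj⟩ ⟨_, hyinj⟩ (fun i => hCd (hxC i))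
      (fun i => hCd (hyC i))).1
    have hgxy' : ∀ i : Fin 5, g ((C.equivFinOfCardEq hC6).symm i.castSucc : ↥C) =
        ((π ((C.equivFinOfCardEq hC6).symm i.castSucc) : ↥C) : Cfsg.GolayPt) := hgxy
    have hgo : g • o = o := by
      have hs : (Finset.univ.image fun i : Fin 5 =>
          ((π ((C.equivFinOfCardEq hC6).symm i.castSucc) : ↥C) : Cfsg.GolayPt)).card = 5 := by
        rw [Finset.card_image_of_injective _ hyinj]
        simp
      refine steiner_unique (le_of_eq hs.symm) (smul_mem_octads hg ho) ho ?_ ?_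
      · intro q hq
        obtain ⟨i, -, rfl⟩ := Finset.mem_image.1 hq
        rw [← hgxy' i]
        exact Finset.smul_mem_smul_finset (hCo (hxC i))
      · intro q hq
        obtain ⟨i, -, rfl⟩ := Finset.mem_image.1 hq
        exact hCo (hyC i)
    have hgC : g • C = C := by
      rw [← hoC, Finset.smul_finset_inter, hgo, hgd]
    have hjmem : (⟨g, hg⟩ : ↥Cfsg.M24) ∈
        MulAction.stabilizer Cfsg.M24 d ⊓ MulAction.stabilizer Cfsg.M24 C :=
      Subgroup.mem_inf.2 ⟨MulAction.mem_stabilizer_iff.2 hgd, MulAction.mem_stabilizer_iff.2 hgC⟩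
    refine ⟨⟨⟨g, hg⟩, hjmem⟩, ?_⟩
    have key : π⁻¹ * restrSub Cfsg.M24 _ C hJ ⟨⟨g, hg⟩, hjmem⟩ = 1 := by
      refine perm_eq_one_of_fix _
        (Finset.univ.image fun i : Fin 5 => (C.equivFinOfCardEq hC6).symm i.castSucc) ?_ ?_
      · intro q hq
        obtain ⟨i, -, rfl⟩ := Finset.mem_image.1 hq
        rw [Equiv.Perm.mul_apply, Equiv.Perm.inv_eq_iff_eq]
        apply Subtype.ext
        exact hgxy' i
      · rw [Finset.card_image_of_injective _ (fun i j h => Fin.castSucc_injective _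
          ((C.equivFinOfCardEq hC6).symm.injective h)), Finset.card_univ, Fintype.card_fin,
          Fintype.card_coe, hC6]
    have h9 := congrArg (fun z => π * z) key
    simpa [mul_assoc] using h9
  exact ⟨(MulEquiv.ofBijective _ ⟨hinj, hsurj⟩).trans ((Finset.equivFinOfCardEq hC6).permCongrHom)⟩

end Cfsg.Agent.S5618
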