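import Cfsg.Statements.S5620
import Cfsg.Agent.Helper28.M12More

set_option autoImplicit false
open scoped Pointwise
open Cfsg

namespace Cfsg.Agent.S5620

open Cfsg.Agent.Helper28 Cfsg.Agent.Helper28.Golay
open scoped Pointwise

theorem mem_M11 (x : Equiv.Perm Cfsg.GolayPt) :
    x ∈ Cfsg.Spor.M11 ↔ x ∈ Cfsg.M24 ∧ x • toSet d0 = toSet d0 ∧ x (some 0) = some 0 := by
  rw [toSet_d0]
  constructor
  · intro h
    obtain ⟨h1, h2⟩ := Subgroup.mem_inf.1 h
    obtain ⟨h3, h4⟩ := Subgroup.mem_inf.1 h1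
    exact ⟨h3, MulAction.mem_stabilizer_iff.1 h4, MulAction.mem_stabilizer_iff.1 h2⟩
  · rintro ⟨h1, h2, h3⟩
    exact Subgroup.mem_inf.2 ⟨Subgroup.mem_inf.2 ⟨h1, MulAction.mem_stabilizer_iff.2 h2⟩,
      MulAction.mem_stabilizer_iff.2 h3⟩

theorem mem_N (x : Equiv.Perm Cfsg.GolayPt) :
    x ∈ Cfsg.Spor.M12 ⊓ MulAction.stabilizer (Equiv.Perm Cfsg.GolayPt) (none : Cfsg.GolayPt) ↔
      x ∈ Cfsg.M24 ∧ x • toSet d0 = toSet d0 ∧ x none = none := by
  rw [toSet_d0]
  constructor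
  · intro h
    obtain ⟨h1, h2⟩ := Subgroup.mem_inf.1 h
    obtain ⟨h3, h4⟩ := Subgroup.mem_inf.1 h1
    exact ⟨h3, MulAction.mem_stabilizer_iff.1 h4, MulAction.mem_stabilizer_iff.1 h2⟩
  · rintro ⟨h1, h2, h3⟩
    exact Subgroup.mem_inf.2 ⟨Subgroup.mem_inf.2 ⟨h1, MulAction.mem_stabilizer_iff.2 h2⟩,
      MulAction.mem_stabilizer_iff.2 h3⟩

theorem mem_conj_smul (g y : Equiv.Perm Cfsg.GolayPt) (H : Subgroup (Equiv.Perm Cfsg.GolayPt)) :
    y ∈ MulAut.conj g • H ↔ g⁻¹ * y * g ∈ H := by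
  rw [Subgroup.mem_pointwise_smul_iff_inv_smul_mem]
  simp [MulAut.smul_def]

/-- the mask of the complement of the dodecad of squares -/
def dc : Nat := 16777215 ^^^ 340831

theorem dc_mem : toSet dc ∈ Cfsg.dodecads := toSet_mem_dodecads (by decide +kernel) (by decide +kernel)

theorem dc_eq : toSet dc = Finset.univ \ toSet d0 := by decide +kernel

theorem none_mem : (none : Cfsg.GolayPt) ∈ toSet dc := by decide +kernel

theorem d0_mem' : toSet d0 ∈ Cfsg.dodecads := toSet_mem_dodecads (by decide +kernel) (by decide +kernel)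

theorem zero_mem : (some 0 : Cfsg.GolayPt) ∈ toSet d0 := by decide +kernel

theorem pt0 : pt 0 = some 0 := by decide +kernel

/-- two triples of points off the dodecad of squares -/
def xE : Fin 3 → Cfsg.GolayPt := ![none, some 5, some 7]
def yE : Fin 3 → Cfsg.GolayPt := ![some 5, none, some 7]

theorem xE_inj : Function.Injective xE := by decide +kernel
theorem yE_inj : Function.Injective yE := by decide +kernel
theorem xE_out : ∀ i, xE i ∉ toSet d0 := by decide +kernel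
theorem yE_out : ∀ i, yE i ∉ toSet d0 := by decide +kernel

theorem smul_compl (y : Equiv.Perm Cfsg.GolayPt) (D : Finset Cfsg.GolayPt) :
    y • (Finset.univ \ D) = Finset.univ \ D ↔ y • D = D := by
  rw [Finset.smul_finset_sdiff, Finset.smul_finset_univ]
  constructor
  · intro h
    have h1 : Finset.univ \ (Finset.univ \ y • D) = Finset.univ \ (Finset.univ \ D) := by rw [h]
    simpa using h1
  · intro h
    rw [h]

/-- Inside the stabiliser of the dodecad of squares (a Mathieu group of degree 12), the stabiliser of the residue 0 (a point of the dodecad) and the stabiliser of the extra point (a point outside the dodecad) are isomorphic but not conjugate; conjugation by a suitable element of the code's group that maps the dodecad of squares onto its complement carries the first onto the second. -/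
theorem result : Nonempty (↥(Cfsg.Spor.M12 ⊓ MulAction.stabilizer (Equiv.Perm Cfsg.GolayPt) (none : Cfsg.GolayPt)) ≃* ↥Cfsg.Spor.M11) ∧ (¬ ∃ k ∈ Cfsg.Spor.M12, MulAut.conj k • Cfsg.Spor.M11 = Cfsg.Spor.M12 ⊓ MulAction.stabilizer (Equiv.Perm Cfsg.GolayPt) (none : Cfsg.GolayPt)) ∧ ∃ g ∈ Cfsg.M24, g • Cfsg.Spor.squareDodecad = Finset.univ \ Cfsg.Spor.squareDodecad ∧ MulAut.conj g • Cfsg.Spor.M11 = Cfsg.Spor.M12 ⊓ MulAction.stabilizer (Equiv.Perm Cfsg.GolayPt) (none : Cfsg.GolayPt) := by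

  have hC : ∃ g ∈ Cfsg.M24, g • Cfsg.Spor.squareDodecad = Finset.univ \ Cfsg.Spor.squareDodecad ∧
      MulAut.conj g • Cfsg.Spor.M11 = Cfsg.Spor.M12 ⊓
        MulAction.stabilizer (Equiv.Perm Cfsg.GolayPt) (none : Cfsg.GolayPt) := by
    obtain ⟨κ, hκ, k1, k2⟩ := flag_normal (toSet dc) dc_mem none none_mem
    rw [pt0] at k2
    have g1 : κ⁻¹ • toSet d0 = toSet dc := by rw [← k1, inv_smul_smul]
    have g2 : κ⁻¹ (some 0) = none := by rw [Equiv.Perm.inv_eq_iff_eq, k2]
    have hg : κ⁻¹ ∈ Cfsg.M24 := Cfsg.M24.inv_mem hκ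
    generalize κ⁻¹ = g at g1 g2 hg
    refine ⟨g, hg, ?_, ?_⟩
    · rw [← toSet_d0, g1, dc_eq]
    · ext y
      rw [mem_conj_smul, mem_M11, mem_N]
      constructor
      · rintro ⟨h1, h2, h3⟩
        refine ⟨?_, ?_, ?_⟩
        · have := Cfsg.M24.mul_mem (Cfsg.M24.mul_mem hg h1) (Cfsg.M24.inv_mem hg)
          simpa [mul_assoc] using this
        · rw [← smul_compl, ← dc_eq, ← g1]
          rw [mul_smul, mul_smul, inv_smul_eq_iff] at h2
          exact h2
        · rw [Equiv.Perm.mul_apply, Equiv.Perm.mul_apply, g2, Equiv.Perm.inv_eq_iff_eq, g2] at h3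
          exact h3
      · rintro ⟨h1, h2, h3⟩
        refine ⟨Cfsg.M24.mul_mem (Cfsg.M24.mul_mem (Cfsg.M24.inv_mem hg) h1) hg, ?_, ?_⟩
        · rw [← smul_compl, ← dc_eq, ← g1] at h2
          rw [mul_smul, mul_smul, inv_smul_eq_iff]
          exact h2
        · rw [Equiv.Perm.mul_apply, Equiv.Perm.mul_apply, g2, Equiv.Perm.inv_eq_iff_eq, g2]
          exact h3
  refine ⟨?_, ?_, hC⟩
  · obtain ⟨g, -, -, e⟩ := hC
    exact ⟨((Subgroup.equivSMul (MulAut.conj g) Cfsg.Spor.M11).trans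
      (MulEquiv.subgroupCongr e)).symm⟩
  · rintro ⟨k, hk, e⟩
    obtain ⟨hk1, hk2⟩ := Subgroup.mem_inf.1 hk
    have hkd : k • toSet d0 = toSet d0 := by
      rw [toSet_d0]
      exact MulAction.mem_stabilizer_iff.1 hk2
    have hq : k (some 0) ∈ toSet d0 := by
      have := Finset.smul_mem_smul_finset (a := k) zero_mem
      rwa [hkd] at this
    obtain ⟨σ, hσ, s1, s2, s3⟩ := three_trans_compl (toSet d0) d0_mem' (k (some 0)) hq
      ⟨xE, xE_inj⟩ ⟨yE, yE_inj⟩ xE_out yE_out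
    have h1 : σ ∈ MulAut.conj k • Cfsg.Spor.M11 := by
      rw [mem_conj_smul, mem_M11]
      refine ⟨Cfsg.M24.mul_mem (Cfsg.M24.mul_mem (Cfsg.M24.inv_mem hk1) hσ) hk1, ?_, ?_⟩
      · rw [mul_smul, mul_smul, hkd, s1, inv_smul_eq_iff, hkd]
      · rw [Equiv.Perm.mul_apply, Equiv.Perm.mul_apply, s2, Equiv.Perm.inv_eq_iff_eq]
    rw [e, mem_N] at h1
    have h2 : σ none = some 5 := s3 0
    rw [h1.2.2] at h2
    exact absurd h2 (by decide)

end Cfsg.Agent.S5620
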