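import Cfsg.Statements.S5624
import Mathlib
import Cfsg.Agent.S5622

set_option autoImplicit false
open Cfsg

namespace Cfsg.Agent.S5624

open Cfsg.Agent.S5623 (V)
open Cfsg.Agent.S5622 (supp mem_supp wt_eq dot_eq exists_leader exists_octad octad_unique)

/-- pairing with the words of a subcode -/
def psi (C0 : Submodule (ZMod 2) V) : V →ₗ[ZMod 2] (C0 →ₗ[ZMod 2] ZMod 2) where
  toFun v :=
    { toFun := fun c => ∑ i, v i * (c : V) i
      map_add' := by
        intro c c'
        simp only [Submodule.coe_add, Pi.add_apply, mul_add, Finset.sum_add_distrib]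
      map_smul' := by
        intro r c
        simp only [Submodule.coe_smul, Pi.smul_apply, smul_eq_mul, RingHom.id_apply,
          Finset.mul_sum]
        refine Finset.sum_congr rfl (fun i _ => ?_)
        ring }
  map_add' := by
    intro v v'
    ext c
    simp only [LinearMap.coe_mk, AddHom.coe_mk, LinearMap.add_apply, Pi.add_apply, add_mul,
      Finset.sum_add_distrib]
  map_smul' := by
    intro r v
    ext c
    simp only [LinearMap.coe_mk, AddHom.coe_mk, LinearMap.smul_apply, Pi.smul_apply, smul_eq_mul,
      RingHom.id_apply, Finset.mul_sum]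
    refine Finset.sum_congr rfl (fun i _ => ?_)
    ring

theorem psi_apply (C0 : Submodule (ZMod 2) V) (v : V) (c : C0) :
    psi C0 v c = ∑ i, v i * (c : V) i := rfl

/-- a subspace of dimension below 12 has an orthogonal vector outside any 12-dimensional `C` -/
theorem exists_perp (C C0 : Submodule (ZMod 2) V) (hdim : Module.finrank (ZMod 2) C = 12)
    (h0 : Module.finrank (ZMod 2) C0 < 12) :
    ∃ v : V, (∀ c ∈ C0, ∑ i, v i * c i = 0) ∧ v ∉ C := by
  have h1 := LinearMap.finrank_range_add_finrank_ker (psi C0)
  have h2 : Module.finrank (ZMod 2) (LinearMap.range (psi C0)) ≤ Module.finrank (ZMod 2) C0 := by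
    have := Submodule.finrank_le (LinearMap.range (psi C0))
    rwa [Subspace.dual_finrank_eq] at this
  have h3 : Module.finrank (ZMod 2) V = 24 := by
    simp [V]
  have h4 : ¬ (LinearMap.ker (psi C0) ≤ C) := by
    intro hle
    have := Submodule.finrank_mono hle
    omega
  obtain ⟨v, hv, hvC⟩ := SetLike.not_le_iff_exists.1 h4
  refine ⟨v, ?_, hvC⟩
  intro c hc
  rw [LinearMap.mem_ker] at hv
  have := congrArg (fun f => f ⟨c, hc⟩) hv
  simpa [psi_apply] using this

/-- an octad meeting a given small nonempty set in an odd number of points -/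
theorem exists_odd_octad (C : Submodule (ZMod 2) V) (hdim : Module.finrank (ZMod 2) C = 12)
    (horth : ∀ v ∈ C, ∀ w ∈ C, ∑ i, v i * w i = 0)
    (hmin : ∀ w ∈ C, w ≠ 0 → 8 ≤ hammingNorm w) (U : Finset (Fin 24)) (hU1 : 1 ≤ U.card)
    (hU4 : U.card ≤ 4) : ∃ c ∈ C, (supp c).card = 8 ∧ ¬ Even (U ∩ supp c).card := by
  by_cases hev : Even U.card
  · obtain ⟨b, hb⟩ : U.Nonempty := by
      rw [← Finset.card_pos]
      omega
    obtain ⟨S', hU'S', hS'sub, hS'card⟩ := Finset.exists_subsuperset_card_eq (s := U.erase b)
      (t := Finset.univ.erase b) (n := 4)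
      (Finset.erase_subset_erase b (Finset.subset_univ U))
      (by rw [Finset.card_erase_of_mem hb]; omega)
      (by rw [Finset.card_erase_of_mem (Finset.mem_univ b), Finset.card_univ, Fintype.card_fin]; omega)
    have hbS' : b ∉ S' := fun h => (Finset.mem_erase.1 (hS'sub h)).1 rfl
    have hcardb : (insert b S').card = 5 := by
      rw [Finset.card_insert_of_notMem hbS', hS'card]
    obtain ⟨cb, hcb, h8b, hsubb⟩ := exists_octad C hdim horth hmin (insert b S') hcardb
    obtain ⟨x, hx⟩ : ∃ x, x ∉ supp cb := by
      by_contra hcon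
      push Not at hcon
      have : supp cb = Finset.univ := Finset.eq_univ_iff_forall.2 hcon
      rw [this, Finset.card_univ, Fintype.card_fin] at h8b
      omega
    have hxS' : x ∉ S' := fun h => hx (hsubb (Finset.mem_insert_of_mem h))
    obtain ⟨cx, hcx, h8x, hsubx⟩ := exists_octad C hdim horth hmin (insert x S')
      (by rw [Finset.card_insert_of_notMem hxS', hS'card])
    have hbcx : b ∉ supp cx := by
      intro hb'
      have := octad_unique C hmin (insert b S') hcardb cx cb hcx hcb h8x h8b
        (Finset.insert_subset hb' ((Finset.subset_insert x S').trans hsubx)) hsubb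
      apply hx
      rw [← this]
      exact hsubx (Finset.mem_insert_self x S')
    refine ⟨cx, hcx, h8x, ?_⟩
    have hinter : U ∩ supp cx = U.erase b := by
      ext i
      simp only [Finset.mem_inter, Finset.mem_erase]
      constructor
      · rintro ⟨h1, h2⟩
        exact ⟨fun h => hbcx (h ▸ h2), h1⟩
      · rintro ⟨h1, h2⟩
        exact ⟨h2, hsubx (Finset.mem_insert_of_mem (hU'S' (Finset.mem_erase.2 ⟨h1, h2⟩)))⟩
    rw [hinter, Finset.card_erase_of_mem hb]
    rw [Nat.even_iff] at hev ⊢
    omega
  · obtain ⟨T, hUT, hT⟩ := Finset.exists_superset_card_eq (s := U) (n := 5) (by omega)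
      (by rw [Fintype.card_fin]; omega)
    obtain ⟨c, hc, h8, hsub⟩ := exists_octad C hdim horth hmin T hT
    refine ⟨c, hc, h8, ?_⟩
    rw [Finset.inter_eq_left.2 (hUT.trans hsub)]
    exact hev

/-- Let C be a self-dual binary code of length 24 with minimum weight at least 8 (a 12-dimensional subspace of the 24-dimensional space over the field with two elements, any two of whose words have dot product zero, with no non-zero word of weight below 8 — an abstract extended binary Golay code). Then C is spanned, as a vector space over the field with two elements, by its words of weight 8. -/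
theorem result (C : Submodule (ZMod 2) (Fin 24 → ZMod 2)) (hdim : Module.finrank (ZMod 2) C = 12) (horth : ∀ v ∈ C, ∀ w ∈ C, ∑ i, v i * w i = 0) (hmin : ∀ w ∈ C, w ≠ 0 → 8 ≤ hammingNorm w) : Submodule.span (ZMod 2) {w : Fin 24 → ZMod 2 | w ∈ C ∧ hammingNorm w = 8} = C := by
  have hle : Submodule.span (ZMod 2) {w : Fin 24 → ZMod 2 | w ∈ C ∧ hammingNorm w = 8} ≤ C :=
    Submodule.span_le.2 (fun w hw => hw.1)
  by_contra hne
  have hlt := lt_of_le_of_ne hle hne
  have hdim0 := Submodule.finrank_lt_finrank_of_lt hlt
  rw [hdim] at hdim0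
  obtain ⟨v, hvker, hvC⟩ := exists_perp C _ hdim hdim0
  obtain ⟨u, huC, hu4⟩ := exists_leader C hdim hmin v
  have hu0 : u ≠ 0 := by
    rintro rfl
    apply hvC
    have := C.neg_mem huC
    simpa using this
  have huker : ∀ c ∈ C, (supp c).card = 8 → Even (supp u ∩ supp c).card := by
    intro c hc h8
    have h1 := horth (u - v) huC c hc
    have h2 := hvker c (Submodule.subset_span ⟨hc, h8⟩)
    have h3 : ∑ i, u i * c i = 0 := by
      have h4 : ∀ i, u i * c i = (u - v) i * c i + v i * c i := by
        intro i
        simp [sub_mul]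
      rw [Finset.sum_congr rfl (fun i _ => h4 i), Finset.sum_add_distrib, h1, h2, add_zero]
    rw [dot_eq] at h3
    exact ZMod.natCast_eq_zero_iff_even.1 h3
  have hU1 : 1 ≤ (supp u).card := by
    rw [Nat.one_le_iff_ne_zero, ← wt_eq]
    exact fun h => hu0 (hammingNorm_eq_zero.1 h)
  obtain ⟨c, hc, h8, hodd⟩ := exists_odd_octad C hdim horth hmin (supp u) hU1 hu4
  exact hodd (huker c hc h8)

end Cfsg.Agent.S5624
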