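import Cfsg.Statements.S5621
import Mathlib
import Cfsg.Agent.S5624

set_option autoImplicit false
open Cfsg

namespace Cfsg.Agent.S5621

open Cfsg.Agent.S5623 (V)
open Cfsg.Agent.S5622 (supp mem_supp wt_eq dot_eq card_supp_sub even_inter zmod2_neg)

theorem zmod2_cases : ∀ r : ZMod 2, r = 0 ∨ r = 1 := by decide

/-- Let C be a self-dual binary code of length 24 with minimum weight at least 8 (a 12-dimensional subspace of the 24-dimensional space over the field with two elements, any two of whose words have dot product zero, with no non-zero word of weight below 8 — an abstract extended binary Golay code). Then C is doubly even: every word of C has weight divisible by 4. -/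
theorem result (C : Submodule (ZMod 2) (Fin 24 → ZMod 2)) (hdim : Module.finrank (ZMod 2) C = 12) (horth : ∀ v ∈ C, ∀ w ∈ C, ∑ i, v i * w i = 0) (hmin : ∀ w ∈ C, w ≠ 0 → 8 ≤ hammingNorm w) : ∀ w ∈ C, 4 ∣ hammingNorm w := by
  intro w hw
  have hspan := Cfsg.Agent.S5624.result C hdim horth hmin
  rw [← hspan] at hw
  have key : ∀ x ∈ Submodule.span (ZMod 2) {w : Fin 24 → ZMod 2 | w ∈ C ∧ hammingNorm w = 8},
      x ∈ C ∧ 4 ∣ hammingNorm x := by
    intro x hx
    induction hx using Submodule.span_induction with
    | mem x hx => exact ⟨hx.1, by rw [hx.2]; exact ⟨2, rfl⟩⟩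
    | zero => exact ⟨C.zero_mem, by rw [hammingNorm_zero]; exact dvd_zero 4⟩
    | add x y _ _ hx hy =>
      refine ⟨C.add_mem hx.1 hy.1, ?_⟩
      have h1 : x + y = x - y := by
        rw [sub_eq_add_neg]
        congr 1
        funext i
        exact (zmod2_neg (y i)).symm
      rw [h1, wt_eq]
      have h2 := card_supp_sub x y
      obtain ⟨k, hk⟩ := even_inter C horth x y hx.1 hy.1
      obtain ⟨a, ha⟩ := hx.2
      obtain ⟨b, hb⟩ := hy.2
      rw [wt_eq] at ha hb
      omega
    | smul r x _ hx =>
      rcases zmod2_cases r with rfl | rfl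
      · rw [zero_smul]
        exact ⟨C.zero_mem, by rw [hammingNorm_zero]; exact dvd_zero 4⟩
      · rw [one_smul]
        exact hx
  exact (key w hw).2

end Cfsg.Agent.S5621
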