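import Cfsg.Statements.S5625
import Mathlib
import Cfsg.Agent.Helper2.Steiner

set_option autoImplicit false
open Cfsg

namespace Cfsg.Agent.S5625

open Cfsg.Agent.Helper2.Steiner

theorem ncard_inter {α : Type*} [Fintype α] [DecidableEq α] (B : Set (Finset α)) (Y : Finset α)
    (i : ℕ) : {b : Finset α | b ∈ B ∧ (b ∩ Y).card = i}.ncard
      = ((blocks B).filter (fun c => (Y ∩ c).card = i)).card := by
  rw [← Set.ncard_coe_finset]
  congr 1
  ext b
  simp only [Set.mem_ofPred_eq, Finset.coe_filter, mem_blocks, Finset.inter_comm]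

/-- In any Steiner system S(5, 8, 24) and for any set Y of three points, the blocks meeting Y in exactly 3, 2, 1 and 0 points number 21, 168, 360 and 210 respectively (so there are 759 blocks in all). -/
theorem result (α : Type*) [Fintype α] [DecidableEq α] (hα : Fintype.card α = 24) (B : Set (Finset α)) (hB : Cfsg.IsSteinerSystem 5 8 B) (Y : Finset α) (hY : Y.card = 3) : {b : Finset α | b ∈ B ∧ (b ∩ Y).card = 3}.ncard = 21 ∧ {b : Finset α | b ∈ B ∧ (b ∩ Y).card = 2}.ncard = 168 ∧ {b : Finset α | b ∈ B ∧ (b ∩ Y).card = 1}.ncard = 360 ∧ {b : Finset α | b ∈ B ∧ (b ∩ Y).card = 0}.ncard = 210 := by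
  rw [ncard_inter, ncard_inter, ncard_inter, ncard_inter]
  have hS : ∀ j ≤ 3, (∑ c ∈ blocks B, ((Y ∩ c).card).choose j) * (8 - j).choose (5 - j)
      = (Nat.choose 3 j) * (24 - j).choose (5 - j) := by
    intro j hj
    rw [inter_sum, Finset.sum_mul]
    have h1 : ∀ I ∈ Y.powersetCard j,
        ((blocks B).filter (fun c => I ⊆ c)).card * (8 - j).choose (5 - j)
          = (24 - j).choose (5 - j) := by
      intro I hI
      rw [Finset.mem_powersetCard] at hI
      have h2 := lambda_count hB I (by omega)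
      rw [hI.2, hα] at h2
      exact h2
    rw [Finset.sum_congr rfl h1, Finset.sum_const, Finset.card_powersetCard, hY, smul_eq_mul]
  have hF : ∀ j, ∑ c ∈ blocks B, ((Y ∩ c).card).choose j
      = ∑ i ∈ Finset.range 4,
          ((blocks B).filter (fun c => (Y ∩ c).card = i)).card * Nat.choose i j := by
    intro j
    rw [← Finset.sum_fiberwise_of_maps_to (g := fun c => (Y ∩ c).card) (t := Finset.range 4)
      (fun c _ => by
        rw [Finset.mem_range]
        have := Finset.card_le_card (Finset.inter_subset_left : Y ∩ c ⊆ Y)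
        omega)]
    apply Finset.sum_congr rfl
    intro i _
    rw [Finset.card_eq_sum_ones, Finset.sum_mul]
    apply Finset.sum_congr rfl
    intro c hc
    rw [(Finset.mem_filter.1 hc).2, one_mul]
  have h0 := hS 0 (by omega)
  have h1 := hS 1 (by omega)
  have h2 := hS 2 (by omega)
  have h3 := hS 3 (by omega)
  rw [hF] at h0 h1 h2 h3
  simp only [Finset.sum_range_succ, Finset.sum_range_zero] at h0 h1 h2 h3
  generalize ((blocks B).filter (fun c => (Y ∩ c).card = 0)).card = n0 at h0 h1 h2 h3 ⊢
  generalize ((blocks B).filter (fun c => (Y ∩ c).card = 1)).card = n1 at h0 h1 h2 h3 ⊢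
  generalize ((blocks B).filter (fun c => (Y ∩ c).card = 2)).card = n2 at h0 h1 h2 h3 ⊢
  generalize ((blocks B).filter (fun c => (Y ∩ c).card = 3)).card = n3 at h0 h1 h2 h3 ⊢
  norm_num [Nat.choose] at h0 h1 h2 h3
  omega

end Cfsg.Agent.S5625
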