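import Cfsg.Statements.S5626
import Mathlib
import Cfsg.Agent.Helper29.Plane4Hyp

set_option autoImplicit false
open Cfsg

namespace Cfsg.Agent.S5626

open Cfsg.Agent.Helper29.Plane4 Cfsg.Agent.Helper2.Steiner in
/-- Uniqueness of the projective plane of order 4: any two Steiner systems S(2, 5, 21) (21 points, lines of 5 points, two points on exactly one line) are isomorphic. -/
theorem result {α β : Type*} [Fintype α] [DecidableEq α] [Fintype β] [DecidableEq β] (hα : Fintype.card α = 21) (hβ : Fintype.card β = 21) {L : Set (Finset α)} {L' : Set (Finset β)} (hL : Cfsg.IsSteinerSystem 2 5 L) (hL' : Cfsg.IsSteinerSystem 2 5 L') : Cfsg.SetSystemIso L L' := by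
  obtain ⟨H, h⟩ := exists_hyp hα hL
  obtain ⟨H', h'⟩ := exists_hyp hβ hL'
  obtain ⟨e, _, he⟩ := exists_ext h h' (Finset.equivOfCardEq (h.six.trans h'.six.symm))
  refine ⟨e, ?_⟩
  apply Set.eq_of_subset_of_ncard_le
  · rintro _ ⟨l, hl, rfl⟩
    exact he l hl
  · rw [Set.ncard_image_of_injective _ (Finset.image_injective e.injective)]
    rw [ncard_eq, ncard_eq, card_lines hα hL, card_lines hβ hL']
  · exact Set.toFinite _

end Cfsg.Agent.S5626
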