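import Cfsg.Statements.S5628
import Mathlib
import Cfsg.Agent.Helper29.Plane4Hyp

set_option autoImplicit false
open Cfsg

namespace Cfsg.Agent.S5628

open scoped Pointwise

open Cfsg.Agent.Helper29.Plane4 Cfsg.Agent.Helper2.Steiner in
/-- In a projective plane of order 4 (a Steiner system S(2, 5, 21)), every permutation of the six points of a hyperoval (a 6-set met by no line in more than two points) is the restriction of exactly one automorphism of the plane. In particular the stabiliser of a hyperoval in the automorphism group is isomorphic to the symmetric group of degree 6 acting faithfully on the hyperoval. -/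
theorem result {α : Type*} [Fintype α] [DecidableEq α] (hα : Fintype.card α = 21) (L : Set (Finset α)) (hL : Cfsg.IsSteinerSystem 2 5 L) (H : Finset α) (hH : (H.card = 6 ∧ ∀ l ∈ L, (l ∩ H).card ≤ 2)) (σ : Equiv.Perm ↥H) : ∃! g : Equiv.Perm α, g ∈ Cfsg.setSystemAut L ∧ ∀ p : ↥H, g p = σ p := by
  have h : Hyp L H := ⟨hα, hL, hH.1, hH.2⟩
  obtain ⟨e, he1, he2⟩ := exists_ext h h σ
  have hsm : ∀ (g : Equiv.Perm α) (l : Finset α), g • l = l.image g := by
    intro g l
    ext x
    rw [Finset.mem_smul_finset, Finset.mem_image]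
    rfl
  have hmem : ∀ g : Equiv.Perm α, (∀ l ∈ L, l.image g ∈ L) → g ∈ Cfsg.setSystemAut L := by
    intro g hg
    rw [MulAction.mem_stabilizer_iff]
    apply Set.eq_of_subset_of_ncard_le
    · rintro _ ⟨l, hl, rfl⟩
      show g • l ∈ L
      rw [hsm]
      exact hg l hl
    · rw [Set.ncard_smul_set]
    · exact Set.toFinite _
  have hmem' : ∀ g : Equiv.Perm α, g ∈ Cfsg.setSystemAut L → ∀ l ∈ L, l.image g ∈ L := by
    intro g hg l hl
    rw [MulAction.mem_stabilizer_iff] at hg
    have : g • l ∈ g • L := Set.smul_mem_smul_set hl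
    rw [hg, hsm] at this
    exact this
  refine ⟨e, ⟨hmem e he2, he1⟩, ?_⟩
  rintro g ⟨hg, hgσ⟩
  have hk : e⁻¹ * g ∈ Cfsg.setSystemAut L :=
    Subgroup.mul_mem _ (Subgroup.inv_mem _ (hmem e he2)) hg
  have hfix : ∀ x ∈ H, (e⁻¹ * g) x = x := by
    intro x hx
    have h1 := hgσ ⟨x, hx⟩
    have h2 := he1 ⟨x, hx⟩
    simp only at h1 h2
    rw [Equiv.Perm.mul_apply, h1, ← h2]
    exact e.symm_apply_apply x
  have hall := eq_of_fix h (⇑(e⁻¹ * g)) (hmem' _ hk) hfix
  ext p
  have hp := hall p
  rw [Equiv.Perm.mul_apply] at hp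
  have := congrArg e hp
  rw [Equiv.Perm.inv_def, Equiv.apply_symm_apply] at this
  exact this

end Cfsg.Agent.S5628
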