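import Cfsg.Statements.S5632
import Cfsg.Agent.Helper28.Transv

set_option autoImplicit false
open Cfsg

namespace Cfsg.Agent.S5632

/-- For a finite field F and subspaces 0 < W < U of F^n with dim W + dim U = n, the elements of SL_n(F) stabilising both W and U form a subgroup that is not maximal in SL_n(F): some subgroup lies strictly between it and SL_n(F). -/
theorem result {F : Type*} [Field F] [Fintype F] (n : ℕ) (W U : Submodule F (Fin n → F)) (hW0 : W ≠ ⊥) (hWU : W < U) (hdim : Module.finrank F W + Module.finrank F U = n) : ∃ K : Subgroup (Matrix.GeneralLinearGroup (Fin n) F), Cfsg.Geo.subspaceStabilizer W ⊓ Cfsg.Geo.subspaceStabilizer U ⊓ Cfsg.Geo.specialLinear (Fin n) F < K ∧ K < Cfsg.Geo.specialLinear (Fin n) F := by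
  have hU1 : U ≠ ⊤ := by
    rintro rfl
    rw [finrank_top, Module.finrank_fin_fun] at hdim
    have h0 : Module.finrank F W = 0 := by omega
    exact hW0 (Submodule.finrank_eq_zero.1 h0)
  have hW1 : W ≠ ⊤ := ne_top_of_lt hWU
  obtain ⟨u, huU, huW⟩ := SetLike.exists_of_lt hWU
  obtain ⟨v, hv⟩ : ∃ v, v ∉ U := by
    by_contra hcon
    push Not at hcon
    exact hU1 (eq_top_iff.2 fun x _ => hcon x)
  have huv : u ∉ W ⊔ Submodule.span F {v} := by
    rw [Submodule.mem_sup]
    rintro ⟨w, hw, z, hz, hwz⟩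
    rw [Submodule.mem_span_singleton] at hz
    obtain ⟨c, rfl⟩ := hz
    have hcv : c • v ∈ U := by
      have : c • v = u - w := by rw [← hwz]; abel
      rw [this]
      exact U.sub_mem huU (hWU.le hw)
    have hc0 : c = 0 := by
      by_contra hc
      apply hv
      have : v = c⁻¹ • (c • v) := by rw [smul_smul, inv_mul_cancel₀ hc, one_smul]
      rw [this]
      exact U.smul_mem _ hcv
    rw [hc0, zero_smul, add_zero] at hwz
    exact huW (hwz ▸ hw)
  obtain ⟨g, hgS, a, hg, haW, hau, hav⟩ := Cfsg.Agent.Helper28.exists_transv W u v huv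
  have hgW := Cfsg.Agent.Helper28.mem_stab_of_ker W g a v hg haW hav
  have hgU := Cfsg.Agent.Helper28.not_mem_stab U g a u v hg huU hau hv
  refine ⟨Cfsg.Geo.subspaceStabilizer W ⊓ Cfsg.Geo.specialLinear (Fin n) F, ?_,
    Cfsg.Agent.Helper28.stab_inf_sl_lt W hW0 hW1⟩
  refine lt_of_le_of_ne (inf_le_inf_right _ inf_le_left) ?_
  intro heq
  have hmem : g ∈ Cfsg.Geo.subspaceStabilizer W ⊓ Cfsg.Geo.specialLinear (Fin n) F := ⟨hgW, hgS⟩
  rw [← heq] at hmem
  exact hgU hmem.1.2

end Cfsg.Agent.S5632
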