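import Cfsg.Statements.S5633
import Cfsg.Agent.Helper28.Transv

set_option autoImplicit false
open Cfsg

namespace Cfsg.Agent.S5633

/-- For a finite field F and complementary non-zero subspaces W ⊕ U = F^n with dim W < dim U, the elements of SL_n(F) stabilising both W and U form a subgroup that is not maximal in SL_n(F): some subgroup lies strictly between it and SL_n(F). -/
theorem result {F : Type*} [Field F] [Fintype F] (n : ℕ) (W U : Submodule F (Fin n → F)) (hW0 : W ≠ ⊥) (hWU : W ⊓ U = ⊥) (hWU' : W ⊔ U = ⊤) (hdim : Module.finrank F W < Module.finrank F U) : ∃ K : Subgroup (Matrix.GeneralLinearGroup (Fin n) F), Cfsg.Geo.subspaceStabilizer W ⊓ Cfsg.Geo.subspaceStabilizer U ⊓ Cfsg.Geo.specialLinear (Fin n) F < K ∧ K < Cfsg.Geo.specialLinear (Fin n) F := by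
  have hU0 : U ≠ ⊥ := by
    rintro rfl
    rw [finrank_bot] at hdim
    omega
  have hW1 : W ≠ ⊤ := by
    rintro rfl
    rw [top_inf_eq] at hWU
    exact hU0 hWU
  obtain ⟨u, huU, hu0⟩ := (Submodule.ne_bot_iff U).1 hU0
  obtain ⟨v, hvW, hv0⟩ := (Submodule.ne_bot_iff W).1 hW0
  have hvU : v ∉ U := by
    intro hvU
    have : v ∈ W ⊓ U := ⟨hvW, hvU⟩
    rw [hWU, Submodule.mem_bot] at this
    exact hv0 this
  have huv : u ∉ (⊥ : Submodule F (Fin n → F)) ⊔ Submodule.span F {v} := by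
    rw [bot_sup_eq, Submodule.mem_span_singleton]
    rintro ⟨c, hc⟩
    have : u ∈ W ⊓ U := ⟨hc ▸ W.smul_mem c hvW, huU⟩
    rw [hWU, Submodule.mem_bot] at this
    exact hu0 this
  obtain ⟨g, hgS, a, hg, -, hau, hav⟩ := Cfsg.Agent.Helper28.exists_transv ⊥ u v huv
  have hgW := Cfsg.Agent.Helper28.mem_stab_of_dir W g a v hg hvW
  have hgU := Cfsg.Agent.Helper28.not_mem_stab U g a u v hg huU hau hvU
  refine ⟨Cfsg.Geo.subspaceStabilizer W ⊓ Cfsg.Geo.specialLinear (Fin n) F, ?_,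
    Cfsg.Agent.Helper28.stab_inf_sl_lt W hW0 hW1⟩
  refine lt_of_le_of_ne (inf_le_inf_right _ inf_le_left) ?_
  intro heq
  have hmem : g ∈ Cfsg.Geo.subspaceStabilizer W ⊓ Cfsg.Geo.specialLinear (Fin n) F := ⟨hgW, hgS⟩
  rw [← heq] at hmem
  exact hgU hmem.1.2

end Cfsg.Agent.S5633
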