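import Mathlib
import Cfsg.Statements.S5635
import Cfsg.Agent.S5656

set_option autoImplicit false
open Cfsg

namespace Cfsg.Agent.S5635

open Matrix

variable {F : Type*} [Field F] [Fintype F] {n t : ℕ}

/-- The sum of the blocks other than `D i`. -/
def Eo (D : Fin t → Submodule F (Fin n → F)) (i : Fin t) : Submodule F (Fin n → F) :=
  ⨆ k, ⨆ (_ : k ≠ i), D k

open Classical in
/-- Indicator (in `F`) that the `i`-th component is non-zero. -/
noncomputable def ind (D : Fin t → Submodule F (Fin n → F)) (i : Fin t) (x : Fin n → F) : F :=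
  if x ∈ Eo D i then 0 else 1

/-- The number of non-zero components, as an element of `F`. -/
noncomputable def Qf (D : Fin t → Submodule F (Fin n → F)) (x : Fin n → F) : F :=
  ∑ i, ind D i x

/-- The vectors of weight `1` modulo the characteristic. -/
def Sset (D : Fin t → Submodule F (Fin n → F)) : Set (Fin n → F) := {x | Qf D x = 1}

theorem map_Eo_le (D : Fin t → Submodule F (Fin n → F)) (A : Matrix (Fin n) (Fin n) F)
    (σ : Equiv.Perm (Fin t)) (hσ : ∀ k, (D k).map (Matrix.toLin' A) = D (σ k)) (i : Fin t) :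
    (Eo D i).map (Matrix.toLin' A) ≤ Eo D (σ i) := by
  unfold Eo
  rw [Submodule.map_iSup]
  refine iSup_le (fun k => ?_)
  rw [Submodule.map_iSup]
  refine iSup_le (fun hk => ?_)
  rw [hσ k]
  exact le_iSup₂_of_le (σ k) (fun h => hk (σ.injective h)) le_rfl

theorem Qf_stab (D : Fin t → Submodule F (Fin n → F)) (g : Matrix.GeneralLinearGroup (Fin n) F)
    (hg : g ∈ Cfsg.Geo.decompositionStabilizer D) (x : Fin n → F) :
    Qf D ((g : Matrix (Fin n) (Fin n) F) *ᵥ x) = Qf D x := by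
  obtain ⟨σ, hσ⟩ := hg
  have hσ' : ∀ k, (D k).map (Matrix.toLin'
      ((g⁻¹ : Matrix.GeneralLinearGroup (Fin n) F) : Matrix (Fin n) (Fin n) F)) = D (σ.symm k) := by
    intro k
    have h := hσ (σ.symm k)
    rw [Equiv.apply_symm_apply] at h
    rw [← h, ← Submodule.map_comp, ← Matrix.toLin'_mul, ← Units.val_mul, inv_mul_cancel,
      Units.val_one, Matrix.toLin'_one, Submodule.map_id]
  unfold Qf
  rw [← Equiv.sum_comp σ (fun i => ind D i ((g : Matrix (Fin n) (Fin n) F) *ᵥ x))]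
  refine Finset.sum_congr rfl (fun i _ => ?_)
  have hiff : (g : Matrix (Fin n) (Fin n) F) *ᵥ x ∈ Eo D (σ i) ↔ x ∈ Eo D i := by
    constructor
    · intro h
      have h1 := map_Eo_le D _ σ.symm hσ' (σ i)
      rw [Equiv.symm_apply_apply] at h1
      have h2 : Matrix.toLin' ((g⁻¹ : Matrix.GeneralLinearGroup (Fin n) F) :
          Matrix (Fin n) (Fin n) F) ((g : Matrix (Fin n) (Fin n) F) *ᵥ x) ∈ Eo D i :=
        h1 (Submodule.mem_map_of_mem h)
      rw [Matrix.toLin'_apply, Matrix.mulVec_mulVec, ← Units.val_mul, inv_mul_cancel,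
        Units.val_one, Matrix.one_mulVec] at h2
      exact h2
    · intro h
      have h1 := map_Eo_le D _ σ hσ i
      have h2 := h1 (Submodule.mem_map_of_mem h)
      rwa [Matrix.toLin'_apply] at h2
  unfold ind
  by_cases hx : x ∈ Eo D i
  · rw [if_pos hx, if_pos (hiff.mpr hx)]
  · rw [if_neg hx, if_neg (fun h => hx (hiff.mp h))]

theorem stab_le (D : Fin t → Submodule F (Fin n → F)) :
    Cfsg.Geo.decompositionStabilizer D ≤ Cfsg.stabilizing (Cfsg.glToMat (Fin n) F) (Sset D) := by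
  intro g hg
  apply Cfsg.Agent.S5656.stab_of_maps
  intro w hw
  show Qf D _ = 1
  rw [Qf_stab D g hg]
  exact hw

/-- A basis adapted to the decomposition. -/
theorem exists_adapted {m : ℕ} (D : Fin t → Submodule F (Fin n → F))
    (hD : Cfsg.Geo.IsMDecomposition m D) :
    ∃ b : Module.Basis (Fin t × Fin m) F (Fin n → F),
      (∀ i j, b (i, j) ∈ D i) ∧ ∀ i x, x ∈ Eo D i ↔ ∀ j, b.equivFun x (i, j) = 0 := by
  classical
  have hI : DirectSum.IsInternal D :=
    DirectSum.isInternal_submodule_of_iSupIndep_of_iSup_eq_top hD.indep hD.iSup_eq_top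
  let v : ∀ i, Module.Basis (Fin m) F (D i) :=
    fun i => Module.finBasisOfFinrankEq F (D i) (hD.finrank_eq i)
  refine ⟨(hI.collectedBasis v).reindex (Equiv.sigmaEquivProd (Fin t) (Fin m)),
    fun i j => ?_, fun i x => ?_⟩
  · rw [Module.Basis.reindex_apply]
    exact hI.collectedBasis_mem v ⟨i, j⟩
  · have hrepr : ∀ j, ((hI.collectedBasis v).reindex
        (Equiv.sigmaEquivProd (Fin t) (Fin m))).equivFun x (i, j)
        = (hI.collectedBasis v).repr x ⟨i, j⟩ := by
      intro j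
      rw [Module.Basis.equivFun_apply, Module.Basis.repr_reindex_apply]
      rfl
    simp only [hrepr]
    constructor
    · intro hx j
      have hle : Eo D i ≤ LinearMap.ker ((hI.collectedBasis v).coord ⟨i, j⟩) := by
        unfold Eo
        refine iSup_le (fun k => iSup_le (fun hk y hy => ?_))
        rw [LinearMap.mem_ker, Module.Basis.coord_apply]
        exact hI.collectedBasis_repr_of_mem_ne v hk hy
      have h1 := hle hx
      rwa [LinearMap.mem_ker, Module.Basis.coord_apply] at h1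
    · intro hx
      rw [← (hI.collectedBasis v).sum_repr x]
      refine Submodule.sum_mem _ (fun a _ => ?_)
      by_cases ha : a.1 = i
      · obtain ⟨k, j⟩ := a
        simp only at ha
        subst ha
        rw [hx j, zero_smul]
        exact Submodule.zero_mem _
      · refine Submodule.smul_mem _ _ ?_
        have h1 : D a.1 ≤ Eo D i := le_iSup₂_of_le a.1 ha le_rfl
        exact h1 (hI.collectedBasis_mem v a)

theorem ind_zero {m : ℕ} (D : Fin t → Submodule F (Fin n → F))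
    (b : Module.Basis (Fin t × Fin m) F (Fin n → F))
    (heo : ∀ i x, x ∈ Eo D i ↔ ∀ j, b.equivFun x (i, j) = 0) (i : Fin t) (x : Fin n → F)
    (h : ∀ j, b.equivFun x (i, j) = 0) : ind D i x = 0 := by
  unfold ind
  rw [if_pos ((heo i x).mpr h)]

theorem ind_one {m : ℕ} (D : Fin t → Submodule F (Fin n → F))
    (b : Module.Basis (Fin t × Fin m) F (Fin n → F))
    (heo : ∀ i x, x ∈ Eo D i ↔ ∀ j, b.equivFun x (i, j) = 0) (i : Fin t) (x : Fin n → F)
    (h : ¬ ∀ j, b.equivFun x (i, j) = 0) : ind D i x = 1 := by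
  unfold ind
  rw [if_neg (fun hx => h ((heo i x).mp hx))]

/-! ### Rank one perturbations of the identity in an arbitrary basis -/

/-- The vector representing a linear functional on `F^n`. -/
def dualVec (ψ : (Fin n → F) →ₗ[F] F) : Fin n → F := fun k => ψ (fun j => if k = j then 1 else 0)

theorem dualVec_dot (ψ : (Fin n → F) →ₗ[F] F) (x : Fin n → F) : dualVec ψ ⬝ᵥ x = ψ x := by
  rw [LinearMap.pi_apply_eq_sum_univ ψ x]
  show ∑ k, ψ (fun j => if k = j then 1 else 0) * x k = _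
  exact Finset.sum_congr rfl (fun k _ => by rw [smul_eq_mul, mul_comm])

section TT

variable {I : Type*} [Fintype I] [DecidableEq I]

/-- The functional `x ↦ ∑ a, M a * x_a` (coordinates in the basis `b`). -/
noncomputable def psi (b : Module.Basis I F (Fin n → F)) (M : I → F) : (Fin n → F) →ₗ[F] F :=
  ∑ a, M a • b.coord a

theorem psi_apply (b : Module.Basis I F (Fin n → F)) (M : I → F) (x : Fin n → F) :
    psi b M x = ∑ a, M a * b.equivFun x a := by
  simp only [psi, LinearMap.sum_apply, LinearMap.smul_apply, Module.Basis.coord_apply,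
    smul_eq_mul, Module.Basis.equivFun_apply]

/-- The matrix of `x ↦ x + (∑ a, M a * x_a) • v`, where `v` has coordinates `L`. -/
noncomputable def TT (b : Module.Basis I F (Fin n → F)) (L M : I → F) :
    Matrix (Fin n) (Fin n) F :=
  1 + Matrix.vecMulVec (b.equivFun.symm L) (dualVec (psi b M))

theorem TT_mulVec (b : Module.Basis I F (Fin n → F)) (L M : I → F) (x : Fin n → F) :
    TT b L M *ᵥ x = x + (∑ a, M a * b.equivFun x a) • b.equivFun.symm L := by
  unfold TT
  rw [Matrix.add_mulVec, Matrix.one_mulVec, Matrix.vecMulVec_mulVec, dualVec_dot, psi_apply]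
  ext i
  simp only [Pi.add_apply, Pi.smul_apply, smul_eq_mul, MulOpposite.smul_eq_mul_unop,
    MulOpposite.unop_op]
  ring

theorem TT_coord (b : Module.Basis I F (Fin n → F)) (L M : I → F) (x : Fin n → F) (a : I) :
    b.equivFun (TT b L M *ᵥ x) a
      = b.equivFun x a + (∑ a', M a' * b.equivFun x a') * L a := by
  rw [TT_mulVec, map_add, map_smul, LinearEquiv.apply_symm_apply]
  simp only [Pi.add_apply, Pi.smul_apply, smul_eq_mul]

theorem TT_det (b : Module.Basis I F (Fin n → F)) (L M : I → F) :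
    (TT b L M).det = 1 + ∑ a, M a * L a := by
  unfold TT
  rw [Matrix.vecMulVec_eq Unit, Matrix.det_one_add_replicateCol_mul_replicateRow, dualVec_dot,
    psi_apply, LinearEquiv.apply_symm_apply]

theorem sum_mul_self (b : Module.Basis I F (Fin n → F)) (M : I → F) (k : I) :
    ∑ a, M a * b.equivFun (b k) a = M k := by
  simp only [Module.Basis.equivFun_self, mul_ite, mul_one, mul_zero, Finset.sum_ite_eq,
    Finset.mem_univ, if_true]

theorem TT_coord_basis (b : Module.Basis I F (Fin n → F)) (L M : I → F) (k a : I) :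
    b.equivFun (TT b L M *ᵥ b k) a = (if k = a then 1 else 0) + M k * L a := by
  rw [TT_coord, sum_mul_self, Module.Basis.equivFun_self]

theorem TT_fix (b : Module.Basis I F (Fin n → F)) (L M : I → F) (k : I) (hk : M k = 0) :
    TT b L M *ᵥ b k = b k := by
  rw [TT_mulVec, sum_mul_self, hk, zero_smul, add_zero]

/-- The corresponding element of `GL`. -/
noncomputable def tG (b : Module.Basis I F (Fin n → F)) (L M : I → F)
    (h : 1 + ∑ a, M a * L a ≠ 0) : Matrix.GeneralLinearGroup (Fin n) F :=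
  Matrix.GeneralLinearGroup.mkOfDetNeZero (TT b L M) (by rw [TT_det]; exact h)

theorem sum_single_mul (k : I) (f : I → F) : ∑ a, (if k = a then 1 else 0) * f a = f k := by
  simp only [ite_mul, one_mul, zero_mul, Finset.sum_ite_eq, Finset.mem_univ, if_true]

end TT

theorem mem_SL (g : Matrix.GeneralLinearGroup (Fin n) F) :
    g ∈ Cfsg.Geo.specialLinear (Fin n) F ↔ (g : Matrix (Fin n) (Fin n) F).det = 1 := by
  show Matrix.GeneralLinearGroup.det g = 1 ↔ _
  rw [Units.ext_iff, Matrix.GeneralLinearGroup.val_det_apply, Units.val_one]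

theorem assemble (D : Fin t → Submodule F (Fin n → F))
    (g₁ g₂ : Matrix.GeneralLinearGroup (Fin n) F)
    (h1 : g₁ ∈ Cfsg.Geo.specialLinear (Fin n) F)
    (h1S : g₁ ∈ Cfsg.stabilizing (Cfsg.glToMat (Fin n) F) (Sset D))
    (h1D : g₁ ∉ Cfsg.Geo.decompositionStabilizer D)
    (h2 : g₂ ∈ Cfsg.Geo.specialLinear (Fin n) F)
    (h2S : g₂ ∉ Cfsg.stabilizing (Cfsg.glToMat (Fin n) F) (Sset D)) :
    ∃ K : Subgroup (Matrix.GeneralLinearGroup (Fin n) F),
      Cfsg.Geo.decompositionStabilizer D ⊓ Cfsg.Geo.specialLinear (Fin n) F < K ∧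
      K < Cfsg.Geo.specialLinear (Fin n) F := by
  refine ⟨Cfsg.stabilizing (Cfsg.glToMat (Fin n) F) (Sset D) ⊓
    Cfsg.Geo.specialLinear (Fin n) F, ?_, ?_⟩
  · refine lt_of_le_of_ne (inf_le_inf_right _ (stab_le D)) (fun heq => h1D ?_)
    have h5 : g₁ ∈ Cfsg.Geo.decompositionStabilizer D ⊓ Cfsg.Geo.specialLinear (Fin n) F := by
      rw [heq]
      exact ⟨h1S, h1⟩
    exact h5.1
  · refine lt_of_le_of_ne inf_le_right (fun heq => h2S ?_)
    have h5 : g₂ ∈ Cfsg.stabilizing (Cfsg.glToMat (Fin n) F) (Sset D) ⊓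
        Cfsg.Geo.specialLinear (Fin n) F := by
      rw [heq]
      exact h2
    exact h5.1

theorem not_stab {m : ℕ} (D : Fin t → Submodule F (Fin n → F))
    (b : Module.Basis (Fin t × Fin m) F (Fin n → F))
    (hmem : ∀ i j, b (i, j) ∈ D i)
    (heo : ∀ i x, x ∈ Eo D i ↔ ∀ j, b.equivFun x (i, j) = 0)
    (g : Matrix.GeneralLinearGroup (Fin n) F) (a a₁ a₂ : Fin t × Fin m) (h12 : a₁.1 ≠ a₂.1)
    (h1 : b.equivFun ((g : Matrix (Fin n) (Fin n) F) *ᵥ b a) a₁ ≠ 0)
    (h2 : b.equivFun ((g : Matrix (Fin n) (Fin n) F) *ᵥ b a) a₂ ≠ 0) :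
    g ∉ Cfsg.Geo.decompositionStabilizer D := by
  rintro ⟨σ, hσ⟩
  have hmem' : (g : Matrix (Fin n) (Fin n) F) *ᵥ b a ∈ D (σ a.1) := by
    rw [← hσ a.1]
    exact Submodule.mem_map.mpr ⟨b a, hmem a.1 a.2, Matrix.toLin'_apply _ _⟩
  have key : ∀ a' : Fin t × Fin m, a'.1 ≠ σ a.1 →
      b.equivFun ((g : Matrix (Fin n) (Fin n) F) *ᵥ b a) a' = 0 := by
    intro a' ha'
    have hle : D (σ a.1) ≤ Eo D a'.1 := le_iSup₂_of_le (σ a.1) (Ne.symm ha') le_rfl
    exact (heo a'.1 _).mp (hle hmem') a'.2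
  by_cases hc : a₁.1 = σ a.1
  · exact h2 (key a₂ (fun h => h12 (hc.trans h.symm)))
  · exact h1 (key a₁ hc)

/-- An elementary transvection across two blocks is not in the stabiliser of `Sset D`. -/
theorem exists_g2 {m : ℕ} (D : Fin t → Submodule F (Fin n → F))
    (b : Module.Basis (Fin t × Fin m) F (Fin n → F))
    (heo : ∀ i x, x ∈ Eo D i ↔ ∀ j, b.equivFun x (i, j) = 0)
    (i₁ i₂ : Fin t) (h12 : i₁ ≠ i₂) (j₀ : Fin m) :
    ∃ g₂ : Matrix.GeneralLinearGroup (Fin n) F, g₂ ∈ Cfsg.Geo.specialLinear (Fin n) F ∧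
      g₂ ∉ Cfsg.stabilizing (Cfsg.glToMat (Fin n) F) (Sset D) := by
  classical
  have hk : ((i₁, j₀) : Fin t × Fin m) ≠ (i₂, j₀) := fun h => h12 (congrArg Prod.fst h)
  obtain ⟨L, hL⟩ : ∃ L : Fin t × Fin m → F, L = fun a => if (i₂, j₀) = a then 1 else 0 :=
    ⟨_, rfl⟩
  obtain ⟨M, hM⟩ : ∃ M : Fin t × Fin m → F, M = fun a => if (i₁, j₀) = a then 1 else 0 :=
    ⟨_, rfl⟩
  have hM1 : M (i₁, j₀) = 1 := by rw [hM]; exact if_pos rfl
  have hLa : ∀ a, L a = if (i₂, j₀) = a then 1 else 0 := fun a => by rw [hL]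
  have hdet : 1 + ∑ a, M a * L a = 1 := by
    rw [hM, sum_single_mul, hLa, if_neg hk.symm, add_zero]
  have hc1 : ∀ a, b.equivFun (b (i₁, j₀)) a = if (i₁, j₀) = a then 1 else 0 :=
    fun a => b.equivFun_self (i₁, j₀) a
  have hc2 : ∀ a, b.equivFun (TT b L M *ᵥ b (i₁, j₀)) a
      = (if (i₁, j₀) = a then 1 else 0) + (if (i₂, j₀) = a then 1 else 0) := by
    intro a
    rw [TT_coord_basis, hM1, one_mul, hLa]
  have hi1 : ∀ i, ind D i (b (i₁, j₀)) = if i = i₁ then 1 else 0 := by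
    intro i
    by_cases hi : i = i₁
    · rw [if_pos hi]
      apply ind_one D b heo
      intro hall
      have h3 := hall j₀
      rw [hc1, hi, if_pos rfl] at h3
      exact one_ne_zero h3
    · rw [if_neg hi]
      apply ind_zero D b heo
      intro j
      rw [hc1, if_neg]
      intro h
      exact hi (congrArg Prod.fst h).symm
  have hQ1 : Qf D (b (i₁, j₀)) = 1 := by
    unfold Qf
    rw [Finset.sum_congr rfl (fun i _ => hi1 i),
      Finset.sum_ite_eq' Finset.univ i₁ (fun _ => (1 : F)), if_pos (Finset.mem_univ _)]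
  have hi2 : ∀ i, ind D i (TT b L M *ᵥ b (i₁, j₀))
      = (if i = i₁ then 1 else 0) + (if i = i₂ then 1 else 0) := by
    intro i
    by_cases hi1' : i = i₁
    · have hi2' : i ≠ i₂ := fun h => h12 (hi1'.symm.trans h)
      rw [if_pos hi1', if_neg hi2', add_zero]
      apply ind_one D b heo
      intro hall
      have h3 := hall j₀
      rw [hc2, hi1', if_pos rfl, if_neg hk.symm, add_zero] at h3
      exact one_ne_zero h3
    · by_cases hi2' : i = i₂
      · rw [if_neg hi1', if_pos hi2', zero_add]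
        apply ind_one D b heo
        intro hall
        have h3 := hall j₀
        rw [hc2, hi2', if_neg hk, if_pos rfl, zero_add] at h3
        exact one_ne_zero h3
      · rw [if_neg hi1', if_neg hi2', add_zero]
        apply ind_zero D b heo
        intro j
        rw [hc2, if_neg (fun h => hi1' (congrArg Prod.fst h).symm),
          if_neg (fun h => hi2' (congrArg Prod.fst h).symm), add_zero]
  have hQ2 : Qf D (TT b L M *ᵥ b (i₁, j₀)) = 2 := by
    unfold Qf
    rw [Finset.sum_congr rfl (fun i _ => hi2 i), Finset.sum_add_distrib,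
      Finset.sum_ite_eq' Finset.univ i₁ (fun _ => (1 : F)),
      Finset.sum_ite_eq' Finset.univ i₂ (fun _ => (1 : F)), if_pos (Finset.mem_univ _),
      if_pos (Finset.mem_univ _)]
    norm_num
  refine ⟨tG b L M (by rw [hdet]; exact one_ne_zero), ?_, ?_⟩
  · rw [mem_SL]
    show (TT b L M).det = 1
    rw [TT_det, hdet]
  · intro hstab
    have h3 : TT b L M *ᵥ b (i₁, j₀) ∈ Sset D := (hstab (b (i₁, j₀))).mp hQ1
    have h4 : Qf D (TT b L M *ᵥ b (i₁, j₀)) = 1 := h3
    rw [hQ2] at h4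
    have h5 : (1 : F) = 0 := by linear_combination h4
    exact one_ne_zero h5

/-! ### Algebra -/

section alg

variable {ι : Type*} [Fintype ι]

theorem sum_sq2 (h2 : (2 : F) = 0) {κ : Type*} (s : Finset κ) (a : κ → F) :
    (∑ i ∈ s, a i) ^ 2 = ∑ i ∈ s, a i ^ 2 := by
  classical
  induction s using Finset.induction_on with
  | empty => simp
  | insert i s hi ih =>
    rw [Finset.sum_insert hi, Finset.sum_insert hi, ← ih]
    linear_combination (a i * ∑ j ∈ s, a j) * h2

theorem alg1 (h2 : (2 : F) = 0) (c χ : ι → F) (h : (∑ i, χ i) + 2 = 0) :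
    ∑ i, (c i + (∑ j, χ j * c j) * χ i) ^ 1 = ∑ i, c i ^ 1 := by
  obtain ⟨s, hs⟩ : ∃ s, s = ∑ j, χ j * c j := ⟨_, rfl⟩
  rw [← hs]
  have hsum : ∑ i, (c i + s * χ i) = ∑ i, c i + s * ∑ i, χ i := by
    rw [Finset.mul_sum, ← Finset.sum_add_distrib]
  calc ∑ i, (c i + s * χ i) ^ 1 = ∑ i, (c i + s * χ i) :=
        Finset.sum_congr rfl (fun i _ => pow_one _)
    _ = ∑ i, c i + s * ∑ i, χ i := hsum
    _ = ∑ i, c i := by linear_combination s * h - s * h2
    _ = ∑ i, c i ^ 1 := Finset.sum_congr rfl (fun i _ => (pow_one _).symm)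

theorem alg2 (c χ : ι → F) (hχ : ∀ i, χ i * χ i = χ i) (h : (∑ i, χ i) + 2 = 0) :
    ∑ i, (c i + (∑ j, χ j * c j) * χ i) ^ 2 = ∑ i, c i ^ 2 := by
  obtain ⟨s, hs⟩ : ∃ s, s = ∑ j, χ j * c j := ⟨_, rfl⟩
  rw [← hs]
  have e : ∀ i, (c i + s * χ i) ^ 2 = c i ^ 2 + (2 * s) * (χ i * c i) + s ^ 2 * χ i := by
    intro i
    linear_combination s ^ 2 * hχ i
  have hsum : ∑ i, (c i ^ 2 + (2 * s) * (χ i * c i) + s ^ 2 * χ i)
      = ∑ i, c i ^ 2 + (2 * s) * ∑ i, χ i * c i + s ^ 2 * ∑ i, χ i := by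
    rw [Finset.mul_sum, Finset.mul_sum, ← Finset.sum_add_distrib, ← Finset.sum_add_distrib]
  calc ∑ i, (c i + s * χ i) ^ 2
      = ∑ i, (c i ^ 2 + (2 * s) * (χ i * c i) + s ^ 2 * χ i) :=
        Finset.sum_congr rfl (fun i _ => e i)
    _ = ∑ i, c i ^ 2 + (2 * s) * ∑ i, χ i * c i + s ^ 2 * ∑ i, χ i := hsum
    _ = ∑ i, c i ^ 2 := by
        rw [← hs]
        linear_combination s ^ 2 * h

theorem alg3 (h2 : (2 : F) = 0) (c χ : ι → F) (hχ : ∀ i, χ i * χ i = χ i)
    (h : (∑ i, χ i) + 2 = 0) :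
    ∑ i, (c i + (∑ j, χ j * c j) * χ i) ^ 3 = ∑ i, c i ^ 3 := by
  obtain ⟨s, hs⟩ : ∃ s, s = ∑ j, χ j * c j := ⟨_, rfl⟩
  rw [← hs]
  have e : ∀ i, (c i + s * χ i) ^ 3
      = c i ^ 3 + s * (χ i * c i) ^ 2 + s ^ 2 * (χ i * c i) + s ^ 3 * χ i := by
    intro i
    linear_combination (c i ^ 2 * s * χ i + c i * s ^ 2 * χ i) * h2
      + (-s * c i ^ 2 + 3 * c i * s ^ 2 + s ^ 3 * (χ i + 1)) * hχ i
  have hfrob : (∑ i, χ i * c i) ^ 2 = ∑ i, (χ i * c i) ^ 2 := sum_sq2 h2 Finset.univ _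
  have hsum : ∑ i, (c i ^ 3 + s * (χ i * c i) ^ 2 + s ^ 2 * (χ i * c i) + s ^ 3 * χ i)
      = ∑ i, c i ^ 3 + s * ∑ i, (χ i * c i) ^ 2 + s ^ 2 * ∑ i, χ i * c i
        + s ^ 3 * ∑ i, χ i := by
    rw [Finset.mul_sum, Finset.mul_sum, Finset.mul_sum, ← Finset.sum_add_distrib,
      ← Finset.sum_add_distrib, ← Finset.sum_add_distrib]
  calc ∑ i, (c i + s * χ i) ^ 3
      = ∑ i, (c i ^ 3 + s * (χ i * c i) ^ 2 + s ^ 2 * (χ i * c i) + s ^ 3 * χ i) :=
        Finset.sum_congr rfl (fun i _ => e i)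
    _ = ∑ i, c i ^ 3 + s * ∑ i, (χ i * c i) ^ 2 + s ^ 2 * ∑ i, χ i * c i
        + s ^ 3 * ∑ i, χ i := hsum
    _ = ∑ i, c i ^ 3 := by
        rw [← hfrob, ← hs]
        linear_combination s ^ 3 * h

theorem alg22 (hsq : ∀ a : F, a * a = a) (α β χ : ι → F) (h : (∑ i, χ i) + 1 = 0) :
    ∑ i, ((α i + (∑ j, χ j * β j) * χ i) + β i + (α i + (∑ j, χ j * β j) * χ i) * β i)
      = ∑ i, (α i + β i + α i * β i) := by
  obtain ⟨s, hs⟩ : ∃ s, s = ∑ j, χ j * β j := ⟨_, rfl⟩
  rw [← hs]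
  have e : ∀ i, (α i + s * χ i) + β i + (α i + s * χ i) * β i
      = (α i + β i + α i * β i) + s * χ i + s * (χ i * β i) := by
    intro i
    ring
  have hsum : ∑ i, ((α i + β i + α i * β i) + s * χ i + s * (χ i * β i))
      = ∑ i, (α i + β i + α i * β i) + s * ∑ i, χ i + s * ∑ i, χ i * β i := by
    rw [Finset.mul_sum, Finset.mul_sum, ← Finset.sum_add_distrib, ← Finset.sum_add_distrib]
  calc ∑ i, ((α i + s * χ i) + β i + (α i + s * χ i) * β i)
      = ∑ i, ((α i + β i + α i * β i) + s * χ i + s * (χ i * β i)) :=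
        Finset.sum_congr rfl (fun i _ => e i)
    _ = ∑ i, (α i + β i + α i * β i) + s * ∑ i, χ i + s * ∑ i, χ i * β i := hsum
    _ = ∑ i, (α i + β i + α i * β i) := by
        rw [← hs]
        linear_combination s * h + hsq s

end alg

theorem sum_chi (J : Finset (Fin t)) :
    ∑ i : Fin t, (if i ∈ J then (1 : F) else 0) = (J.card : F) := by
  rw [Finset.sum_ite_mem, Finset.univ_inter, Finset.sum_const, nsmul_eq_mul, mul_one]

/-! ### Blocks of dimension one -/

/-- Indicator of a set of blocks. -/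
def chi (J : Finset (Fin t)) : Fin t × Fin 1 → F := fun a => if a.1 ∈ J then 1 else 0

theorem det_TT1 (J : Finset (Fin t)) :
    1 + ∑ a, chi (F := F) J a * chi J a = 1 + (J.card : F) := by
  congr 1
  rw [Fintype.sum_prod_type]
  have h1 : ∀ i : Fin t, ∑ j : Fin 1, chi (F := F) J (i, j) * chi J (i, j)
      = if i ∈ J then 1 else 0 := by
    intro i
    rw [Fin.sum_univ_one]
    show (if i ∈ J then (1 : F) else 0) * (if i ∈ J then (1 : F) else 0) = _
    by_cases hi : i ∈ J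
    · rw [if_pos hi, mul_one]
    · rw [if_neg hi, mul_zero]
  rw [Finset.sum_congr rfl (fun i _ => h1 i), sum_chi]

theorem Q_TT1 (D : Fin t → Submodule F (Fin n → F))
    (b : Module.Basis (Fin t × Fin 1) F (Fin n → F))
    (heo : ∀ i x, x ∈ Eo D i ↔ ∀ j, b.equivFun x (i, j) = 0)
    (e : ℕ) (hpow0 : (0 : F) ^ e = 0) (hpow1 : ∀ a : F, a ≠ 0 → a ^ e = 1)
    (halg : ∀ (c χ : Fin t → F), (∀ i, χ i * χ i = χ i) → (∑ i, χ i) + 2 = 0 →
      ∑ i, (c i + (∑ j, χ j * c j) * χ i) ^ e = ∑ i, c i ^ e)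
    (J : Finset (Fin t)) (hJ : (J.card : F) + 2 = 0) (x : Fin n → F) :
    Qf D (TT b (chi J) (chi J) *ᵥ x) = Qf D x := by
  have hind : ∀ (z : Fin n → F) (i : Fin t), ind D i z = (b.equivFun z (i, 0)) ^ e := by
    intro z i
    by_cases h0 : b.equivFun z (i, 0) = 0
    · rw [h0, hpow0]
      apply ind_zero D b heo
      intro j
      rw [Subsingleton.elim j 0]
      exact h0
    · rw [hpow1 _ h0]
      apply ind_one D b heo
      intro hall
      exact h0 (hall 0)
  have hs : ∑ a, chi J a * b.equivFun x a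
      = ∑ j, (if j ∈ J then (1 : F) else 0) * b.equivFun x (j, 0) := by
    rw [Fintype.sum_prod_type]
    exact Finset.sum_congr rfl (fun i _ => Fin.sum_univ_one _)
  have hcoord : ∀ i, b.equivFun (TT b (chi J) (chi J) *ᵥ x) (i, 0)
      = b.equivFun x (i, 0) + (∑ j, (if j ∈ J then (1 : F) else 0) * b.equivFun x (j, 0))
        * (if i ∈ J then 1 else 0) := by
    intro i
    rw [TT_coord, hs]
    rfl
  unfold Qf
  rw [Finset.sum_congr rfl (fun i _ => hind _ i), Finset.sum_congr rfl (fun i _ => hind x i),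
    Finset.sum_congr rfl (fun i _ => by rw [hcoord i])]
  refine halg (fun i => b.equivFun x (i, 0)) (fun i => if i ∈ J then 1 else 0) ?_ ?_
  · intro i
    by_cases hi : i ∈ J
    · rw [if_pos hi, mul_one]
    · rw [if_neg hi, mul_zero]
  · rw [sum_chi]
    exact hJ

theorem case1_core (D : Fin t → Submodule F (Fin n → F))
    (b : Module.Basis (Fin t × Fin 1) F (Fin n → F))
    (hmem : ∀ i j, b (i, j) ∈ D i)
    (heo : ∀ i x, x ∈ Eo D i ↔ ∀ j, b.equivFun x (i, j) = 0)
    (e : ℕ) (hpow0 : (0 : F) ^ e = 0) (hpow1 : ∀ a : F, a ≠ 0 → a ^ e = 1)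
    (halg : ∀ (c χ : Fin t → F), (∀ i, χ i * χ i = χ i) → (∑ i, χ i) + 2 = 0 →
      ∑ i, (c i + (∑ j, χ j * c j) * χ i) ^ e = ∑ i, c i ^ e)
    (h6 : (6 : F) = 0) (ht : 8 ≤ t) :
    ∃ g₁ : Matrix.GeneralLinearGroup (Fin n) F, g₁ ∈ Cfsg.Geo.specialLinear (Fin n) F ∧
      g₁ ∈ Cfsg.stabilizing (Cfsg.glToMat (Fin n) F) (Sset D) ∧
      g₁ ∉ Cfsg.Geo.decompositionStabilizer D := by
  classical
  obtain ⟨J, -, hJ⟩ := Finset.exists_subset_card_eq (s := (Finset.univ : Finset (Fin t)))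
    (n := 4) (by rw [Finset.card_univ, Fintype.card_fin]; omega)
  obtain ⟨J', hJ'sub, hJ'⟩ := Finset.exists_subset_card_eq (s := Jᶜ) (n := 4)
    (by rw [Finset.card_compl, Fintype.card_fin, hJ]; omega)
  obtain ⟨i₀, i₁, i₂, h0, h1, h2, h01, h02, h12⟩ :=
    Finset.two_lt_card_iff.mp (by omega : 2 < J.card)
  have h0' : i₀ ∉ J' := fun h => (Finset.mem_compl.mp (hJ'sub h)) h0
  have h5 : (5 : F) ≠ 0 := by
    intro h
    have h7 : (1 : F) = 0 := by linear_combination h6 - h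
    exact one_ne_zero h7
  have hdJ : 1 + ∑ a, chi (F := F) J a * chi J a = 5 := by
    rw [det_TT1, hJ]
    norm_num
  have hdJ' : 1 + ∑ a, chi (F := F) J' a * chi J' a = 5 := by
    rw [det_TT1, hJ']
    norm_num
  have hJ2 : (J.card : F) + 2 = 0 := by
    rw [hJ]
    linear_combination h6
  have hJ'2 : (J'.card : F) + 2 = 0 := by
    rw [hJ']
    linear_combination h6
  refine ⟨tG b (chi J) (chi J) (by rw [hdJ]; exact h5)
    * tG b (chi J') (chi J') (by rw [hdJ']; exact h5), ?_, ?_, ?_⟩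
  · rw [mem_SL, Units.val_mul, Matrix.det_mul]
    show (TT b (chi J) (chi J)).det * (TT b (chi J') (chi J')).det = 1
    rw [TT_det, TT_det, hdJ, hdJ']
    linear_combination 4 * h6
  · apply Cfsg.Agent.S5656.stab_of_maps
    intro w hw
    rw [Units.val_mul]
    show Qf D ((TT b (chi J) (chi J) * TT b (chi J') (chi J')) *ᵥ w) = 1
    rw [← Matrix.mulVec_mulVec, Q_TT1 D b heo e hpow0 hpow1 halg J hJ2,
      Q_TT1 D b heo e hpow0 hpow1 halg J' hJ'2]
    exact hw
  · have hfix : TT b (chi J') (chi J') *ᵥ b (i₀, 0) = b (i₀, 0) :=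
      TT_fix b _ _ (i₀, 0) (if_neg h0')
    have hval : ∀ i : Fin t, i ∈ J → i₀ ≠ i →
        b.equivFun ((TT b (chi J) (chi J) * TT b (chi J') (chi J')) *ᵥ b (i₀, 0)) (i, 0)
          ≠ 0 := by
      intro i hi h0i
      rw [← Matrix.mulVec_mulVec, hfix, TT_coord_basis,
        if_neg (fun h => h0i (congrArg Prod.fst h))]
      show (0 : F) + (if i₀ ∈ J then (1 : F) else 0) * (if i ∈ J then (1 : F) else 0) ≠ 0
      rw [if_pos h0, if_pos hi, zero_add, mul_one]
      exact one_ne_zero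
    apply not_stab D b hmem heo _ (i₀, 0) (i₁, 0) (i₂, 0) h12
    · rw [Units.val_mul]
      exact hval i₁ h1 h01
    · rw [Units.val_mul]
      exact hval i₂ h2 h02

/-! ### Blocks of dimension two over the field with two elements -/

/-- Indicator of the first basis vectors of a set of blocks. -/
def chi0 (J : Finset (Fin t)) : Fin t × Fin 2 → F :=
  fun a => ![if a.1 ∈ J then 1 else 0, 0] a.2

/-- Indicator of the second basis vectors of a set of blocks. -/
def chi1 (J : Finset (Fin t)) : Fin t × Fin 2 → F :=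
  fun a => ![0, if a.1 ∈ J then 1 else 0] a.2

theorem Q_TT2 (D : Fin t → Submodule F (Fin n → F))
    (b : Module.Basis (Fin t × Fin 2) F (Fin n → F))
    (heo : ∀ i x, x ∈ Eo D i ↔ ∀ j, b.equivFun x (i, j) = 0)
    (h2 : (2 : F) = 0) (h01 : ∀ a : F, a = 0 ∨ a = 1)
    (J : Finset (Fin t)) (hJ : (J.card : F) + 1 = 0) (x : Fin n → F) :
    Qf D (TT b (chi0 J) (chi1 J) *ᵥ x) = Qf D x := by
  have hsq : ∀ a : F, a * a = a := by
    intro a
    rcases h01 a with h | h
    · rw [h, mul_zero]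
    · rw [h, mul_one]
  have haux : ∀ α β : F, ¬ (α = 0 ∧ β = 0) → α + β + α * β = 1 := by
    intro α β hne
    rcases h01 α with hα | hα
    · rcases h01 β with hβ | hβ
      · exact absurd ⟨hα, hβ⟩ hne
      · rw [hα, hβ]
        ring
    · rcases h01 β with hβ | hβ
      · rw [hα, hβ]
        ring
      · rw [hα, hβ]
        linear_combination h2
  have hind : ∀ (z : Fin n → F) (i : Fin t), ind D i z
      = b.equivFun z (i, 0) + b.equivFun z (i, 1) + b.equivFun z (i, 0) * b.equivFun z (i, 1) := by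
    intro z i
    by_cases h0 : b.equivFun z (i, 0) = 0 ∧ b.equivFun z (i, 1) = 0
    · rw [h0.1, h0.2, add_zero, mul_zero, add_zero]
      apply ind_zero D b heo
      exact Fin.forall_fin_two.mpr h0
    · rw [haux _ _ h0]
      apply ind_one D b heo
      intro hall
      exact h0 ⟨hall 0, hall 1⟩
  have hs : ∑ a, chi1 J a * b.equivFun x a
      = ∑ j, (if j ∈ J then (1 : F) else 0) * b.equivFun x (j, 1) := by
    rw [Fintype.sum_prod_type]
    refine Finset.sum_congr rfl (fun i _ => ?_)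
    rw [Fin.sum_univ_two]
    show (0 : F) * b.equivFun x (i, 0) + (if i ∈ J then (1 : F) else 0) * b.equivFun x (i, 1) = _
    rw [zero_mul, zero_add]
  have hc0 : ∀ i, b.equivFun (TT b (chi0 J) (chi1 J) *ᵥ x) (i, 0)
      = b.equivFun x (i, 0) + (∑ j, (if j ∈ J then (1 : F) else 0) * b.equivFun x (j, 1))
        * (if i ∈ J then 1 else 0) := by
    intro i
    rw [TT_coord, hs]
    rfl
  have hc1 : ∀ i, b.equivFun (TT b (chi0 J) (chi1 J) *ᵥ x) (i, 1) = b.equivFun x (i, 1) := by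
    intro i
    rw [TT_coord, hs]
    show _ + _ * (0 : F) = _
    rw [mul_zero, add_zero]
  unfold Qf
  rw [Finset.sum_congr rfl (fun i _ => hind _ i), Finset.sum_congr rfl (fun i _ => hind x i),
    Finset.sum_congr rfl (fun i _ => by rw [hc0 i, hc1 i])]
  refine alg22 hsq (fun i => b.equivFun x (i, 0)) (fun i => b.equivFun x (i, 1))
    (fun i => if i ∈ J then 1 else 0) ?_
  rw [sum_chi]
  exact hJ

theorem case2_core (D : Fin t → Submodule F (Fin n → F))
    (b : Module.Basis (Fin t × Fin 2) F (Fin n → F))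
    (hmem : ∀ i j, b (i, j) ∈ D i)
    (heo : ∀ i x, x ∈ Eo D i ↔ ∀ j, b.equivFun x (i, j) = 0)
    (h2 : (2 : F) = 0) (h01 : ∀ a : F, a = 0 ∨ a = 1) (ht : 3 ≤ t) :
    ∃ g₁ : Matrix.GeneralLinearGroup (Fin n) F, g₁ ∈ Cfsg.Geo.specialLinear (Fin n) F ∧
      g₁ ∈ Cfsg.stabilizing (Cfsg.glToMat (Fin n) F) (Sset D) ∧
      g₁ ∉ Cfsg.Geo.decompositionStabilizer D := by
  classical
  obtain ⟨J, -, hJ⟩ := Finset.exists_subset_card_eq (s := (Finset.univ : Finset (Fin t)))
    (n := 3) (by rw [Finset.card_univ, Fintype.card_fin]; exact ht)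
  obtain ⟨i₀, i₁, i₂, h0, h1, h2', h01', h02, h12⟩ :=
    Finset.two_lt_card_iff.mp (by omega : 2 < J.card)
  have hdet : 1 + ∑ a, chi1 (F := F) J a * chi0 J a = 1 := by
    rw [Fintype.sum_prod_type]
    have h3 : ∀ i : Fin t, ∑ j : Fin 2, chi1 (F := F) J (i, j) * chi0 J (i, j) = 0 := by
      intro i
      rw [Fin.sum_univ_two]
      show (0 : F) * _ + _ * (0 : F) = 0
      rw [zero_mul, mul_zero, add_zero]
    rw [Finset.sum_congr rfl (fun i _ => h3 i), Finset.sum_const_zero, add_zero]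
  have hJ1 : (J.card : F) + 1 = 0 := by
    rw [hJ]
    linear_combination 2 * h2
  refine ⟨tG b (chi0 J) (chi1 J) (by rw [hdet]; exact one_ne_zero), ?_, ?_, ?_⟩
  · rw [mem_SL]
    show (TT b (chi0 J) (chi1 J)).det = 1
    rw [TT_det, hdet]
  · apply Cfsg.Agent.S5656.stab_of_maps
    intro w hw
    show Qf D (TT b (chi0 J) (chi1 J) *ᵥ w) = 1
    rw [Q_TT2 D b heo h2 h01 J hJ1]
    exact hw
  · have hval : ∀ i : Fin t, i ∈ J → i₀ ≠ i →
        b.equivFun (TT b (chi0 J) (chi1 J) *ᵥ b (i₀, 1)) (i, 0) ≠ 0 := by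
      intro i hi h0i
      rw [TT_coord_basis, if_neg (fun h => h0i (congrArg Prod.fst h))]
      show (0 : F) + (if i₀ ∈ J then (1 : F) else 0) * (if i ∈ J then (1 : F) else 0) ≠ 0
      rw [if_pos h0, if_pos hi, zero_add, mul_one]
      exact one_ne_zero
    exact not_stab D b hmem heo _ (i₀, 1) (i₁, 0) (i₂, 0) h12 (hval i₁ h1 h01')
      (hval i₂ h2' h02)

/-- For a finite field F with q elements and n ≥ 13, let D be a decomposition of F^n into t ≥ 2 independent subspaces of equal dimension m spanning F^n, where m = 1 and q ≤ 4, or m = 2 and q = 2. Then the elements of SL_n(F) permuting the members of D form a subgroup that is not maximal: some subgroup lies strictly between it and SL_n(F). -/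
theorem result {F : Type*} [Field F] [Fintype F] (n : ℕ) (hn : 13 ≤ n) {t : ℕ} (m : ℕ) (D : Fin t → Submodule F (Fin n → F)) (hD : Cfsg.Geo.IsMDecomposition m D) (h : (m = 1 ∧ Fintype.card F ≤ 4) ∨ (m = 2 ∧ Fintype.card F = 2)) : ∃ K : Subgroup (Matrix.GeneralLinearGroup (Fin n) F), Cfsg.Geo.decompositionStabilizer D ⊓ Cfsg.Geo.specialLinear (Fin n) F < K ∧ K < Cfsg.Geo.specialLinear (Fin n) F := by
  classical
  obtain ⟨b, hb, heo⟩ := exists_adapted D hD
  have hcard : t * m = n := by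
    have h1 := Module.finrank_eq_card_basis b
    rw [Module.finrank_fin_fun, Fintype.card_prod, Fintype.card_fin, Fintype.card_fin] at h1
    exact h1.symm
  have h2t := hD.two_le
  have hmpos := hD.pos
  obtain ⟨g₂, hg₂, hg₂S⟩ := exists_g2 D b heo ⟨0, by omega⟩ ⟨1, by omega⟩
    (fun h => absurd (congrArg Fin.val h) (by simp)) ⟨0, hmpos⟩
  have hc0 := Nat.cast_card_eq_zero F
  rcases h with ⟨rfl, hq⟩ | ⟨rfl, hq⟩
  · -- blocks of dimension one
    have hq2 : 2 ≤ Fintype.card F := Fintype.one_lt_card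
    have ht : 8 ≤ t := by omega
    have hpow0 : (0 : F) ^ (Fintype.card F - 1) = 0 := zero_pow (by omega)
    have hpow1 : ∀ a : F, a ≠ 0 → a ^ (Fintype.card F - 1) = 1 :=
      fun a ha => FiniteField.pow_card_sub_one_eq_one a ha
    obtain ⟨q, hq'⟩ : ∃ q, Fintype.card F = q := ⟨_, rfl⟩
    rw [hq'] at hq hq2 hpow0 hpow1 hc0
    have key : ∃ e : ℕ, (0 : F) ^ e = 0 ∧ (∀ a : F, a ≠ 0 → a ^ e = 1) ∧
        (∀ (c χ : Fin t → F), (∀ i, χ i * χ i = χ i) → (∑ i, χ i) + 2 = 0 →
          ∑ i, (c i + (∑ j, χ j * c j) * χ i) ^ e = ∑ i, c i ^ e) ∧ (6 : F) = 0 := by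
      interval_cases q
      · have h2 : (2 : F) = 0 := by exact_mod_cast hc0
        exact ⟨1, hpow0, hpow1, fun c χ _ hk => alg1 h2 c χ hk, by linear_combination 3 * h2⟩
      · have h3 : (3 : F) = 0 := by exact_mod_cast hc0
        exact ⟨2, hpow0, hpow1, fun c χ hχ hk => alg2 c χ hχ hk, by linear_combination 2 * h3⟩
      · have h4 : (4 : F) = 0 := by exact_mod_cast hc0
        have h2 : (2 : F) = 0 := by
          have h22 : (2 : F) * 2 = 0 := by linear_combination h4
          exact mul_self_eq_zero.mp h22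
        exact ⟨3, hpow0, hpow1, fun c χ hχ hk => alg3 h2 c χ hχ hk, by linear_combination 3 * h2⟩
    obtain ⟨e, he0, he1, halg, h6⟩ := key
    obtain ⟨g₁, hg₁, hg₁S, hg₁D⟩ := case1_core D b hb heo e he0 he1 halg h6 ht
    exact assemble D g₁ g₂ hg₁ hg₁S hg₁D hg₂ hg₂S
  · -- blocks of dimension two
    have ht : 3 ≤ t := by omega
    rw [hq] at hc0
    have h2 : (2 : F) = 0 := by exact_mod_cast hc0
    have h01 : ∀ a : F, a = 0 ∨ a = 1 := by
      intro a
      have h3 := FiniteField.pow_card a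
      rw [hq] at h3
      have h4 : a * (a - 1) = 0 := by linear_combination h3
      rcases mul_eq_zero.mp h4 with h5 | h5
      · exact Or.inl h5
      · exact Or.inr (sub_eq_zero.mp h5)
    obtain ⟨g₁, hg₁, hg₁S, hg₁D⟩ := case2_core D b hb heo h2 h01 ht
    exact assemble D g₁ g₂ hg₁ hg₁S hg₁D hg₂ hg₂S

end Cfsg.Agent.S5635
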