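import Cfsg.Statements.S5642
import Cfsg.Agent.Helper2.SLSp

set_option autoImplicit false
open Cfsg

namespace Cfsg.Agent.S5642

/-- For a finite field F and n ≥ 13, let f be a non-degenerate symplectic form on F^n (so n is even). Then the elements of SL_n(F) that are similarities of f (f(gu, gv) = c f(u, v) for a non-zero scalar c depending on g) form a maximal subgroup of SL_n(F). -/
theorem result {F : Type*} [Field F] [Fintype F] (n : ℕ) (hn : 13 ≤ n) (f : (Fin n → F) → (Fin n → F) → F) (hf : Cfsg.Geo.IsSymplecticForm f) : Cfsg.Geo.IsMaximalIn (Cfsg.Geo.specialLinear (Fin n) F) (Cfsg.Geo.similarityGroup f ⊓ Cfsg.Geo.specialLinear (Fin n) F) := by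
  haveI : Nontrivial (Fin n) := Fin.nontrivial_iff_two_le.2 (by omega)
  refine ⟨?_, ?_⟩
  · rw [SetLike.lt_iff_le_and_exists]
    refine ⟨inf_le_right, ?_⟩
    obtain ⟨g, hg1, hg2⟩ := Helper2.SLSp.exists_sl_not_sim f hf (⟨0, by omega⟩ : Fin n)
      ⟨1, by omega⟩ ⟨2, by omega⟩ (Fin.ne_of_val_ne (by norm_num)) (Fin.ne_of_val_ne (by norm_num))
      (Fin.ne_of_val_ne (by norm_num))
    exact ⟨g, hg1, fun h => hg2 h.1⟩
  · intro M hM1 hM2
    by_cases hM : M ≤ Cfsg.Geo.similarityGroup f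
    · left
      exact le_antisymm (le_inf hM hM2) hM1
    · right
      obtain ⟨g, hgM, hg⟩ := SetLike.not_le_iff_exists.1 hM
      exact le_antisymm hM2 (Helper2.SLSp.sl_le_of_sim f hf M hM1 ⟨g, hgM, hg⟩)

end Cfsg.Agent.S5642
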