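import Cfsg.Statements.S5644
import Cfsg.Agent.S5643

set_option autoImplicit false
open Cfsg

namespace Cfsg.Agent.S5644

open Matrix
open Cfsg.Agent.Helper2
open Cfsg.Agent.S5643 (act act_mul act_one act_add act_smul act_zero act_inv_act act_act_inv act_ext act_ne_zero TT dmc)
open QuadraticMap (polar polar_comm)

section Grp

theorem comm_reduce {G : Type*} [Group G] (r r' ρ ρ' : G) (h1 : Commute r' ρ)
    (h2 : Commute r' ρ') (h3 : Commute ρ' r) :
    (r * r') * (ρ * ρ') * (r * r')⁻¹ * (ρ * ρ')⁻¹ = r * ρ * r⁻¹ * ρ⁻¹ := by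
  have e1 : r' * ρ * ρ' * r'⁻¹ = ρ * ρ' := by
    rw [h1.eq, mul_assoc ρ r' ρ', h2.eq, ← mul_assoc, mul_inv_cancel_right]
  have e2 : ρ' * r⁻¹ * ρ'⁻¹ = r⁻¹ := by
    rw [(h3.inv_right).eq, mul_inv_cancel_right]
  calc (r * r') * (ρ * ρ') * (r * r')⁻¹ * (ρ * ρ')⁻¹
      = r * (r' * ρ * ρ' * r'⁻¹) * r⁻¹ * ρ'⁻¹ * ρ⁻¹ := by group
    _ = r * ρ * (ρ' * r⁻¹ * ρ'⁻¹) * ρ⁻¹ := by rw [e1]; group
    _ = r * ρ * r⁻¹ * ρ⁻¹ := by rw [e2]

end Grp

section Prop0

variable {F : Type*} [Field F] {V : Type*} [AddCommGroup V] [Module F V]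

/-- two bilinear forms with `β₁ x y = 0 → β₂ x y = 0` are proportional -/
theorem prop_of_zero (β₁ β₂ : V → V → F)
    (a1 : ∀ x x' y, β₁ (x + x') y = β₁ x y + β₁ x' y)
    (s1 : ∀ (c : F) x y, β₁ (c • x) y = c * β₁ x y)
    (a1' : ∀ x y y', β₁ x (y + y') = β₁ x y + β₁ x y')
    (s1' : ∀ (c : F) x y, β₁ x (c • y) = c * β₁ x y)
    (a2 : ∀ x x' y, β₂ (x + x') y = β₂ x y + β₂ x' y)
    (s2 : ∀ (c : F) x y, β₂ (c • x) y = c * β₂ x y)
    (a2' : ∀ x y y', β₂ x (y + y') = β₂ x y + β₂ x y')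
    (s2' : ∀ (c : F) x y, β₂ x (c • y) = c * β₂ x y)
    (h : ∀ x y, β₁ x y = 0 → β₂ x y = 0) (x₀ y₀ : V) (h0 : β₁ x₀ y₀ ≠ 0) :
    ∀ x y, β₂ x y = (β₂ x₀ y₀ / β₁ x₀ y₀) * β₁ x y := by
  have hL : ∀ x x₁ y, β₂ x y * β₁ x₁ y = β₂ x₁ y * β₁ x y := by
    intro x x₁ y
    have h1 := h (β₁ x₁ y • x + (-β₁ x y) • x₁) y (by rw [a1, s1, s1]; ring)
    rw [a2, s2, s2] at h1
    linear_combination h1
  have hR : ∀ x y y₁, β₂ x y * β₁ x y₁ = β₂ x y₁ * β₁ x y := by
    intro x y y₁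
    have h1 := h x (β₁ x y₁ • y + (-β₁ x y) • y₁) (by rw [a1', s1', s1']; ring)
    rw [a2', s2', s2'] at h1
    linear_combination h1
  intro x y
  by_cases hxy : β₁ x y = 0
  · rw [h x y hxy, hxy, mul_zero]
  obtain ⟨x', hx'1, hx'2⟩ : ∃ x', β₁ x' y₀ ≠ 0 ∧ β₁ x' y ≠ 0 := by
    by_cases h3 : β₁ x₀ y = 0
    · by_cases h4 : β₁ x y₀ = 0
      · refine ⟨x₀ + x, ?_, ?_⟩
        · rw [a1, h4, add_zero]
          exact h0
        · rw [a1, h3, zero_add]
          exact hxy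
      · exact ⟨x, h4, hxy⟩
    · exact ⟨x₀, h0, h3⟩
  have e1 := hL x' x₀ y₀
  have e2 := hR x' y y₀
  have e3 := hL x x' y
  have key : β₂ x y * β₁ x₀ y₀ * (β₁ x' y * β₁ x' y₀)
      = β₂ x₀ y₀ * β₁ x y * (β₁ x' y * β₁ x' y₀) := by
    linear_combination (β₁ x₀ y₀ * β₁ x' y₀) * e3 + (β₁ x y * β₁ x₀ y₀) * e2
      + (β₁ x y * β₁ x' y) * e1
  have key2 := mul_right_cancel₀ (mul_ne_zero hx'2 hx'1) key
  rw [div_mul_eq_mul_div, eq_div_iff h0]
  exact key2

end Prop0

section Form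

variable {F : Type*} [Field F] {ι : Type} [Fintype ι] [DecidableEq ι]
variable {Q : (ι → F) → F}

theorem two_ne_zero_of_odd [Fintype F] (hodd : Odd (Fintype.card F)) : (2 : F) ≠ 0 := by
  intro h
  haveI : CharP F 2 := CharTwo.of_one_ne_zero_of_two_eq_zero one_ne_zero h
  have h1 := FiniteField.even_card_of_char_two (F := F) (ringChar.eq F 2)
  have h3 := Nat.odd_iff.1 hodd
  omega

theorem Q_add (Q : (ι → F) → F) (x y : ι → F) : Q (x + y) = Q x + Q y + polar Q x y := by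
  unfold QuadraticMap.polar
  ring

theorem Q_zero (hQ : Cfsg.Geo.IsNondegenerateQuadraticForm Q) : Q 0 = 0 := by
  have h := hQ.smul 0 0
  rw [zero_smul] at h
  linear_combination h

theorem Q_neg (hQ : Cfsg.Geo.IsNondegenerateQuadraticForm Q) (x : ι → F) : Q (-x) = Q x := by
  have h := hQ.smul (-1) x
  rw [neg_one_smul] at h
  rw [h]
  ring

theorem B_zero_left (hQ : Cfsg.Geo.IsNondegenerateQuadraticForm Q) (x : ι → F) :
    polar Q 0 x = 0 := by
  have h := hQ.polar_bilinear.smul_left 0 0 x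
  rw [zero_smul, zero_mul] at h
  exact h

theorem B_zero_right (hQ : Cfsg.Geo.IsNondegenerateQuadraticForm Q) (x : ι → F) :
    polar Q x 0 = 0 := by
  have h := hQ.polar_bilinear.smul_right 0 x 0
  rw [zero_smul, zero_mul] at h
  exact h

theorem B_neg_left (hQ : Cfsg.Geo.IsNondegenerateQuadraticForm Q) (x y : ι → F) :
    polar Q (-x) y = - polar Q x y := by
  have h := hQ.polar_bilinear.smul_left (-1) x y
  rw [neg_one_smul, neg_one_mul] at h
  exact h

theorem B_neg_right (hQ : Cfsg.Geo.IsNondegenerateQuadraticForm Q) (x y : ι → F) :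
    polar Q x (-y) = - polar Q x y := by
  have h := hQ.polar_bilinear.smul_right (-1) x y
  rw [neg_one_smul, neg_one_mul] at h
  exact h

theorem B_self (hQ : Cfsg.Geo.IsNondegenerateQuadraticForm Q) (x : ι → F) :
    polar Q x x = 2 * Q x := by
  have h := hQ.smul 2 x
  rw [two_smul] at h
  unfold QuadraticMap.polar
  rw [h]
  ring

/-- the functional `x ↦ B x w` -/
def LB (hQ : Cfsg.Geo.IsNondegenerateQuadraticForm Q) (w : ι → F) : (ι → F) →ₗ[F] F where
  toFun x := polar Q x w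
  map_add' x y := hQ.polar_bilinear.add_left x y w
  map_smul' c x := by rw [hQ.polar_bilinear.smul_left, RingHom.id_apply, smul_eq_mul]

theorem LB_apply (hQ : Cfsg.Geo.IsNondegenerateQuadraticForm Q) (w x : ι → F) :
    LB hQ w x = polar Q x w := rfl

theorem act_sub (g : Matrix.GeneralLinearGroup ι F) (x y : ι → F) :
    act g (x - y) = act g x - act g y := Matrix.mulVec_sub _ _ _

/-- the functional `x ↦ L (g x)` -/
def Lcomp (L : (ι → F) →ₗ[F] F) (g : Matrix.GeneralLinearGroup ι F) : (ι → F) →ₗ[F] F where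
  toFun x := L (act g x)
  map_add' x y := by rw [act_add, map_add]
  map_smul' c x := by rw [act_smul, map_smul, RingHom.id_apply]

theorem Lcomp_apply (L : (ι → F) →ₗ[F] F) (g : Matrix.GeneralLinearGroup ι F) (x : ι → F) :
    Lcomp L g x = L (act g x) := rfl

/-- `z ↦ B(·, z)` -/
def Phi (hQ : Cfsg.Geo.IsNondegenerateQuadraticForm Q) :
    (ι → F) →ₗ[F] ((ι → F) →ₗ[F] F) where
  toFun z := LB hQ z
  map_add' z z' := LinearMap.ext (fun x => hQ.polar_bilinear.add_right x z z')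
  map_smul' c z := by
    apply LinearMap.ext
    intro x
    rw [LinearMap.smul_apply, RingHom.id_apply, smul_eq_mul]
    exact hQ.polar_bilinear.smul_right c x z

theorem Phi_inj (hQ : Cfsg.Geo.IsNondegenerateQuadraticForm Q) :
    Function.Injective (Phi hQ) := by
  rw [← LinearMap.ker_eq_bot, LinearMap.ker_eq_bot']
  intro z hz
  by_contra hne
  obtain ⟨x, hx⟩ := (hQ.nondegenerate z hne).1
  apply hx
  have h := congrArg (fun M : (ι → F) →ₗ[F] F => M x) hz
  exact h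

theorem exists_riesz (hQ : Cfsg.Geo.IsNondegenerateQuadraticForm Q) (L : (ι → F) →ₗ[F] F) :
    ∃ w, ∀ x, polar Q x w = L x := by
  have hsurj : Function.Surjective (Phi hQ) :=
    (LinearMap.injective_iff_surjective_of_finrank_eq_finrank
      (Subspace.dual_finrank_eq (K := F) (V := ι → F)).symm).1 (Phi_inj hQ)
  obtain ⟨w, hw⟩ := hsurj L
  refine ⟨w, fun x => ?_⟩
  rw [← hw]
  rfl

theorem B_expand (hQ : Cfsg.Geo.IsNondegenerateQuadraticForm Q) (x w : ι → F) :
    polar Q x w = ∑ i, x i * polar Q (fun j => if i = j then 1 else 0) w := by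
  have h := LinearMap.pi_apply_eq_sum_univ (LB hQ w) x
  rw [LB_apply] at h
  rw [h]
  exact Finset.sum_congr rfl (fun i _ => by rw [LB_apply, smul_eq_mul])

/-- a non-singular vector in the common kernel of `k` functionals -/
theorem exists_nonsing (hQ : Cfsg.Geo.IsNondegenerateQuadraticForm Q) {k : ℕ}
    (L : Fin k → ((ι → F) →ₗ[F] F)) (hk : 2 * k < Fintype.card ι) :
    ∃ z, (∀ i, L i z = 0) ∧ Q z ≠ 0 := by
  classical
  by_contra hcon
  push Not at hcon
  obtain ⟨U, hUdef⟩ : ∃ U : Submodule F (ι → F), U = ⨅ i, LinearMap.ker (L i) := ⟨_, rfl⟩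
  have hU : ∀ x, x ∈ U ↔ ∀ i, L i x = 0 := by
    intro x
    rw [hUdef]
    simp only [Submodule.mem_iInf, LinearMap.mem_ker]
  have hdimU : Fintype.card ι ≤ Module.finrank F U + k := by
    have hker : LinearMap.ker (LinearMap.pi L) = U := by rw [hUdef, LinearMap.ker_pi]
    have h1 := LinearMap.finrank_range_add_finrank_ker (LinearMap.pi L)
    have h2 : Module.finrank F (LinearMap.range (LinearMap.pi L)) ≤ k := by
      have h3 := Submodule.finrank_le (LinearMap.range (LinearMap.pi L))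
      rw [Module.finrank_fin_fun] at h3
      exact h3
    rw [Module.finrank_fintype_fun_eq_card, hker] at h1
    omega
  have hle : U.map (Phi hQ) ≤ Submodule.span F (Set.range L) := by
    rintro _ ⟨z, hz, rfl⟩
    apply mem_span_of_iInf_ker_le_ker
    intro x hx
    rw [← hUdef] at hx
    rw [LinearMap.mem_ker]
    show polar Q x z = 0
    have hxz : x + z ∈ U := U.add_mem hx hz
    unfold QuadraticMap.polar
    rw [hcon _ ((hU _).1 hxz), hcon _ ((hU _).1 hx), hcon _ ((hU _).1 hz)]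
    ring
  have h3 := Submodule.finrank_mono hle
  have h4 : Module.finrank F (U.map (Phi hQ)) = Module.finrank F U :=
    (Submodule.equivMapOfInjective (Phi hQ) (Phi_inj hQ) U).finrank_eq.symm
  have h5 : Module.finrank F (Submodule.span F (Set.range L)) ≤ k := by
    have h6 := finrank_range_le_card (R := F) L
    rw [Fintype.card_fin] at h6
    exact h6
  omega

theorem nonsing_pm (hQ : Cfsg.Geo.IsNondegenerateQuadraticForm Q) (h2 : (2 : F) ≠ 0)
    {a x : ι → F} (ha : Q a ≠ 0) (hx : Q x = 0) : Q (x + a) ≠ 0 ∨ Q (x - a) ≠ 0 := by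
  by_contra hcon
  push Not at hcon
  obtain ⟨h1, h3⟩ := hcon
  rw [Q_add Q, hx] at h1
  rw [sub_eq_add_neg, Q_add Q, hx, Q_neg hQ, B_neg_right hQ] at h3
  apply ha
  apply mul_left_cancel₀ h2
  linear_combination h1 + h3

theorem nonsing_span (hQ : Cfsg.Geo.IsNondegenerateQuadraticForm Q) (h2 : (2 : F) ≠ 0)
    (hcard : 13 ≤ Fintype.card ι) (L M : (ι → F) →ₗ[F] F)
    (h : ∀ x, Q x ≠ 0 → L x = 0 → M x = 0) : ∀ x, L x = 0 → M x = 0 := by
  intro x hx
  by_cases hQx : Q x = 0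
  · obtain ⟨x₀, hx₀, hQx₀⟩ := exists_nonsing hQ (k := 1) ![L] (by omega)
    have hLx₀ : L x₀ = 0 := hx₀ 0
    have hM₀ := h x₀ hQx₀ hLx₀
    rcases nonsing_pm hQ h2 hQx₀ hQx with h3 | h3
    · have h4 := h (x + x₀) h3 (by rw [map_add, hx, hLx₀, add_zero])
      rw [map_add, hM₀, add_zero] at h4
      exact h4
    · have h4 := h (x - x₀) h3 (by rw [map_sub, hx, hLx₀, sub_zero])
      rw [map_sub, hM₀, sub_zero] at h4
      exact h4
  · exact h x hQx hx

/-- `Q` takes every value on the orthogonal complement of two vectors -/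
theorem exists_value2 [Fintype F] (hQ : Cfsg.Geo.IsNondegenerateQuadraticForm Q)
    (hodd : Odd (Fintype.card F)) (hcard : 13 ≤ Fintype.card ι) (p₁ p₂ : ι → F) (e : F) :
    ∃ v, polar Q v p₁ = 0 ∧ polar Q v p₂ = 0 ∧ Q v = e := by
  obtain ⟨v₁, hv₁, hQ₁⟩ := exists_nonsing hQ (k := 2) ![LB hQ p₁, LB hQ p₂] (by omega)
  obtain ⟨v₂, hv₂, hQ₂⟩ := exists_nonsing hQ (k := 3) ![LB hQ p₁, LB hQ p₂, LB hQ v₁]
    (by omega)
  have h11 : polar Q v₁ p₁ = 0 := hv₁ 0
  have h12 : polar Q v₁ p₂ = 0 := hv₁ 1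
  have h21 : polar Q v₂ p₁ = 0 := hv₂ 0
  have h22 : polar Q v₂ p₂ = 0 := hv₂ 1
  have h20 : polar Q v₂ v₁ = 0 := hv₂ 2
  have hf2 : Polynomial.degree (Polynomial.C (Q v₁) * Polynomial.X ^ 2) = 2 := by
    simpa using Polynomial.degree_C_mul_X_pow 2 hQ₁
  have hg2 : Polynomial.degree (Polynomial.C (Q v₂) * Polynomial.X ^ 2 - Polynomial.C e)
      = 2 := by
    have h3 : Polynomial.degree (Polynomial.C e)
        < Polynomial.degree (Polynomial.C (Q v₂) * Polynomial.X ^ 2) := by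
      rw [Polynomial.degree_C_mul_X_pow 2 hQ₂]
      exact lt_of_le_of_lt Polynomial.degree_C_le (by norm_num)
    rw [Polynomial.degree_sub_eq_left_of_degree_lt h3]
    simpa using Polynomial.degree_C_mul_X_pow 2 hQ₂
  obtain ⟨a, b, hab⟩ := FiniteField.exists_root_sum_quadratic (R := F) hf2 hg2
    (Nat.odd_iff.1 hodd)
  simp only [Polynomial.eval_sub, Polynomial.eval_mul, Polynomial.eval_C,
    Polynomial.eval_pow, Polynomial.eval_X] at hab
  refine ⟨a • v₁ + b • v₂, ?_, ?_, ?_⟩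
  · rw [hQ.polar_bilinear.add_left, hQ.polar_bilinear.smul_left,
      hQ.polar_bilinear.smul_left, h11, h21, mul_zero, mul_zero, add_zero]
  · rw [hQ.polar_bilinear.add_left, hQ.polar_bilinear.smul_left,
      hQ.polar_bilinear.smul_left, h12, h22, mul_zero, mul_zero, add_zero]
  · rw [Q_add Q, hQ.smul, hQ.smul, hQ.polar_bilinear.smul_left,
      hQ.polar_bilinear.smul_right, polar_comm Q v₁ v₂, h20]
    linear_combination hab

end Form

section GroupSide

variable {F : Type*} [Field F] {ι : Type} [Fintype ι] [DecidableEq ι]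
variable {Q : (ι → F) → F}

/-- `a` acts as `x ↦ x - L x • c` -/
def IsRL (a : Matrix.GeneralLinearGroup ι F) (L : (ι → F) →ₗ[F] F) (c : ι → F) : Prop :=
  ∀ x, act a x = x - L x • c

theorem rl_comm {a b : Matrix.GeneralLinearGroup ι F} {L M : (ι → F) →ₗ[F] F} {c d : ι → F}
    (ha : IsRL a L c) (hb : IsRL b M d) (h1 : L d = 0) (h2 : M c = 0) : Commute a b := by
  show a * b = b * a
  apply act_ext
  intro x
  rw [act_mul, act_mul, hb x, ha x, ha, hb, map_sub, map_sub, map_smul, map_smul, h1, h2,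
    smul_zero, smul_zero, sub_zero, sub_zero]
  abel

theorem rl_conj {a : Matrix.GeneralLinearGroup ι F} {L : (ι → F) →ₗ[F] F} {c : ι → F}
    (g : Matrix.GeneralLinearGroup ι F) (ha : IsRL a L c) :
    IsRL (g * a * g⁻¹) (Lcomp L g⁻¹) (act g c) := by
  intro x
  rw [Lcomp_apply, act_mul, act_mul, ha, act_sub, act_smul, act_act_inv]

theorem rl_sq {a : Matrix.GeneralLinearGroup ι F} {L : (ι → F) →ₗ[F] F} {c : ι → F}
    (ha : IsRL a L c) (h : L c = 2) : a * a = 1 := by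
  apply act_ext
  intro x
  rw [act_mul, act_one, ha x, ha, map_sub, map_smul, h, smul_eq_mul]
  module

theorem rl_inv {a : Matrix.GeneralLinearGroup ι F} {L : (ι → F) →ₗ[F] F} {c : ι → F}
    (ha : IsRL a L c) (h : L c = 2) : a⁻¹ = a :=
  inv_eq_of_mul_eq_one_left (rl_sq ha h)

theorem rl_comm_tv {r ρ : Matrix.GeneralLinearGroup ι F} {L M : (ι → F) →ₗ[F] F}
    {p c : ι → F} (hr : IsRL r L p) (hρ : IsRL ρ M c) (hLp : L p = 2) (hMc : M c = 2)
    (hLc : L c = 0) : ∀ x, act (r * ρ * r⁻¹ * ρ⁻¹) x = x + (M p * L x) • c := by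
  intro x
  rw [rl_inv hr hLp, rl_inv hρ hMc]
  have h1 : ∀ y, act r (act ρ y) = y - M y • c - L y • p := by
    intro y
    rw [hρ y, hr, map_sub, map_smul, hLc, smul_zero, sub_zero]
  rw [act_mul, act_mul, act_mul, h1, h1]
  simp only [map_sub, map_smul, smul_eq_mul, hLp, hMc, hLc]
  module

theorem exists_gl (hQ : Cfsg.Geo.IsNondegenerateQuadraticForm Q) (u w : ι → F)
    (h : 1 + polar Q u w ≠ 0) :
    ∃ t : Matrix.GeneralLinearGroup ι F, (t : Matrix ι ι F).det = 1 + polar Q u w ∧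
      ∀ x, act t x = x + polar Q x w • u := by
  let φ : ι → F := fun i => polar Q (fun j => if i = j then 1 else 0) w
  have hφ : ∀ x, φ ⬝ᵥ x = polar Q x w := by
    intro x
    rw [B_expand hQ x w]
    show ∑ i, polar Q (fun j => if i = j then 1 else 0) w * x i = _
    exact Finset.sum_congr rfl (fun i _ => mul_comm _ _)
  have hdet : 1 + φ ⬝ᵥ u ≠ 0 := by
    rw [hφ]
    exact h
  refine ⟨Parab.tgl u φ hdet, ?_, fun x => ?_⟩
  · rw [Parab.tgl_val, Parab.tmat_det, hφ]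
  · unfold act
    rw [Parab.tgl_val, Parab.tmat_mulVec, hφ]

theorem exists_refl (hQ : Cfsg.Geo.IsNondegenerateQuadraticForm Q) (p : ι → F)
    (hp : Q p ≠ 0) :
    ∃ r : Matrix.GeneralLinearGroup ι F, (r : Matrix ι ι F).det = -1 ∧
      IsRL r ((Q p)⁻¹ • LB hQ p) p := by
  have e : 1 + polar Q p ((-(Q p)⁻¹) • p) = -1 := by
    rw [hQ.polar_bilinear.smul_right, B_self hQ]
    have h1 : (Q p)⁻¹ * (2 * Q p) = 2 := by
      rw [mul_left_comm, inv_mul_cancel₀ hp, mul_one]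
    linear_combination -h1
  obtain ⟨r, hdet, hr⟩ := exists_gl hQ p ((-(Q p)⁻¹) • p)
    (by rw [e]; exact neg_ne_zero.2 one_ne_zero)
  refine ⟨r, by rw [hdet, e], fun x => ?_⟩
  rw [hr x, hQ.polar_bilinear.smul_right, LinearMap.smul_apply, LB_apply, smul_eq_mul,
    neg_mul, neg_smul, sub_eq_add_neg]

theorem rl_isom (hQ : Cfsg.Geo.IsNondegenerateQuadraticForm Q) {r : Matrix.GeneralLinearGroup ι F}
    {p : ι → F} (hp : Q p ≠ 0) (hr : IsRL r ((Q p)⁻¹ • LB hQ p) p) :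
    ∀ x, Q (act r x) = Q x := by
  intro x
  rw [hr x, LinearMap.smul_apply, LB_apply, smul_eq_mul, sub_eq_add_neg, ← neg_smul,
    Q_add Q, hQ.smul, hQ.polar_bilinear.smul_right]
  field_simp
  ring

theorem B_isom {k : Matrix.GeneralLinearGroup ι F} (hk : ∀ x, Q (act k x) = Q x) :
    ∀ x y, polar Q (act k x) (act k y) = polar Q x y := by
  intro x y
  show Q (act k x + act k y) - Q (act k x) - Q (act k y) = Q (x + y) - Q x - Q y
  rw [← act_add, hk, hk, hk]

theorem mem_qsim_of_isom {k : Matrix.GeneralLinearGroup ι F} (hk : ∀ x, Q (act k x) = Q x) :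
    k ∈ Cfsg.Geo.quadSimilarityGroup Q := by
  show ∃ c : Fˣ, ∀ v, Q ((k : Matrix ι ι F) *ᵥ v) = (c : F) * Q v
  exact ⟨1, fun v => by rw [Units.val_one, one_mul]; exact hk v⟩

variable {K : Subgroup (Matrix.GeneralLinearGroup ι F)}

theorem refl2_mem (hQ : Cfsg.Geo.IsNondegenerateQuadraticForm Q)
    (hK : Cfsg.Geo.quadSimilarityGroup Q ⊓ Cfsg.Geo.specialLinear ι F ≤ K) {a b : ι → F}
    (ha : Q a ≠ 0) (hb : Q b ≠ 0) {ra rb : Matrix.GeneralLinearGroup ι F}
    (hda : (ra : Matrix ι ι F).det = -1) (hra : IsRL ra ((Q a)⁻¹ • LB hQ a) a)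
    (hdb : (rb : Matrix ι ι F).det = -1) (hrb : IsRL rb ((Q b)⁻¹ • LB hQ b) b) :
    ra * rb ∈ K := by
  apply hK
  refine Subgroup.mem_inf.2 ⟨mem_qsim_of_isom (fun x => ?_), (Parab.mem_sl_iff _).2 ?_⟩
  · rw [act_mul, rl_isom hQ ha hra, rl_isom hQ hb hrb]
  · rw [Units.val_mul, Matrix.det_mul, hda, hdb, neg_mul_neg, one_mul]

theorem TT_addL (hQ : Cfsg.Geo.IsNondegenerateQuadraticForm Q) {u u' w : ι → F}
    (h : TT K (polar Q) u w) (h' : TT K (polar Q) u' w) : TT K (polar Q) (u + u') w := by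
  obtain ⟨h0, g, hg, hgx⟩ := h
  obtain ⟨h0', g', hg', hgx'⟩ := h'
  refine ⟨by rw [hQ.polar_bilinear.add_left, h0, h0', add_zero], g * g', K.mul_mem hg hg',
    fun x => ?_⟩
  rw [act_mul, hgx', hgx, hQ.polar_bilinear.add_left, hQ.polar_bilinear.smul_left, h0',
    mul_zero, add_zero, smul_add]
  abel

theorem TT_addR (hQ : Cfsg.Geo.IsNondegenerateQuadraticForm Q) {u w w' : ι → F}
    (h : TT K (polar Q) u w) (h' : TT K (polar Q) u w') : TT K (polar Q) u (w + w') := by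
  obtain ⟨h0, g, hg, hgx⟩ := h
  obtain ⟨h0', g', hg', hgx'⟩ := h'
  refine ⟨by rw [hQ.polar_bilinear.add_right, h0, h0', add_zero], g * g', K.mul_mem hg hg',
    fun x => ?_⟩
  rw [act_mul, hgx', hgx, hQ.polar_bilinear.add_left, hQ.polar_bilinear.smul_left, h0,
    mul_zero, add_zero, hQ.polar_bilinear.add_right, add_smul]
  abel

theorem TT_negL (hQ : Cfsg.Geo.IsNondegenerateQuadraticForm Q) {u w : ι → F}
    (h : TT K (polar Q) u w) : TT K (polar Q) (-u) w := by
  obtain ⟨h0, g, hg, hgx⟩ := h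
  refine ⟨by rw [B_neg_left hQ, h0, neg_zero], g⁻¹, K.inv_mem hg, fun x => ?_⟩
  have h1 : act g (x + polar Q x w • -u) = x := by
    rw [hgx, hQ.polar_bilinear.add_left, hQ.polar_bilinear.smul_left, B_neg_left hQ, h0,
      neg_zero, mul_zero, add_zero, smul_neg]
    abel
  have h2 := congrArg (act g⁻¹) h1
  rw [act_inv_act] at h2
  exact h2.symm

theorem TT_negR (hQ : Cfsg.Geo.IsNondegenerateQuadraticForm Q) {u w : ι → F}
    (h : TT K (polar Q) u w) : TT K (polar Q) u (-w) := by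
  obtain ⟨h0, g, hg, hgx⟩ := TT_negL hQ h
  refine ⟨by rw [B_neg_right hQ, h.1, neg_zero], g, hg, fun x => ?_⟩
  rw [hgx, B_neg_right hQ, smul_neg, neg_smul]

theorem TT_isom' {k : Matrix.GeneralLinearGroup ι F} (hk : k ∈ K)
    (hiso : ∀ x y, polar Q (act k x) (act k y) = polar Q x y) {u w : ι → F}
    (h : TT K (polar Q) u w) : TT K (polar Q) (act k u) (act k w) := by
  obtain ⟨h0, g, hg, hgx⟩ := h
  have hw : ∀ x, polar Q (act k⁻¹ x) w = polar Q x (act k w) := by
    intro x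
    rw [← hiso (act k⁻¹ x) w, act_act_inv]
  refine ⟨by rw [hiso]; exact h0, k * g * k⁻¹, K.mul_mem (K.mul_mem hk hg) (K.inv_mem hk),
    fun x => ?_⟩
  rw [act_mul, act_mul, hgx, act_add, act_smul, act_act_inv, hw]

theorem TT_swL (hQ : Cfsg.Geo.IsNondegenerateQuadraticForm Q) {c : F} {u w : ι → F}
    (h : TT K (polar Q) u (c • w)) : TT K (polar Q) (c • u) w := by
  obtain ⟨h0, g, hg, hgx⟩ := h
  rw [hQ.polar_bilinear.smul_right] at h0
  refine ⟨by rw [hQ.polar_bilinear.smul_left]; exact h0, g, hg, fun x => ?_⟩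
  rw [hgx, hQ.polar_bilinear.smul_right, smul_smul, mul_comm]

theorem TT_swR (hQ : Cfsg.Geo.IsNondegenerateQuadraticForm Q) {c : F} {u w : ι → F}
    (h : TT K (polar Q) (c • u) w) : TT K (polar Q) u (c • w) := by
  obtain ⟨h0, g, hg, hgx⟩ := h
  rw [hQ.polar_bilinear.smul_left] at h0
  refine ⟨by rw [hQ.polar_bilinear.smul_right]; exact h0, g, hg, fun x => ?_⟩
  rw [hgx, hQ.polar_bilinear.smul_right, smul_smul, mul_comm]

theorem TT_zL (hQ : Cfsg.Geo.IsNondegenerateQuadraticForm Q) (w : ι → F) :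
    TT K (polar Q) 0 w :=
  ⟨B_zero_left hQ w, 1, K.one_mem, fun x => by rw [act_one, smul_zero, add_zero]⟩

theorem TT_zR (hQ : Cfsg.Geo.IsNondegenerateQuadraticForm Q) (u : ι → F) :
    TT K (polar Q) u 0 :=
  ⟨B_zero_right hQ u, 1, K.one_mem, fun x => by
    rw [act_one, B_zero_right hQ, zero_smul, add_zero]⟩

theorem TT_op1 (hQ : Cfsg.Geo.IsNondegenerateQuadraticForm Q) (hcard : 13 ≤ Fintype.card ι)
    (hK : Cfsg.Geo.quadSimilarityGroup Q ⊓ Cfsg.Geo.specialLinear ι F ≤ K) {u w a : ι → F}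
    (h : TT K (polar Q) u w) (hQa : Q a ≠ 0) (haw : polar Q a w = 0) :
    TT K (polar Q) ((polar Q u a / Q a) • a) w := by
  obtain ⟨b, hb, hQb⟩ := exists_nonsing hQ (k := 2) ![LB hQ u, LB hQ w] (by omega)
  have hbu : polar Q b u = 0 := hb 0
  have hbw : polar Q b w = 0 := hb 1
  obtain ⟨ra, hdeta, hra⟩ := exists_refl hQ a hQa
  obtain ⟨rb, hdetb, hrb⟩ := exists_refl hQ b hQb
  have hk : ra * rb ∈ K := refl2_mem hQ hK hQa hQb hdeta hra hdetb hrb
  have hiso : ∀ x y, polar Q (act (ra * rb) x) (act (ra * rb) y) = polar Q x y :=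
    B_isom (fun x => by rw [act_mul, rl_isom hQ hQa hra, rl_isom hQ hQb hrb])
  have h1 := TT_isom' hk hiso h
  have e1 : act (ra * rb) u = u - (polar Q u a / Q a) • a := by
    rw [act_mul, hrb u, LinearMap.smul_apply, LB_apply, polar_comm Q u b, hbu, smul_zero,
      zero_smul, sub_zero, hra u, LinearMap.smul_apply, LB_apply, smul_eq_mul,
      div_eq_inv_mul]
  have e2 : act (ra * rb) w = w := by
    rw [act_mul, hrb w, LinearMap.smul_apply, LB_apply, polar_comm Q w b, hbw, smul_zero,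
      zero_smul, sub_zero, hra w, LinearMap.smul_apply, LB_apply, polar_comm Q w a, haw,
      smul_zero, zero_smul, sub_zero]
  rw [e1, e2] at h1
  have h3 := TT_negL hQ (TT_addL hQ h1 (TT_negL hQ h))
  have e3 : -(u - (polar Q u a / Q a) • a + -u) = (polar Q u a / Q a) • a := by abel
  rw [e3] at h3
  exact h3

theorem TT_op2 (hQ : Cfsg.Geo.IsNondegenerateQuadraticForm Q) (hcard : 13 ≤ Fintype.card ι)
    (hK : Cfsg.Geo.quadSimilarityGroup Q ⊓ Cfsg.Geo.specialLinear ι F ≤ K) {u w a : ι → F}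
    (h : TT K (polar Q) u w) (hQa : Q a ≠ 0) (hau : polar Q a u = 0) :
    TT K (polar Q) u ((polar Q w a / Q a) • a) := by
  obtain ⟨b, hb, hQb⟩ := exists_nonsing hQ (k := 2) ![LB hQ u, LB hQ w] (by omega)
  have hbu : polar Q b u = 0 := hb 0
  have hbw : polar Q b w = 0 := hb 1
  obtain ⟨ra, hdeta, hra⟩ := exists_refl hQ a hQa
  obtain ⟨rb, hdetb, hrb⟩ := exists_refl hQ b hQb
  have hk : ra * rb ∈ K := refl2_mem hQ hK hQa hQb hdeta hra hdetb hrb
  have hiso : ∀ x y, polar Q (act (ra * rb) x) (act (ra * rb) y) = polar Q x y :=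
    B_isom (fun x => by rw [act_mul, rl_isom hQ hQa hra, rl_isom hQ hQb hrb])
  have h1 := TT_isom' hk hiso h
  have e1 : act (ra * rb) w = w - (polar Q w a / Q a) • a := by
    rw [act_mul, hrb w, LinearMap.smul_apply, LB_apply, polar_comm Q w b, hbw, smul_zero,
      zero_smul, sub_zero, hra w, LinearMap.smul_apply, LB_apply, smul_eq_mul,
      div_eq_inv_mul]
  have e2 : act (ra * rb) u = u := by
    rw [act_mul, hrb u, LinearMap.smul_apply, LB_apply, polar_comm Q u b, hbu, smul_zero,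
      zero_smul, sub_zero, hra u, LinearMap.smul_apply, LB_apply, polar_comm Q u a, hau,
      smul_zero, zero_smul, sub_zero]
  rw [e1, e2] at h1
  have h3 := TT_negR hQ (TT_addR hQ h1 (TT_negR hQ h))
  have e3 : -(w - (polar Q w a / Q a) • a + -w) = (polar Q w a / Q a) • a := by abel
  rw [e3] at h3
  exact h3

end GroupSide

section Closure

variable {F : Type*} [Field F] [Fintype F] {ι : Type} [Fintype ι] [DecidableEq ι]
variable {Q : (ι → F) → F}

/-- the closure properties of the relation `T u w` = "the transvection `x ↦ x + B x w • u`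
lies in `K`", in a form symmetric in the two slots -/
structure Good (Q : (ι → F) → F) (T : (ι → F) → (ι → F) → Prop) : Prop where
  orth : ∀ u w, T u w → polar Q u w = 0
  addL : ∀ u u' w, T u w → T u' w → T (u + u') w
  addR : ∀ u w w', T u w → T u w' → T u (w + w')
  negL : ∀ u w, T u w → T (-u) w
  negR : ∀ u w, T u w → T u (-w)
  swL : ∀ (c : F) u w, T u (c • w) → T (c • u) w
  swR : ∀ (c : F) u w, T (c • u) w → T u (c • w)
  op1 : ∀ u w a, T u w → Q a ≠ 0 → polar Q a w = 0 → T ((polar Q u a / Q a) • a) w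
  op2 : ∀ u w a, T u w → Q a ≠ 0 → polar Q a u = 0 → T u ((polar Q w a / Q a) • a)
  zL : ∀ w, T 0 w
  zR : ∀ u, T u 0

theorem Good.flip {T : (ι → F) → (ι → F) → Prop} (hT : Good Q T) :
    Good Q (fun u w => T w u) where
  orth := fun u w h => by rw [polar_comm]; exact hT.orth w u h
  addL := fun u u' w h h' => hT.addR w u u' h h'
  addR := fun u w w' h h' => hT.addL w w' u h h'
  negL := fun u w h => hT.negR w u h
  negR := fun u w h => hT.negL w u h
  swL := fun c u w h => hT.swR c w u h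
  swR := fun c u w h => hT.swL c w u h
  op1 := fun u w a h hQa haw => hT.op2 w u a h hQa haw
  op2 := fun u w a h hQa hau => hT.op1 w u a h hQa hau
  zL := fun w => hT.zR w
  zR := fun u => hT.zL u

theorem Good.scal (hQ : Cfsg.Geo.IsNondegenerateQuadraticForm Q) (hodd : Odd (Fintype.card F))
    (hcard : 13 ≤ Fintype.card ι) {T : (ι → F) → (ι → F) → Prop} (hT : Good Q T)
    {u w : ι → F} (h : T u w) (hw : Q w ≠ 0) (c : F) : T (c • u) w := by
  have h2 : (2 : F) ≠ 0 := two_ne_zero_of_odd hodd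
  by_cases hc : c = 0
  · rw [hc, zero_smul]
    exact hT.zL w
  have h0 := hT.orth u w h
  obtain ⟨v, hvu, hvw, hQv⟩ := exists_value2 hQ hodd hcard u w (2 * 2 * Q w / c - Q w)
  have hQa : Q (w + v) = 2 * 2 * Q w / c := by
    rw [Q_add Q, hQv, polar_comm Q w v, hvw]
    ring
  have hQa0 : Q (w + v) ≠ 0 := by
    rw [hQa]
    exact div_ne_zero (mul_ne_zero (mul_ne_zero h2 h2) hw) hc
  have hau : polar Q (w + v) u = 0 := by
    rw [hQ.polar_bilinear.add_left, polar_comm Q w u, h0, hvu, add_zero]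
  have hwa : polar Q w (w + v) = 2 * Q w := by
    rw [hQ.polar_bilinear.add_right, B_self hQ, polar_comm Q w v, hvw, add_zero]
  have haw : polar Q (w + v) w = 2 * Q w := by
    rw [polar_comm Q (w + v) w, hwa]
  have s1 := hT.op2 u w (w + v) h hQa0 hau
  have s2 := hT.swL _ u (w + v) s1
  have hwu' : polar Q w ((polar Q w (w + v) / Q (w + v)) • u) = 0 := by
    rw [hQ.polar_bilinear.smul_right, polar_comm Q w u, h0, mul_zero]
  have s3 := hT.op2 _ (w + v) w s2 hw hwu'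
  have s4 := hT.swL _ _ w s3
  have e : (polar Q (w + v) w / Q w) • ((polar Q w (w + v) / Q (w + v)) • u) = c • u := by
    rw [smul_smul, haw, hwa, hQa]
    congr 1
    field_simp
  rw [e] at s4
  exact s4

theorem Good.left (hQ : Cfsg.Geo.IsNondegenerateQuadraticForm Q) (hodd : Odd (Fintype.card F))
    (hcard : 13 ≤ Fintype.card ι) {T : (ι → F) → (ι → F) → Prop} (hT : Good Q T)
    {u₀ p : ι → F} (h : T u₀ p) (hp : Q p ≠ 0) (hu₀ : u₀ ≠ 0) :
    ∀ u, polar Q u p = 0 → T u p := by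
  have h2 : (2 : F) ≠ 0 := two_ne_zero_of_odd hodd
  have h0 := hT.orth u₀ p h
  have hn : ∀ z a, T z p → Q a ≠ 0 → polar Q a p = 0 → polar Q z a ≠ 0 → T a p := by
    intro z a hz hQa hap hza
    have s1 := hT.op1 z p a hz hQa hap
    have s2 := hT.scal hQ hodd hcard s1 hp (polar Q z a / Q a)⁻¹
    rw [smul_smul, inv_mul_cancel₀ (div_ne_zero hza hQa), one_smul] at s2
    exact s2
  obtain ⟨a₀, ha₀T, hQa₀, ha₀p⟩ : ∃ a₀, T a₀ p ∧ Q a₀ ≠ 0 ∧ polar Q a₀ p = 0 := by
    obtain ⟨x₁, hx₁⟩ := (hQ.nondegenerate u₀ hu₀).2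
    obtain ⟨x, hx⟩ : ∃ x, x = x₁ - (polar Q x₁ p / (2 * Q p)) • p := ⟨_, rfl⟩
    have hxp : polar Q x p = 0 := by
      rw [hx, sub_eq_add_neg, hQ.polar_bilinear.add_left, B_neg_left hQ,
        hQ.polar_bilinear.smul_left, B_self hQ, dmc (mul_ne_zero h2 hp)]
      ring
    have hu₀x : polar Q u₀ x ≠ 0 := by
      rw [hx, sub_eq_add_neg, hQ.polar_bilinear.add_right, B_neg_right hQ,
        hQ.polar_bilinear.smul_right, h0, mul_zero, neg_zero, add_zero]
      exact hx₁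
    by_cases hQx : Q x = 0
    · obtain ⟨b, hb, hQb⟩ := exists_nonsing hQ (k := 2) ![LB hQ p, LB hQ u₀] (by omega)
      have hbp : polar Q b p = 0 := hb 0
      have hbu : polar Q b u₀ = 0 := hb 1
      rcases nonsing_pm hQ h2 hQb hQx with h3 | h3
      · have h4 : polar Q (x + b) p = 0 := by
          rw [hQ.polar_bilinear.add_left, hxp, hbp, add_zero]
        refine ⟨x + b, hn u₀ (x + b) h h3 h4 ?_, h3, h4⟩
        rw [hQ.polar_bilinear.add_right, polar_comm Q u₀ b, hbu, add_zero]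
        exact hu₀x
      · have h4 : polar Q (x - b) p = 0 := by
          rw [sub_eq_add_neg, hQ.polar_bilinear.add_left, B_neg_left hQ, hxp, hbp, neg_zero,
            add_zero]
        refine ⟨x - b, hn u₀ (x - b) h h3 h4 ?_, h3, h4⟩
        rw [sub_eq_add_neg, hQ.polar_bilinear.add_right, B_neg_right hQ, polar_comm Q u₀ b,
          hbu, neg_zero, add_zero]
        exact hu₀x
    · exact ⟨x, hn u₀ x h hQx hxp hu₀x, hQx, hxp⟩
  have hns : ∀ a, Q a ≠ 0 → polar Q a p = 0 → T a p := by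
    intro a hQa hap
    by_cases h3 : polar Q a₀ a = 0
    · obtain ⟨v, hva, hva₀, hvp, hQv⟩ : ∃ v, polar Q v a = 0 ∧ polar Q v a₀ = 0 ∧
          polar Q v p = 0 ∧ Q a + Q a₀ + Q v ≠ 0 := by
        by_cases h4 : Q a + Q a₀ = 0
        · obtain ⟨v, hv, hQv⟩ := exists_nonsing hQ (k := 3) ![LB hQ a, LB hQ a₀, LB hQ p]
            (by omega)
          exact ⟨v, hv 0, hv 1, hv 2, by rw [h4, zero_add]; exact hQv⟩
        · exact ⟨0, B_zero_left hQ _, B_zero_left hQ _, B_zero_left hQ _, by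
            rw [Q_zero hQ, add_zero]; exact h4⟩
      have hQc : Q (a + a₀ + v) ≠ 0 := by
        have e : Q (a + a₀ + v) = Q a + Q a₀ + Q v := by
          rw [Q_add Q, Q_add Q, hQ.polar_bilinear.add_left, polar_comm Q a v, hva,
            polar_comm Q a₀ v, hva₀, polar_comm Q a a₀, h3]
          ring
        rw [e]
        exact hQv
      have hcp : polar Q (a + a₀ + v) p = 0 := by
        rw [hQ.polar_bilinear.add_left, hQ.polar_bilinear.add_left, hap, ha₀p, hvp, add_zero,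
          add_zero]
      have ha₀c : polar Q a₀ (a + a₀ + v) ≠ 0 := by
        rw [hQ.polar_bilinear.add_right, hQ.polar_bilinear.add_right, h3, B_self hQ,
          polar_comm Q a₀ v, hva₀, zero_add, add_zero]
        exact mul_ne_zero h2 hQa₀
      have hcT := hn a₀ (a + a₀ + v) ha₀T hQc hcp ha₀c
      have hca : polar Q (a + a₀ + v) a ≠ 0 := by
        rw [hQ.polar_bilinear.add_left, hQ.polar_bilinear.add_left, B_self hQ, h3, hva,
          add_zero, add_zero]
        exact mul_ne_zero h2 hQa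
      exact hn (a + a₀ + v) a hcT hQa hap hca
    · exact hn a₀ a ha₀T hQa hap h3
  intro u hup
  by_cases hQu : Q u = 0
  · rcases nonsing_pm hQ h2 hQa₀ hQu with h3 | h3
    · have s1 := hns (u + a₀) h3 (by rw [hQ.polar_bilinear.add_left, hup, ha₀p, add_zero])
      have s2 := hT.negL _ _ ha₀T
      have s3 := hT.addL _ _ _ s1 s2
      rw [add_neg_cancel_right] at s3
      exact s3
    · have s1 := hns (u - a₀) h3 (by
        rw [sub_eq_add_neg, hQ.polar_bilinear.add_left, B_neg_left hQ, hup, ha₀p, neg_zero,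
          add_zero])
      have s3 := hT.addL _ _ _ s1 ha₀T
      rw [sub_add_cancel] at s3
      exact s3
  · exact hns u hQu hup

theorem Good.all (hQ : Cfsg.Geo.IsNondegenerateQuadraticForm Q) (hodd : Odd (Fintype.card F))
    (hcard : 13 ≤ Fintype.card ι) {T : (ι → F) → (ι → F) → Prop} (hT : Good Q T)
    {u₀ p : ι → F} (h : T u₀ p) (hp : Q p ≠ 0) (hu₀ : u₀ ≠ 0) :
    ∀ u w, polar Q u w = 0 → T u w := by
  have h2 : (2 : F) ≠ 0 := two_ne_zero_of_odd hodd
  have hTf := hT.flip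
  have hp0 : p ≠ 0 := fun h' => hp (by rw [h', Q_zero hQ])
  have A : ∀ u, polar Q u p = 0 → T u p := hT.left hQ hodd hcard h hp hu₀
  have R : ∀ u w₀, T u w₀ → Q u ≠ 0 → w₀ ≠ 0 → ∀ w, polar Q u w = 0 → T u w := by
    intro u w₀ hT0 hQu hw₀ w huw
    exact hTf.left hQ hodd hcard (u₀ := w₀) (p := u) hT0 hQu hw₀ w
      (by rw [polar_comm]; exact huw)
  have Bst : ∀ w, Q w ≠ 0 → ∀ u, polar Q u w = 0 → T u w := by
    intro w hQw
    obtain ⟨u₁, hu₁, hQu₁⟩ := exists_nonsing hQ (k := 2) ![LB hQ p, LB hQ w] (by omega)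
    have hu₁p : polar Q u₁ p = 0 := hu₁ 0
    have hu₁w : polar Q u₁ w = 0 := hu₁ 1
    have s1 := A u₁ hu₁p
    have s2 := R u₁ p s1 hQu₁ hp0 w hu₁w
    have hu₁0 : u₁ ≠ 0 := fun h' => hQu₁ (by rw [h', Q_zero hQ])
    exact hT.left hQ hodd hcard s2 hQw hu₁0
  have Bst' : ∀ u, Q u ≠ 0 → ∀ w, polar Q u w = 0 → T u w := by
    intro u hQu w huw
    obtain ⟨w₁, hw₁, hQw₁⟩ := exists_nonsing hQ (k := 1) ![LB hQ u] (by omega)
    have hw₁u : polar Q w₁ u = 0 := hw₁ 0
    have s1 := Bst w₁ hQw₁ u (by rw [polar_comm]; exact hw₁u)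
    have hw₁0 : w₁ ≠ 0 := fun h' => hQw₁ (by rw [h', Q_zero hQ])
    exact R u w₁ s1 hQu hw₁0 w huw
  intro u w huw
  by_cases hQu : Q u = 0
  · obtain ⟨a, ha, hQa⟩ := exists_nonsing hQ (k := 1) ![LB hQ w] (by omega)
    have haw : polar Q a w = 0 := ha 0
    rcases nonsing_pm hQ h2 hQa hQu with h3 | h3
    · have s1 := Bst' (u + a) h3 w (by rw [hQ.polar_bilinear.add_left, huw, haw, add_zero])
      have s2 := hT.negL _ _ (Bst' a hQa w haw)
      have s3 := hT.addL _ _ _ s1 s2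
      rw [add_neg_cancel_right] at s3
      exact s3
    · have s1 := Bst' (u - a) h3 w (by
        rw [sub_eq_add_neg, hQ.polar_bilinear.add_left, B_neg_left hQ, huw, haw, neg_zero,
          add_zero])
      have s3 := hT.addL _ _ _ s1 (Bst' a hQa w haw)
      rw [sub_add_cancel] at s3
      exact s3
  · exact Bst' u hQu w huw

theorem good_TT (hQ : Cfsg.Geo.IsNondegenerateQuadraticForm Q) (hcard : 13 ≤ Fintype.card ι)
    {K : Subgroup (Matrix.GeneralLinearGroup ι F)}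
    (hK : Cfsg.Geo.quadSimilarityGroup Q ⊓ Cfsg.Geo.specialLinear ι F ≤ K) :
    Good Q (TT K (polar Q)) where
  orth := fun u w h => h.1
  addL := fun u u' w h h' => TT_addL hQ h h'
  addR := fun u w w' h h' => TT_addR hQ h h'
  negL := fun u w h => TT_negL hQ h
  negR := fun u w h => TT_negR hQ h
  swL := fun c u w h => TT_swL hQ h
  swR := fun c u w h => TT_swR hQ h
  op1 := fun u w a h hQa haw => TT_op1 hQ hcard hK h hQa haw
  op2 := fun u w a h hQa hau => TT_op2 hQ hcard hK h hQa hau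
  zL := fun w => TT_zL hQ w
  zR := fun u => TT_zR hQ u

end Closure

section Main

variable {F : Type*} [Field F] [Fintype F] {ι : Type} [Fintype ι] [DecidableEq ι]
variable {Q : (ι → F) → F}

/-- a non-similarity yields a pair of non-singular vectors in special position -/
theorem exists_init (hQ : Cfsg.Geo.IsNondegenerateQuadraticForm Q) (hodd : Odd (Fintype.card F))
    (hcard : 13 ≤ Fintype.card ι) (g : Matrix.GeneralLinearGroup ι F)
    (hg : g ∉ Cfsg.Geo.quadSimilarityGroup Q) :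
    ∃ p p₁, Q p ≠ 0 ∧ Q p₁ ≠ 0 ∧ polar Q (act g p₁) p = 0 ∧ polar Q (act g⁻¹ p) p₁ ≠ 0 := by
  have h2 : (2 : F) ≠ 0 := two_ne_zero_of_odd hodd
  by_contra hcon
  push Not at hcon
  apply hg
  have ha : ∀ p₁, Q p₁ ≠ 0 → ∀ p, polar Q (act g p₁) p = 0 → polar Q (act g⁻¹ p) p₁ = 0 := by
    intro p₁ hQp₁ p hp
    refine nonsing_span hQ h2 hcard (LB hQ (act g p₁)) (Lcomp (LB hQ p₁) g⁻¹) ?_ p ?_
    · intro x hQx hx
      exact hcon x p₁ hQx hQp₁ (by rw [polar_comm]; exact hx)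
    · show polar Q p (act g p₁) = 0
      rw [polar_comm]
      exact hp
  have hb : ∀ p p₁, polar Q (act g p₁) p = 0 → polar Q p₁ (act g⁻¹ p) = 0 := by
    intro p p₁ hp
    refine nonsing_span hQ h2 hcard (Lcomp (LB hQ p) g) (LB hQ (act g⁻¹ p)) ?_ p₁ hp
    intro x hQx hx
    show polar Q x (act g⁻¹ p) = 0
    rw [polar_comm]
    exact ha x hQx p hx
  obtain ⟨y₀, -, hQy₀⟩ := exists_nonsing hQ (k := 1) (fun _ => (0 : (ι → F) →ₗ[F] F))
    (by omega)
  have hβ : polar Q (act g (act g⁻¹ y₀)) y₀ ≠ 0 := by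
    rw [act_act_inv, B_self hQ]
    exact mul_ne_zero h2 hQy₀
  have hprop := prop_of_zero (fun x y => polar Q (act g x) y)
    (fun x y => polar Q x (act g⁻¹ y))
    (fun x x' y => by simp only [act_add, hQ.polar_bilinear.add_left])
    (fun c x y => by simp only [act_smul, hQ.polar_bilinear.smul_left])
    (fun x y y' => by simp only [hQ.polar_bilinear.add_right])
    (fun c x y => by simp only [hQ.polar_bilinear.smul_right])
    (fun x x' y => by simp only [hQ.polar_bilinear.add_left])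
    (fun c x y => by simp only [hQ.polar_bilinear.smul_left])
    (fun x y y' => by simp only [act_add, hQ.polar_bilinear.add_right])
    (fun c x y => by simp only [act_smul, hQ.polar_bilinear.smul_right])
    (fun x y h => hb y x h) (act g⁻¹ y₀) y₀ hβ
  obtain ⟨c, hc⟩ : ∃ c : F, c = polar Q (act g⁻¹ y₀) (act g⁻¹ y₀)
      / polar Q (act g (act g⁻¹ y₀)) y₀ := ⟨_, rfl⟩
  have hQc : ∀ v, Q v = c * Q (act g v) := by
    intro v
    have h3 : polar Q v (act g⁻¹ (act g v)) = c * polar Q (act g v) (act g v) := by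
      rw [hc]
      exact hprop v (act g v)
    rw [act_inv_act, B_self hQ, B_self hQ] at h3
    apply mul_left_cancel₀ h2
    linear_combination h3
  have hc0 : c ≠ 0 := by
    intro h0
    apply hQy₀
    rw [hQc y₀, h0, zero_mul]
  show ∃ c' : Fˣ, ∀ v, Q ((g : Matrix ι ι F) *ᵥ v) = (c' : F) * Q v
  refine ⟨Units.mk0 c⁻¹ (inv_ne_zero hc0), fun v => ?_⟩
  show Q (act g v) = c⁻¹ * Q v
  rw [hQc v, ← mul_assoc, inv_mul_cancel₀ hc0, one_mul]

/-- a non-similarity in `K` yields a transvection in `K` with non-singular axis vector -/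
theorem exists_pair (hQ : Cfsg.Geo.IsNondegenerateQuadraticForm Q) (hodd : Odd (Fintype.card F))
    (hcard : 13 ≤ Fintype.card ι) {K : Subgroup (Matrix.GeneralLinearGroup ι F)}
    (hK : Cfsg.Geo.quadSimilarityGroup Q ⊓ Cfsg.Geo.specialLinear ι F ≤ K)
    (g : Matrix.GeneralLinearGroup ι F) (hgK : g ∈ K)
    (hg : g ∉ Cfsg.Geo.quadSimilarityGroup Q) :
    ∃ u₀ p, TT K (polar Q) u₀ p ∧ Q p ≠ 0 ∧ u₀ ≠ 0 := by
  obtain ⟨p, p₁, hQp, hQp₁, h1, h3⟩ := exists_init hQ hodd hcard g hg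
  obtain ⟨q₁, hq₁, hQq₁⟩ := exists_nonsing hQ (k := 2)
    ![Lcomp (LB hQ p) g, LB hQ (act g⁻¹ p)] (by omega)
  have hq₁a : polar Q (act g q₁) p = 0 := hq₁ 0
  have hq₁b : polar Q q₁ (act g⁻¹ p) = 0 := hq₁ 1
  obtain ⟨q, hq, hQq⟩ := exists_nonsing hQ (k := 4)
    ![LB hQ (act g p₁), Lcomp (LB hQ p₁) g⁻¹, LB hQ (act g q₁), Lcomp (LB hQ q₁) g⁻¹]
    (by omega)
  have hqa : polar Q q (act g p₁) = 0 := hq 0
  have hqb : polar Q (act g⁻¹ q) p₁ = 0 := hq 1
  have hqc : polar Q q (act g q₁) = 0 := hq 2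
  have hqd : polar Q (act g⁻¹ q) q₁ = 0 := hq 3
  obtain ⟨r, hdr, hr⟩ := exists_refl hQ p hQp
  obtain ⟨r', hdr', hr'⟩ := exists_refl hQ q hQq
  obtain ⟨R₁, hdR₁, hR₁⟩ := exists_refl hQ p₁ hQp₁
  obtain ⟨R₁', hdR₁', hR₁'⟩ := exists_refl hQ q₁ hQq₁
  have hρ := rl_conj g hR₁
  have hρ' := rl_conj g hR₁'
  have ev : ∀ (v x : ι → F), (Lcomp ((Q v)⁻¹ • LB hQ v) g⁻¹) x
      = (Q v)⁻¹ * polar Q (act g⁻¹ x) v := by
    intro v x
    rw [Lcomp_apply, LinearMap.smul_apply, LB_apply, smul_eq_mul]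
  have ev0 : ∀ (v x : ι → F), ((Q v)⁻¹ • LB hQ v) x = (Q v)⁻¹ * polar Q x v := by
    intro v x
    rw [LinearMap.smul_apply, LB_apply, smul_eq_mul]
  have c1 : Commute r' (g * R₁ * g⁻¹) :=
    rl_comm hr' hρ (by rw [ev0, polar_comm Q (act g p₁) q, hqa, mul_zero])
      (by rw [ev, hqb, mul_zero])
  have c2 : Commute r' (g * R₁' * g⁻¹) :=
    rl_comm hr' hρ' (by rw [ev0, polar_comm Q (act g q₁) q, hqc, mul_zero])
      (by rw [ev, hqd, mul_zero])
  have c3 : Commute (g * R₁' * g⁻¹) r :=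
    rl_comm hρ' hr (by rw [ev, polar_comm Q (act g⁻¹ p) q₁, hq₁b, mul_zero])
      (by rw [ev0, hq₁a, mul_zero])
  have hLp : ((Q p)⁻¹ • LB hQ p) p = 2 := by
    rw [ev0, B_self hQ, mul_left_comm, inv_mul_cancel₀ hQp, mul_one]
  have hMc : (Lcomp ((Q p₁)⁻¹ • LB hQ p₁) g⁻¹) (act g p₁) = 2 := by
    rw [ev, act_inv_act, B_self hQ, mul_left_comm, inv_mul_cancel₀ hQp₁, mul_one]
  have hLc : ((Q p)⁻¹ • LB hQ p) (act g p₁) = 0 := by
    rw [ev0, h1, mul_zero]
  have key := rl_comm_tv hr hρ hLp hMc hLc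
  have hred := comm_reduce r r' (g * R₁ * g⁻¹) (g * R₁' * g⁻¹) c1 c2 c3
  have hs : r * r' ∈ K := refl2_mem hQ hK hQp hQq hdr hr hdr' hr'
  have hk : (g * R₁ * g⁻¹) * (g * R₁' * g⁻¹) ∈ K := by
    have e : (g * R₁ * g⁻¹) * (g * R₁' * g⁻¹) = g * (R₁ * R₁') * g⁻¹ := by group
    rw [e]
    exact K.mul_mem (K.mul_mem hgK (refl2_mem hQ hK hQp₁ hQq₁ hdR₁ hR₁ hdR₁' hR₁'))
      (K.inv_mem hgK)
  have ht : r * (g * R₁ * g⁻¹) * r⁻¹ * (g * R₁ * g⁻¹)⁻¹ ∈ K := by
    rw [← hred]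
    exact K.mul_mem (K.mul_mem (K.mul_mem hs hk) (K.inv_mem hs)) (K.inv_mem hk)
  have hκ0 : (Q p₁)⁻¹ * polar Q (act g⁻¹ p) p₁ * (Q p)⁻¹ ≠ 0 :=
    mul_ne_zero (mul_ne_zero (inv_ne_zero hQp₁) h3) (inv_ne_zero hQp)
  refine ⟨((Q p₁)⁻¹ * polar Q (act g⁻¹ p) p₁ * (Q p)⁻¹) • act g p₁, p,
    ⟨?_, _, ht, fun x => ?_⟩, hQp, ?_⟩
  · rw [hQ.polar_bilinear.smul_left, h1, mul_zero]
  · rw [key x, ev, ev0, smul_smul]
    congr 2
    ring
  · exact smul_ne_zero hκ0 (act_ne_zero g (fun h' => hQp₁ (by rw [h', Q_zero hQ])))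

theorem sl_le (hQ : Cfsg.Geo.IsNondegenerateQuadraticForm Q) (hodd : Odd (Fintype.card F))
    (hcard : 13 ≤ Fintype.card ι) (K : Subgroup (Matrix.GeneralLinearGroup ι F))
    (hK : Cfsg.Geo.quadSimilarityGroup Q ⊓ Cfsg.Geo.specialLinear ι F ≤ K)
    (g : Matrix.GeneralLinearGroup ι F) (hgK : g ∈ K)
    (hg : g ∉ Cfsg.Geo.quadSimilarityGroup Q) :
    Cfsg.Geo.specialLinear ι F ≤ K := by
  haveI : Nontrivial ι := Fintype.one_lt_card_iff_nontrivial.1 (by omega)
  obtain ⟨u₀, p, hTT₀, hQp, hu₀⟩ := exists_pair hQ hodd hcard hK g hgK hg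
  have hall : ∀ u w : ι → F, polar Q u w = 0 → TT K (polar Q) u w :=
    (good_TT hQ hcard hK).all hQ hodd hcard hTT₀ hQp hu₀
  have step4 : ∀ (i j : ι) (hij : i ≠ j) (a : F),
      Matrix.SpecialLinearGroup.toGL (Matrix.SpecialLinearGroup.transvection hij a) ∈ K := by
    intro i j hij a
    obtain ⟨w, hw⟩ := exists_riesz hQ (a • (LinearMap.proj j : (ι → F) →ₗ[F] F))
    have hw' : ∀ x : ι → F, polar Q x w = a * x j := fun x => hw x
    have h0 : polar Q (Pi.single i 1) w = 0 := by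
      rw [hw', Pi.single_apply, if_neg hij.symm, mul_zero]
    obtain ⟨-, g₁, hg₁, hgx⟩ := hall (Pi.single i 1) w h0
    have heq : Matrix.SpecialLinearGroup.toGL (Matrix.SpecialLinearGroup.transvection hij a)
        = g₁ := by
      apply act_ext
      intro x
      rw [hgx, hw']
      have hval : ((Matrix.SpecialLinearGroup.toGL
          (Matrix.SpecialLinearGroup.transvection hij a) : Matrix.GeneralLinearGroup ι F) :
            Matrix ι ι F) = 1 + Matrix.vecMulVec (Pi.single i 1) (a • Pi.single j 1) := by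
        have hs : (Matrix.single i j a : Matrix ι ι F)
            = Matrix.vecMulVec (Pi.single i 1) (a • Pi.single j 1) := by
          rw [Matrix.vecMulVec_smul, ← Matrix.single_eq_single_vecMulVec_single,
            Matrix.smul_single, smul_eq_mul, mul_one]
        rw [← hs]
        rfl
      unfold act
      rw [hval, Parab.tmat_mulVec, smul_dotProduct, single_dotProduct, one_mul, smul_eq_mul]
    rw [heq]
    exact hg₁
  have htop : K.comap (Matrix.SpecialLinearGroup.toGL :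
      Matrix.SpecialLinearGroup ι F →* Matrix.GeneralLinearGroup ι F) = ⊤ := by
    apply SLGen.eq_top_of_transvection_mem
    intro i j hij a
    exact step4 i j hij a
  intro g' hg'
  rw [Parab.mem_sl_iff] at hg'
  have h1' : ∀ s : Matrix.SpecialLinearGroup ι F, Matrix.SpecialLinearGroup.toGL s ∈ K := by
    intro s
    have h3 : s ∈ K.comap (Matrix.SpecialLinearGroup.toGL :
        Matrix.SpecialLinearGroup ι F →* Matrix.GeneralLinearGroup ι F) := by
      rw [htop]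
      exact Subgroup.mem_top _
    exact h3
  have h2 : Matrix.SpecialLinearGroup.toGL
      (⟨(g' : Matrix ι ι F), hg'⟩ : Matrix.SpecialLinearGroup ι F) = g' := Units.ext rfl
  rw [← h2]
  exact h1' _

/-- a determinant one transvection that is not a similarity -/
theorem exists_sl_not_sim (hQ : Cfsg.Geo.IsNondegenerateQuadraticForm Q)
    (hodd : Odd (Fintype.card F)) (hcard : 13 ≤ Fintype.card ι) :
    ∃ t ∈ Cfsg.Geo.specialLinear ι F, t ∉ Cfsg.Geo.quadSimilarityGroup Q := by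
  have h2 : (2 : F) ≠ 0 := two_ne_zero_of_odd hodd
  obtain ⟨u, -, hu⟩ := exists_nonsing hQ (k := 1) (fun _ => (0 : (ι → F) →ₗ[F] F)) (by omega)
  obtain ⟨w, hw, hQw⟩ := exists_nonsing hQ (k := 1) ![LB hQ u] (by omega)
  have hwu : polar Q w u = 0 := hw 0
  have huw : polar Q u w = 0 := by
    rw [polar_comm]
    exact hwu
  obtain ⟨t, hdet, hact⟩ := exists_gl hQ u w (by rw [huw, add_zero]; exact one_ne_zero)
  rw [huw, add_zero] at hdet
  refine ⟨t, (Parab.mem_sl_iff t).2 hdet, ?_⟩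
  rintro ⟨c, hc⟩
  have h1 := hc u
  change Q (act t u) = (c : F) * Q u at h1
  rw [hact, huw, zero_smul, add_zero] at h1
  have hc1 : (c : F) = 1 := by
    have h4 : (c : F) * Q u = 1 * Q u := by
      rw [one_mul]
      exact h1.symm
    exact mul_right_cancel₀ hu h4
  have h3 := hc w
  change Q (act t w) = (c : F) * Q w at h3
  rw [hact, hc1, one_mul, Q_add Q, hQ.smul, hQ.polar_bilinear.smul_right, hwu, mul_zero,
    add_zero, B_self hQ] at h3
  have h4 : (2 * Q w) ^ 2 * Q u = 0 := by linear_combination h3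
  exact mul_ne_zero (pow_ne_zero 2 (mul_ne_zero h2 hQw)) hu h4

end Main


/-- For a finite field F of odd order and n ≥ 13, let Q be a non-degenerate quadratic form on F^n (its polar form is non-degenerate). Then the elements of SL_n(F) that are similarities of Q (Q(gv) = c Q(v) for a non-zero scalar c depending on g) form a maximal subgroup of SL_n(F). -/
theorem result {F : Type*} [Field F] [Fintype F] (n : ℕ) (hn : 13 ≤ n) (hodd : Odd (Fintype.card F)) (Q : (Fin n → F) → F) (hQ : Cfsg.Geo.IsNondegenerateQuadraticForm Q) : Cfsg.Geo.IsMaximalIn (Cfsg.Geo.specialLinear (Fin n) F) (Cfsg.Geo.quadSimilarityGroup Q ⊓ Cfsg.Geo.specialLinear (Fin n) F) := by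

  have hcard : 13 ≤ Fintype.card (Fin n) := by
    rw [Fintype.card_fin]
    exact hn
  refine ⟨lt_of_le_of_ne inf_le_right ?_, fun M hHM hMK => ?_⟩
  · intro heq
    obtain ⟨t, htSL, htSim⟩ := exists_sl_not_sim hQ hodd hcard
    apply htSim
    have h1 : t ∈ Cfsg.Geo.quadSimilarityGroup Q ⊓ Cfsg.Geo.specialLinear (Fin n) F := by
      rw [heq]
      exact htSL
    exact (Subgroup.mem_inf.1 h1).1
  · by_cases hM : M ≤ Cfsg.Geo.quadSimilarityGroup Q
    · left
      exact le_antisymm (le_inf hM hMK) hHM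
    · right
      obtain ⟨g, hgM, hg⟩ := SetLike.not_le_iff_exists.1 hM
      exact le_antisymm hMK (sl_le hQ hodd hcard M hHM g hgM hg)

end Cfsg.Agent.S5644
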