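import Cfsg.Statements.S5646
import Cfsg.Agent.Helper2.SpParab2

set_option autoImplicit false
open Cfsg

namespace Cfsg.Agent.S5646

/-- For a finite field F and m ≥ 7, in the symplectic group Sp_2m(F) of the standard alternating form on F^(2m), the stabiliser of any non-zero subspace W on which the form is non-degenerate and with dim W < m is a maximal subgroup. -/
theorem result {F : Type*} [Field F] [Fintype F] (m : ℕ) (hm : 7 ≤ m) (W : Submodule F (Fin m ⊕ Fin m → F)) (hW0 : W ≠ ⊥) (hW : Cfsg.Geo.IsNondegenerateOn (Cfsg.sympForm m F) W) (hdim : Module.finrank F W < m) : Cfsg.Geo.IsMaximalIn (Cfsg.spGL m F) (Cfsg.Geo.subspaceStabilizer W ⊓ Cfsg.spGL m F) := by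
  haveI : Finite F := Finite.of_fintype F
  have hW1 : W ≠ ⊤ := by
    intro h
    rw [h, finrank_top, Helper2.SpParab.finrank_space] at hdim
    omega
  refine ⟨?_, ?_⟩
  · rw [SetLike.lt_iff_le_and_exists]
    refine ⟨inf_le_right, ?_⟩
    obtain ⟨g, hgSp, hg⟩ := Helper2.SpParab.exists_sp_not_stab2 W hW0 hW1
    exact ⟨g, hgSp, fun h => hg h.1⟩
  · intro M hM1 hM2
    by_cases hM : M ≤ Cfsg.Geo.subspaceStabilizer W
    · left
      exact le_antisymm (le_inf hM hM2) hM1
    · right
      obtain ⟨g, hgM, hg⟩ := SetLike.not_le_iff_exists.1 hM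
      exact le_antisymm hM2
        (Helper2.SpParab.sp_le_of_stab_nondeg W hW hdim M hM1 hM2 ⟨g, hgM, hg⟩)

end Cfsg.Agent.S5646
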