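import Cfsg.Statements.S5647
import Cfsg.Agent.Helper2.SpDecomp2

set_option autoImplicit false
open Cfsg

namespace Cfsg.Agent.S5647

/-- For a finite field F with q elements and m ≥ 7, let D be a decomposition of F^(2m) into t ≥ 2 pairwise orthogonal subspaces of equal dimension k on each of which the standard alternating form is non-degenerate, spanning F^(2m). Unless k = 2 and q = 2, the elements of Sp_2m(F) permuting the members of D form a maximal subgroup of Sp_2m(F). -/
theorem result {F : Type*} [Field F] [Fintype F] (m : ℕ) (hm : 7 ≤ m) {t : ℕ} (k : ℕ) (D : Fin t → Submodule F (Fin m ⊕ Fin m → F)) (hD : Cfsg.Geo.IsNondegenerateMDecomposition (Cfsg.sympForm m F) k D) (hex : ¬ (k = 2 ∧ Fintype.card F = 2)) : Cfsg.Geo.IsMaximalIn (Cfsg.spGL m F) (Cfsg.Geo.decompositionStabilizer D ⊓ Cfsg.spGL m F) := by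
  refine ⟨?_, ?_⟩
  · rw [SetLike.lt_iff_le_and_exists]
    refine ⟨inf_le_right, ?_⟩
    obtain ⟨g, hg1, hg2⟩ := Helper2.SpDecomp.exists_sp_not_decomp k D hD
    exact ⟨g, hg1, fun h => hg2 h.1⟩
  · intro M hM1 hM2
    by_cases hM : M ≤ Cfsg.Geo.decompositionStabilizer D
    · left
      exact le_antisymm (le_inf hM hM2) hM1
    · right
      obtain ⟨g, hgM, hg⟩ := SetLike.not_le_iff_exists.1 hM
      exact le_antisymm hM2
        (Helper2.SpDecomp.sp_le_of_decomp k D hD hex M hM1 hM2 ⟨g, hgM, hg⟩)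

end Cfsg.Agent.S5647
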