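import Cfsg.Statements.S5652
import Cfsg.Agent.Helper2.SpQuad

set_option autoImplicit false
open Cfsg

namespace Cfsg.Agent.S5652

/-- For a finite field F of characteristic two and m ≥ 7, let Q be a non-degenerate quadratic form on F^(2m) whose polar form is the standard alternating form. Then the elements of Sp_2m(F) that are similarities of Q (they are exactly the isometries of Q) form a maximal subgroup of Sp_2m(F). -/
theorem result {F : Type*} [Field F] [Fintype F] (m : ℕ) (hm : 7 ≤ m) (heven : ¬ Odd (Fintype.card F)) (Q : (Fin m ⊕ Fin m → F) → F) (hQ : Cfsg.Geo.IsNondegenerateQuadraticForm Q) (hpol : ∀ u v, QuadraticMap.polar Q u v = Cfsg.sympForm m F u v) : Cfsg.Geo.IsMaximalIn (Cfsg.spGL m F) (Cfsg.Geo.quadSimilarityGroup Q ⊓ Cfsg.spGL m F) := by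
  have h2F : ringChar F = 2 :=
    FiniteField.even_card_iff_char_two.2 (Nat.even_iff.1 (Nat.not_odd_iff_even.1 heven))
  have hpol' : ∀ u v : Fin m ⊕ Fin m → F, Q (u + v) = Q u + Q v + S0766.sB m F u v := by
    intro u v
    have h : Q (u + v) - Q u - Q v = Cfsg.sympForm m F u v := hpol u v
    rw [S0766.sB_apply]
    linear_combination h
  have hm3 : 3 ≤ m := by omega
  refine ⟨?_, ?_⟩
  · rw [SetLike.lt_iff_le_and_exists]
    refine ⟨inf_le_right, ?_⟩
    obtain ⟨g, hg1, hg2⟩ := Helper2.SpParab.exists_sp_not_quad hm3 h2F Q hQ.smul hpol'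
    exact ⟨g, hg1, fun h => hg2 h.1⟩
  · intro M hM1 hM2
    by_cases hM : M ≤ Cfsg.Geo.quadSimilarityGroup Q
    · left
      exact le_antisymm (le_inf hM hM2) hM1
    · right
      obtain ⟨g, hgM, hg⟩ := SetLike.not_le_iff_exists.1 hM
      exact le_antisymm hM2
        (Helper2.SpParab.sp_le_of_quad hm3 h2F Q hQ.smul hpol' M hM1 hM2 ⟨g, hgM, hg⟩)

end Cfsg.Agent.S5652
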