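import Mathlib
import Cfsg.Statements.S5676
import Cfsg.Agent.Helper4.OrthPlane
import Cfsg.Agent.S0286

set_option autoImplicit false
open Cfsg

namespace Cfsg.Agent.S5676

open Cfsg.Agent.S0286

theorem polar_eq (m : ℕ) (F : Type*) [Field F] (x y : Unit ⊕ (Fin m ⊕ Fin m) → F) :
    QuadraticMap.polar (Cfsg.quadFormOdd m F) x y = BsO m F x y := by
  unfold QuadraticMap.polar
  rw [odd_add]
  ring

theorem nondeg (m : ℕ) (F : Type*) [Field F] (h2 : (2 : F) ≠ 0) :
    Cfsg.Geo.IsNondegenerateQuadraticForm (Cfsg.quadFormOdd m F) := by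
  refine ⟨?_, ⟨?_, ?_, ?_, ?_⟩, ?_⟩
  · intro c v
    rw [odd_smul]
    ring
  · intro x y v
    rw [polar_eq, polar_eq, polar_eq, map_add, LinearMap.add_apply]
  · intro c x v
    rw [polar_eq, polar_eq, map_smul, LinearMap.smul_apply, smul_eq_mul]
  · intro v x y
    rw [polar_eq, polar_eq, polar_eq, map_add]
  · intro c v x
    rw [polar_eq, polar_eq, map_smul, smul_eq_mul]
  · intro v hv
    have h1 : ∃ y, BsO m F v y ≠ 0 := by
      by_contra hcon
      push_neg at hcon
      exact hv (odd_sep m F h2 v hcon)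
    obtain ⟨y, hy⟩ := h1
    refine ⟨⟨y, ?_⟩, ⟨y, ?_⟩⟩
    · rw [QuadraticMap.polar_comm, polar_eq]
      exact hy
    · rw [polar_eq]
      exact hy

/-- Let F be the field with 3 elements, m ≥ 6, Q the standard quadratic form on F^(2m+1) and Ω the commutator subgroup of its isometry group. Let W be a 2-dimensional subspace on which the polar form is non-degenerate and which contains a line on which Q vanishes. Then the elements of Ω stabilising W form a subgroup that is not maximal: some subgroup lies strictly between it and Ω. -/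
theorem result {F : Type*} [Field F] [Fintype F] (hq : Fintype.card F = 3) (m : ℕ) (hm : 6 ≤ m) (W : Submodule F (Unit ⊕ (Fin m ⊕ Fin m) → F)) (hdim : Module.finrank F W = 2) (hW : Cfsg.Geo.IsNondegenerateOn (QuadraticMap.polar (Cfsg.quadFormOdd m F)) W) (hplus : Cfsg.Geo.IsPlusTypeOn (Cfsg.quadFormOdd m F) W) : ∃ K : Subgroup (Matrix.GeneralLinearGroup (Unit ⊕ (Fin m ⊕ Fin m)) F), Cfsg.Geo.subspaceStabilizer W ⊓ Cfsg.Geo.omegaGL (Cfsg.quadFormOdd m F) < K ∧ K < Cfsg.Geo.omegaGL (Cfsg.quadFormOdd m F) := by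
  have h3 := Nat.cast_card_eq_zero F
  rw [hq] at h3
  have h3' : (3 : F) = 0 := by exact_mod_cast h3
  have h2 : (2 : F) ≠ 0 := by
    intro h
    have h1 : (1 : F) = 0 := by linear_combination h3' - h
    exact one_ne_zero h1
  refine Cfsg.Agent.Helper4.OrthPlane.core (Cfsg.quadFormOdd m F) (nondeg m F h2) (le_of_eq hq) ?_ W hdim hW hplus
  simp only [Fintype.card_sum, Fintype.card_fin, Fintype.card_unit]
  omega

end Cfsg.Agent.S5676
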