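import Mathlib
import Cfsg.Statements.S5686
import Cfsg.Agent.Helper4.OrthPlane
import Cfsg.Agent.Helper4.TwoFamQ

set_option autoImplicit false
open Cfsg

namespace Cfsg.Agent.S5686

open Module Matrix Cfsg.Agent.Helper4.OrthPlane Cfsg.Agent.Helper4.TwoFamQ

/-- In dimension n ≥ 13, the stabiliser in Ω⁺ of a totally singular subspace of dimension n/2 - 1 is not a maximal subgroup of Ω. -/
theorem result {F : Type*} [Field F] [Fintype F] {n : ℕ} (hn : 13 ≤ n) (heven : Even n) (Q : (Fin n → F) → F) (hQ : Cfsg.Geo.IsNondegenerateQuadraticForm Q) (hplus : Cfsg.Geo.IsPlusTypeOn Q ⊤) (W : Submodule F (Fin n → F)) (hW : Cfsg.Geo.IsTotallySingularQuad Q W) (hdim : 2 * (Module.finrank F W + 1) = n) : ∃ K : Subgroup (Matrix.GeneralLinearGroup (Fin n) F), Cfsg.Geo.subspaceStabilizer W ⊓ Cfsg.Geo.omegaGL Q < K ∧ K < Cfsg.Geo.omegaGL Q := by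
  classical
  obtain ⟨m, hm⟩ : ∃ m : ℕ, m = Module.finrank F W + 1 := ⟨_, rfl⟩
  have hcard : Fintype.card (Fin n) = 2 * m := by
    rw [Fintype.card_fin]
    omega
  have hm1 : 1 ≤ m := by omega
  have hWd : Module.finrank F W + 1 = m := hm.symm
  have hWts : ∀ w ∈ W, Q w = 0 := hW
  obtain ⟨U₀, -, hU₀ts, hU₀d⟩ := hplus
  have hU₀ : IsM Q m U₀ := by
    refine ⟨?_, hU₀ts⟩
    rw [finrank_top, Module.finrank_fin_fun] at hU₀d
    omega
  -- a singular vector orthogonal to `W` outside `W`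
  have hexx : ∃ x : Fin n → F, x ∈ U₀ ∧ (∀ a ∈ W, Bf Q hQ a x = 0) ∧ x ∉ W := by
    by_contra hcon
    push_neg at hcon
    have hle : (BF Q hQ).orthogonal (W ⊔ U₀) ≤ W ⊓ U₀ := by
      intro v hv
      have hvU : v ∈ U₀ := by
        rw [← perp_self Q hQ hcard hU₀]
        exact LinearMap.BilinForm.orthogonal_le le_sup_right hv
      have hvW : ∀ a ∈ W, Bf Q hQ a v = 0 := fun a ha => hv a (Submodule.mem_sup_left ha)
      exact Submodule.mem_inf.2 ⟨hcon v hvU hvW, hvU⟩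
    have h1 := Submodule.finrank_mono hle
    rw [finrank_perp Q hQ hcard] at h1
    have h2 := Submodule.finrank_sup_add_finrank_inf_eq W U₀
    have h3 := Submodule.finrank_le (W ⊔ U₀)
    rw [finrank_V hcard] at h3
    rw [hU₀.1] at h2
    omega
  obtain ⟨x, hxU, hxW, hxn⟩ := hexx
  have hxQ : Q x = 0 := hU₀.2 x hxU
  obtain ⟨hW₁ts, hW₁d⟩ := ext_ts Q hQ W x hWts hxQ hxn hxW
  obtain ⟨W₁, hW₁def⟩ : ∃ W₁ : Submodule F (Fin n → F), W₁ = W ⊔ Submodule.span F {x} :=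
    ⟨_, rfl⟩
  have hW₁ : IsM Q m W₁ := by
    rw [hW₁def]
    exact ⟨by rw [hW₁d, hWd], hW₁ts⟩
  have hWW₁ : W ≤ W₁ := by
    rw [hW₁def]
    exact le_sup_left
  have hxW₁ : x ∈ W₁ := by
    rw [hW₁def]
    exact Submodule.mem_sup_right (Submodule.mem_span_singleton_self x)
  -- the stabiliser of `W` in `Ω` stabilises `W₁`
  have hle : Cfsg.Geo.subspaceStabilizer W ⊓ Cfsg.Geo.omegaGL Q
      ≤ Cfsg.Geo.subspaceStabilizer W₁ ⊓ Cfsg.Geo.omegaGL Q := by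
    rintro g ⟨hgW, hgΩ⟩
    refine ⟨?_, hgΩ⟩
    have hgO := omega_le_isom Q g hgΩ
    have hgW₁ := map_isM Q hQ hW₁ g hgO
    have hpar := omega_parity Q hQ hcard hm1 hW₁ g hgΩ
    have h0 : W ≤ W₁.map (Matrix.toLin' (g : Matrix (Fin n) (Fin n) F)) := by
      have h := Submodule.map_mono (f := Matrix.toLin' (g : Matrix (Fin n) (Fin n) F)) hWW₁
      rw [map_eq_of_stab W g hgW] at h
      exact h
    have h3 := Submodule.finrank_mono (le_inf hWW₁ h0)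
    have h4 : finrank F ↥(W₁ ⊓ W₁.map (Matrix.toLin' (g : Matrix (Fin n) (Fin n) F))) ≤ m :=
      (Submodule.finrank_mono inf_le_left).trans (le_of_eq hW₁.1)
    have h5 : finrank F ↥(W₁ ⊓ W₁.map (Matrix.toLin' (g : Matrix (Fin n) (Fin n) F))) = m := by
      rcases hpar with ⟨r, hr⟩
      omega
    have h6 : W₁ ⊓ W₁.map (Matrix.toLin' (g : Matrix (Fin n) (Fin n) F)) = W₁ :=
      Submodule.eq_of_le_of_finrank_le inf_le_left (by rw [h5, hW₁.1])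
    have h7 : W₁ ≤ W₁.map (Matrix.toLin' (g : Matrix (Fin n) (Fin n) F)) := inf_eq_left.1 h6
    have h8 : W₁ = W₁.map (Matrix.toLin' (g : Matrix (Fin n) (Fin n) F)) :=
      Submodule.eq_of_le_of_finrank_le h7 (by rw [hgW₁.1, hW₁.1])
    exact stab_of_map_eq W₁ g h8.symm
  -- two independent vectors of `W`
  obtain ⟨s₂, hs₂W, v₀, hv₀W, hs₂0, hv₀0, hv₀n, hs₂n⟩ := indep_pair W (by omega)
  have hi1 : s₂ ∉ Submodule.span F {x} := by
    intro h
    obtain ⟨c, hc⟩ := Submodule.mem_span_singleton.1 h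
    have hc0 : c ≠ 0 := by
      intro h0
      rw [h0, zero_smul] at hc
      exact hs₂0 hc.symm
    have h1 : x = c⁻¹ • s₂ := by
      rw [← hc, smul_smul, inv_mul_cancel₀ hc0, one_smul]
    apply hxn
    rw [h1]
    exact W.smul_mem _ hs₂W
  have hi2 : v₀ ∉ Submodule.span F {x, s₂} := by
    intro h
    obtain ⟨a, b, hab⟩ := Submodule.mem_span_pair.1 h
    by_cases ha : a = 0
    · apply hv₀n
      rw [Submodule.mem_span_singleton]
      refine ⟨b, ?_⟩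
      rw [← hab, ha, zero_smul, zero_add]
    · have h1 : a • x ∈ W := by
        have h2 : a • x = v₀ - b • s₂ := by
          rw [← hab]
          abel
        rw [h2]
        exact W.sub_mem hv₀W (W.smul_mem _ hs₂W)
      have h3 := W.smul_mem a⁻¹ h1
      rw [smul_smul, inv_mul_cancel₀ ha, one_smul] at h3
      exact hxn h3
  have h12 : Bf Q hQ x s₂ = 0 := by
    rw [Bf_symm Q hQ x s₂]
    exact hxW s₂ hs₂W
  have h1v : Bf Q hQ x v₀ = 0 := by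
    rw [Bf_symm Q hQ x v₀]
    exact hxW v₀ hv₀W
  have h2v : Bf Q hQ s₂ v₀ = 0 := ts_ortho Q hQ hWts hs₂W hv₀W
  obtain ⟨g₁, hg₁Ω, u, hud, hg₁x⟩ := EC' Q hQ x s₂ v₀ hxQ (hWts s₂ hs₂W) (hWts v₀ hv₀W) h12 h1v
    h2v hi1 hi2
  have hg₁S : g₁ ∈ Cfsg.Geo.subspaceStabilizer W₁ := by
    apply stab_of_maps
    intro v hv
    rw [hg₁x v (ts_ortho Q hQ hW₁.2 hxW₁ hv) (ts_ortho Q hQ hW₁.2 (hWW₁ hs₂W) hv)]
    exact W₁.add_mem hv (W₁.smul_mem _ hxW₁)
  have hg₁W : g₁ ∉ Cfsg.Geo.subspaceStabilizer W := by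
    intro hmem
    have h1 := (stab_mem_iff W g₁ hmem v₀).mp hv₀W
    rw [hg₁x v₀ h1v h2v, hud, one_smul] at h1
    have h2 := W.sub_mem h1 hv₀W
    rw [add_sub_cancel_left] at h2
    exact hxn h2
  obtain ⟨g₂, hg₂Ω, y, hy, hg₂w⟩ := G2' Q hQ s₂ v₀ (hWts s₂ hs₂W) (hWts v₀ hv₀W) h2v hv₀n hs₂n
  have hg₂S : g₂ ∉ Cfsg.Geo.subspaceStabilizer W₁ := by
    intro hmem
    have h1 := (stab_mem_iff W₁ g₂ hmem s₂).mp (hWW₁ hs₂W)
    rw [hg₂w] at h1
    have h2 := W₁.sub_mem h1 (hWW₁ hs₂W)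
    rw [add_sub_cancel_left] at h2
    exact hy (hW₁.2 y h2)
  refine ⟨Cfsg.Geo.subspaceStabilizer W₁ ⊓ Cfsg.Geo.omegaGL Q, ?_, ?_⟩
  · refine lt_of_le_of_ne hle (fun heq => hg₁W ?_)
    have h5 : g₁ ∈ Cfsg.Geo.subspaceStabilizer W ⊓ Cfsg.Geo.omegaGL Q := by
      rw [heq]
      exact ⟨hg₁S, hg₁Ω⟩
    exact h5.1
  · refine lt_of_le_of_ne inf_le_right (fun heq => hg₂S ?_)
    have h5 : g₂ ∈ Cfsg.Geo.subspaceStabilizer W₁ ⊓ Cfsg.Geo.omegaGL Q := by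
      rw [heq]
      exact hg₂Ω
    exact h5.1

end Cfsg.Agent.S5686
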