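import Cfsg.Statements.S5691
import Mathlib
import Cfsg.Agent.Helper13.OmM3
import Cfsg.Agent.Helper13.OmM4
import Cfsg.Agent.Helper20.OmMa
import Cfsg.Agent.Helper1.OmMb
import Cfsg.Agent.Helper18.OmMd
import Cfsg.Agent.Helper4.OmMc
-- import your own Cfsg.Agent.* helpers here

set_option autoImplicit false
open Cfsg

namespace Cfsg.Agent.S5691

open Matrix Cfsg.Agent.Helper4.OrthPlane


/-- Let F be a finite field with q elements, n ≥ 13 even, Q a non-degenerate quadratic form on F^n (of either type), and Ω the commutator subgroup of the isometry group of Q, viewed inside GL_n(F). Suppose q is even and v is a vector with Q(v) ≠ 0. Then the elements of Ω stabilising the line spanned by v form a maximal subgroup of Ω. -/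
theorem result {F : Type*} [Field F] [Fintype F] {n : ℕ} (hn : 13 ≤ n) (heven : Even n) (Q : (Fin n → F) → F) (hQ : Cfsg.Geo.IsNondegenerateQuadraticForm Q) (hchar : ¬ Odd (Fintype.card F)) (v : (Fin n → F)) (hv : Q v ≠ 0) : Cfsg.Geo.IsMaximalIn (Cfsg.Geo.omegaGL Q) (Cfsg.Geo.subspaceStabilizer (Submodule.span F {v}) ⊓ Cfsg.Geo.omegaGL Q) := by
  have hch : (2 : F) = 0 := Cfsg.Agent.Helper13.OmM4.two_eq_zero_of_not_odd hchar
  have hcard : Fintype.card (Fin n) = n := Fintype.card_fin n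
  have hn5 : 5 ≤ Fintype.card (Fin n) := by rw [hcard]; omega
  have hn8 : 8 ≤ Fintype.card (Fin n) := by rw [hcard]; omega
  have hn9 : 9 ≤ Fintype.card (Fin n) := by rw [hcard]; omega
  obtain ⟨v₁, hv₁, hstab⟩ := Cfsg.Agent.Helper13.OmM4.mem_stab_iff Q hQ hch v hv
  have hT : ∀ a b : Fin n → F, Q a = 1 → Q b = 1 →
      ∃ g ∈ Cfsg.Geo.omegaGL Q, (g : Matrix (Fin n) (Fin n) F) *ᵥ a = b :=
    fun a b ha hb => Cfsg.Agent.Helper20.OmMa.omega_trans Q hQ hch hn5 a b ha hb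
  have hA : ∀ a b b' : Fin n → F, Q a = 1 → Q b = 1 → Q b' = 1 → b ≠ a → b' ≠ a →
      Bf Q hQ a b = Bf Q hQ a b' →
      ∃ g ∈ Cfsg.Geo.omegaGL Q, (g : Matrix (Fin n) (Fin n) F) *ᵥ a = a ∧
        (g : Matrix (Fin n) (Fin n) F) *ᵥ b = b' :=
    fun a b b' ha hb hb' h1 h2 h3 => Cfsg.Agent.Helper1.OmMb.omega_stab_trans Q hQ hch hn9 a b b' ha hb hb' h1 h2 h3
  have hTri : ∀ lam mu : F, ∃ a b c : Fin n → F, Q a = 1 ∧ Q b = 1 ∧ Q c = 1 ∧ a ≠ c ∧ c ≠ b ∧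
      a ≠ b ∧ Bf Q hQ a c = lam ∧ Bf Q hQ c b = lam ∧ Bf Q hQ a b = mu :=
    fun lam mu => Cfsg.Agent.Helper18.OmMd.triangle_of_frame Q hQ hch (Cfsg.Agent.Helper4.OmMc.exists_frame3 Q hQ hch hn8) lam mu
  have hmemH : ∀ g : GL (Fin n) F,
      g ∈ Cfsg.Geo.subspaceStabilizer (Submodule.span F {v}) ⊓ Cfsg.Geo.omegaGL Q ↔
      (g ∈ Cfsg.Geo.omegaGL Q ∧ (g : Matrix (Fin n) (Fin n) F) *ᵥ v₁ = v₁) := by
    intro g
    rw [Subgroup.mem_inf]
    constructor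
    · rintro ⟨h1, h2⟩
      exact ⟨h2, (hstab g (Cfsg.Agent.Helper13.OmM3.omega_le_iso Q h2)).mp h1⟩
    · rintro ⟨h1, h2⟩
      exact ⟨(hstab g (Cfsg.Agent.Helper13.OmM3.omega_le_iso Q h1)).mpr h2, h1⟩
  obtain ⟨a, b, c, ha, hb, hc, hac, hcb, hab, -, -, -⟩ := hTri 0 0
  obtain ⟨u, hu, huv⟩ : ∃ u : Fin n → F, Q u = 1 ∧ u ≠ v₁ := by
    by_cases h : a = v₁
    · exact ⟨c, hc, fun h' => hac (h.trans h'.symm)⟩
    · exact ⟨a, ha, h⟩
  obtain ⟨g₀, hg₀, hg₀v⟩ := hT v₁ u hv₁ hu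
  refine ⟨lt_of_le_of_ne inf_le_right ?_, ?_⟩
  · intro heq
    have h1 : g₀ ∈ Cfsg.Geo.subspaceStabilizer (Submodule.span F {v}) ⊓ Cfsg.Geo.omegaGL Q := by
      rw [heq]
      exact hg₀
    have h2 := ((hmemH g₀).mp h1).2
    rw [hg₀v] at h2
    exact huv h2
  · intro M hHM hMΩ
    by_cases hex : ∃ m ∈ M, (m : Matrix (Fin n) (Fin n) F) *ᵥ v₁ ≠ v₁
    · right
      obtain ⟨m₀, hm₀, hm₀v⟩ := hex
      apply le_antisymm hMΩ
      exact Cfsg.Agent.Helper13.OmM3.maximal_core Q hQ v₁ hv₁ hT hA hTri M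
        (fun g hg hgv => hHM ((hmemH g).mpr ⟨hg, hgv⟩)) hMΩ m₀ hm₀ hm₀v
    · left
      push_neg at hex
      apply le_antisymm
      · intro m hm
        exact (hmemH m).mpr ⟨hMΩ hm, hex m hm⟩
      · exact hHM


end Cfsg.Agent.S5691
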