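import Mathlib
import Cfsg.Statements.S5693
import Cfsg.Agent.Helper4.DecO3
import Cfsg.Agent.Helper4.DecO4

set_option autoImplicit false
open Cfsg

namespace Cfsg.Agent.S5693

open Cfsg.Agent.Helper4.DecO

/-- Let F be a finite field with q elements, n ≥ 13 even, Q a non-degenerate quadratic form on F^n of plus type (some subspace of dimension n/2 is totally singular), and Ω the commutator subgroup of the isometry group of Q, viewed inside GL_n(F). Let D be a decomposition of F^n into t ≥ 2 pairwise orthogonal, pairwise Q-isometric subspaces of equal dimension k on which the polar form is non-degenerate (with, for even k, all members of plus type or t even; for odd k, q odd and square discriminant), in one of the cases: k = 2 with q = 3; k = 2 with plus-type members and q ∈ {2, 4, 5}; k = 3 with q = 3; k = 4 with plus-type members and q = 2. Then the elements of Ω permuting the members of D form a subgroup that is not maximal: some subgroup lies strictly between it and Ω. -/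
theorem result {F : Type*} [Field F] [Fintype F] {n : ℕ} (hn : 13 ≤ n) (heven : Even n) (Q : (Fin n → F) → F) (hQ : Cfsg.Geo.IsNondegenerateQuadraticForm Q) (hplus : Cfsg.Geo.IsPlusTypeOn Q ⊤) {t : ℕ} (k : ℕ) (D : Fin t → Submodule F (Fin n → F)) (hD : Cfsg.Geo.IsOrthogonalMDecomposition Q k D) (hke : Even k → ((∀ i, Cfsg.Geo.IsPlusTypeOn Q (D i)) ∨ Even t)) (hko : Odd k → (Odd (Fintype.card F) ∧ Cfsg.Geo.HasSquareDiscriminant Q)) (hcase : ((k = 2 ∧ (Fintype.card F = 3 ∨ ((∀ i, Cfsg.Geo.IsPlusTypeOn Q (D i)) ∧ (Fintype.card F = 2 ∨ Fintype.card F = 4 ∨ Fintype.card F = 5)))) ∨ (k = 3 ∧ Fintype.card F = 3) ∨ (k = 4 ∧ Fintype.card F = 2 ∧ ∀ i, Cfsg.Geo.IsPlusTypeOn Q (D i)))) : ∃ K : Subgroup (Matrix.GeneralLinearGroup (Fin n) F), Cfsg.Geo.decompositionStabilizer D ⊓ Cfsg.Geo.omegaGL Q < K ∧ K < Cfsg.Geo.omegaGL Q := by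
  classical
  have hcard := Cfsg.Agent.Helper4.OrthFrame.card_eq D hD.decomp.decomp
  rw [Fintype.card_fin] at hcard
  rcases hcase with ⟨hk, h⟩ | ⟨hk, hq⟩ | ⟨hk, hq, hpl⟩
  · subst hk
    have ht : 7 ≤ t := by omega
    rcases h with hq | ⟨hpl, hq | hq | hq⟩
    · by_cases hall : ∀ i, Cfsg.Geo.IsPlusTypeOn Q (D i)
      · exact caseC Q hQ hq D hD hall (by omega)
      · push_neg at hall
        obtain ⟨i₀, hi₀⟩ := hall
        refine Cfsg.Agent.Helper4.OrthFrame.core2 Q hQ hq D hD ?_ (by omega)
        intro i hi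
        apply hi₀
        exact (plus_iff_sing Q hQ (D i₀) (hD.decomp.decomp.finrank_eq i₀)).mpr
          (sing_iso Q (D i) (D i₀) (hD.isometric i i₀)
            ((plus_iff_sing Q hQ (D i) (hD.decomp.decomp.finrank_eq i)).mp hi))
    · exact caseE Q hQ hq D hD hpl (by omega)
    · exact caseF Q hQ hq D hD hpl (by omega)
    · exact caseD Q hQ hq D hD hpl (by omega)
  · subst hk
    exact Cfsg.Agent.Helper4.OrthFrame.core3 Q hQ hq D hD (by omega)
  · subst hk
    exact caseG Q hQ hq D hD hpl (by omega)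

end Cfsg.Agent.S5693
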