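import Mathlib
import Cfsg.Statements.S5698
import Cfsg.Agent.Helper4.OrthPlane
import Cfsg.Agent.Helper4.OrthFrame
import Cfsg.Agent.Helper4.TwoFamQ

set_option autoImplicit false
open Cfsg

namespace Cfsg.Agent.S5698

open Module Matrix Cfsg.Agent.Helper4.OrthPlane Cfsg.Agent.Helper4.TwoFamQ

/-- In dimension n = 2k ≥ 13 with k odd, the stabiliser in Ω⁺ of a decomposition of the space into two totally singular subspaces of dimension k is not a maximal subgroup of Ω. -/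
theorem result {F : Type*} [Field F] [Fintype F] {n : ℕ} (hn : 13 ≤ n) (heven : Even n) (Q : (Fin n → F) → F) (hQ : Cfsg.Geo.IsNondegenerateQuadraticForm Q) (hplus : Cfsg.Geo.IsPlusTypeOn Q ⊤) (k : ℕ) (hk : 2 * k = n) (hko : Odd k) (D : Fin 2 → Submodule F (Fin n → F)) (hD : Cfsg.Geo.IsMDecomposition k D) (hts : ∀ i, Cfsg.Geo.IsTotallySingularQuad Q (D i)) : ∃ K : Subgroup (Matrix.GeneralLinearGroup (Fin n) F), Cfsg.Geo.decompositionStabilizer D ⊓ Cfsg.Geo.omegaGL Q < K ∧ K < Cfsg.Geo.omegaGL Q := by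
  classical
  have hcard : Fintype.card (Fin n) = 2 * k := by
    rw [Fintype.card_fin]
    omega
  have hk1 : 1 ≤ k := hD.pos
  have hk7 : 7 ≤ k := by omega
  have hD0 : IsM Q k (D 0) := ⟨hD.finrank_eq 0, hts 0⟩
  have hD1 : IsM Q k (D 1) := ⟨hD.finrank_eq 1, hts 1⟩
  have hdisj : D 0 ⊓ D 1 = ⊥ := by
    have h := hD.indep.pairwiseDisjoint (show (0 : Fin 2) ≠ 1 by decide)
    exact disjoint_iff.1 h
  have hfin2 : ∀ i : Fin 2, i ≠ 0 → i = 1 := by decide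
  -- elements of `Ω` cannot swap the two subspaces
  have hle : Cfsg.Geo.decompositionStabilizer D ⊓ Cfsg.Geo.omegaGL Q
      ≤ Cfsg.Geo.subspaceStabilizer (D 0) ⊓ Cfsg.Geo.omegaGL Q := by
    rintro g ⟨⟨σ, hσ⟩, hgΩ⟩
    refine ⟨?_, hgΩ⟩
    have hpar := omega_parity Q hQ hcard hk1 hD0 g hgΩ
    have h0 := hσ 0
    have hσ0 : σ 0 = 0 := by
      by_contra hne
      have h1 : σ 0 = 1 := hfin2 _ hne
      rw [h0, h1, hdisj, finrank_bot, Nat.sub_zero] at hpar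
      exact (Nat.not_even_iff_odd.mpr hko) hpar
    rw [hσ0] at h0
    exact stab_of_map_eq (D 0) g h0
  obtain ⟨s₁, hs₁D, s₂, hs₂D, hs₁0, hs₂0, hi1, hi1'⟩ :=
    indep_pair (D 0) (by rw [hD.finrank_eq 0]; omega)
  obtain ⟨d, hdD, hd0, hdφ⟩ := Cfsg.Agent.Helper4.OrthFrame.exists_ker_sub (D 1) 2
    ![Bf Q hQ s₁, Bf Q hQ s₂] (by rw [hD.finrank_eq 1]; omega)
  have hd1 : Bf Q hQ s₁ d = 0 := hdφ 0
  have hd2 : Bf Q hQ s₂ d = 0 := hdφ 1
  have h12 : Bf Q hQ s₁ s₂ = 0 := ts_ortho Q hQ hD0.2 hs₁D hs₂D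
  have hi2 : d ∉ Submodule.span F {s₁, s₂} := by
    intro h
    have hle' : Submodule.span F {s₁, s₂} ≤ D 0 := by
      rw [Submodule.span_le]
      intro y hy
      simp only [Set.mem_insert_iff, Set.mem_singleton_iff] at hy
      rcases hy with rfl | rfl
      · exact hs₁D
      · exact hs₂D
    have h1 : d ∈ D 0 ⊓ D 1 := Submodule.mem_inf.2 ⟨hle' h, hdD⟩
    rw [hdisj] at h1
    exact hd0 ((Submodule.mem_bot F).mp h1)
  obtain ⟨g₁, hg₁Ω, u, hud, hg₁x⟩ := EC' Q hQ s₁ s₂ d (hD0.2 s₁ hs₁D) (hD0.2 s₂ hs₂D)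
    (hD1.2 d hdD) h12 hd1 hd2 hi1 hi2
  have hg₁S : g₁ ∈ Cfsg.Geo.subspaceStabilizer (D 0) := by
    apply stab_of_maps
    intro v hv
    rw [hg₁x v (ts_ortho Q hQ hD0.2 hs₁D hv) (ts_ortho Q hQ hD0.2 hs₂D hv)]
    exact (D 0).add_mem hv ((D 0).smul_mem _ hs₁D)
  have hg₁D : g₁ ∉ Cfsg.Geo.decompositionStabilizer D := by
    rintro ⟨σ, hσ⟩
    have h0 := hσ 0
    rw [map_eq_of_stab (D 0) g₁ hg₁S] at h0
    have hσ0 : σ 0 = 0 := by
      by_contra hne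
      have h1 : σ 0 = 1 := hfin2 _ hne
      rw [h1] at h0
      have h2 : D 0 ⊓ D 1 = D 0 := by rw [← h0, inf_idem]
      rw [hdisj] at h2
      have h3 := hD.finrank_eq 0
      rw [← h2, finrank_bot] at h3
      omega
    have hσ1 : σ 1 = 1 := by
      apply hfin2
      intro h
      have h' := σ.injective (h.trans hσ0.symm)
      exact absurd h' (by decide)
    have h1 := hσ 1
    rw [hσ1] at h1
    have h2 : (g₁ : Matrix (Fin n) (Fin n) F) *ᵥ d ∈ D 1 := by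
      rw [← h1]
      exact Submodule.mem_map.2 ⟨d, hdD, Matrix.toLin'_apply _ _⟩
    rw [hg₁x d hd1 hd2, hud, one_smul] at h2
    have h3 := (D 1).sub_mem h2 hdD
    rw [add_sub_cancel_left] at h3
    have h4 : s₁ ∈ D 0 ⊓ D 1 := Submodule.mem_inf.2 ⟨hs₁D, h3⟩
    rw [hdisj] at h4
    exact hs₁0 ((Submodule.mem_bot F).mp h4)
  obtain ⟨g₂, hg₂Ω, y, hy, hg₂w⟩ := G2' Q hQ s₁ s₂ (hD0.2 s₁ hs₁D) (hD0.2 s₂ hs₂D) h12 hi1 hi1'
  have hg₂S : g₂ ∉ Cfsg.Geo.subspaceStabilizer (D 0) := by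
    intro hmem
    have h1 := (stab_mem_iff (D 0) g₂ hmem s₁).mp hs₁D
    rw [hg₂w] at h1
    have h2 := (D 0).sub_mem h1 hs₁D
    rw [add_sub_cancel_left] at h2
    exact hy (hD0.2 y h2)
  refine ⟨Cfsg.Geo.subspaceStabilizer (D 0) ⊓ Cfsg.Geo.omegaGL Q, ?_, ?_⟩
  · refine lt_of_le_of_ne hle (fun heq => hg₁D ?_)
    have h5 : g₁ ∈ Cfsg.Geo.decompositionStabilizer D ⊓ Cfsg.Geo.omegaGL Q := by
      rw [heq]
      exact ⟨hg₁S, hg₁Ω⟩
    exact h5.1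
  · refine lt_of_le_of_ne inf_le_right (fun heq => hg₂S ?_)
    have h5 : g₂ ∈ Cfsg.Geo.subspaceStabilizer (D 0) ⊓ Cfsg.Geo.omegaGL Q := by
      rw [heq]
      exact hg₂Ω
    exact h5.1

end Cfsg.Agent.S5698
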