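import Cfsg.Statements.S5938
import Cfsg.Agent.Helper18.DicksonExc
import Cfsg.Agent.S0803
-- import your own Cfsg.Agent.* helpers here

set_option autoImplicit false
open Cfsg

namespace Cfsg.Agent.S5938

/-- Let p be a prime with p ≡ ±1 (mod 8) and F a field with p elements. Then PSL_2(F) has a maximal subgroup isomorphic to the symmetric group S_4. -/
theorem result {F : Type*} [Field F] [Fintype F] (p : ℕ) [Fact p.Prime] (hF : Fintype.card F = p) (hp : p % 8 = 1 ∨ p % 8 = 7) : ∃ H : Subgroup (Matrix.ProjectiveSpecialLinearGroup (Fin 2) F), IsCoatom H ∧ Nonempty (H ≃* Equiv.Perm (Fin 4)) := by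
  have hpp : p.Prime := Fact.out
  have h16 : p ^ 2 % 16 = 1 := by
    have hpm := Nat.pow_mod p 2 16
    have h16 : p % 16 = 1 ∨ p % 16 = 7 ∨ p % 16 = 9 ∨ p % 16 = 15 := by omega
    rcases h16 with h | h | h | h <;> rw [h] at hpm <;> norm_num at hpm <;> exact hpm
  obtain ⟨H, ⟨e⟩⟩ := (Cfsg.Agent.S0803.result hF).mpr h16
  exact ⟨H, Cfsg.Agent.Helper18.Dickson.s4_coatom p hpp hF hp H e, ⟨e⟩⟩

end Cfsg.Agent.S5938
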