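import Cfsg.Statements.S5941
import Cfsg.Agent.Helper18.DicksonOver
-- import your own Cfsg.Agent.* helpers here

set_option autoImplicit false
open Cfsg

namespace Cfsg.Agent.S5941

/-- Let K and F be finite fields of odd characteristic with #F = (#K)². Then PSL_2(F) has a maximal subgroup isomorphic to PGL_2(K). -/
theorem result {F K : Type*} [Field F] [Fintype F] [Field K] [Fintype K] (q : ℕ) (hK : Fintype.card K = q) (hF : Fintype.card F = q ^ 2) (hq : Odd q) : ∃ H : Subgroup (Matrix.ProjectiveSpecialLinearGroup (Fin 2) F), IsCoatom H ∧ Nonempty (H ≃* Matrix.ProjGenLinGroup (Fin 2) K) := by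
  subst hK
  obtain ⟨f⟩ := Cfsg.Agent.S0805.exists_ringHom (F := F) (K := K) 2 (by norm_num) hF.symm
  have hFodd : Odd (Fintype.card F) := by rw [hF]; exact hq.pow
  have hsq : ∀ x : K, ∃ s : F, s * s = f x := Cfsg.Agent.S0805.all_squares f hFodd 1 hF.symm
  exact ⟨(Cfsg.Agent.S0805.psi f hsq).range, Cfsg.Agent.Helper18.Dickson.pgl_coatom f hq hF hsq,
    ⟨((QuotientGroup.quotientMulEquivOfEq (Cfsg.Agent.S0805.psi_ker f hsq)).symm.trans
      (QuotientGroup.quotientKerEquivRange (Cfsg.Agent.S0805.psi f hsq))).symm⟩⟩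

end Cfsg.Agent.S5941
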