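import Cfsg.Statements.S5943
import Cfsg.Agent.Helper18.Dickson2
-- import your own Cfsg.Agent.* helpers here

set_option autoImplicit false
open Cfsg

namespace Cfsg.Agent.S5943

/-- Let K and F be finite fields of characteristic 2 with #K = q > 2 and #F = q^r for a prime r. Then PSL_2(F) has a maximal subgroup isomorphic to PSL_2(K) (which equals PGL_2(K) in characteristic 2). -/
theorem result {F K : Type*} [Field F] [Fintype F] [Field K] [Fintype K] (q r : ℕ) (hK : Fintype.card K = q) (hF : Fintype.card F = q ^ r) (hq : Even q) (hq2 : q ≠ 2) (hr : r.Prime) : ∃ H : Subgroup (Matrix.ProjectiveSpecialLinearGroup (Fin 2) F), IsCoatom H ∧ Nonempty (H ≃* Matrix.ProjectiveSpecialLinearGroup (Fin 2) K) := by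
  subst hK
  obtain ⟨f⟩ := Cfsg.Agent.S0805.exists_ringHom (F := F) (K := K) r hr.one_lt.le hF.symm
  obtain ⟨p, hpK⟩ := CharP.exists K
  haveI := hpK
  obtain ⟨n, hpp, hcard⟩ := FiniteField.card K p
  have hp2 : p = 2 := by
    have h5 : 2 ∣ p ^ (n : ℕ) := by rw [← hcard]; exact even_iff_two_dvd.mp hq
    have h6 := Nat.Prime.dvd_of_dvd_pow Nat.prime_two h5
    exact ((Nat.prime_dvd_prime_iff_eq Nat.prime_two hpp).mp h6).symm
  subst hp2
  have h2K : (2 : K) = 0 := by
    have h5 : ((2 : ℕ) : K) = 0 := CharP.cast_eq_zero K 2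
    exact_mod_cast h5
  have h2 : (2 : F) = 0 := by
    have h5 := congrArg f h2K
    rw [map_ofNat, map_zero] at h5
    exact h5
  have hq4 : 4 ≤ Fintype.card K := by
    have hn2 : 2 ≤ (n : ℕ) := by
      have hn1 : 1 ≤ (n : ℕ) := n.pos
      rcases Nat.lt_or_ge (n : ℕ) 2 with h | h
      · exfalso
        have hn : (n : ℕ) = 1 := by omega
        rw [hn, pow_one] at hcard
        exact hq2 hcard
      · exact h
    rw [hcard]
    calc 4 = 2 ^ 2 := by norm_num
      _ ≤ 2 ^ (n : ℕ) := Nat.pow_le_pow_right (by norm_num) hn2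
  exact Cfsg.Agent.Helper18.Dickson.psl_coatom2 f r hr h2 hq4 hF

end Cfsg.Agent.S5943
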