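import Cfsg.Statements.S5952
import Mathlib

set_option autoImplicit false
open Cfsg

namespace Cfsg.Agent.S5952

section aux
variable {F V : Type*} [Field F] [AddCommGroup V] [Module F V] [FiniteDimensional F V]

theorem exists_sub_finrank (E : Submodule F V) (k : ℕ) (hk : k ≤ Module.finrank F ↥E) :
    ∃ E' : Submodule F V, E' ≤ E ∧ Module.finrank F ↥E' = k := by
  classical
  obtain ⟨b⟩ : Nonempty (Module.Basis (Fin (Module.finrank F ↥E)) F ↥E) :=
    ⟨Module.finBasis F ↥E⟩
  have h1 : LinearIndependent F (fun i : Fin k => b (Fin.castLE hk i)) :=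
    b.linearIndependent.comp _ (Fin.castLE_injective hk)
  have hli : LinearIndependent F (fun i : Fin k => ((b (Fin.castLE hk i) : ↥E) : V)) :=
    h1.map' E.subtype (Submodule.ker_subtype E)
  refine ⟨Submodule.span F (Set.range (fun i : Fin k => ((b (Fin.castLE hk i) : ↥E) : V))),
    ?_, ?_⟩
  · rw [Submodule.span_le]
    rintro _ ⟨i, rfl⟩
    exact (b (Fin.castLE hk i)).2
  · rw [finrank_span_eq_card hli, Fintype.card_fin]

theorem disj_U {s : ℕ} (U : Fin s → Submodule F V) (E : Submodule F V)
    (hind : iSupIndep (fun o : Option (Fin s) => o.elim E U)) (j : Fin s)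
    (J : Finset (Fin s)) (hj : j ∉ J) : Disjoint (U j) (⨆ i ∈ J, U i) := by
  have h := hind.disjoint_biSup (x := some j)
    (y := (fun i => some i) '' (J : Set (Fin s))) (by
      rintro ⟨i, hi, h⟩
      have h' : i = j := Option.some.inj h
      rw [h'] at hi
      exact hj hi)
  rw [iSup_image] at h
  exact h

theorem disj_E {s : ℕ} (U : Fin s → Submodule F V) (E : Submodule F V)
    (hind : iSupIndep (fun o : Option (Fin s) => o.elim E U))
    (J : Finset (Fin s)) : Disjoint E (⨆ i ∈ J, U i) := by
  have h := hind.disjoint_biSup (x := none)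
    (y := (fun i => some i) '' (J : Set (Fin s))) (by simp)
  rw [iSup_image] at h
  exact h

theorem finrank_biSup {s a : ℕ} (U : Fin s → Submodule F V) (E : Submodule F V)
    (hUdim : ∀ j, Module.finrank F ↥(U j) = a)
    (hind : iSupIndep (fun o : Option (Fin s) => o.elim E U)) (J : Finset (Fin s)) :
    Module.finrank F ↥(⨆ j ∈ J, U j) = a * J.card := by
  classical
  induction J using Finset.induction_on with
  | empty => simp
  | insert j J hj ih =>
    rw [Finset.iSup_insert, Finset.card_insert_of_notMem hj]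
    have hdis : Disjoint (U j) (⨆ i ∈ J, U i) := disj_U U E hind j J hj
    have h1 := Submodule.finrank_sup_add_finrank_inf_eq (U j) (⨆ i ∈ J, U i)
    rw [hdis.eq_bot, finrank_bot, add_zero, hUdim, ih] at h1
    rw [h1]
    ring

theorem map_biSup_le (f : V →ₗ[F] V) {s : ℕ} (U : Fin s → Submodule F V)
    (hUinv : ∀ j, (U j).map f ≤ U j) (J : Finset (Fin s)) :
    (⨆ j ∈ J, U j).map f ≤ ⨆ j ∈ J, U j := by
  rw [Submodule.map_iSup]
  apply iSup_mono
  intro j
  rw [Submodule.map_iSup]
  apply iSup_mono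
  intro _
  exact hUinv j

theorem dvd_lemma (f : V →ₗ[F] V) {s a : ℕ} (U : Fin s → Submodule F V) (E : Submodule F V)
    (hUinv : ∀ j, (U j).map f ≤ U j) (hUdim : ∀ j, Module.finrank F ↥(U j) = a)
    (hUirr : ∀ j, ∀ W : Submodule F V, W ≤ U j → W.map f ≤ W → W = ⊥ ∨ W = U j)
    (hind : iSupIndep (fun o : Option (Fin s) => o.elim E U)) (J : Finset (Fin s)) :
    ∀ R : Submodule F V, R ≤ ⨆ j ∈ J, U j → R.map f ≤ R → a ∣ Module.finrank F ↥R := by
  classical
  induction J using Finset.induction_on with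
  | empty =>
    intro R hR _
    have h0 : R = ⊥ := by simpa using hR
    rw [h0, finrank_bot]
    exact dvd_zero a
  | insert j J hj ih =>
    intro R hR hRinv
    rw [Finset.iSup_insert] at hR
    have hPinv := map_biSup_le f U hUinv J
    have hdis : Disjoint (U j) (⨆ i ∈ J, U i) := disj_U U E hind j J hj
    generalize (⨆ i ∈ J, U i) = P at hR hPinv hdis ih
    have h1 : a ∣ Module.finrank F ↥(R ⊓ P) := by
      apply ih (R ⊓ P) inf_le_right
      exact (Submodule.map_inf_le f).trans (inf_le_inf hRinv hPinv)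
    have hQinv : ((R ⊔ P) ⊓ U j).map f ≤ (R ⊔ P) ⊓ U j := by
      refine (Submodule.map_inf_le f).trans (inf_le_inf ?_ (hUinv j))
      rw [Submodule.map_sup]
      exact sup_le_sup hRinv hPinv
    have h2 : a ∣ Module.finrank F ↥((R ⊔ P) ⊓ U j) := by
      rcases hUirr j _ inf_le_right hQinv with h | h
      · rw [h, finrank_bot]
        exact dvd_zero a
      · rw [h, hUdim]
    have hmod : ((R ⊔ P) ⊓ U j) ⊔ P = R ⊔ P := by
      have h3 : R ⊔ P ≤ U j ⊔ P := sup_le hR le_sup_right
      rw [inf_sup_assoc_of_le (U j) (le_sup_right : P ≤ R ⊔ P)]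
      exact inf_eq_left.2 h3
    have e1 := Submodule.finrank_sup_add_finrank_inf_eq R P
    have e2 := Submodule.finrank_sup_add_finrank_inf_eq ((R ⊔ P) ⊓ U j) P
    have hQP : ((R ⊔ P) ⊓ U j) ⊓ P = ⊥ := (hdis.mono_left inf_le_right).eq_bot
    rw [hmod, hQP, finrank_bot, add_zero] at e2
    have e3 : Module.finrank F ↥R
        = Module.finrank F ↥((R ⊔ P) ⊓ U j) + Module.finrank F ↥(R ⊓ P) := by omega
    rw [e3]
    exact dvd_add h2 h1

end aux


/-- Which dimensions of invariant subspaces a semisimple linear map has. Let `V` be a finite-dimensional vector space over a field `F` and `f` an invertible semisimple linear map of `V`. Suppose `V` is the internal direct sum of the fixed space `C_V(f)` (the eigenspace for 1) and subspaces `U_1, …, U_s`, each `f`-invariant of dimension `a ≥ 1` on which `f` acts irreducibly (no `f`-invariant subspaces other than 0 and `U_j`). Let `0 < m < dim V` and `ℓ = m mod a`. Then `f` leaves some `m`-dimensional subspace invariant if and only if `dim C_V(f) ≥ m`, or `a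 ≤ m` and `dim C_V(f) ≥ ℓ`. -/
theorem result {F V : Type*} [Field F] [AddCommGroup V] [Module F V]
    [FiniteDimensional F V] (f : V →ₗ[F] V) (hf : Function.Bijective f) (hss : Module.End.IsSemisimple f)
    {s a : ℕ} (ha : 1 ≤ a) (U : Fin s → Submodule F V)
    (hUinv : ∀ j, (U j).map f ≤ U j) (hUdim : ∀ j, Module.finrank F ↥(U j) = a)
    (hUirr : ∀ j, ∀ W : Submodule F V, W ≤ U j → W.map f ≤ W → W = ⊥ ∨ W = U j)
    (hdec : DirectSum.IsInternal (fun o : Option (Fin s) => o.elim (Module.End.eigenspace f 1) U))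
    (m : ℕ) (hm : 0 < m) (hmV : m < Module.finrank F V) :
    (∃ W : Submodule F V, Module.finrank F ↥W = m ∧ W.map f ≤ W) ↔
    (m ≤ Module.finrank F ↥(Module.End.eigenspace f 1) ∨
      (a ≤ m ∧ m % a ≤ Module.finrank F ↥(Module.End.eigenspace f 1))) := by

  classical
  obtain ⟨E, hEdef⟩ : ∃ E : Submodule F V, E = Module.End.eigenspace f 1 := ⟨_, rfl⟩
  rw [← hEdef] at hdec ⊢
  have hind : iSupIndep (fun o : Option (Fin s) => o.elim E U) := hdec.submodule_iSupIndep
  have htop : E ⊔ ⨆ j ∈ (Finset.univ : Finset (Fin s)), U j = ⊤ := by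
    have h := hdec.submodule_iSup_eq_top
    rw [iSup_option] at h
    simpa using h
  have hEfix : ∀ v ∈ E, f v = v := by
    intro v hv
    rw [hEdef] at hv
    have h := Module.End.mem_eigenspace_iff.1 hv
    simpa using h
  have hdisjE : ∀ J : Finset (Fin s), Disjoint E (⨆ j ∈ J, U j) := fun J => disj_E U E hind J
  have hfr : ∀ J : Finset (Fin s), Module.finrank F ↥(⨆ j ∈ J, U j) = a * J.card :=
    finrank_biSup U E hUdim hind
  have hV : Module.finrank F V = Module.finrank F ↥E + a * s := by
    have h1 := Submodule.finrank_sup_add_finrank_inf_eq E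
      (⨆ j ∈ (Finset.univ : Finset (Fin s)), U j)
    rw [htop, (hdisjE _).eq_bot, finrank_bot, add_zero, finrank_top, hfr, Finset.card_univ,
      Fintype.card_fin] at h1
    exact h1
  have hPinv : ∀ J : Finset (Fin s), (⨆ j ∈ J, U j).map f ≤ ⨆ j ∈ J, U j :=
    map_biSup_le f U hUinv
  constructor
  · rintro ⟨W, hWm, hWinv⟩
    obtain ⟨g, hg⟩ : ∃ g : V →ₗ[F] V, g = f - LinearMap.id := ⟨_, rfl⟩
    have hgE : ∀ v, v ∈ E ↔ g v = 0 := by
      intro v
      rw [hEdef, Module.End.mem_eigenspace_iff, hg, LinearMap.sub_apply, LinearMap.id_apply,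
        one_smul, sub_eq_zero]
    have hker : W ⊓ LinearMap.ker g = W ⊓ E := by
      ext v
      simp only [Submodule.mem_inf, LinearMap.mem_ker, hgE]
    have hrn : Module.finrank F ↥(W.map g) + Module.finrank F ↥(W ⊓ E) = m := by
      have h1 := LinearMap.finrank_range_add_finrank_ker (g.domRestrict W)
      rw [LinearMap.range_domRestrict, LinearMap.ker_domRestrict, hWm] at h1
      rw [← Submodule.finrank_map_subtype_eq W ((LinearMap.ker g).comap W.subtype),
        Submodule.map_comap_subtype, hker] at h1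
      exact h1
    have hRinv : (W.map g).map f ≤ W.map g := by
      rintro _ ⟨_, ⟨w, hw, rfl⟩, rfl⟩
      refine ⟨f w, hWinv ⟨w, hw, rfl⟩, ?_⟩
      rw [hg]
      simp
    have hRP : W.map g ≤ ⨆ j ∈ (Finset.univ : Finset (Fin s)), U j := by
      rintro _ ⟨w, -, rfl⟩
      have hw : w ∈ E ⊔ ⨆ j ∈ (Finset.univ : Finset (Fin s)), U j := by
        rw [htop]
        exact Submodule.mem_top
      obtain ⟨x, hx, y, hy, rfl⟩ := Submodule.mem_sup.1 hw
      have h1 : g x = 0 := (hgE x).1 hx
      have h2 : g y = f y - y := by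
        rw [hg]
        simp
      rw [map_add, h1, zero_add, h2]
      exact Submodule.sub_mem _ (hPinv _ ⟨y, hy, rfl⟩) hy
    obtain ⟨r, hr⟩ := dvd_lemma f U E hUinv hUdim hUirr hind Finset.univ (W.map g) hRP hRinv
    have hle : Module.finrank F ↥(W ⊓ E) ≤ Module.finrank F ↥E :=
      Submodule.finrank_mono inf_le_right
    by_cases hr0 : r = 0
    · left
      rw [hr0, mul_zero] at hr
      omega
    · right
      have hr1 : 1 ≤ r := Nat.one_le_iff_ne_zero.2 hr0
      have ha_le : a ≤ a * r := Nat.le_mul_of_pos_right a hr1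
      refine ⟨by omega, ?_⟩
      have hm_eq : m = Module.finrank F ↥(W ⊓ E) + a * r := by omega
      rw [hm_eq, Nat.add_mul_mod_self_left]
      exact (Nat.mod_le _ _).trans hle
  · intro hcond
    obtain ⟨t, k, hts, hke, hmk⟩ : ∃ t k : ℕ, t ≤ s ∧ k ≤ Module.finrank F ↥E ∧
        m = a * t + k := by
      by_cases h1 : m ≤ Module.finrank F ↥E
      · exact ⟨0, m, Nat.zero_le _, h1, by simp⟩
      · have h2 : a ≤ m ∧ m % a ≤ Module.finrank F ↥E := by
          rcases hcond with h | h
          · exact absurd h h1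
          · exact h
        by_cases h3 : m / a ≤ s
        · exact ⟨m / a, m % a, h3, h2.2, (Nat.div_add_mod m a).symm⟩
        · have h4 : a * s ≤ m := by
            have h5 : s ≤ m / a := by omega
            have h6 : a * (m / a) ≤ m := Nat.mul_div_le m a
            have h7 : a * s ≤ a * (m / a) := Nat.mul_le_mul_left a h5
            omega
          refine ⟨s, m - a * s, le_refl _, ?_, ?_⟩
          · omega
          · omega
    obtain ⟨J, -, hJ⟩ := Finset.exists_subset_card_eq
      (s := (Finset.univ : Finset (Fin s))) (n := t) (by simpa using hts)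
    obtain ⟨E', hE'E, hE'k⟩ := exists_sub_finrank E k hke
    refine ⟨E' ⊔ ⨆ j ∈ J, U j, ?_, ?_⟩
    · have h1 := Submodule.finrank_sup_add_finrank_inf_eq E' (⨆ j ∈ J, U j)
      have hd : Disjoint E' (⨆ j ∈ J, U j) := (hdisjE J).mono_left hE'E
      rw [hd.eq_bot, finrank_bot, add_zero, hE'k, hfr, hJ] at h1
      rw [h1, hmk]
      ring
    · rw [Submodule.map_sup]
      apply sup_le_sup
      · rintro _ ⟨v, hv, rfl⟩
        rw [hEfix v (hE'E hv)]
        exact hv
      · exact hPinv J

end Cfsg.Agent.S5952
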