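import Mathlib
import Cfsg.Statements.S5957
-- import your own Cfsg.Agent.* helpers here

set_option autoImplicit false
open scoped MatrixGroups
open Cfsg

namespace Cfsg.Agent.S5957


section lin
variable {F V : Type*} [Field F] [AddCommGroup V] [Module F V] [FiniteDimensional F V]

/-- Structure of a linear map with `T ∘ T = z`: a basis permuted (up to scalars) by an involution. -/
theorem struct_aux (T : V →ₗ[F] V) (z : F) (hz : z ≠ 0) (hT : ∀ v, T (T v) = z • v) :
    ∀ d : ℕ, ∀ U : Submodule F V, (∀ v ∈ U, T v ∈ U) → Module.finrank F U = d →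
      ∃ (ι : Type) (_ : Fintype ι) (b : ι → V) (π : ι → ι) (c : ι → F),
        LinearIndependent F b ∧ Submodule.span F (Set.range b) = U ∧
        (∀ i, π (π i) = i) ∧ (∀ i, T (b i) = c i • b (π i)) := by
  intro d
  induction d using Nat.strong_induction_on with
  | _ d ih =>
    intro U hU hd
    by_cases hall : ∀ v ∈ U, ∃ c : F, T v = c • v
    · choose! cf hcf using hall
      let bU := Module.finBasis F U
      refine ⟨Fin (Module.finrank F U), inferInstance, fun i => (bU i : V), id,
        fun i => cf (bU i : V), ?_, ?_, fun i => rfl, fun i => hcf _ (bU i).2⟩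
      · exact bU.linearIndependent.map' U.subtype (Submodule.ker_subtype U)
      · have h1 : Set.range (fun i => (bU i : V)) = U.subtype '' Set.range bU := by
          rw [← Set.range_comp]; rfl
        rw [h1, ← Submodule.map_span, bU.span_eq, Submodule.map_top, Submodule.range_subtype]
    · push Not at hall
      obtain ⟨u₀, hu₀U, hu₀⟩ := hall
      have hnot : u₀ ∉ Submodule.span F ({T u₀} : Set V) := by
        intro hmem
        rw [Submodule.mem_span_singleton] at hmem
        obtain ⟨α, hα⟩ := hmem
        have hα0 : α ≠ 0 := by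
          rintro rfl
          rw [zero_smul] at hα
          exact hu₀ 0 (by rw [← hα]; simp)
        have hTu : T u₀ = α⁻¹ • u₀ := by
          calc T u₀ = α⁻¹ • (α • T u₀) := by rw [smul_smul, inv_mul_cancel₀ hα0, one_smul]
            _ = α⁻¹ • u₀ := by rw [hα]
        exact hu₀ α⁻¹ hTu
      obtain ⟨f, hf1, hf2⟩ := Submodule.exists_dual_map_eq_bot_of_notMem hnot inferInstance
      have hfT : f (T u₀) = 0 := by
        have h : f (T u₀) ∈ (Submodule.span F ({T u₀} : Set V)).map f :=
          Submodule.mem_map_of_mem (Submodule.subset_span (Set.mem_singleton _))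
        rw [hf2] at h
        simpa using h
      obtain ⟨φ, hφ1, hφT⟩ : ∃ φ : V →ₗ[F] F, φ u₀ = 1 ∧ φ (T u₀) = 0 :=
        ⟨(f u₀)⁻¹ • f, by simp [hf1], by simp [hfT]⟩
      obtain ⟨U', hU'mem⟩ : ∃ U' : Submodule F V,
          ∀ v, v ∈ U' ↔ v ∈ U ∧ φ v = 0 ∧ φ (T v) = 0 :=
        ⟨U ⊓ (LinearMap.ker φ ⊓ LinearMap.ker (φ ∘ₗ T)), fun v => by
          simp [Submodule.mem_inf, LinearMap.mem_ker]⟩
      have hU'le : U' ≤ U := fun v hv => ((hU'mem v).1 hv).1
      have hU'inv : ∀ v ∈ U', T v ∈ U' := by
        intro v hv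
        rw [hU'mem] at hv ⊢
        refine ⟨hU v hv.1, hv.2.2, ?_⟩
        rw [hT, map_smul, hv.2.1, smul_zero]
      have hTu₀U : T u₀ ∈ U := hU u₀ hu₀U
      have hlt : U' < U := by
        refine lt_of_le_of_ne hU'le ?_
        intro h
        have h' : u₀ ∈ U' := by rw [h]; exact hu₀U
        rw [hU'mem, hφ1] at h'
        exact one_ne_zero h'.2.1
      have hfr : Module.finrank F U' < d := by
        rw [← hd]; exact Submodule.finrank_lt_finrank_of_lt hlt
      obtain ⟨ι', hι', b', π', c', hb', hspan', hπ', hTb'⟩ := ih _ hfr U' hU'inv rfl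
      haveI := hι'
      have hpair_li : LinearIndependent F ![u₀, T u₀] := by
        rw [LinearIndependent.pair_iff]
        intro s t hst
        have h1 : s = 0 := by
          have h := congrArg φ hst
          simpa [hφ1, hφT] using h
        have h2 : t = 0 := by
          have h := congrArg (fun v => φ (T v)) hst
          simp only [map_add, map_smul, hT, hφ1, hφT, smul_eq_mul, mul_zero, mul_one,
            zero_add, map_zero] at h
          rcases mul_eq_zero.1 h with h | h
          · exact h
          · exact absurd h hz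
        exact ⟨h1, h2⟩
      have hrange : Set.range ![u₀, T u₀] = ({u₀, T u₀} : Set V) := by
        ext v
        simp only [Set.mem_range, Set.mem_insert_iff, Set.mem_singleton_iff]
        constructor
        · rintro ⟨i, rfl⟩
          revert i
          exact Fin.forall_fin_two.2 ⟨Or.inl rfl, Or.inr rfl⟩
        · rintro (rfl | rfl)
          · exact ⟨0, rfl⟩
          · exact ⟨1, rfl⟩
      have hdisj : Disjoint (Submodule.span F (Set.range ![u₀, T u₀]))
          (Submodule.span F (Set.range b')) := by
        rw [hspan', hrange, Submodule.disjoint_def]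
        intro v hv hv'
        rw [Submodule.mem_span_pair] at hv
        obtain ⟨α, β, rfl⟩ := hv
        rw [hU'mem] at hv'
        obtain ⟨-, h1, h2⟩ := hv'
        have hα : α = 0 := by simpa [hφ1, hφT] using h1
        have hβ : β = 0 := by
          simp only [map_add, map_smul, hT, hφ1, hφT, smul_eq_mul, mul_zero, mul_one,
            zero_add] at h2
          rcases mul_eq_zero.1 h2 with h | h
          · exact h
          · exact absurd h hz
        rw [hα, hβ]; simp
      have hsup : Submodule.span F (Set.range ![u₀, T u₀]) ⊔ Submodule.span F (Set.range b')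
          = U := by
        rw [hspan', hrange]
        apply le_antisymm
        · refine sup_le ?_ hU'le
          rw [Submodule.span_le]
          rintro v (rfl | rfl)
          · exact hu₀U
          · exact hTu₀U
        · intro v hv
          rw [Submodule.mem_sup]
          refine ⟨φ v • u₀ + (φ (T v) * z⁻¹) • T u₀, ?_,
            v - (φ v • u₀ + (φ (T v) * z⁻¹) • T u₀), ?_, by abel⟩
          · rw [Submodule.mem_span_pair]; exact ⟨_, _, rfl⟩
          · rw [hU'mem]
            refine ⟨U.sub_mem hv (U.add_mem (U.smul_mem _ hu₀U) (U.smul_mem _ hTu₀U)), ?_, ?_⟩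
            · simp [hφ1, hφT]
            · have e1 : φ (T (v - (φ v • u₀ + (φ (T v) * z⁻¹) • T u₀)))
                  = φ (T v) - (φ v * φ (T u₀) + (φ (T v) * z⁻¹) * φ (T (T u₀))) := by
                simp only [map_sub, map_add, map_smul, smul_eq_mul]
              rw [e1, hT, map_smul, hφ1, hφT, smul_eq_mul, mul_zero, zero_add, mul_one,
                inv_mul_cancel_right₀ hz, sub_self]
      refine ⟨Fin 2 ⊕ ι', inferInstance, Sum.elim ![u₀, T u₀] b',
        Sum.elim (fun i => Sum.inl (Equiv.swap 0 1 i)) (fun i => Sum.inr (π' i)),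
        Sum.elim ![1, z] c', hpair_li.sum_type hb' hdisj, ?_, ?_, ?_⟩
      · rw [Set.Sum.elim_range, Submodule.span_union, hsup]
      · rintro (i | i)
        · simp
        · simp [hπ']
      · rintro (i | i)
        · simp only [Sum.elim_inl]
          revert i
          exact Fin.forall_fin_two.2 ⟨by simp, by simp [hT]⟩
        · simpa using hTb' i

end lin

section comb
variable {ι : Type*} [LinearOrder ι]

/-- An involution on a finite set of size `a * t` preserves a partition into `t` blocks of size `a`. -/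
theorem comb_aux (a : ℕ) (ha : 1 ≤ a) (π : ι → ι) (hπ : ∀ i, π (π i) = i) :
    ∀ t : ℕ, ∀ S : Finset ι, (∀ i ∈ S, π i ∈ S) → S.card = a * t →
      ∃ (β : ι → ℕ) (σ : ℕ → ℕ), (∀ i ∈ S, β i < t) ∧
        (∀ j < t, (S.filter (fun i => β i = j)).card = a) ∧
        (∀ i ∈ S, β (π i) = σ (β i)) := by
  intro t
  induction t using Nat.strong_induction_on with
  | _ t ih =>
    intro S hS hcard
    rcases Nat.eq_zero_or_pos t with rfl | htpos
    · have hS0 : S = ∅ := Finset.card_eq_zero.1 (by rw [hcard, Nat.mul_zero])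
      subst hS0
      exact ⟨fun _ => 0, id, fun i hi => by simp at hi,
        fun j hj => absurd hj (Nat.not_lt_zero j), fun i hi => by simp at hi⟩
    have hπinj : Function.Injective π := fun x y h => by
      have h' := congrArg π h; rwa [hπ, hπ] at h'
    -- one invariant block
    have ext1 : ∀ B : Finset ι, B ⊆ S → B.card = a → (∀ i ∈ B, π i ∈ B) →
        ∃ (β : ι → ℕ) (σ : ℕ → ℕ), (∀ i ∈ S, β i < t) ∧
        (∀ j < t, (S.filter (fun i => β i = j)).card = a) ∧
        (∀ i ∈ S, β (π i) = σ (β i)) := by
      intro B hBS hBc hBπ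
      have hS' : ∀ i ∈ S \ B, π i ∈ S \ B := by
        intro i hi
        rw [Finset.mem_sdiff] at hi ⊢
        refine ⟨hS i hi.1, fun h => hi.2 ?_⟩
        have h' := hBπ _ h
        rwa [hπ] at h'
      have hc' : (S \ B).card = a * (t - 1) := by
        rw [Finset.card_sdiff_of_subset hBS, hcard, hBc, Nat.mul_sub_one]
      obtain ⟨β', σ', h1, h2, h3⟩ := ih (t - 1) (by omega) (S \ B) hS' hc'
      obtain ⟨β, hβ⟩ : ∃ β : ι → ℕ, ∀ i, β i = if i ∈ B then t - 1 else β' i :=
        ⟨_, fun _ => rfl⟩
      obtain ⟨σ, hσ⟩ : ∃ σ : ℕ → ℕ, ∀ j, σ j = if j = t - 1 then t - 1 else σ' j :=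
        ⟨_, fun _ => rfl⟩
      have hβB : ∀ i ∈ B, β i = t - 1 := fun i hi => by rw [hβ, if_pos hi]
      have hβrest : ∀ i ∈ S, i ∉ B → β i = β' i ∧ β' i < t - 1 := fun i hi h1' => by
        rw [hβ, if_neg h1']
        exact ⟨rfl, h1 i (Finset.mem_sdiff.2 ⟨hi, h1'⟩)⟩
      refine ⟨β, σ, ?_, ?_, ?_⟩
      · intro i hi
        by_cases hiB : i ∈ B
        · rw [hβB i hiB]; omega
        · have h := hβrest i hi hiB; omega
      · intro j hj
        by_cases hj1 : j = t - 1
        · have hfil : S.filter (fun i => β i = j) = B := by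
            ext i
            rw [Finset.mem_filter]
            constructor
            · rintro ⟨hi, hβi⟩
              by_contra hiB
              have h := hβrest i hi hiB; omega
            · intro hiB
              exact ⟨hBS hiB, by rw [hβB i hiB, hj1]⟩
          rw [hfil, hBc]
        · have hfil : S.filter (fun i => β i = j) = (S \ B).filter (fun i => β' i = j) := by
            ext i
            rw [Finset.mem_filter, Finset.mem_filter, Finset.mem_sdiff]
            constructor
            · rintro ⟨hi, hβi⟩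
              by_cases hiB : i ∈ B
              · rw [hβB i hiB] at hβi; omega
              · have h := hβrest i hi hiB
                exact ⟨⟨hi, hiB⟩, by omega⟩
            · rintro ⟨⟨hi, hiB⟩, hβi⟩
              have h := hβrest i hi hiB
              exact ⟨hi, by omega⟩
          rw [hfil]
          exact h2 j (by omega)
      · intro i hi
        by_cases hiB : i ∈ B
        · rw [hβB i hiB, hβB _ (hBπ i hiB), hσ, if_pos rfl]
        · have hπB : π i ∉ B := fun h => hiB (by have h' := hBπ _ h; rwa [hπ] at h')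
          have e1 := hβrest i hi hiB
          have e2 := hβrest (π i) (hS i hi) hπB
          rw [e1.1, e2.1, hσ, if_neg (by omega)]
          exact h3 i (Finset.mem_sdiff.2 ⟨hi, hiB⟩)
    -- two swapped blocks
    have ext2 : 2 ≤ t → ∀ B : Finset ι, B ⊆ S → B.card = a → (∀ i ∈ B, π i ∉ B) →
        ∃ (β : ι → ℕ) (σ : ℕ → ℕ), (∀ i ∈ S, β i < t) ∧
        (∀ j < t, (S.filter (fun i => β i = j)).card = a) ∧
        (∀ i ∈ S, β (π i) = σ (β i)) := by
      intro ht2 B hBS hBc hBπ
      obtain ⟨B₂, hB₂⟩ : ∃ B₂, B₂ = B.image π := ⟨_, rfl⟩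
      have hB₂mem : ∀ i, i ∈ B₂ ↔ π i ∈ B := by
        intro i
        rw [hB₂, Finset.mem_image]
        constructor
        · rintro ⟨j, hj, rfl⟩; rwa [hπ]
        · intro h; exact ⟨π i, h, hπ i⟩
      have hB₂S : B₂ ⊆ S := by
        intro i hi
        have h := hS _ (hBS ((hB₂mem i).1 hi))
        rwa [hπ] at h
      have hB₂c : B₂.card = a := by
        rw [hB₂, Finset.card_image_of_injective _ hπinj, hBc]
      have hdisj : Disjoint B B₂ := by
        rw [Finset.disjoint_left]
        intro i hi hi'
        exact hBπ i hi ((hB₂mem i).1 hi')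
      have hS' : ∀ i ∈ S \ (B ∪ B₂), π i ∈ S \ (B ∪ B₂) := by
        intro i hi
        rw [Finset.mem_sdiff, Finset.mem_union] at hi ⊢
        refine ⟨hS i hi.1, ?_⟩
        rintro (h | h)
        · exact hi.2 (Or.inr ((hB₂mem i).2 h))
        · exact hi.2 (Or.inl (by have h' := (hB₂mem _).1 h; rwa [hπ] at h'))
      have hc' : (S \ (B ∪ B₂)).card = a * (t - 2) := by
        rw [Finset.card_sdiff_of_subset (Finset.union_subset hBS hB₂S),
          Finset.card_union_of_disjoint hdisj, hcard, hBc, hB₂c, Nat.mul_sub]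
        omega
      obtain ⟨β', σ', h1, h2, h3⟩ := ih (t - 2) (by omega) _ hS' hc'
      obtain ⟨β, hβ⟩ : ∃ β : ι → ℕ,
          ∀ i, β i = if i ∈ B then t - 1 else if i ∈ B₂ then t - 2 else β' i :=
        ⟨_, fun _ => rfl⟩
      obtain ⟨σ, hσ⟩ : ∃ σ : ℕ → ℕ,
          ∀ j, σ j = if j = t - 1 then t - 2 else if j = t - 2 then t - 1 else σ' j :=
        ⟨_, fun _ => rfl⟩
      have hβB : ∀ i ∈ B, β i = t - 1 := fun i hi => by rw [hβ, if_pos hi]
      have hβB₂ : ∀ i ∈ B₂, β i = t - 2 := fun i hi => by
        rw [hβ, if_neg (fun h => Finset.disjoint_left.1 hdisj h hi), if_pos hi]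
      have hβrest : ∀ i ∈ S, i ∉ B → i ∉ B₂ → β i = β' i ∧ β' i < t - 2 :=
        fun i hi h1' h2' => by
          rw [hβ, if_neg h1', if_neg h2']
          exact ⟨rfl, h1 i (Finset.mem_sdiff.2 ⟨hi, by rw [Finset.mem_union]; tauto⟩)⟩
      refine ⟨β, σ, ?_, ?_, ?_⟩
      · intro i hi
        by_cases hiB : i ∈ B
        · rw [hβB i hiB]; omega
        · by_cases hiB₂ : i ∈ B₂
          · rw [hβB₂ i hiB₂]; omega
          · have h := hβrest i hi hiB hiB₂; omega
      · intro j hj
        by_cases hj1 : j = t - 1
        · have hfil : S.filter (fun i => β i = j) = B := by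
            ext i
            rw [Finset.mem_filter]
            constructor
            · rintro ⟨hi, hβi⟩
              by_contra hiB
              by_cases hiB₂ : i ∈ B₂
              · rw [hβB₂ i hiB₂] at hβi; omega
              · have h := hβrest i hi hiB hiB₂; omega
            · intro hiB
              exact ⟨hBS hiB, by rw [hβB i hiB, hj1]⟩
          rw [hfil, hBc]
        · by_cases hj2 : j = t - 2
          · have hfil : S.filter (fun i => β i = j) = B₂ := by
              ext i
              rw [Finset.mem_filter]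
              constructor
              · rintro ⟨hi, hβi⟩
                by_contra hiB₂
                by_cases hiB : i ∈ B
                · rw [hβB i hiB] at hβi; omega
                · have h := hβrest i hi hiB hiB₂; omega
              · intro hiB₂
                exact ⟨hB₂S hiB₂, by rw [hβB₂ i hiB₂, hj2]⟩
            rw [hfil, hB₂c]
          · have hfil : S.filter (fun i => β i = j)
                = (S \ (B ∪ B₂)).filter (fun i => β' i = j) := by
              ext i
              rw [Finset.mem_filter, Finset.mem_filter, Finset.mem_sdiff, Finset.mem_union]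
              constructor
              · rintro ⟨hi, hβi⟩
                by_cases hiB : i ∈ B
                · rw [hβB i hiB] at hβi; omega
                · by_cases hiB₂ : i ∈ B₂
                  · rw [hβB₂ i hiB₂] at hβi; omega
                  · have h := hβrest i hi hiB hiB₂
                    exact ⟨⟨hi, by tauto⟩, by omega⟩
              · rintro ⟨⟨hi, hnot⟩, hβi⟩
                have h := hβrest i hi (fun h => hnot (Or.inl h)) (fun h => hnot (Or.inr h))
                exact ⟨hi, by omega⟩
            rw [hfil]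
            exact h2 j (by omega)
      · intro i hi
        by_cases hiB : i ∈ B
        · have hπ2 : π i ∈ B₂ := (hB₂mem _).2 (by rwa [hπ])
          rw [hβB i hiB, hβB₂ _ hπ2, hσ, if_pos rfl]
        · by_cases hiB₂ : i ∈ B₂
          · have hπ1 : π i ∈ B := (hB₂mem i).1 hiB₂
            rw [hβB₂ i hiB₂, hβB _ hπ1, hσ, if_neg (by omega), if_pos rfl]
          · have hπB : π i ∉ B := fun h => hiB₂ ((hB₂mem i).2 h)
            have hπB₂ : π i ∉ B₂ := fun h => hiB (by
              have h' := (hB₂mem _).1 h; rwa [hπ] at h')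
            have e1 := hβrest i hi hiB hiB₂
            have e2 := hβrest (π i) (hS i hi) hπB hπB₂
            rw [e1.1, e2.1, hσ, if_neg (by omega), if_neg (by omega)]
            exact h3 i (Finset.mem_sdiff.2 ⟨hi, by rw [Finset.mem_union]; tauto⟩)
    -- orbit structure of π on S
    obtain ⟨R, hR⟩ : ∃ R, R = S.filter (fun i => i < π i) := ⟨_, rfl⟩
    obtain ⟨R', hR'⟩ : ∃ R', R' = S.filter (fun i => π i < i) := ⟨_, rfl⟩
    obtain ⟨Fx, hFx⟩ : ∃ Fx, Fx = S.filter (fun i => π i = i) := ⟨_, rfl⟩
    have himg : R.image π = R' := by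
      ext i
      simp only [hR, hR', Finset.mem_image, Finset.mem_filter]
      constructor
      · rintro ⟨j, ⟨hjS, hj⟩, rfl⟩
        exact ⟨hS j hjS, by rwa [hπ]⟩
      · rintro ⟨hiS, hi⟩
        exact ⟨π i, ⟨hS i hiS, by rwa [hπ]⟩, hπ i⟩
    have hcardR' : R'.card = R.card := by
      rw [← himg, Finset.card_image_of_injective _ hπinj]
    have hdRR' : Disjoint R R' := by
      rw [Finset.disjoint_left]
      intro i hi hi'
      simp only [hR, hR', Finset.mem_filter] at hi hi'
      exact lt_asymm hi.2 hi'.2
    have hdRF : Disjoint R Fx := by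
      rw [Finset.disjoint_left]
      intro i hi hi'
      simp only [hR, hFx, Finset.mem_filter] at hi hi'
      exact (ne_of_gt hi.2) hi'.2
    have hdR'F : Disjoint R' Fx := by
      rw [Finset.disjoint_left]
      intro i hi hi'
      simp only [hR', hFx, Finset.mem_filter] at hi hi'
      exact (ne_of_lt hi.2) hi'.2
    have hunion : S = R ∪ R' ∪ Fx := by
      ext i
      simp only [hR, hR', hFx, Finset.mem_union, Finset.mem_filter]
      constructor
      · intro hi
        rcases lt_trichotomy i (π i) with h | h | h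
        · exact Or.inl (Or.inl ⟨hi, h⟩)
        · exact Or.inr ⟨hi, h.symm⟩
        · exact Or.inl (Or.inr ⟨hi, h⟩)
      · rintro ((h | h) | h) <;> exact h.1
    obtain ⟨k, hk⟩ : ∃ k, k = R.card := ⟨_, rfl⟩
    obtain ⟨m, hm⟩ : ∃ m, m = Fx.card := ⟨_, rfl⟩
    have hcount : 2 * k + m = a * t := by
      have h : S.card = R.card + R'.card + Fx.card := by
        conv_lhs => rw [hunion]
        rw [Finset.card_union_of_disjoint (Finset.disjoint_union_left.2 ⟨hdRF, hdR'F⟩),
          Finset.card_union_of_disjoint hdRR']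
      omega
    by_cases hcase : a % 2 = 1 ∧ m = 0
    · obtain ⟨hodd, hm0⟩ := hcase
      have ht2 : 2 ≤ t ∧ a ≤ k := by
        obtain ⟨t₂, ht₂ | ht₂⟩ := Nat.even_or_odd' t
        · have e1 : a * t = 2 * (a * t₂) := by rw [ht₂]; ring
          have e2 : 1 ≤ t₂ := by omega
          have e3 : a ≤ a * t₂ := Nat.le_mul_of_pos_right a e2
          omega
        · have e1 : a * t = 2 * (a * t₂) + a := by rw [ht₂]; ring
          omega
      obtain ⟨B, hBR, hBc⟩ := Finset.exists_subset_card_eq (show a ≤ R.card by omega)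
      have hBmem : ∀ i ∈ B, i ∈ S ∧ i < π i := fun i hi => by
        have h := hBR hi; rw [hR, Finset.mem_filter] at h; exact h
      refine ext2 ht2.1 B (fun i hi => (hBmem i hi).1) hBc ?_
      intro i hi hπi
      have e1 := (hBmem i hi).2
      have e2 := (hBmem _ hπi).2
      rw [hπ] at e2
      exact lt_asymm e1 e2
    · have hat1 : a ≤ a * t := Nat.le_mul_of_pos_right a htpos
      obtain ⟨p₀, hp₀k, hp₀a, hp₀m⟩ : ∃ p₀, p₀ ≤ k ∧ 2 * p₀ ≤ a ∧ a - 2 * p₀ ≤ m := by
        by_cases hka : k ≤ a / 2
        · exact ⟨k, le_rfl, by omega, by omega⟩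
        · refine ⟨a / 2, by omega, by omega, ?_⟩
          by_contra hlt
          exact hcase ⟨by omega, by omega⟩
      obtain ⟨R₀, hR₀R, hR₀c⟩ := Finset.exists_subset_card_eq (show p₀ ≤ R.card by omega)
      obtain ⟨S₀, hS₀F, hS₀c⟩ :=
        Finset.exists_subset_card_eq (show a - 2 * p₀ ≤ Fx.card by omega)
      have hR₀ : ∀ i ∈ R₀, i ∈ S ∧ i < π i := fun i hi => by
        have h := hR₀R hi; rw [hR, Finset.mem_filter] at h; exact h
      have hS₀ : ∀ i ∈ S₀, i ∈ S ∧ π i = i := fun i hi => by
        have h := hS₀F hi; rw [hFx, Finset.mem_filter] at h; exact h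
      have hd1 : Disjoint R₀ (R₀.image π) := by
        rw [Finset.disjoint_left]
        intro i hi hi'
        obtain ⟨j, hj, rfl⟩ := Finset.mem_image.1 hi'
        have e1 := (hR₀ _ hi).2
        have e2 := (hR₀ j hj).2
        rw [hπ] at e1
        exact lt_asymm e1 e2
      have hd2 : Disjoint (R₀ ∪ R₀.image π) S₀ := by
        rw [Finset.disjoint_left]
        intro i hi hi'
        have e3 := (hS₀ i hi').2
        rcases Finset.mem_union.1 hi with h | h
        · have e1 := (hR₀ i h).2
          rw [e3] at e1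
          exact lt_irrefl _ e1
        · obtain ⟨j, hj, rfl⟩ := Finset.mem_image.1 h
          have e2 := (hR₀ j hj).2
          rw [hπ] at e3
          rw [← e3] at e2
          exact lt_irrefl _ e2
      have hBc : (R₀ ∪ R₀.image π ∪ S₀).card = a := by
        rw [Finset.card_union_of_disjoint hd2, Finset.card_union_of_disjoint hd1,
          Finset.card_image_of_injective _ hπinj, hR₀c, hS₀c]
        omega
      refine ext1 (R₀ ∪ R₀.image π ∪ S₀) ?_ hBc ?_
      · intro i hi
        rcases Finset.mem_union.1 hi with h | h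
        · rcases Finset.mem_union.1 h with h | h
          · exact (hR₀ i h).1
          · obtain ⟨j, hj, rfl⟩ := Finset.mem_image.1 h
            exact hS j (hR₀ j hj).1
        · exact (hS₀ i h).1
      · intro i hi
        rcases Finset.mem_union.1 hi with h | h
        · rcases Finset.mem_union.1 h with h | h
          · exact Finset.mem_union_left _
              (Finset.mem_union_right _ (Finset.mem_image_of_mem π h))
          · obtain ⟨j, hj, rfl⟩ := Finset.mem_image.1 h
            rw [hπ]
            exact Finset.mem_union_left _ (Finset.mem_union_left _ hj)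
        · rw [(hS₀ i h).2]
          exact Finset.mem_union_right _ h

end comb


/-- Involutions of PSL_n(q) and imprimitive subgroups. Here `T = PSL_n(F)` for a field `F` with `q = p^f` elements (`n ≥ 2`, `(n, q) ≠ (2, 2), (2, 3)`), `n = a·t` with `t ≥ 2`, and Ω is the set of direct-sum decompositions of `F^n` into `t` subspaces of dimension `a` (unordered; their number is the number of ordered ones divided by `t!`), whose stabilizers are the imprimitive subgroups of type GL_a(q) ≀ S_t (maximal except in some small cases; maximality is not assumed); an element of `T` of prime order `r` (a matrix `x` of determinant 1 with `x^r` scalar, `x` not scalar) fixes a point of Ω when it permutes the summands of some such decomposition. If the number of such decompositions is even, then every involution of `T` stabilizes one of them (the action is 2-elusive). -/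
theorem result {F : Type*} [Field F] [Fintype F] {p : ℕ} [Fact p.Prime] [CharP F p] {q : ℕ} (hq : Fintype.card F = q)
    (n a t : ℕ) (hn : 2 ≤ n) (hT : (n, q) ≠ (2, 2) ∧ (n, q) ≠ (2, 3)) (hat : n = a * t) (ha : 1 ≤ a) (ht : 2 ≤ t)
    (hΩ : 2 ∣ Nat.card {D : Fin t → Submodule F (Fin n → F) // Cfsg.Geo.IsMDecomposition a D} / Nat.factorial t)
    (x : Matrix.SpecialLinearGroup (Fin n) F)
    (hx1 : ∃ z : F, ((x ^ 2 : Matrix.SpecialLinearGroup (Fin n) F) : Matrix (Fin n) (Fin n) F) = z • (1 : Matrix (Fin n) (Fin n) F))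
    (hx2 : ∀ z : F, (x : Matrix (Fin n) (Fin n) F) ≠ z • (1 : Matrix (Fin n) (Fin n) F)) :
    ∃ D : Fin t → Submodule F (Fin n → F), Cfsg.Geo.IsMDecomposition a D ∧
        ∃ σ : Equiv.Perm (Fin t), ∀ j, (D j).map (Matrix.toLin' (x : Matrix (Fin n) (Fin n) F)) = D (σ j) := by
  classical
  obtain ⟨z, hz⟩ := hx1
  have hMM : (x : Matrix (Fin n) (Fin n) F) * (x : Matrix (Fin n) (Fin n) F)
      = z • (1 : Matrix (Fin n) (Fin n) F) := by
    rw [← hz, Matrix.SpecialLinearGroup.coe_pow, pow_two]
  have hn0 : n ≠ 0 := by omega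
  have hz0 : z ≠ 0 := by
    rintro rfl
    have h := congrArg Matrix.det hMM
    have hdet : (x : Matrix (Fin n) (Fin n) F).det = 1 := x.2
    rw [Matrix.det_mul, hdet, zero_smul] at h
    haveI : Nonempty (Fin n) := ⟨⟨0, by omega⟩⟩
    rw [Matrix.det_zero] at h
    simp at h
  obtain ⟨T, hTdef⟩ : ∃ T : (Fin n → F) →ₗ[F] (Fin n → F),
      T = Matrix.toLin' (x : Matrix (Fin n) (Fin n) F) := ⟨_, rfl⟩
  rw [← hTdef]
  have hT : ∀ v, T (T v) = z • v := by
    intro v
    rw [hTdef, Matrix.toLin'_apply, Matrix.toLin'_apply, Matrix.mulVec_mulVec, hMM,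
      Matrix.smul_mulVec, Matrix.one_mulVec]
  have hTinj : Function.Injective T := by
    rw [injective_iff_map_eq_zero]
    intro v hv
    have h := hT v
    rw [hv, map_zero] at h
    exact (smul_eq_zero.1 h.symm).resolve_left hz0
  obtain ⟨ι, hι, b, π, c, hb, hspan, hπ, hTb⟩ :=
    struct_aux T z hz0 hT _ ⊤ (fun v _ => Submodule.mem_top) rfl
  haveI := hι
  have hcardι : Fintype.card ι = a * t := by
    have h1 := finrank_span_eq_card hb
    rw [hspan, finrank_top, Module.finrank_fin_fun] at h1
    rw [← h1, hat]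
  letI : LinearOrder ι := LinearOrder.lift' (Fintype.equivFin ι) (Fintype.equivFin ι).injective
  obtain ⟨β, σ, hβlt, hβfib, hβσ⟩ := comb_aux a ha π hπ t Finset.univ
    (fun i _ => Finset.mem_univ _) (by rw [Finset.card_univ, hcardι])
  have hfibne : ∀ j < t, ∃ i, β i = j := by
    intro j hj
    have h := hβfib j hj
    have hne : (Finset.univ.filter (fun i => β i = j)).Nonempty := by
      rw [← Finset.card_pos, h]; exact ha
    obtain ⟨i, hi⟩ := hne
    exact ⟨i, (Finset.mem_filter.1 hi).2⟩
  have hσlt : ∀ j < t, σ j < t := by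
    intro j hj
    obtain ⟨i, rfl⟩ := hfibne j hj
    rw [← hβσ i (Finset.mem_univ _)]
    exact hβlt _ (Finset.mem_univ _)
  have hσσ : ∀ j < t, σ (σ j) = j := by
    intro j hj
    obtain ⟨i, rfl⟩ := hfibne j hj
    rw [← hβσ i (Finset.mem_univ _), ← hβσ (π i) (Finset.mem_univ _), hπ]
  obtain ⟨σF, hσF⟩ : ∃ σF : Fin t → Fin t, ∀ j, ((σF j : Fin t) : ℕ) = σ j :=
    ⟨fun j => ⟨σ j, hσlt j j.2⟩, fun _ => rfl⟩
  have hσFinv : Function.Involutive σF := fun j => Fin.ext (by
    rw [hσF, hσF]; exact hσσ j j.2)
  obtain ⟨D, hD⟩ : ∃ D : Fin t → Submodule F (Fin n → F),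
      ∀ j, D j = Submodule.span F (b '' {i | β i = (j : ℕ)}) := ⟨_, fun _ => rfl⟩
  have hDle : ∀ j : Fin t, ∀ i, β i = (j : ℕ) → b i ∈ D j := fun j i hi => by
    rw [hD]; exact Submodule.subset_span ⟨i, hi, rfl⟩
  have hDfr : ∀ j : Fin t, Module.finrank F (D j) = a := by
    intro j
    have hli : LinearIndependent F (fun i : {i // β i = (j : ℕ)} => b i) :=
      hb.comp _ Subtype.val_injective
    have hr : Set.range (fun i : {i // β i = (j : ℕ)} => b i) = b '' {i | β i = (j : ℕ)} :=
      Set.ext fun v => ⟨fun ⟨⟨i, hi⟩, h⟩ => ⟨i, hi, h⟩, fun ⟨i, hi, h⟩ => ⟨⟨i, hi⟩, h⟩⟩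
    have h1 := finrank_span_eq_card hli
    rw [hr] at h1
    rw [hD, h1, Fintype.card_subtype]
    exact hβfib j j.2
  refine ⟨D, ⟨ht, ha, hDfr, ?_, ?_⟩, Function.Involutive.toPerm σF hσFinv, ?_⟩
  · rw [iSupIndep_def]
    intro j
    have hle : (⨆ (k : Fin t) (_ : k ≠ j), D k)
        ≤ Submodule.span F (b '' {i | β i ≠ (j : ℕ)}) := by
      refine iSup₂_le fun k hk => ?_
      rw [hD]
      refine Submodule.span_mono (Set.image_mono ?_)
      intro i hi
      simp only [Set.mem_setOf_eq] at hi ⊢
      rw [hi]
      exact fun h => hk (Fin.ext h)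
    refine Disjoint.mono_right hle ?_
    rw [hD]
    refine hb.disjoint_span_image ?_
    rw [Set.disjoint_left]
    intro i hi hi'
    exact hi' hi
  · rw [eq_top_iff, ← hspan, Submodule.span_le]
    rintro _ ⟨i, rfl⟩
    have hi := hβlt i (Finset.mem_univ _)
    exact Submodule.mem_iSup_of_mem ⟨β i, hi⟩ (hDle ⟨β i, hi⟩ i rfl)
  · intro j
    have hle : (D j).map T ≤ D (Function.Involutive.toPerm σF hσFinv j) := by
      rw [hD j, Submodule.map_span, Submodule.span_le]
      rintro _ ⟨_, ⟨i, hi, rfl⟩, rfl⟩
      rw [Set.mem_setOf_eq] at hi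
      rw [hTb i]
      refine Submodule.smul_mem _ _ (hDle _ _ ?_)
      rw [hβσ i (Finset.mem_univ _), hi]
      exact (hσF j).symm
    have hfr : Module.finrank F ((D j).map T)
        = Module.finrank F (D (Function.Involutive.toPerm σF hσFinv j)) := by
      rw [hDfr, ← (Submodule.equivMapOfInjective T hTinj (D j)).finrank_eq, hDfr]
    exact Submodule.eq_of_le_of_finrank_eq hle hfr

end Cfsg.Agent.S5957
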