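import Mathlib
import Cfsg.Statements.S5959
import Cfsg.Agent.Helper16.Jordan2
-- import your own Cfsg.Agent.* helpers here

set_option autoImplicit false
open scoped MatrixGroups
open Cfsg

namespace Cfsg.Agent.S5959


open Cfsg.Agent.Helper16.Jordan


/-- Elements of order `p` of PSL_n(q) and imprimitive subgroups: a necessary condition. Here `T = PSL_n(F)` for a field `F` with `q = p^f` elements (`n ≥ 2`, `(n, q) ≠ (2, 2), (2, 3)`), `n = a·t` with `t ≥ 2`, and Ω is the set of direct-sum decompositions of `F^n` into `t` subspaces of dimension `a` (unordered; their number is the number of ordered ones divided by `t!`), whose stabilizers are the imprimitive subgroups of type GL_a(q) ≀ S_t (maximal except in some small cases; maximality is not assumed); an element of `T` of prime order `r` (a matrix `x` of determinant 1 with `x^r` scalar, `x` not scalar) fixes a point of Ω when it permutes the summands of some such decomposition. Suppose `p > 2` divides the number of such decompositions. If every element of `T` of order `p` stabilizes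 such a decomposition, then every partition of `n` into parts of size at most `p` in which the part `p` occurs fewer than `a` times contains (as a sub-multiset) a partition of `a`. -/
theorem result {F : Type*} [Field F] [Fintype F] {p : ℕ} [Fact p.Prime] [CharP F p] {q : ℕ} (hq : Fintype.card F = q)
    (n a t : ℕ) (hn : 2 ≤ n) (hT : (n, q) ≠ (2, 2) ∧ (n, q) ≠ (2, 3)) (hat : n = a * t) (ha : 1 ≤ a) (ht : 2 ≤ t)
    (hp : 2 < p) (hΩ : p ∣ Nat.card {D : Fin t → Submodule F (Fin n → F) // Cfsg.Geo.IsMDecomposition a D} / Nat.factorial t)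
    (h : ∀ x : Matrix.SpecialLinearGroup (Fin n) F,
      (∃ z : F, ((x ^ p : Matrix.SpecialLinearGroup (Fin n) F) : Matrix (Fin n) (Fin n) F) = z • (1 : Matrix (Fin n) (Fin n) F)) →
      (∀ z : F, (x : Matrix (Fin n) (Fin n) F) ≠ z • (1 : Matrix (Fin n) (Fin n) F)) →
      ∃ D : Fin t → Submodule F (Fin n → F), Cfsg.Geo.IsMDecomposition a D ∧
        ∃ σ : Equiv.Perm (Fin t), ∀ j, (D j).map (Matrix.toLin' (x : Matrix (Fin n) (Fin n) F)) = D (σ j)) :
    (∀ μ : Multiset ℕ, (∀ b ∈ μ, 0 < b ∧ b ≤ p) → μ.sum = n → μ.count p < a → ∃ ν : Multiset ℕ, ν ≤ μ ∧ ν.sum = a) := by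
  classical
  intro μ hμ hsum hcount
  have hn0 : 0 < n := by omega
  have hpp : p.Prime := Fact.out
  by_cases hones : ∀ b ∈ μ, b = 1
  · have h2 : μ = Multiset.replicate (Multiset.card μ) 1 :=
      Multiset.eq_replicate.2 ⟨rfl, hones⟩
    have h3 : Multiset.card μ = n := by
      have h4 := hsum
      rw [h2, Multiset.sum_replicate, smul_eq_mul, mul_one] at h4
      exact h4
    refine ⟨Multiset.replicate a 1, ?_, by simp⟩
    rw [h2, h3, Multiset.replicate_le_replicate, hat]
    exact Nat.le_mul_of_pos_right a (by omega)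
  · push Not at hones
    obtain ⟨b₀, hb₀, hb₀1⟩ := hones
    have hb₀2 : 2 ≤ b₀ := by have := (hμ b₀ hb₀).1; omega
    have hmap : (Finset.univ : Finset μ.ToType).val.map (fun x => x.1) = μ :=
      Multiset.map_univ_coe μ
    have hmem : ∀ i : μ.ToType, i.1 ∈ μ := fun i => Multiset.count_pos.1 i.2.pos
    have hsum' : ∑ i : μ.ToType, i.1 = n := by
      rw [Finset.sum_eq_multiset_sum, hmap, hsum]
    obtain ⟨M, v, hJD⟩ := exists_rep (F := F) (fun x : μ.ToType => x.1) hsum'
    obtain ⟨N, hN⟩ : ∃ N : Module.End F (Fin n → F), N = Matrix.toLin' M := ⟨_, rfl⟩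
    rw [← hN] at hJD
    have hNp : N ^ p = 0 := hJD.pow_eq_zero p (fun i => (hμ _ (hmem i)).2)
    have hMp : M ^ p = 0 := by
      apply Matrix.toLin'.injective
      rw [Matrix.toLin'_pow, map_zero, ← hN]
      exact hNp
    have : Nonempty (Fin n) := ⟨⟨0, hn0⟩⟩
    have : CharP (Matrix (Fin n) (Fin n) F) p := Matrix.charP p
    have hone : (1 + M) ^ p = 1 := by
      rw [add_pow_char_of_commute p (Commute.one_left _), one_pow, hMp, add_zero]
    have hdet : (1 + M).det = 1 := by
      have h1 : (1 + M).det ^ p = 1 := by rw [← Matrix.det_pow, hone, Matrix.det_one]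
      have h2 : ((1 + M).det - 1) ^ p = 0 := by
        rw [sub_pow_char_of_commute p (Commute.all _ _), h1, one_pow, sub_self]
      exact sub_eq_zero.1 ((pow_eq_zero_iff hpp.ne_zero).1 h2)
    have hN0 : N ≠ 0 :=
      hJD.ne_zero (⟨b₀, ⟨0, Multiset.count_pos.2 hb₀⟩⟩ : μ.ToType) hb₀2
    have hns : ∀ z : F, (1 + M) ≠ z • (1 : Matrix (Fin n) (Fin n) F) := by
      intro z hz'
      have hM1 : M = (z - 1) • (1 : Matrix (Fin n) (Fin n) F) := by
        rw [sub_smul, one_smul, ← hz', add_sub_cancel_left]
      have h1 : ((z - 1) ^ p) • (1 : Matrix (Fin n) (Fin n) F)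
          = (0 : F) • (1 : Matrix (Fin n) (Fin n) F) := by
        rw [zero_smul, ← hMp, hM1, smul_pow, one_pow]
      have h2 : (z - 1) ^ p = 0 := Cfsg.Agent.S2577.smul_one_inj hn0 h1
      have h3 : z - 1 = 0 := (pow_eq_zero_iff hpp.ne_zero).1 h2
      apply hN0
      rw [hN, hM1, h3, zero_smul, map_zero]
    obtain ⟨x, hx⟩ : ∃ x : Matrix.SpecialLinearGroup (Fin n) F,
        (x : Matrix (Fin n) (Fin n) F) = 1 + M := ⟨⟨1 + M, hdet⟩, rfl⟩
    obtain ⟨D, hD, σ, hσ⟩ := h x
      ⟨1, by rw [Matrix.SpecialLinearGroup.coe_pow, hx, one_smul]; exact hone⟩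
      (fun z hz => hns z (by rw [← hx]; exact hz))
    obtain ⟨T, hT⟩ : ∃ T : Module.End F (Fin n → F), T = Matrix.toLin' (1 + M) := ⟨_, rfl⟩
    have hσ' : ∀ j, (D j).map T = D (σ j) := by
      intro j; rw [hT, ← hx]; exact hσ j
    have hTN : T = 1 + N := by
      rw [hT, hN, map_add, Matrix.toLin'_one]; rfl
    have hNT : N = T - 1 := by rw [hTN, add_sub_cancel_left]
    have hTp : T ^ p = 1 := by
      rw [hT, ← Matrix.toLin'_pow, hone, Matrix.toLin'_one]; rfl
    have hpowmem : ∀ (k : ℕ) (j : Fin t) (u : Fin n → F), u ∈ D j →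
        (T ^ k) u ∈ D ((σ ^ k) j) := by
      intro k
      induction k with
      | zero => intro j u hu; simpa using hu
      | succ k ih =>
        intro j u hu
        rw [pow_succ_apply, pow_succ', Equiv.Perm.mul_apply, ← hσ']
        exact Submodule.mem_map_of_mem (ih j u hu)
    by_cases hfix : ∃ j, σ j = j
    · obtain ⟨j, hj⟩ := hfix
      have hinvD : ∀ u ∈ D j, N u ∈ D j := by
        intro u hu
        have h1 : T u ∈ D j := by
          have h2 : T u ∈ (D j).map T := Submodule.mem_map_of_mem hu
          rw [hσ' j, hj] at h2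
          exact h2
        rw [hNT, LinearMap.sub_apply, Module.End.one_apply]
        exact Submodule.sub_mem _ h1 hu
      obtain ⟨W, hW⟩ : ∃ W : Submodule F (Fin n → F), W = ⨆ (i) (_ : i ≠ j), D i :=
        ⟨_, rfl⟩
      have hinvW : ∀ u ∈ W, N u ∈ W := by
        intro u hu
        have h1 : T u ∈ W := by
          have h2 : T u ∈ W.map T := Submodule.mem_map_of_mem hu
          have h3 : W.map T ≤ W := by
            rw [hW, Submodule.map_iSup]
            refine iSup_le (fun i => ?_)
            rw [Submodule.map_iSup]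
            refine iSup_le (fun hi => ?_)
            rw [hσ' i]
            exact le_iSup₂_of_le (σ i) (fun h' => hi (σ.injective (h'.trans hj.symm))) le_rfl
          exact h3 h2
        rw [hNT, LinearMap.sub_apply, Module.End.one_apply]
        exact Submodule.sub_mem _ h1 hu
      have hdisj : Disjoint (D j) W := by rw [hW]; exact hD.indep j
      have hsup : D j ⊔ W = ⊤ := by
        rw [eq_top_iff, ← hD.iSup_eq_top]
        refine iSup_le (fun i => ?_)
        by_cases hi : i = j
        · rw [hi]; exact le_sup_left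
        · rw [hW]; exact le_sup_of_le_right (le_iSup₂_of_le i hi le_rfl)
      obtain ⟨ι₁, hι₁, m₁, v₁, hpos₁, hJ₁⟩ := exists_JD N p hNp _ (D j) hinvD rfl
      obtain ⟨ι₂, hι₂, m₂, v₂, hpos₂, hJ₂⟩ := exists_JD N p hNp _ W hinvW rfl
      have hJ := hJ₁.sum hJ₂ hdisj
      rw [hsup] at hJ
      have htype := JD.type_unique hJD hJ (fun i => (hμ _ (hmem i)).1) (by
        rintro (i | i)
        · exact hpos₁ i
        · exact hpos₂ i)
      rw [hmap, univ_map_sum_elim] at htype
      refine ⟨Finset.univ.val.map m₁, ?_, ?_⟩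
      · rw [htype]; exact Multiset.le_add_right _ _
      · rw [← Finset.sum_eq_multiset_sum, hJ₁.sum_eq_finrank, hD.finrank_eq]
    · exfalso
      push Not at hfix
      have hDinj : ∀ i j, D i = D j → i = j := by
        intro i j hij
        by_contra hne
        have h1 : D j ≤ ⨆ (k) (_ : k ≠ j), D k := by
          rw [← hij]; exact le_iSup₂_of_le i hne le_rfl
        have h2 : D j = ⊥ := (hD.indep j).eq_bot_of_le h1
        have h3 := hD.finrank_eq j
        rw [h2, finrank_bot] at h3
        omega
      have hσp : ∀ j, (σ ^ p) j = j := by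
        intro j
        apply hDinj
        symm
        apply Submodule.eq_of_le_of_finrank_eq
        · intro u hu
          have h1 := hpowmem p j u hu
          rw [hTp, Module.End.one_apply] at h1
          exact h1
        · rw [hD.finrank_eq, hD.finrank_eq]
      obtain ⟨j₀⟩ : Nonempty (Fin t) := ⟨⟨0, by omega⟩⟩
      have hper : ∀ i, 1 ≤ i → i < p → (σ ^ i) j₀ ≠ j₀ := by
        intro i hi1 hip hfx
        apply hfix j₀
        have h1 : Function.IsPeriodicPt σ i j₀ := by
          show σ^[i] j₀ = j₀
          rw [Equiv.Perm.iterate_eq_pow]; exact hfx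
        have h2 : Function.IsPeriodicPt σ p j₀ := by
          show σ^[p] j₀ = j₀
          rw [Equiv.Perm.iterate_eq_pow]; exact hσp j₀
        have h3 := h1.minimalPeriod_dvd
        have h4 := h2.minimalPeriod_dvd
        have h5 : Function.minimalPeriod σ j₀ = 1 := by
          rcases (Nat.dvd_prime hpp).1 h4 with h' | h'
          · exact h'
          · rw [h'] at h3
            have := Nat.le_of_dvd (by omega) h3
            omega
        exact Function.minimalPeriod_eq_one_iff_isFixedPt.1 h5
      have hinj : ∀ u ∈ D j₀, (N ^ (p - 1)) u = 0 → u = 0 := by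
        intro u hu h0
        obtain ⟨c, hc0, hc⟩ := pow_sub_one_expand T (p - 1)
        rw [hNT, hc, LinearMap.sum_apply, Finset.sum_range_succ'] at h0
        have hW : (∑ i ∈ Finset.range (p - 1), (c (i + 1) • T ^ (i + 1)) u)
            ∈ ⨆ (i) (_ : i ≠ j₀), D i := by
          refine Submodule.sum_mem _ (fun i hi => ?_)
          rw [Finset.mem_range] at hi
          have h1 : (T ^ (i + 1)) u ∈ D ((σ ^ (i + 1)) j₀) := hpowmem (i + 1) j₀ u hu
          have h2 : (σ ^ (i + 1)) j₀ ≠ j₀ := hper (i + 1) (by omega) (by omega)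
          rw [LinearMap.smul_apply]
          exact Submodule.smul_mem _ _
            (Submodule.mem_iSup_of_mem ((σ ^ (i + 1)) j₀) (Submodule.mem_iSup_of_mem h2 h1))
        have hu' : (c 0 • T ^ 0) u = c 0 • u := by simp
        rw [hu'] at h0
        have h3 : c 0 • u ∈ ⨆ (i) (_ : i ≠ j₀), D i := by
          have h4 : c 0 • u = - ∑ i ∈ Finset.range (p - 1), (c (i + 1) • T ^ (i + 1)) u :=
            eq_neg_of_add_eq_zero_right h0
          rw [h4]; exact Submodule.neg_mem _ hW
        have h4 : c 0 • u ∈ D j₀ := Submodule.smul_mem _ _ hu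
        have h5 : c 0 • u = 0 := (Submodule.disjoint_def.1 (hD.indep j₀)) _ h4 h3
        have hc0' : c 0 ≠ 0 := by rw [hc0]; exact pow_ne_zero _ (neg_ne_zero.2 one_ne_zero)
        exact (smul_eq_zero.1 h5).resolve_left hc0'
      have hrank : a ≤ Module.finrank F (LinearMap.range (N ^ (p - 1))) := by
        rw [← hD.finrank_eq j₀]
        let g : D j₀ →ₗ[F] LinearMap.range (N ^ (p - 1)) :=
          LinearMap.codRestrict _ ((N ^ (p - 1)).domRestrict (D j₀)) (fun u => ⟨u, rfl⟩)
        have hg : Function.Injective g := by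
          rw [injective_iff_map_eq_zero]
          intro u hu
          have h1 : (N ^ (p - 1)) (u : Fin n → F) = 0 := congrArg Subtype.val hu
          exact Subtype.ext (hinj _ u.2 h1)
        exact LinearMap.finrank_le_finrank_of_injective hg
      rw [hJD.finrank_range_pow (p - 1)] at hrank
      have hc : Multiset.count p μ = ∑ i : μ.ToType, (if i.1 = p then 1 else 0) := by
        have h1 := count_eq_sum (fun x : μ.ToType => x.1) p
        rw [hmap] at h1
        exact h1
      have hle : ∑ i : μ.ToType, (i.1 - (p - 1)) ≤ Multiset.count p μ := by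
        rw [hc]
        refine Finset.sum_le_sum (fun i _ => ?_)
        have h1 := (hμ _ (hmem i)).2
        show i.1 - (p - 1) ≤ if i.1 = p then 1 else 0
        split_ifs <;> omega
      have hfinal : a ≤ Multiset.count p μ := le_trans hrank hle
      omega

end Cfsg.Agent.S5959
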