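import Mathlib
import Cfsg.Statements.S5960
import Cfsg.Agent.Helper16.SympInv
import Cfsg.Agent.S5957
-- import your own Cfsg.Agent.* helpers here

set_option autoImplicit false
open scoped MatrixGroups
open Cfsg

namespace Cfsg.Agent.S5960



/-- Involutions of PSp_n(q) and imprimitive subgroups. Here `T = PSp_n(q)`, `n = 2d ≥ 4`, `(n, q) ≠ (4, 2)`, realised through the symplectic matrices over the field `F` with `q` elements and the standard alternating form; `n = a·t` with `a` even and `t ≥ 2`, and Ω is the (nonempty) set of orthogonal decompositions of `F^n` into `t` nondegenerate subspaces of dimension `a` (unordered; counted as ordered ones divided by `t!`), whose stabilizers are the imprimitive subgroups of type Sp_a(q) ≀ S_t (maximality is not assumed); an element of `T` of prime order `r` (a symplectic matrix `x` with `x^r` scalar, `x` not scalar) fixes a point of Ω when it permutes the summands of some such decomposition. If the number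 of such decompositions is even, then every involution of `T` stabilizes one of them (the action is 2-elusive). -/
theorem result {F : Type*} [Field F] [Fintype F] {p : ℕ} [Fact p.Prime] [CharP F p] {q : ℕ} (hq : Fintype.card F = q)
    (d : ℕ) (hd : 2 ≤ d) (hT : (d, q) ≠ (2, 2))
    (a t : ℕ) (hat : 2 * d = a * t) (ha : 2 ≤ a) (hae : Even a) (ht : 2 ≤ t) (hΩ : 2 ∣ Nat.card {D : Fin t → Submodule F (Fin d ⊕ Fin d → F) // (Cfsg.Geo.IsMDecomposition a D ∧ (∀ j, ∀ u ∈ D j, u ≠ 0 → ∃ v ∈ D j, Cfsg.sympForm d F u v ≠ 0) ∧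
          (∀ j j', j ≠ j' → ∀ u ∈ D j, ∀ v ∈ D j', Cfsg.sympForm d F u v = 0))} / Nat.factorial t)
    (x : ↥(Matrix.symplecticGroup (Fin d) F))
    (hx1 : ∃ z : F, ((x ^ 2 : ↥(Matrix.symplecticGroup (Fin d) F)) : Matrix (Fin d ⊕ Fin d) (Fin d ⊕ Fin d) F) = z • (1 : Matrix (Fin d ⊕ Fin d) (Fin d ⊕ Fin d) F))
    (hx2 : ∀ z : F, (x : Matrix (Fin d ⊕ Fin d) (Fin d ⊕ Fin d) F) ≠ z • (1 : Matrix (Fin d ⊕ Fin d) (Fin d ⊕ Fin d) F)) :
    ∃ D : Fin t → Submodule F (Fin d ⊕ Fin d → F), (Cfsg.Geo.IsMDecomposition a D ∧ (∀ j, ∀ u ∈ D j, u ≠ 0 → ∃ v ∈ D j, Cfsg.sympForm d F u v ≠ 0) ∧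
          (∀ j j', j ≠ j' → ∀ u ∈ D j, ∀ v ∈ D j', Cfsg.sympForm d F u v = 0)) ∧
        ∃ σ : Equiv.Perm (Fin t), ∀ j, (D j).map (Matrix.toLin' (x : Matrix (Fin d ⊕ Fin d) (Fin d ⊕ Fin d) F)) = D (σ j) := by
  classical
  obtain ⟨z, hz⟩ := hx1
  obtain ⟨hzz, hTT, hTB, hND, hinj⟩ := Cfsg.Agent.Helper16.SympInv.setup d (by omega) x z hz
  have hz0 : z ≠ 0 := by
    rintro rfl
    simp at hzz
  obtain ⟨T, hTdef⟩ : ∃ T : (Fin d ⊕ Fin d → F) →ₗ[F] (Fin d ⊕ Fin d → F),
      T = Matrix.toLin' (x : Matrix (Fin d ⊕ Fin d) (Fin d ⊕ Fin d) F) := ⟨_, rfl⟩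
  rw [← hTdef] at hTT hTB hinj ⊢
  obtain ⟨B, hBdef⟩ : ∃ B : LinearMap.BilinForm F (Fin d ⊕ Fin d → F),
      B = Cfsg.Agent.S0766.sB d F := ⟨_, rfl⟩
  have hBf : ∀ u v, Cfsg.sympForm d F u v = B u v := fun u v => by
    rw [hBdef, Cfsg.Agent.S0766.sB_apply]
  have hBalt : B.IsAlt := by
    rw [hBdef]
    exact Cfsg.Agent.S0766.sB_alt d F
  rw [← hBdef] at hTB hND
  simp only [hBf]
  obtain ⟨ι, hι, e, e', π, τ, c1, c2, c3, c4, c5, c6, c7, c8⟩ :=
    Cfsg.Agent.Helper16.SympInv.symp_struct B hBalt T z hz0 hTT hTB _ ⊤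
      (fun v _ => Submodule.mem_top) hND rfl
  haveI := hι
  obtain ⟨g, hg⟩ : ∃ g : ι ⊕ ι → (Fin d ⊕ Fin d → F), g = Sum.elim e e' := ⟨_, rfl⟩
  have hgl : ∀ i, g (Sum.inl i) = e i := fun i => by rw [hg]; rfl
  have hgr : ∀ i, g (Sum.inr i) = e' i := fun i => by rw [hg]; rfl
  have hli : LinearIndependent F g := by
    refine Cfsg.Agent.Helper16.SympInv.li_of_dual B g (Sum.elim e' e) ?_ ?_
    · rintro (i | i) (k | k) hik
      · rw [hgl]
        exact (c4 i k (fun h => hik (congrArg Sum.inl h))).2.1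
      · rw [hgl]
        show B (e i) (e k) = 0
        by_cases h : i = k
        · rw [h]
          exact hBalt.self_eq_zero _
        · exact (c4 i k h).1
      · rw [hgr]
        show B (e' i) (e' k) = 0
        by_cases h : i = k
        · rw [h]
          exact hBalt.self_eq_zero _
        · exact (c4 i k h).2.2.2
      · rw [hgr]
        exact (c4 i k (fun h => hik (congrArg Sum.inr h))).2.2.1
    · rintro (i | i)
      · rw [hgl]
        exact c3 i
      · rw [hgr]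
        show B (e' i) (e i) ≠ 0
        rw [Cfsg.Agent.Helper16.SympInv.skew hBalt (e' i) (e i)]
        exact neg_ne_zero.2 (c3 i)
  have hspan : Submodule.span F (Set.range g) = ⊤ := by
    rw [eq_top_iff]
    intro p _
    have h := c5 p Submodule.mem_top
    refine Submodule.span_mono ?_ h
    rintro _ (⟨i, rfl⟩ | ⟨i, rfl⟩)
    · exact ⟨Sum.inl i, hgl i⟩
    · exact ⟨Sum.inr i, hgr i⟩
  obtain ⟨a', ha'⟩ := hae
  have ha'1 : 1 ≤ a' := by omega
  have hcardι : Fintype.card ι = a' * t := by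
    have h1 := finrank_span_eq_card hli
    rw [hspan, finrank_top, Module.finrank_fintype_fun_eq_card, Fintype.card_sum,
      Fintype.card_sum, Fintype.card_fin] at h1
    have h2 : 2 * d = 2 * (a' * t) := by
      rw [hat, ha']
      ring
    omega
  letI : LinearOrder ι := LinearOrder.lift' (Fintype.equivFin ι) (Fintype.equivFin ι).injective
  obtain ⟨β, σ, hβlt, hβfib, hβσ⟩ := Cfsg.Agent.S5957.comb_aux a' ha'1 π c1 t Finset.univ
    (fun i _ => Finset.mem_univ _) (by rw [Finset.card_univ, hcardι])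
  have hfibne : ∀ j < t, ∃ i, β i = j := by
    intro j hj
    have h := hβfib j hj
    have hne : (Finset.univ.filter (fun i => β i = j)).Nonempty := by
      rw [← Finset.card_pos, h]
      exact ha'1
    obtain ⟨i, hi⟩ := hne
    exact ⟨i, (Finset.mem_filter.1 hi).2⟩
  have hσlt : ∀ j < t, σ j < t := by
    intro j hj
    obtain ⟨i, rfl⟩ := hfibne j hj
    rw [← hβσ i (Finset.mem_univ _)]
    exact hβlt _ (Finset.mem_univ _)
  have hσσ : ∀ j < t, σ (σ j) = j := by
    intro j hj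
    obtain ⟨i, rfl⟩ := hfibne j hj
    rw [← hβσ i (Finset.mem_univ _), ← hβσ (π i) (Finset.mem_univ _), c1]
  obtain ⟨σF, hσF⟩ : ∃ σF : Fin t → Fin t, ∀ j, ((σF j : Fin t) : ℕ) = σ j :=
    ⟨fun j => ⟨σ j, hσlt j j.2⟩, fun _ => rfl⟩
  have hσFinv : Function.Involutive σF := fun j => Fin.ext (by
    rw [hσF, hσF]
    exact hσσ j j.2)
  obtain ⟨D, hD⟩ : ∃ D : Fin t → Submodule F (Fin d ⊕ Fin d → F),
      ∀ j, D j = Submodule.span F (g '' {x | β (Sum.elim id id x) = (j : ℕ)}) :=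
    ⟨_, fun _ => rfl⟩
  have hDle : ∀ j : Fin t, ∀ x, β (Sum.elim id id x) = (j : ℕ) → g x ∈ D j := fun j x hx => by
    rw [hD]
    exact Submodule.subset_span ⟨x, hx, rfl⟩
  have hDfr : ∀ j : Fin t, Module.finrank F (D j) = a := by
    intro j
    have hli' : LinearIndependent F
        (fun x : {x : ι ⊕ ι // β (Sum.elim id id x) = (j : ℕ)} => g x) :=
      hli.comp _ Subtype.val_injective
    have hr : Set.range (fun x : {x : ι ⊕ ι // β (Sum.elim id id x) = (j : ℕ)} => g x)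
        = g '' {x | β (Sum.elim id id x) = (j : ℕ)} :=
      Set.ext fun v => ⟨fun ⟨⟨i, hi⟩, h⟩ => ⟨i, hi, h⟩, fun ⟨i, hi, h⟩ => ⟨⟨i, hi⟩, h⟩⟩
    have h1 := finrank_span_eq_card hli'
    rw [hr] at h1
    rw [hD, h1, ha']
    exact Cfsg.Agent.Helper16.SympInv.card_fiber_sum (fun i => β i = (j : ℕ)) a' (hβfib j j.2)
  have hκ : ∀ x y : ι ⊕ ι, (Sum.elim id id x : ι) ≠ Sum.elim id id y → B (g x) (g y) = 0 := by
    rintro (i | i) (k | k) hik
    · rw [hgl, hgl]
      exact (c4 i k hik).1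
    · rw [hgl, hgr]
      exact (c4 i k hik).2.1
    · rw [hgr, hgl]
      exact (c4 i k hik).2.2.1
    · rw [hgr, hgr]
      exact (c4 i k hik).2.2.2
  have hplane : ∀ x : ι ⊕ ι, ∃ (y : ι ⊕ ι) (c : F), T (g x) = c • g y ∧
      (Sum.elim id id y : ι) = π (Sum.elim id id x) := by
    rintro (i | i)
    · cases hti : τ i
      · obtain ⟨c, hc⟩ := Submodule.mem_span_singleton.1 (c7 i hti).1
        exact ⟨Sum.inl (π i), c, by rw [hgl, hgl, hc], rfl⟩
      · obtain ⟨h1, h2⟩ := c6 i hti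
        exact ⟨Sum.inr i, 1, by rw [hgl, hgr, h2, one_smul], h1.symm⟩
    · cases hti : τ i
      · obtain ⟨c, hc⟩ := Submodule.mem_span_singleton.1 (c7 i hti).2
        exact ⟨Sum.inr (π i), c, by rw [hgr, hgr, hc], rfl⟩
      · obtain ⟨h1, h2⟩ := c6 i hti
        exact ⟨Sum.inl i, z, by rw [hgr, hgl, ← h2, hTT], h1.symm⟩
  refine ⟨D, ⟨⟨ht, by omega, hDfr, ?_, ?_⟩, ?_, ?_⟩, Function.Involutive.toPerm σF hσFinv, ?_⟩
  · rw [iSupIndep_def]
    intro j
    have hle : (⨆ (k : Fin t) (_ : k ≠ j), D k)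
        ≤ Submodule.span F (g '' {x | β (Sum.elim id id x) ≠ (j : ℕ)}) := by
      refine iSup₂_le fun k hk => ?_
      rw [hD]
      refine Submodule.span_mono (Set.image_mono ?_)
      intro i hi
      simp only [Set.mem_setOf_eq] at hi ⊢
      rw [hi]
      exact fun h => hk (Fin.ext h)
    refine Disjoint.mono_right hle ?_
    rw [hD]
    refine hli.disjoint_span_image ?_
    rw [Set.disjoint_left]
    intro i hi hi'
    exact hi' hi
  · rw [eq_top_iff, ← hspan, Submodule.span_le]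
    rintro _ ⟨x, rfl⟩
    have hi := hβlt (Sum.elim id id x) (Finset.mem_univ _)
    exact Submodule.mem_iSup_of_mem ⟨β (Sum.elim id id x), hi⟩ (hDle ⟨_, hi⟩ x rfl)
  · intro j u hu hu0
    obtain ⟨w, _, hw⟩ := hND u Submodule.mem_top hu0
    have hw' : w ∈ D j ⊔ Submodule.span F (g '' {x | β (Sum.elim id id x) ≠ (j : ℕ)}) := by
      rw [hD, ← Submodule.span_union]
      have hw2 : w ∈ Submodule.span F (Set.range g) := by
        rw [hspan]
        exact Submodule.mem_top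
      refine Submodule.span_mono ?_ hw2
      rintro _ ⟨x, rfl⟩
      by_cases hx : β (Sum.elim id id x) = (j : ℕ)
      · exact Or.inl ⟨x, hx, rfl⟩
      · exact Or.inr ⟨x, hx, rfl⟩
    obtain ⟨w₁, hw₁, w₂, hw₂, rfl⟩ := Submodule.mem_sup.1 hw'
    have hu' : u ∈ Submodule.span F (g '' {x | β (Sum.elim id id x) = (j : ℕ)}) := by
      rw [← hD]
      exact hu
    have h0 : B u w₂ = 0 := by
      refine Cfsg.Agent.Helper16.SympInv.span_pair_zero B _ _ ?_ u hu' w₂ hw₂
      rintro _ ⟨x, hx, rfl⟩ _ ⟨y, hy, rfl⟩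
      refine hκ x y (fun h => hy ?_)
      rw [Set.mem_setOf_eq] at hx
      show β (Sum.elim id id y) = (j : ℕ)
      rw [← h]
      exact hx
    refine ⟨w₁, hw₁, ?_⟩
    intro h1
    apply hw
    rw [map_add, h1, h0, add_zero]
  · intro j j' hjj' u hu v hv
    rw [hD] at hu hv
    refine Cfsg.Agent.Helper16.SympInv.span_pair_zero B _ _ ?_ u hu v hv
    rintro _ ⟨x, hx, rfl⟩ _ ⟨y, hy, rfl⟩
    refine hκ x y (fun h => hjj' (Fin.ext ?_))
    rw [Set.mem_setOf_eq] at hx hy
    rw [← hx, ← hy, h]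
  · intro j
    have hle : (D j).map T ≤ D (Function.Involutive.toPerm σF hσFinv j) := by
      rw [hD j, Submodule.map_span, Submodule.span_le]
      rintro _ ⟨_, ⟨x, hx, rfl⟩, rfl⟩
      rw [Set.mem_setOf_eq] at hx
      obtain ⟨y, c, hy1, hy2⟩ := hplane x
      rw [hy1]
      refine Submodule.smul_mem _ _ (hDle _ _ ?_)
      rw [hy2, hβσ _ (Finset.mem_univ _), hx]
      exact (hσF j).symm
    have hfr : Module.finrank F ((D j).map T)
        = Module.finrank F (D (Function.Involutive.toPerm σF hσFinv j)) := by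
      rw [hDfr, ← (Submodule.equivMapOfInjective T hinj (D j)).finrank_eq, hDfr]
    exact Submodule.eq_of_le_of_finrank_eq hle hfr

end Cfsg.Agent.S5960
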