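import Mathlib
import Cfsg.Statements.S5962
import Cfsg.Agent.Helper16.SympInv
-- import your own Cfsg.Agent.* helpers here

set_option autoImplicit false
open scoped MatrixGroups
open Cfsg

namespace Cfsg.Agent.S5962



/-- Involutions of PSp_n(q), q odd, and the subgroups GL_{n/2}(q).2. Here `T = PSp_n(q)`, `n = 2d ≥ 4`, `q` odd, realised through the symplectic matrices over the field `F` with `q` elements; Ω is the set of unordered pairs `{U, W}` of complementary totally isotropic `d`-spaces (`F^n = U ⊕ W`), whose stabilizers are the subgroups of type GL_d(q).2 (maximal except in some small cases; maximality is not assumed); an element of `T` of prime order `r` (a symplectic matrix `x` with `x^r` scalar, `x` not scalar) fixes such a pair when it fixes or interchanges `U` and `W`. If the number of such pairs is even, every involution of `T` fixes one of them (the action is 2-elusive). -/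
theorem result {F : Type*} [Field F] [Fintype F] {p : ℕ} [Fact p.Prime] [CharP F p] {q : ℕ} (hq : Fintype.card F = q)
    (d : ℕ) (hd : 2 ≤ d) (hT : (d, q) ≠ (2, 2)) (hodd : Odd q)
    (hΩ : 2 ∣ Nat.card {P : Submodule F (Fin d ⊕ Fin d → F) × Submodule F (Fin d ⊕ Fin d → F) // IsCompl P.1 P.2 ∧ (∀ u ∈ P.1, ∀ v ∈ P.1, Cfsg.sympForm d F u v = 0) ∧ (∀ u ∈ P.2, ∀ v ∈ P.2, Cfsg.sympForm d F u v = 0)} / 2)
    (x : ↥(Matrix.symplecticGroup (Fin d) F))
    (hx1 : ∃ z : F, ((x ^ 2 : ↥(Matrix.symplecticGroup (Fin d) F)) : Matrix (Fin d ⊕ Fin d) (Fin d ⊕ Fin d) F) = z • (1 : Matrix (Fin d ⊕ Fin d) (Fin d ⊕ Fin d) F))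
    (hx2 : ∀ z : F, (x : Matrix (Fin d ⊕ Fin d) (Fin d ⊕ Fin d) F) ≠ z • (1 : Matrix (Fin d ⊕ Fin d) (Fin d ⊕ Fin d) F)) :
    ∃ U W : Submodule F (Fin d ⊕ Fin d → F), IsCompl U W ∧ (∀ u ∈ U, ∀ v ∈ U, Cfsg.sympForm d F u v = 0) ∧ (∀ u ∈ W, ∀ v ∈ W, Cfsg.sympForm d F u v = 0) ∧
        ((U.map (Matrix.toLin' (x : Matrix (Fin d ⊕ Fin d) (Fin d ⊕ Fin d) F)) = U ∧ W.map (Matrix.toLin' (x : Matrix (Fin d ⊕ Fin d) (Fin d ⊕ Fin d) F)) = W) ∨
         (U.map (Matrix.toLin' (x : Matrix (Fin d ⊕ Fin d) (Fin d ⊕ Fin d) F)) = W ∧ W.map (Matrix.toLin' (x : Matrix (Fin d ⊕ Fin d) (Fin d ⊕ Fin d) F)) = U)) := by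
  classical
  obtain ⟨z, hz⟩ := hx1
  obtain ⟨hzz, hTT, hTB, hND, hinj⟩ := Cfsg.Agent.Helper16.SympInv.setup d (by omega) x z hz
  have hz0 : z ≠ 0 := by
    rintro rfl
    simp at hzz
  have h2 : (2 : F) ≠ 0 := by
    intro h
    have hp2 : p ∣ 2 := (CharP.cast_eq_zero_iff F p 2).1 (by exact_mod_cast h)
    have hp : p = 2 := (Nat.prime_dvd_prime_iff_eq Fact.out Nat.prime_two).1 hp2
    obtain ⟨n, _, hn⟩ := FiniteField.card F p
    rw [hq, hp] at hn
    rw [hn] at hodd
    have hev : Even (2 ^ (n : ℕ)) := Nat.even_pow.2 ⟨even_two, n.ne_zero⟩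
    exact (Nat.not_even_iff_odd.2 hodd) hev
  obtain ⟨T, hTdef⟩ : ∃ T : (Fin d ⊕ Fin d → F) →ₗ[F] (Fin d ⊕ Fin d → F),
      T = Matrix.toLin' (x : Matrix (Fin d ⊕ Fin d) (Fin d ⊕ Fin d) F) := ⟨_, rfl⟩
  rw [← hTdef] at hTT hTB hinj ⊢
  obtain ⟨B, hBdef⟩ : ∃ B : LinearMap.BilinForm F (Fin d ⊕ Fin d → F),
      B = Cfsg.Agent.S0766.sB d F := ⟨_, rfl⟩
  have hBf : ∀ u v, Cfsg.sympForm d F u v = B u v := fun u v => by
    rw [hBdef, Cfsg.Agent.S0766.sB_apply]
  have hBalt : B.IsAlt := by
    rw [hBdef]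
    exact Cfsg.Agent.S0766.sB_alt d F
  rw [← hBdef] at hTB hND
  simp only [hBf]
  obtain ⟨ι, hι, e, e', π, τ, c1, c2, c3, c4, c5, c6, c7, c8⟩ :=
    Cfsg.Agent.Helper16.SympInv.symp_struct B hBalt T z hz0 hTT hTB _ ⊤
      (fun v _ => Submodule.mem_top) hND rfl
  haveI := hι
  have hUiso : ∀ u ∈ Submodule.span F (Set.range e), ∀ v ∈ Submodule.span F (Set.range e),
      B u v = 0 := by
    refine Cfsg.Agent.Helper16.SympInv.span_pair_zero B _ _ ?_
    rintro _ ⟨i, rfl⟩ _ ⟨k, rfl⟩
    by_cases hik : i = k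
    · rw [hik]
      exact hBalt.self_eq_zero _
    · exact (c4 i k hik).1
  have hWiso : ∀ u ∈ Submodule.span F (Set.range e'), ∀ v ∈ Submodule.span F (Set.range e'),
      B u v = 0 := by
    refine Cfsg.Agent.Helper16.SympInv.span_pair_zero B _ _ ?_
    rintro _ ⟨i, rfl⟩ _ ⟨k, rfl⟩
    by_cases hik : i = k
    · rw [hik]
      exact hBalt.self_eq_zero _
    · exact (c4 i k hik).2.2.2
  have hsup : Submodule.span F (Set.range e) ⊔ Submodule.span F (Set.range e') = ⊤ := by
    rw [← Submodule.span_union, eq_top_iff]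
    exact fun p _ => c5 p Submodule.mem_top
  have hdisj : Disjoint (Submodule.span F (Set.range e)) (Submodule.span F (Set.range e')) := by
    rw [Submodule.disjoint_def]
    intro p hpU hpW
    by_contra hp0
    obtain ⟨v, _, hv⟩ := hND p Submodule.mem_top hp0
    have hv' : v ∈ Submodule.span F (Set.range e) ⊔ Submodule.span F (Set.range e') := by
      rw [hsup]
      exact Submodule.mem_top
    obtain ⟨v₁, hv₁, v₂, hv₂, rfl⟩ := Submodule.mem_sup.1 hv'
    apply hv
    rw [map_add, hUiso p hpU v₁ hv₁, hWiso p hpW v₂ hv₂, add_zero]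
  refine ⟨Submodule.span F (Set.range e), Submodule.span F (Set.range e'),
    ⟨hdisj, codisjoint_iff.2 hsup⟩, hUiso, hWiso, ?_⟩
  rcases mul_self_eq_one_iff.1 hzz with hz1 | hz1
  · rw [hz1] at hTT
    have hτ : ∀ i, τ i = false := by
      intro i
      by_contra hne
      have hti : τ i = true := by
        cases h : τ i
        · exact absurd h hne
        · rfl
      obtain ⟨hπi, hTe⟩ := c6 i hti
      have h1 := hTB (e i) (T (e i))
      rw [hTT, one_smul, hTe, Cfsg.Agent.Helper16.SympInv.skew hBalt (e' i) (e i)] at h1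
      have h3 : (2 : F) * B (e i) (e' i) = 0 := by linear_combination (-1 : F) * h1
      rcases mul_eq_zero.1 h3 with h | h
      · exact h2 h
      · exact c3 i h
    left
    constructor
    · have hle : (Submodule.span F (Set.range e)).map T ≤ Submodule.span F (Set.range e) := by
        rw [Submodule.map_span, Submodule.span_le]
        rintro _ ⟨_, ⟨i, rfl⟩, rfl⟩
        obtain ⟨c, hc⟩ := Submodule.mem_span_singleton.1 (c7 i (hτ i)).1
        rw [← hc]
        exact Submodule.smul_mem _ _ (Submodule.subset_span ⟨π i, rfl⟩)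
      exact Submodule.eq_of_le_of_finrank_eq hle
        (LinearEquiv.finrank_eq (Submodule.equivMapOfInjective T hinj _)).symm
    · have hle : (Submodule.span F (Set.range e')).map T ≤ Submodule.span F (Set.range e') := by
        rw [Submodule.map_span, Submodule.span_le]
        rintro _ ⟨_, ⟨i, rfl⟩, rfl⟩
        obtain ⟨c, hc⟩ := Submodule.mem_span_singleton.1 (c7 i (hτ i)).2
        rw [← hc]
        exact Submodule.smul_mem _ _ (Submodule.subset_span ⟨π i, rfl⟩)
      exact Submodule.eq_of_le_of_finrank_eq hle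
        (LinearEquiv.finrank_eq (Submodule.equivMapOfInjective T hinj _)).symm
  · rw [hz1] at hTT
    have hAll : ∀ Q : Submodule F (Fin d ⊕ Fin d → F), (∀ v ∈ Q, T v ∈ Q) →
        Cfsg.Agent.Helper16.SympInv.ND B Q → Q ≠ ⊥ → ∃ v ∈ Q, B v (T v) ≠ 0 := by
      intro Q hQ hQND hQbot
      by_contra hcon
      push Not at hcon
      have hpol : ∀ u ∈ Q, ∀ v ∈ Q, B u (T v) = 0 := by
        intro u hu v hv
        have h1 := hcon (u + v) (Q.add_mem hu hv)
        simp only [map_add, LinearMap.add_apply] at h1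
        have h3 : B v (T u) = B u (T v) := by
          have h4 := hTB v (T u)
          rw [hTT, map_smul, Cfsg.Agent.Helper16.SympInv.skew hBalt (T v) u] at h4
          rw [← h4, smul_eq_mul]
          ring
        have h5 : (2 : F) * B u (T v) = 0 := by
          linear_combination h1 - h3 - hcon u hu - hcon v hv
        rcases mul_eq_zero.1 h5 with h | h
        · exact absurd h h2
        · exact h
      obtain ⟨u, hu, hu0⟩ : ∃ u ∈ Q, u ≠ 0 := by
        by_contra hc
        push Not at hc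
        exact hQbot ((Submodule.eq_bot_iff Q).2 hc)
      obtain ⟨w, hw, hw0⟩ := hQND u hu hu0
      apply hw0
      have h6 : T (-(T w)) = w := by
        rw [map_neg, hTT]
        simp
      rw [← h6]
      exact hpol u hu _ (Q.neg_mem (hQ w hw))
    have hτ := c8 hAll
    have hTe : ∀ i, T (e i) = e' i := fun i => (c6 i (hτ i)).2
    have hTe' : ∀ i, T (e' i) = -(e i) := by
      intro i
      rw [← hTe i, hTT]
      simp
    right
    constructor
    · rw [Submodule.map_span]
      congr 1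
      ext v
      constructor
      · rintro ⟨_, ⟨i, rfl⟩, rfl⟩
        exact ⟨i, (hTe i).symm⟩
      · rintro ⟨i, rfl⟩
        exact ⟨e i, ⟨i, rfl⟩, hTe i⟩
    · refine le_antisymm ?_ ?_
      · rw [Submodule.map_span, Submodule.span_le]
        rintro _ ⟨_, ⟨i, rfl⟩, rfl⟩
        rw [hTe' i]
        exact Submodule.neg_mem _ (Submodule.subset_span ⟨i, rfl⟩)
      · rw [Submodule.span_le]
        rintro _ ⟨i, rfl⟩
        refine Submodule.mem_map.2 ⟨-(e' i), Submodule.neg_mem _ (Submodule.subset_span ⟨i, rfl⟩), ?_⟩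
        rw [map_neg, hTe' i, neg_neg]

end Cfsg.Agent.S5962
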