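import Mathlib
import Cfsg.Statements.S5964
import Cfsg.Agent.S2577
import Cfsg.Agent.S2670
import Cfsg.Agent.S5967
-- import your own Cfsg.Agent.* helpers here

set_option autoImplicit false
open scoped MatrixGroups
open Cfsg

namespace Cfsg.Agent.S5964

section Mlem
open Matrix
variable {F : Type*} [Field F] {n : ℕ}

theorem M_eq (F₀ : Subfield F) :
    Cfsg.Geo.subfieldSubgroup F₀ (1 : GL (Fin n) F)
      = (Matrix.GeneralLinearGroup.map (F₀.subtype : F₀ →+* F)).range ⊔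
        Cfsg.Geo.scalars (Fin n) F := by
  unfold Cfsg.Geo.subfieldSubgroup
  rw [map_one]
  exact Subgroup.map_id _

theorem mem_M (F₀ : Subfield F) (g : GL (Fin n) F) (lam : F) (hlam : lam ≠ 0)
    (B : Matrix (Fin n) (Fin n) F₀)
    (hg : (g : Matrix (Fin n) (Fin n) F) = lam • B.map (F₀.subtype : F₀ →+* F)) :
    g ∈ Cfsg.Geo.subfieldSubgroup F₀ (1 : GL (Fin n) F) := by
  rw [M_eq]
  have hdet : B.det ≠ 0 := by
    intro h0
    have h1 : (B.map (F₀.subtype : F₀ →+* F)).det = 0 := by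
      have h2 := RingHom.map_det (F₀.subtype : F₀ →+* F) B
      rw [h0, map_zero, RingHom.mapMatrix_apply] at h2
      exact h2.symm
    have h3 := Matrix.isUnits_det_units g
    rw [hg, Matrix.det_smul, h1, mul_zero] at h3
    exact not_isUnit_zero h3
  obtain ⟨b, hb1, hb2⟩ : ∃ b : GL (Fin n) F,
      b ∈ (Matrix.GeneralLinearGroup.map (F₀.subtype : F₀ →+* F)).range ∧
      (b : Matrix (Fin n) (Fin n) F) = B.map (F₀.subtype : F₀ →+* F) := by
    refine ⟨Matrix.GeneralLinearGroup.map (F₀.subtype : F₀ →+* F)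
      (Matrix.GeneralLinearGroup.mkOfDetNeZero B hdet), ⟨_, rfl⟩, ?_⟩
    ext i j
    rw [Matrix.GeneralLinearGroup.map_apply]
    rfl
  have hs : b⁻¹ * g ∈ Cfsg.Geo.scalars (Fin n) F := by
    rw [Cfsg.Geo.mem_scalars_iff]
    refine ⟨Units.mk0 lam hlam, ?_⟩
    rw [Units.val_mul, hg, ← hb2, Matrix.mul_smul, ← Units.val_mul, inv_mul_cancel,
      Units.val_one]
    rfl
  have h := Subgroup.mul_mem_sup hb1 hs
  rwa [mul_inv_cancel_left] at h

theorem M_form (F₀ : Subfield F) (g : GL (Fin n) F)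
    (hg : g ∈ Cfsg.Geo.subfieldSubgroup F₀ (1 : GL (Fin n) F)) :
    ∃ (lam : F) (B : Matrix (Fin n) (Fin n) F₀), lam ≠ 0 ∧
      (g : Matrix (Fin n) (Fin n) F) = lam • B.map (F₀.subtype : F₀ →+* F) := by
  rw [M_eq] at hg
  obtain ⟨y, ⟨B₀, rfl⟩, s, hs, rfl⟩ := Subgroup.mem_sup_of_normal_right.1 hg
  obtain ⟨c, hc⟩ := (Cfsg.Geo.mem_scalars_iff s).1 hs
  refine ⟨c, (B₀ : Matrix (Fin n) (Fin n) F₀), c.ne_zero, ?_⟩
  rw [Units.val_mul, hc, Matrix.mul_smul, Matrix.mul_one]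
  congr 1

theorem nonsq_not_M (hn : 0 < n) (F₀ : Subfield F) (x : Matrix.SpecialLinearGroup (Fin n) F)
    (z : F) (hxx : (x : Matrix (Fin n) (Fin n) F) * (x : Matrix (Fin n) (Fin n) F) = z • 1)
    (hz : ¬ IsSquare z) (hF₀ : ∀ a : F₀, IsSquare (a : F)) :
    ¬ ∃ P : Matrix.SpecialLinearGroup (Fin n) F, P⁻¹ * x * P ∈
      ((Cfsg.Geo.subfieldSubgroup F₀ (1 : GL (Fin n) F)).comap
        (Matrix.SpecialLinearGroup.toGL : Matrix.SpecialLinearGroup (Fin n) F →* GL (Fin n) F)) := by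
  rintro ⟨P, hP⟩
  rw [Subgroup.mem_comap] at hP
  obtain ⟨lam, B, hlam, hB⟩ := M_form F₀ _ hP
  have hcoe : ((Matrix.SpecialLinearGroup.toGL (P⁻¹ * x * P) : GL (Fin n) F) :
      Matrix (Fin n) (Fin n) F) = ((P⁻¹ : Matrix.SpecialLinearGroup (Fin n) F) :
        Matrix (Fin n) (Fin n) F) * (x : Matrix (Fin n) (Fin n) F) *
          (P : Matrix (Fin n) (Fin n) F) := rfl
  rw [hcoe] at hB
  have h1 : (P : Matrix (Fin n) (Fin n) F) * ((P⁻¹ : Matrix.SpecialLinearGroup (Fin n) F) :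
      Matrix (Fin n) (Fin n) F) = 1 := by
    rw [← Matrix.SpecialLinearGroup.coe_mul, mul_inv_cancel, Matrix.SpecialLinearGroup.coe_one]
  have h2 : ((P⁻¹ : Matrix.SpecialLinearGroup (Fin n) F) : Matrix (Fin n) (Fin n) F) *
      (P : Matrix (Fin n) (Fin n) F) = 1 := by
    rw [← Matrix.SpecialLinearGroup.coe_mul, inv_mul_cancel, Matrix.SpecialLinearGroup.coe_one]
  have hsq : (((P⁻¹ : Matrix.SpecialLinearGroup (Fin n) F) : Matrix (Fin n) (Fin n) F) *
      (x : Matrix (Fin n) (Fin n) F) * (P : Matrix (Fin n) (Fin n) F)) *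
      (((P⁻¹ : Matrix.SpecialLinearGroup (Fin n) F) : Matrix (Fin n) (Fin n) F) *
      (x : Matrix (Fin n) (Fin n) F) * (P : Matrix (Fin n) (Fin n) F)) = z • 1 := by
    calc (((P⁻¹ : Matrix.SpecialLinearGroup (Fin n) F) : Matrix (Fin n) (Fin n) F) *
        (x : Matrix (Fin n) (Fin n) F) * (P : Matrix (Fin n) (Fin n) F)) *
        (((P⁻¹ : Matrix.SpecialLinearGroup (Fin n) F) : Matrix (Fin n) (Fin n) F) *
        (x : Matrix (Fin n) (Fin n) F) * (P : Matrix (Fin n) (Fin n) F))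
        = ((P⁻¹ : Matrix.SpecialLinearGroup (Fin n) F) : Matrix (Fin n) (Fin n) F) *
          (x : Matrix (Fin n) (Fin n) F) * ((P : Matrix (Fin n) (Fin n) F) *
          ((P⁻¹ : Matrix.SpecialLinearGroup (Fin n) F) : Matrix (Fin n) (Fin n) F)) *
          (x : Matrix (Fin n) (Fin n) F) * (P : Matrix (Fin n) (Fin n) F) := by
          simp only [Matrix.mul_assoc]
      _ = ((P⁻¹ : Matrix.SpecialLinearGroup (Fin n) F) : Matrix (Fin n) (Fin n) F) *
          ((x : Matrix (Fin n) (Fin n) F) * (x : Matrix (Fin n) (Fin n) F)) *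
          (P : Matrix (Fin n) (Fin n) F) := by
          rw [h1, Matrix.mul_one, Matrix.mul_assoc _ (x : Matrix (Fin n) (Fin n) F)
            (x : Matrix (Fin n) (Fin n) F)]
      _ = z • 1 := by rw [hxx, Matrix.mul_smul, Matrix.smul_mul, Matrix.mul_one, h2]
  rw [hB, Matrix.smul_mul, Matrix.mul_smul, smul_smul, ← Matrix.map_mul] at hsq
  have h3 := congrFun (congrFun hsq ⟨0, hn⟩) ⟨0, hn⟩
  rw [Matrix.smul_apply, Matrix.map_apply, Matrix.smul_apply, Matrix.one_apply_eq, smul_eq_mul,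
    smul_eq_mul, mul_one] at h3
  obtain ⟨μ, hμ⟩ := hF₀ ((B * B) ⟨0, hn⟩ ⟨0, hn⟩)
  apply hz
  refine ⟨lam * μ, ?_⟩
  rw [← h3]
  have h4 : ((F₀.subtype : F₀ →+* F) ((B * B) ⟨0, hn⟩ ⟨0, hn⟩) : F) = μ * μ := hμ
  rw [h4]; ring

end Mlem
section conj
open Matrix
variable {F : Type*} [Field F]

theorem sl_conj' {n : ℕ} (x : Matrix.SpecialLinearGroup (Fin n) F)
    (φ : (Fin n → F) ≃ₗ[F] (Fin n → F))
    (hdet : LinearMap.det (φ : (Fin n → F) →ₗ[F] (Fin n → F)) = 1) :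
    ∃ P : Matrix.SpecialLinearGroup (Fin n) F, ∀ w : Fin n → F,
      ((Matrix.SpecialLinearGroup.toGL (P⁻¹ * x * P) : GL (Fin n) F) :
        Matrix (Fin n) (Fin n) F) *ᵥ w
        = φ ((x : Matrix (Fin n) (Fin n) F) *ᵥ (φ.symm w)) := by
  have hcomp : (φ : (Fin n → F) →ₗ[F] (Fin n → F)) ∘ₗ (φ.symm : (Fin n → F) →ₗ[F] (Fin n → F))
      = LinearMap.id := by
    ext v; simp
  have hdet' : LinearMap.det (φ.symm : (Fin n → F) →ₗ[F] (Fin n → F)) = 1 := by
    have h2 := congrArg LinearMap.det hcomp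
    rw [LinearMap.det_comp, hdet, one_mul, LinearMap.det_id] at h2
    exact h2
  obtain ⟨P, hP⟩ : ∃ P : Matrix.SpecialLinearGroup (Fin n) F,
      (P : Matrix (Fin n) (Fin n) F)
        = LinearMap.toMatrix' (φ.symm : (Fin n → F) →ₗ[F] (Fin n → F)) :=
    ⟨⟨LinearMap.toMatrix' (φ.symm : (Fin n → F) →ₗ[F] (Fin n → F)), by
      rw [LinearMap.det_toMatrix']; exact hdet'⟩, rfl⟩
  obtain ⟨Q, hQ⟩ : ∃ Q : Matrix.SpecialLinearGroup (Fin n) F,
      (Q : Matrix (Fin n) (Fin n) F)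
        = LinearMap.toMatrix' (φ : (Fin n → F) →ₗ[F] (Fin n → F)) :=
    ⟨⟨LinearMap.toMatrix' (φ : (Fin n → F) →ₗ[F] (Fin n → F)), by
      rw [LinearMap.det_toMatrix']; exact hdet⟩, rfl⟩
  have hQP : Q * P = 1 := by
    apply Subtype.ext
    rw [Matrix.SpecialLinearGroup.coe_mul, hP, hQ, ← LinearMap.toMatrix'_comp, hcomp,
      LinearMap.toMatrix'_id]
    rfl
  have hQ' : P⁻¹ = Q := (eq_inv_of_mul_eq_one_left hQP).symm
  refine ⟨P, fun w => ?_⟩
  have hcoe : ((Matrix.SpecialLinearGroup.toGL (P⁻¹ * x * P) : GL (Fin n) F) :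
      Matrix (Fin n) (Fin n) F) = (Q : Matrix (Fin n) (Fin n) F) *
        (x : Matrix (Fin n) (Fin n) F) * (P : Matrix (Fin n) (Fin n) F) := by
    rw [hQ']; rfl
  rw [hcoe, ← Matrix.mulVec_mulVec, ← Matrix.mulVec_mulVec, hP, hQ, LinearMap.toMatrix'_mulVec,
    LinearMap.toMatrix'_mulVec]
  rfl

theorem conj_M {n : ℕ} (F₀ : Subfield F) (x : Matrix.SpecialLinearGroup (Fin n) F)
    {κ : Type} [Fintype κ] [DecidableEq κ] (β : Module.Basis κ F (Fin n → F)) (ε : κ ≃ Fin n)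
    (hdet : LinearMap.det ((β.equiv (Pi.basisFun F (Fin n)) ε :
      (Fin n → F) ≃ₗ[F] (Fin n → F)) : (Fin n → F) →ₗ[F] (Fin n → F)) = 1)
    (lam : F) (hlam : lam ≠ 0) (J : κ → κ → F₀)
    (hX : ∀ i j, β.repr ((x : Matrix (Fin n) (Fin n) F) *ᵥ β j) i = lam * (J i j : F)) :
    ∃ P : Matrix.SpecialLinearGroup (Fin n) F, P⁻¹ * x * P ∈
      ((Cfsg.Geo.subfieldSubgroup F₀ (1 : GL (Fin n) F)).comap
        (Matrix.SpecialLinearGroup.toGL : Matrix.SpecialLinearGroup (Fin n) F →* GL (Fin n) F)) := by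
  obtain ⟨P, hP⟩ := sl_conj' x (β.equiv (Pi.basisFun F (Fin n)) ε) hdet
  refine ⟨P, ?_⟩
  rw [Subgroup.mem_comap]
  refine mem_M F₀ _ lam hlam (Matrix.of (fun i j => J (ε.symm i) (ε.symm j))) ?_
  have hφβ : ∀ j, (β.equiv (Pi.basisFun F (Fin n)) ε) (β j) = Pi.single (ε j) 1 := fun j => by
    rw [Module.Basis.equiv_apply, Pi.basisFun_apply]
  have hφs : ∀ j, (β.equiv (Pi.basisFun F (Fin n)) ε).symm (Pi.single j 1) = β (ε.symm j) :=
    fun j => by
      rw [LinearEquiv.symm_apply_eq, hφβ, Equiv.apply_symm_apply]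
  have hcoord : ∀ (v : Fin n → F) (i : Fin n),
      (β.equiv (Pi.basisFun F (Fin n)) ε) v i = β.repr v (ε.symm i) := by
    intro v i
    have h : (LinearMap.proj i : (Fin n → F) →ₗ[F] F) ∘ₗ
        ((β.equiv (Pi.basisFun F (Fin n)) ε : (Fin n → F) ≃ₗ[F] (Fin n → F)) :
          (Fin n → F) →ₗ[F] (Fin n → F))
        = (Finsupp.lapply (ε.symm i) : (κ →₀ F) →ₗ[F] F) ∘ₗ
          (β.repr : (Fin n → F) →ₗ[F] (κ →₀ F)) := by
      apply β.ext
      intro l
      rw [LinearMap.comp_apply, LinearMap.comp_apply, LinearEquiv.coe_coe, LinearEquiv.coe_coe,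
        hφβ, Module.Basis.repr_self, LinearMap.proj_apply, Finsupp.lapply_apply, Pi.single_apply,
        Finsupp.single_apply]
      by_cases hl : i = ε l
      · rw [if_pos hl, if_pos (by rw [hl, Equiv.symm_apply_apply])]
      · rw [if_neg hl, if_neg (fun h => hl (by rw [h, Equiv.apply_symm_apply]))]
    exact LinearMap.congr_fun h v
  ext i j
  rw [Matrix.smul_apply, Matrix.map_apply, Matrix.of_apply, smul_eq_mul]
  have h1 := congrFun (hP (Pi.single j 1)) i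
  rw [Matrix.mulVec_single_one, hφs, hcoord, hX] at h1
  exact h1

theorem det_scale {n : ℕ} {κ : Type} [Fintype κ] [DecidableEq κ]
    (β : Module.Basis κ F (Fin n → F)) (ε : κ ≃ Fin n) (c : κ → Fˣ) :
    LinearMap.det (((β.unitsSMul c).equiv (Pi.basisFun F (Fin n)) ε :
      (Fin n → F) ≃ₗ[F] (Fin n → F)) : (Fin n → F) →ₗ[F] (Fin n → F)) * ∏ j, (c j : F)
      = LinearMap.det ((β.equiv (Pi.basisFun F (Fin n)) ε :
        (Fin n → F) ≃ₗ[F] (Fin n → F)) : (Fin n → F) →ₗ[F] (Fin n → F)) := by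
  obtain ⟨φ, hφ⟩ : ∃ φ : (Fin n → F) ≃ₗ[F] (Fin n → F),
      φ = β.equiv (Pi.basisFun F (Fin n)) ε := ⟨_, rfl⟩
  obtain ⟨φ', hφ'⟩ : ∃ φ' : (Fin n → F) ≃ₗ[F] (Fin n → F),
      φ' = (β.unitsSMul c).equiv (Pi.basisFun F (Fin n)) ε := ⟨_, rfl⟩
  rw [← hφ, ← hφ']
  have h1 : ∀ j, φ (β j) = Pi.basisFun F (Fin n) (ε j) := fun j => by
    rw [hφ, Module.Basis.equiv_apply]
  have h2 : ∀ j, φ' ((β.unitsSMul c) j) = Pi.basisFun F (Fin n) (ε j) := fun j => by
    rw [hφ', Module.Basis.equiv_apply]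
  have hD : (φ : (Fin n → F) →ₗ[F] (Fin n → F)) = (φ' : (Fin n → F) →ₗ[F] (Fin n → F)) ∘ₗ
      ((φ'.symm : (Fin n → F) →ₗ[F] (Fin n → F)) ∘ₗ (φ : (Fin n → F) →ₗ[F] (Fin n → F))) := by
    ext v; simp
  have h3 : LinearMap.det ((φ'.symm : (Fin n → F) →ₗ[F] (Fin n → F)) ∘ₗ
      (φ : (Fin n → F) →ₗ[F] (Fin n → F))) = ∏ j, (c j : F) := by
    refine S5967.det_diag_basis β _ _ (fun j => ?_)
    rw [LinearMap.comp_apply, LinearEquiv.coe_coe, LinearEquiv.coe_coe, h1, ← h2,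
      LinearEquiv.symm_apply_apply, Module.Basis.unitsSMul_apply, Units.smul_def]
  have h4 := congrArg LinearMap.det hD
  rw [LinearMap.det_comp, h3] at h4
  exact h4.symm

theorem conj_M_mono {n : ℕ} (F₀ : Subfield F) (x : Matrix.SpecialLinearGroup (Fin n) F)
    {κ : Type} [Fintype κ] [DecidableEq κ] (β : Module.Basis κ F (Fin n → F)) (ε : κ ≃ Fin n)
    (lam : F) (hlam : lam ≠ 0) (a θ : κ → F₀) (τ : κ → κ)
    (hX : ∀ j, (x : Matrix (Fin n) (Fin n) F) *ᵥ β j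
      = lam • ((a j : F) • β j + (θ j : F) • β (τ j)))
    (hscale : ∀ d : Fˣ, ∃ c : κ → Fˣ, ∏ j, (c j : F) = (d : F) ∧
      ∀ j, θ j ≠ 0 → c (τ j) = c j) :
    ∃ P : Matrix.SpecialLinearGroup (Fin n) F, P⁻¹ * x * P ∈
      ((Cfsg.Geo.subfieldSubgroup F₀ (1 : GL (Fin n) F)).comap
        (Matrix.SpecialLinearGroup.toGL : Matrix.SpecialLinearGroup (Fin n) F →* GL (Fin n) F)) := by
  have hd0 : LinearMap.det ((β.equiv (Pi.basisFun F (Fin n)) ε :
      (Fin n → F) ≃ₗ[F] (Fin n → F)) : (Fin n → F) →ₗ[F] (Fin n → F)) ≠ 0 :=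
    (LinearEquiv.isUnit_det' _).ne_zero
  obtain ⟨c, hc1, hc2⟩ := hscale (Units.mk0 _ hd0)
  have hds := det_scale β ε c
  rw [hc1, Units.val_mk0] at hds
  have hdet1 : LinearMap.det (((β.unitsSMul c).equiv (Pi.basisFun F (Fin n)) ε :
      (Fin n → F) ≃ₗ[F] (Fin n → F)) : (Fin n → F) →ₗ[F] (Fin n → F)) = 1 :=
    mul_right_cancel₀ hd0 (hds.trans (one_mul _).symm)
  have hX' : ∀ j, (x : Matrix (Fin n) (Fin n) F) *ᵥ (β.unitsSMul c) j
      = lam • ((a j : F) • (β.unitsSMul c) j + (θ j : F) • (β.unitsSMul c) (τ j)) := by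
    intro j
    rw [Module.Basis.unitsSMul_apply, Module.Basis.unitsSMul_apply, Units.smul_def,
      Units.smul_def, Matrix.mulVec_smul, hX]
    by_cases hθ : θ j = 0
    · rw [hθ]
      simp only [ZeroMemClass.coe_zero, zero_smul, add_zero]
      module
    · rw [hc2 j hθ]
      module
  refine conj_M F₀ x (β.unitsSMul c) ε hdet1 lam hlam
    (fun i j => (if j = i then a j else 0) + (if τ j = i then θ j else 0)) ?_
  intro i j
  rw [hX', map_smul, map_add, map_smul, map_smul, Module.Basis.repr_self, Module.Basis.repr_self]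
  simp only [Finsupp.smul_apply, Finsupp.add_apply, Finsupp.single_apply, smul_eq_mul]
  congr 1
  by_cases h1 : j = i
  · subst h1
    by_cases h2 : τ j = j
    · simp [h2]
    · simp [h2]
  · by_cases h2 : τ j = i
    · simp [h1, h2]
    · simp [h1, h2]

end conj
section struct
variable {F : Type*} [Field F]

theorem sqzero_struct' {V : Type*} [AddCommGroup V] [Module F V] [FiniteDimensional F V]
    (N : V →ₗ[F] V) (hN : ∀ v, N (N v) = 0) (hpos : 0 < Module.finrank F V) :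
    ∃ (s t : ℕ) (β : Module.Basis ((Fin s ⊕ Fin s) ⊕ Fin t) F V),
      (∀ i, N (β (Sum.inl (Sum.inl i))) = 0) ∧
      (∀ i, N (β (Sum.inl (Sum.inr i))) = β (Sum.inl (Sum.inl i))) ∧
      (∀ k, N (β (Sum.inr k)) = 0) ∧ (s = 0 → ∀ v, N v = 0) := by
  classical
  have hRK : LinearMap.range N ≤ LinearMap.ker N := by
    rintro _ ⟨v, rfl⟩
    exact LinearMap.mem_ker.2 (hN v)
  obtain ⟨Q, hQ⟩ := Submodule.exists_isCompl (LinearMap.range N)
  have hdisj : Disjoint (LinearMap.range N) (Q ⊓ LinearMap.ker N) :=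
    hQ.disjoint.mono_right inf_le_left
  have hsup : LinearMap.range N ⊔ (Q ⊓ LinearMap.ker N) = LinearMap.ker N := by
    rw [← sup_inf_assoc_of_le Q hRK, hQ.sup_eq_top, top_inf_eq]
  have hrn := LinearMap.finrank_range_add_finrank_ker N
  have hdim := Submodule.finrank_sup_add_finrank_inf_eq (LinearMap.range N) (Q ⊓ LinearMap.ker N)
  rw [hsup, hdisj.eq_bot, finrank_bot, add_zero] at hdim
  obtain ⟨t, ht⟩ : ∃ t, Module.finrank F ↥(Q ⊓ LinearMap.ker N) = t := ⟨_, rfl⟩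
  obtain ⟨s, hs⟩ : ∃ s, Module.finrank F (LinearMap.range N) = s := ⟨_, rfl⟩
  obtain ⟨r⟩ : Nonempty (Module.Basis (Fin s) F (LinearMap.range N)) :=
    ⟨Module.finBasisOfFinrankEq F _ hs⟩
  obtain ⟨cb⟩ : Nonempty (Module.Basis (Fin t) F ↥(Q ⊓ LinearMap.ker N)) :=
    ⟨Module.finBasisOfFinrankEq F _ ht⟩
  have hrv := S5967.li_coe_basis _ r
  have hcv := S5967.li_coe_basis _ cb
  have span_rv := S5967.span_coe_basis _ r
  have span_cv := S5967.span_coe_basis _ cb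
  obtain ⟨a, hNa⟩ : ∃ a : Fin s → V, ∀ i, N (a i) = (r i : V) :=
    ⟨fun i => Classical.choose (r i).2, fun i => Classical.choose_spec (r i).2⟩
  have hli1 : LinearIndependent F (Sum.elim (fun i => (r i : V)) (fun k => (cb k : V))) := by
    refine LinearIndependent.sum_type hrv hcv ?_
    rw [span_rv, span_cv]; exact hdisj
  have hspan1 : Submodule.span F (Set.range (Sum.elim (fun i => (r i : V)) (fun k => (cb k : V))))
      = LinearMap.ker N := by
    rw [Set.Sum.elim_range, Submodule.span_union, span_rv, span_cv, hsup]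
  have ha : LinearIndependent F a := by
    refine LinearIndependent.of_comp N ?_
    have h : ⇑N ∘ a = fun i => (r i : V) := funext hNa
    rw [h]; exact hrv
  have hli2 : LinearIndependent F
      (Sum.elim (Sum.elim (fun i => (r i : V)) (fun k => (cb k : V))) a) := by
    refine LinearIndependent.sum_type hli1 ha ?_
    rw [hspan1, Submodule.disjoint_def]
    intro v hvK hva
    obtain ⟨y, rfl⟩ := (Submodule.mem_span_range_iff_exists_fun F).1 hva
    have h0 : ∑ i, y i • (r i : V) = 0 := by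
      have h := LinearMap.mem_ker.1 hvK
      rw [map_sum] at h
      simpa only [map_smul, hNa] using h
    have hy := Fintype.linearIndependent_iff.1 hrv y h0
    simp [hy]
  obtain ⟨σ, hσ1, hσ2, hσ3⟩ : ∃ σ : (Fin s ⊕ Fin s) ⊕ Fin t → (Fin s ⊕ Fin t) ⊕ Fin s,
      (∀ i, σ (Sum.inl (Sum.inl i)) = Sum.inl (Sum.inl i)) ∧
      (∀ i, σ (Sum.inl (Sum.inr i)) = Sum.inr i) ∧
      (∀ k, σ (Sum.inr k) = Sum.inl (Sum.inr k)) :=
    ⟨Sum.elim (Sum.elim (fun i => Sum.inl (Sum.inl i)) (fun i => Sum.inr i))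
      (fun k => Sum.inl (Sum.inr k)), fun _ => rfl, fun _ => rfl, fun _ => rfl⟩
  have hσinj : Function.Injective σ := by
    rintro ((i | i) | k) ((i' | i') | k') h <;>
      simp only [hσ1, hσ2, hσ3, Sum.inl.injEq, Sum.inr.injEq, reduceCtorEq] at h <;>
      rw [h]
  have hcard : Fintype.card ((Fin s ⊕ Fin s) ⊕ Fin t) = Module.finrank F V := by
    simp only [Fintype.card_sum, Fintype.card_fin]
    omega
  obtain ⟨β, hβ⟩ := S5967.basis_of_li _ hli2 σ hσinj hcard hpos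
  refine ⟨s, t, β, ?_, ?_, ?_, ?_⟩
  · intro i
    rw [hβ, hσ1]
    exact LinearMap.mem_ker.1 (hRK (r i).2)
  · intro i
    rw [hβ, hσ2, hβ, hσ1]
    exact hNa i
  · intro k
    rw [hβ, hσ3]
    exact LinearMap.mem_ker.1 (cb k).2.2
  · intro h0 v
    have hbot : LinearMap.range N = ⊥ := by
      rw [← Submodule.finrank_eq_zero (R := F), hs, h0]
    have hv : N v ∈ LinearMap.range N := ⟨v, rfl⟩
    rw [hbot, Submodule.mem_bot] at hv
    exact hv

end struct

section nt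
variable {F : Type*} [Field F] [Fintype F]

theorem neg_nonsq (hneg : IsSquare (-1 : F)) (ω : F) (hω : ¬ IsSquare ω) : ¬ IsSquare (-ω) := by
  obtain ⟨i, hi⟩ := hneg
  rintro ⟨y, hy⟩
  apply hω
  exact ⟨i * y, by linear_combination (y * y) * hi - hy⟩

theorem nonsq_order (hch : ringChar F ≠ 2) (ω : F) (hω : ¬ IsSquare ω) (m : ℕ) (hm : m ≠ 0)
    (hωm : ω ^ m = 1) :
    padicValNat 2 (Fintype.card F - 1) < padicValNat 2 (2 * m) := by
  have hω0 : ω ≠ 0 := by
    rintro rfl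
    exact hω ⟨0, by simp⟩
  have hq1 := Fintype.one_lt_card (α := F)
  have hodd : Fintype.card F % 2 = 1 := FiniteField.odd_card_of_char_ne_two hch
  have hpow : ω ^ (Fintype.card F / 2) = -1 := by
    rcases FiniteField.pow_dichotomy hch hω0 with h | h
    · exact absurd ((FiniteField.isSquare_iff hch hω0).2 h) hω
    · exact h
  have hneg : (-1 : F) ≠ 1 := by
    intro h
    exact (Ring.two_ne_zero hch) (by linear_combination (-1 : F) * h)
  obtain ⟨a, ha⟩ : ∃ a, a = padicValNat 2 (Fintype.card F - 1) := ⟨_, rfl⟩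
  rw [← ha]
  have hq10 : Fintype.card F - 1 ≠ 0 := by omega
  obtain ⟨M', hM'⟩ : 2 ^ a ∣ Fintype.card F - 1 := ha ▸ pow_padicValNat_dvd
  have ha1 : 1 ≤ a := by
    rw [ha]
    exact one_le_padicValNat_of_dvd hq10 (by omega)
  obtain ⟨a', rfl⟩ : ∃ a', a = a' + 1 := ⟨a - 1, by omega⟩
  have h0 : Fintype.card F - 1 = 2 * (2 ^ a' * M') := by rw [hM', pow_succ]; ring
  have hhalf : Fintype.card F / 2 = 2 ^ a' * M' := by omega
  have h1 : (ω ^ M') ^ (2 ^ a') = -1 := by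
    rw [← pow_mul, mul_comm, ← hhalf]; exact hpow
  have h3 : (ω ^ M') ^ (2 ^ (a' + 1)) = 1 := by
    rw [pow_succ, pow_mul, h1]; norm_num
  have ho : orderOf (ω ^ M') = 2 ^ (a' + 1) :=
    orderOf_eq_prime_pow (by rw [h1]; exact hneg) h3
  have h4 : (ω ^ M') ^ m = 1 := by rw [← pow_mul, mul_comm, pow_mul, hωm, one_pow]
  have hdvd : 2 ^ (a' + 1) ∣ m := ho ▸ orderOf_dvd_of_pow_eq_one h4
  have hdvd2 : 2 ^ (a' + 1 + 1) ∣ 2 * m := by
    rw [pow_succ, mul_comm]; exact Nat.mul_dvd_mul_left 2 hdvd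
  have h5 := (padicValNat_dvd_iff_le (by omega : 2 * m ≠ 0)).1 hdvd2
  omega

theorem exists_nonsq_root (hch : ringChar F ≠ 2) (m : ℕ) (hm : m ≠ 0)
    (h : padicValNat 2 (Fintype.card F - 1) < padicValNat 2 (2 * m)) :
    ∃ ω : F, ¬ IsSquare ω ∧ ω ^ m = 1 := by
  obtain ⟨γ, hγ0, hγo, -⟩ := S2670.exists_gen F
  have hq1 := Fintype.one_lt_card (α := F)
  have hodd : Fintype.card F % 2 = 1 := FiniteField.odd_card_of_char_ne_two hch
  have hq10 : Fintype.card F - 1 ≠ 0 := by omega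
  obtain ⟨a, ha⟩ : ∃ a, a = padicValNat 2 (Fintype.card F - 1) := ⟨_, rfl⟩
  rw [← ha] at h
  obtain ⟨M', hM'⟩ : 2 ^ a ∣ Fintype.card F - 1 := ha ▸ pow_padicValNat_dvd
  have hM'odd : ¬ 2 ∣ M' := by
    rintro ⟨l, hl⟩
    have h3 : 2 ^ (padicValNat 2 (Fintype.card F - 1) + 1) ∣ Fintype.card F - 1 :=
      ⟨l, by rw [← ha, hM', hl, pow_succ]; ring⟩
    exact pow_succ_padicValNat_not_dvd hq10 h3
  have hdm : 2 ^ a ∣ m := by
    have h5 : 2 ^ (a + 1) ∣ 2 * m := (padicValNat_dvd_iff_le (by omega : 2 * m ≠ 0)).2 h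
    rw [pow_succ, mul_comm] at h5
    exact Nat.dvd_of_mul_dvd_mul_left two_pos h5
  obtain ⟨m', hm'⟩ := hdm
  refine ⟨γ ^ M', ?_, ?_⟩
  · intro hsq
    have hγM0 : γ ^ M' ≠ 0 := pow_ne_zero _ hγ0
    have h6 := (FiniteField.isSquare_iff hch hγM0).1 hsq
    rw [← pow_mul] at h6
    have h7 := orderOf_dvd_of_pow_eq_one h6
    rw [hγo] at h7
    have h8 : Fintype.card F - 1 = 2 * (Fintype.card F / 2) := by omega
    rw [h8] at h7
    have hpos : 0 < Fintype.card F / 2 := by omega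
    exact hM'odd (Nat.dvd_of_mul_dvd_mul_right hpos h7)
  · rw [← pow_mul, hm', ← mul_assoc, mul_comm M', ← hM', pow_mul, ← hγo, pow_orderOf_eq_one,
      one_pow]

theorem sub_sq (hch : ringChar F ≠ 2) (F₀ : Subfield F) (q₀ : ℕ) (hF₀ : Nat.card F₀ = q₀)
    (hq : Fintype.card F = q₀ ^ 2) (a : F₀) : IsSquare (a : F) := by
  classical
  by_cases ha : (a : F) = 0
  · rw [ha]; exact ⟨0, by simp⟩
  · have hFin : Fintype F₀ := Fintype.ofFinite F₀
    have ha0 : a ≠ 0 := fun h => ha (by rw [h]; rfl)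
    have h1 : a ^ (q₀ - 1) = 1 := by
      rw [← hF₀, Nat.card_eq_fintype_card]
      exact FiniteField.pow_card_sub_one_eq_one a ha0
    have h2 : (a : F) ^ (q₀ - 1) = 1 := by
      have h := congrArg (F₀.subtype : F₀ →+* F) h1
      rw [map_pow, map_one] at h
      exact h
    rw [FiniteField.isSquare_iff hch ha]
    have hodd : Fintype.card F % 2 = 1 := FiniteField.odd_card_of_char_ne_two hch
    have hq₀ : q₀ % 2 = 1 := by
      by_contra hc
      have h0 : q₀ % 2 = 0 := by omega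
      rw [hq, Nat.pow_mod, h0] at hodd
      norm_num at hodd
    obtain ⟨t, ht⟩ : ∃ t, q₀ = 2 * t + 1 := ⟨q₀ / 2, by omega⟩
    have h3 : Fintype.card F = 2 * ((q₀ - 1) * (t + 1)) + 1 := by
      rw [hq, ht]
      simp only [Nat.add_sub_cancel]
      ring
    have h4 : Fintype.card F / 2 = (q₀ - 1) * (t + 1) := by omega
    rw [h4, pow_mul, h2, one_pow]

end nt

section idx

theorem geom_odd (y k : ℕ) (hy : y % 2 = 1) : (∑ l ∈ Finset.range k, y ^ l) % 2 = k % 2 := by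
  induction k with
  | zero => simp
  | succ k ih =>
    rw [Finset.sum_range_succ]
    have h1 : y ^ k % 2 = 1 := by rw [Nat.pow_mod, hy, one_pow]; norm_num
    omega

theorem term_ratio (q₀ k i j : ℕ) (hq₀ : 1 ≤ q₀) (hk : 1 ≤ k) :
    (q₀ ^ k) ^ (i + j) - (q₀ ^ k) ^ i
      = (q₀ ^ (i + j) - q₀ ^ i) * (q₀ ^ (i * (k - 1)) * ∑ l ∈ Finset.range k, (q₀ ^ j) ^ l) := by
  obtain ⟨y, hy⟩ : ∃ y, q₀ ^ j = y + 1 :=
    ⟨q₀ ^ j - 1, by have := Nat.one_le_pow j q₀ hq₀; omega⟩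
  have h1 : (q₀ ^ k) ^ (i + j) = (q₀ ^ k) ^ i * (y + 1) ^ k := by
    rw [pow_add, ← hy, ← pow_mul, ← pow_mul, ← pow_mul, mul_comm j k]
  have h2 : q₀ ^ (i + j) = q₀ ^ i * (y + 1) := by rw [pow_add, hy]
  have h3 := geom_sum_mul_add y k
  have h4 : (q₀ ^ k) ^ i = q₀ ^ i * q₀ ^ (i * (k - 1)) := by
    rw [← pow_mul, ← pow_add]
    congr 1
    obtain ⟨k', rfl⟩ : ∃ k', k = k' + 1 := ⟨k - 1, by omega⟩
    simp only [Nat.add_sub_cancel]
    ring
  rw [h1, h2, hy, ← h3, h4]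
  generalize q₀ ^ i = u
  generalize q₀ ^ (i * (k - 1)) = w
  generalize ∑ l ∈ Finset.range k, (y + 1) ^ l = S
  have e1 : u * w * (S * y + 1) - u * w = u * w * (S * y) := by
    rw [Nat.mul_add, Nat.mul_one, Nat.add_sub_cancel]
  have e2 : u * (y + 1) - u = u * y := by
    rw [Nat.mul_add, Nat.mul_one, Nat.add_sub_cancel]
  rw [e1, e2]; ring

theorem gl_ratio (q₀ k n : ℕ) (hq₀ : q₀ % 2 = 1) (hk : k % 2 = 1) :
    ∃ R, R % 2 = 1 ∧ ∏ i : Fin n, ((q₀ ^ k) ^ n - (q₀ ^ k) ^ (i : ℕ))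
      = (∏ i : Fin n, (q₀ ^ n - q₀ ^ (i : ℕ))) * R := by
  refine ⟨∏ i : Fin n, (q₀ ^ ((i : ℕ) * (k - 1)) *
    ∑ l ∈ Finset.range k, (q₀ ^ (n - (i : ℕ))) ^ l), ?_, ?_⟩
  · rw [Finset.prod_nat_mod]
    have h : ∀ i : Fin n, (q₀ ^ ((i : ℕ) * (k - 1)) *
        ∑ l ∈ Finset.range k, (q₀ ^ (n - (i : ℕ))) ^ l) % 2 = 1 := by
      intro i
      have h1 : q₀ ^ ((i : ℕ) * (k - 1)) % 2 = 1 := by rw [Nat.pow_mod, hq₀, one_pow]; norm_num
      have h2 : q₀ ^ (n - (i : ℕ)) % 2 = 1 := by rw [Nat.pow_mod, hq₀, one_pow]; norm_num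
      have h3 := geom_odd (q₀ ^ (n - (i : ℕ))) k h2
      rw [Nat.mul_mod, h1, h3, hk]
    rw [Finset.prod_congr rfl (fun i _ => h i), Finset.prod_const_one]
    norm_num
  · rw [← Finset.prod_mul_distrib]
    refine Finset.prod_congr rfl (fun i _ => ?_)
    have hi : (i : ℕ) < n := i.2
    have h := term_ratio q₀ k (i : ℕ) (n - (i : ℕ)) (by omega) (by omega)
    rwa [Nat.add_sub_cancel' hi.le] at h

theorem index_odd {F : Type*} [Field F] [Fintype F] (n : ℕ) (F₀ : Subfield F) (q₀ k : ℕ)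
    (hF₀ : Nat.card F₀ = q₀) (hq : Fintype.card F = q₀ ^ k) (hq₀ : q₀ % 2 = 1) (hk : k % 2 = 1)
    (hΩ : 2 ∣ ((Cfsg.Geo.subfieldSubgroup F₀ (1 : GL (Fin n) F)).comap
      (Matrix.SpecialLinearGroup.toGL :
        Matrix.SpecialLinearGroup (Fin n) F →* GL (Fin n) F)).index) : False := by
  classical
  have hFin : Fintype F₀ := Fintype.ofFinite F₀
  obtain ⟨M, hM⟩ : ∃ M, M = Cfsg.Geo.subfieldSubgroup F₀ (1 : GL (Fin n) F) := ⟨_, rfl⟩
  obtain ⟨S, hS⟩ : ∃ S, S = (Matrix.SpecialLinearGroup.toGL :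
      Matrix.SpecialLinearGroup (Fin n) F →* GL (Fin n) F).range := ⟨_, rfl⟩
  rw [Subgroup.index_comap, ← hM, ← hS] at hΩ
  have hSker : S = (Matrix.GeneralLinearGroup.det : GL (Fin n) F →* Fˣ).ker := by
    rw [hS]
    ext g
    rw [MonoidHom.mem_range, MonoidHom.mem_ker]
    constructor
    · rintro ⟨A, rfl⟩
      apply Units.ext
      rw [Matrix.GeneralLinearGroup.val_det_apply]
      exact A.2
    · intro hg
      have hdet : (g : Matrix (Fin n) (Fin n) F).det = 1 := by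
        have h := congrArg Units.val hg
        rwa [Matrix.GeneralLinearGroup.val_det_apply] at h
      exact ⟨⟨(g : Matrix (Fin n) (Fin n) F), hdet⟩, Units.ext rfl⟩
  have hSn : S.Normal := by rw [hSker]; exact MonoidHom.normal_ker _
  have e1 := Subgroup.relIndex_inf_mul_relIndex (⊥ : Subgroup (GL (Fin n) F)) M S
  have e2 := Subgroup.relIndex_inf_mul_relIndex (⊥ : Subgroup (GL (Fin n) F)) S M
  rw [bot_inf_eq, Subgroup.relIndex_bot_left, Subgroup.relIndex_bot_left] at e1 e2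
  have e3 := Subgroup.card_mul_index S
  obtain ⟨J', hJ'⟩ := Subgroup.relIndex_dvd_index_of_normal S M
  have hinj : Function.Injective (Matrix.GeneralLinearGroup.map (F₀.subtype : F₀ →+* F) :
      GL (Fin n) F₀ →* GL (Fin n) F) := by
    intro g₁ g₂ h
    apply Units.ext
    ext i j
    have h1 := congrArg (fun g : GL (Fin n) F => (g : Matrix (Fin n) (Fin n) F) i j) h
    simp only [Matrix.GeneralLinearGroup.map_apply] at h1
    exact h1
  have hle : (Matrix.GeneralLinearGroup.map (F₀.subtype : F₀ →+* F)).range ≤ M := by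
    rw [hM, M_eq]; exact le_sup_left
  have hcard0 : Nat.card (GL (Fin n) F₀)
      = Nat.card (Matrix.GeneralLinearGroup.map (F₀.subtype : F₀ →+* F)).range :=
    Nat.card_congr (MonoidHom.ofInjective hinj).toEquiv
  obtain ⟨c, hc⟩ := Subgroup.card_dvd_of_le hle
  rw [← hcard0] at hc
  have hG := Matrix.card_GL_field (𝔽 := F) n
  have hG₀ := Matrix.card_GL_field (𝔽 := F₀) n
  rw [hq] at hG
  have hq₀c : Fintype.card F₀ = q₀ := by rw [← hF₀, Nat.card_eq_fintype_card]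
  rw [hq₀c] at hG₀
  obtain ⟨R, hR1, hR2⟩ := gl_ratio q₀ k n hq₀ hk
  have hpos : 0 < Nat.card (GL (Fin n) F₀) := Nat.card_pos
  obtain ⟨I', hI'⟩ := hΩ
  rw [← hG₀] at hR2
  have e2' : Nat.card ↥(M ⊓ S) * S.relIndex M = Nat.card (GL (Fin n) F₀) * c := by
    rw [← hc, ← e2, inf_comm]
  have hchain : Nat.card (GL (Fin n) F₀) * R
      = Nat.card (GL (Fin n) F₀) * (c * (2 * I') * J') := by
    rw [← hR2, ← hG, ← e3, hJ', ← e1, hI']
    calc Nat.card ↥(M ⊓ S) * (2 * I') * (S.relIndex M * J')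
        = (Nat.card ↥(M ⊓ S) * S.relIndex M) * (2 * I') * J' := by ring
      _ = _ := by rw [e2']; ring
  have hR := Nat.eq_of_mul_eq_mul_left hpos hchain
  have hev : R % 2 = 0 := by
    rw [hR]
    have h : c * (2 * I') * J' = 2 * (c * I' * J') := by ring
    rw [h]; exact Nat.mul_mod_right 2 _
  omega

end idx
section main
open Matrix
variable {F : Type*} [Field F] [Fintype F]

theorem char2_case (n : ℕ) (hn : 2 ≤ n) (F₀ : Subfield F) (h2 : (2 : F) = 0)
    (hsq : ∀ a : F, IsSquare a) (x : Matrix.SpecialLinearGroup (Fin n) F)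
    (hx : ∃ z : F, ((x ^ 2 : Matrix.SpecialLinearGroup (Fin n) F) : Matrix (Fin n) (Fin n) F)
        = z • (1 : Matrix (Fin n) (Fin n) F))
    (hx2 : ∀ z : F, (x : Matrix (Fin n) (Fin n) F) ≠ z • (1 : Matrix (Fin n) (Fin n) F)) :
    ∃ P : Matrix.SpecialLinearGroup (Fin n) F, P⁻¹ * x * P ∈
      ((Cfsg.Geo.subfieldSubgroup F₀ (1 : GL (Fin n) F)).comap
        (Matrix.SpecialLinearGroup.toGL : Matrix.SpecialLinearGroup (Fin n) F →* GL (Fin n) F)) := by
  classical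
  have hnpos : 0 < n := by omega
  obtain ⟨z, hz⟩ := hx
  rw [Matrix.SpecialLinearGroup.coe_pow, pow_two] at hz
  have hz0 : z ≠ 0 := by
    rintro rfl
    have h1 := congrArg Matrix.det hz
    have hne : Nonempty (Fin n) := ⟨⟨0, hnpos⟩⟩
    rw [Matrix.det_mul, Matrix.SpecialLinearGroup.det_coe, zero_smul, Matrix.det_zero] at h1
    simp at h1
  have hXX : ∀ v : Fin n → F, (x : Matrix (Fin n) (Fin n) F) *ᵥ
      ((x : Matrix (Fin n) (Fin n) F) *ᵥ v) = z • v := by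
    intro v
    rw [Matrix.mulVec_mulVec, hz, Matrix.smul_mulVec, Matrix.one_mulVec]
  have hfin : Module.finrank F (Fin n → F) = n := Module.finrank_fin_fun F
  have hpos : 0 < Module.finrank F (Fin n → F) := by rw [hfin]; exact hnpos
  obtain ⟨w, rfl⟩ := hsq z
  have hw0 : w ≠ 0 := fun h => hz0 (by rw [h, mul_zero])
  obtain ⟨wi, hwi⟩ : ∃ wi : F, wi * w = 1 := ⟨w⁻¹, inv_mul_cancel₀ hw0⟩
  have hwi' : w * wi = 1 := by rw [mul_comm]; exact hwi
  obtain ⟨N, hNdef⟩ : ∃ N : (Fin n → F) →ₗ[F] (Fin n → F),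
      ∀ v, N v = wi • ((x : Matrix (Fin n) (Fin n) F) *ᵥ v) - v :=
    ⟨wi • Matrix.toLin' (x : Matrix (Fin n) (Fin n) F) - LinearMap.id, fun v => rfl⟩
  have hNN : ∀ v, N (N v) = 0 := by
    intro v
    rw [hNdef (N v), hNdef v, Matrix.mulVec_sub, Matrix.mulVec_smul, hXX]
    generalize (x : Matrix (Fin n) (Fin n) F) *ᵥ v = y
    have e : wi • (wi • ((w * w) • v) - y) - (wi • y - v)
        = (wi * wi * (w * w) + 1) • v - ((2 : F) * wi) • y := by module
    have hcoef : wi * wi * (w * w) + 1 = 0 := by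
      linear_combination (wi * w + 1) * hwi + h2
    rw [e, hcoef, zero_smul, h2, zero_mul, zero_smul, sub_zero]
  obtain ⟨s, t, β, hβ1, hβ2, hβ3, hs0⟩ := sqzero_struct' N hNN hpos
  have hX : ∀ v, (x : Matrix (Fin n) (Fin n) F) *ᵥ v = w • (N v + v) := by
    intro v
    rw [hNdef, sub_add_cancel, smul_smul, hwi', one_smul]
  have hs : s ≠ 0 := by
    intro h0
    apply hx2 w
    apply Matrix.toLin'.injective
    apply LinearMap.ext
    intro v
    rw [Matrix.toLin'_apply, Matrix.toLin'_apply, hX, hs0 h0 v, zero_add, Matrix.smul_mulVec,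
      Matrix.one_mulVec]
  obtain ⟨i₀⟩ : Nonempty (Fin s) := ⟨⟨0, Nat.pos_of_ne_zero hs⟩⟩
  have hcard : Fintype.card ((Fin s ⊕ Fin s) ⊕ Fin t) = n := by
    rw [← Module.finrank_eq_card_basis β, hfin]
  refine conj_M_mono F₀ x β (Fintype.equivFinOfCardEq hcard) w hw0 (fun _ => 1)
    (Sum.elim (Sum.elim (fun _ => 0) (fun _ => 1)) (fun _ => 0))
    (Sum.elim (Sum.elim (fun i => Sum.inl (Sum.inl i)) (fun i => Sum.inl (Sum.inl i)))
      (fun k => Sum.inr k)) ?_ ?_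
  · rintro ((i | i) | k)
    · rw [hX, hβ1]
      simp
    · rw [hX, hβ2]
      simp [add_comm]
    · rw [hX, hβ3]
      simp
  · intro d
    obtain ⟨δ, hδ⟩ := hsq (d : F)
    have hδ0 : δ ≠ 0 := by
      rintro rfl
      exact d.ne_zero (by rw [hδ, mul_zero])
    refine ⟨Sum.elim (Sum.elim (fun i => if i = i₀ then Units.mk0 δ hδ0 else 1)
      (fun i => if i = i₀ then Units.mk0 δ hδ0 else 1)) (fun _ => 1), ?_, ?_⟩
    · have hp : ∏ i : Fin s, ((if i = i₀ then Units.mk0 δ hδ0 else 1 : Fˣ) : F) = δ := by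
        rw [Fintype.prod_eq_single i₀]
        · rw [if_pos rfl, Units.val_mk0]
        · intro j hj
          rw [if_neg hj, Units.val_one]
      rw [Fintype.prod_sum_type, Fintype.prod_sum_type]
      simp only [Sum.elim_inl, Sum.elim_inr, Units.val_one, Finset.prod_const_one, mul_one]
      rw [hp, hδ]
    · rintro ((i | i) | k) hθ
      · exact absurd rfl hθ
      · rfl
      · exact absurd rfl hθ

theorem eigen_case (n : ℕ) (hn : 2 ≤ n) (F₀ : Subfield F) (h2 : (2 : F) ≠ 0)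
    (x : Matrix.SpecialLinearGroup (Fin n) F) (w : F) (hw0 : w ≠ 0)
    (hz : (x : Matrix (Fin n) (Fin n) F) * (x : Matrix (Fin n) (Fin n) F) = (w * w) • 1) :
    ∃ P : Matrix.SpecialLinearGroup (Fin n) F, P⁻¹ * x * P ∈
      ((Cfsg.Geo.subfieldSubgroup F₀ (1 : GL (Fin n) F)).comap
        (Matrix.SpecialLinearGroup.toGL : Matrix.SpecialLinearGroup (Fin n) F →* GL (Fin n) F)) := by
  classical
  have hnpos : 0 < n := by omega
  have hXX : ∀ v : Fin n → F, (x : Matrix (Fin n) (Fin n) F) *ᵥ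
      ((x : Matrix (Fin n) (Fin n) F) *ᵥ v) = (w * w) • v := by
    intro v
    rw [Matrix.mulVec_mulVec, hz, Matrix.smul_mulVec, Matrix.one_mulVec]
  have hfin : Module.finrank F (Fin n → F) = n := Module.finrank_fin_fun F
  have hpos : 0 < Module.finrank F (Fin n → F) := by rw [hfin]; exact hnpos
  obtain ⟨wi, hwi⟩ : ∃ wi : F, wi * w = 1 := ⟨w⁻¹, inv_mul_cancel₀ hw0⟩
  have hwi' : w * wi = 1 := by rw [mul_comm]; exact hwi
  obtain ⟨T, hTdef⟩ : ∃ T : (Fin n → F) →ₗ[F] (Fin n → F),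
      ∀ v, T v = wi • ((x : Matrix (Fin n) (Fin n) F) *ᵥ v) :=
    ⟨wi • Matrix.toLin' (x : Matrix (Fin n) (Fin n) F), fun v => rfl⟩
  have hTT : ∀ v, T (T v) = v := by
    intro v
    rw [hTdef (T v), hTdef v, Matrix.mulVec_smul, hXX]
    have e : wi • wi • (w * w) • v = (wi * w * (wi * w)) • v := by module
    rw [e, hwi, one_mul, one_smul]
  have hcompl := S2577.isCompl_inv h2 T hTT
  have hXT : ∀ v, w • T v = (x : Matrix (Fin n) (Fin n) F) *ᵥ v := by
    intro v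
    rw [hTdef, smul_smul, hwi', one_smul]
  have hp : ∀ v ∈ LinearMap.ker (LinearMap.id - T),
      (x : Matrix (Fin n) (Fin n) F) *ᵥ v = w • v := by
    intro v hv
    rw [LinearMap.mem_ker, LinearMap.sub_apply, LinearMap.id_apply, sub_eq_zero] at hv
    rw [← hXT, ← hv]
  have hm : ∀ v ∈ LinearMap.ker (LinearMap.id + T),
      (x : Matrix (Fin n) (Fin n) F) *ᵥ v = (-w) • v := by
    intro v hv
    rw [LinearMap.mem_ker, LinearMap.add_apply, LinearMap.id_apply] at hv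
    have h4 : T v = -v := by rw [eq_neg_iff_add_eq_zero, add_comm]; exact hv
    rw [← hXT, h4, smul_neg, neg_smul]
  obtain ⟨a, ha⟩ : ∃ a, Module.finrank F (LinearMap.ker (LinearMap.id - T)) = a := ⟨_, rfl⟩
  obtain ⟨b, hb⟩ : ∃ b, Module.finrank F (LinearMap.ker (LinearMap.id + T)) = b := ⟨_, rfl⟩
  have hab : a + b = n := by
    rw [← ha, ← hb, Submodule.finrank_add_eq_of_isCompl hcompl, hfin]
  obtain ⟨γ, hγ1, hγ2⟩ := S5967.two_struct _ _ hcompl (Fin a) (Fin b)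
    (by rw [ha, Fintype.card_fin]) (by rw [hb, Fintype.card_fin]) hpos
  have hcard : Fintype.card (Fin a ⊕ Fin b) = n := by
    rw [Fintype.card_sum, Fintype.card_fin, Fintype.card_fin]; exact hab
  obtain ⟨j₀⟩ : Nonempty (Fin a ⊕ Fin b) := by
    rw [← Fintype.card_pos_iff, hcard]; exact hnpos
  refine conj_M_mono F₀ x γ (Fintype.equivFinOfCardEq hcard) w hw0
    (Sum.elim (fun _ => 1) (fun _ => -1)) (fun _ => 0) id ?_ ?_
  · rintro (i | k)
    · rw [hp _ (hγ1 i)]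
      simp
    · rw [hm _ (hγ2 k)]
      simp
  · intro d
    refine ⟨fun j => if j = j₀ then d else 1, ?_, fun j hθ => absurd rfl hθ⟩
    rw [Fintype.prod_eq_single j₀]
    · dsimp only
      rw [if_pos rfl]
    · intro j hj
      dsimp only
      rw [if_neg hj, Units.val_one]

theorem k2_back (n : ℕ) (hn : 2 ≤ n) (F₀ : Subfield F) (q₀ : ℕ) (hF₀ : Nat.card F₀ = q₀)
    (hq : Fintype.card F = q₀ ^ 2) (hch : ringChar F ≠ 2)
    (hle : padicValNat 2 n ≤ padicValNat 2 (Fintype.card F - 1))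
    (x : Matrix.SpecialLinearGroup (Fin n) F)
    (hx : ∃ z : F, ((x ^ 2 : Matrix.SpecialLinearGroup (Fin n) F) : Matrix (Fin n) (Fin n) F)
        = z • (1 : Matrix (Fin n) (Fin n) F)) :
    ∃ P : Matrix.SpecialLinearGroup (Fin n) F, P⁻¹ * x * P ∈
      ((Cfsg.Geo.subfieldSubgroup F₀ (1 : GL (Fin n) F)).comap
        (Matrix.SpecialLinearGroup.toGL : Matrix.SpecialLinearGroup (Fin n) F →* GL (Fin n) F)) := by
  classical
  have hnpos : 0 < n := by omega
  obtain ⟨z, hz⟩ := hx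
  rw [Matrix.SpecialLinearGroup.coe_pow, pow_two] at hz
  have hz0 : z ≠ 0 := by
    rintro rfl
    have h1 := congrArg Matrix.det hz
    have hne : Nonempty (Fin n) := ⟨⟨0, hnpos⟩⟩
    rw [Matrix.det_mul, Matrix.SpecialLinearGroup.det_coe, zero_smul, Matrix.det_zero] at h1
    simp at h1
  by_cases hsq : IsSquare z
  · obtain ⟨w, rfl⟩ := hsq
    exact eigen_case n hn F₀ (Ring.two_ne_zero hch) x w (fun h => hz0 (by rw [h, mul_zero])) hz
  · exfalso
    have hXX : ∀ v : Fin n → F, (x : Matrix (Fin n) (Fin n) F) *ᵥ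
        ((x : Matrix (Fin n) (Fin n) F) *ᵥ v) = z • v := by
      intro v
      rw [Matrix.mulVec_mulVec, hz, Matrix.smul_mulVec, Matrix.one_mulVec]
    have hfin : Module.finrank F (Fin n → F) = n := Module.finrank_fin_fun F
    have hT : (Matrix.toLin' (x : Matrix (Fin n) (Fin n) F) : Module.End F (Fin n → F)) ^ 2
        = z • 1 := by
      apply LinearMap.ext
      intro v
      rw [pow_two, Module.End.mul_apply, Matrix.toLin'_apply, Matrix.toLin'_apply, hXX,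
        LinearMap.smul_apply, Module.End.one_apply]
    have hzb : ∀ b : F, b ^ 2 ≠ z := fun b hb => hsq ⟨b, by rw [← hb, pow_two]⟩
    obtain ⟨ι, hι, e, B, hB⟩ := S2670.chain_basis Nat.prime_two _ z hT hzb
    have hB0 : ∀ j, (x : Matrix (Fin n) (Fin n) F) *ᵥ B (0, j) = B (1, j) := by
      intro j
      rw [hB, hB]
      simp
    have hB1 : ∀ j, (x : Matrix (Fin n) (Fin n) F) *ᵥ B (1, j) = z • B (0, j) := by
      intro j
      rw [hB, hB]
      simp [hXX]
    have col0 : ∀ (k : Fin 2) (i j : ι),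
        B.repr ((x : Matrix (Fin n) (Fin n) F) *ᵥ B (0, j)) (k, i)
          = if i = j then (!![0, z; 1, 0] : Matrix (Fin 2) (Fin 2) F) k 0 else 0 := by
      intro k i j
      rw [hB0, Module.Basis.repr_self, Finsupp.single_apply]
      by_cases hij : i = j
      · subst hij
        fin_cases k <;> simp
      · rw [if_neg (fun h => hij (Prod.ext_iff.1 h).2.symm), if_neg hij]
    have col1 : ∀ (k : Fin 2) (i j : ι),
        B.repr ((x : Matrix (Fin n) (Fin n) F) *ᵥ B (1, j)) (k, i)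
          = if i = j then (!![0, z; 1, 0] : Matrix (Fin 2) (Fin 2) F) k 1 else 0 := by
      intro k i j
      rw [hB1, map_smul, Module.Basis.repr_self, Finsupp.smul_apply, Finsupp.single_apply,
        smul_eq_mul]
      by_cases hij : i = j
      · subst hij
        fin_cases k <;> simp
      · rw [if_neg (fun h => hij (Prod.ext_iff.1 h).2.symm), if_neg hij, mul_zero]
    have hmat : LinearMap.toMatrix B B (Matrix.toLin' (x : Matrix (Fin n) (Fin n) F))
        = Matrix.blockDiagonal (fun _ : ι => (!![0, z; 1, 0] : Matrix (Fin 2) (Fin 2) F)) := by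
      ext ⟨k, i⟩ ⟨l, j⟩
      rw [LinearMap.toMatrix_apply, Matrix.blockDiagonal_apply, Matrix.toLin'_apply]
      fin_cases l
      · exact col0 k i j
      · exact col1 k i j
    have hdetT : LinearMap.det (Matrix.toLin' (x : Matrix (Fin n) (Fin n) F))
        = (-z) ^ Fintype.card ι := by
      rw [← LinearMap.det_toMatrix B, hmat, Matrix.det_blockDiagonal]
      simp only [Matrix.det_fin_two_of, Finset.prod_const, Finset.card_univ]
      congr 1
      ring
    rw [LinearMap.det_toLin', Matrix.SpecialLinearGroup.det_coe] at hdetT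
    have hn2 : n = 2 * Fintype.card ι := by
      have h := Module.finrank_eq_card_basis B
      rw [hfin, Fintype.card_prod, Fintype.card_fin] at h
      exact h
    have hι0 : Fintype.card ι ≠ 0 := by omega
    have hneg1 : IsSquare (-1 : F) := by
      have h := sub_sq hch F₀ q₀ hF₀ hq (-1)
      simpa using h
    have hlt := nonsq_order hch (-z) (neg_nonsq hneg1 z hsq) (Fintype.card ι) hι0 hdetT.symm
    rw [← hn2] at hlt
    omega

theorem k2_fwd (n : ℕ) (hn : 2 ≤ n) (F₀ : Subfield F) (q₀ : ℕ) (hF₀ : Nat.card F₀ = q₀)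
    (hq : Fintype.card F = q₀ ^ 2) (hch : ringChar F ≠ 2)
    (hlt : padicValNat 2 (Fintype.card F - 1) < padicValNat 2 n) :
    ∃ x : Matrix.SpecialLinearGroup (Fin n) F,
      (∃ z : F, ((x ^ 2 : Matrix.SpecialLinearGroup (Fin n) F) : Matrix (Fin n) (Fin n) F)
        = z • (1 : Matrix (Fin n) (Fin n) F)) ∧
      (∀ z : F, (x : Matrix (Fin n) (Fin n) F) ≠ z • (1 : Matrix (Fin n) (Fin n) F)) ∧
      ¬ ∃ P : Matrix.SpecialLinearGroup (Fin n) F, P⁻¹ * x * P ∈
        ((Cfsg.Geo.subfieldSubgroup F₀ (1 : GL (Fin n) F)).comap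
          (Matrix.SpecialLinearGroup.toGL :
            Matrix.SpecialLinearGroup (Fin n) F →* GL (Fin n) F)) := by
  classical
  have hnpos : 0 < n := by omega
  have h2n : 2 ∣ n := dvd_of_one_le_padicValNat (by omega)
  obtain ⟨m, hm⟩ := h2n
  have hm0 : m ≠ 0 := by omega
  rw [hm] at hlt
  obtain ⟨ω, hω1, hω2⟩ := exists_nonsq_root hch m hm0 hlt
  have hneg1 : IsSquare (-1 : F) := by
    have h := sub_sq hch F₀ q₀ hF₀ hq (-1)
    simpa using h
  have hzns : ¬ IsSquare (-ω) := neg_nonsq hneg1 ω hω1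
  obtain ⟨e⟩ : Nonempty (Fin 2 × Fin m ≃ Fin n) := ⟨finProdFinEquiv.trans (finCongr hm.symm)⟩
  obtain ⟨Xm, hXm⟩ : ∃ Xm : Matrix (Fin n) (Fin n) F, Xm = Matrix.reindexAlgEquiv F F e
      (Matrix.blockDiagonal (fun _ : Fin m => (!![0, -ω; 1, 0] : Matrix (Fin 2) (Fin 2) F))) :=
    ⟨_, rfl⟩
  have hM2 : (!![0, -ω; 1, 0] : Matrix (Fin 2) (Fin 2) F) * !![0, -ω; 1, 0] = (-ω) • 1 := by
    ext i j
    fin_cases i <;> fin_cases j <;> simp [Matrix.mul_apply, Fin.sum_univ_two]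
  have hXX : Xm * Xm = (-ω) • 1 := by
    rw [hXm, ← map_mul, ← Matrix.blockDiagonal_mul]
    simp only [hM2]
    rw [show (fun _ : Fin m => (-ω) • (1 : Matrix (Fin 2) (Fin 2) F))
      = (-ω) • (1 : Fin m → Matrix (Fin 2) (Fin 2) F) from rfl, Matrix.blockDiagonal_smul,
      Matrix.blockDiagonal_one, map_smul, map_one]
  have hdet : Xm.det = 1 := by
    rw [hXm, Matrix.det_reindexAlgEquiv, Matrix.det_blockDiagonal]
    simp only [Matrix.det_fin_two_of, Finset.prod_const, Finset.card_univ, Fintype.card_fin]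
    have h : (0 * 0 - -ω * 1 : F) = ω := by ring
    rw [h, hω2]
  obtain ⟨x, hx⟩ : ∃ x : Matrix.SpecialLinearGroup (Fin n) F,
      (x : Matrix (Fin n) (Fin n) F) = Xm := ⟨⟨Xm, hdet⟩, rfl⟩
  have hxx : (x : Matrix (Fin n) (Fin n) F) * (x : Matrix (Fin n) (Fin n) F) = (-ω) • 1 := by
    rw [hx]; exact hXX
  refine ⟨x, ⟨-ω, by rw [Matrix.SpecialLinearGroup.coe_pow, pow_two]; exact hxx⟩, ?_, ?_⟩
  · intro c hc
    apply hzns
    refine ⟨c, ?_⟩
    rw [hc] at hxx
    have h1 := congrFun (congrFun hxx ⟨0, hnpos⟩) ⟨0, hnpos⟩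
    simp only [Matrix.mul_smul, Matrix.smul_apply,
      Matrix.one_apply_eq, smul_eq_mul, mul_one] at h1
    exact h1.symm
  · exact nonsq_not_M hnpos F₀ x (-ω) hxx hzns (sub_sq hch F₀ q₀ hF₀ hq)

end main


/-- Involutions of PSL_n(q) and subfield subgroups. Here `T = PSL_n(F)` for a field `F` with `q = p^f` elements (`n ≥ 2`, `(n, q) ≠ (2, 2), (2, 3)`), `F₀` is the subfield with `q₀` elements where `q = q₀^k` for a prime `k`, and `H` is the subgroup of matrices of determinant 1 lying in the subfield group of `F₀` (invertible matrices over `F₀` times scalars) — a maximal subgroup of type GL_n(q₀) (the case `n = 2`, `q₀ = 2` is excluded); Ω is the set of `T`-conjugates of `H` (cosets of `H`), so an element of `T` of prime order `r` (a matrix `x` of determinant 1 with `x^r` scalar, `x` not scalar) fixes a point of Ω when some conjugate of `x` by a matrix of determinant 1 lies in `H`. Suppose the index of `H` is even. Then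 every involution of `T` is conjugate in `T` into `H` if and only if either `q` is even, or `k = 2` and `(n)_2 ≤ (q − 1)_2`. (For `q` odd and `k` odd the index of `H` is odd, so that case does not arise.) -/
theorem result {F : Type*} [Field F] [Fintype F] {p : ℕ} [Fact p.Prime] [CharP F p] {q : ℕ} (hq : Fintype.card F = q)
    (n : ℕ) (hn : 2 ≤ n) (hT : (n, q) ≠ (2, 2) ∧ (n, q) ≠ (2, 3))
    (F₀ : Subfield F) (k q₀ : ℕ) (hk : k.Prime) (hF₀ : Nat.card ↥F₀ = q₀) (hqk : q = q₀ ^ k) (hC5 : ¬ (n = 2 ∧ q₀ = 2)) (hΩ : 2 ∣ ((Cfsg.Geo.subfieldSubgroup F₀ 1).comap (Matrix.SpecialLinearGroup.toGL : Matrix.SpecialLinearGroup (Fin n) F →* GL (Fin n) F)).index) :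
    (∀ x : Matrix.SpecialLinearGroup (Fin n) F,
      (∃ z : F, ((x ^ 2 : Matrix.SpecialLinearGroup (Fin n) F) : Matrix (Fin n) (Fin n) F) = z • (1 : Matrix (Fin n) (Fin n) F)) →
      (∀ z : F, (x : Matrix (Fin n) (Fin n) F) ≠ z • (1 : Matrix (Fin n) (Fin n) F)) →
      ∃ P : Matrix.SpecialLinearGroup (Fin n) F, P⁻¹ * x * P ∈ ((Cfsg.Geo.subfieldSubgroup F₀ 1).comap (Matrix.SpecialLinearGroup.toGL : Matrix.SpecialLinearGroup (Fin n) F →* GL (Fin n) F))) ↔
    (Odd q → (k = 2 ∧ padicValNat 2 n ≤ padicValNat 2 (q - 1))) := by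
  subst hq
  classical
  by_cases hodd : Odd (Fintype.card F)
  · have hch : ringChar F ≠ 2 := by
      intro h
      have h1 := FiniteField.even_card_of_char_two h
      rw [Nat.odd_iff] at hodd
      omega
    rcases hk.eq_two_or_odd' with hk2 | hkodd
    · subst hk2
      constructor
      · intro hall _
        refine ⟨rfl, ?_⟩
        by_contra hlt
        obtain ⟨x, hx1, hx2, hx3⟩ := k2_fwd n hn F₀ q₀ hF₀ hqk hch (not_le.1 hlt)
        exact hx3 (hall x hx1 hx2)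
      · intro h x hx1 _
        exact k2_back n hn F₀ q₀ hF₀ hqk hch (h hodd).2 x hx1
    · exfalso
      have hq₀ : q₀ % 2 = 1 := by
        rw [hqk] at hodd
        exact Nat.odd_iff.1 ((Nat.odd_pow_iff hk.ne_zero).1 hodd)
      exact index_odd n F₀ q₀ k hF₀ hqk hq₀ (Nat.odd_iff.1 hkodd) hΩ
  · have hev : Fintype.card F % 2 = 0 := by
      rw [Nat.odd_iff] at hodd
      omega
    have hch : ringChar F = 2 := FiniteField.even_card_iff_char_two.2 hev
    haveI : CharP F 2 := ringChar.of_eq hch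
    constructor
    · intro _ ho
      exact absurd ho hodd
    · intro _ x hx1 hx2
      exact char2_case n hn F₀ CharTwo.two_eq_zero (FiniteField.isSquare_of_char_two hch) x hx1 hx2

end Cfsg.Agent.S5964
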