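import Mathlib
import Cfsg.Statements.S5966
import Cfsg.Agent.S2577
import Cfsg.Agent.S2670
import Cfsg.Agent.S5967
import Cfsg.Agent.S5964
import Cfsg.Agent.Helper16.Jordan
-- import your own Cfsg.Agent.* helpers here

set_option autoImplicit false
open scoped MatrixGroups
open Cfsg

namespace Cfsg.Agent.S5966

section cube
variable {F : Type*} [Field F] [CharP F 3]

theorem cube_inj (a b : F) (h : a ^ 3 = b ^ 3) : a = b := by
  have h1 : (a - b) ^ 3 = 0 := by rw [sub_pow_char, h, sub_self]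
  exact sub_eq_zero.1 (pow_eq_zero_iff (by norm_num) |>.1 h1)

theorem cube_surj [Finite F] (z : F) : ∃ w : F, w ^ 3 = z := by
  have hinj : Function.Injective (fun a : F => a ^ 3) := fun a b h => cube_inj a b h
  exact Finite.injective_iff_surjective.1 hinj z

theorem cube_surj_sub [Finite F] (F₀ : Subfield F) (c : F₀) : ∃ c₀ : F₀, c₀ ^ 3 = c := by
  have hinj : Function.Injective (fun a : F₀ => a ^ 3) := by
    intro a b h
    apply Subtype.ext
    apply cube_inj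
    have h1 := congrArg (F₀.subtype : F₀ →+* F) h
    simp only [map_pow] at h1
    exact h1
  exact Finite.injective_iff_surjective.1 hinj c

theorem three_eq_zero : (3 : F) = 0 := by
  have h := CharP.cast_eq_zero F 3
  exact_mod_cast h

end cube

section conj
open Matrix
variable {F : Type*} [Field F]

theorem conj_M_mono' {n : ℕ} (F₀ : Subfield F) (x : Matrix.SpecialLinearGroup (Fin n) F)
    {κ : Type} [Fintype κ] [DecidableEq κ] (β : Module.Basis κ F (Fin n → F)) (ε : κ ≃ Fin n)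
    (lam : F) (hlam : lam ≠ 0) (a θ : κ → F₀) (τ : κ → κ)
    (hX : ∀ j, (x : Matrix (Fin n) (Fin n) F) *ᵥ β j
      = lam • ((a j : F) • β j + (θ j : F) • β (τ j)))
    (hscale : ∀ d : Fˣ, ∃ (c : κ → Fˣ) (ρ : κ → F₀), ∏ j, (c j : F) = (d : F) ∧
      ∀ j, θ j ≠ 0 → (c j : F) = (ρ j : F) * (c (τ j) : F)) :
    ∃ P : Matrix.SpecialLinearGroup (Fin n) F, P⁻¹ * x * P ∈
      ((Cfsg.Geo.subfieldSubgroup F₀ (1 : GL (Fin n) F)).comap
        (Matrix.SpecialLinearGroup.toGL : Matrix.SpecialLinearGroup (Fin n) F →* GL (Fin n) F)) := by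
  have hd0 : LinearMap.det ((β.equiv (Pi.basisFun F (Fin n)) ε :
      (Fin n → F) ≃ₗ[F] (Fin n → F)) : (Fin n → F) →ₗ[F] (Fin n → F)) ≠ 0 :=
    (LinearEquiv.isUnit_det' _).ne_zero
  obtain ⟨c, ρ, hc1, hc2⟩ := hscale (Units.mk0 _ hd0)
  have hds := S5964.det_scale β ε c
  rw [hc1, Units.val_mk0] at hds
  have hdet1 : LinearMap.det (((β.unitsSMul c).equiv (Pi.basisFun F (Fin n)) ε :
      (Fin n → F) ≃ₗ[F] (Fin n → F)) : (Fin n → F) →ₗ[F] (Fin n → F)) = 1 :=
    mul_right_cancel₀ hd0 (hds.trans (one_mul _).symm)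
  have hX' : ∀ j, (x : Matrix (Fin n) (Fin n) F) *ᵥ (β.unitsSMul c) j
      = lam • ((a j : F) • (β.unitsSMul c) j
        + ((θ j : F) * (ρ j : F)) • (β.unitsSMul c) (τ j)) := by
    intro j
    rw [Module.Basis.unitsSMul_apply, Module.Basis.unitsSMul_apply, Units.smul_def,
      Units.smul_def, Matrix.mulVec_smul, hX]
    by_cases hθ : θ j = 0
    · rw [hθ]
      simp only [ZeroMemClass.coe_zero, zero_smul, add_zero, zero_mul]
      module
    · rw [hc2 j hθ]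
      module
  refine S5964.conj_M F₀ x (β.unitsSMul c) ε hdet1 lam hlam
    (fun i j => (if j = i then a j else 0) + (if τ j = i then θ j * ρ j else 0)) ?_
  intro i j
  rw [hX', map_smul, map_add, map_smul, map_smul, Module.Basis.repr_self, Module.Basis.repr_self]
  simp only [Finsupp.smul_apply, Finsupp.add_apply, Finsupp.single_apply, smul_eq_mul]
  congr 1
  by_cases h1 : j = i
  · subst h1
    by_cases h2 : τ j = j
    · simp [h2]
    · simp [h2]
  · by_cases h2 : τ j = i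
    · simp [h1, h2]
    · simp [h1, h2]

end conj
section back
open Matrix
variable {F : Type*} [Field F] [Fintype F]

theorem sq_decomp (hch : ringChar F ≠ 2) (F₀ : Subfield F) (q₀ k : ℕ) (hF₀ : Nat.card F₀ = q₀)
    (hq : Fintype.card F = q₀ ^ k) (hk : k % 2 = 1) (hch₀ : ringChar F₀ ≠ 2) (d : F)
    (hd : d ≠ 0) : ∃ (ρ₀ : F₀) (s : F), s ≠ 0 ∧ d = (ρ₀ : F) * (s * s) := by
  classical
  by_cases hsq : IsSquare d
  · obtain ⟨s, hs⟩ := hsq
    refine ⟨1, s, ?_, ?_⟩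
    · rintro rfl
      exact hd (by rw [hs, mul_zero])
    · rw [hs]; simp
  · have hFin : Fintype F₀ := Fintype.ofFinite F₀
    obtain ⟨δ₀, hδ₀⟩ := FiniteField.exists_nonsquare hch₀ (F := F₀)
    have hδ00 : δ₀ ≠ 0 := by
      rintro rfl
      exact hδ₀ ⟨0, by simp⟩
    have hδF0 : (δ₀ : F) ≠ 0 := fun h => hδ00 (Subtype.ext h)
    have hE0 : δ₀ ^ (Fintype.card F₀ / 2) = -1 := by
      rcases FiniteField.pow_dichotomy hch₀ hδ00 with h | h
      · exact absurd ((FiniteField.isSquare_iff hch₀ hδ00).2 h) hδ₀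
      · exact h
    have hq₀c : Fintype.card F₀ = q₀ := by rw [← hF₀, Nat.card_eq_fintype_card]
    rw [hq₀c] at hE0
    have hE0' : (δ₀ : F) ^ (q₀ / 2) = -1 := by
      have h := congrArg (F₀.subtype : F₀ →+* F) hE0
      rw [map_pow, map_neg, map_one] at h
      exact h
    have hq₀odd : q₀ % 2 = 1 := by
      have h1 : Fintype.card F % 2 = 1 := FiniteField.odd_card_of_char_ne_two hch
      by_contra hc
      have h0 : q₀ % 2 = 0 := by omega
      rw [hq, Nat.pow_mod, h0, zero_pow (by omega : k ≠ 0)] at h1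
      norm_num at h1
    obtain ⟨h, hh⟩ : ∃ h, q₀ = 2 * h + 1 := ⟨q₀ / 2, by omega⟩
    have hS := geom_sum_mul_add (2 * h) k
    have hSodd := S5964.geom_odd (2 * h + 1) k (by omega)
    rw [hk] at hSodd
    obtain ⟨S, hSdef⟩ : ∃ S, S = ∑ l ∈ Finset.range k, (2 * h + 1) ^ l := ⟨_, rfl⟩
    rw [← hSdef] at hS hSodd
    have hqS : Fintype.card F / 2 = (q₀ / 2) * S := by
      have h2 : Fintype.card F = 2 * (h * S) + 1 := by rw [hq, hh, ← hS]; ring
      have h3 : q₀ / 2 = h := by omega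
      rw [h3]; omega
    have hEF : (δ₀ : F) ^ (Fintype.card F / 2) = -1 := by
      rw [hqS, pow_mul, hE0']
      exact Odd.neg_one_pow (Nat.odd_iff.2 hSodd)
    have hEd : d ^ (Fintype.card F / 2) = -1 := by
      rcases FiniteField.pow_dichotomy hch hd with h | h
      · exact absurd ((FiniteField.isSquare_iff hch hd).2 h) hsq
      · exact h
    have hprod : IsSquare (d * (δ₀ : F)) := by
      rw [FiniteField.isSquare_iff hch (mul_ne_zero hd hδF0), mul_pow, hEd, hEF]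
      norm_num
    obtain ⟨s₁, hs₁⟩ := hprod
    have hs₁0 : s₁ ≠ 0 := by
      rintro rfl
      exact (mul_ne_zero hd hδF0) (by rw [hs₁, mul_zero])
    refine ⟨δ₀, s₁ / (δ₀ : F), div_ne_zero hs₁0 hδF0, ?_⟩
    have e : (δ₀ : F) * (s₁ / (δ₀ : F) * (s₁ / (δ₀ : F))) = (s₁ * s₁) / (δ₀ : F) := by
      field_simp
    rw [e, ← hs₁, mul_div_assoc, div_self hδF0, mul_one]

theorem back3 [CharP F 3] (n : ℕ) (hn : 2 ≤ n) (F₀ : Subfield F) (q₀ k : ℕ)
    (hF₀ : Nat.card F₀ = q₀) (hq : Fintype.card F = q₀ ^ k)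
    (hcond : Odd n ∨ (Even n ∧ k % 2 = 1))
    (x : Matrix.SpecialLinearGroup (Fin n) F)
    (hx : ∃ z : F, ((x ^ 3 : Matrix.SpecialLinearGroup (Fin n) F) : Matrix (Fin n) (Fin n) F)
        = z • (1 : Matrix (Fin n) (Fin n) F)) :
    ∃ P : Matrix.SpecialLinearGroup (Fin n) F, P⁻¹ * x * P ∈
      ((Cfsg.Geo.subfieldSubgroup F₀ (1 : GL (Fin n) F)).comap
        (Matrix.SpecialLinearGroup.toGL : Matrix.SpecialLinearGroup (Fin n) F →* GL (Fin n) F)) := by
  classical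
  have hnpos : 0 < n := by omega
  have h3 : (3 : F) = 0 := three_eq_zero
  have hch : ringChar F ≠ 2 := by rw [ringChar.eq F 3]; norm_num
  have hch₀ : ringChar F₀ ≠ 2 := by rw [ringChar.eq F₀ 3]; norm_num
  obtain ⟨z, hz⟩ := hx
  rw [Matrix.SpecialLinearGroup.coe_pow] at hz
  have hz0 : z ≠ 0 := by
    rintro rfl
    have h1 := congrArg Matrix.det hz
    have hne : Nonempty (Fin n) := ⟨⟨0, hnpos⟩⟩
    rw [Matrix.det_pow, Matrix.SpecialLinearGroup.det_coe, zero_smul, Matrix.det_zero,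
      one_pow] at h1
    exact one_ne_zero h1
  have hX3 : (x : Matrix (Fin n) (Fin n) F) * (x : Matrix (Fin n) (Fin n) F) *
      (x : Matrix (Fin n) (Fin n) F) = z • 1 := by
    rw [← hz, pow_succ, pow_two]
  have hXXX : ∀ v : Fin n → F, (x : Matrix (Fin n) (Fin n) F) *ᵥ
      ((x : Matrix (Fin n) (Fin n) F) *ᵥ ((x : Matrix (Fin n) (Fin n) F) *ᵥ v)) = z • v := by
    intro v
    rw [Matrix.mulVec_mulVec, Matrix.mulVec_mulVec, hX3, Matrix.smul_mulVec, Matrix.one_mulVec]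
  have hfin : Module.finrank F (Fin n → F) = n := Module.finrank_fin_fun F
  obtain ⟨w, hw⟩ := cube_surj z
  have hw0 : w ≠ 0 := by
    rintro rfl
    exact hz0 (by rw [← hw]; norm_num)
  obtain ⟨wi, hwi⟩ : ∃ wi : F, wi * w = 1 := ⟨w⁻¹, inv_mul_cancel₀ hw0⟩
  have hwi' : w * wi = 1 := by rw [mul_comm]; exact hwi
  obtain ⟨N, hNdef⟩ : ∃ N : Module.End F (Fin n → F),
      ∀ v, N v = wi • ((x : Matrix (Fin n) (Fin n) F) *ᵥ v) - v :=
    ⟨wi • Matrix.toLin' (x : Matrix (Fin n) (Fin n) F) - LinearMap.id, fun v => rfl⟩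
  have hNNN : ∀ v, N (N (N v)) = 0 := by
    intro v
    have e1 : N v = wi • ((x : Matrix (Fin n) (Fin n) F) *ᵥ v) - v := hNdef v
    have e2 : N (N v) = (wi * wi) • ((x : Matrix (Fin n) (Fin n) F) *ᵥ
        ((x : Matrix (Fin n) (Fin n) F) *ᵥ v))
        - (2 * wi) • ((x : Matrix (Fin n) (Fin n) F) *ᵥ v) + v := by
      rw [hNdef (N v), e1, Matrix.mulVec_sub, Matrix.mulVec_smul]
      module
    rw [hNdef (N (N v)), e2, Matrix.mulVec_add, Matrix.mulVec_sub, Matrix.mulVec_smul,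
      Matrix.mulVec_smul, hXXX]
    generalize (x : Matrix (Fin n) (Fin n) F) *ᵥ v = y₁
    generalize (x : Matrix (Fin n) (Fin n) F) *ᵥ y₁ = y₂
    have e : wi • ((wi * wi) • z • v - (2 * wi) • y₂ + y₁)
        - ((wi * wi) • y₂ - (2 * wi) • y₁ + v)
        = (wi * wi * wi * z - 1) • v - ((3 : F) * (wi * wi)) • y₂ + ((3 : F) * wi) • y₁ := by
      module
    have hcoef : wi * wi * wi * z - 1 = 0 := by
      rw [← hw]
      linear_combination (wi * wi * w * w + wi * w + 1) * hwi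
    rw [e, hcoef, h3, zero_mul, zero_mul, zero_smul, zero_smul, zero_smul, sub_zero, add_zero]
  have hN3 : N ^ 3 = 0 := by
    apply LinearMap.ext
    intro v
    rw [pow_succ, pow_two, Module.End.mul_apply, Module.End.mul_apply, LinearMap.zero_apply]
    exact hNNN v
  obtain ⟨ι, hι, m, v, hmpos, hJD⟩ := Helper16.Jordan.exists_JD N 3 hN3 _ ⊤
    (fun u _ => Submodule.mem_top) rfl
  have hm3 : ∀ i, m i ≤ 3 := hJD.le_of_pow_eq_zero 3 hN3
  obtain ⟨β, hβ⟩ : ∃ β : Module.Basis (Σ i, Fin (m i)) F (Fin n → F),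
      ∀ y, β y = (N ^ (y.2 : ℕ)) (v y.1) :=
    ⟨Module.Basis.mk hJD.li (by rw [hJD.span]), fun y => by rw [Module.Basis.mk_apply]; rfl⟩
  have hX : ∀ u, (x : Matrix (Fin n) (Fin n) F) *ᵥ u = w • (N u + u) := by
    intro u
    rw [hNdef, sub_add_cancel, smul_smul, hwi', one_smul]
  have hcard : Fintype.card (Σ i, Fin (m i)) = n := by
    rw [← Module.finrank_eq_card_basis β, hfin]
  have hsum : ∑ i, m i = n := by
    rw [← hcard, Fintype.card_sigma]
    simp
  obtain ⟨θ, hθ⟩ : ∃ θ : (Σ i, Fin (m i)) → F₀, ∀ i (l : Fin (m i)),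
      θ ⟨i, l⟩ = if (l : ℕ) + 1 < m i then 1 else 0 :=
    ⟨fun y => if (y.2 : ℕ) + 1 < m y.1 then 1 else 0, fun i l => rfl⟩
  obtain ⟨τ, hτ1, hτ2⟩ : ∃ τ : (Σ i, Fin (m i)) → (Σ i, Fin (m i)),
      (∀ i (l : Fin (m i)) (h : (l : ℕ) + 1 < m i), τ ⟨i, l⟩ = ⟨i, ⟨(l : ℕ) + 1, h⟩⟩) ∧
      (∀ i (l : Fin (m i)), ¬ (l : ℕ) + 1 < m i → τ ⟨i, l⟩ = ⟨i, l⟩) :=
    ⟨fun y => if h : (y.2 : ℕ) + 1 < m y.1 then ⟨y.1, ⟨(y.2 : ℕ) + 1, h⟩⟩ else y,
      fun i l h => dif_pos h, fun i l h => dif_neg h⟩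
  refine conj_M_mono' F₀ x β (Fintype.equivFinOfCardEq hcard) w hw0 (fun _ => 1) θ τ ?_ ?_
  · rintro ⟨i, l⟩
    rw [hX]
    by_cases h : (l : ℕ) + 1 < m i
    · have hstep : N (β ⟨i, l⟩) = β ⟨i, ⟨(l : ℕ) + 1, h⟩⟩ := by
        rw [hβ, hβ]
        exact (Helper16.Jordan.pow_succ_apply N (v i) l).symm
      rw [hτ1 i l h, hθ, if_pos h, hstep]
      simp only [OneMemClass.coe_one, one_smul]
      rw [add_comm]
    · have hl : (l : ℕ) + 1 = m i := by have := l.2; omega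
      have h0 : N (β ⟨i, l⟩) = 0 := by
        rw [hβ, ← Helper16.Jordan.pow_succ_apply]
        show (N ^ ((l : ℕ) + 1)) (v i) = 0
        rw [hl]; exact hJD.zero i
      rw [hτ2 i l h, hθ, if_neg h, h0]
      simp
  · intro d
    have core : ∀ (i₁ : ι) (g : ℕ → Fˣ) (r : ℕ → F₀),
        (∏ l ∈ Finset.range (m i₁), (g l : F)) = (d : F) →
        (∀ l, l + 1 < m i₁ → (g l : F) = (r l : F) * (g (l + 1) : F)) →
        ∃ (c : (Σ i, Fin (m i)) → Fˣ) (ρ : (Σ i, Fin (m i)) → F₀), ∏ j, (c j : F) = (d : F) ∧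
          ∀ j, θ j ≠ 0 → (c j : F) = (ρ j : F) * (c (τ j) : F) := by
      intro i₁ g r hG1 hG2
      obtain ⟨c, hc⟩ : ∃ c : (Σ i, Fin (m i)) → Fˣ, ∀ i (l : Fin (m i)),
          c ⟨i, l⟩ = if i = i₁ then g (l : ℕ) else 1 :=
        ⟨fun y => if y.1 = i₁ then g (y.2 : ℕ) else 1, fun i l => rfl⟩
      obtain ⟨ρ, hρ⟩ : ∃ ρ : (Σ i, Fin (m i)) → F₀, ∀ i (l : Fin (m i)),
          ρ ⟨i, l⟩ = if i = i₁ then r (l : ℕ) else 1 :=
        ⟨fun y => if y.1 = i₁ then r (y.2 : ℕ) else 1, fun i l => rfl⟩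
      refine ⟨c, ρ, ?_, ?_⟩
      · rw [Fintype.prod_sigma, Fintype.prod_eq_single i₁]
        · simp only [hc, eq_self_iff_true, if_true]
          exact (Fin.prod_univ_eq_prod_range (fun l => (g l : F)) (m i₁)).trans hG1
        · intro i hi
          simp only [hc, if_neg hi, Units.val_one, Finset.prod_const_one]
      · rintro ⟨i, l⟩ hθj
        rw [hθ] at hθj
        have h : (l : ℕ) + 1 < m i := by
          by_contra hcn
          rw [if_neg hcn] at hθj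
          exact hθj rfl
        rw [hτ1 i l h, hc, hc, hρ]
        by_cases hi : i = i₁
        · subst hi
          rw [if_pos rfl, if_pos rfl, if_pos rfl]
          exact hG2 l h
        · rw [if_neg hi, if_neg hi, if_neg hi]
          simp
    by_cases hodd : ∃ i₁, m i₁ % 2 = 1
    · obtain ⟨i₁, hi₁⟩ := hodd
      have hm13 : m i₁ = 1 ∨ m i₁ = 3 := by
        have h1 := hmpos i₁
        have h2 := hm3 i₁
        omega
      obtain ⟨γ, hγ⟩ : ∃ γ : F, γ ^ (m i₁) = (d : F) := by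
        rcases hm13 with h1 | h1
        · exact ⟨d, by rw [h1, pow_one]⟩
        · obtain ⟨γ, hγ⟩ := cube_surj (d : F)
          exact ⟨γ, by rw [h1]; exact hγ⟩
      have hγ0 : γ ≠ 0 := by
        rintro rfl
        rw [zero_pow (by have := hmpos i₁; omega)] at hγ
        exact d.ne_zero hγ.symm
      obtain ⟨gu, hgu⟩ : ∃ gu : Fˣ, (gu : F) = γ := ⟨Units.mk0 γ hγ0, rfl⟩
      refine core i₁ (fun _ => gu) (fun _ => 1) ?_ ?_
      · rw [Finset.prod_const, Finset.card_range, hgu]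
        exact hγ
      · intro l _
        simp
    · push Not at hodd
      have hm2 : ∀ i, m i = 2 := fun i => by
        have h1 := hmpos i
        have h2 := hm3 i
        have h4 := hodd i
        omega
      have hn2 : n = 2 * Fintype.card ι := by
        rw [← hsum, Finset.sum_congr rfl (fun i _ => hm2 i), Finset.sum_const, Finset.card_univ,
          smul_eq_mul, mul_comm]
      have hkodd : k % 2 = 1 := by
        rcases hcond with ho | ⟨_, hk⟩
        · rw [Nat.odd_iff] at ho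
          omega
        · exact hk
      obtain ⟨i₁⟩ : Nonempty ι := by
        rw [← Fintype.card_pos_iff]
        omega
      obtain ⟨ρ₀, s, hs0, hds⟩ := sq_decomp hch F₀ q₀ k hF₀ hq hkodd hch₀ (d : F) d.ne_zero
      have hρs : (ρ₀ : F) * s ≠ 0 := by
        intro h0
        apply d.ne_zero
        rw [hds, ← mul_assoc, h0, zero_mul]
      obtain ⟨g, hg0, hg1⟩ : ∃ g : ℕ → Fˣ, (g 0 : F) = (ρ₀ : F) * s ∧ ∀ l, (g (l + 1) : F) = s :=
        ⟨fun l => if l = 0 then Units.mk0 _ hρs else Units.mk0 s hs0, by simp, fun l => by simp⟩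
      refine core i₁ g (fun _ => ρ₀) ?_ ?_
      · rw [hm2 i₁, Finset.prod_range_succ, Finset.prod_range_succ, Finset.prod_range_zero, hg0,
          hg1, one_mul, hds]
        ring
      · intro l hl
        have hl0 : l = 0 := by
          have h2 := hm2 i₁
          omega
        subst hl0
        rw [hg0, hg1]

end back
section adapted
variable {F : Type*} [Field F] {ι V : Type*} [Fintype ι] [DecidableEq ι] [AddCommGroup V]
  [Module F V]

theorem repr_N (b : Module.Basis (ι ⊕ ι) F V) (N : V →ₗ[F] V)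
    (h0 : ∀ i, N (b (Sum.inl i)) = 0) (h1 : ∀ i, N (b (Sum.inr i)) = b (Sum.inl i))
    (w : V) (i : ι) :
    b.repr (N w) (Sum.inr i) = 0 ∧ b.repr (N w) (Sum.inl i) = b.repr w (Sum.inr i) := by
  have e1 : (Finsupp.lapply (Sum.inr i) : ((ι ⊕ ι) →₀ F) →ₗ[F] F) ∘ₗ
      (b.repr : V →ₗ[F] ((ι ⊕ ι) →₀ F)) ∘ₗ N = 0 := by
    apply b.ext
    intro c
    rcases c with j | j
    · simp [h0]
    · simp [h1]
  have e2 : (Finsupp.lapply (Sum.inl i) : ((ι ⊕ ι) →₀ F) →ₗ[F] F) ∘ₗ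
      (b.repr : V →ₗ[F] ((ι ⊕ ι) →₀ F)) ∘ₗ N
      = (Finsupp.lapply (Sum.inr i) : ((ι ⊕ ι) →₀ F) →ₗ[F] F) ∘ₗ
        (b.repr : V →ₗ[F] ((ι ⊕ ι) →₀ F)) := by
    apply b.ext
    intro c
    rcases c with j | j
    · simp [h0]
    · simp [h1, Finsupp.single_apply]
  exact ⟨LinearMap.congr_fun e1 w, LinearMap.congr_fun e2 w⟩

theorem adapted_sq_zero (b : Module.Basis (ι ⊕ ι) F V) (N : V →ₗ[F] V)
    (h0 : ∀ i, N (b (Sum.inl i)) = 0) (h1 : ∀ i, N (b (Sum.inr i)) = b (Sum.inl i)) (u : V) :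
    N (N u) = 0 := by
  have h : N ∘ₗ N = 0 := by
    apply b.ext
    intro c
    rcases c with j | j
    · rw [LinearMap.comp_apply, h0, map_zero, LinearMap.zero_apply]
    · rw [LinearMap.comp_apply, h1, h0, LinearMap.zero_apply]
  exact LinearMap.congr_fun h u

theorem adapted_ker (b : Module.Basis (ι ⊕ ι) F V) (N : V →ₗ[F] V)
    (h0 : ∀ i, N (b (Sum.inl i)) = 0) (h1 : ∀ i, N (b (Sum.inr i)) = b (Sum.inl i)) (u : V)
    (hu : N u = 0) : ∃ u', u = N u' := by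
  have hz : ∀ j, b.repr u (Sum.inr j) = 0 := by
    intro j
    rw [← (repr_N b N h0 h1 u j).2, hu, map_zero]
    rfl
  refine ⟨∑ j, b.repr u (Sum.inl j) • b (Sum.inr j), ?_⟩
  rw [map_sum]
  conv_lhs => rw [← b.sum_repr u, Fintype.sum_sum_type]
  simp only [hz, zero_smul, Finset.sum_const_zero, add_zero, map_smul, h1]

theorem det_comm_sq (b : Module.Basis (ι ⊕ ι) F V) (N : V →ₗ[F] V)
    (h0 : ∀ i, N (b (Sum.inl i)) = 0) (h1 : ∀ i, N (b (Sum.inr i)) = b (Sum.inl i))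
    (g : V →ₗ[F] V) (hg : ∀ u, g (N u) = N (g u)) : IsSquare (LinearMap.det g) := by
  have hC : (LinearMap.toMatrix b b g).toBlocks₂₁ = 0 := by
    ext i j
    show LinearMap.toMatrix b b g (Sum.inr i) (Sum.inl j) = 0
    rw [LinearMap.toMatrix_apply, ← h1 j, hg]
    exact (repr_N b N h0 h1 _ i).1
  have hD : (LinearMap.toMatrix b b g).toBlocks₂₂ = (LinearMap.toMatrix b b g).toBlocks₁₁ := by
    ext i j
    show LinearMap.toMatrix b b g (Sum.inr i) (Sum.inr j)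
      = LinearMap.toMatrix b b g (Sum.inl i) (Sum.inl j)
    rw [LinearMap.toMatrix_apply, LinearMap.toMatrix_apply, ← h1 j, hg]
    exact ((repr_N b N h0 h1 _ i).2).symm
  rw [← LinearMap.det_toMatrix b g, ← Matrix.fromBlocks_toBlocks (LinearMap.toMatrix b b g), hC,
    hD, Matrix.det_fromBlocks_zero₂₁]
  exact ⟨_, rfl⟩

theorem adapted_det_sq (b : Module.Basis (ι ⊕ ι) F V) (z : ι ⊕ ι → V) (N : V →ₗ[F] V)
    (h0 : ∀ i, N (b (Sum.inl i)) = 0) (h1 : ∀ i, N (b (Sum.inr i)) = b (Sum.inl i))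
    (k0 : ∀ i, N (z (Sum.inl i)) = 0) (k1 : ∀ i, N (z (Sum.inr i)) = z (Sum.inl i)) :
    IsSquare (b.det z) := by
  obtain ⟨g, hg⟩ : ∃ g : V →ₗ[F] V, ∀ c, g (b c) = z c :=
    ⟨b.constr F z, fun c => b.constr_basis F z c⟩
  have hcomm : ∀ u, g (N u) = N (g u) := by
    intro u
    have h : g ∘ₗ N = N ∘ₗ g := by
      apply b.ext
      intro c
      rcases c with j | j
      · rw [LinearMap.comp_apply, LinearMap.comp_apply, h0, map_zero, hg, k0]
      · rw [LinearMap.comp_apply, LinearMap.comp_apply, h1, hg, hg, k1]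
    exact LinearMap.congr_fun h u
  have hdet : b.det z = LinearMap.det g := by
    have h := Module.Basis.det_comp b g b
    rw [Module.Basis.det_self, mul_one] at h
    rw [← h]
    congr 1
    funext c
    exact (hg c).symm
  rw [hdet]
  exact det_comm_sq b N h0 h1 g hcomm

end adapted

section transport
open Matrix
variable {F : Type*} [Field F]

theorem det_transport {n : ℕ} (F₀ : Subfield F) (P : Matrix (Fin n) (Fin n) F) (hP : P.det = 1)
    {κ : Type} [Fintype κ] [DecidableEq κ] (ρ : Fin n ≃ κ) (v : κ → (Fin n → F₀))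
    (zf : κ → (Fin n → F))
    (hzf : ∀ c, zf c = P *ᵥ ((F₀.subtype : F₀ →+* F) ∘ (v c))) :
    ((Pi.basisFun F (Fin n)).reindex ρ).det zf
      = (F₀.subtype : F₀ →+* F) (((Pi.basisFun F₀ (Fin n)).reindex ρ).det v) := by
  have h1 : zf = (Matrix.toLin' P) ∘ (fun c => ((F₀.subtype : F₀ →+* F) ∘ (v c))) := by
    funext c
    rw [hzf]
    rfl
  rw [h1, Module.Basis.det_comp, LinearMap.det_toLin', hP, one_mul, Module.Basis.det_apply,
    Module.Basis.det_apply]
  have h2 : ((Pi.basisFun F (Fin n)).reindex ρ).toMatrix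
        (fun c => ((F₀.subtype : F₀ →+* F) ∘ (v c)))
      = (((Pi.basisFun F₀ (Fin n)).reindex ρ).toMatrix v).map (F₀.subtype : F₀ →+* F) := by
    ext i j
    rw [Matrix.map_apply, Module.Basis.toMatrix_apply, Module.Basis.toMatrix_apply,
      Module.Basis.repr_reindex_apply, Module.Basis.repr_reindex_apply, Pi.basisFun_repr,
      Pi.basisFun_repr]
    rfl
  rw [h2]
  have h3 := RingHom.map_det (F₀.subtype : F₀ →+* F) (((Pi.basisFun F₀ (Fin n)).reindex ρ).toMatrix v)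
  rw [RingHom.mapMatrix_apply] at h3
  exact h3.symm

end transport

section bad
open Matrix
variable {F : Type*} [Field F]

theorem exists_bad [CharP F 3] (n m : ℕ) (hm : 0 < m) (e : Fin m ⊕ Fin m ≃ Fin n) (δ : F)
    (hδ : δ ≠ 0) :
    ∃ (x : Matrix.SpecialLinearGroup (Fin n) F)
      (b : Module.Basis (Fin m ⊕ Fin m) F (Fin n → F)),
      x ^ 3 = 1 ∧
      (∀ z : F, (x : Matrix (Fin n) (Fin n) F) ≠ z • (1 : Matrix (Fin n) (Fin n) F)) ∧
      (∀ i, (x : Matrix (Fin n) (Fin n) F) *ᵥ b (Sum.inl i) = b (Sum.inl i)) ∧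
      (∀ i, (x : Matrix (Fin n) (Fin n) F) *ᵥ b (Sum.inr i) = b (Sum.inr i) + b (Sum.inl i)) ∧
      ((Pi.basisFun F (Fin n)).reindex e.symm).det b = δ := by
  classical
  obtain ⟨w, hw⟩ : ∃ w : Fin m ⊕ Fin m → Fˣ, ∏ c, (w c : F) = δ := by
    refine ⟨fun c => if c = Sum.inl ⟨0, hm⟩ then Units.mk0 δ hδ else 1, ?_⟩
    rw [Fintype.prod_eq_single (Sum.inl ⟨0, hm⟩)]
    · simp
    · intro c hc
      simp [hc]
  obtain ⟨b, hb⟩ : ∃ b : Module.Basis (Fin m ⊕ Fin m) F (Fin n → F),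
      b = ((Pi.basisFun F (Fin n)).reindex e.symm).unitsSMul w := ⟨_, rfl⟩
  have hdetb : ((Pi.basisFun F (Fin n)).reindex e.symm).det b = δ := by
    rw [hb, Module.Basis.det_unitsSMul_self, hw]
  obtain ⟨T, hT0, hT1⟩ : ∃ T : (Fin n → F) →ₗ[F] (Fin n → F),
      (∀ i, T (b (Sum.inl i)) = b (Sum.inl i)) ∧
      (∀ i, T (b (Sum.inr i)) = b (Sum.inr i) + b (Sum.inl i)) := by
    refine ⟨b.constr F (Sum.elim (fun i => b (Sum.inl i))
      (fun i => b (Sum.inr i) + b (Sum.inl i))), fun i => ?_, fun i => ?_⟩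
    · rw [Module.Basis.constr_basis]; rfl
    · rw [Module.Basis.constr_basis]; rfl
  have hT3 : T ∘ₗ T ∘ₗ T = LinearMap.id := by
    apply b.ext
    intro c
    rcases c with i | i
    · simp only [LinearMap.comp_apply, LinearMap.id_apply, hT0]
    · simp only [LinearMap.comp_apply, LinearMap.id_apply, hT1, map_add, hT0]
      calc _ = b (Sum.inr i) + (3 : F) • b (Sum.inl i) := by module
        _ = b (Sum.inr i) := by rw [three_eq_zero, zero_smul, add_zero]
  have hTTT : ∀ u, T (T (T u)) = u := fun u => LinearMap.congr_fun hT3 u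
  have hTpow : T ^ 3 = 1 := by
    apply LinearMap.ext
    intro u
    rw [pow_succ, pow_two, Module.End.mul_apply, Module.End.mul_apply, Module.End.one_apply]
    exact hTTT u
  have hdetT : LinearMap.det T = 1 := by
    apply cube_inj
    rw [one_pow, ← map_pow, hTpow, map_one]
  obtain ⟨x, hx⟩ : ∃ x : Matrix.SpecialLinearGroup (Fin n) F,
      (x : Matrix (Fin n) (Fin n) F) = LinearMap.toMatrix' T :=
    ⟨⟨LinearMap.toMatrix' T, by rw [LinearMap.det_toMatrix']; exact hdetT⟩, rfl⟩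
  have hxv : ∀ u, (x : Matrix (Fin n) (Fin n) F) *ᵥ u = T u := by
    intro u
    rw [hx, LinearMap.toMatrix'_mulVec]
  have hX3 : LinearMap.toMatrix' T * (LinearMap.toMatrix' T * LinearMap.toMatrix' T) = 1 := by
    rw [← LinearMap.toMatrix'_comp, ← LinearMap.toMatrix'_comp, hT3, LinearMap.toMatrix'_id]
  have hx3 : x ^ 3 = 1 := by
    have h : ((x ^ 3 : Matrix.SpecialLinearGroup (Fin n) F) : Matrix (Fin n) (Fin n) F)
        = ((1 : Matrix.SpecialLinearGroup (Fin n) F) : Matrix (Fin n) (Fin n) F) := by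
      rw [pow_succ', pow_two, Matrix.SpecialLinearGroup.coe_mul,
        Matrix.SpecialLinearGroup.coe_mul, Matrix.SpecialLinearGroup.coe_one, hx]
      exact hX3
    exact Subtype.ext h
  refine ⟨x, b, hx3, ?_, fun i => by rw [hxv, hT0], fun i => by rw [hxv, hT1], hdetb⟩
  intro z hz
  have h1 : (x : Matrix (Fin n) (Fin n) F) *ᵥ b (Sum.inr ⟨0, hm⟩)
      = b (Sum.inr ⟨0, hm⟩) + b (Sum.inl ⟨0, hm⟩) := by rw [hxv, hT1]
  rw [hz, Matrix.smul_mulVec, Matrix.one_mulVec] at h1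
  have h2 := congrArg (fun u => b.repr u (Sum.inl ⟨0, hm⟩)) h1
  simp at h2

end bad
section fwd
open Matrix
variable {F : Type*} [Field F] [Fintype F]

theorem fwd3 [CharP F 3] (n m : ℕ) (hm : 0 < m) (e : Fin m ⊕ Fin m ≃ Fin n) (F₀ : Subfield F)
    (q₀ : ℕ) (hF₀ : Nat.card F₀ = q₀) (hq : Fintype.card F = q₀ ^ 2) :
    ∃ x : Matrix.SpecialLinearGroup (Fin n) F,
      (∃ z : F, ((x ^ 3 : Matrix.SpecialLinearGroup (Fin n) F) : Matrix (Fin n) (Fin n) F)
        = z • (1 : Matrix (Fin n) (Fin n) F)) ∧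
      (∀ z : F, (x : Matrix (Fin n) (Fin n) F) ≠ z • (1 : Matrix (Fin n) (Fin n) F)) ∧
      ¬ ∃ P : Matrix.SpecialLinearGroup (Fin n) F, P⁻¹ * x * P ∈
        ((Cfsg.Geo.subfieldSubgroup F₀ (1 : GL (Fin n) F)).comap
          (Matrix.SpecialLinearGroup.toGL :
            Matrix.SpecialLinearGroup (Fin n) F →* GL (Fin n) F)) := by
  classical
  have hch : ringChar F ≠ 2 := by rw [ringChar.eq F 3]; norm_num
  obtain ⟨δ, hδ⟩ := FiniteField.exists_nonsquare hch (F := F)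
  have hδ0 : δ ≠ 0 := by
    rintro rfl
    exact hδ ⟨0, by simp⟩
  obtain ⟨x, b, hx3, hxns, hxb0, hxb1, hdetb⟩ := exists_bad n m hm e δ hδ0
  refine ⟨x, ⟨1, by rw [hx3, Matrix.SpecialLinearGroup.coe_one, one_smul]⟩, hxns, ?_⟩
  rintro ⟨P, hP⟩
  rw [Subgroup.mem_comap] at hP
  obtain ⟨lam, B, hlam, hB⟩ := S5964.M_form F₀ _ hP
  have hmn : m + m = n := by
    have h1 := Fintype.card_congr e
    simp only [Fintype.card_sum, Fintype.card_fin] at h1
    exact h1
  have hnpos : 0 < n := by omega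
  have hyy : (P⁻¹ * x * P) ^ 3 = 1 := by
    have h : (P⁻¹ * x * P) ^ 3 = P⁻¹ * x ^ 3 * P := by
      have h' := conj_pow (a := P⁻¹) (b := x) (i := 3)
      rw [inv_inv] at h'
      exact h'
    rw [h, hx3, mul_one, inv_mul_cancel]
  have hy3 : (lam • B.map (F₀.subtype : F₀ →+* F)) ^ 3 = 1 := by
    rw [← hB]
    have h := congrArg (fun y : Matrix.SpecialLinearGroup (Fin n) F =>
      (y : Matrix (Fin n) (Fin n) F)) hyy
    simp only [Matrix.SpecialLinearGroup.coe_pow, Matrix.SpecialLinearGroup.coe_one] at h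
    exact h
  have hmp : (B.map (F₀.subtype : F₀ →+* F)) ^ 3 = (B ^ 3).map (F₀.subtype : F₀ →+* F) :=
    (map_pow (F₀.subtype : F₀ →+* F).mapMatrix B 3).symm
  rw [smul_pow, hmp] at hy3
  have h00 := congrFun (congrFun hy3 ⟨0, hnpos⟩) ⟨0, hnpos⟩
  rw [Matrix.smul_apply, Matrix.map_apply, Matrix.one_apply_eq, smul_eq_mul] at h00
  obtain ⟨c₀, hc₀⟩ := cube_surj_sub F₀ ((B ^ 3) ⟨0, hnpos⟩ ⟨0, hnpos⟩)
  have hc₀' : ((F₀.subtype : F₀ →+* F) c₀) ^ 3
      = (F₀.subtype : F₀ →+* F) ((B ^ 3) ⟨0, hnpos⟩ ⟨0, hnpos⟩) := by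
    rw [← map_pow, hc₀]
  have hlc : lam * (F₀.subtype : F₀ →+* F) c₀ = 1 := by
    apply cube_inj
    rw [mul_pow, hc₀', one_pow]
    exact h00
  have hd : (F₀.subtype : F₀ →+* F) c₀⁻¹ = lam := by
    rw [map_inv₀]
    exact (eq_inv_of_mul_eq_one_left hlc).symm
  obtain ⟨B', hB'⟩ : ∃ B' : Matrix (Fin n) (Fin n) F₀,
      B'.map (F₀.subtype : F₀ →+* F) = lam • B.map (F₀.subtype : F₀ →+* F) := by
    refine ⟨c₀⁻¹ • B, ?_⟩
    ext i j
    rw [Matrix.map_apply, Matrix.smul_apply, Matrix.smul_apply, Matrix.map_apply, smul_eq_mul,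
      smul_eq_mul, map_mul, hd]
  rw [← hB'] at hB
  have hcoe : ((Matrix.SpecialLinearGroup.toGL (P⁻¹ * x * P) : GL (Fin n) F) :
      Matrix (Fin n) (Fin n) F) = ((P⁻¹ : Matrix.SpecialLinearGroup (Fin n) F) :
        Matrix (Fin n) (Fin n) F) * (x : Matrix (Fin n) (Fin n) F) *
          (P : Matrix (Fin n) (Fin n) F) := rfl
  rw [hcoe] at hB
  have hPP1 : (P : Matrix (Fin n) (Fin n) F) * ((P⁻¹ : Matrix.SpecialLinearGroup (Fin n) F) :
      Matrix (Fin n) (Fin n) F) = 1 := by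
    rw [← Matrix.SpecialLinearGroup.coe_mul, mul_inv_cancel, Matrix.SpecialLinearGroup.coe_one]
  have hPP2 : ((P⁻¹ : Matrix.SpecialLinearGroup (Fin n) F) : Matrix (Fin n) (Fin n) F) *
      (P : Matrix (Fin n) (Fin n) F) = 1 := by
    rw [← Matrix.SpecialLinearGroup.coe_mul, inv_mul_cancel, Matrix.SpecialLinearGroup.coe_one]
  have hXP : (x : Matrix (Fin n) (Fin n) F) * (P : Matrix (Fin n) (Fin n) F)
      = (P : Matrix (Fin n) (Fin n) F) * B'.map (F₀.subtype : F₀ →+* F) := by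
    rw [← hB, ← Matrix.mul_assoc, ← Matrix.mul_assoc, hPP1, Matrix.one_mul]
  -- nilpotent parts
  obtain ⟨Nx, hNx⟩ : ∃ Nx : (Fin n → F) →ₗ[F] (Fin n → F),
      ∀ u, Nx u = (x : Matrix (Fin n) (Fin n) F) *ᵥ u - u :=
    ⟨Matrix.toLin' (x : Matrix (Fin n) (Fin n) F) - LinearMap.id, fun u => rfl⟩
  have hb0 : ∀ i, Nx (b (Sum.inl i)) = 0 := fun i => by rw [hNx, hxb0, sub_self]
  have hb1 : ∀ i, Nx (b (Sum.inr i)) = b (Sum.inl i) := fun i => by
    rw [hNx, hxb1, add_sub_cancel_left]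
  obtain ⟨N₀, hN₀⟩ : ∃ N₀ : (Fin n → F₀) →ₗ[F₀] (Fin n → F₀), ∀ u, N₀ u = B' *ᵥ u - u :=
    ⟨Matrix.toLin' B' - LinearMap.id, fun u => rfl⟩
  obtain ⟨emb, hemb⟩ : ∃ emb : (Fin n → F₀) → (Fin n → F),
      ∀ u, emb u = (F₀.subtype : F₀ →+* F) ∘ u :=
    ⟨fun u => (F₀.subtype : F₀ →+* F) ∘ u, fun u => rfl⟩
  have hemb0 : emb 0 = 0 := by
    rw [hemb]
    funext i
    simp
  have hembinj : ∀ u, emb u = 0 → u = 0 := by
    intro u hu
    funext i
    have h := congrFun hu i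
    rw [hemb, Function.comp_apply, Pi.zero_apply] at h
    rw [Pi.zero_apply]
    exact (map_eq_zero (F₀.subtype : F₀ →+* F)).1 h
  have hkey : ∀ u, Nx ((P : Matrix (Fin n) (Fin n) F) *ᵥ emb u)
      = (P : Matrix (Fin n) (Fin n) F) *ᵥ emb (N₀ u) := by
    intro u
    have h1 : emb (N₀ u) = (B'.map (F₀.subtype : F₀ →+* F)) *ᵥ emb u - emb u := by
      rw [hemb, hemb]
      funext i
      rw [Function.comp_apply, hN₀, Pi.sub_apply, Pi.sub_apply, map_sub]
      exact congrArg (fun y => y - (F₀.subtype : F₀ →+* F) (u i))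
        (RingHom.map_mulVec (F₀.subtype : F₀ →+* F) B' u i)
    rw [hNx, h1, Matrix.mulVec_sub, Matrix.mulVec_mulVec, Matrix.mulVec_mulVec, hXP]
  have hN₀sq : ∀ u, N₀ (N₀ u) = 0 := by
    intro u
    apply hembinj
    have h1 : (P : Matrix (Fin n) (Fin n) F) *ᵥ emb (N₀ (N₀ u)) = 0 := by
      rw [← hkey, ← hkey]
      exact adapted_sq_zero b Nx hb0 hb1 _
    have h2 := congrArg (fun w => ((P⁻¹ : Matrix.SpecialLinearGroup (Fin n) F) :
      Matrix (Fin n) (Fin n) F) *ᵥ w) h1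
    simp only [Matrix.mulVec_mulVec, hPP2, Matrix.one_mulVec, Matrix.mulVec_zero] at h2
    exact h2
  have hfr : 0 < Module.finrank F₀ (Fin n → F₀) := by
    rw [Module.finrank_fin_fun]; exact hnpos
  obtain ⟨s, t, β₀, hβ1, hβ2, hβ3, -⟩ := S5964.sqzero_struct' N₀ hN₀sq hfr
  have hcard : Fintype.card ((Fin s ⊕ Fin s) ⊕ Fin t) = n := by
    rw [← Module.finrank_eq_card_basis β₀, Module.finrank_fin_fun]
  obtain ⟨zf, hzf⟩ : ∃ zf : (Fin s ⊕ Fin s) ⊕ Fin t → (Fin n → F),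
      ∀ c, zf c = (P : Matrix (Fin n) (Fin n) F) *ᵥ emb (β₀ c) := ⟨fun c => _, fun c => rfl⟩
  have hz1 : ∀ i, Nx (zf (Sum.inl (Sum.inl i))) = 0 := fun i => by
    rw [hzf, hkey, hβ1, hemb0, Matrix.mulVec_zero]
  have hz2 : ∀ i, Nx (zf (Sum.inl (Sum.inr i))) = zf (Sum.inl (Sum.inl i)) := fun i => by
    rw [hzf (Sum.inl (Sum.inr i)), hkey, hβ2, hzf]
  have hz3 : ∀ k, Nx (zf (Sum.inr k)) = 0 := fun k => by
    rw [hzf, hkey, hβ3, hemb0, Matrix.mulVec_zero]
  obtain ⟨ρ⟩ : Nonempty (Fin n ≃ (Fin s ⊕ Fin s) ⊕ Fin t) :=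
    ⟨(Fintype.equivFinOfCardEq hcard).symm⟩
  have hdt := det_transport F₀ (P : Matrix (Fin n) (Fin n) F) P.det_coe ρ β₀ zf
    (fun c => by rw [hzf, hemb])
  have hne : ((Pi.basisFun F (Fin n)).reindex ρ).det zf ≠ 0 := by
    rw [hdt]
    exact (map_ne_zero _).2 (Module.Basis.isUnit_det _ β₀).ne_zero
  have hbas := (Module.Basis.is_basis_iff_det ((Pi.basisFun F (Fin n)).reindex ρ)).2
    (isUnit_iff_ne_zero.2 hne)
  obtain ⟨zb, hzb⟩ : ∃ zb : Module.Basis ((Fin s ⊕ Fin s) ⊕ Fin t) F (Fin n → F),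
      ∀ c, zb c = zf c :=
    ⟨Module.Basis.mk hbas.1 (by rw [hbas.2]), fun c => by rw [Module.Basis.mk_apply]⟩
  have ht : t = 0 := by
    by_contra ht0
    have htpos : 0 < t := Nat.pos_of_ne_zero ht0
    have hzb1 : ∀ i, Nx (zb (Sum.inl (Sum.inl i))) = 0 := fun i => by rw [hzb, hz1]
    have hzb2 : ∀ i, Nx (zb (Sum.inl (Sum.inr i))) = zb (Sum.inl (Sum.inl i)) := fun i => by
      rw [hzb (Sum.inl (Sum.inr i)), hz2, hzb]
    have hzb3 : ∀ k, Nx (zb (Sum.inr k)) = 0 := fun k => by rw [hzb, hz3]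
    obtain ⟨u', hu'⟩ := adapted_ker b Nx hb0 hb1 (zf (Sum.inr ⟨0, htpos⟩)) (hz3 _)
    have e1 : (Finsupp.lapply (Sum.inr ⟨0, htpos⟩) :
        (((Fin s ⊕ Fin s) ⊕ Fin t) →₀ F) →ₗ[F] F) ∘ₗ
        (zb.repr : (Fin n → F) →ₗ[F] (((Fin s ⊕ Fin s) ⊕ Fin t) →₀ F)) ∘ₗ Nx = 0 := by
      apply zb.ext
      intro c
      rcases c with (j | j) | j
      · simp [hzb1]
      · simp [hzb2]
      · simp [hzb3]
    have h1 : zb.repr (Nx u') (Sum.inr ⟨0, htpos⟩) = 0 := LinearMap.congr_fun e1 u'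
    rw [← hu', ← hzb, Module.Basis.repr_self, Finsupp.single_eq_same] at h1
    exact one_ne_zero h1
  have hsm : s = m := by
    simp only [Fintype.card_sum, Fintype.card_fin] at hcard
    omega
  subst ht
  subst hsm
  have hv : (fun c => β₀ (Sum.inl c))
      = ⇑(β₀.reindex (Equiv.sumEmpty (Fin s ⊕ Fin s) (Fin 0))) := by
    funext c
    rw [Module.Basis.reindex_apply]
    rfl
  have hdt2 := det_transport F₀ (P : Matrix (Fin n) (Fin n) F) P.det_coe e.symm
    (fun c => β₀ (Sum.inl c)) (fun c => zf (Sum.inl c)) (fun c => by rw [hzf, hemb])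
  have ha0 : ((Pi.basisFun F₀ (Fin n)).reindex e.symm).det (fun c => β₀ (Sum.inl c)) ≠ 0 := by
    rw [hv]
    exact (Module.Basis.isUnit_det _ _).ne_zero
  obtain ⟨μ, hμ⟩ := adapted_det_sq b (fun c => zf (Sum.inl c)) Nx hb0 hb1 hz1 hz2
  obtain ⟨ν, hν⟩ := S5964.sub_sq hch F₀ q₀ hF₀ hq
    (((Pi.basisFun F₀ (Fin n)).reindex e.symm).det (fun c => β₀ (Sum.inl c)))
  have hmul : ((Pi.basisFun F (Fin n)).reindex e.symm).det (fun c => zf (Sum.inl c))
      = ((Pi.basisFun F (Fin n)).reindex e.symm).det b * b.det (fun c => zf (Sum.inl c)) := by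
    rw [Module.Basis.det_apply, Module.Basis.det_apply, Module.Basis.det_apply,
      ← Matrix.det_mul, Module.Basis.toMatrix_mul_toMatrix]
  rw [hdt2, hdetb, hμ] at hmul
  have hμ0 : μ ≠ 0 := by
    rintro rfl
    rw [mul_zero, mul_zero] at hmul
    exact ha0 ((map_eq_zero _).1 hmul)
  apply hδ
  refine ⟨ν / μ, ?_⟩
  have h5 : δ * (μ * μ) = ν * ν := hmul.symm.trans hν
  rw [div_mul_div_comm, ← h5, mul_div_assoc, div_self (mul_ne_zero hμ0 hμ0), mul_one]

end fwd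


/-- Elements of order 3 of PSL_n(q) in characteristic 3 and subfield subgroups. Here `T = PSL_n(F)` for a field `F` with `q` elements, `q` a power of 3 (`n ≥ 2`, `(n, q) ≠ (2, 2), (2, 3)`), `F₀` is the subfield with `q₀` elements where `q = q₀^k` for a prime `k`, and `H` is the subgroup of matrices of determinant 1 lying in the subfield group of `F₀` (invertible matrices over `F₀` times scalars) — a maximal subgroup of type GL_n(q₀) (the case `n = 2`, `q₀ = 2` is excluded); Ω is the set of `T`-conjugates of `H` (cosets of `H`), so an element of `T` of prime order `r` (a matrix `x` of determinant 1 with `x^r` scalar, `x` not scalar) fixes a point of Ω when some conjugate of `x` by a matrix of determinant 1 lies in `H`. Suppose 3 divides the index of `H`. Then every element of `T` of order 3 is conjugate in `T` into `H` if and only if `n` is odd, or `n` is even and `k > 2`. -/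
theorem result {F : Type*} [Field F] [Fintype F] [CharP F 3] {q : ℕ} (hq : Fintype.card F = q)
    (n : ℕ) (hn : 2 ≤ n) (hT : (n, q) ≠ (2, 3))
    (F₀ : Subfield F) (k q₀ : ℕ) (hk : k.Prime) (hF₀ : Nat.card ↥F₀ = q₀) (hqk : q = q₀ ^ k) (hC5 : ¬ (n = 2 ∧ q₀ = 2)) (hΩ : 3 ∣ ((Cfsg.Geo.subfieldSubgroup F₀ 1).comap (Matrix.SpecialLinearGroup.toGL : Matrix.SpecialLinearGroup (Fin n) F →* GL (Fin n) F)).index) :
    (∀ x : Matrix.SpecialLinearGroup (Fin n) F,
      (∃ z : F, ((x ^ 3 : Matrix.SpecialLinearGroup (Fin n) F) : Matrix (Fin n) (Fin n) F) = z • (1 : Matrix (Fin n) (Fin n) F)) →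
      (∀ z : F, (x : Matrix (Fin n) (Fin n) F) ≠ z • (1 : Matrix (Fin n) (Fin n) F)) →
      ∃ P : Matrix.SpecialLinearGroup (Fin n) F, P⁻¹ * x * P ∈ ((Cfsg.Geo.subfieldSubgroup F₀ 1).comap (Matrix.SpecialLinearGroup.toGL : Matrix.SpecialLinearGroup (Fin n) F →* GL (Fin n) F))) ↔
    (Odd n ∨ (Even n ∧ 2 < k)) := by
  subst hq
  classical
  constructor
  · intro hall
    by_contra hcon
    have heven : Even n := by
      by_contra h
      exact hcon (Or.inl (Nat.not_even_iff_odd.1 h))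
    have hk2 : k = 2 := by
      by_contra h
      have h2 := hk.two_le
      exact hcon (Or.inr ⟨heven, by omega⟩)
    subst hk2
    obtain ⟨m, hm⟩ := heven
    have hmpos : 0 < m := by omega
    obtain ⟨x, hx1, hx2, hx3⟩ := fwd3 n m hmpos (finSumFinEquiv.trans (finCongr hm.symm))
      F₀ q₀ hF₀ hqk
    exact hx3 (hall x hx1 hx2)
  · intro hcond x hx1 _
    refine back3 n hn F₀ q₀ k hF₀ hqk ?_ x hx1
    rcases hcond with h | ⟨h1, h2⟩
    · exact Or.inl h
    · refine Or.inr ⟨h1, ?_⟩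
      rcases hk.eq_two_or_odd with h3 | h3
      · omega
      · exact h3

end Cfsg.Agent.S5966
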