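import Cfsg.Statements.S5968
import Cfsg.Agent.Helper27.S5968K
import Cfsg.Agent.Helper27.S5968C
import Cfsg.Agent.Helper27.S5968D1
import Cfsg.Agent.Helper8.S5968A1
import Cfsg.Agent.Helper8.S5968A2
import Cfsg.Agent.Helper8.S5968D2
import Cfsg.Agent.Helper29.S5968U1
import Cfsg.Agent.Helper29.S5968U2
-- import your own Cfsg.Agent.* helpers here

set_option autoImplicit false
open scoped MatrixGroups
open Cfsg

namespace Cfsg.Agent.S5968

/-- Derangements of odd prime order of PSL_n(q) on the cosets of a symplectic-type subgroup. Here `T = PSL_n(F)` for a field `F` with `q` elements, `n ≥ 4` even, `f` is a nondegenerate alternating form on `F^n`, and `H` is the subgroup of matrices of determinant 1 preserving `f` up to a scalar — a maximal subgroup of type Sp_n(q); Ω is the set of `T`-conjugates of `H` (cosets of `H`), so an element of `T` of prime order `r` (a matrix `x` of determinant 1 with `x^r` scalar, `x` not scalar) fixes a point of Ω when some conjugate of `x` by a matrix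 of determinant 1 preserves `f` up to a scalar. For every odd prime `r` dividing the index of `H`, with `(n, r) ≠ (6, 3)`, there is an element of `T` of order `r` with no conjugate in `H`. (For `n = 6`, `r = 3` this can fail: when `(q − 1)_3 = 3` every element of order 3 is conjugate into `H`.) -/
theorem result {F : Type*} [Field F] [Fintype F] {p : ℕ} [Fact p.Prime] [CharP F p] {q : ℕ} (hq : Fintype.card F = q)
    (n : ℕ) (hn : 4 ≤ n) (he : Even n) (f : (Fin n → F) → (Fin n → F) → F) (hf : Cfsg.Geo.IsSymplecticForm f)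
    (r : ℕ) [Fact r.Prime] (hr2 : r ≠ 2) (hgap : ¬ (n = 6 ∧ r = 3)) (hΩ : r ∣ ((Cfsg.Geo.similarityGroup f).comap (Matrix.SpecialLinearGroup.toGL : Matrix.SpecialLinearGroup (Fin n) F →* GL (Fin n) F)).index) :
    ∃ x : Matrix.SpecialLinearGroup (Fin n) F,
      (∃ z : F, ((x ^ r : Matrix.SpecialLinearGroup (Fin n) F) : Matrix (Fin n) (Fin n) F) = z • (1 : Matrix (Fin n) (Fin n) F)) ∧
      (∀ z : F, (x : Matrix (Fin n) (Fin n) F) ≠ z • (1 : Matrix (Fin n) (Fin n) F)) ∧
      ∀ P : Matrix.SpecialLinearGroup (Fin n) F, P⁻¹ * x * P ∉ ((Cfsg.Geo.similarityGroup f).comap (Matrix.SpecialLinearGroup.toGL : Matrix.SpecialLinearGroup (Fin n) F →* GL (Fin n) F)) := by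
  obtain ⟨m, hm⟩ := he
  by_cases hrp : r = p
  · subst hrp
    obtain ⟨x, hx1, hx2, hN3, ⟨w, hw⟩, hN2⟩ :=
      Cfsg.Agent.Helper29.S5968U2.exists_unip (F := F) (p := r) hr2 n hn
    refine ⟨x, ⟨1, ?_⟩, hx2, fun P =>
      Cfsg.Agent.Helper29.S5968U1.unip_no_conj hr2 f hf x hx1 hN3 w hw hN2 P⟩
    rw [hx1, one_smul]; rfl
  · have hS := Cfsg.Agent.Helper8.S5968A1.sp_card_dvd n m (by omega) f hf
    obtain ⟨i, hiodd, hi3, hin, hri⟩ :=
      Cfsg.Agent.Helper8.S5968A2.index_arith hq n m (by omega) (by omega) _ hS r hrp hΩ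
    by_cases hr1 : r ∣ q - 1
    · obtain ⟨x, l, hl, hx1, hx2, hodd, hss, huniq⟩ :=
        Cfsg.Agent.Helper27.S5968C.exists_diag hq n hn ⟨m, hm⟩ r hr2 hgap hr1
      refine ⟨x, ⟨1, ?_⟩, hx2, fun P =>
        Cfsg.Agent.Helper27.S5968K.no_conj f hf x l hl hodd hss huniq P⟩
      rw [hx1, one_smul]; rfl
    · obtain ⟨A, hA, hdet, hfix⟩ :=
        Cfsg.Agent.Helper27.S5968D1.exists_block hq r i (by omega) hri hr1
      have hrF : (r : F) ≠ 0 := by
        intro h0
        have h1 := (CharP.cast_eq_zero_iff F p r).1 h0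
        exact hrp ((Nat.prime_dvd_prime_iff_eq (Fact.out : p.Prime) (Fact.out : r.Prime)).1 h1).symm
      have hoddne : Odd (n - i) := by
        obtain ⟨k, hk⟩ := hiodd
        exact ⟨m - k - 1, by omega⟩
      obtain ⟨x, l, hl, hx1, hx2, hodd, hss, huniq⟩ :=
        Cfsg.Agent.Helper8.S5968D2.embed_block n i (by omega) (by omega) hoddne r hrF A hA hdet hfix
      refine ⟨x, ⟨1, ?_⟩, hx2, fun P =>
        Cfsg.Agent.Helper27.S5968K.no_conj f hf x l hl hodd hss huniq P⟩
      rw [hx1, one_smul]; rfl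

end Cfsg.Agent.S5968
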