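import Mathlib
import Cfsg.Statements.S5969
import Cfsg.Agent.S2577
import Cfsg.Agent.S2670
import Cfsg.Agent.S5967
import Cfsg.Agent.S5964
-- import your own Cfsg.Agent.* helpers here

set_option autoImplicit false
open scoped MatrixGroups
open Cfsg

namespace Cfsg.Agent.S5969

section Kstruct
open Matrix
variable {F : Type*} [Field F] {n : ℕ}

theorem mat_ext_basis {κ : Type*} (β : Module.Basis κ F (Fin n → F))
    (M₁ M₂ : Matrix (Fin n) (Fin n) F) (h : ∀ j, M₁ *ᵥ β j = M₂ *ᵥ β j) : M₁ = M₂ := by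
  apply Matrix.toLin'.injective
  apply β.ext
  intro j
  rw [Matrix.toLin'_apply, Matrix.toLin'_apply]
  exact h j

theorem K_inv_mulVec (K : Subalgebra F (Matrix (Fin n) (Fin n) F))
    (hK : Cfsg.Geo.IsFieldSubalgebra 2 K) (y : Matrix (Fin n) (Fin n) F) (hy : y ∈ K)
    (hy0 : y ≠ 0) (w : Fin n → F) (hw : y *ᵥ w = 0) : w = 0 := by
  obtain ⟨y', hy', hyy'⟩ := hK.inv y hy hy0
  have h1 : y' * y = 1 := (hK.comm y' hy' y hy).trans hyy'
  have h2 : w = (y' * y) *ᵥ w := by rw [h1, Matrix.one_mulVec]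
  rw [h2, ← Matrix.mulVec_mulVec, hw, Matrix.mulVec_zero]

theorem K_nonscalar (K : Subalgebra F (Matrix (Fin n) (Fin n) F))
    (hfr : Module.finrank F K = 2) : ∃ a ∈ K, ∀ c : F, a ≠ c • 1 := by
  by_contra hcon
  push Not at hcon
  have h1 : Module.finrank F K ≤ 1 := by
    apply finrank_le_one (1 : K)
    intro w
    obtain ⟨c, hc⟩ := hcon w.1 w.2
    exact ⟨c, Subtype.ext (by simpa using hc.symm)⟩
  omega

theorem K_gen (hn : 0 < n) (K : Subalgebra F (Matrix (Fin n) (Fin n) F))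
    (hfr : Module.finrank F K = 2) (a : Matrix (Fin n) (Fin n) F) (haK : a ∈ K)
    (ha : ∀ c : F, a ≠ c • 1) : ∀ y ∈ K, ∃ s t : F, y = s • 1 + t • a := by
  have : Nonempty (Fin n) := ⟨⟨0, hn⟩⟩
  have hfd : FiniteDimensional F K := Module.finite_of_finrank_pos (by rw [hfr]; norm_num)
  have hli : LinearIndependent F ![(1 : K), ⟨a, haK⟩] := by
    rw [LinearIndependent.pair_iff]
    intro s t hst
    have h1 : s • (1 : Matrix (Fin n) (Fin n) F) + t • a = 0 := by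
      have h := congrArg Subtype.val hst
      simpa using h
    by_cases ht : t = 0
    · subst ht
      rw [zero_smul, add_zero] at h1
      refine ⟨?_, rfl⟩
      have h2 := congrFun (congrFun h1 ⟨0, hn⟩) ⟨0, hn⟩
      simpa using h2
    · exfalso
      apply ha (-(s / t))
      have h3 : t • a = (-s) • (1 : Matrix (Fin n) (Fin n) F) := by
        rw [neg_smul]; exact eq_neg_of_add_eq_zero_right h1
      calc a = t⁻¹ • (t • a) := by rw [smul_smul, inv_mul_cancel₀ ht, one_smul]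
        _ = (-(s / t)) • 1 := by
          rw [h3, smul_smul]
          congr 1
          field_simp
  have hsp := hli.span_eq_top_of_card_eq_finrank' (by rw [hfr]; simp)
  intro y hy
  have hmem : (⟨y, hy⟩ : K) ∈ Submodule.span F (Set.range ![(1 : K), ⟨a, haK⟩]) := by
    rw [hsp]; exact Submodule.mem_top
  obtain ⟨c, hc⟩ := (Submodule.mem_span_range_iff_exists_fun F).1 hmem
  rw [Fin.sum_univ_two] at hc
  refine ⟨c 0, c 1, ?_⟩
  have h := congrArg Subtype.val hc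
  simpa using h.symm

theorem normK (K : Subalgebra F (Matrix (Fin n) (Fin n) F)) (g : GL (Fin n) F)
    (h1 : ∀ k ∈ K, (g : Matrix (Fin n) (Fin n) F) * k *
      ((g⁻¹ : GL (Fin n) F) : Matrix (Fin n) (Fin n) F) ∈ K)
    (h2 : ∀ k ∈ K, ((g⁻¹ : GL (Fin n) F) : Matrix (Fin n) (Fin n) F) * k *
      (g : Matrix (Fin n) (Fin n) F) ∈ K) :
    g ∈ Cfsg.Geo.subalgebraNormalizer K := by
  show ∀ k : Matrix (Fin n) (Fin n) F, k ∈ K ↔ (g : Matrix (Fin n) (Fin n) F) * k *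
      ((g⁻¹ : GL (Fin n) F) : Matrix (Fin n) (Fin n) F) ∈ K
  intro k
  refine ⟨h1 k, fun h => ?_⟩
  have h3 := h2 _ h
  have e : ((g⁻¹ : GL (Fin n) F) : Matrix (Fin n) (Fin n) F) *
      ((g : Matrix (Fin n) (Fin n) F) * k *
        ((g⁻¹ : GL (Fin n) F) : Matrix (Fin n) (Fin n) F)) *
      (g : Matrix (Fin n) (Fin n) F) = k := by
    rw [mul_assoc, mul_assoc, Units.inv_mul, mul_one, ← mul_assoc, Units.inv_mul, one_mul]
  rw [e] at h3
  exact h3

theorem normK_gen (K : Subalgebra F (Matrix (Fin n) (Fin n) F))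
    (a : Matrix (Fin n) (Fin n) F) (hgen : ∀ y ∈ K, ∃ s t : F, y = s • 1 + t • a)
    (g : GL (Fin n) F) (a₁ a₂ : Matrix (Fin n) (Fin n) F) (ha₁ : a₁ ∈ K) (ha₂ : a₂ ∈ K)
    (h1 : (g : Matrix (Fin n) (Fin n) F) * a = a₁ * (g : Matrix (Fin n) (Fin n) F))
    (h2 : a * (g : Matrix (Fin n) (Fin n) F) = (g : Matrix (Fin n) (Fin n) F) * a₂) :
    g ∈ Cfsg.Geo.subalgebraNormalizer K := by
  refine normK K g (fun k hk => ?_) (fun k hk => ?_)
  · obtain ⟨s, t, rfl⟩ := hgen k hk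
    have e : (g : Matrix (Fin n) (Fin n) F) * (s • 1 + t • a) *
        ((g⁻¹ : GL (Fin n) F) : Matrix (Fin n) (Fin n) F) = s • 1 + t • a₁ := by
      rw [mul_add, add_mul, Matrix.mul_smul, Matrix.mul_smul, Matrix.smul_mul, Matrix.smul_mul,
        mul_one, Units.mul_inv, h1, mul_assoc, Units.mul_inv, mul_one]
    rw [e]
    exact K.add_mem (K.smul_mem K.one_mem s) (K.smul_mem ha₁ t)
  · obtain ⟨s, t, rfl⟩ := hgen k hk
    have e : ((g⁻¹ : GL (Fin n) F) : Matrix (Fin n) (Fin n) F) * (s • 1 + t • a) *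
        (g : Matrix (Fin n) (Fin n) F) = s • 1 + t • a₂ := by
      rw [mul_add, add_mul, Matrix.mul_smul, Matrix.mul_smul, Matrix.smul_mul, Matrix.smul_mul,
        mul_one, Units.inv_mul, mul_assoc, h2, ← mul_assoc, Units.inv_mul, one_mul]
    rw [e]
    exact K.add_mem (K.smul_mem K.one_mem s) (K.smul_mem ha₂ t)

theorem small_range (hn : 3 ≤ n) (M M' : Matrix (Fin n) (Fin n) F) (w₁ w₂ : Fin n → F)
    (h : ∀ v, ∃ s t : F, M *ᵥ v = s • w₁ + t • w₂) (hM : M * M' = 1) : False := by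
  obtain ⟨f, hf⟩ : ∃ f : (F × F) →ₗ[F] (Fin n → F), ∀ p, f p = p.1 • w₁ + p.2 • w₂ :=
    ⟨(LinearMap.toSpanSingleton F _ w₁).coprod (LinearMap.toSpanSingleton F _ w₂), fun p => by
      rw [LinearMap.coprod_apply, LinearMap.toSpanSingleton_apply,
        LinearMap.toSpanSingleton_apply]⟩
  have hsurj : Function.Surjective f := by
    intro u
    obtain ⟨s, t, hst⟩ := h (M' *ᵥ u)
    refine ⟨(s, t), ?_⟩
    rw [hf, ← hst, Matrix.mulVec_mulVec, hM, Matrix.one_mulVec]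
  have h1 := LinearMap.finrank_range_le f
  rw [LinearMap.range_eq_top.2 hsurj, finrank_top, Module.finrank_prod, Module.finrank_self,
    Module.finrank_fin_fun] at h1
  omega

theorem no_rank1 (hn : 3 ≤ n) (K : Subalgebra F (Matrix (Fin n) (Fin n) F))
    (hK : Cfsg.Geo.IsFieldSubalgebra 2 K) (g : GL (Fin n) F)
    (hg : g ∈ Cfsg.Geo.subalgebraNormalizer K) (c : F) (w : Fin n → F) (hw : w ≠ 0)
    (φ : (Fin n → F) → F)
    (hD : ∀ v, (g : Matrix (Fin n) (Fin n) F) *ᵥ v = c • v + φ v • w)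
    (v₀ : Fin n → F) (hφ : φ v₀ ≠ 0) : False := by
  obtain ⟨a, haK, hans⟩ := K_nonscalar K hK.finrank_eq
  have hg' : ∀ k : Matrix (Fin n) (Fin n) F, k ∈ K ↔ (g : Matrix (Fin n) (Fin n) F) * k *
      ((g⁻¹ : GL (Fin n) F) : Matrix (Fin n) (Fin n) F) ∈ K := hg
  obtain ⟨a', ha'def⟩ : ∃ a' : Matrix (Fin n) (Fin n) F, a' = (g : Matrix (Fin n) (Fin n) F) * a *
      ((g⁻¹ : GL (Fin n) F) : Matrix (Fin n) (Fin n) F) := ⟨_, rfl⟩
  have ha'K : a' ∈ K := by rw [ha'def]; exact (hg' a).1 haK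
  have hrel : a' * (g : Matrix (Fin n) (Fin n) F) = (g : Matrix (Fin n) (Fin n) F) * a := by
    rw [ha'def, mul_assoc, Units.inv_mul, mul_one]
  have hkey : ∀ v, c • ((a' - a) *ᵥ v) = φ (a *ᵥ v) • w - φ v • (a' *ᵥ w) := by
    intro v
    have h1 : a' *ᵥ ((g : Matrix (Fin n) (Fin n) F) *ᵥ v)
        = (g : Matrix (Fin n) (Fin n) F) *ᵥ (a *ᵥ v) := by
      rw [Matrix.mulVec_mulVec, Matrix.mulVec_mulVec, hrel]
    rw [hD v, hD (a *ᵥ v), Matrix.mulVec_add, Matrix.mulVec_smul, Matrix.mulVec_smul] at h1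
    have h2 : c • (a' *ᵥ v) = c • (a *ᵥ v) + φ (a *ᵥ v) • w - φ v • (a' *ᵥ w) :=
      eq_sub_of_add_eq h1
    rw [Matrix.sub_mulVec, smul_sub, h2]
    abel
  have hc0 : c ≠ 0 := by
    rintro rfl
    refine small_range hn (g : Matrix (Fin n) (Fin n) F)
      ((g⁻¹ : GL (Fin n) F) : Matrix (Fin n) (Fin n) F) w w (fun v => ⟨φ v, 0, ?_⟩)
      (Units.mul_inv g)
    rw [hD, zero_smul, zero_smul, zero_add, add_zero]
  have haa : a' = a := by
    by_contra hne
    have hne' : a' - a ≠ 0 := sub_ne_zero.2 hne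
    obtain ⟨y, hy, hyy⟩ := hK.inv (a' - a) (K.sub_mem ha'K haK) hne'
    refine small_range hn (a' - a) y w (a' *ᵥ w)
      (fun v => ⟨c⁻¹ * φ (a *ᵥ v), -(c⁻¹ * φ v), ?_⟩) hyy
    have h := hkey v
    have h3 : (a' - a) *ᵥ v = c⁻¹ • (c • ((a' - a) *ᵥ v)) := by
      rw [smul_smul, inv_mul_cancel₀ hc0, one_smul]
    rw [h3, h, smul_sub, smul_smul, smul_smul, neg_smul, sub_eq_add_neg]
  have h4 := hkey v₀
  rw [haa, sub_self, Matrix.zero_mulVec, smul_zero] at h4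
  have h6 : φ v₀ • (a *ᵥ w) = φ (a *ᵥ v₀) • w := (sub_eq_zero.1 h4.symm).symm
  have h5 : a *ᵥ w = (φ (a *ᵥ v₀) / φ v₀) • w := by
    calc a *ᵥ w = (φ v₀)⁻¹ • (φ v₀ • (a *ᵥ w)) := by
          rw [smul_smul, inv_mul_cancel₀ hφ, one_smul]
      _ = (φ (a *ᵥ v₀) / φ v₀) • w := by rw [h6, smul_smul, div_eq_inv_mul]
  apply hw
  refine K_inv_mulVec K hK (a - (φ (a *ᵥ v₀) / φ v₀) • 1)
    (K.sub_mem haK (K.smul_mem K.one_mem _)) ?_ w ?_
  · intro h0
    exact hans _ (sub_eq_zero.1 h0)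
  · rw [Matrix.sub_mulVec, Matrix.smul_mulVec, Matrix.one_mulVec, h5, sub_self]

theorem derange (hn : 3 ≤ n) (K : Subalgebra F (Matrix (Fin n) (Fin n) F))
    (hK : Cfsg.Geo.IsFieldSubalgebra 2 K) (x : Matrix.SpecialLinearGroup (Fin n) F) (c : F)
    (w : Fin n → F) (hw : w ≠ 0) (φ : (Fin n → F) → F)
    (hD : ∀ v, (x : Matrix (Fin n) (Fin n) F) *ᵥ v = c • v + φ v • w)
    (v₀ : Fin n → F) (hφ : φ v₀ ≠ 0) :
    ¬ ∃ P : Matrix.SpecialLinearGroup (Fin n) F, P⁻¹ * x * P ∈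
      ((Cfsg.Geo.subalgebraNormalizer K).comap
        (Matrix.SpecialLinearGroup.toGL : Matrix.SpecialLinearGroup (Fin n) F →* GL (Fin n) F)) := by
  rintro ⟨P, hP⟩
  rw [Subgroup.mem_comap] at hP
  have hcoe : ((Matrix.SpecialLinearGroup.toGL (P⁻¹ * x * P) : GL (Fin n) F) :
      Matrix (Fin n) (Fin n) F) = ((P⁻¹ : Matrix.SpecialLinearGroup (Fin n) F) :
        Matrix (Fin n) (Fin n) F) * (x : Matrix (Fin n) (Fin n) F) *
          (P : Matrix (Fin n) (Fin n) F) := rfl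
  have hPP1 : (P : Matrix (Fin n) (Fin n) F) * ((P⁻¹ : Matrix.SpecialLinearGroup (Fin n) F) :
      Matrix (Fin n) (Fin n) F) = 1 := by
    rw [← Matrix.SpecialLinearGroup.coe_mul, mul_inv_cancel, Matrix.SpecialLinearGroup.coe_one]
  have hPP2 : ((P⁻¹ : Matrix.SpecialLinearGroup (Fin n) F) : Matrix (Fin n) (Fin n) F) *
      (P : Matrix (Fin n) (Fin n) F) = 1 := by
    rw [← Matrix.SpecialLinearGroup.coe_mul, inv_mul_cancel, Matrix.SpecialLinearGroup.coe_one]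
  refine no_rank1 hn K hK _ hP c
    (((P⁻¹ : Matrix.SpecialLinearGroup (Fin n) F) : Matrix (Fin n) (Fin n) F) *ᵥ w) ?_
    (fun v => φ ((P : Matrix (Fin n) (Fin n) F) *ᵥ v)) ?_
    (((P⁻¹ : Matrix.SpecialLinearGroup (Fin n) F) : Matrix (Fin n) (Fin n) F) *ᵥ v₀) ?_
  · intro h0
    apply hw
    have h1 := congrArg (fun u => (P : Matrix (Fin n) (Fin n) F) *ᵥ u) h0
    simp only [Matrix.mulVec_mulVec, hPP1, Matrix.one_mulVec, Matrix.mulVec_zero] at h1
    exact h1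
  · intro v
    rw [hcoe, ← Matrix.mulVec_mulVec, ← Matrix.mulVec_mulVec, hD, Matrix.mulVec_add,
      Matrix.mulVec_smul, Matrix.mulVec_smul, Matrix.mulVec_mulVec, hPP2, Matrix.one_mulVec]
  · show φ ((P : Matrix (Fin n) (Fin n) F) *ᵥ
      (((P⁻¹ : Matrix.SpecialLinearGroup (Fin n) F) : Matrix (Fin n) (Fin n) F) *ᵥ v₀)) ≠ 0
    rw [Matrix.mulVec_mulVec, hPP1, Matrix.one_mulVec]
    exact hφ

end Kstruct
section bad
open Matrix
variable {F : Type*} [Field F] {n : ℕ}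

theorem exists_neg_root [Fintype F] (n : ℕ) (hn : n ≠ 0)
    (h : padicValNat 2 n < padicValNat 2 (Fintype.card F - 1)) : ∃ c : F, c ^ n = -1 := by
  obtain ⟨γ, hγ0, hγo, -⟩ := S2670.exists_gen F
  have hq1 := Fintype.one_lt_card (α := F)
  have hq10 : Fintype.card F - 1 ≠ 0 := by omega
  obtain ⟨t, ht⟩ : ∃ t, t = padicValNat 2 n := ⟨_, rfl⟩
  rw [← ht] at h
  obtain ⟨m', hm'⟩ : 2 ^ t ∣ n := ht ▸ pow_padicValNat_dvd
  have hm'odd : Odd m' := by
    rw [← Nat.not_even_iff_odd]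
    rintro ⟨l, hl⟩
    have h3 : 2 ^ (padicValNat 2 n + 1) ∣ n := ⟨l, by rw [← ht, hm', hl, pow_succ]; ring⟩
    exact pow_succ_padicValNat_not_dvd hn h3
  obtain ⟨u', hu'⟩ : 2 ^ (t + 1) ∣ Fintype.card F - 1 := (padicValNat_dvd_iff_le hq10).2 h
  have hu'pos : 0 < u' := by
    rcases Nat.eq_zero_or_pos u' with h0 | h0
    · rw [h0, mul_zero] at hu'; exact absurd hu' hq10
    · exact h0
  have hp : 0 < u' * 2 ^ t := Nat.mul_pos hu'pos (pow_pos two_pos t)
  have e : u' * 2 ^ t + u' * 2 ^ t = Fintype.card F - 1 := by rw [hu', pow_succ]; ring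
  have hζ2 : (γ ^ (u' * 2 ^ t)) * (γ ^ (u' * 2 ^ t)) = 1 := by
    rw [← pow_add, e, ← hγo, pow_orderOf_eq_one]
  have hζ1 : γ ^ (u' * 2 ^ t) ≠ 1 := by
    intro h1
    have h7 := orderOf_dvd_of_pow_eq_one h1
    rw [hγo, ← e] at h7
    have h8 := Nat.le_of_dvd hp h7
    omega
  have hζ : γ ^ (u' * 2 ^ t) = -1 := by
    rcases mul_self_eq_one_iff.1 hζ2 with h1 | h1
    · exact absurd h1 hζ1
    · exact h1
  refine ⟨γ ^ u', ?_⟩
  rw [← pow_mul, hm', ← mul_assoc, pow_mul, hζ, Odd.neg_one_pow hm'odd]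

theorem no_neg_root [Fintype F] (hch : ringChar F ≠ 2) (n : ℕ) (hn : n ≠ 0)
    (h : padicValNat 2 (Fintype.card F - 1) ≤ padicValNat 2 n) (c : F) (hc : c ^ n = -1) :
    False := by
  have hq1 := Fintype.one_lt_card (α := F)
  have hq10 : Fintype.card F - 1 ≠ 0 := by omega
  have hc0 : c ≠ 0 := by
    rintro rfl
    rw [zero_pow hn] at hc
    exact (neg_ne_zero.2 one_ne_zero) hc.symm
  obtain ⟨t, ht⟩ : ∃ t, t = padicValNat 2 (Fintype.card F - 1) := ⟨_, rfl⟩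
  rw [← ht] at h
  obtain ⟨u, hu⟩ : 2 ^ t ∣ Fintype.card F - 1 := ht ▸ pow_padicValNat_dvd
  have huodd : Odd u := by
    rw [← Nat.not_even_iff_odd]
    rintro ⟨l, hl⟩
    have h3 : 2 ^ (padicValNat 2 (Fintype.card F - 1) + 1) ∣ Fintype.card F - 1 :=
      ⟨l, by rw [← ht, hu, hl, pow_succ]; ring⟩
    exact pow_succ_padicValNat_not_dvd hq10 h3
  obtain ⟨n', hn'⟩ : 2 ^ t ∣ n := (padicValNat_dvd_iff_le hn).2 h
  have h1 : (c ^ n) ^ u = 1 := by
    rw [← pow_mul, hn', mul_assoc, mul_comm n' u, ← mul_assoc, ← hu, pow_mul,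
      FiniteField.pow_card_sub_one_eq_one c hc0, one_pow]
  rw [hc, Odd.neg_one_pow huodd] at h1
  exact (Ring.two_ne_zero hch) (by linear_combination (-1 : F) * h1)

theorem nonscalar_of (hn : 3 ≤ n) (X : Matrix (Fin n) (Fin n) F) (c : F) (w : Fin n → F)
    (hw : w ≠ 0) (φ : (Fin n → F) → F) (hD : ∀ v, X *ᵥ v = c • v + φ v • w)
    (v₀ : Fin n → F) (hφ : φ v₀ ≠ 0) : ∀ z : F, X ≠ z • 1 := by
  intro z hz
  have h1 : ∀ v, (z - c) • v = φ v • w := by
    intro v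
    have h := hD v
    rw [hz, Matrix.smul_mulVec, Matrix.one_mulVec] at h
    rw [sub_smul, h, add_sub_cancel_left]
  have hzc : z - c ≠ 0 := by
    intro h0
    have h := h1 v₀
    rw [h0, zero_smul] at h
    rcases smul_eq_zero.1 h.symm with h3 | h3
    · exact hφ h3
    · exact hw h3
  refine small_range hn 1 1 w w (fun v => ⟨(z - c)⁻¹ * φ v, 0, ?_⟩) (one_mul 1)
  rw [Matrix.one_mulVec, zero_smul, add_zero, ← smul_smul, ← h1 v, smul_smul,
    inv_mul_cancel₀ hzc, one_smul]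

theorem bad_char2 (h2 : (2 : F) = 0) (hn : 3 ≤ n) :
    ∃ (x : Matrix.SpecialLinearGroup (Fin n) F) (c : F) (w : Fin n → F) (φ : (Fin n → F) → F)
      (v₀ : Fin n → F),
      ((x ^ 2 : Matrix.SpecialLinearGroup (Fin n) F) : Matrix (Fin n) (Fin n) F)
        = (1 : F) • (1 : Matrix (Fin n) (Fin n) F) ∧ w ≠ 0 ∧
      (∀ v, (x : Matrix (Fin n) (Fin n) F) *ᵥ v = c • v + φ v • w) ∧ φ v₀ ≠ 0 := by
  classical
  obtain ⟨i₀, j₀, hij⟩ : ∃ i₀ j₀ : Fin n, i₀ ≠ j₀ :=
    ⟨⟨0, by omega⟩, ⟨1, by omega⟩, by intro h; have := congrArg Fin.val h; simp at this⟩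
  obtain ⟨x, hx⟩ : ∃ x : Matrix.SpecialLinearGroup (Fin n) F,
      (x : Matrix (Fin n) (Fin n) F) = Matrix.transvection i₀ j₀ (1 : F) :=
    ⟨⟨_, Matrix.det_transvection_of_ne i₀ j₀ hij 1⟩, rfl⟩
  refine ⟨x, 1, Pi.single i₀ 1, fun v => v j₀, Pi.single j₀ 1, ?_, ?_, ?_, ?_⟩
  · rw [Matrix.SpecialLinearGroup.coe_pow, pow_two, hx,
      Matrix.transvection_mul_transvection_same i₀ j₀ hij, one_smul]
    have e : (1 : F) + 1 = 0 := by rw [one_add_one_eq_two]; exact h2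
    rw [e, Matrix.transvection_zero]
  · intro h0
    have h := congrFun h0 i₀
    simp at h
  · intro v
    rw [hx, Matrix.transvection, Matrix.add_mulVec, Matrix.one_mulVec, Matrix.single_mulVec,
      one_smul, one_mul]
    congr 1
    funext k
    by_cases hk : k = i₀
    · subst hk; simp
    · simp [hk]
  · show (Pi.single j₀ (1 : F) : Fin n → F) j₀ ≠ 0
    simp

theorem bad_odd (h2 : (2 : F) ≠ 0) (hn : 3 ≤ n) (c : F) (hc : c ^ n = -1) :
    ∃ (x : Matrix.SpecialLinearGroup (Fin n) F) (w : Fin n → F) (φ : (Fin n → F) → F)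
      (v₀ : Fin n → F),
      ((x ^ 2 : Matrix.SpecialLinearGroup (Fin n) F) : Matrix (Fin n) (Fin n) F)
        = (c * c) • (1 : Matrix (Fin n) (Fin n) F) ∧ w ≠ 0 ∧
      (∀ v, (x : Matrix (Fin n) (Fin n) F) *ᵥ v = c • v + φ v • w) ∧ φ v₀ ≠ 0 := by
  classical
  have hc0 : c ≠ 0 := by
    rintro rfl
    rw [zero_pow (by omega)] at hc
    exact (neg_ne_zero.2 one_ne_zero) hc.symm
  obtain ⟨i₀⟩ : Nonempty (Fin n) := ⟨⟨0, by omega⟩⟩
  obtain ⟨d, hd⟩ : ∃ d : Fin n → F, ∀ i, d i = if i = i₀ then -c else c :=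
    ⟨fun i => if i = i₀ then -c else c, fun i => rfl⟩
  have hdet : (Matrix.diagonal d).det = 1 := by
    rw [Matrix.det_diagonal]
    have e : ∀ i, d i = (if i = i₀ then (-1 : F) else 1) * c := by
      intro i
      rw [hd]
      by_cases h : i = i₀ <;> simp [h]
    rw [Finset.prod_congr rfl (fun i _ => e i), Finset.prod_mul_distrib, Finset.prod_ite_eq',
      if_pos (Finset.mem_univ _), Finset.prod_const, Finset.card_univ, Fintype.card_fin, hc]
    norm_num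
  obtain ⟨x, hx⟩ : ∃ x : Matrix.SpecialLinearGroup (Fin n) F,
      (x : Matrix (Fin n) (Fin n) F) = Matrix.diagonal d := ⟨⟨_, hdet⟩, rfl⟩
  refine ⟨x, Pi.single i₀ 1, fun v => -2 * c * v i₀, Pi.single i₀ 1, ?_, ?_, ?_, ?_⟩
  · rw [Matrix.SpecialLinearGroup.coe_pow, pow_two, hx, Matrix.diagonal_mul_diagonal,
      Matrix.smul_one_eq_diagonal]
    congr 1
    funext i
    rw [hd]
    by_cases h : i = i₀ <;> simp [h]
  · intro h0
    have h := congrFun h0 i₀
    simp at h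
  · intro v
    funext i
    rw [hx, Matrix.mulVec_diagonal, hd]
    by_cases h : i = i₀
    · rw [if_pos h, h]
      simp only [Pi.add_apply, Pi.smul_apply, Pi.single_eq_same, smul_eq_mul]
      ring
    · rw [if_neg h]
      simp only [Pi.add_apply, Pi.smul_apply, Pi.single_eq_of_ne h, smul_eq_mul, mul_zero,
        add_zero]
  · show -2 * c * (Pi.single i₀ (1 : F) : Fin n → F) i₀ ≠ 0
    rw [Pi.single_eq_same, mul_one]
    exact mul_ne_zero (neg_ne_zero.2 h2) hc0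

end bad
def sigB (m' : ℕ) : Fin 2 ⊕ (Fin m' ⊕ Fin m') → (Fin 1 ⊕ Fin m') ⊕ (Fin 1 ⊕ Fin m')
  | Sum.inl a => if a = 0 then Sum.inl (Sum.inl 0) else Sum.inr (Sum.inl 0)
  | Sum.inr (Sum.inl k) => Sum.inl (Sum.inr k)
  | Sum.inr (Sum.inr k) => Sum.inr (Sum.inr k)

theorem sigB_inj (m' : ℕ) : Function.Injective (sigB m') := by
  have h01 : ∀ a : Fin 2, a = 0 ∨ a = 1 := by decide
  rintro (a | a | a) (b | b | b) h
  · rcases h01 a with rfl | rfl <;> rcases h01 b with rfl | rfl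
    · rfl
    · simp [sigB] at h
    · simp [sigB] at h
    · rfl
  · simp only [sigB] at h
    split_ifs at h <;> simp at h
  · simp only [sigB] at h
    split_ifs at h <;> simp at h
  · simp only [sigB] at h
    split_ifs at h <;> simp at h
  · simp only [sigB, Sum.inl.injEq, Sum.inr.injEq] at h
    rw [h]
  · simp [sigB] at h
  · simp only [sigB] at h
    split_ifs at h <;> simp at h
  · simp [sigB] at h
  · simp only [sigB, Sum.inr.injEq] at h
    rw [h]

section conj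
open Matrix
variable {F : Type*} [Field F] {n : ℕ}

theorem sl_of_gl (K : Subalgebra F (Matrix (Fin n) (Fin n) F))
    (hdet : ∀ δ : F, δ ≠ 0 → ∃ h ∈ Cfsg.Geo.subalgebraNormalizer K,
      (h : Matrix (Fin n) (Fin n) F).det = δ)
    (x : Matrix.SpecialLinearGroup (Fin n) F) (Q g : GL (Fin n) F)
    (hg : g ∈ Cfsg.Geo.subalgebraNormalizer K)
    (hQ : (Q : Matrix (Fin n) (Fin n) F) * (x : Matrix (Fin n) (Fin n) F)
      = (g : Matrix (Fin n) (Fin n) F) * (Q : Matrix (Fin n) (Fin n) F)) :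
    ∃ P : Matrix.SpecialLinearGroup (Fin n) F, P⁻¹ * x * P ∈
      ((Cfsg.Geo.subalgebraNormalizer K).comap
        (Matrix.SpecialLinearGroup.toGL : Matrix.SpecialLinearGroup (Fin n) F →* GL (Fin n) F)) := by
  have hQdet : (Q : Matrix (Fin n) (Fin n) F).det ≠ 0 := (Matrix.isUnits_det_units Q).ne_zero
  obtain ⟨h, hh, hhdet⟩ := hdet _ hQdet
  have hPdet : ((Q⁻¹ * h : GL (Fin n) F) : Matrix (Fin n) (Fin n) F).det = 1 := by
    rw [Units.val_mul, Matrix.det_mul, hhdet, ← Matrix.det_mul, Units.inv_mul, Matrix.det_one]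
  obtain ⟨P, hP⟩ : ∃ P : Matrix.SpecialLinearGroup (Fin n) F,
      (P : Matrix (Fin n) (Fin n) F) = ((Q⁻¹ * h : GL (Fin n) F) : Matrix (Fin n) (Fin n) F) :=
    ⟨⟨_, hPdet⟩, rfl⟩
  refine ⟨P, ?_⟩
  rw [Subgroup.mem_comap]
  have hPgl : Matrix.SpecialLinearGroup.toGL P = Q⁻¹ * h := Units.ext hP
  have h1 : ((Q⁻¹ * g * Q : GL (Fin n) F) : Matrix (Fin n) (Fin n) F)
      = (x : Matrix (Fin n) (Fin n) F) := by
    rw [Units.val_mul, Units.val_mul, mul_assoc, ← hQ, ← mul_assoc, Units.inv_mul, one_mul]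
  have hxg : Matrix.SpecialLinearGroup.toGL x = Q⁻¹ * g * Q := Units.ext h1.symm
  rw [map_mul, map_mul, map_inv, hPgl, hxg]
  have e : (Q⁻¹ * h)⁻¹ * (Q⁻¹ * g * Q) * (Q⁻¹ * h) = h⁻¹ * g * h := by group
  rw [e]
  exact Subgroup.mul_mem _ (Subgroup.mul_mem _ (Subgroup.inv_mem _ hh) hg) hh

theorem chainK (A₀ : Matrix (Fin n) (Fin n) F) (d : F) (hA : A₀ * A₀ = d • 1)
    (hd : ¬ IsSquare d) (hn : 0 < n) (κ ι' : Type) [Fintype κ] [Fintype ι']
    (σ : κ → ι' ⊕ ι') (hσ : Function.Injective σ) (hcard : Fintype.card κ = n)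
    (hcard' : 2 * Fintype.card ι' = n) :
    ∃ (e : ι' → (Fin n → F)) (β : Module.Basis κ F (Fin n → F)),
      ∀ j, β j = Sum.elim e (fun i => A₀ *ᵥ e i) (σ j) := by
  classical
  have hd0 : d ≠ 0 := by
    rintro rfl
    exact hd ⟨0, by simp⟩
  have hT : ∀ v, Matrix.toLin' A₀ (Matrix.toLin' A₀ v) = d • v := S2577.toLin_sq A₀ d hA
  have hne : ∀ v : Fin n → F, v ≠ 0 → ∀ c : F, Matrix.toLin' A₀ v ≠ c • v := by
    intro v hv c hc
    have h1 := hT v
    rw [hc, map_smul, hc, smul_smul] at h1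
    have h2 : (c * c - d) • v = 0 := by rw [sub_smul, h1, sub_self]
    rcases smul_eq_zero.1 h2 with h3 | h3
    · exact hd ⟨c, (sub_eq_zero.1 h3).symm⟩
    · exact hv h3
  have hfin : Module.finrank F (Fin n → F) = n := Module.finrank_fin_fun F
  obtain ⟨ι, hι, e₀, hli, hsp⟩ := S2577.nonsq_struct (Matrix.toLin' A₀) d hd0 hT hne n ⊤
    (fun v _ => Submodule.mem_top) (by rw [finrank_top, hfin])
  have hcardι : Fintype.card ι + Fintype.card ι = n := by
    have hb : Module.Basis (ι ⊕ ι) F (Fin n → F) := Module.Basis.mk hli (by rw [hsp])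
    have h := Module.finrank_eq_card_basis hb
    rw [hfin, Fintype.card_sum] at h
    exact h.symm
  have hcc : Fintype.card ι' = Fintype.card ι := by omega
  obtain ⟨ρ⟩ : Nonempty (ι' ≃ ι) := ⟨Fintype.equivOfCardEq hcc⟩
  obtain ⟨β, hβ⟩ := S5967.basis_of_li (Sum.elim e₀ (fun i => Matrix.toLin' A₀ (e₀ i))) hli
    (fun j => Sum.map ρ ρ (σ j))
    (fun j₁ j₂ h => hσ ((Sum.map_injective.2 ⟨ρ.injective, ρ.injective⟩) h))
    (by rw [hcard, hfin]) (by rw [hfin]; exact hn)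
  refine ⟨fun i => e₀ (ρ i), β, fun j => ?_⟩
  rw [hβ]
  generalize σ j = s
  rcases s with i | i
  · rfl
  · exact Matrix.toLin'_apply A₀ (e₀ (ρ i))

theorem block_det {V : Type*} [AddCommGroup V] [Module F V] {κ' : Type*} [Fintype κ']
    [DecidableEq κ'] (β : Module.Basis (Fin 2 ⊕ κ') F V) (ψ : V →ₗ[F] V) (m₀₀ m₁₀ m₀₁ m₁₁ : F)
    (h0 : ψ (β (Sum.inl 0)) = m₀₀ • β (Sum.inl 0) + m₁₀ • β (Sum.inl 1))
    (h1 : ψ (β (Sum.inl 1)) = m₀₁ • β (Sum.inl 0) + m₁₁ • β (Sum.inl 1))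
    (h2 : ∀ k, ψ (β (Sum.inr k)) = β (Sum.inr k)) :
    LinearMap.det ψ = m₀₀ * m₁₁ - m₀₁ * m₁₀ := by
  have h01 : ∀ a : Fin 2, a = 0 ∨ a = 1 := by decide
  rw [← LinearMap.det_toMatrix β]
  have hM : LinearMap.toMatrix β β ψ = Matrix.fromBlocks !![m₀₀, m₀₁; m₁₀, m₁₁] 0 0 1 := by
    ext i j
    rw [LinearMap.toMatrix_apply]
    rcases j with b | k'
    · rcases h01 b with rfl | rfl
      · rw [h0, map_add, map_smul, map_smul, Module.Basis.repr_self, Module.Basis.repr_self]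
        rcases i with a | k
        · rcases h01 a with rfl | rfl <;> simp
        · simp
      · rw [h1, map_add, map_smul, map_smul, Module.Basis.repr_self, Module.Basis.repr_self]
        rcases i with a | k
        · rcases h01 a with rfl | rfl <;> simp
        · simp
    · rw [h2, Module.Basis.repr_self]
      rcases i with a | k
      · simp
      · by_cases hkk : k = k'
        · subst hkk; simp
        · simp [hkk]
  rw [hM, Matrix.det_fromBlocks_zero₂₁, Matrix.det_one, mul_one, Matrix.det_fin_two_of]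

theorem det_surj_odd [Fintype F] (hch : ringChar F ≠ 2) (hn : 0 < n) (he : Even n)
    (K : Subalgebra F (Matrix (Fin n) (Fin n) F)) (A₀ : Matrix (Fin n) (Fin n) F) (d : F)
    (hAK : A₀ ∈ K) (hA : A₀ * A₀ = d • 1) (hd : ¬ IsSquare d)
    (hgen : ∀ y ∈ K, ∃ s t : F, y = s • 1 + t • A₀) (δ : F) (hδ : δ ≠ 0) :
    ∃ h ∈ Cfsg.Geo.subalgebraNormalizer K, (h : Matrix (Fin n) (Fin n) F).det = δ := by
  classical
  have hd0 : d ≠ 0 := by
    rintro rfl
    exact hd ⟨0, by simp⟩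
  obtain ⟨m, hm⟩ := he
  obtain ⟨m', rfl⟩ : ∃ m', m = m' + 1 := ⟨m - 1, by omega⟩
  obtain ⟨e, β, hβ⟩ := chainK A₀ d hA hd hn (Fin 2 ⊕ (Fin m' ⊕ Fin m')) (Fin 1 ⊕ Fin m')
    (sigB m') (sigB_inj m')
    (by simp only [Fintype.card_sum, Fintype.card_fin]; omega)
    (by simp only [Fintype.card_sum, Fintype.card_fin]; omega)
  have hAA : ∀ v, A₀ *ᵥ (A₀ *ᵥ v) = d • v := by
    intro v
    rw [Matrix.mulVec_mulVec, hA, Matrix.smul_mulVec, Matrix.one_mulVec]
  have hb0 : β (Sum.inl 0) = e (Sum.inl 0) := by rw [hβ]; rfl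
  have hb1 : β (Sum.inl 1) = A₀ *ᵥ e (Sum.inl 0) := by rw [hβ]; rfl
  have hbl : ∀ k, β (Sum.inr (Sum.inl k)) = e (Sum.inr k) := fun k => by rw [hβ]; rfl
  have hbr : ∀ k, β (Sum.inr (Sum.inr k)) = A₀ *ᵥ e (Sum.inr k) := fun k => by rw [hβ]; rfl
  have A0 : A₀ *ᵥ β (Sum.inl 0) = β (Sum.inl 1) := by rw [hb0, hb1]
  have A1 : A₀ *ᵥ β (Sum.inl 1) = d • β (Sum.inl 0) := by rw [hb1, hAA, hb0]
  have Al : ∀ k, A₀ *ᵥ β (Sum.inr (Sum.inl k)) = β (Sum.inr (Sum.inr k)) := fun k => by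
    rw [hbl, hbr]
  have Ar : ∀ k, A₀ *ᵥ β (Sum.inr (Sum.inr k)) = d • β (Sum.inr (Sum.inl k)) := fun k => by
    rw [hbr, hAA, hbl]
  obtain ⟨u, v, huv⟩ : ∃ u v : F, u * u - d * v * v = δ := by
    have hf : (Polynomial.X ^ 2 : Polynomial F).degree = 2 := Polynomial.degree_X_pow 2
    have hg : (Polynomial.C (-d) * Polynomial.X ^ 2 + Polynomial.C 0 * Polynomial.X
        + Polynomial.C (-δ) : Polynomial F).degree = 2 :=
      Polynomial.degree_quadratic (neg_ne_zero.2 hd0)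
    obtain ⟨u, v, huv⟩ := FiniteField.exists_root_sum_quadratic hf hg
      (FiniteField.odd_card_of_char_ne_two hch)
    refine ⟨u, v, ?_⟩
    simp only [Polynomial.eval_add, Polynomial.eval_mul, Polynomial.eval_pow, Polynomial.eval_X,
      Polynomial.eval_C] at huv
    linear_combination huv
  obtain ⟨T, hT0, hT1, hT2⟩ : ∃ T : (Fin n → F) →ₗ[F] (Fin n → F),
      T (β (Sum.inl 0)) = u • β (Sum.inl 0) + v • β (Sum.inl 1) ∧
      T (β (Sum.inl 1)) = (d * v) • β (Sum.inl 0) + u • β (Sum.inl 1) ∧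
      ∀ k, T (β (Sum.inr k)) = β (Sum.inr k) := by
    refine ⟨β.constr F (Sum.elim (fun a : Fin 2 => if a = 0 then u • β (Sum.inl 0)
      + v • β (Sum.inl 1) else (d * v) • β (Sum.inl 0) + u • β (Sum.inl 1))
      (fun k => β (Sum.inr k))), ?_, ?_, fun k => ?_⟩
    · rw [Module.Basis.constr_basis]; rfl
    · rw [Module.Basis.constr_basis]; rfl
    · rw [Module.Basis.constr_basis]; rfl
  have hdetT : LinearMap.det T = δ := by
    rw [block_det β T u v (d * v) u hT0 hT1 hT2, ← huv]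
  have hHv : ∀ w, LinearMap.toMatrix' T *ᵥ w = T w := fun w => LinearMap.toMatrix'_mulVec T w
  have hHdet : (LinearMap.toMatrix' T).det = δ := by rw [LinearMap.det_toMatrix', hdetT]
  obtain ⟨h, hh⟩ : ∃ h : GL (Fin n) F, (h : Matrix (Fin n) (Fin n) F) = LinearMap.toMatrix' T :=
    ⟨Matrix.GeneralLinearGroup.mkOfDetNeZero _ (by rw [hHdet]; exact hδ), rfl⟩
  have hcomm : LinearMap.toMatrix' T * A₀ = A₀ * LinearMap.toMatrix' T := by
    have h01 : ∀ a : Fin 2, a = 0 ∨ a = 1 := by decide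
    apply mat_ext_basis β
    intro j
    rw [← Matrix.mulVec_mulVec, ← Matrix.mulVec_mulVec, hHv, hHv]
    rcases j with a | k | k
    · rcases h01 a with rfl | rfl
      · rw [A0, hT1, hT0, Matrix.mulVec_add, Matrix.mulVec_smul, Matrix.mulVec_smul, A0, A1]
        module
      · rw [A1, map_smul, hT0, hT1, Matrix.mulVec_add, Matrix.mulVec_smul, Matrix.mulVec_smul,
          A0, A1]
        module
    · rw [Al, hT2, hT2, Al]
    · rw [Ar, map_smul, hT2, hT2, Ar]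
  refine ⟨h, ?_, by rw [hh]; exact hHdet⟩
  refine normK_gen K A₀ hgen h A₀ A₀ hAK hAK ?_ ?_
  · rw [hh]; exact hcomm
  · rw [hh]; exact hcomm.symm

end conj
section eig
open Matrix
variable {F : Type*} [Field F] {n : ℕ}

theorem eig_x (h2 : (2 : F) ≠ 0) (hn : 0 < n) (x : Matrix.SpecialLinearGroup (Fin n) F) (w : F)
    (hw0 : w ≠ 0)
    (hz : (x : Matrix (Fin n) (Fin n) F) * (x : Matrix (Fin n) (Fin n) F) = (w * w) • 1) :
    ∃ a b : ℕ, a + b = n ∧ w ^ a * (-w) ^ b = 1 ∧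
      ∀ (κ₁ κ₂ : Type) [Fintype κ₁] [Fintype κ₂], Fintype.card κ₁ = a → Fintype.card κ₂ = b →
        ∃ γ : Module.Basis (κ₁ ⊕ κ₂) F (Fin n → F),
          (∀ i, (x : Matrix (Fin n) (Fin n) F) *ᵥ γ (Sum.inl i) = w • γ (Sum.inl i)) ∧
          (∀ k, (x : Matrix (Fin n) (Fin n) F) *ᵥ γ (Sum.inr k) = (-w) • γ (Sum.inr k)) := by
  classical
  have hXX : ∀ v : Fin n → F, (x : Matrix (Fin n) (Fin n) F) *ᵥ
      ((x : Matrix (Fin n) (Fin n) F) *ᵥ v) = (w * w) • v := by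
    intro v
    rw [Matrix.mulVec_mulVec, hz, Matrix.smul_mulVec, Matrix.one_mulVec]
  have hfin : Module.finrank F (Fin n → F) = n := Module.finrank_fin_fun F
  have hpos : 0 < Module.finrank F (Fin n → F) := by rw [hfin]; exact hn
  obtain ⟨wi, hwi⟩ : ∃ wi : F, wi * w = 1 := ⟨w⁻¹, inv_mul_cancel₀ hw0⟩
  have hwi' : w * wi = 1 := by rw [mul_comm]; exact hwi
  obtain ⟨T, hTdef⟩ : ∃ T : (Fin n → F) →ₗ[F] (Fin n → F),
      ∀ v, T v = wi • ((x : Matrix (Fin n) (Fin n) F) *ᵥ v) :=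
    ⟨wi • Matrix.toLin' (x : Matrix (Fin n) (Fin n) F), fun v => rfl⟩
  have hTT : ∀ v, T (T v) = v := by
    intro v
    rw [hTdef (T v), hTdef v, Matrix.mulVec_smul, hXX]
    have e : wi • wi • (w * w) • v = (wi * w * (wi * w)) • v := by module
    rw [e, hwi, one_mul, one_smul]
  have hcompl := S2577.isCompl_inv h2 T hTT
  have hXT : ∀ v, w • T v = (x : Matrix (Fin n) (Fin n) F) *ᵥ v := by
    intro v
    rw [hTdef, smul_smul, hwi', one_smul]
  have hp : ∀ v ∈ LinearMap.ker (LinearMap.id - T),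
      (x : Matrix (Fin n) (Fin n) F) *ᵥ v = w • v := by
    intro v hv
    rw [LinearMap.mem_ker, LinearMap.sub_apply, LinearMap.id_apply, sub_eq_zero] at hv
    rw [← hXT, ← hv]
  have hm : ∀ v ∈ LinearMap.ker (LinearMap.id + T),
      (x : Matrix (Fin n) (Fin n) F) *ᵥ v = (-w) • v := by
    intro v hv
    rw [LinearMap.mem_ker, LinearMap.add_apply, LinearMap.id_apply] at hv
    have h4 : T v = -v := by rw [eq_neg_iff_add_eq_zero, add_comm]; exact hv
    rw [← hXT, h4, smul_neg, neg_smul]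
  obtain ⟨a, ha⟩ : ∃ a, Module.finrank F (LinearMap.ker (LinearMap.id - T)) = a := ⟨_, rfl⟩
  obtain ⟨b, hb⟩ : ∃ b, Module.finrank F (LinearMap.ker (LinearMap.id + T)) = b := ⟨_, rfl⟩
  have hab : a + b = n := by
    rw [← ha, ← hb, Submodule.finrank_add_eq_of_isCompl hcompl, hfin]
  have key : ∀ (κ₁ κ₂ : Type) [Fintype κ₁] [Fintype κ₂], Fintype.card κ₁ = a →
      Fintype.card κ₂ = b → ∃ γ : Module.Basis (κ₁ ⊕ κ₂) F (Fin n → F),
        (∀ i, (x : Matrix (Fin n) (Fin n) F) *ᵥ γ (Sum.inl i) = w • γ (Sum.inl i)) ∧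
        (∀ k, (x : Matrix (Fin n) (Fin n) F) *ᵥ γ (Sum.inr k) = (-w) • γ (Sum.inr k)) := by
    intro κ₁ κ₂ _ _ h1 h2'
    obtain ⟨γ, hγ1, hγ2⟩ := S5967.two_struct _ _ hcompl κ₁ κ₂ (by rw [ha, h1])
      (by rw [hb, h2']) hpos
    exact ⟨γ, fun i => hp _ (hγ1 i), fun k => hm _ (hγ2 k)⟩
  refine ⟨a, b, hab, ?_, key⟩
  obtain ⟨γ, hγ1, hγ2⟩ := key (Fin a) (Fin b) (Fintype.card_fin a) (Fintype.card_fin b)
  have hdet := S5967.det_diag_basis γ (Matrix.toLin' (x : Matrix (Fin n) (Fin n) F))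
    (Sum.elim (fun _ => w) (fun _ => -w)) (by
      rintro (i | k)
      · rw [Matrix.toLin'_apply]; exact hγ1 i
      · rw [Matrix.toLin'_apply]; exact hγ2 k)
  rw [LinearMap.det_toLin', Matrix.SpecialLinearGroup.det_coe, Fintype.prod_sum_type] at hdet
  simp only [Sum.elim_inl, Sum.elim_inr, Finset.prod_const, Finset.card_univ,
    Fintype.card_fin] at hdet
  exact hdet.symm

theorem diagN (K : Subalgebra F (Matrix (Fin n) (Fin n) F)) (A₀ : Matrix (Fin n) (Fin n) F)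
    (hAK : A₀ ∈ K) (hgen : ∀ y ∈ K, ∃ s t : F, y = s • 1 + t • A₀) {κ : Type} [Fintype κ]
    (β : Module.Basis κ F (Fin n → F)) (μ : κ → F) (c : F) (hc : c ≠ 0)
    (hμ : ∀ j, μ j * μ j = c * c) (s : F) (hs : s * s = 1)
    (hA : ∀ j, ∃ (j' : κ) (r : F), A₀ *ᵥ β j = r • β j' ∧ μ j' = s * μ j) :
    ∃ g : GL (Fin n) F, g ∈ Cfsg.Geo.subalgebraNormalizer K ∧
      ∀ j, (g : Matrix (Fin n) (Fin n) F) *ᵥ β j = μ j • β j := by
  obtain ⟨T, hT⟩ : ∃ T : (Fin n → F) →ₗ[F] (Fin n → F), ∀ j, T (β j) = μ j • β j :=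
    ⟨β.constr F (fun j => μ j • β j), fun j => β.constr_basis F _ j⟩
  have hGv : ∀ w, LinearMap.toMatrix' T *ᵥ w = T w := fun w => LinearMap.toMatrix'_mulVec T w
  have hGG : LinearMap.toMatrix' T * LinearMap.toMatrix' T = (c * c) • 1 := by
    apply mat_ext_basis β
    intro j
    rw [← Matrix.mulVec_mulVec, hGv, hGv, hT, map_smul, hT, smul_smul, hμ, Matrix.smul_mulVec,
      Matrix.one_mulVec]
  have hcc : c * c ≠ 0 := mul_ne_zero hc hc
  obtain ⟨g, hg⟩ : ∃ g : GL (Fin n) F,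
      (g : Matrix (Fin n) (Fin n) F) = LinearMap.toMatrix' T :=
    ⟨⟨LinearMap.toMatrix' T, (c * c)⁻¹ • LinearMap.toMatrix' T,
      by rw [Matrix.mul_smul, hGG, smul_smul, inv_mul_cancel₀ hcc, one_smul],
      by rw [Matrix.smul_mul, hGG, smul_smul, inv_mul_cancel₀ hcc, one_smul]⟩, rfl⟩
  have h1 : LinearMap.toMatrix' T * A₀ = (s • A₀) * LinearMap.toMatrix' T := by
    apply mat_ext_basis β
    intro j
    obtain ⟨j', r, hj1, hj2⟩ := hA j
    rw [← Matrix.mulVec_mulVec, ← Matrix.mulVec_mulVec, hGv, hGv, hT, hj1, map_smul, hT, hj2,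
      Matrix.mulVec_smul, Matrix.smul_mulVec, hj1]
    module
  have h2 : A₀ * LinearMap.toMatrix' T = LinearMap.toMatrix' T * (s • A₀) := by
    apply mat_ext_basis β
    intro j
    obtain ⟨j', r, hj1, hj2⟩ := hA j
    rw [← Matrix.mulVec_mulVec, ← Matrix.mulVec_mulVec, hGv, hGv, hT, Matrix.mulVec_smul,
      Matrix.smul_mulVec, hj1, map_smul, map_smul, hT, hj2]
    have e : s • r • (s * μ j) • β j' = (s * s) • (μ j • r • β j') := by module
    rw [e, hs, one_smul]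
  refine ⟨g, ?_, fun j => by rw [hg, hGv, hT]⟩
  refine normK_gen K A₀ hgen g (s • A₀) (s • A₀) (K.smul_mem hAK s) (K.smul_mem hAK s) ?_ ?_
  · rw [hg]; exact h1
  · rw [hg]; exact h2

theorem eig_conj {κ : Type} [Fintype κ] (X : Matrix (Fin n) (Fin n) F) (g : GL (Fin n) F)
    (γ β : Module.Basis κ F (Fin n → F)) (μ : κ → F) (hγ : ∀ j, X *ᵥ γ j = μ j • γ j)
    (hβ : ∀ j, (g : Matrix (Fin n) (Fin n) F) *ᵥ β j = μ j • β j) :
    ∃ Q : GL (Fin n) F, (Q : Matrix (Fin n) (Fin n) F) * X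
      = (g : Matrix (Fin n) (Fin n) F) * (Q : Matrix (Fin n) (Fin n) F) := by
  apply S2577.conj_of_equiv X (g : Matrix (Fin n) (Fin n) F) (γ.equiv β (Equiv.refl κ))
  have key : ((γ.equiv β (Equiv.refl κ) : (Fin n → F) ≃ₗ[F] (Fin n → F)) :
        (Fin n → F) →ₗ[F] (Fin n → F)) ∘ₗ Matrix.toLin' X
      = Matrix.toLin' (g : Matrix (Fin n) (Fin n) F) ∘ₗ
        ((γ.equiv β (Equiv.refl κ) : (Fin n → F) ≃ₗ[F] (Fin n → F)) :
          (Fin n → F) →ₗ[F] (Fin n → F)) := by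
    apply γ.ext
    intro j
    rw [LinearMap.comp_apply, LinearMap.comp_apply, LinearEquiv.coe_coe, Matrix.toLin'_apply,
      Matrix.toLin'_apply, hγ, map_smul, Module.Basis.equiv_apply, Equiv.refl_apply, hβ]
  exact fun v => LinearMap.congr_fun key v

theorem jordan_conj (X : Matrix (Fin n) (Fin n) F) (g : GL (Fin n) F) (c : F)
    (γ β : Module.Basis (Fin 2) F (Fin n → F))
    (hγ0 : X *ᵥ γ 0 = c • γ 0) (hγ1 : X *ᵥ γ 1 = c • γ 1 + γ 0)
    (hβ0 : (g : Matrix (Fin n) (Fin n) F) *ᵥ β 0 = c • β 0)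
    (hβ1 : (g : Matrix (Fin n) (Fin n) F) *ᵥ β 1 = c • β 1 + β 0) :
    ∃ Q : GL (Fin n) F, (Q : Matrix (Fin n) (Fin n) F) * X
      = (g : Matrix (Fin n) (Fin n) F) * (Q : Matrix (Fin n) (Fin n) F) := by
  have h01 : ∀ a : Fin 2, a = 0 ∨ a = 1 := by decide
  apply S2577.conj_of_equiv X (g : Matrix (Fin n) (Fin n) F) (γ.equiv β (Equiv.refl (Fin 2)))
  have key : ((γ.equiv β (Equiv.refl (Fin 2)) : (Fin n → F) ≃ₗ[F] (Fin n → F)) :
        (Fin n → F) →ₗ[F] (Fin n → F)) ∘ₗ Matrix.toLin' X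
      = Matrix.toLin' (g : Matrix (Fin n) (Fin n) F) ∘ₗ
        ((γ.equiv β (Equiv.refl (Fin 2)) : (Fin n → F) ≃ₗ[F] (Fin n → F)) :
          (Fin n → F) →ₗ[F] (Fin n → F)) := by
    apply γ.ext
    intro j
    rw [LinearMap.comp_apply, LinearMap.comp_apply, LinearEquiv.coe_coe, Matrix.toLin'_apply,
      Matrix.toLin'_apply]
    rcases h01 j with rfl | rfl
    · rw [hγ0, map_smul, Module.Basis.equiv_apply, Equiv.refl_apply, hβ0]
    · rw [hγ1, map_add, map_smul, Module.Basis.equiv_apply, Module.Basis.equiv_apply,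
        Equiv.refl_apply, Equiv.refl_apply, hβ1]
  exact fun v => LinearMap.congr_fun key v

theorem odd_back [Fintype F] (hch : ringChar F ≠ 2) (hn : 2 ≤ n) (he : Even n)
    (K : Subalgebra F (Matrix (Fin n) (Fin n) F)) (hK : Cfsg.Geo.IsFieldSubalgebra 2 K)
    (hcond : n = 2 ∨ padicValNat 2 (Fintype.card F - 1) ≤ padicValNat 2 n)
    (x : Matrix.SpecialLinearGroup (Fin n) F) (z : F)
    (hz : (x : Matrix (Fin n) (Fin n) F) * (x : Matrix (Fin n) (Fin n) F) = z • 1)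
    (hns : ∀ z : F, (x : Matrix (Fin n) (Fin n) F) ≠ z • 1) :
    ∃ P : Matrix.SpecialLinearGroup (Fin n) F, P⁻¹ * x * P ∈
      ((Cfsg.Geo.subalgebraNormalizer K).comap
        (Matrix.SpecialLinearGroup.toGL : Matrix.SpecialLinearGroup (Fin n) F →* GL (Fin n) F)) := by
  classical
  have hnpos : 0 < n := by omega
  have h2 : (2 : F) ≠ 0 := Ring.two_ne_zero hch
  obtain ⟨a, haK, hans⟩ := K_nonscalar K hK.finrank_eq
  have hgen := K_gen hnpos K hK.finrank_eq a haK hans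
  obtain ⟨β₀, α, haa⟩ := hgen (a * a) (K.mul_mem haK haK)
  obtain ⟨h, hh⟩ : ∃ h : F, h + h = α := ⟨α * 2⁻¹, by
    have h3 := mul_inv_cancel₀ h2
    linear_combination α * h3⟩
  obtain ⟨A₀, hA₀⟩ : ∃ A₀ : Matrix (Fin n) (Fin n) F, A₀ = a - h • 1 := ⟨_, rfl⟩
  have hA₀K : A₀ ∈ K := by rw [hA₀]; exact K.sub_mem haK (K.smul_mem K.one_mem h)
  obtain ⟨d, hd⟩ : ∃ d : F, d = β₀ + h * h := ⟨_, rfl⟩
  have hA : A₀ * A₀ = d • 1 := by
    rw [hA₀, hd]
    simp only [sub_mul, mul_sub, Matrix.smul_mul, Matrix.mul_smul, Matrix.one_mul,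
      Matrix.mul_one, smul_smul]
    rw [haa, ← hh]
    module
  have hAns : ∀ s : F, A₀ ≠ s • 1 := by
    intro s hs
    apply hans (s + h)
    rw [add_smul, ← hs, hA₀, sub_add_cancel]
  have hAAv : ∀ v, A₀ *ᵥ (A₀ *ᵥ v) = d • v := by
    intro v
    rw [Matrix.mulVec_mulVec, hA, Matrix.smul_mulVec, Matrix.one_mulVec]
  have hdns : ¬ IsSquare d := by
    rintro ⟨r, hr⟩
    obtain ⟨v, hv⟩ : ∃ v : Fin n → F, v ≠ 0 := ⟨Pi.single ⟨0, hnpos⟩ 1, by
      intro h0
      have h := congrFun h0 ⟨0, hnpos⟩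
      simp at h⟩
    have h1 : (A₀ - r • 1) *ᵥ ((A₀ + r • 1) *ᵥ v) = 0 := by
      rw [Matrix.add_mulVec, Matrix.smul_mulVec, Matrix.one_mulVec, Matrix.sub_mulVec,
        Matrix.smul_mulVec, Matrix.one_mulVec, Matrix.mulVec_add, Matrix.mulVec_smul, hAAv, hr]
      module
    by_cases hu : (A₀ + r • 1) *ᵥ v = 0
    · have h3 : A₀ + r • 1 = 0 := by
        by_contra hne
        exact hv (K_inv_mulVec K hK _ (K.add_mem hA₀K (K.smul_mem K.one_mem r)) hne v hu)
      exact hAns (-r) (by rw [neg_smul]; exact eq_neg_of_add_eq_zero_left h3)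
    · have h3 : A₀ - r • 1 = 0 := by
        by_contra hne
        exact hu (K_inv_mulVec K hK _ (K.sub_mem hA₀K (K.smul_mem K.one_mem r)) hne _ h1)
      exact hAns r (sub_eq_zero.1 h3)
  have hd0 : d ≠ 0 := by
    rintro rfl
    exact hdns ⟨0, by simp⟩
  have hgen₀ := K_gen hnpos K hK.finrank_eq A₀ hA₀K hAns
  have hdetsurj := det_surj_odd hch hnpos he K A₀ d hA₀K hA hdns hgen₀
  have hz0 : z ≠ 0 := by
    rintro rfl
    have h1 := congrArg Matrix.det hz
    have hne : Nonempty (Fin n) := ⟨⟨0, hnpos⟩⟩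
    rw [Matrix.det_mul, Matrix.SpecialLinearGroup.det_coe, zero_smul, Matrix.det_zero,
      one_mul] at h1
    exact one_ne_zero h1
  by_cases hzsq : IsSquare z
  · obtain ⟨c, hc⟩ := hzsq
    rw [hc] at hz
    have hc0 : c ≠ 0 := by
      rintro rfl
      exact hz0 (by rw [hc, mul_zero])
    obtain ⟨ea, eb, hab, hdetx, hγ⟩ := eig_x h2 hnpos x c hc0 hz
    have heb1 : 1 ≤ eb := by
      by_contra hb0
      have hb0' : eb = 0 := by omega
      subst hb0'
      obtain ⟨γ, hγ1, hγ2⟩ := hγ (Fin ea) (Fin 0) (Fintype.card_fin _) (Fintype.card_fin _)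
      apply hns c
      apply mat_ext_basis γ
      rintro (i | k)
      · rw [hγ1, Matrix.smul_mulVec, Matrix.one_mulVec]
      · exact k.elim0
    have hea1 : 1 ≤ ea := by
      by_contra ha0
      have ha0' : ea = 0 := by omega
      subst ha0'
      obtain ⟨γ, hγ1, hγ2⟩ := hγ (Fin 0) (Fin eb) (Fintype.card_fin _) (Fintype.card_fin _)
      apply hns (-c)
      apply mat_ext_basis γ
      rintro (i | k)
      · exact i.elim0
      · rw [hγ2, Matrix.smul_mulVec, Matrix.one_mulVec]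
    by_cases hn2 : n = 2
    · have hea : ea = 1 := by omega
      have heb : eb = 1 := by omega
      obtain ⟨e, β, hβ⟩ := chainK A₀ d hA hdns hnpos (Fin 1 ⊕ Fin 1) (Fin 1) id
        Function.injective_id (by rw [hn2]; simp) (by rw [hn2]; simp)
      have hbl : ∀ i, β (Sum.inl i) = e i := fun i => by rw [hβ]; rfl
      have hbr : ∀ i, β (Sum.inr i) = A₀ *ᵥ e i := fun i => by rw [hβ]; rfl
      obtain ⟨g, hg, hgβ⟩ := diagN K A₀ hA₀K hgen₀ β (Sum.elim (fun _ => c) (fun _ => -c)) c hc0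
        (by rintro (i | i) <;> simp) (-1) (by norm_num) (by
          rintro (i | i)
          · exact ⟨Sum.inr i, 1, by rw [hbl, hbr, one_smul], by simp⟩
          · exact ⟨Sum.inl i, d, by rw [hbr, hAAv, hbl], by simp⟩)
      obtain ⟨γ, hγ1, hγ2⟩ := hγ (Fin 1) (Fin 1) (by rw [Fintype.card_fin, hea])
        (by rw [Fintype.card_fin, heb])
      obtain ⟨Q, hQ⟩ := eig_conj (x : Matrix (Fin n) (Fin n) F) g γ β
        (Sum.elim (fun _ => c) (fun _ => -c)) (by
          rintro (i | k)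
          · exact hγ1 i
          · exact hγ2 k) hgβ
      exact sl_of_gl K hdetsurj x Q g hg hQ
    · have hcond' : padicValNat 2 (Fintype.card F - 1) ≤ padicValNat 2 n := by
        rcases hcond with h | h
        · exact absurd h hn2
        · exact h
      have hbe : Even eb := by
        by_contra hbo
        rw [Nat.not_even_iff_odd] at hbo
        rw [Odd.neg_pow hbo, mul_neg, ← pow_add, hab] at hdetx
        exact no_neg_root hch n (by omega) hcond' c (neg_eq_iff_eq_neg.1 hdetx)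
      have hsum : Even (ea + eb) := by rw [hab]; exact he
      have hae : Even ea := (Nat.even_add.1 hsum).2 hbe
      obtain ⟨a', ha'⟩ := hae
      obtain ⟨b', hb'⟩ := hbe
      obtain ⟨e, β, hβ⟩ := chainK A₀ d hA hdns hnpos ((Fin a' ⊕ Fin a') ⊕ (Fin b' ⊕ Fin b'))
        (Fin a' ⊕ Fin b') (Equiv.sumSumSumComm (Fin a') (Fin a') (Fin b') (Fin b'))
        (Equiv.injective _)
        (by simp only [Fintype.card_sum, Fintype.card_fin]; omega)
        (by simp only [Fintype.card_sum, Fintype.card_fin]; omega)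
      have hb1 : ∀ i, β (Sum.inl (Sum.inl i)) = e (Sum.inl i) := fun i => by rw [hβ]; rfl
      have hb2 : ∀ i, β (Sum.inl (Sum.inr i)) = A₀ *ᵥ e (Sum.inl i) := fun i => by
        rw [hβ]; rfl
      have hb3 : ∀ k, β (Sum.inr (Sum.inl k)) = e (Sum.inr k) := fun k => by rw [hβ]; rfl
      have hb4 : ∀ k, β (Sum.inr (Sum.inr k)) = A₀ *ᵥ e (Sum.inr k) := fun k => by
        rw [hβ]; rfl
      obtain ⟨g, hg, hgβ⟩ := diagN K A₀ hA₀K hgen₀ β (Sum.elim (fun _ => c) (fun _ => -c)) c hc0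
        (by rintro (i | i) <;> simp) 1 (by norm_num) (by
          rintro ((i | i) | (k | k))
          · exact ⟨Sum.inl (Sum.inr i), 1, by rw [hb1, hb2, one_smul], by simp⟩
          · exact ⟨Sum.inl (Sum.inl i), d, by rw [hb2, hAAv, hb1], by simp⟩
          · exact ⟨Sum.inr (Sum.inr k), 1, by rw [hb3, hb4, one_smul], by simp⟩
          · exact ⟨Sum.inr (Sum.inl k), d, by rw [hb4, hAAv, hb3], by simp⟩)
      obtain ⟨γ, hγ1, hγ2⟩ := hγ (Fin a' ⊕ Fin a') (Fin b' ⊕ Fin b')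
        (by simp only [Fintype.card_sum, Fintype.card_fin]; omega)
        (by simp only [Fintype.card_sum, Fintype.card_fin]; omega)
      obtain ⟨Q, hQ⟩ := eig_conj (x : Matrix (Fin n) (Fin n) F) g γ β
        (Sum.elim (fun _ => c) (fun _ => -c)) (by
          rintro (i | k)
          · exact hγ1 i
          · exact hγ2 k) hgβ
      exact sl_of_gl K hdetsurj x Q g hg hQ
  · obtain ⟨s, hs⟩ := S2577.nonsq_mul d z hdns hzsq
    obtain ⟨a', ha'⟩ : ∃ a' : Matrix (Fin n) (Fin n) F, a' = (s / d) • A₀ := ⟨_, rfl⟩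
    have hsd : s / d * (s / d) * d = z := by
      have h3 : s / d * (s / d) * d = d * z / d := by
        rw [hs]
        field_simp
      rw [h3, mul_div_cancel_left₀ z hd0]
    have ha'a' : a' * a' = z • 1 := by
      rw [ha', Matrix.smul_mul, Matrix.mul_smul, hA, smul_smul, smul_smul, hsd]
    obtain ⟨g, hg⟩ : ∃ g : GL (Fin n) F, (g : Matrix (Fin n) (Fin n) F) = a' :=
      ⟨⟨a', z⁻¹ • a',
        by rw [Matrix.mul_smul, ha'a', smul_smul, inv_mul_cancel₀ hz0, one_smul],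
        by rw [Matrix.smul_mul, ha'a', smul_smul, inv_mul_cancel₀ hz0, one_smul]⟩, rfl⟩
    have hgN : g ∈ Cfsg.Geo.subalgebraNormalizer K := by
      refine normK_gen K A₀ hgen₀ g A₀ A₀ hA₀K hA₀K ?_ ?_
      · rw [hg, ha', Matrix.smul_mul, Matrix.mul_smul]
      · rw [hg, ha', Matrix.smul_mul, Matrix.mul_smul]
    obtain ⟨Q, hQ⟩ := S2577.conj_nonsq (x : Matrix (Fin n) (Fin n) F) a' z hzsq hz ha'a'
    exact sl_of_gl K hdetsurj x Q g hgN (by rw [hg]; exact hQ)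

end eig
section chartwo
open Matrix
variable {F : Type*} [Field F] {n : ℕ}

theorem char2_back [Fintype F] (hch : ringChar F = 2) (hn2 : n = 2)
    (K : Subalgebra F (Matrix (Fin n) (Fin n) F)) (hK : Cfsg.Geo.IsFieldSubalgebra 2 K)
    (x : Matrix.SpecialLinearGroup (Fin n) F) (z : F)
    (hz : (x : Matrix (Fin n) (Fin n) F) * (x : Matrix (Fin n) (Fin n) F) = z • 1)
    (hns : ∀ z : F, (x : Matrix (Fin n) (Fin n) F) ≠ z • 1) :
    ∃ P : Matrix.SpecialLinearGroup (Fin n) F, P⁻¹ * x * P ∈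
      ((Cfsg.Geo.subalgebraNormalizer K).comap
        (Matrix.SpecialLinearGroup.toGL : Matrix.SpecialLinearGroup (Fin n) F →* GL (Fin n) F)) := by
  classical
  haveI : CharP F 2 := ringChar.of_eq hch
  have h2 : (2 : F) = 0 := CharTwo.two_eq_zero
  have hnpos : 0 < n := by omega
  have hfin : Module.finrank F (Fin n → F) = n := Module.finrank_fin_fun F
  have h01 : ∀ a : Fin 2, a = 0 ∨ a = 1 := by decide
  obtain ⟨a, haK, hans⟩ := K_nonscalar K hK.finrank_eq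
  have hgen := K_gen hnpos K hK.finrank_eq a haK hans
  obtain ⟨β₀, α, haa⟩ := hgen (a * a) (K.mul_mem haK haK)
  have hdetsurj : ∀ δ : F, δ ≠ 0 → ∃ h ∈ Cfsg.Geo.subalgebraNormalizer K,
      (h : Matrix (Fin n) (Fin n) F).det = δ := by
    intro δ hδ
    obtain ⟨μ, hμ⟩ := FiniteField.isSquare_of_char_two hch δ
    have hμ0 : μ ≠ 0 := by
      rintro rfl
      exact hδ (by rw [hμ, mul_zero])
    obtain ⟨h, hh⟩ : ∃ h : GL (Fin n) F, (h : Matrix (Fin n) (Fin n) F) = μ • 1 :=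
      ⟨⟨μ • 1, μ⁻¹ • 1,
        by rw [Matrix.smul_mul, Matrix.one_mul, smul_smul, mul_inv_cancel₀ hμ0, one_smul],
        by rw [Matrix.smul_mul, Matrix.one_mul, smul_smul, inv_mul_cancel₀ hμ0, one_smul]⟩, rfl⟩
    refine ⟨h, ?_, ?_⟩
    · refine normK_gen K a hgen h a a haK haK ?_ ?_
      · rw [hh, Matrix.smul_mul, Matrix.mul_smul, Matrix.one_mul, Matrix.mul_one]
      · rw [hh, Matrix.smul_mul, Matrix.mul_smul, Matrix.one_mul, Matrix.mul_one]
    · rw [hh, Matrix.det_smul, Matrix.det_one, mul_one, Fintype.card_fin, hn2, hμ, pow_two]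
  obtain ⟨e, he⟩ : ∃ e : Fin n → F, e ≠ 0 := ⟨Pi.single ⟨0, hnpos⟩ 1, by
    intro h0
    have h := congrFun h0 ⟨0, hnpos⟩
    simp at h⟩
  have hα : α ≠ 0 := by
    rintro rfl
    rw [zero_smul, add_zero] at haa
    obtain ⟨r, hr⟩ := FiniteField.isSquare_of_char_two hch β₀
    have hae : a *ᵥ (a *ᵥ e) = β₀ • e := by
      rw [Matrix.mulVec_mulVec, haa, Matrix.smul_mulVec, Matrix.one_mulVec]
    have h1 : (a - r • 1) *ᵥ ((a - r • 1) *ᵥ e) = 0 := by
      have e1 : (a - r • 1) *ᵥ e = a *ᵥ e - r • e := by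
        rw [Matrix.sub_mulVec, Matrix.smul_mulVec, Matrix.one_mulVec]
      rw [e1, Matrix.sub_mulVec, Matrix.smul_mulVec, Matrix.one_mulVec, Matrix.mulVec_sub,
        Matrix.mulVec_smul, hae, hr]
      calc _ = (2 : F) • ((r * r) • e - r • a *ᵥ e) := by module
        _ = 0 := by rw [h2, zero_smul]
    have hne : a - r • 1 ≠ 0 := fun h0 => hans r (sub_eq_zero.1 h0)
    have h3 := K_inv_mulVec K hK _ (K.sub_mem haK (K.smul_mem K.one_mem r)) hne _ h1
    exact he (K_inv_mulVec K hK _ (K.sub_mem haK (K.smul_mem K.one_mem r)) hne _ h3)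
  have hz0 : z ≠ 0 := by
    rintro rfl
    have h1 := congrArg Matrix.det hz
    have hne : Nonempty (Fin n) := ⟨⟨0, hnpos⟩⟩
    rw [Matrix.det_mul, Matrix.SpecialLinearGroup.det_coe, zero_smul, Matrix.det_zero,
      one_mul] at h1
    exact one_ne_zero h1
  obtain ⟨c, hc⟩ := FiniteField.isSquare_of_char_two hch z
  rw [hc] at hz
  have hc0 : c ≠ 0 := by
    rintro rfl
    exact hz0 (by rw [hc, mul_zero])
  have hXX : ∀ v : Fin n → F, (x : Matrix (Fin n) (Fin n) F) *ᵥ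
      ((x : Matrix (Fin n) (Fin n) F) *ᵥ v) = (c * c) • v := by
    intro v
    rw [Matrix.mulVec_mulVec, hz, Matrix.smul_mulVec, Matrix.one_mulVec]
  obtain ⟨v₁, hv₁⟩ : ∃ v₁ : Fin n → F, (x : Matrix (Fin n) (Fin n) F) *ᵥ v₁ - c • v₁ ≠ 0 := by
    by_contra hall
    push Not at hall
    apply hns c
    apply mat_ext_basis (Pi.basisFun F (Fin n))
    intro j
    rw [Matrix.smul_mulVec, Matrix.one_mulVec]
    exact sub_eq_zero.1 (hall _)
  obtain ⟨v₀, hv₀⟩ : ∃ v₀ : Fin n → F, v₀ = (x : Matrix (Fin n) (Fin n) F) *ᵥ v₁ - c • v₁ :=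
    ⟨_, rfl⟩
  have hv₀0 : v₀ ≠ 0 := by rw [hv₀]; exact hv₁
  have hXv1 : (x : Matrix (Fin n) (Fin n) F) *ᵥ v₁ = c • v₁ + v₀ := by rw [hv₀]; abel
  have hXv0 : (x : Matrix (Fin n) (Fin n) F) *ᵥ v₀ = c • v₀ := by
    rw [hv₀, Matrix.mulVec_sub, Matrix.mulVec_smul, hXX]
    calc _ = c • ((x : Matrix (Fin n) (Fin n) F) *ᵥ v₁ - c • v₁)
          + (2 : F) • ((c * c) • v₁ - c • (x : Matrix (Fin n) (Fin n) F) *ᵥ v₁) := by module
      _ = c • ((x : Matrix (Fin n) (Fin n) F) *ᵥ v₁ - c • v₁) := by rw [h2, zero_smul, add_zero]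
  have hliγ : LinearIndependent F ![v₀, v₁] := by
    rw [LinearIndependent.pair_iff]
    intro s t hst
    have h3 := congrArg (fun u => (x : Matrix (Fin n) (Fin n) F) *ᵥ u - c • u) hst
    simp only [Matrix.mulVec_add, Matrix.mulVec_smul, hXv0, hXv1, Matrix.mulVec_zero, smul_zero,
      sub_zero] at h3
    have h4 : t • v₀ = 0 := by
      rw [← h3]; module
    have ht : t = 0 := by
      rcases smul_eq_zero.1 h4 with h5 | h5
      · exact h5
      · exact absurd h5 hv₀0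
    subst ht
    rw [zero_smul, add_zero] at hst
    rcases smul_eq_zero.1 hst with h5 | h5
    · exact ⟨h5, rfl⟩
    · exact absurd h5 hv₀0
  have hcard2 : Fintype.card (Fin 2) = Module.finrank F (Fin n → F) := by
    rw [hfin, hn2, Fintype.card_fin]
  obtain ⟨γ, hγ⟩ : ∃ γ : Module.Basis (Fin 2) F (Fin n → F), ⇑γ = ![v₀, v₁] :=
    ⟨basisOfLinearIndependentOfCardEqFinrank hliγ hcard2,
      coe_basisOfLinearIndependentOfCardEqFinrank hliγ hcard2⟩
  have hγ0 : γ 0 = v₀ := by rw [hγ]; rfl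
  have hγ1 : γ 1 = v₁ := by rw [hγ]; rfl
  have hliB : LinearIndependent F ![e, a *ᵥ e] := by
    rw [LinearIndependent.pair_iff]
    intro s t hst
    by_cases ht : t = 0
    · subst ht
      rw [zero_smul, add_zero] at hst
      rcases smul_eq_zero.1 hst with h5 | h5
      · exact ⟨h5, rfl⟩
      · exact absurd h5 he
    · exfalso
      have h3 : (a - (-(s / t)) • 1) *ᵥ e = 0 := by
        rw [Matrix.sub_mulVec, Matrix.smul_mulVec, Matrix.one_mulVec]
        have h4 : a *ᵥ e = t⁻¹ • (s • e + t • a *ᵥ e) - (s / t) • e := by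
          rw [smul_add, smul_smul, smul_smul, inv_mul_cancel₀ ht, one_smul, div_eq_inv_mul]
          abel
        rw [h4, hst, smul_zero]
        module
      have hne : a - (-(s / t)) • 1 ≠ 0 := fun h0 => hans _ (sub_eq_zero.1 h0)
      exact he (K_inv_mulVec K hK _ (K.sub_mem haK (K.smul_mem K.one_mem _)) hne e h3)
  obtain ⟨B, hB⟩ : ∃ B : Module.Basis (Fin 2) F (Fin n → F), ⇑B = ![e, a *ᵥ e] :=
    ⟨basisOfLinearIndependentOfCardEqFinrank hliB hcard2,
      coe_basisOfLinearIndependentOfCardEqFinrank hliB hcard2⟩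
  have hB0 : B 0 = e := by rw [hB]; rfl
  have hB1 : B 1 = a *ᵥ e := by rw [hB]; rfl
  have haB0 : a *ᵥ B 0 = B 1 := by rw [hB0, hB1]
  have haB1 : a *ᵥ B 1 = β₀ • B 0 + α • B 1 := by
    rw [hB1, Matrix.mulVec_mulVec, haa, Matrix.add_mulVec, Matrix.smul_mulVec, Matrix.one_mulVec,
      Matrix.smul_mulVec, hB0]
  obtain ⟨T, hT0, hT1⟩ : ∃ T : (Fin n → F) →ₗ[F] (Fin n → F),
      T (B 0) = c • B 0 ∧ T (B 1) = (c * α) • B 0 - c • B 1 :=
    ⟨B.constr F ![c • B 0, (c * α) • B 0 - c • B 1], B.constr_basis F _ 0, B.constr_basis F _ 1⟩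
  have hGv : ∀ w, LinearMap.toMatrix' T *ᵥ w = T w := fun w => LinearMap.toMatrix'_mulVec T w
  have hGG : LinearMap.toMatrix' T * LinearMap.toMatrix' T = (c * c) • 1 := by
    apply mat_ext_basis B
    intro j
    rw [← Matrix.mulVec_mulVec, hGv, hGv, Matrix.smul_mulVec, Matrix.one_mulVec]
    rcases h01 j with rfl | rfl
    · rw [hT0, map_smul, hT0, smul_smul]
    · rw [hT1, map_sub, map_smul, map_smul, hT0, hT1]
      module
  have hcc : c * c ≠ 0 := mul_ne_zero hc0 hc0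
  obtain ⟨g, hg⟩ : ∃ g : GL (Fin n) F,
      (g : Matrix (Fin n) (Fin n) F) = LinearMap.toMatrix' T :=
    ⟨⟨LinearMap.toMatrix' T, (c * c)⁻¹ • LinearMap.toMatrix' T,
      by rw [Matrix.mul_smul, hGG, smul_smul, inv_mul_cancel₀ hcc, one_smul],
      by rw [Matrix.smul_mul, hGG, smul_smul, inv_mul_cancel₀ hcc, one_smul]⟩, rfl⟩
  have hg1 : LinearMap.toMatrix' T * a = (α • 1 - a) * LinearMap.toMatrix' T := by
    apply mat_ext_basis B
    intro j
    rw [← Matrix.mulVec_mulVec, ← Matrix.mulVec_mulVec, hGv, hGv]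
    rcases h01 j with rfl | rfl
    · simp only [haB0, haB1, hT0, hT1, map_add, map_sub, map_smul, Matrix.sub_mulVec,
        Matrix.smul_mulVec, Matrix.one_mulVec, Matrix.mulVec_sub, Matrix.mulVec_add,
        Matrix.mulVec_smul]
      module
    · simp only [haB0, haB1, hT0, hT1, map_add, map_sub, map_smul, Matrix.sub_mulVec,
        Matrix.smul_mulVec, Matrix.one_mulVec, Matrix.mulVec_sub, Matrix.mulVec_add,
        Matrix.mulVec_smul]
      module
  have hg2 : a * LinearMap.toMatrix' T = LinearMap.toMatrix' T * (α • 1 - a) := by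
    apply mat_ext_basis B
    intro j
    rw [← Matrix.mulVec_mulVec, ← Matrix.mulVec_mulVec, hGv, hGv]
    rcases h01 j with rfl | rfl
    · simp only [haB0, haB1, hT0, hT1, map_add, map_sub, map_smul, Matrix.sub_mulVec,
        Matrix.smul_mulVec, Matrix.one_mulVec, Matrix.mulVec_sub, Matrix.mulVec_add,
        Matrix.mulVec_smul]
      module
    · simp only [haB0, haB1, hT0, hT1, map_add, map_sub, map_smul, Matrix.sub_mulVec,
        Matrix.smul_mulVec, Matrix.one_mulVec, Matrix.mulVec_sub, Matrix.mulVec_add,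
        Matrix.mulVec_smul]
      module
  have hgN : g ∈ Cfsg.Geo.subalgebraNormalizer K := by
    have hmem : α • 1 - a ∈ K := K.sub_mem (K.smul_mem K.one_mem α) haK
    refine normK_gen K a hgen g (α • 1 - a) (α • 1 - a) hmem hmem ?_ ?_
    · rw [hg]; exact hg1
    · rw [hg]; exact hg2
  obtain ⟨β'', hβ0, hβ1⟩ : ∃ β'' : Module.Basis (Fin 2) F (Fin n → F),
      β'' 0 = (c * α) • B 0 ∧ β'' 1 = B 1 := by
    refine ⟨B.unitsSMul ![Units.mk0 (c * α) (mul_ne_zero hc0 hα), 1], ?_, ?_⟩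
    · simp [Module.Basis.unitsSMul_apply, Units.smul_def]
    · simp [Module.Basis.unitsSMul_apply]
  obtain ⟨Q, hQ⟩ := jordan_conj (x : Matrix (Fin n) (Fin n) F) g c γ β''
    (by rw [hγ0]; exact hXv0) (by rw [hγ1, hγ0]; exact hXv1)
    (by rw [hg, hGv, hβ0, map_smul, hT0]; module)
    (by
      rw [hg, hGv, hβ1, hβ0, hT1]
      calc _ = c • B 1 + (c * α) • B 0 + (2 : F) • (-(c • B 1)) := by module
        _ = c • B 1 + (c * α) • B 0 := by rw [h2, zero_smul, add_zero])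
  exact sl_of_gl K hdetsurj x Q g hgN hQ

end chartwo


/-- Involutions of PSL_n(q) and extension-field subgroups of degree 2. Here `T = PSL_n(F)` for a field `F` with `q = p^f` elements (`n ≥ 2`, `(n, q) ≠ (2, 2), (2, 3)`), `k` is a prime dividing `n`, `K` is a subalgebra of the `n × n` matrices that is a field of degree `k` over `F` (an extension-field structure F_{q^k} on `F^n`), and `H` is the subgroup of matrices of determinant 1 normalizing `K` — a subgroup of type GL_{n/k}(q^k) (maximal except in some small cases; maximality is not assumed); Ω is the set of cosets of `H` in `T`, so an element of `T` of prime order `r` (a matrix `x` of determinant 1 with `x^r` scalar, `x` not scalar) fixes a point of Ω when some conjugate of `x` by a matrix of determinant 1 normalizes `K`. Take `k = 2` and suppose the index of `H` is even. Then every involution of `T` is conjugate in `T` into `H` if and only if `n = 2`, or `q`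 is odd and `(q − 1)_2 ≤ (n)_2`. -/
theorem result {F : Type*} [Field F] [Fintype F] {p : ℕ} [Fact p.Prime] [CharP F p] {q : ℕ} (hq : Fintype.card F = q)
    (n : ℕ) (hn : 2 ≤ n) (hT : (n, q) ≠ (2, 2) ∧ (n, q) ≠ (2, 3))
    (k : ℕ) (hk : k.Prime) (hkn : k ∣ n) (K : Subalgebra F (Matrix (Fin n) (Fin n) F)) (hK : Cfsg.Geo.IsFieldSubalgebra k K) (hk2 : k = 2) (hΩ : 2 ∣ ((Cfsg.Geo.subalgebraNormalizer K).comap (Matrix.SpecialLinearGroup.toGL : Matrix.SpecialLinearGroup (Fin n) F →* GL (Fin n) F)).index) :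
    (∀ x : Matrix.SpecialLinearGroup (Fin n) F,
      (∃ z : F, ((x ^ 2 : Matrix.SpecialLinearGroup (Fin n) F) : Matrix (Fin n) (Fin n) F) = z • (1 : Matrix (Fin n) (Fin n) F)) →
      (∀ z : F, (x : Matrix (Fin n) (Fin n) F) ≠ z • (1 : Matrix (Fin n) (Fin n) F)) →
      ∃ P : Matrix.SpecialLinearGroup (Fin n) F, P⁻¹ * x * P ∈ ((Cfsg.Geo.subalgebraNormalizer K).comap (Matrix.SpecialLinearGroup.toGL : Matrix.SpecialLinearGroup (Fin n) F →* GL (Fin n) F))) ↔
    (n = 2 ∨ (Odd q ∧ padicValNat 2 (q - 1) ≤ padicValNat 2 n)) := by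
  subst hq
  subst hk2
  classical
  have he : Even n := even_iff_two_dvd.2 hkn
  have hnpos : 0 < n := by omega
  constructor
  · intro hall
    by_contra hcon
    push Not at hcon
    obtain ⟨hn2, hcon2⟩ := hcon
    have hn3 : 3 ≤ n := by omega
    by_cases hch : ringChar F = 2
    · haveI : CharP F 2 := ringChar.of_eq hch
      obtain ⟨x, c, w, φ, v₀, hx2, hw, hD, hφ⟩ := bad_char2 (F := F) CharTwo.two_eq_zero hn3
      exact derange hn3 K hK x c w hw φ hD v₀ hφ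
        (hall x ⟨1, hx2⟩ (nonscalar_of hn3 _ c w hw φ hD v₀ hφ))
    · have hodd : Odd (Fintype.card F) :=
        Nat.odd_iff.2 (FiniteField.odd_card_of_char_ne_two hch)
      obtain ⟨c, hc⟩ := exists_neg_root (F := F) n (by omega) (hcon2 hodd)
      obtain ⟨x, w, φ, v₀, hx2, hw, hD, hφ⟩ := bad_odd (Ring.two_ne_zero hch) hn3 c hc
      exact derange hn3 K hK x c w hw φ hD v₀ hφ
        (hall x ⟨c * c, hx2⟩ (nonscalar_of hn3 _ c w hw φ hD v₀ hφ))
  · intro hcond x hx1 hx2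
    obtain ⟨z, hz⟩ := hx1
    rw [Matrix.SpecialLinearGroup.coe_pow, pow_two] at hz
    by_cases hch : ringChar F = 2
    · have hn2 : n = 2 := by
        rcases hcond with h | ⟨h, _⟩
        · exact h
        · exfalso
          have h1 := FiniteField.even_card_of_char_two hch
          rw [Nat.odd_iff] at h
          omega
      exact char2_back hch hn2 K hK x z hz hx2
    · refine odd_back hch hn he K hK ?_ x z hz hx2
      rcases hcond with h | ⟨_, h⟩
      · exact Or.inl h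
      · exact Or.inr h

end Cfsg.Agent.S5969
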