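import Mathlib
import Cfsg.Statements.S5971
import Cfsg.Agent.S5969
-- import your own Cfsg.Agent.* helpers here

set_option autoImplicit false
open scoped MatrixGroups
open Cfsg

namespace Cfsg.Agent.S5971

section Kbasic
open Matrix
variable {F : Type*} [Field F] {n : ℕ}

theorem mat_ext_vec (M₁ M₂ : Matrix (Fin n) (Fin n) F) (h : ∀ v, M₁ *ᵥ v = M₂ *ᵥ v) :
    M₁ = M₂ :=
  S5969.mat_ext_basis (Pi.basisFun F (Fin n)) M₁ M₂ (fun j => h _)

theorem Kinv (K : Subalgebra F (Matrix (Fin n) (Fin n) F)) {r : ℕ}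
    (hK : Cfsg.Geo.IsFieldSubalgebra r K) (y : Matrix (Fin n) (Fin n) F) (hy : y ∈ K)
    (hy0 : y ≠ 0) (w : Fin n → F) (hw : y *ᵥ w = 0) : w = 0 := by
  obtain ⟨y', hy', hyy'⟩ := hK.inv y hy hy0
  have h1 : y' * y = 1 := (hK.comm y' hy' y hy).trans hyy'
  have h2 : w = (y' * y) *ᵥ w := by rw [h1, Matrix.one_mulVec]
  rw [h2, ← Matrix.mulVec_mulVec, hw, Matrix.mulVec_zero]

theorem Ksurj (hn : 0 < n) (K : Subalgebra F (Matrix (Fin n) (Fin n) F))
    (hK : Cfsg.Geo.IsFieldSubalgebra n K) (w : Fin n → F) (hw : w ≠ 0) :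
    ∀ v : Fin n → F, ∃ a ∈ K, a *ᵥ w = v := by
  obtain ⟨ev, hev⟩ : ∃ ev : ↥K →ₗ[F] (Fin n → F),
      ∀ a : ↥K, ev a = (a : Matrix (Fin n) (Fin n) F) *ᵥ w :=
    ⟨{ toFun := fun a => (a : Matrix (Fin n) (Fin n) F) *ᵥ w
       map_add' := fun a b => by
         show ((a + b : ↥K) : Matrix (Fin n) (Fin n) F) *ᵥ w = _
         rw [Subalgebra.coe_add, Matrix.add_mulVec]
       map_smul' := fun c a => by
         show ((c • a : ↥K) : Matrix (Fin n) (Fin n) F) *ᵥ w = c • _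
         rw [Subalgebra.coe_smul, Matrix.smul_mulVec] }, fun a => rfl⟩
  have hinj : Function.Injective ev := by
    rw [← LinearMap.ker_eq_bot, LinearMap.ker_eq_bot']
    intro a ha
    rw [hev] at ha
    by_contra hne
    exact hw (Kinv K hK a.1 a.2 (fun h0 => hne (Subtype.ext h0)) w ha)
  haveI : FiniteDimensional F ↥K :=
    Module.finite_of_finrank_pos (by rw [hK.finrank_eq]; exact hn)
  have hsurj : Function.Surjective ev :=
    (LinearMap.injective_iff_surjective_of_finrank_eq_finrank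
      (by rw [hK.finrank_eq, Module.finrank_fin_fun])).1 hinj
  intro v
  obtain ⟨a, ha⟩ := hsurj v
  exact ⟨a.1, a.2, by rw [← hev, ha]⟩

theorem KisField (hn : 0 < n) (K : Subalgebra F (Matrix (Fin n) (Fin n) F)) {r : ℕ}
    (hK : Cfsg.Geo.IsFieldSubalgebra r K) : IsField ↥K := by
  haveI : Nonempty (Fin n) := ⟨⟨0, hn⟩⟩
  refine ⟨⟨0, 1, ?_⟩, fun a b => Subtype.ext (hK.comm a.1 a.2 b.1 b.2), ?_⟩
  · intro h
    have h1 : (0 : Matrix (Fin n) (Fin n) F) = 1 := congrArg Subtype.val h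
    exact zero_ne_one h1
  · intro a ha
    obtain ⟨y, hy, hay⟩ := hK.inv a.1 a.2 (fun h0 => ha (Subtype.ext h0))
    exact ⟨⟨y, hy⟩, Subtype.ext hay⟩

theorem pow_card_isField {R : Type*} [Ring R] [Finite R] (h : IsField R) (a : R) :
    a ^ Nat.card R = a := by
  letI := h.toField
  haveI := Fintype.ofFinite R
  rw [Nat.card_eq_fintype_card]
  exact FiniteField.pow_card a

theorem exists_pow_ne_isField {R : Type*} [Ring R] [Finite R] (h : IsField R) (q : ℕ)
    (hq2 : 2 ≤ q) (hq : q < Nat.card R) : ∃ a : R, a ^ q ≠ a := by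
  by_contra hall
  push Not at hall
  letI := h.toField
  obtain ⟨u, hu⟩ := IsCyclic.exists_generator (α := Rˣ)
  have hord : orderOf u = Nat.card Rˣ := orderOf_eq_card_of_forall_mem_zpowers hu
  have h2 : (u : R) ^ q = (u : R) := hall u
  have h1 : u ^ (q - 1) = 1 := by
    apply Units.ext
    rw [Units.val_pow_eq_pow_val, Units.val_one]
    have h3 : (u : R) ^ (q - 1) * (u : R) = 1 * (u : R) := by
      rw [← pow_succ, Nat.sub_add_cancel (by omega : 1 ≤ q), h2, one_mul]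
    exact mul_right_cancel₀ u.ne_zero h3
  have h4 : orderOf u ∣ q - 1 := orderOf_dvd_of_pow_eq_one h1
  rw [hord, Nat.card_units] at h4
  have h5 := Nat.le_of_dvd (by omega) h4
  omega

theorem Kcard [Fintype F] (K : Subalgebra F (Matrix (Fin n) (Fin n) F)) {r : ℕ} (hr : 0 < r)
    (hK : Cfsg.Geo.IsFieldSubalgebra r K) : Nat.card ↥K = Fintype.card F ^ r := by
  haveI : FiniteDimensional F ↥K :=
    Module.finite_of_finrank_pos (by rw [hK.finrank_eq]; exact hr)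
  rw [Module.natCard_eq_pow_finrank (K := F) (V := ↥K), hK.finrank_eq, Nat.card_eq_fintype_card]

theorem alg_key {R : Type*} [Ring R] [Algebra F R] (A B C : R) (hAB : B * A = A * B)
    (t α β : F) (ht2 : t * t = α * t + β)
    (h1 : (t * t) • C = (α * t) • B + β • A)
    (h2 : (t * t) • (C * C) = (α * t) • (B * B) + β • (A * A)) :
    (α * t * β) • ((B - A) * (B - A)) = 0 := by
  have e1 : ((t * t) • C) * ((t * t) • C) = (t * t) • ((t * t) • (C * C)) := by
    rw [smul_mul_assoc, mul_smul_comm]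
  rw [h1, h2] at e1
  have e2 : ((α * t) • B + β • A) * ((α * t) • B + β • A)
      = ((α * t) * (α * t)) • (B * B) + (2 * (α * t * β)) • (A * B) + (β * β) • (A * A) := by
    simp only [add_mul, mul_add, smul_mul_assoc, mul_smul_comm, hAB]
    module
  rw [e2] at e1
  have e3 : (B - A) * (B - A) = B * B - A * B - A * B + A * A := by
    simp only [sub_mul, mul_sub, hAB]
    abel
  have c1 : (α * t) * (α * t) - (t * t) * (α * t) = -(α * t * β) := by rw [ht2]; ring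
  have c2 : β * β - (t * t) * β = -(α * t * β) := by rw [ht2]; ring
  have e4 : ((α * t) * (α * t) - (t * t) * (α * t)) • (B * B) + (2 * (α * t * β)) • (A * B)
      + (β * β - (t * t) * β) • (A * A) = 0 := by
    rw [← sub_eq_zero] at e1
    rw [← e1]
    module
  rw [c1, c2] at e4
  rw [e3]
  calc (α * t * β) • (B * B - A * B - A * B + A * A)
      = -((-(α * t * β)) • (B * B) + (2 * (α * t * β)) • (A * B)
          + (-(α * t * β)) • (A * A)) := by module
    _ = 0 := by rw [e4, neg_zero]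

theorem quadK (K : Subalgebra F (Matrix (Fin n) (Fin n) F))
    (hcomm : ∀ x ∈ K, ∀ y ∈ K, x * y = y * x)
    (hinv : ∀ y ∈ K, y ≠ 0 → ∀ w : Fin n → F, y *ᵥ w = 0 → w = 0)
    (G G' : Matrix (Fin n) (Fin n) F) (hGG' : G * G' = 1) (hG'G : G' * G = 1)
    (hnorm : ∀ k ∈ K, G * k * G' ∈ K)
    (w : Fin n → F) (hw : w ≠ 0) (hsurj : ∀ v : Fin n → F, ∃ a ∈ K, a *ᵥ w = v)
    (t α β : F) (hGw : G *ᵥ w = t • w) (hquad : G * G = α • G + β • 1) (hα : α ≠ 0)
    (hβ : β ≠ 0) : G = t • 1 := by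
  have ht : t ≠ 0 := by
    intro ht0
    rw [ht0, zero_smul] at hGw
    apply hw
    have h1 : w = (G' * G) *ᵥ w := by rw [hG'G, Matrix.one_mulVec]
    rw [h1, ← Matrix.mulVec_mulVec, hGw, Matrix.mulVec_zero]
  have hkey : ∀ a : Matrix (Fin n) (Fin n) F, G *ᵥ (a *ᵥ w) = t • ((G * a * G') *ᵥ w) := by
    intro a
    calc G *ᵥ (a *ᵥ w) = (G * a) *ᵥ w := by rw [Matrix.mulVec_mulVec]
      _ = ((G * a * G') * G) *ᵥ w := by rw [mul_assoc (G * a), hG'G, mul_one]
      _ = t • ((G * a * G') *ᵥ w) := by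
        rw [← Matrix.mulVec_mulVec, hGw, Matrix.mulVec_smul]
  have hGGv : ∀ v : Fin n → F, G *ᵥ (G *ᵥ v) = α • (G *ᵥ v) + β • v := by
    intro v
    rw [Matrix.mulVec_mulVec, hquad, Matrix.add_mulVec, Matrix.smul_mulVec, Matrix.smul_mulVec,
      Matrix.one_mulVec]
  have ht2 : t * t = α * t + β := by
    have h1 := hGGv w
    rw [hGw, Matrix.mulVec_smul, hGw] at h1
    have h2 : (t * t - (α * t + β)) • w = 0 := by
      rw [sub_smul, add_smul, mul_smul, mul_smul, h1]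
      abel
    rcases smul_eq_zero.1 h2 with h3 | h3
    · exact sub_eq_zero.1 h3
    · exact absurd h3 hw
  have hR : ∀ a ∈ K, (t * t) • (G * (G * a * G') * G') = (α * t) • (G * a * G') + β • a := by
    intro a ha
    have hB : G * a * G' ∈ K := hnorm a ha
    have hC : G * (G * a * G') * G' ∈ K := hnorm _ hB
    have h1 := hGGv (a *ᵥ w)
    rw [hkey a, Matrix.mulVec_smul, hkey (G * a * G')] at h1
    by_contra hne
    apply hw
    refine hinv ((t * t) • (G * (G * a * G') * G') - ((α * t) • (G * a * G') + β • a))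
      (K.sub_mem (K.smul_mem hC _) (K.add_mem (K.smul_mem hB _) (K.smul_mem ha _)))
      (sub_ne_zero.2 hne) w ?_
    rw [Matrix.sub_mulVec, Matrix.add_mulVec, Matrix.smul_mulVec, Matrix.smul_mulVec,
      Matrix.smul_mulVec, mul_smul, h1, mul_smul]
    abel
  have hfix : ∀ a ∈ K, G * a * G' = a := by
    intro a ha
    have hB : G * a * G' ∈ K := hnorm a ha
    have hBB : G * (a * a) * G' = (G * a * G') * (G * a * G') := by
      have e : (G * a * G') * (G * a * G') = G * a * (G' * G) * a * G' := by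
        simp only [mul_assoc]
      rw [e, hG'G, mul_one, mul_assoc G a a]
    have hCC : G * ((G * a * G') * (G * a * G')) * G'
        = (G * (G * a * G') * G') * (G * (G * a * G') * G') := by
      have e : (G * (G * a * G') * G') * (G * (G * a * G') * G')
          = G * (G * a * G') * (G' * G) * (G * a * G') * G' := by
        simp only [mul_assoc]
      rw [e, hG'G, mul_one, mul_assoc G (G * a * G') (G * a * G')]
    have h1 := hR a ha
    have h2 := hR (a * a) (K.mul_mem ha ha)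
    rw [hBB, hCC] at h2
    have h3 := alg_key a (G * a * G') (G * (G * a * G') * G') (hcomm _ hB a ha) t α β ht2 h1 h2
    have h4 : (G * a * G' - a) * (G * a * G' - a) = 0 := by
      rcases smul_eq_zero.1 h3 with h5 | h5
      · exact absurd h5 (mul_ne_zero (mul_ne_zero hα ht) hβ)
      · exact h5
    by_contra hne
    apply hw
    have hD : G * a * G' - a ∈ K := K.sub_mem hB ha
    have hD0 : G * a * G' - a ≠ 0 := sub_ne_zero.2 hne
    refine hinv _ hD hD0 w (hinv _ hD hD0 _ ?_)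
    rw [Matrix.mulVec_mulVec, h4, Matrix.zero_mulVec]
  apply mat_ext_vec
  intro v
  obtain ⟨a, ha, rfl⟩ := hsurj v
  rw [hkey a, hfix a ha, Matrix.smul_mulVec, Matrix.one_mulVec]

end Kbasic

section Sigma
open Matrix
variable {F : Type*} [Field F]

theorem sigma_exists [Fintype F] {p : ℕ} [Fact p.Prime] [CharP F p]
    (K : Subalgebra F (Matrix (Fin 3) (Fin 3) F)) (hK : Cfsg.Geo.IsFieldSubalgebra 3 K) :
    ∃ g : GL (Fin 3) F, g ∈ Cfsg.Geo.subalgebraNormalizer K ∧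
      (g : Matrix (Fin 3) (Fin 3) F) * (g : Matrix (Fin 3) (Fin 3) F)
        * (g : Matrix (Fin 3) (Fin 3) F) = 1 ∧
      (∀ z : F, (g : Matrix (Fin 3) (Fin 3) F) ≠ z • 1) ∧
      (∀ α β : F, (g : Matrix (Fin 3) (Fin 3) F) * (g : Matrix (Fin 3) (Fin 3) F)
        ≠ α • (g : Matrix (Fin 3) (Fin 3) F) + β • 1) := by
  classical
  obtain ⟨e, he⟩ : ∃ e : Fin 3 → F, e ≠ 0 := ⟨Pi.single 0 1, by
    intro h0
    have h := congrFun h0 0
    simp at h⟩
  have hsurj := Ksurj (by norm_num) K hK e he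
  have hinjK : ∀ a ∈ K, ∀ b ∈ K, a *ᵥ e = b *ᵥ e → a = b := by
    intro a ha b hb hab
    by_contra hne
    exact he (Kinv K hK (a - b) (K.sub_mem ha hb) (sub_ne_zero.2 hne) e
      (by rw [Matrix.sub_mulVec, hab, sub_self]))
  obtain ⟨q, hq⟩ : ∃ q : ℕ, q = Fintype.card F := ⟨_, rfl⟩
  obtain ⟨m, hm⟩ := FiniteField.card F p
  have hm' : q = p ^ (m : ℕ) := hq.trans hm.2
  have hq2 : 2 ≤ q := by rw [hq]; exact Fintype.one_lt_card
  have hfadd : ∀ a ∈ K, ∀ b ∈ K, (a + b) ^ q = a ^ q + b ^ q := by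
    intro a ha b hb
    rw [hm']
    exact add_pow_char_pow_of_commute p (m : ℕ) (show Commute a b from hK.comm a ha b hb)
  have hfsmul : ∀ (c : F) (a : Matrix (Fin 3) (Fin 3) F), (c • a) ^ q = c • a ^ q := by
    intro c a
    rw [smul_pow, hq, FiniteField.pow_card]
  have hfmul : ∀ a ∈ K, ∀ b ∈ K, (a * b) ^ q = a ^ q * b ^ q := by
    intro a ha b hb
    exact (show Commute a b from hK.comm a ha b hb).mul_pow q
  have hfK : ∀ a ∈ K, a ^ q ∈ K := fun a ha => K.pow_mem ha q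
  choose A hAK hAe using hsurj
  have hA_of : ∀ a ∈ K, A (a *ᵥ e) = a := fun a ha => hinjK _ (hAK _) a ha (hAe _)
  have hAadd : ∀ v w, A (v + w) = A v + A w := by
    intro v w
    apply hinjK _ (hAK _) _ (K.add_mem (hAK v) (hAK w))
    rw [hAe, Matrix.add_mulVec, hAe, hAe]
  have hAsmul : ∀ (c : F) v, A (c • v) = c • A v := by
    intro c v
    apply hinjK _ (hAK _) _ (K.smul_mem (hAK v) c)
    rw [hAe, Matrix.smul_mulVec, hAe]
  obtain ⟨S, hS⟩ : ∃ S : (Fin 3 → F) →ₗ[F] (Fin 3 → F), ∀ v, S v = (A v) ^ q *ᵥ e :=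
    ⟨{ toFun := fun v => (A v) ^ q *ᵥ e
       map_add' := fun v w => by
         show (A (v + w)) ^ q *ᵥ e = (A v) ^ q *ᵥ e + (A w) ^ q *ᵥ e
         rw [hAadd, hfadd _ (hAK v) _ (hAK w), Matrix.add_mulVec]
       map_smul' := fun c v => by
         show (A (c • v)) ^ q *ᵥ e = c • ((A v) ^ q *ᵥ e)
         rw [hAsmul, hfsmul, Matrix.smul_mulVec] }, fun v => rfl⟩
  have hSK : ∀ a ∈ K, S (a *ᵥ e) = a ^ q *ᵥ e := fun a ha => by rw [hS, hA_of a ha]
  have hcardK : Nat.card ↥K = q ^ 3 := by rw [hq]; exact Kcard K (by norm_num) hK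
  have hKF : IsField ↥K := KisField (by norm_num) K hK
  have hpc : ∀ a ∈ K, a ^ (q ^ 3) = a := by
    intro a ha
    have h1 := pow_card_isField hKF (⟨a, ha⟩ : ↥K)
    rw [hcardK] at h1
    have h2 := congrArg Subtype.val h1
    rw [SubmonoidClass.coe_pow] at h2
    exact h2
  have hS3 : ∀ v, S (S (S v)) = v := by
    intro v
    have h1 : S v = (A v) ^ q *ᵥ e := hS v
    rw [h1, hSK _ (hfK _ (hAK v)), hSK _ (hfK _ (hfK _ (hAK v))), ← pow_mul, ← pow_mul,
      (by ring : q * (q * q) = q ^ 3), hpc _ (hAK v), hAe]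
  obtain ⟨G, hG⟩ : ∃ G : Matrix (Fin 3) (Fin 3) F, G = LinearMap.toMatrix' S := ⟨_, rfl⟩
  have hGv : ∀ v, G *ᵥ v = S v := fun v => by rw [hG]; exact LinearMap.toMatrix'_mulVec S v
  have hG3 : G * G * G = 1 := by
    apply mat_ext_vec
    intro v
    rw [← Matrix.mulVec_mulVec, ← Matrix.mulVec_mulVec, hGv, hGv, hGv, hS3, Matrix.one_mulVec]
  have hG3' : G * (G * G) = 1 := by rw [← mul_assoc]; exact hG3
  have hGe : G *ᵥ e = e := by
    have h1 := hSK 1 K.one_mem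
    rw [Matrix.one_mulVec, one_pow, Matrix.one_mulVec] at h1
    rw [hGv, h1]
  have hconj : ∀ k ∈ K, G * k = k ^ q * G := by
    intro k hk
    apply mat_ext_vec
    intro v
    rw [← Matrix.mulVec_mulVec, ← Matrix.mulVec_mulVec, hGv, hGv]
    conv_lhs => rw [← hAe v, Matrix.mulVec_mulVec]
    rw [hSK _ (K.mul_mem hk (hAK v)), hfmul k hk _ (hAK v), ← Matrix.mulVec_mulVec, ← hS v]
  have e1 : ∀ k ∈ K, G * k * (G * G) = k ^ q := by
    intro k hk
    rw [hconj k hk]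
    simp only [mul_assoc]
    rw [hG3', mul_one]
  have e2 : ∀ k ∈ K, G * G * k * G = (k ^ q) ^ q := by
    intro k hk
    rw [mul_assoc G G k, hconj k hk, ← mul_assoc G (k ^ q) G, hconj _ (hfK k hk)]
    simp only [mul_assoc]
    rw [hG3', mul_one]
  obtain ⟨g, hgv, hgi⟩ : ∃ g : GL (Fin 3) F, (g : Matrix (Fin 3) (Fin 3) F) = G ∧
      ((g⁻¹ : GL (Fin 3) F) : Matrix (Fin 3) (Fin 3) F) = G * G :=
    ⟨⟨G, G * G, hG3', hG3⟩, rfl, rfl⟩
  have hgN : g ∈ Cfsg.Geo.subalgebraNormalizer K := by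
    refine S5969.normK K g (fun k hk => ?_) (fun k hk => ?_)
    · rw [hgv, hgi, e1 k hk]
      exact hfK k hk
    · rw [hgv, hgi, e2 k hk]
      exact hfK _ (hfK k hk)
  have hns : ∀ z : F, G ≠ z • 1 := by
    intro z hz
    have h1 : z • e = e := by
      have h := hGe
      rw [hz, Matrix.smul_mulVec, Matrix.one_mulVec] at h
      exact h
    have hz1 : z = 1 := by
      have h2 : (z - 1) • e = 0 := by rw [sub_smul, h1, one_smul, sub_self]
      rcases smul_eq_zero.1 h2 with h3 | h3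
      · exact sub_eq_zero.1 h3
      · exact absurd h3 he
    have hlt : q < Nat.card ↥K := by
      rw [hcardK]
      have : q ^ 1 < q ^ 3 := Nat.pow_lt_pow_right (by omega) (by norm_num)
      simpa using this
    obtain ⟨a', ha'⟩ := exists_pow_ne_isField hKF q hq2 hlt
    apply ha'
    apply Subtype.ext
    rw [SubmonoidClass.coe_pow]
    apply hinjK _ (hfK _ a'.2) _ a'.2
    rw [← hSK _ a'.2, ← hGv, hz, hz1, one_smul, Matrix.one_mulVec]
  refine ⟨g, hgN, by rw [hgv]; exact hG3, by rw [hgv]; exact hns, ?_⟩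
  rw [hgv]
  intro α β hq'
  by_cases hα0 : α = 0
  · have h1 : G * G * G = β • G := by
      rw [hq', hα0, zero_smul, zero_add, smul_mul_assoc, one_mul]
    rw [hG3] at h1
    have hβ0 : β ≠ 0 := by
      rintro rfl
      rw [zero_smul] at h1
      exact one_ne_zero h1
    apply hns β⁻¹
    calc G = β⁻¹ • (β • G) := by rw [smul_smul, inv_mul_cancel₀ hβ0, one_smul]
      _ = β⁻¹ • 1 := by rw [← h1]
  · by_cases hβ0 : β = 0
    · have hq'' : G * G = α • G := by rw [hq', hβ0, zero_smul, add_zero]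
      have h1 : G * G * (G * G) = G := by rw [← mul_assoc, hG3, one_mul]
      apply hns α
      calc G = G * G * (G * G) := h1.symm
        _ = (α • G) * (G * G) := by rw [← hq'']
        _ = α • 1 := by rw [smul_mul_assoc, hG3']
    · apply hns 1
      exact quadK K hK.comm (Kinv K hK) G (G * G) hG3' hG3
        (fun k hk => by rw [e1 k hk]; exact hfK k hk) e he (Ksurj (by norm_num) K hK e he)
        1 α β (by rw [hGe, one_smul]) hq' hα0 hβ0

end Sigma

section NF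
open Matrix
variable {F : Type*} [Field F]

theorem CH3 (X : Matrix (Fin 3) (Fin 3) F) :
    ∃ τ ε : F, X * X * X = τ • (X * X) - ε • X + X.det • 1 ∧
      ∀ u : F, (X - u • (1 : Matrix (Fin 3) (Fin 3) F)).det
        = -(u * u * u - τ * (u * u) + ε * u - X.det) := by
  refine ⟨X 0 0 + X 1 1 + X 2 2, X 0 0 * X 1 1 - X 0 1 * X 1 0 + X 0 0 * X 2 2 - X 0 2 * X 2 0
    + X 1 1 * X 2 2 - X 1 2 * X 2 1, ?_, ?_⟩
  · ext i j
    fin_cases i <;> fin_cases j <;>
      simp [Matrix.mul_apply, Fin.sum_univ_three, Matrix.det_fin_three] <;> ring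
  · intro u
    rw [Matrix.det_fin_three, Matrix.det_fin_three]
    simp [Matrix.one_apply]
    ring

theorem smul_one_zero (b : F) (h : b • (1 : Matrix (Fin 3) (Fin 3) F) = 0) : b = 0 := by
  have h1 := congrFun (congrFun h 0) 0
  simpa using h1

theorem scal_zero (X : Matrix (Fin 3) (Fin 3) F) (hns : ∀ z : F, X ≠ z • 1) (a b : F)
    (h : a • X = b • 1) : a = 0 := by
  by_contra ha
  apply hns (a⁻¹ * b)
  calc X = a⁻¹ • (a • X) := by rw [smul_smul, inv_mul_cancel₀ ha, one_smul]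
    _ = (a⁻¹ * b) • 1 := by rw [h, smul_smul]

theorem lemmaA (X : Matrix (Fin 3) (Fin 3) F) (hdet : X.det = 1) (α β : F)
    (hq : X * X = α • X + β • 1) (hns : ∀ z : F, X ≠ z • 1) (z : F) (h3 : X * X * X = z • 1)
    (H9 : ∀ c : F, c ^ 9 = 1 → c ^ 3 = 1) (h30 : (3 : F) ≠ 0) : False := by
  obtain ⟨τ, ε, hCH, hdetu⟩ := CH3 X
  rw [hdet] at hCH hdetu
  have e3 : X * X * X = (α * α + β) • X + (α * β) • 1 := by
    rw [hq, add_mul, smul_mul_assoc, hq, smul_mul_assoc, one_mul]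
    module
  have h5 : (α * α + β) • X = (z - α * β) • (1 : Matrix (Fin 3) (Fin 3) F) := by
    have h := e3.symm.trans h3
    rw [sub_smul, ← h]
    abel
  have hA : α * α + β = 0 := scal_zero X hns _ _ h5
  have hz : z = α * β := by
    rw [hA, zero_smul] at h5
    have h6 := smul_one_zero _ h5.symm
    exact sub_eq_zero.1 h6
  have h8 : (τ * α - ε) • X = (z - τ * β - 1) • (1 : Matrix (Fin 3) (Fin 3) F) := by
    rw [h3, hq] at hCH
    rw [← sub_eq_zero]
    calc (τ * α - ε) • X - (z - τ * β - 1) • (1 : Matrix (Fin 3) (Fin 3) F)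
        = τ • (α • X + β • 1) - ε • X + (1 : F) • (1 : Matrix (Fin 3) (Fin 3) F) - z • 1 := by
          module
      _ = 0 := by rw [← hCH, sub_self]
  have hε : τ * α - ε = 0 := scal_zero X hns _ _ h8
  have h9 : z - τ * β - 1 = 0 := by
    rw [hε, zero_smul] at h8
    exact smul_one_zero _ h8.symm
  have hu : α * α * (τ - α) = 1 := by linear_combination h9 - hz - (α - τ) * hA
  have hdu : (X - (τ - α) • (1 : Matrix (Fin 3) (Fin 3) F)).det = 0 := by
    rw [hdetu]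
    linear_combination (-1 : F) * hu + (τ - α) * hε
  obtain ⟨v, hv0, hv⟩ := Matrix.exists_mulVec_eq_zero_iff.2 hdu
  have hXv : X *ᵥ v = (τ - α) • v := by
    rw [Matrix.sub_mulVec, Matrix.smul_mulVec, Matrix.one_mulVec] at hv
    exact sub_eq_zero.1 hv
  have E1 : (τ - α) * (τ - α) - α * (τ - α) - β = 0 := by
    have h : (X * X) *ᵥ v = (α • X + β • 1) *ᵥ v := by rw [hq]
    rw [← Matrix.mulVec_mulVec, hXv, Matrix.mulVec_smul, hXv, Matrix.add_mulVec,
      Matrix.smul_mulVec, hXv, Matrix.smul_mulVec, Matrix.one_mulVec] at h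
    have h2 : ((τ - α) * (τ - α) - α * (τ - α) - β) • v = 0 := by
      rw [sub_smul, sub_smul, mul_smul, mul_smul, h]
      abel
    rcases smul_eq_zero.1 h2 with h3 | h3
    · exact h3
    · exact absurd h3 hv0
  have E1' : (τ - α) * (τ - α) - α * (τ - α) + α * α = 0 := by linear_combination E1 + hA
  have E2 : α ^ 6 - α ^ 3 + 1 = 0 := by
    linear_combination (α ^ 4) * E1' - (α * α * (τ - α) + 1 - α ^ 3) * hu
  have h9' : (-α) ^ 9 = 1 := by linear_combination (-(α ^ 3 + 1)) * E2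
  have h3' := H9 (-α) h9'
  apply h30
  linear_combination E2 + (α ^ 3 - 2) * h3'

theorem lemmaB (X : Matrix (Fin 3) (Fin 3) F) (hdet : X.det = 1) (hns : ∀ z : F, X ≠ z • 1)
    (z : F) (h3 : X * X * X = z • 1) (H9 : ∀ c : F, c ^ 9 = 1 → c ^ 3 = 1)
    (h30 : (3 : F) ≠ 0) :
    X * X * X = 1 ∧ ∀ α β : F, X * X ≠ α • X + β • 1 := by
  have hnq : ∀ α β : F, X * X ≠ α • X + β • 1 :=
    fun α β hq => lemmaA X hdet α β hq hns z h3 H9 h30
  refine ⟨?_, hnq⟩
  obtain ⟨τ, ε, hCH, -⟩ := CH3 X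
  rw [hdet, h3] at hCH
  have h1 : τ • (X * X) = ε • X + (z - 1) • (1 : Matrix (Fin 3) (Fin 3) F) := by
    rw [← sub_eq_zero]
    calc τ • (X * X) - (ε • X + (z - 1) • (1 : Matrix (Fin 3) (Fin 3) F))
        = τ • (X * X) - ε • X + (1 : F) • (1 : Matrix (Fin 3) (Fin 3) F) - z • 1 := by module
      _ = 0 := by rw [← hCH, sub_self]
  have hτ : τ = 0 := by
    by_contra hτ
    apply hnq (τ⁻¹ * ε) (τ⁻¹ * (z - 1))
    calc X * X = τ⁻¹ • (τ • (X * X)) := by rw [smul_smul, inv_mul_cancel₀ hτ, one_smul]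
      _ = (τ⁻¹ * ε) • X + (τ⁻¹ * (z - 1)) • 1 := by rw [h1, smul_add, smul_smul, smul_smul]
  rw [hτ, zero_smul] at h1
  have h2 : ε • X = (1 - z) • (1 : Matrix (Fin 3) (Fin 3) F) := by
    rw [← sub_eq_zero]
    calc ε • X - (1 - z) • (1 : Matrix (Fin 3) (Fin 3) F)
        = ε • X + (z - 1) • (1 : Matrix (Fin 3) (Fin 3) F) := by module
      _ = 0 := h1.symm
  have hε : ε = 0 := scal_zero X hns _ _ h2
  rw [hε, zero_smul] at h2
  have hz : 1 - z = 0 := smul_one_zero _ h2.symm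
  have hz1 : z = 1 := (sub_eq_zero.1 hz).symm
  rw [h3, hz1, one_smul]

theorem eigv (a b c : F) (h1 : a + b + c = 0) (h2 : a * b + b * c + c * a = 0)
    (h3 : a * b * c = 1) (G : Matrix (Fin 3) (Fin 3) F) (hG3 : G * G * G = 1)
    (hnq : ∀ α β : F, G * G ≠ α • G + β • 1) :
    ∃ f : Fin 3 → F, f ≠ 0 ∧ G *ᵥ f = a • f := by
  obtain ⟨N, hN⟩ : ∃ N : Matrix (Fin 3) (Fin 3) F, N = G * G - (b + c) • G + (b * c) • 1 :=
    ⟨_, rfl⟩
  have hN0 : N ≠ 0 := by
    intro h0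
    apply hnq (b + c) (-(b * c))
    rw [hN] at h0
    calc G * G = (G * G - (b + c) • G + (b * c) • 1) + ((b + c) • G + (-(b * c)) • 1) := by
          module
      _ = (b + c) • G + (-(b * c)) • 1 := by rw [h0, zero_add]
  have hGN : G * N = a • N := by
    rw [← sub_eq_zero]
    calc G * N - a • N = G * G * G - (a + b + c) • (G * G) + (a * b + b * c + c * a) • G
          - (a * b * c) • 1 := by
          rw [hN]
          simp only [mul_sub, mul_add, mul_smul_comm, mul_one, ← mul_assoc]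
          module
      _ = 0 := by
          rw [h1, h2, h3, hG3, zero_smul, zero_smul, one_smul]
          abel
  obtain ⟨v, hv⟩ : ∃ v : Fin 3 → F, N *ᵥ v ≠ 0 := by
    by_contra hall
    push Not at hall
    apply hN0
    apply mat_ext_vec
    intro v
    rw [hall v, Matrix.zero_mulVec]
  refine ⟨N *ᵥ v, hv, ?_⟩
  rw [Matrix.mulVec_mulVec, hGN, Matrix.smul_mulVec]

theorem nfA (ω : F) (hω3 : ω * ω * ω = 1) (hω1 : ω ≠ 1) (G : Matrix (Fin 3) (Fin 3) F)
    (hG3 : G * G * G = 1) (hnq : ∀ α β : F, G * G ≠ α • G + β • 1) :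
    ∃ γ : Module.Basis (Fin 3) F (Fin 3 → F),
      ∀ j, G *ᵥ γ j = (![1, ω, ω * ω] : Fin 3 → F) j • γ j := by
  classical
  have h012 : ∀ a : Fin 3, a = 0 ∨ a = 1 ∨ a = 2 := by decide
  have hω : ω * ω + ω + 1 = 0 := by
    have h : (ω - 1) * (ω * ω + ω + 1) = 0 := by linear_combination hω3
    rcases mul_eq_zero.1 h with h' | h'
    · exact absurd (sub_eq_zero.1 h') hω1
    · exact h'
  have hω2 : ω * ω ≠ 1 := by
    intro h
    apply hω1
    linear_combination hω3 - ω * h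
  have hω3' : ω * ω ≠ ω := by
    intro h
    apply hω1
    linear_combination hω3 - (ω + 1) * h
  obtain ⟨f₀, hf₀0, hf₀⟩ := eigv 1 ω (ω * ω) (by linear_combination hω)
    (by linear_combination hω3 + hω) (by linear_combination hω3) G hG3 hnq
  obtain ⟨f₁, hf₁0, hf₁⟩ := eigv ω (ω * ω) 1 (by linear_combination hω)
    (by linear_combination hω3 + hω) (by linear_combination hω3) G hG3 hnq
  obtain ⟨f₂, hf₂0, hf₂⟩ := eigv (ω * ω) 1 ω (by linear_combination hω)
    (by linear_combination hω3 + hω) (by linear_combination hω3) G hG3 hnq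
  have hinj : Function.Injective (![1, ω, ω * ω] : Fin 3 → F) := by
    intro i j h
    rcases h012 i with rfl | rfl | rfl <;> rcases h012 j with rfl | rfl | rfl
    · rfl
    · exact absurd h.symm hω1
    · exact absurd h.symm hω2
    · exact absurd h hω1
    · rfl
    · exact absurd h.symm hω3'
    · exact absurd h hω2
    · exact absurd h hω3'
    · rfl
  have hev : ∀ i : Fin 3, Matrix.toLin' G ((![f₀, f₁, f₂] : Fin 3 → (Fin 3 → F)) i)
      = (![1, ω, ω * ω] : Fin 3 → F) i • (![f₀, f₁, f₂] : Fin 3 → (Fin 3 → F)) i := by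
    intro i
    rw [Matrix.toLin'_apply]
    rcases h012 i with rfl | rfl | rfl
    · exact hf₀
    · exact hf₁
    · exact hf₂
  have hne : ∀ i : Fin 3, (![f₀, f₁, f₂] : Fin 3 → (Fin 3 → F)) i ≠ 0 := by
    intro i
    rcases h012 i with rfl | rfl | rfl
    · exact hf₀0
    · exact hf₁0
    · exact hf₂0
  have hli : LinearIndependent F (![f₀, f₁, f₂] : Fin 3 → (Fin 3 → F)) :=
    Module.End.eigenvectors_linearIndependent' (Matrix.toLin' G) (![1, ω, ω * ω] : Fin 3 → F)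
      hinj _ (fun i => ⟨Module.End.mem_eigenspace_iff.2 (hev i), hne i⟩)
  have hcard : Fintype.card (Fin 3) = Module.finrank F (Fin 3 → F) := by
    rw [Module.finrank_fin_fun, Fintype.card_fin]
  obtain ⟨γ, hγ⟩ : ∃ γ : Module.Basis (Fin 3) F (Fin 3 → F), ⇑γ = ![f₀, f₁, f₂] :=
    ⟨basisOfLinearIndependentOfCardEqFinrank hli hcard,
      coe_basisOfLinearIndependentOfCardEqFinrank hli hcard⟩
  refine ⟨γ, fun j => ?_⟩
  rw [hγ]
  have h := hev j
  rw [Matrix.toLin'_apply] at h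
  exact h

theorem nfB (h30 : (3 : F) ≠ 0) (hno : ∀ ω : F, ω * ω * ω = 1 → ω = 1)
    (G : Matrix (Fin 3) (Fin 3) F) (hG3 : G * G * G = 1)
    (hnq : ∀ α β : F, G * G ≠ α • G + β • 1) (hG1 : G ≠ 1) :
    ∃ γ : Module.Basis (Fin 3) F (Fin 3 → F),
      G *ᵥ γ 0 = γ 0 ∧ G *ᵥ γ 1 = γ 2 ∧ G *ᵥ γ 2 = -γ 1 - γ 2 := by
  classical
  have hG3' : G * (G * G) = 1 := by rw [← mul_assoc]; exact hG3
  have hGv3 : ∀ v : Fin 3 → F, G *ᵥ (G *ᵥ (G *ᵥ v)) = v := by
    intro v
    simp only [Matrix.mulVec_mulVec, mul_assoc]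
    rw [hG3', Matrix.one_mulVec]
  obtain ⟨v₁, hv₁⟩ : ∃ v₁ : Fin 3 → F, G *ᵥ v₁ - v₁ ≠ 0 := by
    by_contra hall
    push Not at hall
    apply hG1
    apply mat_ext_vec
    intro v
    rw [Matrix.one_mulVec]
    exact sub_eq_zero.1 (hall v)
  obtain ⟨w, hw⟩ : ∃ w : Fin 3 → F, w = G *ᵥ v₁ - v₁ := ⟨_, rfl⟩
  have hw0 : w ≠ 0 := by rw [hw]; exact hv₁
  have hNw : G *ᵥ (G *ᵥ w) + G *ᵥ w + w = 0 := by
    rw [hw]
    simp only [Matrix.mulVec_sub]
    rw [hGv3]
    abel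
  have hGGw : G *ᵥ (G *ᵥ w) = -w - G *ᵥ w := by
    calc G *ᵥ (G *ᵥ w) = (G *ᵥ (G *ᵥ w) + G *ᵥ w + w) - w - G *ᵥ w := by abel
      _ = -w - G *ᵥ w := by rw [hNw]; abel
  obtain ⟨N, hN⟩ : ∃ N : Matrix (Fin 3) (Fin 3) F, N = G * G + G + 1 := ⟨_, rfl⟩
  have hNv : ∀ y : Fin 3 → F, N *ᵥ y = G *ᵥ (G *ᵥ y) + G *ᵥ y + y := by
    intro y
    rw [hN, Matrix.add_mulVec, Matrix.add_mulVec, Matrix.one_mulVec, Matrix.mulVec_mulVec]
  have hN0 : N ≠ 0 := by
    intro h0
    apply hnq (-1) (-1)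
    rw [hN] at h0
    calc G * G = (G * G + G + 1) + ((-1 : F) • G + (-1 : F) • 1) := by module
      _ = (-1 : F) • G + (-1 : F) • 1 := by rw [h0, zero_add]
  obtain ⟨u, hu⟩ : ∃ u : Fin 3 → F, N *ᵥ u ≠ 0 := by
    by_contra hall
    push Not at hall
    apply hN0
    apply mat_ext_vec
    intro v
    rw [hall v, Matrix.zero_mulVec]
  obtain ⟨f, hf⟩ : ∃ f : Fin 3 → F, f = N *ᵥ u := ⟨_, rfl⟩
  have hf0 : f ≠ 0 := by rw [hf]; exact hu
  have hGf : G *ᵥ f = f := by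
    rw [hf, hNv, Matrix.mulVec_add, Matrix.mulVec_add, hGv3]
    abel
  have hNf : N *ᵥ f = (3 : F) • f := by
    rw [hNv, hGf, hGf]
    module
  have hNw' : N *ᵥ w = 0 := by rw [hNv]; exact hNw
  have hNGw : N *ᵥ (G *ᵥ w) = 0 := by
    rw [hNv, hGv3, hGGw]
    abel
  have hli : LinearIndependent F (![f, w, G *ᵥ w] : Fin 3 → (Fin 3 → F)) := by
    rw [Fintype.linearIndependent_iff]
    intro c hc
    rw [Fin.sum_univ_three] at hc
    have hc' : c 0 • f + c 1 • w + c 2 • (G *ᵥ w) = 0 := hc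
    have hc0 : c 0 = 0 := by
      have h1 : N *ᵥ (c 0 • f + c 1 • w + c 2 • (G *ᵥ w)) = 0 := by
        rw [hc', Matrix.mulVec_zero]
      rw [Matrix.mulVec_add, Matrix.mulVec_add, Matrix.mulVec_smul, Matrix.mulVec_smul,
        Matrix.mulVec_smul, hNf, hNw', hNGw, smul_zero, smul_zero, add_zero, add_zero,
        smul_smul] at h1
      rcases smul_eq_zero.1 h1 with h2 | h2
      · rcases mul_eq_zero.1 h2 with h3 | h3
        · exact h3
        · exact absurd h3 h30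
      · exact absurd h2 hf0
    rw [hc0, zero_smul, zero_add] at hc'
    have hc2 : c 2 = 0 := by
      by_contra hne
      obtain ⟨l, hl⟩ : ∃ l : F, l = -((c 2)⁻¹ * c 1) := ⟨_, rfl⟩
      have hGw : G *ᵥ w = l • w := by
        have h4 : c 2 • (G *ᵥ w) = -(c 1 • w) := eq_neg_of_add_eq_zero_right hc'
        calc G *ᵥ w = (c 2)⁻¹ • (c 2 • (G *ᵥ w)) := by
              rw [smul_smul, inv_mul_cancel₀ hne, one_smul]
          _ = l • w := by rw [h4, hl, smul_neg, smul_smul, neg_smul]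
      have h5 := hNw
      rw [hGw, Matrix.mulVec_smul, hGw] at h5
      have h6 : (l * l + l + 1) • w = 0 := by
        rw [← h5]
        module
      rcases smul_eq_zero.1 h6 with h7 | h7
      · have h8 : l * l * l = 1 := by linear_combination (l - 1) * h7
        have h9 := hno l h8
        rw [h9] at h7
        apply h30
        linear_combination h7
      · exact hw0 h7
    rw [hc2, zero_smul, add_zero] at hc'
    have hc1 : c 1 = 0 := by
      rcases smul_eq_zero.1 hc' with h2 | h2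
      · exact h2
      · exact absurd h2 hw0
    intro i
    rcases (by decide : ∀ a : Fin 3, a = 0 ∨ a = 1 ∨ a = 2) i with rfl | rfl | rfl
    · exact hc0
    · exact hc1
    · exact hc2
  have hcard : Fintype.card (Fin 3) = Module.finrank F (Fin 3 → F) := by
    rw [Module.finrank_fin_fun, Fintype.card_fin]
  obtain ⟨γ, hγ⟩ : ∃ γ : Module.Basis (Fin 3) F (Fin 3 → F), ⇑γ = ![f, w, G *ᵥ w] :=
    ⟨basisOfLinearIndependentOfCardEqFinrank hli hcard,
      coe_basisOfLinearIndependentOfCardEqFinrank hli hcard⟩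
  have hγ0 : γ 0 = f := by rw [hγ]; rfl
  have hγ1 : γ 1 = w := by rw [hγ]; rfl
  have hγ2 : γ 2 = G *ᵥ w := by rw [hγ]; rfl
  refine ⟨γ, ?_, ?_, ?_⟩
  · rw [hγ0]; exact hGf
  · rw [hγ1, hγ2]
  · rw [hγ2, hγ1, hGGw]

theorem conjB (X G : Matrix (Fin 3) (Fin 3) F) (γ β : Module.Basis (Fin 3) F (Fin 3 → F))
    (hγ0 : X *ᵥ γ 0 = γ 0) (hγ1 : X *ᵥ γ 1 = γ 2) (hγ2 : X *ᵥ γ 2 = -γ 1 - γ 2)
    (hβ0 : G *ᵥ β 0 = β 0) (hβ1 : G *ᵥ β 1 = β 2) (hβ2 : G *ᵥ β 2 = -β 1 - β 2) :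
    ∃ Q : GL (Fin 3) F, (Q : Matrix (Fin 3) (Fin 3) F) * X
      = G * (Q : Matrix (Fin 3) (Fin 3) F) := by
  have h012 : ∀ a : Fin 3, a = 0 ∨ a = 1 ∨ a = 2 := by decide
  apply S2577.conj_of_equiv X G (γ.equiv β (Equiv.refl (Fin 3)))
  have key : ((γ.equiv β (Equiv.refl (Fin 3)) : (Fin 3 → F) ≃ₗ[F] (Fin 3 → F)) :
        (Fin 3 → F) →ₗ[F] (Fin 3 → F)) ∘ₗ Matrix.toLin' X
      = Matrix.toLin' G ∘ₗ
        ((γ.equiv β (Equiv.refl (Fin 3)) : (Fin 3 → F) ≃ₗ[F] (Fin 3 → F)) :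
          (Fin 3 → F) →ₗ[F] (Fin 3 → F)) := by
    apply γ.ext
    intro j
    rw [LinearMap.comp_apply, LinearMap.comp_apply, LinearEquiv.coe_coe, Matrix.toLin'_apply,
      Matrix.toLin'_apply]
    rcases h012 j with rfl | rfl | rfl
    · rw [hγ0, Module.Basis.equiv_apply, Equiv.refl_apply, hβ0]
    · rw [hγ1, Module.Basis.equiv_apply, Module.Basis.equiv_apply, Equiv.refl_apply,
        Equiv.refl_apply, hβ1]
    · rw [hγ2, map_sub, map_neg, Module.Basis.equiv_apply, Module.Basis.equiv_apply,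
        Equiv.refl_apply, Equiv.refl_apply, hβ2]
  exact fun v => LinearMap.congr_fun key v

theorem diag3 (β : Module.Basis (Fin 3) F (Fin 3 → F)) (δ : F) (hδ : δ ≠ 0) :
    ∃ h : GL (Fin 3) F, (∀ j, (h : Matrix (Fin 3) (Fin 3) F) *ᵥ β j
        = (![δ, 1, 1] : Fin 3 → F) j • β j) ∧ (h : Matrix (Fin 3) (Fin 3) F).det = δ := by
  classical
  obtain ⟨T, hT⟩ : ∃ T : (Fin 3 → F) →ₗ[F] (Fin 3 → F),
      ∀ j, T (β j) = (![δ, 1, 1] : Fin 3 → F) j • β j :=
    ⟨β.constr F (fun j => (![δ, 1, 1] : Fin 3 → F) j • β j), fun j => β.constr_basis F _ j⟩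
  have hM : LinearMap.toMatrix β β T = Matrix.diagonal (![δ, 1, 1] : Fin 3 → F) := by
    ext i j
    rw [LinearMap.toMatrix_apply, hT, map_smul, Module.Basis.repr_self, Finsupp.smul_apply,
      Finsupp.single_apply, Matrix.diagonal_apply]
    by_cases hij : i = j
    · subst hij
      simp
    · rw [if_neg hij, if_neg (Ne.symm hij), smul_zero]
  have hdet : (LinearMap.toMatrix' T).det = δ := by
    rw [LinearMap.det_toMatrix', ← LinearMap.det_toMatrix β, hM, Matrix.det_diagonal,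
      Fin.prod_univ_three]
    simp
  refine ⟨Matrix.GeneralLinearGroup.mkOfDetNeZero (LinearMap.toMatrix' T)
    (by rw [hdet]; exact hδ), fun j => ?_, hdet⟩
  show LinearMap.toMatrix' T *ᵥ β j = _
  rw [LinearMap.toMatrix'_mulVec, hT]

theorem sl_of_gl1 {n : ℕ} (K : Subalgebra F (Matrix (Fin n) (Fin n) F))
    (x : Matrix.SpecialLinearGroup (Fin n) F) (Q g : GL (Fin n) F)
    (hQdet : (Q : Matrix (Fin n) (Fin n) F).det = 1)
    (hg : g ∈ Cfsg.Geo.subalgebraNormalizer K)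
    (hQ : (Q : Matrix (Fin n) (Fin n) F) * (x : Matrix (Fin n) (Fin n) F)
      = (g : Matrix (Fin n) (Fin n) F) * (Q : Matrix (Fin n) (Fin n) F)) :
    ∃ P : Matrix.SpecialLinearGroup (Fin n) F, P⁻¹ * x * P ∈
      ((Cfsg.Geo.subalgebraNormalizer K).comap
        (Matrix.SpecialLinearGroup.toGL : Matrix.SpecialLinearGroup (Fin n) F →* GL (Fin n) F)) := by
  have hPdet : ((Q⁻¹ : GL (Fin n) F) : Matrix (Fin n) (Fin n) F).det = 1 := by
    have h1 : ((Q⁻¹ : GL (Fin n) F) : Matrix (Fin n) (Fin n) F).det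
        * (Q : Matrix (Fin n) (Fin n) F).det = 1 := by
      rw [← Matrix.det_mul, Units.inv_mul, Matrix.det_one]
    rw [hQdet, mul_one] at h1
    exact h1
  obtain ⟨P, hP⟩ : ∃ P : Matrix.SpecialLinearGroup (Fin n) F,
      (P : Matrix (Fin n) (Fin n) F) = ((Q⁻¹ : GL (Fin n) F) : Matrix (Fin n) (Fin n) F) :=
    ⟨⟨_, hPdet⟩, rfl⟩
  refine ⟨P, ?_⟩
  rw [Subgroup.mem_comap]
  have hPgl : Matrix.SpecialLinearGroup.toGL P = Q⁻¹ := Units.ext hP
  have h1 : ((Q⁻¹ * g * Q : GL (Fin n) F) : Matrix (Fin n) (Fin n) F)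
      = (x : Matrix (Fin n) (Fin n) F) := by
    rw [Units.val_mul, Units.val_mul, mul_assoc, ← hQ, ← mul_assoc, Units.inv_mul, one_mul]
  have hxg : Matrix.SpecialLinearGroup.toGL x = Q⁻¹ * g * Q := Units.ext h1.symm
  rw [map_mul, map_mul, map_inv, hPgl, hxg]
  have e : (Q⁻¹)⁻¹ * (Q⁻¹ * g * Q) * Q⁻¹ = g := by group
  rw [e]
  exact hg

end NF

section Final
open Matrix
variable {F : Type*} [Field F]

theorem noquadN (K : Subalgebra F (Matrix (Fin 3) (Fin 3) F))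
    (hK : Cfsg.Geo.IsFieldSubalgebra 3 K) (g : GL (Fin 3) F)
    (hg : g ∈ Cfsg.Geo.subalgebraNormalizer K) (s t : F)
    (hfac : ((g : Matrix (Fin 3) (Fin 3) F) - s • 1)
      * ((g : Matrix (Fin 3) (Fin 3) F) - t • 1) = 0)
    (hst : s + t ≠ 0) (hst' : s * t ≠ 0)
    (hns : ∀ z : F, (g : Matrix (Fin 3) (Fin 3) F) ≠ z • 1) : False := by
  have hg' : ∀ k : Matrix (Fin 3) (Fin 3) F, k ∈ K ↔ (g : Matrix (Fin 3) (Fin 3) F) * k *
      ((g⁻¹ : GL (Fin 3) F) : Matrix (Fin 3) (Fin 3) F) ∈ K := hg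
  have hgg1 : (g : Matrix (Fin 3) (Fin 3) F)
      * ((g⁻¹ : GL (Fin 3) F) : Matrix (Fin 3) (Fin 3) F) = 1 := Units.mul_inv g
  have hgg2 : ((g⁻¹ : GL (Fin 3) F) : Matrix (Fin 3) (Fin 3) F)
      * (g : Matrix (Fin 3) (Fin 3) F) = 1 := Units.inv_mul g
  obtain ⟨G, hG⟩ : ∃ G : Matrix (Fin 3) (Fin 3) F, G = (g : Matrix (Fin 3) (Fin 3) F) :=
    ⟨_, rfl⟩
  rw [← hG] at hfac hns hg' hgg1 hgg2
  have hquad : G * G = (s + t) • G + (-(s * t)) • 1 := by
    have e : (G - s • 1) * (G - t • 1) = G * G - ((s + t) • G + (-(s * t)) • 1) := by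
      simp only [sub_mul, mul_sub, smul_mul_assoc, mul_smul_comm, one_mul, mul_one]
      module
    rw [e] at hfac
    exact sub_eq_zero.1 hfac
  obtain ⟨v, hv⟩ : ∃ v : Fin 3 → F, (G - t • 1) *ᵥ v ≠ 0 := by
    by_contra hall
    push Not at hall
    apply hns t
    apply mat_ext_vec
    intro v
    have h := hall v
    rw [Matrix.sub_mulVec] at h
    exact sub_eq_zero.1 h
  have h : (G - s • 1) *ᵥ ((G - t • 1) *ᵥ v) = 0 := by
    rw [Matrix.mulVec_mulVec, hfac, Matrix.zero_mulVec]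
  obtain ⟨w, hw⟩ : ∃ w : Fin 3 → F, w = (G - t • 1) *ᵥ v := ⟨_, rfl⟩
  rw [← hw] at h hv
  have hGw : G *ᵥ w = s • w := by
    rw [Matrix.sub_mulVec, Matrix.smul_mulVec, Matrix.one_mulVec] at h
    exact sub_eq_zero.1 h
  apply hns s
  exact quadK K hK.comm (Kinv K hK) G ((g⁻¹ : GL (Fin 3) F) : Matrix (Fin 3) (Fin 3) F)
    hgg1 hgg2 (fun k hk => (hg' k).1 hk) w hv (Ksurj (by norm_num) K hK w hv)
    s (s + t) (-(s * t)) hGw hquad hst (neg_ne_zero.2 hst')

theorem derange3 (K : Subalgebra F (Matrix (Fin 3) (Fin 3) F))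
    (hK : Cfsg.Geo.IsFieldSubalgebra 3 K) (x : Matrix.SpecialLinearGroup (Fin 3) F) (s t : F)
    (hfac : ((x : Matrix (Fin 3) (Fin 3) F) - s • 1)
      * ((x : Matrix (Fin 3) (Fin 3) F) - t • 1) = 0)
    (hst : s + t ≠ 0) (hst' : s * t ≠ 0)
    (hns : ∀ z : F, (x : Matrix (Fin 3) (Fin 3) F) ≠ z • 1) :
    ¬ ∃ P : Matrix.SpecialLinearGroup (Fin 3) F, P⁻¹ * x * P ∈
      ((Cfsg.Geo.subalgebraNormalizer K).comap
        (Matrix.SpecialLinearGroup.toGL :
          Matrix.SpecialLinearGroup (Fin 3) F →* GL (Fin 3) F)) := by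
  rintro ⟨P, hP⟩
  rw [Subgroup.mem_comap] at hP
  have hcoe : ((Matrix.SpecialLinearGroup.toGL (P⁻¹ * x * P) : GL (Fin 3) F) :
      Matrix (Fin 3) (Fin 3) F) = ((P⁻¹ : Matrix.SpecialLinearGroup (Fin 3) F) :
        Matrix (Fin 3) (Fin 3) F) * (x : Matrix (Fin 3) (Fin 3) F) *
          (P : Matrix (Fin 3) (Fin 3) F) := rfl
  have hPP1 : (P : Matrix (Fin 3) (Fin 3) F) * ((P⁻¹ : Matrix.SpecialLinearGroup (Fin 3) F) :
      Matrix (Fin 3) (Fin 3) F) = 1 := by
    rw [← Matrix.SpecialLinearGroup.coe_mul, mul_inv_cancel, Matrix.SpecialLinearGroup.coe_one]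
  have hPP2 : ((P⁻¹ : Matrix.SpecialLinearGroup (Fin 3) F) : Matrix (Fin 3) (Fin 3) F) *
      (P : Matrix (Fin 3) (Fin 3) F) = 1 := by
    rw [← Matrix.SpecialLinearGroup.coe_mul, inv_mul_cancel, Matrix.SpecialLinearGroup.coe_one]
  obtain ⟨P', hP'⟩ : ∃ P' : Matrix (Fin 3) (Fin 3) F,
      P' = ((P⁻¹ : Matrix.SpecialLinearGroup (Fin 3) F) : Matrix (Fin 3) (Fin 3) F) := ⟨_, rfl⟩
  obtain ⟨Pm, hPm⟩ : ∃ Pm : Matrix (Fin 3) (Fin 3) F,
      Pm = (P : Matrix (Fin 3) (Fin 3) F) := ⟨_, rfl⟩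
  obtain ⟨X, hX⟩ : ∃ X : Matrix (Fin 3) (Fin 3) F,
      X = (x : Matrix (Fin 3) (Fin 3) F) := ⟨_, rfl⟩
  rw [← hP', ← hPm] at hPP1 hPP2
  rw [← hP', ← hPm, ← hX] at hcoe
  rw [← hX] at hfac hns
  refine noquadN K hK _ hP s t ?_ hst hst' ?_
  · rw [hcoe]
    have e1 : P' * X * Pm - s • 1 = P' * (X - s • 1) * Pm := by
      rw [mul_sub, sub_mul, mul_smul_comm, mul_one, smul_mul_assoc, hPP2]
    have e2 : P' * X * Pm - t • 1 = P' * (X - t • 1) * Pm := by
      rw [mul_sub, sub_mul, mul_smul_comm, mul_one, smul_mul_assoc, hPP2]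
    rw [e1, e2]
    calc P' * (X - s • 1) * Pm * (P' * (X - t • 1) * Pm)
        = P' * (X - s • 1) * (Pm * P') * (X - t • 1) * Pm := by simp only [mul_assoc]
      _ = P' * ((X - s • 1) * (X - t • 1)) * Pm := by
          rw [hPP1, mul_one]
          simp only [mul_assoc]
      _ = 0 := by rw [hfac, mul_zero, zero_mul]
  · intro z hz
    rw [hcoe] at hz
    apply hns z
    calc X = (Pm * P') * X * (Pm * P') := by rw [hPP1, one_mul, mul_one]
      _ = Pm * (P' * X * Pm) * P' := by simp only [mul_assoc]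
      _ = z • 1 := by rw [hz, mul_smul_comm, mul_one, smul_mul_assoc, hPP1]

theorem bad3 (h3 : (3 : F) = 0) : ∃ x : Matrix.SpecialLinearGroup (Fin 3) F,
    ((x : Matrix (Fin 3) (Fin 3) F) * (x : Matrix (Fin 3) (Fin 3) F)
      * (x : Matrix (Fin 3) (Fin 3) F) = (1 : F) • 1) ∧
    ((x : Matrix (Fin 3) (Fin 3) F) - (1 : F) • 1)
      * ((x : Matrix (Fin 3) (Fin 3) F) - (1 : F) • 1) = 0 ∧
    ∀ z : F, (x : Matrix (Fin 3) (Fin 3) F) ≠ z • 1 := by
  obtain ⟨X, hX⟩ : ∃ X : Matrix (Fin 3) (Fin 3) F, X = !![1, 1, 0; 0, 1, 0; 0, 0, 1] :=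
    ⟨_, rfl⟩
  have hdet : X.det = 1 := by rw [hX, Matrix.det_fin_three]; simp
  refine ⟨⟨X, hdet⟩, ?_, ?_, ?_⟩
  · show X * X * X = (1 : F) • 1
    rw [hX]
    ext i j
    fin_cases i <;> fin_cases j <;> simp [Matrix.mul_apply, Fin.sum_univ_three] <;>
      linear_combination h3
  · show (X - (1 : F) • 1) * (X - (1 : F) • 1) = 0
    rw [hX]
    ext i j
    fin_cases i <;> fin_cases j <;> simp [Matrix.mul_apply, Fin.sum_univ_three]
  · intro z hz
    have hz' : X = z • 1 := hz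
    rw [hX] at hz'
    have h1 := congrFun (congrFun hz' 0) 1
    simp at h1

theorem bad9 (ζ : F) (h9 : ζ ^ 9 = 1) (h3 : ζ ^ 3 ≠ 1) :
    ∃ x : Matrix.SpecialLinearGroup (Fin 3) F,
    ((x : Matrix (Fin 3) (Fin 3) F) * (x : Matrix (Fin 3) (Fin 3) F)
      * (x : Matrix (Fin 3) (Fin 3) F) = (ζ ^ 3) • 1) ∧
    ((x : Matrix (Fin 3) (Fin 3) F) - ζ • 1)
      * ((x : Matrix (Fin 3) (Fin 3) F) - (ζ ^ 7) • 1) = 0 ∧
    ∀ z : F, (x : Matrix (Fin 3) (Fin 3) F) ≠ z • 1 := by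
  have h012 : ∀ a : Fin 3, a = 0 ∨ a = 1 ∨ a = 2 := by decide
  obtain ⟨d, hd⟩ : ∃ d : Fin 3 → F, d = ![ζ, ζ, ζ ^ 7] := ⟨_, rfl⟩
  have hd0 : d 0 = ζ := by rw [hd]; rfl
  have hd1 : d 1 = ζ := by rw [hd]; rfl
  have hd2 : d 2 = ζ ^ 7 := by rw [hd]; rfl
  have hdet : (Matrix.diagonal d).det = 1 := by
    rw [Matrix.det_diagonal, Fin.prod_univ_three, hd0, hd1, hd2]
    linear_combination h9
  refine ⟨⟨Matrix.diagonal d, hdet⟩, ?_, ?_, ?_⟩
  · show Matrix.diagonal d * Matrix.diagonal d * Matrix.diagonal d = (ζ ^ 3) • 1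
    rw [Matrix.diagonal_mul_diagonal, Matrix.diagonal_mul_diagonal, Matrix.smul_one_eq_diagonal]
    congr 1
    funext i
    rcases h012 i with rfl | rfl | rfl
    · show d 0 * d 0 * d 0 = ζ ^ 3
      rw [hd0]; ring
    · show d 1 * d 1 * d 1 = ζ ^ 3
      rw [hd1]; ring
    · show d 2 * d 2 * d 2 = ζ ^ 3
      rw [hd2]; linear_combination (ζ ^ 12 + ζ ^ 3) * h9
  · show (Matrix.diagonal d - ζ • 1) * (Matrix.diagonal d - (ζ ^ 7) • 1) = 0
    rw [Matrix.smul_one_eq_diagonal, Matrix.smul_one_eq_diagonal, Matrix.diagonal_sub,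
      Matrix.diagonal_sub, Matrix.diagonal_mul_diagonal, ← Matrix.diagonal_zero]
    congr 1
    funext i
    rcases h012 i with rfl | rfl | rfl
    · show (d 0 - ζ) * (d 0 - ζ ^ 7) = 0
      rw [hd0]; ring
    · show (d 1 - ζ) * (d 1 - ζ ^ 7) = 0
      rw [hd1]; ring
    · show (d 2 - ζ) * (d 2 - ζ ^ 7) = 0
      rw [hd2]; ring
  · intro z hz
    have hz' : Matrix.diagonal d = z • 1 := hz
    have h00 := congrFun (congrFun hz' 0) 0
    have h22 := congrFun (congrFun hz' 2) 2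
    rw [Matrix.diagonal_apply_eq, Matrix.smul_apply, Matrix.one_apply_eq, smul_eq_mul, mul_one,
      hd0] at h00
    rw [Matrix.diagonal_apply_eq, Matrix.smul_apply, Matrix.one_apply_eq, smul_eq_mul, mul_one,
      hd2] at h22
    have h7 : ζ ^ 7 = ζ := h22.trans h00.symm
    apply h3
    linear_combination h9 - ζ ^ 2 * h7

theorem no_cube_root [Fintype F] (hq : Fintype.card F % 3 = 2) (l : F) (hl : l * l * l = 1) :
    l = 1 := by
  have hl0 : l ≠ 0 := by
    rintro rfl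
    simp at hl
  have h1 := FiniteField.pow_card_sub_one_eq_one l hl0
  obtain ⟨j, hj⟩ : ∃ j, Fintype.card F - 1 = 3 * j + 1 := ⟨Fintype.card F / 3, by omega⟩
  rw [hj, pow_succ, pow_mul] at h1
  have h2 : l ^ 3 = 1 := by rw [← hl]; ring
  rw [h2, one_pow, one_mul] at h1
  exact h1

theorem mod9 (Q : ℕ) (h : Q % 9 = 2 ∨ Q % 9 = 5) :
    ¬ 9 ∣ (Q ^ 3 - 1) * (Q ^ 3 - Q) * (Q ^ 3 - Q ^ 2) := by
  intro hd
  have hQ1 : 1 ≤ Q := by omega
  have hl1 : 1 ≤ Q ^ 3 := Nat.one_le_pow _ _ hQ1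
  have hl2 : Q ≤ Q ^ 3 := Nat.le_self_pow (by norm_num) Q
  have hl3 : Q ^ 2 ≤ Q ^ 3 := Nat.pow_le_pow_right hQ1 (by norm_num)
  have h1 : (((Q ^ 3 - 1) * (Q ^ 3 - Q) * (Q ^ 3 - Q ^ 2) : ℕ) : ZMod 9) = 0 :=
    (ZMod.natCast_eq_zero_iff _ 9).2 hd
  rw [Nat.cast_mul, Nat.cast_mul, Nat.cast_sub hl1, Nat.cast_sub hl2, Nat.cast_sub hl3] at h1
  push_cast at h1
  have hQ : (Q : ZMod 9) = 2 ∨ (Q : ZMod 9) = 5 := by
    rcases h with h | h
    · left
      rw [← ZMod.natCast_mod, h]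
      rfl
    · right
      rw [← ZMod.natCast_mod, h]
      rfl
  rcases hQ with hQ | hQ
  · rw [hQ] at h1
    revert h1
    decide
  · rw [hQ] at h1
    revert h1
    decide

theorem partIII [Fintype F] {p : ℕ} [Fact p.Prime] [CharP F p]
    (K : Subalgebra F (Matrix (Fin 3) (Fin 3) F)) (hK : Cfsg.Geo.IsFieldSubalgebra 3 K)
    (hq : Fintype.card F % 9 = 2 ∨ Fintype.card F % 9 = 5)
    (hΩ : 3 ∣ ((Cfsg.Geo.subalgebraNormalizer K).comap
      (Matrix.SpecialLinearGroup.toGL :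
        Matrix.SpecialLinearGroup (Fin 3) F →* GL (Fin 3) F)).index) : False := by
  classical
  obtain ⟨g, hgN, hG3, hGns, -⟩ := sigma_exists K hK
  have hq3 : Fintype.card F % 3 = 2 := by omega
  have hdet3 : (g : Matrix (Fin 3) (Fin 3) F).det * (g : Matrix (Fin 3) (Fin 3) F).det
      * (g : Matrix (Fin 3) (Fin 3) F).det = 1 := by
    rw [← Matrix.det_mul, ← Matrix.det_mul, hG3, Matrix.det_one]
  have hdet : (g : Matrix (Fin 3) (Fin 3) F).det = 1 := no_cube_root hq3 _ hdet3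
  obtain ⟨s, hs⟩ : ∃ s : Matrix.SpecialLinearGroup (Fin 3) F,
      (s : Matrix (Fin 3) (Fin 3) F) = (g : Matrix (Fin 3) (Fin 3) F) := ⟨⟨_, hdet⟩, rfl⟩
  have hsgl : Matrix.SpecialLinearGroup.toGL s = g := Units.ext hs
  obtain ⟨H, hH⟩ : ∃ H : Subgroup (Matrix.SpecialLinearGroup (Fin 3) F),
      H = ((Cfsg.Geo.subalgebraNormalizer K).comap
        (Matrix.SpecialLinearGroup.toGL :
          Matrix.SpecialLinearGroup (Fin 3) F →* GL (Fin 3) F)) := ⟨_, rfl⟩
  rw [← hH] at hΩ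
  have hsH : s ∈ H := by
    rw [hH, Subgroup.mem_comap, hsgl]
    exact hgN
  have hs3 : s ^ 3 = 1 := by
    apply Subtype.ext
    rw [Matrix.SpecialLinearGroup.coe_pow, Matrix.SpecialLinearGroup.coe_one, hs, pow_succ,
      pow_two]
    exact hG3
  have hs1 : s ≠ 1 := by
    intro h1
    apply hGns 1
    rw [← hs, h1, Matrix.SpecialLinearGroup.coe_one, one_smul]
  have hord : orderOf s = 3 := orderOf_eq_prime hs3 hs1
  have h3H : 3 ∣ Nat.card H := by
    have h1 : orderOf (⟨s, hsH⟩ : H) = 3 := (Subgroup.orderOf_mk s hsH).trans hord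
    have h2 := orderOf_dvd_natCard (⟨s, hsH⟩ : H)
    rw [h1] at h2
    exact h2
  have h9 : 9 ∣ Nat.card (Matrix.SpecialLinearGroup (Fin 3) F) := by
    rw [← Subgroup.card_mul_index H]
    have e : (9 : ℕ) = 3 * 3 := by norm_num
    rw [e]
    exact Nat.mul_dvd_mul h3H hΩ
  have h9' : 9 ∣ Nat.card (GL (Fin 3) F) :=
    h9.trans (Subgroup.card_dvd_of_injective _ Matrix.SpecialLinearGroup.toGL_injective)
  rw [Matrix.card_GL_field, Fin.prod_univ_three] at h9'
  exact mod9 (Fintype.card F) hq (by simpa using h9')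

theorem back3 [Fintype F] {p : ℕ} [Fact p.Prime] [CharP F p]
    (K : Subalgebra F (Matrix (Fin 3) (Fin 3) F)) (hK : Cfsg.Geo.IsFieldSubalgebra 3 K)
    (H9 : ∀ c : F, c ^ 9 = 1 → c ^ 3 = 1) (h30 : (3 : F) ≠ 0)
    (x : Matrix.SpecialLinearGroup (Fin 3) F) (z : F)
    (hz : (x : Matrix (Fin 3) (Fin 3) F) * (x : Matrix (Fin 3) (Fin 3) F)
      * (x : Matrix (Fin 3) (Fin 3) F) = z • 1)
    (hns : ∀ z : F, (x : Matrix (Fin 3) (Fin 3) F) ≠ z • 1) :
    ∃ P : Matrix.SpecialLinearGroup (Fin 3) F, P⁻¹ * x * P ∈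
      ((Cfsg.Geo.subalgebraNormalizer K).comap
        (Matrix.SpecialLinearGroup.toGL :
          Matrix.SpecialLinearGroup (Fin 3) F →* GL (Fin 3) F)) := by
  classical
  obtain ⟨hX3, hXnq⟩ := lemmaB (x : Matrix (Fin 3) (Fin 3) F) x.det_coe hns z hz H9 h30
  obtain ⟨g, hgN, hG3, hGns, hGnq⟩ := sigma_exists K hK
  by_cases hω : ∃ ω : F, ω * ω * ω = 1 ∧ ω ≠ 1
  · obtain ⟨ω, hω3, hω1⟩ := hω
    obtain ⟨γ, hγ⟩ := nfA ω hω3 hω1 (x : Matrix (Fin 3) (Fin 3) F) hX3 hXnq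
    obtain ⟨β, hβ⟩ := nfA ω hω3 hω1 (g : Matrix (Fin 3) (Fin 3) F) hG3 hGnq
    obtain ⟨Q₀, hQ₀⟩ := S5969.eig_conj (x : Matrix (Fin 3) (Fin 3) F) g γ β _ hγ hβ
    have hQdet : (Q₀ : Matrix (Fin 3) (Fin 3) F).det ≠ 0 :=
      (Matrix.isUnits_det_units Q₀).ne_zero
    obtain ⟨h, hh, hhdet⟩ := diag3 γ ((Q₀ : Matrix (Fin 3) (Fin 3) F).det)⁻¹
      (inv_ne_zero hQdet)
    have hcomm : (h : Matrix (Fin 3) (Fin 3) F) * (x : Matrix (Fin 3) (Fin 3) F)
        = (x : Matrix (Fin 3) (Fin 3) F) * (h : Matrix (Fin 3) (Fin 3) F) := by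
      apply S5969.mat_ext_basis γ
      intro j
      rw [← Matrix.mulVec_mulVec, ← Matrix.mulVec_mulVec, hγ, hh, Matrix.mulVec_smul,
        Matrix.mulVec_smul, hγ, hh, smul_smul, smul_smul, mul_comm]
    refine sl_of_gl1 K x (Q₀ * h) g ?_ hgN ?_
    · rw [Units.val_mul, Matrix.det_mul, hhdet, mul_inv_cancel₀ hQdet]
    · rw [Units.val_mul]
      calc (Q₀ : Matrix (Fin 3) (Fin 3) F) * (h : Matrix (Fin 3) (Fin 3) F)
            * (x : Matrix (Fin 3) (Fin 3) F)
          = (Q₀ : Matrix (Fin 3) (Fin 3) F) * ((h : Matrix (Fin 3) (Fin 3) F)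
            * (x : Matrix (Fin 3) (Fin 3) F)) := mul_assoc _ _ _
        _ = (Q₀ : Matrix (Fin 3) (Fin 3) F) * ((x : Matrix (Fin 3) (Fin 3) F)
            * (h : Matrix (Fin 3) (Fin 3) F)) := by rw [hcomm]
        _ = ((Q₀ : Matrix (Fin 3) (Fin 3) F) * (x : Matrix (Fin 3) (Fin 3) F))
            * (h : Matrix (Fin 3) (Fin 3) F) := (mul_assoc _ _ _).symm
        _ = ((g : Matrix (Fin 3) (Fin 3) F) * (Q₀ : Matrix (Fin 3) (Fin 3) F))
            * (h : Matrix (Fin 3) (Fin 3) F) := by rw [hQ₀]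
        _ = (g : Matrix (Fin 3) (Fin 3) F) * ((Q₀ : Matrix (Fin 3) (Fin 3) F)
            * (h : Matrix (Fin 3) (Fin 3) F)) := mul_assoc _ _ _
  · push Not at hω
    obtain ⟨γ, hγ0, hγ1, hγ2⟩ := nfB h30 hω (x : Matrix (Fin 3) (Fin 3) F) hX3 hXnq
      (fun h1 => hns 1 (by rw [h1, one_smul]))
    obtain ⟨β, hβ0, hβ1, hβ2⟩ := nfB h30 hω (g : Matrix (Fin 3) (Fin 3) F) hG3 hGnq
      (fun h1 => hGns 1 (by rw [h1, one_smul]))
    obtain ⟨Q₀, hQ₀⟩ := conjB (x : Matrix (Fin 3) (Fin 3) F) (g : Matrix (Fin 3) (Fin 3) F)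
      γ β hγ0 hγ1 hγ2 hβ0 hβ1 hβ2
    have hQdet : (Q₀ : Matrix (Fin 3) (Fin 3) F).det ≠ 0 :=
      (Matrix.isUnits_det_units Q₀).ne_zero
    have hcube : Function.Injective (fun μ : F => μ * μ * μ) := by
      intro a b hab
      have hab' : a * a * a = b * b * b := hab
      by_cases hb : b = 0
      · rw [hb, mul_zero] at hab'
        rw [hb]
        rcases mul_eq_zero.1 hab' with h | h
        · rcases mul_eq_zero.1 h with h' | h'
          · exact h'
          · exact h'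
        · exact h
      · have h1 : (a / b) * (a / b) * (a / b) = 1 := by
          rw [div_mul_div_comm, div_mul_div_comm, hab',
            div_self (mul_ne_zero (mul_ne_zero hb hb) hb)]
        exact (div_eq_one_iff_eq hb).1 (hω _ h1)
    obtain ⟨μ, hμ⟩ := (Finite.injective_iff_surjective.1 hcube)
      ((Q₀ : Matrix (Fin 3) (Fin 3) F).det)⁻¹
    have hμ' : μ * μ * μ = ((Q₀ : Matrix (Fin 3) (Fin 3) F).det)⁻¹ := hμ
    have hQ1det : (μ • (Q₀ : Matrix (Fin 3) (Fin 3) F)).det = 1 := by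
      rw [Matrix.det_smul, Fintype.card_fin, pow_succ, pow_two, hμ', inv_mul_cancel₀ hQdet]
    refine sl_of_gl1 K x (Matrix.GeneralLinearGroup.mkOfDetNeZero
      (μ • (Q₀ : Matrix (Fin 3) (Fin 3) F)) (by rw [hQ1det]; exact one_ne_zero)) g hQ1det hgN ?_
    show (μ • (Q₀ : Matrix (Fin 3) (Fin 3) F)) * (x : Matrix (Fin 3) (Fin 3) F)
      = (g : Matrix (Fin 3) (Fin 3) F) * (μ • (Q₀ : Matrix (Fin 3) (Fin 3) F))
    rw [smul_mul_assoc, hQ₀, mul_smul_comm]

end Final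



/-- Elements of order 3 of PSL_3(q) and the normalizer of a Singer cycle. Here `T = PSL_n(F)` for a field `F` with `q = p^f` elements (`n ≥ 2`, `(n, q) ≠ (2, 2), (2, 3)`), `k` is a prime dividing `n`, `K` is a subalgebra of the `n × n` matrices that is a field of degree `k` over `F` (an extension-field structure F_{q^k} on `F^n`), and `H` is the subgroup of matrices of determinant 1 normalizing `K` — a subgroup of type GL_{n/k}(q^k) (maximal except in some small cases; maximality is not assumed); Ω is the set of cosets of `H` in `T`, so an element of `T` of prime order `r` (a matrix `x` of determinant 1 with `x^r` scalar, `x` not scalar) fixes a point of Ω when some conjugate of `x` by a matrix of determinant 1 normalizes `K`. Take `n = k = 3` and suppose 3 divides the index of `H`. Then every element of `T` of order 3 is conjugate in `T` into `H` if and only if `q ≡ 4, 7` or `8 (mod 9)`. -/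
theorem result {F : Type*} [Field F] [Fintype F] {p : ℕ} [Fact p.Prime] [CharP F p] {q : ℕ} (hq : Fintype.card F = q)
    (n : ℕ) (hn : n = 3) (k : ℕ) (hk : k.Prime) (hkn : k ∣ n) (K : Subalgebra F (Matrix (Fin n) (Fin n) F)) (hK : Cfsg.Geo.IsFieldSubalgebra k K) (hk3 : k = 3) (hΩ : 3 ∣ ((Cfsg.Geo.subalgebraNormalizer K).comap (Matrix.SpecialLinearGroup.toGL : Matrix.SpecialLinearGroup (Fin n) F →* GL (Fin n) F)).index) :
    (∀ x : Matrix.SpecialLinearGroup (Fin n) F,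
      (∃ z : F, ((x ^ 3 : Matrix.SpecialLinearGroup (Fin n) F) : Matrix (Fin n) (Fin n) F) = z • (1 : Matrix (Fin n) (Fin n) F)) →
      (∀ z : F, (x : Matrix (Fin n) (Fin n) F) ≠ z • (1 : Matrix (Fin n) (Fin n) F)) →
      ∃ P : Matrix.SpecialLinearGroup (Fin n) F, P⁻¹ * x * P ∈ ((Cfsg.Geo.subalgebraNormalizer K).comap (Matrix.SpecialLinearGroup.toGL : Matrix.SpecialLinearGroup (Fin n) F →* GL (Fin n) F))) ↔
    (q % 9 = 4 ∨ q % 9 = 7 ∨ q % 9 = 8) := by
  subst hn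
  subst hk3
  subst hq
  classical
  have hq2 : 2 ≤ Fintype.card F := Fintype.one_lt_card
  constructor
  · intro hall
    by_contra hcon
    push Not at hcon
    obtain ⟨hc4, hc7, hc8⟩ := hcon
    by_cases h3q : 3 ∣ Fintype.card F
    · obtain ⟨a, -, ha⟩ := FiniteField.card F p
      have h3q' : 3 ∣ p ^ (a : ℕ) := by rw [← ha]; exact h3q
      have h3p : 3 ∣ p := Nat.Prime.dvd_of_dvd_pow Nat.prime_three h3q'
      have hp3 : p = 3 :=
        ((Nat.prime_dvd_prime_iff_eq Nat.prime_three (Fact.out : p.Prime)).1 h3p).symm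
      subst hp3
      have h3 : (3 : F) = 0 := by exact_mod_cast CharP.cast_eq_zero F 3
      obtain ⟨x, hx3, hfac, hns⟩ := bad3 h3
      refine derange3 K hK x 1 1 hfac ?_ ?_ hns (hall x ⟨1, ?_⟩ hns)
      · intro h
        exact one_ne_zero (by linear_combination h3 - h : (1 : F) = 0)
      · simp
      · rw [Matrix.SpecialLinearGroup.coe_pow, pow_succ, pow_two]
        exact hx3
    · by_cases h1q : Fintype.card F % 9 = 1
      · obtain ⟨γ, hγ0, hγo, -⟩ := S2670.exists_gen F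
        obtain ⟨m, hm⟩ : ∃ m, Fintype.card F - 1 = 9 * m := ⟨Fintype.card F / 9, by omega⟩
        have hm0 : 0 < m := by omega
        have h9 : (γ ^ m) ^ 9 = 1 := by
          rw [← pow_mul, mul_comm, ← hm, ← hγo, pow_orderOf_eq_one]
        have h3 : (γ ^ m) ^ 3 ≠ 1 := by
          intro h
          rw [← pow_mul] at h
          have h7 := orderOf_dvd_of_pow_eq_one h
          rw [hγo, hm] at h7
          have h8 := Nat.le_of_dvd (by omega) h7
          omega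
        obtain ⟨x, hx3, hfac, hns⟩ := bad9 (γ ^ m) h9 h3
        have hζ0 : γ ^ m ≠ 0 := pow_ne_zero m hγ0
        refine derange3 K hK x (γ ^ m) ((γ ^ m) ^ 7) hfac ?_ ?_ hns
          (hall x ⟨(γ ^ m) ^ 3, ?_⟩ hns)
        · intro hs
          apply h3
          linear_combination ((γ ^ m) ^ 2 * ((γ ^ m) ^ 3 - (γ ^ m) ^ 6)) * hs
            + (1 - ((γ ^ m) ^ 3 - (γ ^ m) ^ 6)) * h9
        · exact mul_ne_zero hζ0 (pow_ne_zero 7 hζ0)
        · rw [Matrix.SpecialLinearGroup.coe_pow, pow_succ, pow_two]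
          exact hx3
      · exact partIII K hK (by omega) hΩ
  · intro hq9 x hx1 hx2
    obtain ⟨z, hz⟩ := hx1
    rw [Matrix.SpecialLinearGroup.coe_pow, pow_succ, pow_two] at hz
    have h30 : (3 : F) ≠ 0 := by
      intro h3
      have h3' : ((3 : ℕ) : F) = 0 := by exact_mod_cast h3
      have hp3 : p ∣ 3 := (CharP.cast_eq_zero_iff F p 3).1 h3'
      have hpq : p ∣ Fintype.card F := by
        obtain ⟨a, -, ha⟩ := FiniteField.card F p
        rw [ha]
        exact dvd_pow_self p a.ne_zero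
      have hp3' : p = 3 :=
        (Nat.prime_dvd_prime_iff_eq (Fact.out : p.Prime) Nat.prime_three).1 hp3
      rw [hp3'] at hpq
      omega
    have H9 : ∀ c : F, c ^ 9 = 1 → c ^ 3 = 1 := by
      intro c hc
      have hc0 : c ≠ 0 := by
        rintro rfl
        simp at hc
      have h1 := FiniteField.pow_card_sub_one_eq_one c hc0
      rcases hq9 with h | h | h
      · obtain ⟨j, hj⟩ : ∃ j, Fintype.card F - 1 = 9 * j + 3 := ⟨Fintype.card F / 9, by omega⟩
        rw [hj, pow_add, pow_mul, hc, one_pow, one_mul] at h1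
        exact h1
      · obtain ⟨j, hj⟩ : ∃ j, Fintype.card F - 1 = 9 * j + 6 := ⟨Fintype.card F / 9, by omega⟩
        rw [hj, pow_add, pow_mul, hc, one_pow, one_mul] at h1
        linear_combination hc - c ^ 3 * h1
      · obtain ⟨j, hj⟩ : ∃ j, Fintype.card F - 1 = 9 * j + 7 := ⟨Fintype.card F / 9, by omega⟩
        rw [hj, pow_add, pow_mul, hc, one_pow, one_mul] at h1
        have h2 : c ^ 2 = 1 := by linear_combination hc - c ^ 2 * h1
        have h3 : c = 1 := by linear_combination h1 - c * (c ^ 4 + c ^ 2 + 1) * h2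
        rw [h3, one_pow]
    exact back3 K hK H9 h30 x z hz hx2

end Cfsg.Agent.S5971
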