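import Mathlib
import Cfsg.Statements.S5970
import Cfsg.Agent.S5971
-- import your own Cfsg.Agent.* helpers here

set_option autoImplicit false
open scoped MatrixGroups
open Cfsg

namespace Cfsg.Agent.S5970

section GenN
open Matrix
variable {F : Type*} [Field F] {n : ℕ}

theorem card_units_isField {R : Type*} [Ring R] [Finite R] (h : IsField R) :
    Nat.card Rˣ = Nat.card R - 1 := by
  letI := h.toField
  exact Nat.card_units (α := R)

theorem sigmaN [Fintype F] {p : ℕ} [Fact p.Prime] [CharP F p] (hn2 : 2 ≤ n)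
    (K : Subalgebra F (Matrix (Fin n) (Fin n) F)) (hK : Cfsg.Geo.IsFieldSubalgebra n K) :
    ∃ g : GL (Fin n) F, g ∈ Cfsg.Geo.subalgebraNormalizer K ∧
      (g : Matrix (Fin n) (Fin n) F) ^ n = 1 ∧
      (∀ z : F, (g : Matrix (Fin n) (Fin n) F) ≠ z • 1) := by
  classical
  have hn : 0 < n := by omega
  haveI : Nonempty (Fin n) := ⟨⟨0, hn⟩⟩
  obtain ⟨e, he⟩ : ∃ e : Fin n → F, e ≠ 0 := ⟨Pi.single ⟨0, hn⟩ 1, by
    intro h0
    have h := congrFun h0 ⟨0, hn⟩
    simp at h⟩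
  have hsurj := S5971.Ksurj hn K hK e he
  have hinjK : ∀ a ∈ K, ∀ b ∈ K, a *ᵥ e = b *ᵥ e → a = b := by
    intro a ha b hb hab
    by_contra hne
    exact he (S5971.Kinv K hK (a - b) (K.sub_mem ha hb) (sub_ne_zero.2 hne) e
      (by rw [Matrix.sub_mulVec, hab, sub_self]))
  obtain ⟨q, hq⟩ : ∃ q : ℕ, q = Fintype.card F := ⟨_, rfl⟩
  obtain ⟨m, hm⟩ := FiniteField.card F p
  have hm' : q = p ^ (m : ℕ) := hq.trans hm.2
  have hq2 : 2 ≤ q := by rw [hq]; exact Fintype.one_lt_card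
  have hfadd : ∀ a ∈ K, ∀ b ∈ K, (a + b) ^ q = a ^ q + b ^ q := by
    intro a ha b hb
    rw [hm']
    exact add_pow_char_pow_of_commute p (m : ℕ) (show Commute a b from hK.comm a ha b hb)
  have hfsmul : ∀ (c : F) (a : Matrix (Fin n) (Fin n) F), (c • a) ^ q = c • a ^ q := by
    intro c a
    rw [smul_pow, hq, FiniteField.pow_card]
  have hfmul : ∀ a ∈ K, ∀ b ∈ K, (a * b) ^ q = a ^ q * b ^ q := by
    intro a ha b hb
    exact (show Commute a b from hK.comm a ha b hb).mul_pow q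
  have hfK : ∀ a ∈ K, a ^ q ∈ K := fun a ha => K.pow_mem ha q
  choose A hAK hAe using hsurj
  have hA_of : ∀ a ∈ K, A (a *ᵥ e) = a := fun a ha => hinjK _ (hAK _) a ha (hAe _)
  have hAadd : ∀ v w, A (v + w) = A v + A w := by
    intro v w
    apply hinjK _ (hAK _) _ (K.add_mem (hAK v) (hAK w))
    rw [hAe, Matrix.add_mulVec, hAe, hAe]
  have hAsmul : ∀ (c : F) v, A (c • v) = c • A v := by
    intro c v
    apply hinjK _ (hAK _) _ (K.smul_mem (hAK v) c)
    rw [hAe, Matrix.smul_mulVec, hAe]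
  obtain ⟨S, hS⟩ : ∃ S : (Fin n → F) →ₗ[F] (Fin n → F), ∀ v, S v = (A v) ^ q *ᵥ e :=
    ⟨{ toFun := fun v => (A v) ^ q *ᵥ e
       map_add' := fun v w => by
         show (A (v + w)) ^ q *ᵥ e = (A v) ^ q *ᵥ e + (A w) ^ q *ᵥ e
         rw [hAadd, hfadd _ (hAK v) _ (hAK w), Matrix.add_mulVec]
       map_smul' := fun c v => by
         show (A (c • v)) ^ q *ᵥ e = c • ((A v) ^ q *ᵥ e)
         rw [hAsmul, hfsmul, Matrix.smul_mulVec] }, fun v => rfl⟩
  have hSK : ∀ a ∈ K, S (a *ᵥ e) = a ^ q *ᵥ e := fun a ha => by rw [hS, hA_of a ha]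
  have hcardK : Nat.card ↥K = q ^ n := by rw [hq]; exact S5971.Kcard K hn hK
  have hKF : IsField ↥K := S5971.KisField hn K hK
  have hpc : ∀ a ∈ K, a ^ (q ^ n) = a := by
    intro a ha
    have h1 := S5971.pow_card_isField hKF (⟨a, ha⟩ : ↥K)
    rw [hcardK] at h1
    have h2 := congrArg Subtype.val h1
    rw [SubmonoidClass.coe_pow] at h2
    exact h2
  obtain ⟨G, hG⟩ : ∃ G : Matrix (Fin n) (Fin n) F, G = LinearMap.toMatrix' S := ⟨_, rfl⟩
  have hGv : ∀ v, G *ᵥ v = S v := fun v => by rw [hG]; exact LinearMap.toMatrix'_mulVec S v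
  have hGK : ∀ k : ℕ, ∀ a ∈ K, (G ^ k) *ᵥ (a *ᵥ e) = a ^ (q ^ k) *ᵥ e := by
    intro k
    induction k with
    | zero =>
      intro a ha
      rw [pow_zero, pow_zero, pow_one, Matrix.one_mulVec]
    | succ k ih =>
      intro a ha
      rw [pow_succ, ← Matrix.mulVec_mulVec, hGv, hSK a ha, ih _ (hfK a ha), ← pow_mul,
        ← pow_succ']
  have hGn : G ^ n = 1 := by
    apply S5971.mat_ext_vec
    intro v
    rw [← hAe v, hGK n _ (hAK v), hpc _ (hAK v), Matrix.one_mulVec]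
  have hGe : G *ᵥ e = e := by
    have h1 := hSK 1 K.one_mem
    rw [Matrix.one_mulVec, one_pow, Matrix.one_mulVec] at h1
    rw [hGv, h1]
  have hconj : ∀ k ∈ K, G * k = k ^ q * G := by
    intro k hk
    apply S5971.mat_ext_vec
    intro v
    rw [← Matrix.mulVec_mulVec, ← Matrix.mulVec_mulVec, hGv, hGv]
    conv_lhs => rw [← hAe v, Matrix.mulVec_mulVec]
    rw [hSK _ (K.mul_mem hk (hAK v)), hfmul k hk _ (hAK v), ← Matrix.mulVec_mulVec, ← hS v]
  have hconjpow : ∀ j : ℕ, ∀ k ∈ K, G ^ j * k = k ^ (q ^ j) * G ^ j := by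
    intro j
    induction j with
    | zero =>
      intro k hk
      rw [pow_zero, pow_zero, pow_one, one_mul, mul_one]
    | succ j ih =>
      intro k hk
      calc G ^ (j + 1) * k = G ^ j * (G * k) := by rw [pow_succ, mul_assoc]
        _ = G ^ j * (k ^ q * G) := by rw [hconj k hk]
        _ = (G ^ j * k ^ q) * G := by rw [mul_assoc]
        _ = ((k ^ q) ^ (q ^ j) * G ^ j) * G := by rw [ih _ (hfK k hk)]
        _ = k ^ (q ^ (j + 1)) * G ^ (j + 1) := by
          rw [← pow_mul, ← pow_succ', mul_assoc, ← pow_succ]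
  have h1 : G * G ^ (n - 1) = 1 := by rw [← pow_succ', Nat.sub_add_cancel hn, hGn]
  have h2 : G ^ (n - 1) * G = 1 := by rw [← pow_succ, Nat.sub_add_cancel hn, hGn]
  obtain ⟨g, hgv, hgi⟩ : ∃ g : GL (Fin n) F, (g : Matrix (Fin n) (Fin n) F) = G ∧
      ((g⁻¹ : GL (Fin n) F) : Matrix (Fin n) (Fin n) F) = G ^ (n - 1) :=
    ⟨⟨G, G ^ (n - 1), h1, h2⟩, rfl, rfl⟩
  have hgN : g ∈ Cfsg.Geo.subalgebraNormalizer K := by
    refine S5969.normK K g (fun k hk => ?_) (fun k hk => ?_)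
    · rw [hgv, hgi, hconj k hk, mul_assoc, h1, mul_one]
      exact hfK k hk
    · rw [hgv, hgi, hconjpow (n - 1) k hk, mul_assoc, h2, mul_one]
      exact K.pow_mem hk _
  have hns : ∀ z : F, G ≠ z • 1 := by
    intro z hz
    have h1 : z • e = e := by
      have h := hGe
      rw [hz, Matrix.smul_mulVec, Matrix.one_mulVec] at h
      exact h
    have hz1 : z = 1 := by
      have h2 : (z - 1) • e = 0 := by rw [sub_smul, h1, one_smul, sub_self]
      rcases smul_eq_zero.1 h2 with h3 | h3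
      · exact sub_eq_zero.1 h3
      · exact absurd h3 he
    have hlt : q < Nat.card ↥K := by
      rw [hcardK]
      have : q ^ 1 < q ^ n := Nat.pow_lt_pow_right (by omega) (by omega)
      simpa using this
    obtain ⟨a', ha'⟩ := S5971.exists_pow_ne_isField hKF q hq2 hlt
    apply ha'
    apply Subtype.ext
    rw [SubmonoidClass.coe_pow]
    apply hinjK _ (hfK _ a'.2) _ a'.2
    rw [← hSK _ a'.2, ← hGv, hz, hz1, one_smul, Matrix.one_mulVec]
  exact ⟨g, hgN, by rw [hgv]; exact hGn, by rw [hgv]; exact hns⟩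

theorem scalar_mem_N (K : Subalgebra F (Matrix (Fin n) (Fin n) F)) (c : F) (hc : c ≠ 0) :
    ∃ u : GL (Fin n) F, (u : Matrix (Fin n) (Fin n) F) = c • 1 ∧
      u ∈ Cfsg.Geo.subalgebraNormalizer K := by
  obtain ⟨u, hu, hui⟩ : ∃ u : GL (Fin n) F, (u : Matrix (Fin n) (Fin n) F) = c • 1 ∧
      ((u⁻¹ : GL (Fin n) F) : Matrix (Fin n) (Fin n) F) = c⁻¹ • 1 :=
    ⟨⟨c • 1, c⁻¹ • 1,
      by rw [Matrix.smul_mul, Matrix.one_mul, smul_smul, mul_inv_cancel₀ hc, one_smul],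
      by rw [Matrix.smul_mul, Matrix.one_mul, smul_smul, inv_mul_cancel₀ hc, one_smul]⟩,
      rfl, rfl⟩
  refine ⟨u, hu, S5969.normK K u (fun k hk => ?_) (fun k hk => ?_)⟩
  · rw [hu, hui, smul_mul_assoc, one_mul, mul_smul_comm, mul_one, smul_smul,
      inv_mul_cancel₀ hc, one_smul]
    exact hk
  · rw [hu, hui, smul_mul_assoc, one_mul, mul_smul_comm, mul_one, smul_smul,
      mul_inv_cancel₀ hc, one_smul]
    exact hk

theorem eigen2 [Fintype F] (hnp : n.Prime) (K : Subalgebra F (Matrix (Fin n) (Fin n) F))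
    (hK : Cfsg.Geo.IsFieldSubalgebra n K) (g : GL (Fin n) F)
    (hg : g ∈ Cfsg.Geo.subalgebraNormalizer K) (t : F) (w₁ w₂ : Fin n → F)
    (h1 : (g : Matrix (Fin n) (Fin n) F) *ᵥ w₁ = t • w₁)
    (h2 : (g : Matrix (Fin n) (Fin n) F) *ᵥ w₂ = t • w₂)
    (hw₁ : w₁ ≠ 0) (hind : ∀ c : F, w₂ ≠ c • w₁) :
    (g : Matrix (Fin n) (Fin n) F) = t • 1 := by
  classical
  have hn : 0 < n := hnp.pos
  haveI : Nonempty (Fin n) := ⟨⟨0, hn⟩⟩
  have hg' : ∀ k : Matrix (Fin n) (Fin n) F, k ∈ K ↔ (g : Matrix (Fin n) (Fin n) F) * k *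
      ((g⁻¹ : GL (Fin n) F) : Matrix (Fin n) (Fin n) F) ∈ K := hg
  have hgg1 : (g : Matrix (Fin n) (Fin n) F)
      * ((g⁻¹ : GL (Fin n) F) : Matrix (Fin n) (Fin n) F) = 1 := Units.mul_inv g
  have hgg2 : ((g⁻¹ : GL (Fin n) F) : Matrix (Fin n) (Fin n) F)
      * (g : Matrix (Fin n) (Fin n) F) = 1 := Units.inv_mul g
  obtain ⟨G, hG⟩ : ∃ G : Matrix (Fin n) (Fin n) F, G = (g : Matrix (Fin n) (Fin n) F) :=
    ⟨_, rfl⟩
  obtain ⟨G', hG'⟩ : ∃ G' : Matrix (Fin n) (Fin n) F,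
      G' = ((g⁻¹ : GL (Fin n) F) : Matrix (Fin n) (Fin n) F) := ⟨_, rfl⟩
  rw [← hG] at h1 h2 hg' hgg1 hgg2 ⊢
  rw [← hG'] at hg' hgg1 hgg2
  have hsurj := S5971.Ksurj hn K hK w₁ hw₁
  obtain ⟨b, hbK, hb⟩ := hsurj w₂
  have hbns : ∀ c : F, b ≠ c • 1 := by
    intro c hc
    apply hind c
    rw [← hb, hc, Matrix.smul_mulVec, Matrix.one_mulVec]
  have ht : t ≠ 0 := by
    intro ht0
    rw [ht0, zero_smul] at h1
    apply hw₁
    have e1 : w₁ = (G' * G) *ᵥ w₁ := by rw [hgg2, Matrix.one_mulVec]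
    rw [e1, ← Matrix.mulVec_mulVec, h1, Matrix.mulVec_zero]
  have hinjK : ∀ a ∈ K, ∀ c ∈ K, a *ᵥ w₁ = c *ᵥ w₁ → a = c := by
    intro a ha c hc hac
    by_contra hne
    exact hw₁ (S5971.Kinv K hK (a - c) (K.sub_mem ha hc) (sub_ne_zero.2 hne) w₁
      (by rw [Matrix.sub_mulVec, hac, sub_self]))
  have hGb : G * b = b * G := by
    have hB : G * b * G' ∈ K := (hg' b).1 hbK
    have e1 : G *ᵥ (b *ᵥ w₁) = t • ((G * b * G') *ᵥ w₁) := by
      calc G *ᵥ (b *ᵥ w₁) = (G * b) *ᵥ w₁ := by rw [Matrix.mulVec_mulVec]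
        _ = ((G * b * G') * G) *ᵥ w₁ := by rw [mul_assoc (G * b), hgg2, mul_one]
        _ = t • ((G * b * G') *ᵥ w₁) := by
          rw [← Matrix.mulVec_mulVec, h1, Matrix.mulVec_smul]
    rw [hb, h2, ← hb] at e1
    have e2 : (G * b * G') *ᵥ w₁ = b *ᵥ w₁ := by
      have e3 : t • (b *ᵥ w₁ - (G * b * G') *ᵥ w₁) = 0 := by rw [smul_sub, e1, sub_self]
      rcases smul_eq_zero.1 e3 with h | h
      · exact absurd h ht
      · exact (sub_eq_zero.1 h).symm
    have e4 : G * b * G' = b := hinjK _ hB b hbK e2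
    calc G * b = (G * b) * (G' * G) := by rw [hgg2, mul_one]
      _ = (G * b * G') * G := by rw [mul_assoc (G * b)]
      _ = b * G := by rw [e4]
  obtain ⟨L, hL⟩ : ∃ L : Subalgebra F (Matrix (Fin n) (Fin n) F),
      L = K ⊓ Subalgebra.centralizer F {G} := ⟨_, rfl⟩
  have hLmem : ∀ a, a ∈ L ↔ a ∈ K ∧ G * a = a * G := by
    intro a
    rw [hL, Algebra.mem_inf, Subalgebra.mem_centralizer_iff]
    constructor
    · rintro ⟨h, h'⟩
      exact ⟨h, h' G rfl⟩
    · rintro ⟨h, h'⟩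
      exact ⟨h, fun x hx => by rw [Set.mem_singleton_iff.1 hx]; exact h'⟩
  have hLK : L ≤ K := fun a ha => ((hLmem a).1 ha).1
  have hbL : b ∈ L := (hLmem b).2 ⟨hbK, hGb⟩
  obtain ⟨s, hs⟩ : ∃ s : ℕ, s = Module.finrank F ↥L := ⟨_, rfl⟩
  have hLF : Cfsg.Geo.IsFieldSubalgebra s L := by
    refine ⟨fun x hx y hy => hK.comm x (hLK hx) y (hLK hy), ?_, hs.symm⟩
    intro x hx hx0
    obtain ⟨y, hyK, hxy⟩ := hK.inv x (hLK hx) hx0
    refine ⟨y, (hLmem y).2 ⟨hyK, ?_⟩, hxy⟩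
    have hyx : y * x = 1 := (hK.comm y hyK x (hLK hx)).trans hxy
    have hGx : G * x = x * G := ((hLmem x).1 hx).2
    calc G * y = (y * x) * G * y := by rw [hyx, one_mul]
      _ = y * (x * G) * y := by rw [mul_assoc y x G]
      _ = y * (G * x) * y := by rw [hGx]
      _ = y * G * (x * y) := by simp only [mul_assoc]
      _ = y * G := by rw [hxy, mul_one]
  have hcardK : Nat.card ↥K = Fintype.card F ^ n := S5971.Kcard K hn hK
  have hcardL : Nat.card ↥L = Fintype.card F ^ s := by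
    rw [Module.natCard_eq_pow_finrank (K := F) (V := ↥L), ← hs, Nat.card_eq_fintype_card]
  have huK : Nat.card (↥K)ˣ = Fintype.card F ^ n - 1 := by
    rw [card_units_isField (S5971.KisField hn K hK), hcardK]
  have huL : Nat.card (↥L)ˣ = Fintype.card F ^ s - 1 := by
    rw [card_units_isField (S5971.KisField hn L hLF), hcardL]
  have hdvd : Fintype.card F ^ s - 1 ∣ Fintype.card F ^ n - 1 := by
    rw [← huK, ← huL]
    exact Subgroup.card_dvd_of_injective
      (Units.map ((Subalgebra.inclusion hLK : ↥L →ₐ[F] ↥K) : ↥L →* ↥K))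
      (Units.map_injective (Subalgebra.inclusion_injective hLK))
  have hq2 : 2 ≤ Fintype.card F := Fintype.one_lt_card
  have hgcd : Nat.gcd s n = s := by
    have h3 := Nat.gcd_eq_left hdvd
    rw [Nat.pow_sub_one_gcd_pow_sub_one] at h3
    have h4 : Fintype.card F ^ Nat.gcd s n = Fintype.card F ^ s := by
      have h5 : 1 ≤ Fintype.card F ^ Nat.gcd s n := Nat.one_le_pow _ _ (by omega)
      have h6 : 1 ≤ Fintype.card F ^ s := Nat.one_le_pow _ _ (by omega)
      omega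
    exact Nat.pow_right_injective hq2 h4
  have hsn : s ∣ n := by
    rw [← hgcd]
    exact Nat.gcd_dvd_right s n
  have hsn' : s = n := by
    rcases (Nat.dvd_prime hnp).1 hsn with h | h
    · exfalso
      have h7 := (finrank_eq_one_iff_of_nonzero' (1 : ↥L) one_ne_zero).1 (hs ▸ h)
      obtain ⟨c, hc⟩ := h7 ⟨b, hbL⟩
      apply hbns c
      have h8 := congrArg Subtype.val hc
      exact h8.symm
    · exact h
  have hall : ∀ a ∈ K, a ∈ L := by
    intro a ha
    have h9 : Subalgebra.toSubmodule L = Subalgebra.toSubmodule K := by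
      haveI : FiniteDimensional F ↥(Subalgebra.toSubmodule K) := Module.Finite.of_finite
      apply Submodule.eq_of_le_of_finrank_eq (fun x hx => hLK hx)
      rw [Subalgebra.finrank_toSubmodule, Subalgebra.finrank_toSubmodule, ← hs, hsn',
        hK.finrank_eq]
    have h10 : a ∈ Subalgebra.toSubmodule K := ha
    rw [← h9] at h10
    exact h10
  apply S5971.mat_ext_vec
  intro v
  obtain ⟨a, ha, rfl⟩ := hsurj v
  have hGa : G * a = a * G := ((hLmem a).1 (hall a ha)).2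
  rw [Matrix.mulVec_mulVec, hGa, ← Matrix.mulVec_mulVec, h1, Matrix.mulVec_smul,
    Matrix.smul_mulVec, Matrix.one_mulVec]

end GenN

section Blocks
open Matrix
variable {F : Type*} [Field F]

theorem block_fix (m₀ e : ℕ) (B : Matrix (Fin m₀) (Fin m₀) F) (c : Fin e → F) :
    (Matrix.reindexAlgEquiv F F (finSumFinEquiv : Fin m₀ ⊕ Fin e ≃ Fin (m₀ + e))
        (Matrix.fromBlocks B 0 0 (1 : Matrix (Fin e) (Fin e) F)))
      *ᵥ ((Sum.elim (0 : Fin m₀ → F) c)
        ∘ (finSumFinEquiv : Fin m₀ ⊕ Fin e ≃ Fin (m₀ + e)).symm)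
    = (Sum.elim (0 : Fin m₀ → F) c)
        ∘ (finSumFinEquiv : Fin m₀ ⊕ Fin e ≃ Fin (m₀ + e)).symm := by
  have hcomp : ((Sum.elim (0 : Fin m₀ → F) c)
      ∘ (finSumFinEquiv : Fin m₀ ⊕ Fin e ≃ Fin (m₀ + e)).symm)
      ∘ ((finSumFinEquiv : Fin m₀ ⊕ Fin e ≃ Fin (m₀ + e)).symm).symm
      = Sum.elim (0 : Fin m₀ → F) c := by
    funext i
    simp
  rw [Matrix.reindexAlgEquiv_apply, Matrix.reindex_apply, Matrix.submatrix_mulVec_equiv, hcomp,
    Matrix.fromBlocks_mulVec]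
  simp

theorem bad_block (m₀ e : ℕ) (he : 2 ≤ e) (B : Matrix (Fin m₀) (Fin m₀) F)
    (hB : B ^ (m₀ + e) = 1) (hdet : B.det = 1) (hB1 : B ≠ 1) :
    ∃ x : Matrix.SpecialLinearGroup (Fin (m₀ + e)) F,
      ((x : Matrix (Fin (m₀ + e)) (Fin (m₀ + e)) F) ^ (m₀ + e) = 1) ∧
      (x : Matrix (Fin (m₀ + e)) (Fin (m₀ + e)) F) ≠ 1 ∧
      ∃ u₁ u₂ : Fin (m₀ + e) → F,
        (x : Matrix (Fin (m₀ + e)) (Fin (m₀ + e)) F) *ᵥ u₁ = u₁ ∧
        (x : Matrix (Fin (m₀ + e)) (Fin (m₀ + e)) F) *ᵥ u₂ = u₂ ∧ u₁ ≠ 0 ∧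
        ∀ c : F, u₂ ≠ c • u₁ := by
  classical
  obtain ⟨ρ, hρ⟩ : ∃ ρ : Matrix (Fin m₀ ⊕ Fin e) (Fin m₀ ⊕ Fin e) F ≃ₐ[F]
      Matrix (Fin (m₀ + e)) (Fin (m₀ + e)) F,
      ρ = Matrix.reindexAlgEquiv F F (finSumFinEquiv : Fin m₀ ⊕ Fin e ≃ Fin (m₀ + e)) :=
    ⟨_, rfl⟩
  obtain ⟨Xb, hXb⟩ : ∃ Xb : Matrix (Fin m₀ ⊕ Fin e) (Fin m₀ ⊕ Fin e) F,
      Xb = Matrix.fromBlocks B 0 0 (1 : Matrix (Fin e) (Fin e) F) := ⟨_, rfl⟩
  have hdetX : (ρ Xb).det = 1 := by
    rw [hρ, Matrix.det_reindexAlgEquiv, hXb, Matrix.det_fromBlocks_zero₂₁, hdet, Matrix.det_one,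
      mul_one]
  have hpow : (ρ Xb) ^ (m₀ + e) = 1 := by
    rw [← map_pow ρ Xb (m₀ + e), hXb, Matrix.fromBlocks_diagonal_pow, hB, one_pow,
      Matrix.fromBlocks_one, map_one]
  have hne : ρ Xb ≠ 1 := by
    intro h
    have h1 : Xb = 1 := ρ.injective (by rw [h, map_one])
    rw [hXb, ← Matrix.fromBlocks_one, Matrix.fromBlocks_inj] at h1
    exact hB1 h1.1
  obtain ⟨i₀, i₁, hi⟩ : ∃ i₀ i₁ : Fin e, i₀ ≠ i₁ := ⟨⟨0, by omega⟩, ⟨1, by omega⟩, by
    intro h
    have := congrArg Fin.val h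
    simp at this⟩
  refine ⟨⟨ρ Xb, hdetX⟩, hpow, hne,
    (Sum.elim (0 : Fin m₀ → F) (Pi.single i₀ 1))
      ∘ (finSumFinEquiv : Fin m₀ ⊕ Fin e ≃ Fin (m₀ + e)).symm,
    (Sum.elim (0 : Fin m₀ → F) (Pi.single i₁ 1))
      ∘ (finSumFinEquiv : Fin m₀ ⊕ Fin e ≃ Fin (m₀ + e)).symm, ?_, ?_, ?_, ?_⟩
  · show (ρ Xb) *ᵥ _ = _
    rw [hρ, hXb]
    exact block_fix m₀ e B _
  · show (ρ Xb) *ᵥ _ = _
    rw [hρ, hXb]
    exact block_fix m₀ e B _
  · intro h
    have h1 := congrFun h (finSumFinEquiv (Sum.inr i₀))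
    simp at h1
  · intro c h
    have h1 := congrFun h (finSumFinEquiv (Sum.inr i₁))
    simp [hi, hi.symm] at h1

theorem derangeR [Fintype F] {n : ℕ} (hnp : n.Prime)
    (K : Subalgebra F (Matrix (Fin n) (Fin n) F)) (hK : Cfsg.Geo.IsFieldSubalgebra n K)
    (x : Matrix.SpecialLinearGroup (Fin n) F)
    (hx1 : (x : Matrix (Fin n) (Fin n) F) ≠ 1) (u₁ u₂ : Fin n → F)
    (h1 : (x : Matrix (Fin n) (Fin n) F) *ᵥ u₁ = u₁)
    (h2 : (x : Matrix (Fin n) (Fin n) F) *ᵥ u₂ = u₂)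
    (hu₁ : u₁ ≠ 0) (hind : ∀ c : F, u₂ ≠ c • u₁) :
    ¬ ∃ P : Matrix.SpecialLinearGroup (Fin n) F, P⁻¹ * x * P ∈
      ((Cfsg.Geo.subalgebraNormalizer K).comap
        (Matrix.SpecialLinearGroup.toGL :
          Matrix.SpecialLinearGroup (Fin n) F →* GL (Fin n) F)) := by
  rintro ⟨P, hP⟩
  rw [Subgroup.mem_comap] at hP
  have hcoe : ((Matrix.SpecialLinearGroup.toGL (P⁻¹ * x * P) : GL (Fin n) F) :
      Matrix (Fin n) (Fin n) F) = ((P⁻¹ : Matrix.SpecialLinearGroup (Fin n) F) :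
        Matrix (Fin n) (Fin n) F) * (x : Matrix (Fin n) (Fin n) F) *
          (P : Matrix (Fin n) (Fin n) F) := rfl
  have hPP1 : (P : Matrix (Fin n) (Fin n) F) * ((P⁻¹ : Matrix.SpecialLinearGroup (Fin n) F) :
      Matrix (Fin n) (Fin n) F) = 1 := by
    rw [← Matrix.SpecialLinearGroup.coe_mul, mul_inv_cancel, Matrix.SpecialLinearGroup.coe_one]
  have hPP2 : ((P⁻¹ : Matrix.SpecialLinearGroup (Fin n) F) : Matrix (Fin n) (Fin n) F) *
      (P : Matrix (Fin n) (Fin n) F) = 1 := by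
    rw [← Matrix.SpecialLinearGroup.coe_mul, inv_mul_cancel, Matrix.SpecialLinearGroup.coe_one]
  obtain ⟨P', hP'⟩ : ∃ P' : Matrix (Fin n) (Fin n) F,
      P' = ((P⁻¹ : Matrix.SpecialLinearGroup (Fin n) F) : Matrix (Fin n) (Fin n) F) := ⟨_, rfl⟩
  obtain ⟨Pm, hPm⟩ : ∃ Pm : Matrix (Fin n) (Fin n) F,
      Pm = (P : Matrix (Fin n) (Fin n) F) := ⟨_, rfl⟩
  obtain ⟨X, hX⟩ : ∃ X : Matrix (Fin n) (Fin n) F,
      X = (x : Matrix (Fin n) (Fin n) F) := ⟨_, rfl⟩
  rw [← hP', ← hPm] at hPP1 hPP2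
  rw [← hP', ← hPm, ← hX] at hcoe
  rw [← hX] at h1 h2 hx1
  have e : P' * X * Pm * P' = P' * X := by rw [mul_assoc (P' * X), hPP1, mul_one]
  have a1 : ((Matrix.SpecialLinearGroup.toGL (P⁻¹ * x * P) : GL (Fin n) F) :
      Matrix (Fin n) (Fin n) F) *ᵥ (P' *ᵥ u₁) = (1 : F) • (P' *ᵥ u₁) := by
    rw [hcoe, Matrix.mulVec_mulVec, one_smul, e, ← Matrix.mulVec_mulVec, h1]
  have a2 : ((Matrix.SpecialLinearGroup.toGL (P⁻¹ * x * P) : GL (Fin n) F) :
      Matrix (Fin n) (Fin n) F) *ᵥ (P' *ᵥ u₂) = (1 : F) • (P' *ᵥ u₂) := by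
    rw [hcoe, Matrix.mulVec_mulVec, one_smul, e, ← Matrix.mulVec_mulVec, h2]
  have hback : ∀ u : Fin n → F, Pm *ᵥ (P' *ᵥ u) = u := by
    intro u
    rw [Matrix.mulVec_mulVec, hPP1, Matrix.one_mulVec]
  have a3 : P' *ᵥ u₁ ≠ 0 := by
    intro h0
    apply hu₁
    rw [← hback u₁, h0, Matrix.mulVec_zero]
  have a4 : ∀ c : F, P' *ᵥ u₂ ≠ c • (P' *ᵥ u₁) := by
    intro c hc
    apply hind c
    rw [← hback u₂, hc, Matrix.mulVec_smul, hback]
  have hg := eigen2 hnp K hK _ hP 1 (P' *ᵥ u₁) (P' *ᵥ u₂) a1 a2 a3 a4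
  rw [hcoe, one_smul] at hg
  apply hx1
  calc X = (Pm * P') * X * (Pm * P') := by rw [hPP1, one_mul, mul_one]
    _ = Pm * (P' * X * Pm) * P' := by simp only [mul_assoc]
    _ = 1 := by rw [hg, mul_one, hPP1]

theorem exB [Fintype F] (r : ℕ) [Fact r.Prime] (hr5 : 5 ≤ r) (hrq : ¬ r ∣ Fintype.card F)
    (hd : orderOf ((Fintype.card F : ℕ) : ZMod r) ≠ r - 1) :
    ∃ m₀ e : ℕ, r = m₀ + e ∧ 2 ≤ e ∧ ∃ B : Matrix (Fin m₀) (Fin m₀) F,
      B ^ r = 1 ∧ B.det = 1 ∧ B ≠ 1 := by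
  classical
  obtain ⟨q, hq⟩ : ∃ q : ℕ, q = Fintype.card F := ⟨_, rfl⟩
  rw [← hq] at hrq hd
  have hq2 : 2 ≤ q := by rw [hq]; exact Fintype.one_lt_card
  have hq0 : ((q : ℕ) : ZMod r) ≠ 0 := by
    intro h
    exact hrq ((ZMod.natCast_eq_zero_iff q r).1 h)
  have hferm : ((q : ℕ) : ZMod r) ^ (r - 1) = 1 := ZMod.pow_card_sub_one_eq_one hq0
  obtain ⟨d, hdd⟩ : ∃ d : ℕ, d = orderOf ((q : ℕ) : ZMod r) := ⟨_, rfl⟩
  rw [← hdd] at hd
  have hdr : d ∣ r - 1 := by rw [hdd]; exact orderOf_dvd_of_pow_eq_one hferm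
  have hd0 : 0 < d := by
    rcases Nat.eq_zero_or_pos d with h | h
    · rw [h] at hdr
      have := Nat.eq_zero_of_zero_dvd hdr
      omega
    · exact h
  have hdle : d ≤ r - 1 := Nat.le_of_dvd (by omega) hdr
  have hdpow : ((q : ℕ) : ZMod r) ^ d = 1 := by rw [hdd]; exact pow_orderOf_eq_one _
  have hrdvd : r ∣ q ^ d - 1 := by
    have h1 : ((q ^ d : ℕ) : ZMod r) = ((1 : ℕ) : ZMod r) := by
      push_cast
      exact hdpow
    have h2 := (ZMod.natCast_eq_natCast_iff _ _ _).1 h1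
    exact (Nat.modEq_iff_dvd' (Nat.one_le_pow _ _ (by omega))).1 h2.symm
  by_cases hd1 : d = 1
  · rw [hd1, pow_one] at hrdvd
    obtain ⟨j, hj⟩ := hrdvd
    obtain ⟨γ, hγ0, hγo, -⟩ := S2670.exists_gen F
    rw [← hq] at hγo
    have hj0 : 0 < j := by
      rcases Nat.eq_zero_or_pos j with h | h
      · rw [h, mul_zero] at hj
        omega
      · exact h
    have hζr : (γ ^ j) ^ r = 1 := by
      rw [← pow_mul, mul_comm, ← hj, ← hγo, pow_orderOf_eq_one]
    have hζ1 : γ ^ j ≠ 1 := by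
      intro h
      have h7 := orderOf_dvd_of_pow_eq_one h
      rw [hγo, hj] at h7
      have h8 := Nat.le_of_dvd hj0 h7
      have : 5 * j ≤ r * j := Nat.mul_le_mul_right j hr5
      omega
    have hζ0 : γ ^ j ≠ 0 := pow_ne_zero j hγ0
    refine ⟨2, r - 2, by omega, by omega, Matrix.diagonal ![γ ^ j, (γ ^ j)⁻¹], ?_, ?_, ?_⟩
    · rw [Matrix.diagonal_pow, ← Matrix.diagonal_one]
      congr 1
      funext i
      fin_cases i
      · show (γ ^ j) ^ r = 1
        exact hζr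
      · show ((γ ^ j)⁻¹) ^ r = 1
        rw [inv_pow, hζr, inv_one]
    · rw [Matrix.det_diagonal, Fin.prod_univ_two]
      show γ ^ j * (γ ^ j)⁻¹ = 1
      exact mul_inv_cancel₀ hζ0
    · intro h
      have h1 := congrFun (congrFun h 0) 0
      rw [Matrix.diagonal_apply_eq, Matrix.one_apply_eq] at h1
      exact hζ1 h1
  · have hd2 : 2 ≤ d := by omega
    have hdr2 : d ≤ r - 2 := by omega
    have hnoroot : ∀ c : F, c ^ r = 1 → c = 1 := by
      intro c hc
      have hc0 : c ≠ 0 := by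
        rintro rfl
        rw [zero_pow (by omega)] at hc
        exact zero_ne_one hc
      have h1 := FiniteField.pow_card_sub_one_eq_one c hc0
      rw [← hq] at h1
      have ho1 : orderOf c ∣ r := orderOf_dvd_of_pow_eq_one hc
      have ho2 : orderOf c ∣ q - 1 := orderOf_dvd_of_pow_eq_one h1
      rcases (Nat.dvd_prime (Fact.out : r.Prime)).1 ho1 with h | h
      · exact orderOf_eq_one_iff.1 h
      · exfalso
        rw [h] at ho2
        apply hd1
        have h3 : ((q : ℕ) : ZMod r) = 1 := by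
          have h4 : ((q - 1 : ℕ) : ZMod r) = 0 := (ZMod.natCast_eq_zero_iff _ _).2 ho2
          rw [Nat.cast_sub (by omega), Nat.cast_one, sub_eq_zero] at h4
          exact h4
        rw [hdd, h3, orderOf_one]
    haveI : Fintype (GL (Fin d) F) := Fintype.ofFinite _
    have hcard : r ∣ Fintype.card (GL (Fin d) F) := by
      rw [← Nat.card_eq_fintype_card, Matrix.card_GL_field, ← hq]
      have h0 : (⟨0, hd0⟩ : Fin d) ∈ (Finset.univ : Finset (Fin d)) := Finset.mem_univ _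
      refine dvd_trans ?_ (Finset.dvd_prod_of_mem (fun i : Fin d => q ^ d - q ^ (i : ℕ)) h0)
      show r ∣ q ^ d - q ^ 0
      rw [pow_zero]
      exact hrdvd
    obtain ⟨Bu, hBu⟩ := exists_prime_orderOf_dvd_card r hcard
    have hBr : (Bu : Matrix (Fin d) (Fin d) F) ^ r = 1 := by
      have h5 : Bu ^ r = 1 := by rw [← hBu]; exact pow_orderOf_eq_one Bu
      rw [← Units.val_pow_eq_pow_val, h5, Units.val_one]
    refine ⟨d, r - d, by omega, by omega, (Bu : Matrix (Fin d) (Fin d) F), hBr, ?_, ?_⟩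
    · apply hnoroot
      rw [← Matrix.det_pow, hBr, Matrix.det_one]
    · intro h
      have h1 : Bu = 1 := Units.ext h
      rw [h1, orderOf_one] at hBu
      have := (Fact.out : r.Prime).one_lt
      omega

end Blocks

section NF
open Matrix
variable {F : Type*} [Field F]

theorem count_fix [Fintype F] (r : ℕ) [Fact r.Prime] {n : ℕ} (G : Matrix (Fin n) (Fin n) F)
    (hG : G ^ r = 1) (W : Submodule F (Fin n → F)) (hinv : ∀ u ∈ W, G *ᵥ u ∈ W)
    (hfix : ∀ u ∈ W, G *ᵥ u = u → u = 0) :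
    ((Fintype.card F : ℕ) : ZMod r) ^ (Module.finrank F W) = 1 := by
  classical
  haveI : Fintype ↥W := Fintype.ofFinite ↥W
  obtain ⟨f, hf⟩ : ∃ f : Function.End ↥W, ∀ u : ↥W, (f u : Fin n → F) = G *ᵥ (u : Fin n → F) :=
    ⟨fun u => ⟨G *ᵥ (u : Fin n → F), hinv _ u.2⟩, fun u => rfl⟩
  have hpow : ∀ k : ℕ, ∀ u : ↥W, (((f ^ k : Function.End ↥W) u : ↥W) : Fin n → F)
      = (G ^ k) *ᵥ (u : Fin n → F) := by
    intro k
    induction k with
    | zero =>
      intro u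
      rw [pow_zero, pow_zero, Matrix.one_mulVec]
      rfl
    | succ k ih =>
      intro u
      rw [pow_succ' f k]
      show ((f ((f ^ k : Function.End ↥W) u) : ↥W) : Fin n → F) = _
      rw [hf, ih, Matrix.mulVec_mulVec, ← pow_succ']
  have hfr : f ^ r ^ 1 = 1 := by
    rw [pow_one]
    funext u
    apply Subtype.ext
    rw [hpow, hG, Matrix.one_mulVec]
    rfl
  have hmod := Equiv.Perm.card_fixedPoints_modEq (f := f) (p := r) (n := 1) hfr
  have hfp : ∀ (inst : Fintype (Function.fixedPoints f)), @Fintype.card _ inst = 1 := by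
    intro inst
    rw [Fintype.card_eq_one_iff]
    refine ⟨⟨0, ?_⟩, ?_⟩
    · show f 0 = 0
      apply Subtype.ext
      rw [hf]
      simp
    · rintro ⟨u, hu⟩
      apply Subtype.ext
      show u = 0
      apply Subtype.ext
      have h1 : f u = u := hu
      have h2 := congrArg Subtype.val h1
      rw [hf] at h2
      exact hfix _ u.2 h2
  have hc : ∀ (inst : Fintype ↥W), @Fintype.card _ inst
      = Fintype.card F ^ Module.finrank F ↥W := by
    intro inst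
    exact Module.card_eq_pow_finrank
  rw [hfp, hc] at hmod
  have h3 := (ZMod.natCast_eq_natCast_iff _ _ _).2 hmod
  push_cast at h3
  exact h3

theorem nfR [Fintype F] (m : ℕ) [Fact (m + 1).Prime] (hm : 2 ≤ m)
    (hord : orderOf ((Fintype.card F : ℕ) : ZMod (m + 1)) = m)
    (hr0 : ((m + 1 : ℕ) : F) ≠ 0)
    (G : Matrix (Fin (m + 1)) (Fin (m + 1)) F) (hG : G ^ (m + 1) = 1) (hG1 : G ≠ 1) :
    ∃ γ : Module.Basis (Fin (m + 1)) F (Fin (m + 1) → F), ∃ (f w : Fin (m + 1) → F),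
      (⇑γ = Fin.cons f (fun i : Fin m => (G ^ (i : ℕ)) *ᵥ w)) ∧ G *ᵥ f = f ∧
      (G ^ m) *ᵥ w = -∑ i : Fin m, (G ^ (i : ℕ)) *ᵥ w := by
  classical
  obtain ⟨T, hT⟩ : ∃ T : Matrix (Fin (m + 1)) (Fin (m + 1)) F,
      T = ∑ i ∈ Finset.range (m + 1), G ^ i := ⟨_, rfl⟩
  have hTG1 : T * (G - 1) = 0 := by
    rw [hT, geom_sum_mul, hG, sub_self]
  have hGT1 : (G - 1) * T = 0 := by
    rw [hT, mul_geom_sum, hG, sub_self]
  have hTG : T * G = T := by
    have h := hTG1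
    rw [mul_sub, mul_one, sub_eq_zero] at h
    exact h
  have hGT : G * T = T := by
    have h := hGT1
    rw [sub_mul, one_mul, sub_eq_zero] at h
    exact h
  have hTGk : ∀ k : ℕ, T * G ^ k = T := by
    intro k
    induction k with
    | zero => rw [pow_zero, mul_one]
    | succ k ih => rw [pow_succ, ← mul_assoc, ih, hTG]
  have hTv : ∀ u : Fin (m + 1) → F, T *ᵥ u = ∑ i ∈ Finset.range (m + 1), (G ^ i) *ᵥ u := by
    intro u
    rw [hT, Matrix.sum_mulVec]
  obtain ⟨v₁, hv₁⟩ : ∃ v₁ : Fin (m + 1) → F, G *ᵥ v₁ ≠ v₁ := by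
    by_contra hcon
    push_neg at hcon
    apply hG1
    apply S5971.mat_ext_vec
    intro v
    rw [hcon v, Matrix.one_mulVec]
  obtain ⟨w, hw⟩ : ∃ w : Fin (m + 1) → F, w = G *ᵥ v₁ - v₁ := ⟨_, rfl⟩
  have hw0 : w ≠ 0 := by
    rw [hw]
    exact sub_ne_zero.2 hv₁
  have hTw : T *ᵥ w = 0 := by
    rw [hw, Matrix.mulVec_sub, Matrix.mulVec_mulVec, hTG, sub_self]
  have hrel : (G ^ m) *ᵥ w = -∑ i : Fin m, (G ^ (i : ℕ)) *ᵥ w := by
    have h := hTw
    rw [hTv, Finset.sum_range_succ, Finset.sum_range (fun i => (G ^ i) *ᵥ w)] at h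
    exact eq_neg_of_add_eq_zero_right h
  obtain ⟨gen, hgen⟩ : ∃ gen : Fin m → (Fin (m + 1) → F),
      gen = fun i : Fin m => (G ^ (i : ℕ)) *ᵥ w := ⟨_, rfl⟩
  have hgenv : ∀ i : Fin m, gen i = (G ^ (i : ℕ)) *ᵥ w := fun i => by rw [hgen]
  obtain ⟨W', hW'⟩ : ∃ W' : Submodule F (Fin (m + 1) → F),
      W' = Submodule.span F (Set.range gen) := ⟨_, rfl⟩
  have hgenW : ∀ i : Fin m, gen i ∈ W' := fun i => by
    rw [hW']
    exact Submodule.subset_span ⟨i, rfl⟩
  have hGmW : (G ^ m) *ᵥ w ∈ W' := by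
    rw [hrel]
    apply W'.neg_mem
    apply W'.sum_mem
    intro i _
    have h := hgenW i
    rw [hgenv] at h
    exact h
  have hinv : ∀ u ∈ W', G *ᵥ u ∈ W' := by
    intro u hu
    have h1 : Submodule.map (Matrix.toLin' G) W' ≤ W' := by
      rw [hW', Submodule.map_span_le]
      rintro _ ⟨i, rfl⟩
      rw [← hW', Matrix.toLin'_apply, hgenv, Matrix.mulVec_mulVec, ← pow_succ']
      by_cases hi : (i : ℕ) + 1 < m
      · have h := hgenW ⟨(i : ℕ) + 1, hi⟩
        rw [hgenv] at h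
        exact h
      · have hi' : (i : ℕ) + 1 = m := by
          have := i.2
          omega
        rw [hi']
        exact hGmW
    have h2 : Matrix.toLin' G u ∈ Submodule.map (Matrix.toLin' G) W' :=
      Submodule.mem_map_of_mem hu
    have h3 := h1 h2
    rw [Matrix.toLin'_apply] at h3
    exact h3
  have hTW : ∀ u ∈ W', T *ᵥ u = 0 := by
    intro u hu
    have h1 : W' ≤ LinearMap.ker (Matrix.toLin' T) := by
      rw [hW', Submodule.span_le]
      rintro _ ⟨i, rfl⟩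
      rw [SetLike.mem_coe, LinearMap.mem_ker, Matrix.toLin'_apply, hgenv, Matrix.mulVec_mulVec,
        hTGk, hTw]
    have h2 := h1 hu
    rw [LinearMap.mem_ker, Matrix.toLin'_apply] at h2
    exact h2
  have hGk_fix : ∀ (u : Fin (m + 1) → F), G *ᵥ u = u → ∀ k : ℕ, (G ^ k) *ᵥ u = u := by
    intro u hu k
    induction k with
    | zero => rw [pow_zero, Matrix.one_mulVec]
    | succ k ih => rw [pow_succ, ← Matrix.mulVec_mulVec, hu, ih]
  have hTfix : ∀ (u : Fin (m + 1) → F), G *ᵥ u = u → T *ᵥ u = ((m + 1 : ℕ) : F) • u := by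
    intro u hu
    rw [hTv, Finset.sum_congr rfl (fun i _ => hGk_fix u hu i), Finset.sum_const,
      Finset.card_range, Nat.cast_smul_eq_nsmul F]
  have hfixW : ∀ u ∈ W', G *ᵥ u = u → u = 0 := by
    intro u hu hGu
    have h1 := hTfix u hGu
    rw [hTW u hu] at h1
    rcases smul_eq_zero.1 h1.symm with h2 | h2
    · exact absurd h2 hr0
    · exact h2
  have hcf := count_fix (m + 1) G hG W' hinv hfixW
  have hdvd : m ∣ Module.finrank F ↥W' := by
    have h := orderOf_dvd_of_pow_eq_one hcf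
    rw [hord] at h
    exact h
  have hle : Module.finrank F ↥W' ≤ m := by
    have h := finrank_range_le_card (R := F) gen
    rw [Fintype.card_fin] at h
    rw [hW']
    exact h
  have hwW : w ∈ W' := by
    have h := hgenW ⟨0, by omega⟩
    rw [hgenv] at h
    simpa using h
  have hpos : 0 < Module.finrank F ↥W' := by
    rw [Module.finrank_pos_iff_exists_ne_zero]
    exact ⟨⟨w, hwW⟩, fun h => hw0 (congrArg Subtype.val h)⟩
  have hfr : Module.finrank F ↥W' = m := Nat.le_antisymm hle (Nat.le_of_dvd hpos hdvd)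
  have hfr' : Module.finrank F ↥(Submodule.span F (Set.range gen)) = m := by
    rw [← hW']
    exact hfr
  have hli : LinearIndependent F gen := by
    rw [linearIndependent_iff_card_eq_finrank_span, Fintype.card_fin]
    exact hfr'.symm
  have hT0 : T ≠ 0 := by
    intro hT0
    have h1 := count_fix (m + 1) G hG ⊤ (fun u _ => Submodule.mem_top) (fun u _ hGu => by
      have h2 := hTfix u hGu
      rw [hT0, Matrix.zero_mulVec] at h2
      rcases smul_eq_zero.1 h2.symm with h3 | h3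
      · exact absurd h3 hr0
      · exact h3)
    have h4 := orderOf_dvd_of_pow_eq_one h1
    rw [hord, finrank_top, Module.finrank_fin_fun F] at h4
    have h5 : m ∣ 1 := (Nat.dvd_add_right (dvd_refl m)).1 h4
    have := Nat.le_of_dvd Nat.one_pos h5
    omega
  obtain ⟨u₀, hu₀⟩ : ∃ u₀ : Fin (m + 1) → F, T *ᵥ u₀ ≠ 0 := by
    by_contra hcon
    push_neg at hcon
    apply hT0
    apply S5971.mat_ext_vec
    intro v
    rw [hcon v, Matrix.zero_mulVec]
  obtain ⟨f, hf⟩ : ∃ f : Fin (m + 1) → F, f = T *ᵥ u₀ := ⟨_, rfl⟩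
  have hGf : G *ᵥ f = f := by rw [hf, Matrix.mulVec_mulVec, hGT]
  have hf0 : f ≠ 0 := by
    rw [hf]
    exact hu₀
  have hfW : f ∉ Submodule.span F (Set.range gen) := by
    rw [← hW']
    intro hfW
    exact hf0 (hfixW f hfW hGf)
  have hli' : LinearIndependent F (Fin.cons f gen : Fin (m + 1) → (Fin (m + 1) → F)) :=
    linearIndependent_finCons.2 ⟨hli, hfW⟩
  have hcard : Fintype.card (Fin (m + 1)) = Module.finrank F (Fin (m + 1) → F) := by
    rw [Module.finrank_fin_fun F, Fintype.card_fin]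
  refine ⟨basisOfLinearIndependentOfCardEqFinrank hli' hcard, f, w, ?_, hGf, hrel⟩
  rw [coe_basisOfLinearIndependentOfCardEqFinrank, hgen]

theorem conjR (m : ℕ) (X G : Matrix (Fin (m + 1)) (Fin (m + 1)) F)
    (γ β : Module.Basis (Fin (m + 1)) F (Fin (m + 1) → F))
    (f w f' w' : Fin (m + 1) → F)
    (hγ : ⇑γ = Fin.cons f (fun i : Fin m => (X ^ (i : ℕ)) *ᵥ w))
    (hXf : X *ᵥ f = f) (hXw : (X ^ m) *ᵥ w = -∑ i : Fin m, (X ^ (i : ℕ)) *ᵥ w)
    (hβ : ⇑β = Fin.cons f' (fun i : Fin m => (G ^ (i : ℕ)) *ᵥ w'))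
    (hGf : G *ᵥ f' = f') (hGw : (G ^ m) *ᵥ w' = -∑ i : Fin m, (G ^ (i : ℕ)) *ᵥ w') :
    ∃ Q : GL (Fin (m + 1)) F,
      (Q : Matrix (Fin (m + 1)) (Fin (m + 1)) F) * X
        = G * (Q : Matrix (Fin (m + 1)) (Fin (m + 1)) F) := by
  obtain ⟨φ, hφ⟩ : ∃ φ : (Fin (m + 1) → F) ≃ₗ[F] (Fin (m + 1) → F), ∀ j, φ (γ j) = β j :=
    ⟨γ.equiv β (Equiv.refl _), fun j => by simp [Module.Basis.equiv_apply]⟩
  have hγ0 : γ 0 = f := by rw [hγ, Fin.cons_zero]
  have hβ0 : β 0 = f' := by rw [hβ, Fin.cons_zero]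
  have hγs : ∀ i : Fin m, γ i.succ = (X ^ (i : ℕ)) *ᵥ w := fun i => by rw [hγ, Fin.cons_succ]
  have hβs : ∀ i : Fin m, β i.succ = (G ^ (i : ℕ)) *ᵥ w' := fun i => by rw [hβ, Fin.cons_succ]
  have hφ0 : φ f = f' := by
    have h := hφ 0
    rw [hγ0, hβ0] at h
    exact h
  have hφs : ∀ i : Fin m, φ ((X ^ (i : ℕ)) *ᵥ w) = (G ^ (i : ℕ)) *ᵥ w' := by
    intro i
    have h := hφ i.succ
    rw [hγs, hβs] at h
    exact h
  have hφm : φ ((X ^ m) *ᵥ w) = (G ^ m) *ᵥ w' := by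
    rw [hXw, hGw, map_neg, map_sum]
    congr 1
    exact Finset.sum_congr rfl (fun i _ => hφs i)
  apply S2577.conj_of_equiv X G φ
  have hlin : (φ : (Fin (m + 1) → F) →ₗ[F] (Fin (m + 1) → F)) ∘ₗ Matrix.toLin' X
      = Matrix.toLin' G ∘ₗ (φ : (Fin (m + 1) → F) →ₗ[F] (Fin (m + 1) → F)) := by
    apply γ.ext
    intro j
    simp only [LinearMap.comp_apply, Matrix.toLin'_apply, LinearEquiv.coe_coe]
    refine Fin.cases ?_ (fun i => ?_) j
    · rw [hγ0, hXf, hφ0, hGf]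
    · rw [hγs, hφs, Matrix.mulVec_mulVec, Matrix.mulVec_mulVec, ← pow_succ', ← pow_succ']
      by_cases hlt : (i : ℕ) + 1 < m
      · exact hφs ⟨(i : ℕ) + 1, hlt⟩
      · have hi' : (i : ℕ) + 1 = m := by
          have := i.2
          omega
        rw [hi']
        exact hφm
  intro v
  exact LinearMap.congr_fun hlin v

end NF


/-- Elements of order `n` of PSL_n(q), `n` prime, and the normalizer of a Singer cycle. Here `T = PSL_n(F)` for a field `F` with `q = p^f` elements (`n ≥ 2`, `(n, q) ≠ (2, 2), (2, 3)`), `k` is a prime dividing `n`, `K` is a subalgebra of the `n × n` matrices that is a field of degree `k` over `F` (an extension-field structure F_{q^k} on `F^n`), and `H` is the subgroup of matrices of determinant 1 normalizing `K` — a subgroup of type GL_{n/k}(q^k) (maximal except in some small cases; maximality is not assumed); Ω is the set of cosets of `H` in `T`, so an element of `T` of prime order `r` (a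 matrix `x` of determinant 1 with `x^r` scalar, `x` not scalar) fixes a point of Ω when some conjugate of `x` by a matrix of determinant 1 normalizes `K`. Take `k = n > 3` prime with `n ≠ p` (so `H` is the normalizer of a Singer cycle), and suppose `n` divides the index of `H`. Then every element of `T` of order `n` is conjugate in `T` into `H` if and only if the multiplicative order of `q` modulo `n` is `n − 1`. -/
theorem result {F : Type*} [Field F] [Fintype F] {p : ℕ} [Fact p.Prime] [CharP F p] {q : ℕ} (hq : Fintype.card F = q)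
    (n : ℕ) (hn : 2 ≤ n) (hT : (n, q) ≠ (2, 2) ∧ (n, q) ≠ (2, 3))
    (k : ℕ) (hk : k.Prime) (hkn : k ∣ n) (K : Subalgebra F (Matrix (Fin n) (Fin n) F)) (hK : Cfsg.Geo.IsFieldSubalgebra k K) (hkn' : k = n) (hn3 : 3 < n) (hnp : n ≠ p) (hΩ : n ∣ ((Cfsg.Geo.subalgebraNormalizer K).comap (Matrix.SpecialLinearGroup.toGL : Matrix.SpecialLinearGroup (Fin n) F →* GL (Fin n) F)).index) :
    (∀ x : Matrix.SpecialLinearGroup (Fin n) F,
      (∃ z : F, ((x ^ n : Matrix.SpecialLinearGroup (Fin n) F) : Matrix (Fin n) (Fin n) F) = z • (1 : Matrix (Fin n) (Fin n) F)) →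
      (∀ z : F, (x : Matrix (Fin n) (Fin n) F) ≠ z • (1 : Matrix (Fin n) (Fin n) F)) →
      ∃ P : Matrix.SpecialLinearGroup (Fin n) F, P⁻¹ * x * P ∈ ((Cfsg.Geo.subalgebraNormalizer K).comap (Matrix.SpecialLinearGroup.toGL : Matrix.SpecialLinearGroup (Fin n) F →* GL (Fin n) F))) ↔
    orderOf (q : ZMod n) = n - 1 := by
  subst hq
  subst k
  classical
  haveI : Fact n.Prime := ⟨hk⟩
  have hrq : ¬ n ∣ Fintype.card F := by
    obtain ⟨a, ha⟩ := FiniteField.card F p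
    rw [ha.2]
    intro hdvd
    have h1 := hk.dvd_of_dvd_pow hdvd
    exact hnp ((Nat.prime_dvd_prime_iff_eq hk (Fact.out : p.Prime)).1 h1)
  have hn5 : 5 ≤ n := by
    by_contra h
    have h4 : n = 4 := by omega
    rw [h4] at hk
    exact absurd hk (by norm_num)
  constructor
  · intro hall
    by_contra hcon
    obtain ⟨m₀, e, hne, he2, B, hBr, hBdet, hB1⟩ := exB n hn5 hrq hcon
    subst hne
    obtain ⟨x, hxpow, hx1, u₁, u₂, h1, h2, hu₁, hind⟩ := bad_block m₀ e he2 B hBr hBdet hB1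
    refine derangeR hk K hK x hx1 u₁ u₂ h1 h2 hu₁ hind (hall x ⟨1, ?_⟩ ?_)
    · rw [Matrix.SpecialLinearGroup.coe_pow, hxpow, one_smul]
    · intro z hz
      apply hx1
      have h3 := h1
      rw [hz, Matrix.smul_mulVec, Matrix.one_mulVec] at h3
      have hz1 : z = 1 := by
        have h4 : (z - 1) • u₁ = 0 := by rw [sub_smul, h3, one_smul, sub_self]
        rcases smul_eq_zero.1 h4 with h5 | h5
        · exact sub_eq_zero.1 h5
        · exact absurd h5 hu₁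
      rw [hz, hz1, one_smul]
  · intro hord x hxn hxns
    obtain ⟨z, hz⟩ := hxn
    rw [Matrix.SpecialLinearGroup.coe_pow] at hz
    obtain ⟨X, hX⟩ : ∃ X : Matrix (Fin n) (Fin n) F, X = (x : Matrix (Fin n) (Fin n) F) :=
      ⟨_, rfl⟩
    rw [← hX] at hz hxns
    have hXdet : X.det = 1 := by
      rw [hX]
      exact x.det_coe
    obtain ⟨m, rfl⟩ : ∃ m, n = m + 1 := ⟨n - 1, by omega⟩
    rw [Nat.add_sub_cancel] at hord
    have hroot : ∀ c : F, c ^ (m + 1) = 1 → c = 1 := by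
      intro c hc
      have hc0 : c ≠ 0 := by
        rintro rfl
        rw [zero_pow (by omega)] at hc
        exact zero_ne_one hc
      have h1 : orderOf c ∣ m + 1 := orderOf_dvd_of_pow_eq_one hc
      rcases (Nat.dvd_prime hk).1 h1 with h2 | h2
      · exact orderOf_eq_one_iff.1 h2
      · exfalso
        have h3 : orderOf c ∣ Fintype.card F - 1 :=
          orderOf_dvd_of_pow_eq_one (FiniteField.pow_card_sub_one_eq_one c hc0)
        rw [h2] at h3
        have h4 : ((Fintype.card F : ℕ) : ZMod (m + 1)) = 1 := by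
          have h5 : ((Fintype.card F - 1 : ℕ) : ZMod (m + 1)) = 0 :=
            (ZMod.natCast_eq_zero_iff _ _).2 h3
          have h6 : 1 ≤ Fintype.card F := Fintype.card_pos
          rw [Nat.cast_sub h6, Nat.cast_one, sub_eq_zero] at h5
          exact h5
        rw [h4, orderOf_one] at hord
        omega
    have hsurj : ∀ a : F, ∃ c : F, c ^ (m + 1) = a := by
      have hinj : Function.Injective (fun c : F => c ^ (m + 1)) := by
        intro a b hab
        have hab' : a ^ (m + 1) = b ^ (m + 1) := hab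
        by_cases hb : b = 0
        · rw [hb, zero_pow (by omega)] at hab'
          rw [hb]
          exact (pow_eq_zero_iff (Nat.succ_ne_zero m)).1 hab'
        · have h1 : (a / b) ^ (m + 1) = 1 := by
            rw [div_pow, hab', div_self (pow_ne_zero _ hb)]
          have h2 := hroot _ h1
          exact (div_eq_one_iff_eq hb).1 h2
      intro a
      exact (Finite.injective_iff_surjective.1 hinj) a
    have hz1 : z = 1 := by
      apply hroot
      have h1 := congrArg Matrix.det hz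
      rw [Matrix.det_pow, hXdet, one_pow, Matrix.det_smul, Matrix.det_one, mul_one,
        Fintype.card_fin] at h1
      exact h1.symm
    rw [hz1, one_smul] at hz
    have hX1 : X ≠ 1 := fun h => hxns 1 (by rw [h, one_smul])
    have hr0 : ((m + 1 : ℕ) : F) ≠ 0 := by
      intro h0
      have h1 := (CharP.cast_eq_zero_iff F p (m + 1)).1 h0
      exact hnp ((Nat.prime_dvd_prime_iff_eq (Fact.out : p.Prime) hk).1 h1).symm
    obtain ⟨g, hgN, hgn, hgns⟩ := sigmaN (p := p) hn K hK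
    have hg1 : (g : Matrix (Fin (m + 1)) (Fin (m + 1)) F) ≠ 1 :=
      fun h => hgns 1 (by rw [h, one_smul])
    have hm2 : 2 ≤ m := by omega
    obtain ⟨γ, f, w, hγ, hXf, hXw⟩ := nfR m hm2 hord hr0 X hz hX1
    obtain ⟨β, f', w', hβ, hGf, hGw⟩ :=
      nfR m hm2 hord hr0 (g : Matrix (Fin (m + 1)) (Fin (m + 1)) F) hgn hg1
    obtain ⟨Q₀, hQ₀⟩ := conjR m X (g : Matrix (Fin (m + 1)) (Fin (m + 1)) F) γ β f w f' w'
      hγ hXf hXw hβ hGf hGw
    have hdQ0 : (Q₀ : Matrix (Fin (m + 1)) (Fin (m + 1)) F).det ≠ 0 := by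
      have h1 : ((Q₀⁻¹ : GL (Fin (m + 1)) F) : Matrix (Fin (m + 1)) (Fin (m + 1)) F).det
          * (Q₀ : Matrix (Fin (m + 1)) (Fin (m + 1)) F).det = 1 := by
        rw [← Matrix.det_mul, Units.inv_mul, Matrix.det_one]
      intro h0
      rw [h0, mul_zero] at h1
      exact zero_ne_one h1
    obtain ⟨μ, hμ⟩ := hsurj ((Q₀ : Matrix (Fin (m + 1)) (Fin (m + 1)) F).det)⁻¹
    have hμ0 : μ ≠ 0 := by
      rintro rfl
      rw [zero_pow (by omega)] at hμ
      exact inv_ne_zero hdQ0 hμ.symm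
    obtain ⟨u, hu, -⟩ := scalar_mem_N K μ hμ0
    have hQv : ((u * Q₀ : GL (Fin (m + 1)) F) : Matrix (Fin (m + 1)) (Fin (m + 1)) F)
        = μ • (Q₀ : Matrix (Fin (m + 1)) (Fin (m + 1)) F) := by
      rw [Units.val_mul, hu, smul_mul_assoc, one_mul]
    refine S5971.sl_of_gl1 K x (u * Q₀) g ?_ hgN ?_
    · rw [hQv, Matrix.det_smul, Fintype.card_fin, hμ, inv_mul_cancel₀ hdQ0]
    · rw [hQv, ← hX, smul_mul_assoc, hQ₀, mul_smul_comm]

end Cfsg.Agent.S5970
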