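import Cfsg.Statements.S5983
import Mathlib
import Cfsg.Agent.Helper13.SpQ7
import Cfsg.Agent.Helper15.SpQa
import Cfsg.Agent.Helper20.SpQb
import Cfsg.Agent.Helper4.SpQd
import Cfsg.Agent.Helper18.SpQc
import Cfsg.Agent.Helper9.SpQe1
-- import your own Cfsg.Agent.* helpers here

set_option autoImplicit false
open scoped MatrixGroups
open Cfsg

namespace Cfsg.Agent.S5983

open Matrix

theorem scalar_mem_sim {F : Type*} [Field F] {d : ℕ} (hd : 0 < d)
    (Q : (Fin d ⊕ Fin d → F) → F)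
    (hsm : ∀ (c : F) (v : Fin d ⊕ Fin d → F), Q (c • v) = c ^ 2 * Q v)
    (x : GL (Fin d ⊕ Fin d) F) (z : F)
    (hz : (x : Matrix (Fin d ⊕ Fin d) (Fin d ⊕ Fin d) F) = z • 1) :
    x ∈ Cfsg.Geo.quadSimilarityGroup Q := by
  have hz0 : z ≠ 0 := by
    intro hz0
    have hxx : (x : Matrix (Fin d ⊕ Fin d) (Fin d ⊕ Fin d) F)
        * ((x⁻¹ : GL (Fin d ⊕ Fin d) F) : Matrix (Fin d ⊕ Fin d) (Fin d ⊕ Fin d) F) = 1 := by
      rw [← Units.val_mul, mul_inv_cancel, Units.val_one]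
    rw [hz, hz0, zero_smul, zero_mul] at hxx
    have h1 := congrFun (congrFun hxx (Sum.inl ⟨0, hd⟩)) (Sum.inl ⟨0, hd⟩)
    rw [Matrix.zero_apply, Matrix.one_apply_eq] at h1
    exact zero_ne_one h1
  refine ⟨Units.mk0 (z ^ 2) (pow_ne_zero 2 hz0), fun v => ?_⟩
  rw [hz, Matrix.smul_mulVec, Matrix.one_mulVec, hsm, Units.val_mk0]


/-- Elements of prime order of PSp_n(q), q even, and the subgroups of orthogonal type. Here `T = Sp_{2d}(F)` for a field `F` of characteristic 2 with `q` elements (`d ≥ 2`, `(d, q) ≠ (2, 2)`), realised as the invertible matrices preserving the standard alternating form; `Q` is a non-degenerate quadratic form on `F^{2d}` whose polar form is that alternating form, and `H` is the subgroup of `T` preserving `Q` up to a scalar (equivalently preserving `Q`) — a subgroup of type O^±_{2d}(q) (maximality is not assumed); `Q` is of plus type when `F^{2d}` contains a `d`-dimensional subspace on which `Q` vanishes, of minus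 type otherwise. Ω is the set of cosets of `H` in `T`, so an element of `T` of prime order `r` (`x ∈ T` with `x^r` scalar, `x` not scalar) fixes a point of Ω exactly when some `T`-conjugate of `x` preserves `Q`. Let `r` be a prime dividing the index of `H`. Then every element of `T` of order `r` fixes a point of Ω if and only if `r = 2` and either `Q` is of plus type or `d` is odd. -/
theorem result {F : Type*} [Field F] [Fintype F] {p : ℕ} [Fact p.Prime] [CharP F p] {q : ℕ} (hq : Fintype.card F = q)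
    (hp : p = 2) (d : ℕ) (hd : 2 ≤ d) (hT : (d, q) ≠ (2, 2)) (Q : (Fin d ⊕ Fin d → F) → F) (hQ : Cfsg.Geo.IsNondegenerateQuadraticForm Q)
    (hQf : ∀ u v, QuadraticMap.polar Q u v = Cfsg.sympForm d F u v)
    (r : ℕ) [Fact r.Prime]
    (hΩ : r ∣ (Cfsg.Geo.quadSimilarityGroup Q).relIndex (Cfsg.spGL d F)) :
    (∀ x ∈ Cfsg.spGL d F, (∃ z : F, ((x ^ r : GL (Fin d ⊕ Fin d) F) : Matrix (Fin d ⊕ Fin d) (Fin d ⊕ Fin d) F) = z • (1 : Matrix (Fin d ⊕ Fin d) (Fin d ⊕ Fin d) F)) →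
      (∀ z : F, (x : Matrix (Fin d ⊕ Fin d) (Fin d ⊕ Fin d) F) ≠ z • (1 : Matrix (Fin d ⊕ Fin d) (Fin d ⊕ Fin d) F)) →
      ∃ g ∈ Cfsg.spGL d F, g⁻¹ * x * g ∈ Cfsg.Geo.quadSimilarityGroup Q) ↔
    (r = 2 ∧ (Cfsg.Geo.IsPlusTypeOn Q ⊤ ∨ Odd d)) := by
  subst hp
  have hch : (2 : F) = 0 := CharTwo.two_eq_zero
  have hd0 : 0 < d := by omega
  have hsm := hQ.smul
  have hpol : ∀ u v : Fin d ⊕ Fin d → F, Q (u + v) = Q u + Q v + Cfsg.sympForm d F u v := by
    intro u v
    have h := hQf u v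
    unfold QuadraticMap.polar at h
    linear_combination h
  constructor
  · intro hall
    have hr2 : r = 2 := by
      by_contra hr2
      obtain ⟨x, hxS, hxr, hnc⟩ := Cfsg.Agent.Helper13.SpQ7.exists_odd_not_conj hch hd0
        (fun Q₁ Q₂ h1 h2 h3 h4 => Cfsg.Agent.Helper15.SpQa.exists_diff hch Q₁ Q₂ h1 h2 h3 h4)
        (fun a h => Cfsg.Agent.Helper15.SpQa.sf_nondeg h)
        (fun Q h1 h2 b hb => Cfsg.Agent.Helper15.SpQa.reach hch Q h1 h2 b hb)
        (fun Q h1 h2 h hh b hb => Cfsg.Agent.Helper20.SpQb.orbit_pp hch Q h1 h2 h hh b hb)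
        Q hsm hpol r hr2 hΩ
      have hns : ∀ z : F, (x : Matrix (Fin d ⊕ Fin d) (Fin d ⊕ Fin d) F)
          ≠ z • (1 : Matrix (Fin d ⊕ Fin d) (Fin d ⊕ Fin d) F) := by
        intro z hz
        apply hnc 1 (one_mem _)
        rw [inv_one, one_mul, mul_one]
        exact scalar_mem_sim hd0 Q hsm x z hz
      obtain ⟨g, hg, hgx⟩ := hall x hxS ⟨1, by rw [hxr, one_smul]; rfl⟩ hns
      exact hnc g hg hgx
    refine ⟨hr2, ?_⟩
    by_contra hcon
    push_neg at hcon
    obtain ⟨hnp, hnodd⟩ := hcon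
    have hev : Even d := Nat.not_odd_iff_even.mp hnodd
    obtain ⟨x, hxS, hx2, hns, hnc⟩ :=
      Cfsg.Agent.Helper4.SpQd.exists_invol_not_conj hch hev hd Q hsm hpol hnp
    obtain ⟨g, hg, hgx⟩ := hall x hxS ⟨1, by rw [hr2, hx2, one_smul]; rfl⟩ hns
    exact hnc g hg hgx
  · rintro ⟨rfl, hpl⟩ x hxS hx2 _
    exact Cfsg.Agent.Helper9.SpQe1.invol_conj hch Q hsm hpol
      (fun b U L hU hL hdU hdL =>
        Cfsg.Agent.Helper20.SpQb.plus_plus hch Q hsm hpol b U L hU hL hdU hdL)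
      (fun x hx hx2 halt hker => Cfsg.Agent.Helper18.SpQc.even_of_alt hch x hx hx2 halt hker)
      hpl x hxS hx2


end Cfsg.Agent.S5983
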