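import Cfsg.Statements.S5985
import Cfsg.Agent.Helper27.NS4
-- import your own Cfsg.Agent.* helpers here

set_option autoImplicit false
open scoped MatrixGroups
open Cfsg

namespace Cfsg.Agent.S5985

/-- Elements of prime order of Ω⁺_n(q), q even, with no fixed nonsingular 1-space. Here `T = PΩ⁺_n(F)`, `n = 2d ≥ 8`, realised through `Ω⁺_n(q)`, the commutator subgroup of the isometry group of `Q = Σ xᵢyᵢ` over the field `F` with `q` elements; an element of `T` of prime order `r` is an element `x` of `Ω⁺_n(q)` with `x^r` scalar and `x` not scalar; `q` is even (so the centre is trivial). Let Ω be the set of 1-dimensional subspaces spanned by a vector `v` with `Q(v) ≠ 0`, and let `r` be a prime dividing their number. Then every element of `T` of order `r` fixes some nonsingular 1-space if and only if `r = 2` and `n ≡ 2 (mod 4)` (that is, `d` is odd). -/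
theorem result {F : Type*} [Field F] [Fintype F] {p : ℕ} [Fact p.Prime] [CharP F p] {q : ℕ} (hq : Fintype.card F = q)
    (hp : p = 2) (d : ℕ) (hd : 4 ≤ d) (r : ℕ) [Fact r.Prime]
    (hrΩ : r ∣ Nat.card {W : Submodule F (Fin d ⊕ Fin d → F) // Module.finrank F ↥W = 1 ∧ ∃ v ∈ W, Cfsg.quadFormPlus d F v ≠ 0}) :
    (∀ x : GL (Fin d ⊕ Fin d) F, x ∈ Cfsg.Geo.omegaGL (Cfsg.quadFormPlus d F) →
      (∃ z : F, ((x ^ r : GL (Fin d ⊕ Fin d) F) : Matrix (Fin d ⊕ Fin d) (Fin d ⊕ Fin d) F) = z • (1 : Matrix (Fin d ⊕ Fin d) (Fin d ⊕ Fin d) F)) →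
      (∀ z : F, (x : Matrix (Fin d ⊕ Fin d) (Fin d ⊕ Fin d) F) ≠ z • (1 : Matrix (Fin d ⊕ Fin d) (Fin d ⊕ Fin d) F)) →
      ∃ W : Submodule F (Fin d ⊕ Fin d → F), (Module.finrank F ↥W = 1 ∧ ∃ v ∈ W, Cfsg.quadFormPlus d F v ≠ 0) ∧ W.map (Matrix.toLin' (x : Matrix (Fin d ⊕ Fin d) (Fin d ⊕ Fin d) F)) ≤ W) ↔ (r = 2 ∧ Odd d) := by
  subst hp
  have hch : (2 : F) = 0 := CharTwo.two_eq_zero
  have hd0 : 0 < d := by omega
  constructor
  · intro hall
    by_contra hcon
    by_cases hr2 : r = 2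
    · have hev : Even d := by
        rcases Nat.even_or_odd d with h | h
        · exact h
        · exact absurd ⟨hr2, h⟩ hcon
      obtain ⟨x, hxΩ, hx2, hxe⟩ := Cfsg.Agent.Helper27.NS4.exists_invol (F := F) hch hd hev
      have h1 := hall x hxΩ ⟨1, by rw [hr2, hx2, one_smul]; rfl⟩
        (Cfsg.Agent.Helper27.NS3.not_scalar hd0 _ hxe)
      exact Cfsg.Agent.Helper27.NS3.no_inv _ hxe h1
    · obtain ⟨n, -, hn⟩ := FiniteField.card F 2
      have hdvd := Cfsg.Agent.Helper27.NS2.dvd_pow_sub_one (F := F) d (by omega) hq n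
        (by rw [← hq, hn]) r Fact.out hr2 hrΩ
      obtain ⟨x, hxΩ, hxr, hxe⟩ := Cfsg.Agent.Helper27.NS4.exists_odd (F := F) hd hq r
        Fact.out hr2 hdvd
      have h1 := hall x hxΩ ⟨1, by rw [hxr, one_smul]; rfl⟩
        (Cfsg.Agent.Helper27.NS3.not_scalar hd0 _ hxe)
      exact Cfsg.Agent.Helper27.NS3.no_inv _ hxe h1
  · rintro ⟨rfl, hodd⟩ x hxΩ hx2 _
    exact Cfsg.Agent.Helper27.NS4.invol_fix hch hd hodd x hxΩ hx2

end Cfsg.Agent.S5985
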