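import Cfsg.Statements.S5986
import Mathlib
import Cfsg.Agent.Helper13.NSm1
import Cfsg.Agent.Helper9.NS5a
import Cfsg.Agent.Helper15.NS5b
import Cfsg.Agent.Helper20.NS5c
-- import your own Cfsg.Agent.* helpers here

set_option autoImplicit false
open scoped MatrixGroups
open Cfsg

namespace Cfsg.Agent.S5986

open Matrix Cfsg.Agent.Helper4.OrthPlane Cfsg.Agent.Helper4.CartanD Cfsg.Agent.Helper4.Dickson

theorem dk_zero_of_pow {ι : Type} [Fintype ι] [DecidableEq ι] {F : Type*} [Field F] [Fintype F]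
    (Q : (ι → F) → F) (hQ : Cfsg.Geo.IsNondegenerateQuadraticForm Q)
    (h : Fintype.card F ≠ 2 ∨ Fintype.card ι ≠ 4) (x : GL ι F)
    (hx : x ∈ Cfsg.isometryGroup F Q) (r : ℕ) (hr : Odd r) (hxr : x ^ r = 1) : dk x = 0 := by
  have hpow : ∀ n : ℕ, dk (x ^ n) = (n : ZMod 2) * dk x := by
    intro n
    induction n with
    | zero => rw [pow_zero, dk_one, Nat.cast_zero, zero_mul]
    | succ n ih =>
      rw [pow_succ, Cfsg.Agent.Helper27.NS1.dk_mul Q hQ h _ _ (pow_mem hx n) hx, ih,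
        Nat.cast_succ]
      ring
  have h1 := hpow r
  rw [hxr, dk_one] at h1
  obtain ⟨k, hk⟩ := hr
  have hr1 : (r : ZMod 2) = 1 := by
    rw [hk, Nat.cast_add, Nat.cast_mul, Nat.cast_two, Nat.cast_one]
    have h20 : (2 : ZMod 2) = 0 := rfl
    rw [h20, zero_mul, zero_add]
  rw [hr1, one_mul] at h1
  exact h1.symm


/-- Elements of prime order of Ω⁻_n(q), q even, with no fixed nonsingular 1-space. Here `T = PΩ⁻_n(F)`, `n = 2d ≥ 8`, realised through `Ω⁻_n(q)`, the commutator subgroup of the isometry group of `Q = Σ_{i<d−1} xᵢyᵢ + z₁² + a z₁z₂ + b z₂²` with `z₁² + a z₁z₂ + b z₂²` anisotropic, over the field `F` with `q` elements; an element of `T` of prime order `r` is an element `x` of `Ω⁻_n(q)` with `x^r` scalar and `x` not scalar; `q` is even (so the centre is trivial). Let Ω be the set of 1-dimensional subspaces spanned by a vector `v` with `Q(v) ≠ 0`, and let `r` be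 a prime dividing their number. Then every element of `T` of order `r` fixes some nonsingular 1-space if and only if `r = 2`. -/
theorem result {F : Type*} [Field F] [Fintype F] {p : ℕ} [Fact p.Prime] [CharP F p] {q : ℕ} (hq : Fintype.card F = q)
    (hp : p = 2) (d : ℕ) (hd : 4 ≤ d) (a b : F) (hab : ∀ x y : F, x ^ 2 + a * x * y + b * y ^ 2 = 0 → x = 0 ∧ y = 0) (r : ℕ) [Fact r.Prime]
    (hrΩ : r ∣ Nat.card {W : Submodule F ((Fin (d - 1) ⊕ Fin (d - 1)) ⊕ Fin 2 → F) // Module.finrank F ↥W = 1 ∧ ∃ v ∈ W, Cfsg.quadFormMinus (d - 1) F a b v ≠ 0}) :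
    (∀ x : GL ((Fin (d - 1) ⊕ Fin (d - 1)) ⊕ Fin 2) F, x ∈ Cfsg.Geo.omegaGL (Cfsg.quadFormMinus (d - 1) F a b) →
      (∃ z : F, ((x ^ r : GL ((Fin (d - 1) ⊕ Fin (d - 1)) ⊕ Fin 2) F) : Matrix ((Fin (d - 1) ⊕ Fin (d - 1)) ⊕ Fin 2) ((Fin (d - 1) ⊕ Fin (d - 1)) ⊕ Fin 2) F) = z • (1 : Matrix ((Fin (d - 1) ⊕ Fin (d - 1)) ⊕ Fin 2) ((Fin (d - 1) ⊕ Fin (d - 1)) ⊕ Fin 2) F)) →
      (∀ z : F, (x : Matrix ((Fin (d - 1) ⊕ Fin (d - 1)) ⊕ Fin 2) ((Fin (d - 1) ⊕ Fin (d - 1)) ⊕ Fin 2) F) ≠ z • (1 : Matrix ((Fin (d - 1) ⊕ Fin (d - 1)) ⊕ Fin 2) ((Fin (d - 1) ⊕ Fin (d - 1)) ⊕ Fin 2) F)) →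
      ∃ W : Submodule F ((Fin (d - 1) ⊕ Fin (d - 1)) ⊕ Fin 2 → F), (Module.finrank F ↥W = 1 ∧ ∃ v ∈ W, Cfsg.quadFormMinus (d - 1) F a b v ≠ 0) ∧ W.map (Matrix.toLin' (x : Matrix ((Fin (d - 1) ⊕ Fin (d - 1)) ⊕ Fin 2) ((Fin (d - 1) ⊕ Fin (d - 1)) ⊕ Fin 2) F)) ≤ W) ↔ r = 2 := by
  subst hp
  have hch : (2 : F) = 0 := CharTwo.two_eq_zero
  have hsq : ∀ c : F, ∃ s, s * s = c := by
    intro c
    obtain ⟨s, hs⟩ := Cfsg.Agent.Helper20.NS5c.exists_sq hch c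
    exact ⟨s, by rw [← hs, sq]⟩
  have hQ := Cfsg.Agent.Helper4.OCenter.minus_nd_two F (d - 1) a b hch hsq hab
  have hsm := Cfsg.Agent.Helper20.NS5c.minus_smul (F := F) (d - 1) a b
  constructor
  · intro hall
    by_contra hr2
    have hdvd := Cfsg.Agent.Helper20.NS5c.dvd_card_norm_one
      (Cfsg.quadFormMinus (d - 1) F a b) hsm hch r hrΩ
    obtain ⟨x, hxO, hxr, hnf⟩ := Cfsg.Agent.Helper13.NSm1.exists_no_fix
      (Cfsg.quadFormMinus (d - 1) F a b) hQ hch r hr2 hdvd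
    have hcard : Fintype.card F ≠ 2 ∨
        Fintype.card ((Fin (d - 1) ⊕ Fin (d - 1)) ⊕ Fin 2) ≠ 4 := by
      right
      simp only [Fintype.card_sum, Fintype.card_fin]
      omega
    have hodd : Odd r := Nat.Prime.odd_of_ne_two Fact.out hr2
    have hdk := dk_zero_of_pow _ hQ hcard x hxO r hodd hxr
    obtain ⟨v₀, hv₀⟩ := Cfsg.Agent.Helper20.NS5c.minus_exists_one (F := F) (d - 1) a b
    have hmem := Cfsg.Agent.Helper27.NS1.mem_of_dk_eq_zero _ hQ hch hcard ⟨Sum.inr 0⟩ v₀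
      (by rw [hv₀]; exact one_ne_zero) ⟨x, hxO⟩ hdk
    have hxΩ : x ∈ Cfsg.Geo.omegaGL (Cfsg.quadFormMinus (d - 1) F a b) :=
      Subgroup.mem_map.mpr ⟨⟨x, hxO⟩, hmem, rfl⟩
    have hiso := (Cfsg.Agent.Helper20.NS5c.mem_iso_iff _ x).mp hxO
    have h1 := hall x hxΩ ⟨1, by rw [hxr, one_smul]; rfl⟩
      (Cfsg.Agent.Helper20.NS5c.not_scalar_of_no_fix _ hsm hch _ hiso ⟨v₀, hv₀⟩ hnf)
    obtain ⟨v, hv1, hvfix⟩ := Cfsg.Agent.Helper20.NS5c.exists_fixed_of_mem _ hsm hch x hxO h1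
    exact hnf v hv1 hvfix
  · rintro rfl x hxΩ hx2 _
    exact Cfsg.Agent.Helper15.NS5b.invol_fix_minus_omega (d - 1) a b hch
      (fun W hW => Cfsg.Agent.Helper9.NS5a.ts_minus hab hch W hW) x hxΩ hx2


end Cfsg.Agent.S5986
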