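import Cfsg.Statements.S5998
import Cfsg.Agent.Helper16.S5998a
import Cfsg.Agent.Helper16.S5998p2
import Cfsg.Agent.Helper16.S5998p6
import Cfsg.Agent.Lead.S5998p1
import Cfsg.Agent.Lead.S5998p8
import Cfsg.Agent.Lead.S5998p10
import Cfsg.Agent.Helper11.S5998p5

set_option autoImplicit false
open scoped MatrixGroups
open Cfsg

namespace Cfsg.Agent.S5998

section mats
variable {F : Type*} [Field F]

theorem m1 (w : F) (hw3 : w ^ 3 = 1) :
    (!![-1,0,0; 0,0,-1; 0,-1,0] : Matrix (Fin 3) (Fin 3) F) * !![1,0,0; 0,w,0; 0,0,w^2]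
      = (!![1,0,0; 0,w,0; 0,0,w^2] * !![1,0,0; 0,w,0; 0,0,w^2]) * !![-1,0,0; 0,0,-1; 0,-1,0] := by
  have h4 : w ^ 2 * w ^ 2 = w := by linear_combination w * hw3
  ext i j; fin_cases i <;> fin_cases j <;> simp [Matrix.mul_apply, Fin.sum_univ_three, h4] <;> ring_nf

theorem m2 :
    (!![-1,0,0; 0,0,-1; 0,-1,0] : Matrix (Fin 3) (Fin 3) F) * !![0,0,1; 1,0,0; 0,1,0]
      = (!![0,0,1; 1,0,0; 0,1,0] * !![0,0,1; 1,0,0; 0,1,0]) * !![-1,0,0; 0,0,-1; 0,-1,0] := by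
  ext i j; fin_cases i <;> fin_cases j <;> simp [Matrix.mul_apply, Fin.sum_univ_three]

theorem m3 (w v : F) :
    (!![1,0,0; 0,1,0; 0,0,v] : Matrix (Fin 3) (Fin 3) F) * !![1,0,0; 0,w,0; 0,0,w^2]
      = !![1,0,0; 0,w,0; 0,0,w^2] * !![1,0,0; 0,1,0; 0,0,v] := by
  ext i j; fin_cases i <;> fin_cases j <;> simp [Matrix.mul_apply, Fin.sum_univ_three, mul_comm]

theorem m4 (w : F) (hw3 : w ^ 3 = 1) :
    (!![1,0,0; 0,1,0; 0,0,w] : Matrix (Fin 3) (Fin 3) F) * !![0,0,1; 1,0,0; 0,1,0]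
      = (!![0,0,1; 1,0,0; 0,1,0] * !![1,0,0; 0,w,0; 0,0,w^2]) * !![1,0,0; 0,1,0; 0,0,w] := by
  have h3 : w ^ 2 * w = 1 := by linear_combination hw3
  ext i j; fin_cases i <;> fin_cases j <;> simp [Matrix.mul_apply, Fin.sum_univ_three, h3]

theorem m6 (w : F) (hw3 : w ^ 3 = 1) :
    (!![1,0,0; 0,1,0; 0,0,w^2] : Matrix (Fin 3) (Fin 3) F) * !![0,0,1; 1,0,0; 0,1,0]
      = (!![0,0,1; 1,0,0; 0,1,0] * !![1,0,0; 0,w,0; 0,0,w^2] * !![1,0,0; 0,w,0; 0,0,w^2]) * !![1,0,0; 0,1,0; 0,0,w^2] := by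
  have h6 : w ^ 2 * w ^ 2 * w ^ 2 = 1 := by linear_combination (w ^ 3 + 1) * hw3
  ext i j; fin_cases i <;> fin_cases j <;> simp [Matrix.mul_apply, Fin.sum_univ_three, h6] <;> ring_nf

theorem m7 (w : F) (hw3 : w ^ 3 = 1) :
    (!![1,0,0; 0,w,0; 0,0,w^2] : Matrix (Fin 3) (Fin 3) F) * !![0,0,1; 1,0,0; 0,1,0]
      = (!![1,0,0; 0,w,0; 0,0,w^2] * !![0,0,1; 1,0,0; 0,1,0] * !![1,0,0; 0,w,0; 0,0,w^2] * !![1,0,0; 0,w,0; 0,0,w^2]) * !![1,0,0; 0,w,0; 0,0,w^2] := by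
  have h3 : w * w * w = 1 := by linear_combination hw3
  have h6 : w ^ 2 * w ^ 2 * w ^ 2 = 1 := by linear_combination (w ^ 3 + 1) * hw3
  ext i j; fin_cases i <;> fin_cases j <;> simp [Matrix.mul_apply, Fin.sum_univ_three, h3, h6, mul_assoc] <;> ring_nf

theorem m8 (δ : F) :
    (!![δ,0,0; 0,1,0; 0,0,1] : Matrix (Fin 3) (Fin 3) F) * !![-1,0,0; 0,0,-1; 0,-1,0]
      = !![-1,0,0; 0,0,-1; 0,-1,0] * !![δ,0,0; 0,1,0; 0,0,1] := by
  ext i j; fin_cases i <;> fin_cases j <;> simp [Matrix.mul_apply, Fin.sum_univ_three]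

theorem m9 (δ d0 d1 d2 : F) :
    (!![δ,0,0; 0,1,0; 0,0,1] : Matrix (Fin 3) (Fin 3) F) * !![d0,0,0; 0,d1,0; 0,0,d2]
      = !![d0,0,0; 0,d1,0; 0,0,d2] * !![δ,0,0; 0,1,0; 0,0,1] := by
  ext i j; fin_cases i <;> fin_cases j <;> simp [Matrix.mul_apply, Fin.sum_univ_three, mul_comm]

theorem m10 (δ : F) : (!![δ,0,0; 0,1,0; 0,0,1] : Matrix (Fin 3) (Fin 3) F).det = δ := by
  simp [Matrix.det_fin_three]

end mats

theorem conj_mul {F : Type*} [Field F] (a1 a2 g : GL (Fin 3) F) (A1 A2 : Matrix (Fin 3) (Fin 3) F)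
    (h1 : (a1 : Matrix (Fin 3) (Fin 3) F) * (g : Matrix (Fin 3) (Fin 3) F) = (g : Matrix (Fin 3) (Fin 3) F) * A1)
    (h2 : (a2 : Matrix (Fin 3) (Fin 3) F) * (g : Matrix (Fin 3) (Fin 3) F) = (g : Matrix (Fin 3) (Fin 3) F) * A2) :
    ((a1 * a2 : GL (Fin 3) F) : Matrix (Fin 3) (Fin 3) F) * (g : Matrix (Fin 3) (Fin 3) F)
      = (g : Matrix (Fin 3) (Fin 3) F) * (A1 * A2) := by
  rw [Units.val_mul, Matrix.mul_assoc, h2, ← Matrix.mul_assoc, h1, Matrix.mul_assoc]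


/-- Elements of prime order of PSL_3(p), p ≡ 1 (mod 3), and the normalizer of an extraspecial subgroup of order 27. Here `T = PSL_3(F)` for the field `F` with `p` elements, `p` a prime with `p ≡ 1 (mod 3)`; `R` is a non-abelian subgroup of GL_3(F) of order 27 and exponent 3 (an extraspecial group 3^{1+2}, acting absolutely irreducibly), and `H` is the subgroup of matrices of determinant 1 normalizing `R` — a subgroup of type 3^{1+2}.Sp₂(3) (maximality is not assumed). Ω is the set of cosets of `H` in `T`, so an element of `T` of prime order `r` (a matrix `x` of determinant 1 with `x^r` scalar, `x` not scalar) fixes a point of Ω exactly when some conjugate of `x` by a matrix of determinant 1 normalizes `R`. Let `r` be a prime dividing the index of `H`. Then every element of `T` of order `r` fixes a point of Ω if and only if `r = 2`, or `r = 3` and `p ≡ 1 (mod 9)`. -/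
theorem result {F : Type*} [Field F] [Fintype F] {p : ℕ} [Fact p.Prime] [CharP F p] (hF : Fintype.card F = p) (hp3 : p % 3 = 1)
    (R : Subgroup (GL (Fin 3) F)) (hR : Nat.card R = 27) (hRe : Monoid.exponent R = 3) (hRna : ¬ IsMulCommutative R)
    (r : ℕ) [Fact r.Prime]
    (hΩ : r ∣ (Cfsg.Geo.subgroupNormalizer R).relIndex (Cfsg.Geo.specialLinear (Fin 3) F)) :
    (∀ x ∈ Cfsg.Geo.specialLinear (Fin 3) F, (∃ z : F, ((x ^ r : GL (Fin 3) F) : Matrix (Fin 3) (Fin 3) F) = z • (1 : Matrix (Fin 3) (Fin 3) F)) →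
      (∀ z : F, (x : Matrix (Fin 3) (Fin 3) F) ≠ z • (1 : Matrix (Fin 3) (Fin 3) F)) →
      ∃ g ∈ Cfsg.Geo.specialLinear (Fin 3) F, g⁻¹ * x * g ∈ Cfsg.Geo.subgroupNormalizer R) ↔ (r = 2 ∨ (r = 3 ∧ p % 9 = 1)) := by
  classical
  have hpP : p.Prime := Fact.out
  have : Finite R := Nat.finite_of_card_ne_zero (by rw [hR]; norm_num)
  obtain ⟨w0, hw0, hw03⟩ := Cfsg.Agent.Helper16.S5998a.p0 (F := F) hF hp3
  obtain ⟨a, b, z, haR, hbR, hz1, hab, hza, hzb, ha3, hb3, hz3, hRab⟩ := Cfsg.Agent.Lead.S5998p1.p1 R hR hRe hRna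
  obtain ⟨g, w, hw1, hw3, hag, hbg⟩ := Cfsg.Agent.Helper16.S5998p2.p2 w0 hw0 hw03 a b z hz1 hab hza hzb ha3 hb3 hz3
  have hRSL : R ≤ Cfsg.Geo.specialLinear (Fin 3) F := Cfsg.Agent.Helper16.S5998a.p11 w hw3 R a b g hRab hag hbg
  have h2F : (2 : F) ≠ 0 := by
    intro h
    have h' : ((2 : ℕ) : F) = 0 := by exact_mod_cast h
    rw [CharP.cast_eq_zero_iff F p] at h'
    have h1 := Nat.le_of_dvd (by norm_num) h'
    have hp2 := hpP.two_le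
    have h3 : p = 2 := by omega
    omega
  -- generic conjugation-into-normalizer step
  have hstep : ∀ (x k : GL (Fin 3) F) (c : F) (Y Wa Wb : Matrix (Fin 3) (Fin 3) F),
      (x : Matrix (Fin 3) (Fin 3) F) * (k : Matrix (Fin 3) (Fin 3) F) = c • ((k : Matrix (Fin 3) (Fin 3) F) * Y) →
      (∀ δ : F, (!![δ,0,0; 0,1,0; 0,0,1] : Matrix (Fin 3) (Fin 3) F) * Y = Y * !![δ,0,0; 0,1,0; 0,0,1]) →
      Y * !![1,0,0; 0,w,0; 0,0,w^2] = Wa * Y → Y * !![0,0,1; 1,0,0; 0,1,0] = Wb * Y →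
      (∃ a' ∈ R, (a' : Matrix (Fin 3) (Fin 3) F) * (g : Matrix (Fin 3) (Fin 3) F) = (g : Matrix (Fin 3) (Fin 3) F) * Wa) →
      (∃ b' ∈ R, (b' : Matrix (Fin 3) (Fin 3) F) * (g : Matrix (Fin 3) (Fin 3) F) = (g : Matrix (Fin 3) (Fin 3) F) * Wb) →
      ∃ h ∈ Cfsg.Geo.specialLinear (Fin 3) F, h⁻¹ * x * h ∈ Cfsg.Geo.subgroupNormalizer R := by
    intro x k c Y Wa Wb hk hE hWa hWb hWaR hWbR
    refine Cfsg.Agent.Helper16.S5998a.p4 (Cfsg.Geo.subgroupNormalizer R) x k g Y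
      (!![(g : Matrix (Fin 3) (Fin 3) F).det * ((k : Matrix (Fin 3) (Fin 3) F).det)⁻¹,0,0; 0,1,0; 0,0,1]) c hk (hE _) ?_ ?_
    · rw [m10]
      exact inv_mul_cancel_right₀ (Cfsg.Agent.Helper16.S5998a.det_ne k) _
    · intro u hu
      exact Cfsg.Agent.Helper16.S5998a.p3 R a b u g hRab _ _ Y Wa Wb c hag hbg hu hWa hWb hWaR hWbR
  constructor
  · intro hall
    by_contra hcon
    obtain ⟨hr2, hr39⟩ := not_or.1 hcon
    by_cases hr3 : r = 3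
    · have hp9 : p % 9 ≠ 1 := fun h => hr39 ⟨hr3, h⟩
      exact Cfsg.Agent.Lead.S5998p10.p10 hF hp3 hp9 R hR hRSL (hr3 ▸ hΩ)
    · have hrcard : r ∣ Nat.card ↥(Cfsg.Geo.specialLinear (Fin 3) F) :=
        dvd_trans hΩ (Subgroup.relIndex_dvd_card _ _)
      obtain ⟨x, hxSL, hxr, hxns⟩ := Cfsg.Agent.Helper16.S5998a.p7 (F := F) r hr3 hrcard
      have hxr1 : x ^ r = 1 := by rw [← hxr]; exact pow_orderOf_eq_one x
      obtain ⟨g', hg'SL, hg'N⟩ := hall x hxSL ⟨1, by rw [hxr1]; simp⟩ hxns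
      have hyr : orderOf (g'⁻¹ * x * g') = r := by
        rw [← hxr]
        have h1 := orderOf_injective (MulAut.conj g'⁻¹).toMonoidHom (MulAut.conj g'⁻¹).injective x
        simpa [MulAut.conj_apply] using h1
      have hcomm := Cfsg.Agent.Lead.S5998p8.p8 R hR hRna _ hg'N r hr2 hr3 hyr
      obtain ⟨z', hz'⟩ := Cfsg.Agent.Helper16.S5998a.p9 w hw1 hw3 a b g _ hag hbg (hcomm a haR) (hcomm b hbR)
      apply hxns z'
      have hx' : x = g' * (g'⁻¹ * x * g') * g'⁻¹ := by group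
      rw [hx', Units.val_mul, Units.val_mul, hz', Matrix.mul_smul, Matrix.mul_one, Matrix.smul_mul,
        ← Units.val_mul, mul_inv_cancel, Units.val_one]
  · rintro (rfl | ⟨rfl, h9⟩)
    · intro x hxSL hxz hxns
      obtain ⟨z, hxz⟩ := hxz
      obtain ⟨k, c, hk⟩ := Cfsg.Agent.Helper11.S5998p5.p5 h2F x (Cfsg.Agent.Helper16.S5998a.det_of_mem x hxSL) z hxz hxns
      exact hstep x k c _ (!![1,0,0; 0,w,0; 0,0,w^2] * !![1,0,0; 0,w,0; 0,0,w^2])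
        (!![0,0,1; 1,0,0; 0,1,0] * !![0,0,1; 1,0,0; 0,1,0]) hk (fun δ => m8 δ) (m1 w hw3) m2
        ⟨a * a, R.mul_mem haR haR, conj_mul a a g _ _ hag hag⟩
        ⟨b * b, R.mul_mem hbR hbR, conj_mul b b g _ _ hbg hbg⟩
    · intro x hxSL hxz hxns
      obtain ⟨z, hxz⟩ := hxz
      have h9' : 9 ∣ Fintype.card F - 1 := by rw [hF]; omega
      obtain ⟨k, c, hk | hk | hk⟩ := Cfsg.Agent.Helper16.S5998p6.p6 h9' w hw1 hw3 x (Cfsg.Agent.Helper16.S5998a.det_of_mem x hxSL) z hxz hxns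
      · exact hstep x k c _ (!![1,0,0; 0,w,0; 0,0,w^2])
          (!![1,0,0; 0,w,0; 0,0,w^2] * !![0,0,1; 1,0,0; 0,1,0] * !![1,0,0; 0,w,0; 0,0,w^2] * !![1,0,0; 0,w,0; 0,0,w^2])
          hk (fun δ => m9 δ 1 w (w^2)) rfl (m7 w hw3)
          ⟨a, haR, hag⟩
          ⟨a * b * a * a, R.mul_mem (R.mul_mem (R.mul_mem haR hbR) haR) haR,
            conj_mul _ a g _ _ (conj_mul _ a g _ _ (conj_mul a b g _ _ hag hbg) hag) hag⟩
      · exact hstep x k c _ (!![1,0,0; 0,w,0; 0,0,w^2])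
          (!![0,0,1; 1,0,0; 0,1,0] * !![1,0,0; 0,w,0; 0,0,w^2])
          hk (fun δ => m9 δ 1 1 w) (m3 w w) (m4 w hw3)
          ⟨a, haR, hag⟩
          ⟨b * a, R.mul_mem hbR haR, conj_mul b a g _ _ hbg hag⟩
      · exact hstep x k c _ (!![1,0,0; 0,w,0; 0,0,w^2])
          (!![0,0,1; 1,0,0; 0,1,0] * !![1,0,0; 0,w,0; 0,0,w^2] * !![1,0,0; 0,w,0; 0,0,w^2])
          hk (fun δ => m9 δ 1 1 (w^2)) (m3 w (w^2)) (m6 w hw3)
          ⟨a, haR, hag⟩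
          ⟨b * a * a, R.mul_mem (R.mul_mem hbR haR) haR, conj_mul _ a g _ _ (conj_mul b a g _ _ hbg hag) hag⟩


end Cfsg.Agent.S5998
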