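import Cfsg.Statements.S5999
import Mathlib
import Cfsg.Agent.Helper26.U3A1
import Cfsg.Agent.Helper13.U3A2
import Cfsg.Agent.Helper13.U3B
import Cfsg.Agent.Helper29.U3E
import Cfsg.Agent.Helper23.U3B4
import Cfsg.Agent.Helper27.U3C
import Cfsg.Agent.Helper4.U3D
-- import your own Cfsg.Agent.* helpers here

set_option autoImplicit false
open scoped MatrixGroups
open Cfsg

namespace Cfsg.Agent.S5999

section hlp

variable {F : Type*} [Field F] [Fintype F] {p : ℕ} [Fact p.Prime] [CharP F p]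

/-- glue: the unitary normal form of `R`. -/
theorem nf (hF : Fintype.card F = p ^ 2) (hp3 : p % 3 = 2)
    (R : Subgroup (GL (Fin 3) F)) (hRU : R ≤ Cfsg.GU 3 F p) (hR : Nat.card R = 27)
    (hRe : Monoid.exponent R = 3) (hRna : ¬ IsMulCommutative R) :
    ∃ (g : GL (Fin 3) F) (ω : F), g ∈ Cfsg.GU 3 F p ∧ ω ≠ 1 ∧ ω ^ 3 = 1 ∧
      ∀ y : GL (Fin 3) F, y ∈ R ↔ ∃ i j k : ℕ, (y : Matrix (Fin 3) (Fin 3) F) =
      (g : Matrix (Fin 3) (Fin 3) F) * (ω ^ i • (Matrix.diagonal ![1, ω ^ 2, ω] ^ j *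
        !![0, 0, 1; 1, 0, 0; 0, 1, 0] ^ k)) * ((g⁻¹ : GL (Fin 3) F) : Matrix (Fin 3) (Fin 3) F) := by
  obtain ⟨a, b, ω, haR, hbR, hω, hω3, ha3, hb3, hba, hall⟩ := Cfsg.Agent.Helper26.U3A1.gens hF hp3 R hR hRe hRna
  obtain ⟨g, hg, hag, hbg⟩ := Cfsg.Agent.Helper13.U3A2.ubasis hF hp3 a b (hRU haR) (hRU hbR) ω hω hω3 ha3 hb3 hba
  refine ⟨g, ω, hg, hω, hω3, ?_⟩
  have hgg' : ((g⁻¹ : GL (Fin 3) F) : Matrix (Fin 3) (Fin 3) F) * (g : Matrix (Fin 3) (Fin 3) F) = 1 := by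
    rw [← Units.val_mul, inv_mul_cancel, Units.val_one]
  have hgg : (g : Matrix (Fin 3) (Fin 3) F) * ((g⁻¹ : GL (Fin 3) F) : Matrix (Fin 3) (Fin 3) F) = 1 := by
    rw [← Units.val_mul, mul_inv_cancel, Units.val_one]
  have hconjpow : ∀ (u : GL (Fin 3) F) (M : Matrix (Fin 3) (Fin 3) F),
      (u : Matrix (Fin 3) (Fin 3) F) = (g : Matrix (Fin 3) (Fin 3) F) * M *
        ((g⁻¹ : GL (Fin 3) F) : Matrix (Fin 3) (Fin 3) F) →
      ∀ j : ℕ, ((u ^ j : GL (Fin 3) F) : Matrix (Fin 3) (Fin 3) F) =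
        (g : Matrix (Fin 3) (Fin 3) F) * M ^ j * ((g⁻¹ : GL (Fin 3) F) : Matrix (Fin 3) (Fin 3) F) := by
    intro u M hu j
    induction j with
    | zero => simp
    | succ n ih =>
      rw [pow_succ, Units.val_mul, ih, hu, pow_succ]
      calc (g : Matrix (Fin 3) (Fin 3) F) * M ^ n * ((g⁻¹ : GL (Fin 3) F) : Matrix (Fin 3) (Fin 3) F) *
            ((g : Matrix (Fin 3) (Fin 3) F) * M * ((g⁻¹ : GL (Fin 3) F) : Matrix (Fin 3) (Fin 3) F))
          = (g : Matrix (Fin 3) (Fin 3) F) * M ^ n * (((g⁻¹ : GL (Fin 3) F) : Matrix (Fin 3) (Fin 3) F) *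
            (g : Matrix (Fin 3) (Fin 3) F)) * M * ((g⁻¹ : GL (Fin 3) F) : Matrix (Fin 3) (Fin 3) F) := by
            simp only [Matrix.mul_assoc]
        _ = _ := by rw [hgg', Matrix.mul_one]; simp only [Matrix.mul_assoc]
  have hkey : ∀ i j k : ℕ, ω ^ i • ((a ^ j * b ^ k : GL (Fin 3) F) : Matrix (Fin 3) (Fin 3) F) =
      (g : Matrix (Fin 3) (Fin 3) F) * (ω ^ i • (Matrix.diagonal ![1, ω ^ 2, ω] ^ j *
        !![0, 0, 1; 1, 0, 0; 0, 1, 0] ^ k)) * ((g⁻¹ : GL (Fin 3) F) : Matrix (Fin 3) (Fin 3) F) := by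
    intro i j k
    rw [Units.val_mul, hconjpow a _ hag j, hconjpow b _ hbg k]
    rw [Matrix.mul_smul, Matrix.smul_mul]
    congr 1
    calc (g : Matrix (Fin 3) (Fin 3) F) * Matrix.diagonal ![1, ω ^ 2, ω] ^ j *
          ((g⁻¹ : GL (Fin 3) F) : Matrix (Fin 3) (Fin 3) F) *
          ((g : Matrix (Fin 3) (Fin 3) F) * !![0, 0, 1; 1, 0, 0; 0, 1, 0] ^ k *
          ((g⁻¹ : GL (Fin 3) F) : Matrix (Fin 3) (Fin 3) F))
        = (g : Matrix (Fin 3) (Fin 3) F) * Matrix.diagonal ![1, ω ^ 2, ω] ^ j *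
          (((g⁻¹ : GL (Fin 3) F) : Matrix (Fin 3) (Fin 3) F) * (g : Matrix (Fin 3) (Fin 3) F)) *
          !![0, 0, 1; 1, 0, 0; 0, 1, 0] ^ k * ((g⁻¹ : GL (Fin 3) F) : Matrix (Fin 3) (Fin 3) F) := by
          simp only [Matrix.mul_assoc]
      _ = _ := by rw [hgg', Matrix.mul_one]; simp only [Matrix.mul_assoc]
  intro y
  constructor
  · intro hy
    obtain ⟨i, j, k, h⟩ := hall y hy
    exact ⟨i, j, k, by rw [h, hkey]⟩
  · rintro ⟨i, j, k, h⟩
    have hz : ((b * a * (a * b)⁻¹ : GL (Fin 3) F) : Matrix (Fin 3) (Fin 3) F) = ω • 1 := by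
      rw [Units.val_mul, hba, Matrix.smul_mul, ← Units.val_mul, mul_inv_cancel, Units.val_one]
    have hzR : b * a * (a * b)⁻¹ ∈ R := R.mul_mem (R.mul_mem hbR haR) (R.inv_mem (R.mul_mem haR hbR))
    have hy : y = (b * a * (a * b)⁻¹) ^ i * (a ^ j * b ^ k) := by
      apply Units.ext
      rw [h, ← hkey, Units.val_mul (_ ^ i), Units.val_pow_eq_pow_val, hz, smul_pow, one_pow,
        Matrix.smul_mul, Matrix.one_mul]
    rw [hy]
    exact R.mul_mem (R.pow_mem hzR i) (R.mul_mem (R.pow_mem haR j) (R.pow_mem hbR k))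

/-- glue: a scalar multiple of a normalising element normalises. -/
theorem smul_mem_normalizer (R : Subgroup (GL (Fin 3) F)) (y n : GL (Fin 3) F) (c : F)
    (hn : n ∈ Cfsg.Geo.subgroupNormalizer R)
    (h : (y : Matrix (Fin 3) (Fin 3) F) = c • (n : Matrix (Fin 3) (Fin 3) F)) :
    y ∈ Cfsg.Geo.subgroupNormalizer R := by
  have hs : ((y * n⁻¹ : GL (Fin 3) F) : Matrix (Fin 3) (Fin 3) F) = c • 1 := by
    rw [Units.val_mul, h, Matrix.smul_mul, ← Units.val_mul, mul_inv_cancel, Units.val_one]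
  have hcomm : ∀ w : GL (Fin 3) F, (y * n⁻¹) * w = w * (y * n⁻¹) := by
    intro w
    apply Units.ext
    show ((y * n⁻¹ : GL (Fin 3) F) : Matrix (Fin 3) (Fin 3) F) * (w : Matrix (Fin 3) (Fin 3) F) =
      (w : Matrix (Fin 3) (Fin 3) F) * ((y * n⁻¹ : GL (Fin 3) F) : Matrix (Fin 3) (Fin 3) F)
    rw [hs]
    simp
  unfold Cfsg.Geo.subgroupNormalizer at hn ⊢
  rw [Subgroup.mem_normalizer_iff] at hn ⊢
  intro w
  rw [hn w]
  have h1 : y * w * y⁻¹ = n * w * n⁻¹ := by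
    calc y * w * y⁻¹ = (y * n⁻¹) * (n * w * n⁻¹) * (y * n⁻¹)⁻¹ := by group
      _ = (n * w * n⁻¹) * (y * n⁻¹) * (y * n⁻¹)⁻¹ := by rw [hcomm]
      _ = n * w * n⁻¹ := by group
  rw [h1]

end hlp


/-- Elements of prime order of PSU_3(p), p ≡ 2 (mod 3), and the normalizer of an extraspecial subgroup of order 27. Here `T = PSU_3(p)` for a prime `p ≥ 5` with `p ≡ 2 (mod 3)`, realised through `SU_3(p)`, the matrices of determinant 1 over the field `F` with `p²` elements preserving the hermitian form `Σ uᵢvᵢ^p`; `R` is a non-abelian subgroup of order 27 and exponent 3 of the full unitary group of that form (an extraspecial group 3^{1+2}, acting absolutely irreducibly), and `H` is the subgroup of `SU_3(p)` normalizing `R` — a subgroup of type 3^{1+2}.Sp₂(3) (maximality is not assumed). Ω is the set of cosets of `H`, so an element of `T` of prime order `r` (`x ∈ SU_3(p)` with `x^r` scalar, `x` not scalar) fixes a point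 of Ω exactly when some `SU_3(p)`-conjugate of `x` normalizes `R`. Let `r` be a prime dividing the index of `H`. Then every element of `T` of order `r` fixes a point of Ω if and only if `r = 2`, or `r = 3` and `p ≡ 8 (mod 9)`. -/
theorem result {F : Type*} [Field F] [Fintype F] {p : ℕ} [Fact p.Prime] [CharP F p] (hF : Fintype.card F = p ^ 2) (hp : 5 ≤ p) (hp3 : p % 3 = 2)
    (R : Subgroup (GL (Fin 3) F)) (hRU : R ≤ Cfsg.GU 3 F p) (hR : Nat.card R = 27) (hRe : Monoid.exponent R = 3) (hRna : ¬ IsMulCommutative R)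
    (r : ℕ) [Fact r.Prime]
    (hΩ : r ∣ (Cfsg.Geo.subgroupNormalizer R).relIndex (Cfsg.GU 3 F p ⊓ Cfsg.Geo.specialLinear (Fin 3) F)) :
    (∀ x ∈ Cfsg.GU 3 F p ⊓ Cfsg.Geo.specialLinear (Fin 3) F, (∃ z : F, ((x ^ r : GL (Fin 3) F) : Matrix (Fin 3) (Fin 3) F) = z • (1 : Matrix (Fin 3) (Fin 3) F)) →
      (∀ z : F, (x : Matrix (Fin 3) (Fin 3) F) ≠ z • (1 : Matrix (Fin 3) (Fin 3) F)) →
      ∃ g ∈ Cfsg.GU 3 F p ⊓ Cfsg.Geo.specialLinear (Fin 3) F, g⁻¹ * x * g ∈ Cfsg.Geo.subgroupNormalizer R) ↔ (r = 2 ∨ (r = 3 ∧ p % 9 = 8)) := by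
  obtain ⟨g, ω, hg, hω, hω3, hRd⟩ := nf hF hp3 R hRU hR hRe hRna
  have hr : r.Prime := Fact.out
  obtain ⟨T, hT⟩ : ∃ T : GL (Fin 3) F,
      (T : Matrix (Fin 3) (Fin 3) F) = !![-1, 0, 0; 0, 0, -1; 0, -1, 0] := by
    refine ⟨⟨!![-1, 0, 0; 0, 0, -1; 0, -1, 0], !![-1, 0, 0; 0, 0, -1; 0, -1, 0], ?_, ?_⟩, rfl⟩ <;>
    · ext i j
      fin_cases i <;> fin_cases j <;> simp [Matrix.mul_apply, Fin.sum_univ_three]
  constructor
  · intro hL
    by_contra hcon
    push_neg at hcon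
    obtain ⟨hr2, hr3⟩ := hcon
    by_cases h3 : r = 3
    · subst h3
      have hRS : R ≤ Cfsg.GU 3 F p ⊓ Cfsg.Geo.specialLinear (Fin 3) F :=
        le_inf hRU (Cfsg.Agent.Helper13.U3B.le_sl R g ω hω hω3 hRd)
      exact Cfsg.Agent.Helper29.U3E.no3 hF hp3 (hr3 rfl) (Cfsg.Geo.subgroupNormalizer R) R hR Subgroup.le_normalizer hRS hΩ
    · have hr5 : 5 ≤ r := by
        have h2 := hr.two_le
        by_contra hlt
        push_neg at hlt
        interval_cases r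
        · exact hr2 rfl
        · exact h3 rfl
        · exact absurd hr (by decide)
      have hdvd : r ∣ Nat.card ↥(Cfsg.GU 3 F p ⊓ Cfsg.Geo.specialLinear (Fin 3) F) :=
        dvd_trans hΩ (Subgroup.relIndex_dvd_card _ _)
      obtain ⟨x, hx⟩ := exists_prime_orderOf_dvd_card' r hdvd
      have hxr : ((x : GL (Fin 3) F)) ^ r = 1 := by
        have h1 := pow_orderOf_eq_one x
        rw [hx] at h1
        have h2 := congrArg Subtype.val h1
        simpa using h2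
      have hxns : ∀ z : F, ((x : GL (Fin 3) F) : Matrix (Fin 3) (Fin 3) F) ≠
          z • (1 : Matrix (Fin 3) (Fin 3) F) := by
        intro z hz
        have hdet : ((x : GL (Fin 3) F) : Matrix (Fin 3) (Fin 3) F).det = 1 := by
          have h1 := (Subgroup.mem_inf.mp x.2).2
          unfold Cfsg.Geo.specialLinear at h1
          rw [MonoidHom.mem_ker] at h1
          have h2 := congrArg Units.val h1
          simpa using h2
        rw [hz] at hdet
        have hz3 : z ^ 3 = 1 := by simpa [Matrix.det_smul] using hdet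
        have hx3 : x ^ 3 = 1 := by
          apply Subtype.ext
          apply Units.ext
          simp only [SubgroupClass.coe_pow, Units.val_pow_eq_pow_val, hz, smul_pow, one_pow, hz3,
            one_smul, OneMemClass.coe_one, Units.val_one]
        have h3' := orderOf_dvd_of_pow_eq_one hx3
        rw [hx] at h3'
        have := Nat.le_of_dvd (by norm_num) h3'
        omega
      obtain ⟨h, hh, hmem⟩ := hL x.1 x.2 ⟨1, by rw [hxr]; simp⟩ hxns
      have hconjr : (h⁻¹ * (x : GL (Fin 3) F) * h) ^ r = 1 := by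
        rw [show h⁻¹ * (x : GL (Fin 3) F) * h = h⁻¹ * (x : GL (Fin 3) F) * h⁻¹⁻¹ by group,
          conj_pow, hxr]
        group
      obtain ⟨z, hz⟩ := Cfsg.Agent.Helper23.U3B4.nz_scalar R g ω hω hω3 hRd hR (h⁻¹ * (x : GL (Fin 3) F) * h) hmem r hr hr5
        ⟨1, by rw [hconjr]; simp⟩
      apply hxns z
      have hxe : (x : GL (Fin 3) F) = h * (h⁻¹ * (x : GL (Fin 3) F) * h) * h⁻¹ := by group
      rw [hxe, Units.val_mul, Units.val_mul, hz, Matrix.mul_smul, Matrix.smul_mul, Matrix.mul_one,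
        ← Units.val_mul, mul_inv_cancel, Units.val_one]
  · rintro (rfl | ⟨rfl, hp9⟩)
    · intro x hx hx2 hns
      obtain ⟨h, c, hh, heq⟩ := Cfsg.Agent.Helper27.U3C.inv_conj hF hp x hx hx2 hns g hg T hT
      exact ⟨h, hh, smul_mem_normalizer R _ _ c (Cfsg.Agent.Helper13.U3B.nz_T R g ω hω hω3 hRd T hT) heq⟩
    · intro x hx hx3 hns
      obtain ⟨h, D, d, hh, hD, h01, h12, heq⟩ := Cfsg.Agent.Helper4.U3D.ord3_conj hF hp9 x hx hx3 g hg
      exact ⟨h, hh, heq ▸ Cfsg.Agent.Helper13.U3B.nz_D R g ω hω hω3 hRd D d hD h01 h12⟩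


end Cfsg.Agent.S5999
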